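import Cfsg.Statements.S0427
import Cfsg.Agent.Lib.H10.Steiner22

set_option autoImplicit false
open Cfsg

namespace Cfsg.Agent.S0427

open H10.Steiner22

theorem adj_iff {α : Type*} {B : Set (Finset α)} (h : ∀ b ∈ B, b.Nonempty) (b c : B) :
    (Cfsg.blockGraph B).Adj b c ↔ Disjoint (b : Finset α) (c : Finset α) := by
  unfold Cfsg.blockGraph
  rw [SimpleGraph.fromRel_adj]
  constructor
  · rintro ⟨_, h | h⟩
    · exact h
    · exact h.symm
  · intro hd
    refine ⟨?_, Or.inl hd⟩
    rintro rfl
    exact (h b b.2).ne_empty (disjoint_self.1 hd)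

theorem card_filter_coe {α : Type*} (B : Set (Finset α)) [Fintype B] (P : Finset α → Prop) [DecidablePred P]
    [DecidablePred fun b : B => P b] :
    (Finset.univ.filter fun b : B => P b).card = (B.toFinset.filter P).card := by
  rw [← Finset.card_map ⟨Subtype.val, Subtype.val_injective⟩]
  congr 1
  ext d
  simp only [Finset.mem_map, Finset.mem_filter, Finset.mem_univ, true_and, Function.Embedding.coeFn_mk,
    Set.mem_toFinset]
  constructor
  · rintro ⟨b, hb, rfl⟩; exact ⟨b.2, hb⟩
  · rintro ⟨hd, hP⟩; exact ⟨⟨d, hd⟩, hP, rfl⟩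

/-- The block graph (adjacent = disjoint) of an S(3, 6, 22) is strongly regular with parameters (77, 16, 0, 4). -/
theorem result {α : Type*} [Fintype α] (hα : Fintype.card α = 22) {B : Set (Finset α)} (hB : Cfsg.IsSteinerSystem 3 6 B) [Fintype B] [DecidableRel (Cfsg.blockGraph B).Adj] : (Cfsg.blockGraph B).IsSRGWith 77 16 0 4 := by
  classical
  have h6 : ∀ b ∈ B.toFinset, b.card = 6 := fun b hb => hB.1 b (Set.mem_toFinset.1 hb)
  have h3 : ∀ s : Finset α, s.card = 3 → ∃! b, b ∈ B.toFinset ∧ s ⊆ b := by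
    intro s hs
    simpa only [Set.mem_toFinset] using hB.2 s hs
  have hne : ∀ b ∈ B, b.Nonempty := fun b hb => by
    rw [← Finset.card_pos, hB.1 b hb]; norm_num
  have hcn : ∀ v w : B, Fintype.card ((Cfsg.blockGraph B).commonNeighbors v w) =
      (B.toFinset.filter fun d => Disjoint (v : Finset α) d ∧ Disjoint (w : Finset α) d).card := by
    intro v w
    rw [← card_filter_coe B (fun d => Disjoint (v : Finset α) d ∧ Disjoint (w : Finset α) d), ← Set.toFinset_card]
    congr 1
    ext x
    simp only [Set.mem_toFinset, Finset.mem_filter, Finset.mem_univ, true_and, SimpleGraph.mem_commonNeighbors, adj_iff hne]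
  refine ⟨?_, ?_, ?_, ?_⟩
  · rw [← Set.toFinset_card]
    exact card_blocks hα h6 h3
  · intro b
    rw [← card_disjoint hα h6 h3 (Set.mem_toFinset.2 b.2), ← card_filter_coe B (fun d => Disjoint (b : Finset α) d)]
    rw [← SimpleGraph.card_neighborFinset_eq_degree]
    congr 1
    ext x
    rw [SimpleGraph.mem_neighborFinset, adj_iff hne]
    simp
  · intro v w hvw
    rw [adj_iff hne] at hvw
    have hvw' : (v : Finset α) ≠ w := by
      intro h
      rw [h] at hvw
      exact (hne w w.2).ne_empty (disjoint_self.1 hvw)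
    rw [hcn, card_disjoint_two hα h6 h3 (Set.mem_toFinset.2 v.2) (Set.mem_toFinset.2 w.2) hvw',
      Finset.disjoint_iff_inter_eq_empty.1 hvw]
    rfl
  · intro v w hne' hvw
    rw [adj_iff hne] at hvw
    have hvw' : (v : Finset α) ≠ w := fun h => hne' (Subtype.ext h)
    rw [hcn, card_disjoint_two hα h6 h3 (Set.mem_toFinset.2 v.2) (Set.mem_toFinset.2 w.2) hvw']
    rcases card_inter_eq hα h6 h3 (Set.mem_toFinset.2 w.2) (Set.mem_toFinset.2 v.2) hvw'.symm with h | h
    · exact absurd (Finset.disjoint_iff_inter_eq_empty.2 (Finset.card_eq_zero.1 h)) hvw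
    · rw [h]

end Cfsg.Agent.S0427
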