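import Cfsg.Statements.S0428
import Cfsg.Agent.Lib.H10.Steiner22
import Cfsg.Agent.S0427

set_option autoImplicit false
open Cfsg

namespace Cfsg.Agent.S0428

open H10.Steiner22

theorem card_filter_option_sum {α β : Type*} [Fintype α] [Fintype β] (P : Option (α ⊕ β) → Prop) [DecidablePred P]
    [DecidablePred fun a : α => P (some (Sum.inl a))] [DecidablePred fun b : β => P (some (Sum.inr b))] :
    (Finset.univ.filter P).card = (if P none then 1 else 0) + (Finset.univ.filter fun a : α => P (some (Sum.inl a))).card +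
      (Finset.univ.filter fun b : β => P (some (Sum.inr b))).card := by
  rw [Finset.card_filter, Finset.card_filter, Finset.card_filter, Fintype.sum_option, Fintype.sum_sum_type, add_assoc]
  congr 1
  congr 1
  · apply Finset.sum_congr rfl
    intro a _
    congr
  · apply Finset.sum_congr rfl
    intro a _
    congr

section

variable {α : Type*} {B : Set (Finset α)}

theorem adj_none_none : ¬ (Cfsg.pointBlockGraph B).Adj none none := fun h => h.ne rfl
theorem adj_none_inl (a : α) : (Cfsg.pointBlockGraph B).Adj none (some (Sum.inl a)) := by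
  unfold Cfsg.pointBlockGraph
  rw [SimpleGraph.fromRel_adj]
  exact ⟨by simp, Or.inl trivial⟩
theorem adj_none_inr (b : B) : ¬ (Cfsg.pointBlockGraph B).Adj none (some (Sum.inr b)) := by
  unfold Cfsg.pointBlockGraph
  rw [SimpleGraph.fromRel_adj]
  rintro ⟨_, h | h⟩ <;> exact h
theorem adj_inl_inl (a a' : α) : ¬ (Cfsg.pointBlockGraph B).Adj (some (Sum.inl a)) (some (Sum.inl a')) := by
  unfold Cfsg.pointBlockGraph
  rw [SimpleGraph.fromRel_adj]
  rintro ⟨_, h | h⟩ <;> exact h
theorem adj_inl_inr (a : α) (b : B) : (Cfsg.pointBlockGraph B).Adj (some (Sum.inl a)) (some (Sum.inr b)) ↔ a ∈ (b : Finset α) := by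
  unfold Cfsg.pointBlockGraph
  rw [SimpleGraph.fromRel_adj]
  constructor
  · rintro ⟨_, h | h⟩
    · exact h
    · exact h.elim
  · intro h
    exact ⟨by simp, Or.inl h⟩
theorem adj_inr_inr (hne : ∀ b ∈ B, b.Nonempty) (b c : B) : (Cfsg.pointBlockGraph B).Adj (some (Sum.inr b)) (some (Sum.inr c)) ↔ Disjoint (b : Finset α) (c : Finset α) := by
  unfold Cfsg.pointBlockGraph
  rw [SimpleGraph.fromRel_adj]
  constructor
  · rintro ⟨_, h | h⟩
    · exact h
    · exact Disjoint.symm h
  · intro h
    refine ⟨?_, Or.inl h⟩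
    intro hbc
    simp only [Option.some.injEq, Sum.inr.injEq] at hbc
    rw [hbc] at h
    exact (hne c c.2).ne_empty (disjoint_self.1 h)

end

/-- number of blocks containing a point off `b` and disjoint from `b` -/
theorem card_mem_disjoint {α : Type*} [Fintype α] [DecidableEq α] {B : Finset (Finset α)} (hα : Fintype.card α = 22) (h6 : ∀ b ∈ B, b.card = 6)
    (h3 : ∀ s : Finset α, s.card = 3 → ∃! b, b ∈ B ∧ s ⊆ b) {b : Finset α} (hb : b ∈ B) {a : α} (ha : a ∉ b) :
    (B.filter fun d => a ∈ d ∧ Disjoint b d).card = 6 := by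
  have h1 : ∑ d ∈ B, ind d a * (2 - ((d ∩ b).card : ℤ)) = 12 := by
    have : ∀ d ∈ B, ind d a * (2 - ((d ∩ b).card : ℤ)) = 2 * ind d a - ∑ x ∈ b, ind d a * ind d x := by
      intro d _; rw [← sum_ind_inter, mul_sub, Finset.mul_sum]; ring
    rw [Finset.sum_congr rfl this, Finset.sum_sub_distrib, ← Finset.mul_sum, single hα h6 h3, Finset.sum_comm]
    have h4 : ∀ x ∈ b, ∑ d ∈ B, ind d a * ind d x = 5 := by
      intro x hx
      exact pair hα h6 h3 (fun h => ha (h ▸ hx))
    rw [Finset.sum_congr rfl h4, Finset.sum_const, h6 b hb]; norm_num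
  have h4 : ∀ d ∈ B, ind d a * (2 - ((d ∩ b).card : ℤ)) = if a ∈ d ∧ Disjoint b d then 2 else 0 := by
    intro d hd
    by_cases had : a ∈ d
    · have hne : b ≠ d := fun h => ha (h ▸ had)
      simp only [disjoint_iff_card, had, true_and, ind, if_true]
      rcases card_inter_eq hα h6 h3 hb hd hne with h | h <;> simp [h]
    · simp [ind, had]
  rw [Finset.sum_congr rfl h4, ← Finset.sum_filter, Finset.sum_const] at h1
  have : ((B.filter fun d => a ∈ d ∧ Disjoint b d).card : ℤ) = 6 := by
    simp only [nsmul_eq_mul] at h1; linarith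
  exact_mod_cast this

theorem card_mem {α : Type*} [Fintype α] [DecidableEq α] {B : Finset (Finset α)} (hα : Fintype.card α = 22) (h6 : ∀ b ∈ B, b.card = 6)
    (h3 : ∀ s : Finset α, s.card = 3 → ∃! b, b ∈ B ∧ s ⊆ b) (a : α) :
    (B.filter fun d => a ∈ d).card = 21 := by
  have h1 := single hα h6 h3 a
  unfold ind at h1
  rw [← Finset.sum_filter, Finset.sum_const] at h1
  have : ((B.filter fun d => a ∈ d).card : ℤ) = 21 := by
    simp only [nsmul_eq_mul, mul_one] at h1; exact h1
  exact_mod_cast this

theorem card_mem_mem {α : Type*} [Fintype α] [DecidableEq α] {B : Finset (Finset α)} (hα : Fintype.card α = 22) (h6 : ∀ b ∈ B, b.card = 6)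
    (h3 : ∀ s : Finset α, s.card = 3 → ∃! b, b ∈ B ∧ s ⊆ b) {a a' : α} (ha : a ≠ a') :
    (B.filter fun d => a ∈ d ∧ a' ∈ d).card = 5 := by
  have h1 := pair hα h6 h3 ha
  have h4 : ∀ d ∈ B, ind d a * ind d a' = if a ∈ d ∧ a' ∈ d then 1 else 0 := by
    intro d _
    by_cases h : a ∈ d <;> by_cases h' : a' ∈ d <;> simp [ind, h, h']
  rw [Finset.sum_congr rfl h4, ← Finset.sum_filter, Finset.sum_const] at h1
  have : ((B.filter fun d => a ∈ d ∧ a' ∈ d).card : ℤ) = 5 := by
    simp only [nsmul_eq_mul, mul_one] at h1; exact h1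
  exact_mod_cast this

/-- The point-block graph of an S(3, 6, 22) is strongly regular with parameters (100, 22, 0, 6). -/
theorem result {α : Type*} [Fintype α] (hα : Fintype.card α = 22) {B : Set (Finset α)} (hB : Cfsg.IsSteinerSystem 3 6 B) [Fintype B] [DecidableRel (Cfsg.pointBlockGraph B).Adj] : (Cfsg.pointBlockGraph B).IsSRGWith 100 22 0 6 := by
  classical
  have h6 : ∀ b ∈ B.toFinset, b.card = 6 := fun b hb => hB.1 b (Set.mem_toFinset.1 hb)
  have h3 : ∀ s : Finset α, s.card = 3 → ∃! b, b ∈ B.toFinset ∧ s ⊆ b := by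
    intro s hs
    simpa only [Set.mem_toFinset] using hB.2 s hs
  have hne : ∀ b ∈ B, b.Nonempty := fun b hb => by
    rw [← Finset.card_pos, hB.1 b hb]; norm_num
  have hcn : ∀ v w, Fintype.card ((Cfsg.pointBlockGraph B).commonNeighbors v w) =
      (if (Cfsg.pointBlockGraph B).Adj v none ∧ (Cfsg.pointBlockGraph B).Adj w none then 1 else 0) + (Finset.univ.filter fun a : α => (Cfsg.pointBlockGraph B).Adj v (some (Sum.inl a)) ∧ (Cfsg.pointBlockGraph B).Adj w (some (Sum.inl a))).card +
      (Finset.univ.filter fun b : B => (Cfsg.pointBlockGraph B).Adj v (some (Sum.inr b)) ∧ (Cfsg.pointBlockGraph B).Adj w (some (Sum.inr b))).card := by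
    intro v w
    rw [← card_filter_option_sum (fun x => (Cfsg.pointBlockGraph B).Adj v x ∧ (Cfsg.pointBlockGraph B).Adj w x), ← Set.toFinset_card]
    congr 1
    ext x
    simp only [Set.mem_toFinset, Finset.mem_filter, Finset.mem_univ, true_and, SimpleGraph.mem_commonNeighbors]
  have hdg : ∀ v, (Cfsg.pointBlockGraph B).degree v =
      (if (Cfsg.pointBlockGraph B).Adj v none then 1 else 0) + (Finset.univ.filter fun a : α => (Cfsg.pointBlockGraph B).Adj v (some (Sum.inl a))).card +
      (Finset.univ.filter fun b : B => (Cfsg.pointBlockGraph B).Adj v (some (Sum.inr b))).card := by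
    intro v
    rw [← card_filter_option_sum (fun x => (Cfsg.pointBlockGraph B).Adj v x), ← SimpleGraph.card_neighborFinset_eq_degree]
    congr 1
    ext x
    rw [SimpleGraph.mem_neighborFinset]
    simp
  have e1 : (Cfsg.pointBlockGraph B).Adj none none ↔ False := iff_false_intro adj_none_none
  have e2 : ∀ a, (Cfsg.pointBlockGraph B).Adj none (some (Sum.inl a)) ↔ True := fun a => iff_true_intro (adj_none_inl a)
  have e2' : ∀ a, (Cfsg.pointBlockGraph B).Adj (some (Sum.inl a)) none ↔ True := fun a => iff_true_intro (adj_none_inl a).symm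
  have e3 : ∀ b, (Cfsg.pointBlockGraph B).Adj none (some (Sum.inr b)) ↔ False := fun b => iff_false_intro (adj_none_inr b)
  have e3' : ∀ b, (Cfsg.pointBlockGraph B).Adj (some (Sum.inr b)) none ↔ False := fun b => iff_false_intro (fun h => adj_none_inr b h.symm)
  have e4 : ∀ a a', (Cfsg.pointBlockGraph B).Adj (some (Sum.inl a)) (some (Sum.inl a')) ↔ False := fun a a' => iff_false_intro (adj_inl_inl a a')
  have e5 : ∀ a b, (Cfsg.pointBlockGraph B).Adj (some (Sum.inl a)) (some (Sum.inr b)) ↔ a ∈ (b : Finset α) := adj_inl_inr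
  have e5' : ∀ a b, (Cfsg.pointBlockGraph B).Adj (some (Sum.inr b)) (some (Sum.inl a)) ↔ a ∈ (b : Finset α) := fun a b => by
    rw [SimpleGraph.adj_comm]; exact adj_inl_inr a b
  have e6 : ∀ b c, (Cfsg.pointBlockGraph B).Adj (some (Sum.inr b)) (some (Sum.inr c)) ↔ Disjoint (b : Finset α) (c : Finset α) := adj_inr_inr hne
  have hB' : ∀ b : B, (b : Finset α) ∈ B.toFinset := fun b => Set.mem_toFinset.2 b.2
  have hcount : ∀ (P : Finset α → Prop) [DecidablePred P], (Finset.univ.filter fun b : B => P b).card = (B.toFinset.filter P).card :=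
    fun P _ => S0427.card_filter_coe B P
  refine ⟨?_, ?_, ?_, ?_⟩
  · rw [Fintype.card_option, Fintype.card_sum, hα, ← Set.toFinset_card, card_blocks hα h6 h3]
  · intro v
    rw [hdg]
    rcases v with _ | a | b
    · simp only [e1, e2, e3]; simp [hα]
    · simp only [e2', e4, e5, if_true, Finset.filter_false, Finset.card_empty]
      rw [hcount (fun d => a ∈ d), card_mem hα h6 h3]
    · simp only [e3', e5', e6, if_false]
      rw [hcount (fun d => Disjoint (b : Finset α) d), card_disjoint hα h6 h3 (hB' b)]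
      have : (Finset.univ.filter fun a : α => a ∈ (b : Finset α)) = (b : Finset α) := by ext; simp
      rw [this, hB.1 b b.2]
  · -- adjacent pairs
    have hsymm : ∀ v w, Fintype.card ((Cfsg.pointBlockGraph B).commonNeighbors v w) = 0 → Fintype.card ((Cfsg.pointBlockGraph B).commonNeighbors w v) = 0 := by
      intro v w h
      rw [hcn] at h ⊢
      simpa only [and_comm] using h
    have k1 : ∀ a : α, Fintype.card ((Cfsg.pointBlockGraph B).commonNeighbors none (some (Sum.inl a))) = 0 := by
      intro a
      rw [hcn]; simp [e1, e2, e3, e4]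
    have k2 : ∀ (a : α) (b : B), a ∈ (b : Finset α) → Fintype.card ((Cfsg.pointBlockGraph B).commonNeighbors (some (Sum.inl a)) (some (Sum.inr b))) = 0 := by
      intro a b hab
      rw [hcn]
      simp only [e3', e4, e5, e6, false_and, and_false, if_false, Finset.filter_false, Finset.card_empty, zero_add, Finset.card_eq_zero, Finset.filter_eq_empty_iff]
      rintro c _ ⟨hac, hbc⟩
      exact Finset.disjoint_left.1 hbc hab hac
    have k3 : ∀ (b c : B), Disjoint (b : Finset α) (c : Finset α) → Fintype.card ((Cfsg.pointBlockGraph B).commonNeighbors (some (Sum.inr b)) (some (Sum.inr c))) = 0 := by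
      intro b c hbc
      rw [hcn]
      have hbc' : (b : Finset α) ≠ c := by
        intro h
        rw [h] at hbc
        exact (hne c c.2).ne_empty (disjoint_self.1 hbc)
      simp only [e3', e5', e6, false_and, if_false]
      rw [hcount (fun d => Disjoint (b : Finset α) d ∧ Disjoint (c : Finset α) d), card_disjoint_two hα h6 h3 (hB' b) (hB' c) hbc']
      have : (Finset.univ.filter fun a : α => a ∈ (b : Finset α) ∧ a ∈ (c : Finset α)) = (b : Finset α) ∩ c := by ext; simp
      rw [this, Finset.disjoint_iff_inter_eq_empty.1 hbc]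
      rfl
    intro v w hvw
    rcases v with _ | a | b <;> rcases w with _ | a' | b'
    · exact absurd hvw (e1.1)
    · exact k1 a'
    · exact absurd hvw (e3 b').1
    · exact hsymm _ _ (k1 a)
    · exact absurd hvw (e4 a a').1
    · exact k2 a b' ((e5 a b').1 hvw)
    · exact absurd hvw (e3' b).1
    · exact hsymm _ _ (k2 a' b ((e5' a' b).1 hvw))
    · exact k3 b b' ((e6 b b').1 hvw)
  · have hsymm : ∀ v w, Fintype.card ((Cfsg.pointBlockGraph B).commonNeighbors v w) = 6 → Fintype.card ((Cfsg.pointBlockGraph B).commonNeighbors w v) = 6 := by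
      intro v w h
      rw [hcn] at h ⊢
      simpa only [and_comm] using h
    have k1 : ∀ b : B, Fintype.card ((Cfsg.pointBlockGraph B).commonNeighbors none (some (Sum.inr b))) = 6 := by
      intro b
      rw [hcn]
      simp only [e1, e2, e3, e5', false_and, true_and, if_false, Finset.filter_false, Finset.card_empty]
      have : (Finset.univ.filter fun a : α => a ∈ (b : Finset α)) = (b : Finset α) := by ext; simp
      rw [this, hB.1 b b.2]
    have k2 : ∀ (a a' : α), a ≠ a' → Fintype.card ((Cfsg.pointBlockGraph B).commonNeighbors (some (Sum.inl a)) (some (Sum.inl a'))) = 6 := by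
      intro a a' haa
      rw [hcn]
      simp only [e2', e4, e5, and_self, if_true, Finset.filter_false, Finset.card_empty]
      rw [hcount (fun d => a ∈ d ∧ a' ∈ d), card_mem_mem hα h6 h3 haa]
    have k3 : ∀ (a : α) (b : B), a ∉ (b : Finset α) → Fintype.card ((Cfsg.pointBlockGraph B).commonNeighbors (some (Sum.inl a)) (some (Sum.inr b))) = 6 := by
      intro a b hab
      rw [hcn]
      simp only [e3', e4, e5, e6, false_and, and_false, if_false, Finset.filter_false, Finset.card_empty]
      rw [hcount (fun d => a ∈ d ∧ Disjoint (b : Finset α) d), card_mem_disjoint hα h6 h3 (hB' b) hab]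
    have k4 : ∀ (b c : B), b ≠ c → ¬ Disjoint (b : Finset α) (c : Finset α) → Fintype.card ((Cfsg.pointBlockGraph B).commonNeighbors (some (Sum.inr b)) (some (Sum.inr c))) = 6 := by
      intro b c hbc hd
      rw [hcn]
      have hbc' : (b : Finset α) ≠ c := fun h => hbc (Subtype.ext h)
      simp only [e3', e5', e6, false_and, if_false]
      rw [hcount (fun d => Disjoint (b : Finset α) d ∧ Disjoint (c : Finset α) d), card_disjoint_two hα h6 h3 (hB' b) (hB' c) hbc']
      have : (Finset.univ.filter fun a : α => a ∈ (b : Finset α) ∧ a ∈ (c : Finset α)) = (b : Finset α) ∩ c := by ext; simp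
      rw [this]
      rcases card_inter_eq hα h6 h3 (hB' c) (hB' b) hbc'.symm with h | h
      · exact absurd (Finset.disjoint_iff_inter_eq_empty.2 (Finset.card_eq_zero.1 h)) hd
      · rw [h]
    intro v w hne' hvw
    rcases v with _ | a | b <;> rcases w with _ | a' | b'
    · exact absurd rfl hne'
    · exact absurd ((e2 a').2 trivial) hvw
    · exact k1 b'
    · exact absurd ((e2' a).2 trivial) hvw
    · exact k2 a a' (fun h => hne' (by rw [h]))
    · exact k3 a b' (fun h => hvw ((e5 a b').2 h))
    · exact hsymm _ _ (k1 b)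
    · exact hsymm _ _ (k3 a' b (fun h => hvw ((e5' a' b).2 h)))
    · exact k4 b b' (fun h => hne' (by rw [h])) (fun h => hvw ((e6 b b').2 h))

end Cfsg.Agent.S0428
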