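import Cfsg.Statements.S4003
import Cfsg.Agent.Lib.H69.OrderCount

set_option autoImplicit false
open Cfsg
open scoped Pointwise

namespace Cfsg.Agent.S4003

open H69.TISub

universe u

/-- commuting pairs `(v, U)` with `v` of order `m`, `U` cyclic of order `p ^ s` -/
def Al (G : Type u) [Group G] (q m : ℕ) : Type u :=
  {x : G × Subgroup G // orderOf x.1 = m ∧ IsCyclic x.2 ∧ Nat.card x.2 = q ∧ ∀ u ∈ x.2, u * x.1 = x.1 * u}

instance (G : Type u) [Group G] [Finite G] (q m : ℕ) : Finite (Al G q m) := by
  unfold Al; infer_instance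

theorem card_eq {G : Type u} [Group G] [Finite G] (q m : ℕ) (hq : q ≠ 0) (hm : m ≠ 0)
    (hqm : Nat.Coprime q m) :
    Nat.card {g : G // orderOf g = q * m} = Nat.card (Al G q m) * q.totient := by
  classical
  have e : (Σ x : Al G q m, {u : x.1.2 // orderOf u = q}) ≃ {g : G // orderOf g = q * m} := by
    apply Equiv.ofBijective (fun y => ⟨(y.2.1 : G) * y.1.1.1, by
      have h1 : Commute (y.2.1 : G) y.1.1.1 := y.1.2.2.2.2 _ y.2.1.2
      have h2 : orderOf (y.2.1 : G) = q := by rw [Subgroup.orderOf_coe]; exact y.2.2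
      rw [h1.orderOf_mul_eq_mul_orderOf_of_coprime (by rw [h2, y.1.2.1]; exact hqm), h2, y.1.2.1]⟩)
    obtain ⟨a, b, hab⟩ := Nat.isCoprime_iff_coprime.2 hqm
    constructor
    · rintro ⟨⟨⟨v, U⟩, hv, hU1, hU2, hU3⟩, ⟨u, hu⟩, huq⟩ ⟨⟨⟨v', U'⟩, hv', hU1', hU2', hU3'⟩, ⟨u', hu'⟩, huq'⟩ h
      have h1 : u * v = u' * v' := congrArg Subtype.val h
      rw [Subgroup.orderOf_mk] at huq huq'
      have hpow : ∀ u v : G, u * v = v * u → orderOf u = q → orderOf v = m → (u * v) ^ (a * (q : ℤ)) = v := by
        intro u v huv hu hv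
        have hc : Commute u v := huv
        rw [hc.mul_zpow, mul_comm a, zpow_mul u, zpow_natCast, ← hu, pow_orderOf_eq_one, one_zpow, one_mul]
        have h2 : (orderOf u : ℤ) * a = 1 - (m : ℤ) * b := by
          rw [hu]; linear_combination hab
        rw [h2, zpow_sub, zpow_one, zpow_mul, zpow_natCast, ← hv, pow_orderOf_eq_one, one_zpow, inv_one,
          mul_one]
      have h2 := hpow u v (hU3 u hu) huq hv
      have h3 := hpow u' v' (hU3' u' hu') huq' hv'
      rw [← h1, h2] at h3
      subst h3
      have h4 : u = u' := mul_right_cancel h1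
      subst h4
      have hUz : U = Subgroup.zpowers u := by
        symm
        apply Subgroup.eq_of_le_of_card_ge
        · rwa [Subgroup.zpowers_le]
        · rw [Nat.card_zpowers, huq]
          exact hU2.le
      have hUz' : U' = Subgroup.zpowers u := by
        symm
        apply Subgroup.eq_of_le_of_card_ge
        · rwa [Subgroup.zpowers_le]
        · rw [Nat.card_zpowers, huq]
          exact hU2'.le
      have h5 : U = U' := hUz.trans hUz'.symm
      subst h5
      rfl
    · rintro ⟨g, hg⟩
      have hg1 : g ^ (q * m) = 1 := by rw [← hg]; exact pow_orderOf_eq_one g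
      set v := g ^ (a * (q : ℤ)) with hv
      set u := g ^ (b * (m : ℤ)) with hu
      have huv : u * v = g := by
        rw [hu, hv, ← zpow_add]
        have : b * (m : ℤ) + a * (q : ℤ) = 1 := by linear_combination hab
        rw [this, zpow_one]
      have huq : orderOf u ∣ q := by
        apply orderOf_dvd_of_pow_eq_one
        rw [hu, ← zpow_natCast, ← zpow_mul]
        have : b * (m : ℤ) * (q : ℤ) = ((q * m : ℕ) : ℤ) * b := by push_cast; ring
        rw [this, zpow_mul, zpow_natCast, hg1, one_zpow]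
      have hvm : orderOf v ∣ m := by
        apply orderOf_dvd_of_pow_eq_one
        rw [hv, ← zpow_natCast, ← zpow_mul]
        have : a * (q : ℤ) * (m : ℤ) = ((q * m : ℕ) : ℤ) * a := by push_cast; ring
        rw [this, zpow_mul, zpow_natCast, hg1, one_zpow]
      have hc : Commute u v := by
        rw [hu, hv]
        exact (Commute.refl g).zpow_zpow _ _
      have h1 : q * m = orderOf u * orderOf v := by
        have h2 := hc.orderOf_mul_eq_mul_orderOf_of_coprime
          (Nat.Coprime.coprime_dvd_left huq (Nat.Coprime.coprime_dvd_right hvm hqm))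
        rw [huv, hg] at h2
        exact h2
      have hu1 : orderOf u = q := by
        apply Nat.dvd_antisymm huq
        have h2 : q ∣ orderOf u * orderOf v := by rw [← h1]; exact dvd_mul_right _ _
        exact (Nat.Coprime.coprime_dvd_right hvm hqm).dvd_of_dvd_mul_right h2
      have hv1 : orderOf v = m := by
        rw [hu1] at h1
        exact (Nat.eq_of_mul_eq_mul_left (Nat.pos_of_ne_zero hq) h1).symm
      refine ⟨⟨⟨(v, Subgroup.zpowers u), hv1, inferInstance, by rw [Nat.card_zpowers, hu1], ?_⟩,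
        ⟨⟨u, Subgroup.mem_zpowers u⟩, by rw [Subgroup.orderOf_mk]; exact hu1⟩⟩, Subtype.ext huv⟩
      intro w hw
      obtain ⟨k, rfl⟩ := Subgroup.mem_zpowers_iff.1 hw
      exact (hc.zpow_left k).eq
  have hfin : Fintype (Al G q m) := Fintype.ofFinite _
  rw [← Nat.card_congr e, Nat.card_sigma]
  have h1 : ∀ U : Al G q m, Nat.card {u : U.1.2 // orderOf u = q} = q.totient := by
    intro U
    have := Fintype.ofFinite U.1.2
    have hc := U.2.2.1
    have h2 := IsCyclic.card_orderOf_eq_totient (α := U.1.2) (d := q) (by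
      rw [← Nat.card_eq_fintype_card, U.2.2.2.1])
    rw [Nat.card_eq_fintype_card, Fintype.card_subtype]
    exact h2
  rw [Finset.sum_congr rfl (fun U _ => h1 U), Finset.sum_const, smul_eq_mul, Finset.card_univ,
    Nat.card_eq_fintype_card]

/-- Let G be a finite group, p an odd prime dividing the order of G whose Sylow p-subgroups are not cyclic, and n = p^s·m with s > 1 and m coprime to p. Then the number of elements of G of order n is a multiple of p^s. -/
theorem result {G : Type*} [Group G] [Finite G] (p : ℕ) [Fact p.Prime] (hodd : p ≠ 2) (hpG : p ∣ Nat.card G)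
    (P : Sylow p G) (hP : ¬ IsCyclic ↥(P : Subgroup G)) (s m : ℕ) (hs : 1 < s) (hm : Nat.Coprime p m) :
    p ^ s ∣ Nat.card {g : G // orderOf g = p ^ s * m} := by
  have hp : p.Prime := Fact.out
  have hm0 : m ≠ 0 := by
    rintro rfl
    rw [Nat.coprime_zero_right] at hm
    exact hp.one_lt.ne' hm
  rw [card_eq (p ^ s) m (pow_pos hp.pos s).ne' hm0 (Nat.Coprime.pow_left s hm)]
  obtain ⟨s', rfl⟩ : ∃ s', s = s' + 1 := ⟨s - 1, by omega⟩
  rw [Nat.totient_prime_pow_succ hp]
  suffices h : p ∣ Nat.card (Al G (p ^ (s' + 1)) m) by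
    obtain ⟨k, hk⟩ := h
    rw [hk]
    exact ⟨k * (p - 1), by ring⟩
  -- action of P
  have hcard : ∀ (g : G) (H : Subgroup G), Nat.card (MulAut.conj g • H : Subgroup G) = Nat.card H := by
    intro g H
    exact (Nat.card_congr (Subgroup.equivSMul (MulAut.conj g) H).toEquiv).symm
  have hcyc : ∀ (g : G) (H : Subgroup G), IsCyclic H → IsCyclic (MulAut.conj g • H : Subgroup G) := by
    intro g H hH
    exact isCyclic_of_surjective (Subgroup.equivSMul (MulAut.conj g) H).toMonoidHom
      (Subgroup.equivSMul (MulAut.conj g) H).surjective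
  have hord : ∀ (g v : G), orderOf (g * v * g⁻¹) = orderOf v := by
    intro g v
    have : g * v * g⁻¹ = MulAut.conj g v := rfl
    rw [this, MulEquiv.orderOf_eq]
  let inst : MulAction (P : Subgroup G) (Al G (p ^ (s' + 1)) m) :=
    { smul := fun g x => ⟨((g : G) * x.1.1 * (g : G)⁻¹, MulAut.conj (g : G) • x.1.2), by
        refine ⟨?_, hcyc _ _ x.2.2.1, ?_, ?_⟩
        · rw [hord]; exact x.2.1
        · rw [hcard]; exact x.2.2.2.1
        · intro u hu
          rw [mem_conj_smul] at hu
          have h1 := x.2.2.2.2 _ hu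
          calc u * ((g : G) * x.1.1 * (g : G)⁻¹) = g * (((g : G)⁻¹ * u * g) * x.1.1) * (g : G)⁻¹ := by group
            _ = g * (x.1.1 * ((g : G)⁻¹ * u * g)) * (g : G)⁻¹ := by rw [h1]
            _ = (g : G) * x.1.1 * (g : G)⁻¹ * u := by group⟩
      one_smul := fun x => by
        apply Subtype.ext
        apply Prod.ext
        · change ((1 : (P : Subgroup G)) : G) * x.1.1 * ((1 : (P : Subgroup G)) : G)⁻¹ = x.1.1
          simp
        · change MulAut.conj ((1 : (P : Subgroup G)) : G) • x.1.2 = x.1.2
          simp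
      mul_smul := fun g h x => by
        apply Subtype.ext
        apply Prod.ext
        · change ((g * h : (P : Subgroup G)) : G) * x.1.1 * ((g * h : (P : Subgroup G)) : G)⁻¹ =
            (g : G) * ((h : G) * x.1.1 * (h : G)⁻¹) * (g : G)⁻¹
          rw [Subgroup.coe_mul]; group
        · change MulAut.conj ((g * h : (P : Subgroup G)) : G) • x.1.2 =
            MulAut.conj (g : G) • MulAut.conj (h : G) • x.1.2
          rw [Subgroup.coe_mul, map_mul, mul_smul] }
  have h3 := P.isPGroup'.card_modEq_card_fixedPoints (Al G (p ^ (s' + 1)) m)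
  have hfix1 : ∀ x : Al G (p ^ (s' + 1)) m, x ∈ MulAction.fixedPoints (P : Subgroup G) (Al G (p ^ (s' + 1)) m) →
      (∀ g ∈ (P : Subgroup G), g * x.1.1 * g⁻¹ = x.1.1) ∧ (∀ g ∈ (P : Subgroup G), MulAut.conj g • x.1.2 = x.1.2) := by
    intro x hx
    refine ⟨fun g hg => ?_, fun g hg => ?_⟩
    · exact congrArg (fun y : Al G (p ^ (s' + 1)) m => y.1.1) (hx ⟨g, hg⟩)
    · exact congrArg (fun y : Al G (p ^ (s' + 1)) m => y.1.2) (hx ⟨g, hg⟩)
  -- fixed points
  have h4 : Nat.card (MulAction.fixedPoints (P : Subgroup G) (Al G (p ^ (s' + 1)) m)) =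
      Nat.card {v : G // orderOf v = m ∧ ∀ g ∈ (P : Subgroup G), g * v * g⁻¹ = v} *
      Nat.card {U : Subgroup (P : Subgroup G) // U.Normal ∧ IsCyclic U ∧ Nat.card U = p ^ (s' + 1)} := by
    rw [← Nat.card_prod]
    symm
    apply Nat.card_congr
    apply Equiv.ofBijective (fun x => (⟨⟨(x.1.1, (x.2.1 : Subgroup (P : Subgroup G)).map (P : Subgroup G).subtype), by
      refine ⟨x.1.2.1, ?_, ?_, ?_⟩
      · have := x.2.2.2.1
        exact isCyclic_of_surjective (x.2.1.equivMapOfInjective _ (P : Subgroup G).subtype_injective).toMonoidHom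
          (x.2.1.equivMapOfInjective _ (P : Subgroup G).subtype_injective).surjective
      · exact (Nat.card_congr (x.2.1.equivMapOfInjective _ (P : Subgroup G).subtype_injective).toEquiv).symm.trans
          x.2.2.2.2
      · rintro _ ⟨u, -, rfl⟩
        exact mul_inv_eq_iff_eq_mul.1 (x.1.2.2 u u.2)⟩, by
      intro g
      apply Subtype.ext
      apply Prod.ext
      · exact x.1.2.2 g g.2
      · change MulAut.conj (g : G) • (x.2.1.map (P : Subgroup G).subtype) = x.2.1.map (P : Subgroup G).subtype
        ext z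
        rw [mem_conj_smul]
        constructor
        · rintro ⟨w, hw, hwz⟩
          refine ⟨g * w * g⁻¹, x.2.2.1.conj_mem w hw g, ?_⟩
          have h5 : (w : G) = (g : G)⁻¹ * z * g := hwz
          change (g : G) * w * (g : G)⁻¹ = z
          rw [h5]; group
        · rintro ⟨w, hw, rfl⟩
          refine ⟨g⁻¹ * w * g, ?_, rfl⟩
          have := x.2.2.1.conj_mem w hw g⁻¹
          rwa [inv_inv] at this⟩ : MulAction.fixedPoints (P : Subgroup G) (Al G (p ^ (s' + 1)) m)))
    constructor
    · rintro ⟨⟨v, hv⟩, ⟨U, hU⟩⟩ ⟨⟨v', hv'⟩, ⟨U', hU'⟩⟩ h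
      have h5 := congrArg (fun y : MulAction.fixedPoints (P : Subgroup G) (Al G (p ^ (s' + 1)) m) => y.1.1) h
      have h6 : v = v' := congrArg Prod.fst h5
      have h7 : U.map (P : Subgroup G).subtype = U'.map (P : Subgroup G).subtype := congrArg Prod.snd h5
      have h8 : U = U' := Subgroup.map_injective (P : Subgroup G).subtype_injective h7
      subst h6 h8
      rfl
    · rintro ⟨x, hx⟩
      obtain ⟨hx1, hx2⟩ := hfix1 x hx
      -- U ≤ P
      have hUp : IsPGroup p x.1.2 := IsPGroup.of_card x.2.2.2.1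
      have hPU : (P : Subgroup G) ≤ Subgroup.normalizer (x.1.2 : Set G) := by
        intro g hg
        rw [mem_normalizer_iff_smul]
        exact hx2 g hg
      have hUP : x.1.2 ≤ (P : Subgroup G) := by
        have h5 : IsPGroup p (x.1.2 ⊔ (P : Subgroup G) : Subgroup G) := by
          apply IsPGroup.to_sup_of_normal_left' hUp P.isPGroup' hPU
        have h6 := P.is_maximal' h5 le_sup_right
        rw [← h6]
        exact le_sup_left
      refine ⟨(⟨x.1.1, x.2.1, hx1⟩, ⟨x.1.2.subgroupOf (P : Subgroup G), ?_, ?_, ?_⟩), ?_⟩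
      · constructor
        intro u hu g
        rw [Subgroup.mem_subgroupOf] at hu ⊢
        have h5 : (g : G) * u * (g : G)⁻¹ ∈ MulAut.conj (g : G) • x.1.2 := by
          rw [mem_conj_smul]
          have : (g : G)⁻¹ * ((g : G) * u * (g : G)⁻¹) * g = u := by group
          rw [this]; exact hu
        rw [hx2 g g.2] at h5
        exact h5
      · have := x.2.2.1
        exact isCyclic_of_surjective (Subgroup.subgroupOfEquivOfLe hUP).symm.toMonoidHom
          (Subgroup.subgroupOfEquivOfLe hUP).symm.surjective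
      · rw [Nat.card_congr (Subgroup.subgroupOfEquivOfLe hUP).toEquiv]
        exact x.2.2.2.1
      · apply Subtype.ext
        apply Subtype.ext
        apply Prod.ext
        · rfl
        · change (x.1.2.subgroupOf (P : Subgroup G)).map (P : Subgroup G).subtype = x.1.2
          rw [Subgroup.subgroupOf_map_subtype, inf_eq_left.2 hUP]
  have h5 := H69.OrderCount.dvd_card_normal hodd P.isPGroup' hP (s' + 1) hs
  have h6 : p ∣ Nat.card (MulAction.fixedPoints (P : Subgroup G) (Al G (p ^ (s' + 1)) m)) := by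
    rw [h4]
    exact h5.trans (dvd_mul_left _ _)
  exact (Nat.modEq_zero_iff_dvd).1 (h3.trans ((Nat.modEq_zero_iff_dvd).2 h6))

end Cfsg.Agent.S4003
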