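import Cfsg.Statements.S0743
import Cfsg.Agent.Lib.H16.PermBasic

set_option autoImplicit false
open Cfsg

namespace Cfsg.Agent.S0743

/-- Gleason's Lemma: let `p` be a prime and `1 ≤ k < n`; if every `k`-subset of the `n` points is exactly the fixed-point set of some `p`-subgroup of `G`, then `G` is `k`-transitive. -/
theorem result {α : Type*} [Fintype α] [DecidableEq α] (G : Subgroup (Equiv.Perm α)) {p k : ℕ} (hp : p.Prime) (hk : 1 ≤ k) (hkn : k < Fintype.card α) (h : ∀ s : Finset α, s.card = k → ∃ P : Subgroup G, IsPGroup p P ∧ MulAction.fixedPoints P α = (s : Set α)) : MulAction.IsMultiplyPretransitive G α k := by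
  classical
  have hpf : Fact p.Prime := ⟨hp⟩
  apply H16.PermBasic.isMultiplyPretransitive_of_fixing' k hkn
  intro T hT x y hx hy
  by_contra hcon
  push Not at hcon
  -- H = pointwise stabiliser of T
  let H : Subgroup G := fixingSubgroup G (T : Set α)
  let O : Set α := MulAction.orbit H y
  have hHT : ∀ h : H, ∀ t ∈ T, ((h : G) : Equiv.Perm α) t = t := by
    intro h t ht
    exact (mem_fixingSubgroup_iff G).mp h.2 t ht
  have hxO : x ∉ O := by
    rintro ⟨h, hh⟩
    have h1 : ((h : G) : Equiv.Perm α) y = x := hh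
    apply hcon ((h⁻¹ : H) : G) ((h⁻¹ : H) : G).2 (hHT h⁻¹)
    rw [← h1]
    simp
  have hTO : ∀ t ∈ T, t ∉ O := by
    rintro t ht ⟨h, hh⟩
    have h1 : ((h : G) : Equiv.Perm α) y = t := hh
    have h2 := hHT h t ht
    have : y = t := ((h : G) : Equiv.Perm α).injective (h1.trans h2.symm)
    exact hy (this ▸ ht)
  have hyO : y ∈ O := MulAction.mem_orbit_self y
  have key : ∀ z, z ∉ T → ∃ P : Subgroup G, IsPGroup p P ∧ (∀ w ∈ O, ∀ g : P, g • w ∈ O) ∧
      ∀ w, (∀ g : P, g • w = w) ↔ (w = z ∨ w ∈ T) := by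
    intro z hz
    obtain ⟨P, hP, hfix⟩ := h (insert z T) (by rw [Finset.card_insert_of_notMem hz]; exact hT)
    have hfix' : ∀ w, (∀ g : P, g • w = w) ↔ (w = z ∨ w ∈ T) := by
      intro w
      have h1 : w ∈ MulAction.fixedPoints P α ↔ w ∈ ((insert z T : Finset α) : Set α) := by rw [hfix]
      rw [MulAction.mem_fixedPoints] at h1
      rw [h1]
      simp
    refine ⟨P, hP, ?_, hfix'⟩
    rintro w ⟨h0, rfl⟩ g
    have hgH : (g : G) ∈ H := by
      rw [mem_fixingSubgroup_iff]
      intro t ht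
      exact (hfix' t).mpr (Or.inr ht) g
    exact ⟨⟨g, hgH⟩ * h0, rfl⟩
  obtain ⟨Px, hPx, hPxO, hPxf⟩ := key x hx
  obtain ⟨Py, hPy, hPyO, hPyf⟩ := key y hy
  have hfin : O.Finite := Set.toFinite _
  have h1 := H16.PermBasic.ncard_invariant_modEq hPx O hfin (fun g w hw => hPxO w hw g)
  have h2 := H16.PermBasic.ncard_invariant_modEq hPy O hfin (fun g w hw => hPyO w hw g)
  have e1 : {w ∈ O | ∀ g : Px, g • w = w} = ∅ := by
    ext w
    simp only [Set.mem_ofPred_eq, Set.mem_empty_iff_false, iff_false, not_and]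
    intro hw hf
    rcases (hPxf w).mp hf with h3 | h3
    · exact hxO (h3 ▸ hw)
    · exact hTO w h3 hw
  have e2 : {w ∈ O | ∀ g : Py, g • w = w} = {y} := by
    ext w
    simp only [Set.mem_ofPred_eq, Set.mem_singleton_iff]
    constructor
    · rintro ⟨hw, hf⟩
      rcases (hPyf w).mp hf with h3 | h3
      · exact h3
      · exact absurd hw (hTO w h3)
    · rintro rfl
      exact ⟨hyO, (hPyf _).mpr (Or.inl rfl)⟩
  rw [e1, Set.ncard_empty] at h1
  rw [e2, Set.ncard_singleton] at h2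
  have h3 := h1.symm.trans h2
  have h4 : p ∣ 1 := (Nat.modEq_zero_iff_dvd).mp h3.symm
  exact hp.one_lt.ne' (Nat.dvd_one.mp h4)

end Cfsg.Agent.S0743
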