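import Cfsg.Statements.S0744
import Cfsg.Agent.Lib.H16.PermBasic
import Cfsg.Agent.Lib.H16.PermStab

set_option autoImplicit false
open Cfsg

namespace Cfsg.Agent.S0744

/-- If for some `k > 1` the pointwise stabilisers of all `(k-1)`-subsets have the same order `> 1` and those of all `k`-subsets have the same order, then the group is `(k-1)`-transitive. -/
theorem result {α : Type*} [Fintype α] [DecidableEq α] (G : Subgroup (Equiv.Perm α)) {k : ℕ} (hk : 1 < k) (hkn : k ≤ Fintype.card α) (l m : ℕ) (hl : 1 < l) (hkm1 : ∀ s : Finset α, s.card = k - 1 → Nat.card (fixingSubgroup G (s : Set α)) = l) (hkm : ∀ s : Finset α, s.card = k → Nat.card (fixingSubgroup G (s : Set α)) = m) : MulAction.IsMultiplyPretransitive G α (k - 1) := by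
  classical
  have hlt : k - 1 < Fintype.card α := by omega
  apply H16.PermBasic.isMultiplyPretransitive_of_fixing' (k - 1) hlt
  intro T hT x y hx hy
  by_contra hcon
  push Not at hcon
  have hxy : x ≠ y := by
    rintro rfl
    exact hcon 1 G.one_mem (fun _ _ => rfl) rfl
  have hmpos : 0 < m := by
    obtain ⟨S, -, hS⟩ := Finset.exists_subset_card_eq (s := (Finset.univ : Finset α)) (n := k) (by simpa using hkn)
    rw [← hkm S hS]
    exact Nat.card_pos
  -- l = c * m
  obtain ⟨z0, hz0⟩ : ∃ z0, z0 ∉ insert x T := by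
    by_contra h
    push Not at h
    have h1 : (Finset.univ : Finset α) ⊆ insert x T := fun z _ => h z
    have h2 := Finset.card_le_card h1
    rw [Finset.card_univ, Finset.card_insert_of_notMem hx] at h2
    omega
  have hTx : (insert x T).card = k - 1 := by rw [Finset.card_insert_of_notMem hx]; exact hT
  have hTy : (insert y T).card = k - 1 := by rw [Finset.card_insert_of_notMem hy]; exact hT
  have horb : ∀ (S : Finset α) (z : α), S.card = k - 1 → z ∉ S →
      Nat.card (MulAction.orbit (H16.PermStab.fixS (G := G) S) z) * m = l := by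
    intro S z hS hz
    have := H16.PermStab.card_orbit_fixS (G := G) S z
    rw [hkm1 S hS, hkm (insert z S) (by rw [Finset.card_insert_of_notMem hz, hS]; omega)] at this
    exact this
  obtain ⟨c, hc⟩ : ∃ c, Nat.card (MulAction.orbit (H16.PermStab.fixS (G := G) (insert x T)) z0) = c := ⟨_, rfl⟩
  have hcl : c * m = l := by rw [← hc]; exact horb _ _ hTx hz0
  have horb' : ∀ (S : Finset α) (z : α), S.card = k - 1 → z ∉ S →
      Nat.card (MulAction.orbit (H16.PermStab.fixS (G := G) S) z) = c := by
    intro S z hS hz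
    have h1 := horb S z hS hz
    rw [← hcl] at h1
    exact Nat.eq_of_mul_eq_mul_right hmpos h1
  -- the orbit O of x under fixS T
  let O : Set α := MulAction.orbit (H16.PermStab.fixS (G := G) T) x
  have hOfin : O.Finite := Set.toFinite _
  have hxO : x ∈ O := MulAction.mem_orbit_self x
  have hyO : y ∉ O := by
    rintro ⟨h, hh⟩
    exact hcon (h : G) (h : G).2 (fun t ht => H16.PermStab.mem_fixS.mp h.2 t ht) hh
  have hTO : ∀ t ∈ T, t ∉ O := by
    rintro t ht ⟨h, hh⟩
    have h1 : ((h : G) : Equiv.Perm α) x = t := hh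
    have h2 : ((h : G) : Equiv.Perm α) t = t := H16.PermStab.mem_fixS.mp h.2 t ht
    have : x = t := ((h : G) : Equiv.Perm α).injective (h1.trans h2.symm)
    exact hx (this ▸ ht)
  have hinv : ∀ S : Finset α, T ⊆ S → ∀ g : H16.PermStab.fixS (G := G) S, ∀ w ∈ O, g • w ∈ O := by
    rintro S hS g w ⟨h0, rfl⟩
    exact ⟨⟨(g : G), H16.PermStab.fixS_anti hS g.2⟩ * h0, rfl⟩
  have hd1 : c ∣ O.ncard := by
    apply H16.PermBasic.dvd_ncard_of_orbits (P := H16.PermStab.fixS (G := G) (insert y T)) O hOfin
      (hinv _ (Finset.subset_insert _ _))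
    intro z hz
    apply horb' _ _ hTy
    rw [Finset.mem_insert, not_or]
    exact ⟨fun h => hyO (h ▸ hz), fun h => hTO z h hz⟩
  have hd2 : c ∣ (O \ {x}).ncard := by
    apply H16.PermBasic.dvd_ncard_of_orbits (P := H16.PermStab.fixS (G := G) (insert x T)) (O \ {x})
      (hOfin.subset Set.diff_subset)
    · intro g w hw
      refine ⟨hinv _ (Finset.subset_insert _ _) g w hw.1, ?_⟩
      intro h
      apply hw.2
      have h1 : ((g : G) : Equiv.Perm α) w = x := h
      have h2 : ((g : G) : Equiv.Perm α) x = x := H16.PermStab.mem_fixS.mp g.2 x (Finset.mem_insert_self _ _)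
      exact ((g : G) : Equiv.Perm α).injective (h1.trans h2.symm)
    · intro z hz
      apply horb' _ _ hTx
      rw [Finset.mem_insert, not_or]
      exact ⟨fun h => hz.2 h, fun h => hTO z h hz.1⟩
  have hcard : (O \ {x}).ncard + 1 = O.ncard := Set.ncard_diff_singleton_add_one hxO hOfin
  have hc1 : c = 1 := by
    have h1 : c ∣ 1 := by
      have := (Nat.dvd_add_right hd2).mp (hcard ▸ hd1)
      exact this
    exact Nat.dvd_one.mp h1
  -- so fixS S acts trivially
  have hlm : l = m := by rw [← hcl, hc1, one_mul]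
  have htriv : ∀ g : G, g ∈ H16.PermStab.fixS (G := G) (insert x T) → g = 1 := by
    intro g hg
    apply Subtype.ext
    ext z
    by_cases hz : z ∈ insert x T
    · exact H16.PermStab.mem_fixS.mp hg z hz
    · have h1 := horb' _ z hTx hz
      rw [hc1] at h1
      have h2 : Subsingleton (MulAction.orbit (H16.PermStab.fixS (G := G) (insert x T)) z) :=
        (Nat.card_eq_one_iff_unique.mp h1).1
      have h3 := h2.elim ⟨(⟨g, hg⟩ : H16.PermStab.fixS (G := G) (insert x T)) • z, ⟨⟨g, hg⟩, rfl⟩⟩
        ⟨z, MulAction.mem_orbit_self z⟩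
      exact congrArg Subtype.val h3
  have h1 : Nat.card (H16.PermStab.fixS (G := G) (insert x T)) = 1 := by
    rw [Nat.card_eq_one_iff_unique]
    refine ⟨⟨fun a b => ?_⟩, ⟨1⟩⟩
    rw [Subtype.ext_iff, htriv a a.2, htriv b b.2]
  have h2 := hkm1 _ hTx
  rw [h1] at h2
  omega

end Cfsg.Agent.S0744
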