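import Cfsg.Statements.S0735
import Cfsg.Agent.Lib.H16.PermBasic

set_option autoImplicit false
open Cfsg
open scoped Pointwise

namespace Cfsg.Agent.S0735

/-- A 2-homogeneous permutation group (transitive on 2-subsets) of even order is doubly transitive; a non-trivial 2-homogeneous group is primitive. -/
theorem result {α : Type*} [Fintype α] [DecidableEq α] (G : Subgroup (Equiv.Perm α)) (h2 : MulAction.IsPretransitive G (Set.powersetCard α 2)) (hα : 3 ≤ Fintype.card α) : (Even (Nat.card G) → MulAction.IsMultiplyPretransitive G α 2) ∧ (G ≠ ⊥ → MulAction.IsPreprimitive G α) := by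
  classical
  have hhom := H16.PermBasic.homog_iff.mp h2
  have hsym : ∀ x y : α, x ≠ y → ∀ u v : α, u ≠ v → ∃ g ∈ G, (g x = u ∧ g y = v) ∨ (g x = v ∧ g y = u) := by
    intro x y hxy u v huv
    obtain ⟨g, hg, hgs⟩ := hhom {x, y} {u, v} (Finset.card_pair hxy) (Finset.card_pair huv)
    refine ⟨g, hg, ?_⟩
    rw [Finset.image_insert, Finset.image_singleton] at hgs
    have h1 : g x ∈ ({u, v} : Finset α) := by rw [← hgs]; simp
    have h2 : g y ∈ ({u, v} : Finset α) := by rw [← hgs]; simp
    have h3 : g x ≠ g y := fun h => hxy (g.injective h)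
    simp only [Finset.mem_insert, Finset.mem_singleton] at h1 h2
    rcases h1 with h1 | h1 <;> rcases h2 with h2 | h2
    · exact absurd (h1.trans h2.symm) h3
    · exact Or.inl ⟨h1, h2⟩
    · exact Or.inr ⟨h1, h2⟩
    · exact absurd (h1.trans h2.symm) h3
  have htrans : ∀ x y : α, ∃ g ∈ G, g x = y := by
    intro x y
    by_cases hxy : x = y
    · exact ⟨1, G.one_mem, hxy⟩
    obtain ⟨z, hz⟩ : ∃ z : α, z ∉ ({x, y} : Finset α) := by
      by_contra hcon
      push Not at hcon
      have : (Finset.univ : Finset α) ⊆ {x, y} := fun z _ => hcon z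
      have := Finset.card_le_card this
      rw [Finset.card_univ, Finset.card_pair hxy] at this
      omega
    simp only [Finset.mem_insert, Finset.mem_singleton, not_or] at hz
    obtain ⟨g, hg, h | h⟩ := hsym x z (Ne.symm hz.1) y z (Ne.symm hz.2)
    · exact ⟨g, hg, h.1⟩
    · -- g x = z, g z = y
      obtain ⟨g', hg', h' | h'⟩ := hsym x z (Ne.symm hz.1) y x (Ne.symm hxy)
      · exact ⟨g', hg', h'.1⟩
      · -- g' x = x, g' z = y
        exact ⟨g' * g, G.mul_mem hg' hg, by rw [Equiv.Perm.mul_apply, h.1, h'.2]⟩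
  refine ⟨?_, ?_⟩
  · intro heven
    rw [MulAction.is_two_pretransitive_iff]
    intro a b c d hab hcd
    -- an involution
    obtain ⟨t, ht⟩ := exists_prime_orderOf_dvd_card' 2 (even_iff_two_dvd.mp heven)
    have ht1 : (t : Equiv.Perm α) ≠ 1 := by
      intro h
      have : t = 1 := Subtype.ext h
      rw [this, orderOf_one] at ht
      omega
    have ht2 : (t : Equiv.Perm α) * t = 1 := by
      have := pow_orderOf_eq_one t
      rw [ht, sq] at this
      exact congrArg Subtype.val this
    obtain ⟨u, hu⟩ : ∃ u, (t : Equiv.Perm α) u ≠ u := by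
      by_contra hcon
      push Not at hcon
      exact ht1 (Equiv.ext hcon)
    have hu2 : (t : Equiv.Perm α) ((t : Equiv.Perm α) u) = u := by
      rw [← Equiv.Perm.mul_apply, ht2]; rfl
    obtain ⟨g, hg, h⟩ := hsym a b hab ((t : Equiv.Perm α) u) u hu
    obtain ⟨g', hg', h'⟩ := hsym ((t : Equiv.Perm α) u) u hu c d hcd
    have key : ∃ k ∈ G, k a = c ∧ k b = d := by
      rcases h with ⟨h1, h2⟩ | ⟨h1, h2⟩ <;> rcases h' with ⟨h3, h4⟩ | ⟨h3, h4⟩
      · exact ⟨g' * g, G.mul_mem hg' hg, by simp [h1, h3], by simp [h2, h4]⟩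
      · exact ⟨g' * (t * g), G.mul_mem hg' (G.mul_mem t.2 hg), by simp [h1, hu2, h4], by simp [h2, h3]⟩
      · exact ⟨g' * (t * g), G.mul_mem hg' (G.mul_mem t.2 hg), by simp [h1, h3], by simp [h2, hu2, h4]⟩
      · exact ⟨g' * g, G.mul_mem hg' hg, by simp [h1, h4], by simp [h2, h3]⟩
    obtain ⟨k, hk, hka, hkb⟩ := key
    exact ⟨⟨k, hk⟩, hka, hkb⟩
  · intro _
    have : MulAction.IsPretransitive G α := ⟨fun x y => by
      obtain ⟨g, hg, h⟩ := htrans x y
      exact ⟨⟨g, hg⟩, h⟩⟩
    apply MulAction.IsPreprimitive.mk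
    intro B hB
    rcases B.subsingleton_or_nontrivial with h | h
    · exact Or.inl h
    · right
      obtain ⟨x, hx, y, hy, hxy⟩ := h
      rw [Set.eq_univ_iff_forall]
      intro z
      by_cases hxz : x = z
      · exact hxz ▸ hx
      obtain ⟨g, hg, h⟩ := hsym x y hxy x z hxz
      have h1 : x ∈ (⟨g, hg⟩ : G) • B := by
        rcases h with h | h
        · exact ⟨x, hx, h.1⟩
        · exact ⟨y, hy, h.2⟩
      have h2 : z ∈ (⟨g, hg⟩ : G) • B := by
        rcases h with h | h
        · exact ⟨y, hy, h.2⟩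
        · exact ⟨x, hx, h.1⟩
      have h3 : (⟨g, hg⟩ : G) • B = B := by
        rcases hB.smul_eq_or_disjoint ⟨g, hg⟩ with h4 | h4
        · exact h4
        · exact absurd h1 (fun h5 => Set.disjoint_left.mp h4 h5 hx)
      rw [← h3]
      exact h2

end Cfsg.Agent.S0735
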