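import Cfsg.Statements.S5604
import Cfsg.Agent.Lib.H94.M24Seven

set_option autoImplicit false
open scoped Pointwise
open Cfsg

namespace Cfsg.Agent.S5604

open H8.GolayCode H8.GolayCount H8.GolayBasic H8.M24Mem H8.M24Trans H32.M24Kit H94.M24Fast H94.M24Lists H94.M24Fix
  H94.M24Seven
open scoped Pointwise

/-- counting a subgroup through the conjugates of an element -/
theorem conj_count {G : Type*} [Group G] [Finite G] (H : Subgroup G) (s : G) :
    Nat.card (H ⊓ Subgroup.centralizer {s} : Subgroup G) * {x | ∃ h ∈ H, h * s * h⁻¹ = x}.ncard = Nat.card H := by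
  let act : MulAction G G := MulAction.compHom G (MulAut.conj : G →* MulAut G)
  have h := @H94.M24Pair.card_inf_stab G G _ act _ H s
  have e1 : (H ⊓ @MulAction.stabilizer G G _ act s : Subgroup G) = H ⊓ Subgroup.centralizer {s} := by
    ext g
    rw [Subgroup.mem_inf, Subgroup.mem_inf]
    refine and_congr_right fun _ => ?_
    rw [Subgroup.mem_centralizer_iff]
    constructor
    · intro hg x hx
      rw [Set.mem_singleton_iff] at hx
      subst hx
      have : g * x * g⁻¹ = x := hg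
      rw [mul_inv_eq_iff_eq_mul] at this
      exact this.symm
    · intro hg
      show g * s * g⁻¹ = s
      rw [mul_inv_eq_iff_eq_mul]
      exact (hg s rfl).symm
  rw [e1] at h
  rw [← h]
  congr 1
  apply congrArg Set.ncard
  ext x
  constructor
  · rintro ⟨h, hh, rfl⟩; exact ⟨⟨h, hh⟩, rfl⟩
  · rintro ⟨h, rfl⟩; exact ⟨h, h.2, rfl⟩

theorem σ7 : σ ^ 7 = 1 := Subtype.ext Z7

theorem σ_ne : σ ≠ 1 := fun h => Z_ne (congrArg Subtype.val h)

theorem σ_order : orderOf σ = 7 := by
  have : Fact (Nat.Prime 7) := ⟨by norm_num⟩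
  exact orderOf_eq_prime σ7 σ_ne

/-- the standard subgroup of order 7 -/
noncomputable abbrev S0 : Subgroup M24 := Subgroup.zpowers σ

noncomputable abbrev N0 : Subgroup M24 := Subgroup.normalizer (S0 : Set M24)

theorem no_inv' {g : M24} (h : g * σ * g⁻¹ = σ⁻¹) : False := by
  apply no_inv g.2
  rw [mul_inv_eq_iff_eq_mul] at h
  exact congrArg Subtype.val h

theorem conj_mem_N0 {g : M24} {k : ℕ} (hk : k < 7) (hk0 : 0 < k) (h : g * σ * g⁻¹ = σ ^ k) : g ∈ N0 := by
  rw [Subgroup.mem_normalizer_iff_map_conj_eq, MonoidHom.map_zpowers]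
  have h1 : (MulAut.conj g : M24 →* M24) σ = σ ^ k := h
  rw [h1]
  apply Subgroup.eq_of_le_of_card_ge
  · rw [Subgroup.zpowers_le]; exact Subgroup.pow_mem _ (Subgroup.mem_zpowers σ) k
  · rw [Nat.card_zpowers, Nat.card_zpowers, σ_order]
    have : Nat.Coprime 7 k := by
      rw [Nat.Prime.coprime_iff_not_dvd (by norm_num)]
      intro hd
      have := Nat.le_of_dvd hk0 hd
      omega
    rw [Nat.Coprime.orderOf_pow (by rw [σ_order]; exact this), σ_order]

noncomputable abbrev ν : M24 := ⟨pm NU, pm_mem NU⟩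

theorem ν_conj : ν * σ * ν⁻¹ = σ ^ 2 := by
  rw [mul_inv_eq_iff_eq_mul, pow_two]
  exact Subtype.ext nu_conj

theorem conj3 {g : M24} {k : ℕ} (h : g * σ * g⁻¹ = σ ^ k) : g ^ 3 * σ * (g ^ 3)⁻¹ = σ ^ (k * k * k) := by
  have hp : ∀ n, g * σ ^ n * g⁻¹ = σ ^ (k * n) := by
    intro n
    rw [← conj_pow, h, pow_mul]
  calc g ^ 3 * σ * (g ^ 3)⁻¹ = g * (g * (g * σ * g⁻¹) * g⁻¹) * g⁻¹ := by
        simp only [pow_succ, pow_zero, one_mul, mul_inv_rev, mul_assoc]
    _ = σ ^ (k * k * k) := by rw [h, hp, hp, mul_assoc]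

theorem conj_set : {x | ∃ h ∈ N0, h * σ * h⁻¹ = x} = {σ, σ ^ 2, σ ^ 4} := by
  ext x
  constructor
  · rintro ⟨h, hh, rfl⟩
    have h1 : h * σ * h⁻¹ ∈ S0 := by
      rw [Subgroup.mem_normalizer_iff_map_conj_eq] at hh
      rw [← hh]
      exact ⟨σ, Subgroup.mem_zpowers σ, rfl⟩
    rw [mem_zpowers_iff_mem_range_orderOf, σ_order, Finset.mem_image] at h1
    obtain ⟨k, hk, hk'⟩ := h1
    rw [Finset.mem_range] at hk
    have h3 := conj3 hk'.symm
    have bad : ∀ n : ℕ, n % 7 = 6 → σ ^ n = σ⁻¹ := by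
      intro n hn
      rw [eq_inv_iff_mul_eq_one, ← pow_succ]
      have : n + 1 = 7 * ((n + 1) / 7) := by omega
      rw [this, pow_mul, σ7, one_pow]
    interval_cases k
    · exfalso
      rw [pow_zero] at hk'
      have := hk'.symm
      rw [mul_inv_eq_one, mul_eq_left] at this
      exact σ_ne this
    · left; rw [← hk', pow_one]
    · right; left; exact hk'.symm
    · exact (no_inv' (h3.trans (bad _ (by norm_num)))).elim
    · right; right; exact hk'.symm
    · exact (no_inv' (h3.trans (bad _ (by norm_num)))).elim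
    · exact (no_inv' (h3.trans (bad _ (by norm_num)))).elim
  · rintro (rfl | rfl | rfl)
    · exact ⟨1, N0.one_mem, by group⟩
    · exact ⟨ν, conj_mem_N0 (by norm_num) (by norm_num) ν_conj, ν_conj⟩
    · have : ν ∈ N0 := conj_mem_N0 (by norm_num) (by norm_num) ν_conj
      refine ⟨ν * ν, N0.mul_mem this this, ?_⟩
      calc ν * ν * σ * (ν * ν)⁻¹ = ν * (ν * σ * ν⁻¹) * ν⁻¹ := by group
        _ = ν * σ ^ 2 * ν⁻¹ := by rw [ν_conj]
        _ = (ν * σ * ν⁻¹) ^ 2 := by rw [conj_pow]
        _ = σ ^ 4 := by rw [ν_conj, ← pow_mul]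

theorem C_le_N0 : C ≤ N0 := by
  intro g hg
  apply conj_mem_N0 (k := 1) (by norm_num) (by norm_num)
  rw [pow_one, mul_inv_eq_iff_eq_mul]
  exact Subtype.ext (mem_C.1 hg)

theorem card_N0 : Nat.card N0 = 126 := by
  have h := conj_count N0 σ
  rw [inf_eq_right.2 C_le_N0, card_C, conj_set] at h
  have h3 : ({σ, σ ^ 2, σ ^ 4} : Set M24).ncard = 3 := by
    have hinj : ∀ i j, i < 7 → j < 7 → i ≠ j → σ ^ i ≠ σ ^ j := by
      intro i j hi hj hij h
      exact hij (pow_injOn_Iio_orderOf (by rw [σ_order]; exact hi) (by rw [σ_order]; exact hj) h)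
    rw [Set.ncard_eq_three]
    refine ⟨_, _, _, ?_, ?_, ?_, rfl⟩
    · have := hinj 1 2 (by norm_num) (by norm_num) (by norm_num)
      rwa [pow_one] at this
    · have := hinj 1 4 (by norm_num) (by norm_num) (by norm_num)
      rwa [pow_one] at this
    · exact hinj 2 4 (by norm_num) (by norm_num) (by norm_num)
  rw [h3] at h
  exact h.symm

theorem centralizer_S0 : Subgroup.centralizer (S0 : Set M24) = C := by
  apply le_antisymm
  · exact Subgroup.centralizer_le (Set.singleton_subset_iff.2 (Subgroup.mem_zpowers σ))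
  · intro g hg
    rw [Subgroup.mem_centralizer_iff]
    intro x hx
    obtain ⟨n, rfl⟩ := Subgroup.mem_zpowers_iff.1 hx
    have : Commute σ g := Subtype.ext (mem_C.1 hg).symm
    exact this.zpow_left n

theorem noncomm : ∃ x ∈ C, ∃ y ∈ C, x * y ≠ y * x := by
  refine ⟨_, mem_C_of ok23, _, mem_C_of ok12, fun h => ?_⟩
  have h1 : pm C23 * pm C12 = pm C12 * pm C23 := congrArg Subtype.val h
  have h2 := congrArg (fun e : Equiv.Perm GolayPt => idx (e (pt 23))) h1
  simp only [Equiv.Perm.mul_apply] at h2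
  rw [pm_idx (okCZ_tab ok23), pm_idx (okCZ_tab ok12), pm_idx (okCZ_tab ok12), pm_idx (okCZ_tab ok23),
    idx_pt 23 (by norm_num)] at h2
  revert h2
  decide +kernel

theorem cntZ : cntTr (fun e => cond (memT (actF WZ (lk 24 e 0)) e) (memT (actF WZ (lk 24 e 1)) e) false) = 1 := by
  decide +kernel

theorem trioN : ∃ T ∈ trios, ∀ n ∈ N0, ((n : M24) : Equiv.Perm GolayPt) • T = T := by
  have h := ncard_fix_trios okWZ
  rw [cntZ, Set.ncard_eq_one] at h
  obtain ⟨T, hT⟩ := h
  have hT' : T ∈ {S : Finset (Finset GolayPt) | S ∈ trios ∧ pm Z • S = S} := by rw [hT]; rfl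
  refine ⟨T, hT'.1, fun n hn => ?_⟩
  have hn' : n⁻¹ * σ * n ∈ S0 := by
    have h1 := N0.inv_mem hn
    rw [Subgroup.mem_normalizer_iff_map_conj_eq] at h1
    rw [← h1]
    exact ⟨σ, Subgroup.mem_zpowers σ, by
      show n⁻¹ * σ * n⁻¹⁻¹ = _
      rw [inv_inv]⟩
  obtain ⟨k, hk⟩ := Subgroup.mem_zpowers_iff.1 hn'
  have hσT : σ ^ k • T = T := by
    have : σ ∈ MulAction.stabilizer M24 T := hT'.2
    exact (MulAction.stabilizer M24 T).zpow_mem this k
  have h2 : (n • T : Finset (Finset GolayPt)) ∈ {S : Finset (Finset GolayPt) | S ∈ trios ∧ pm Z • S = S} := by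
    refine ⟨smul_trio n.2 hT'.1, ?_⟩
    show σ • n • T = n • T
    rw [← inv_smul_eq_iff, ← mul_smul, ← mul_smul, ← hk, hσT]
  rw [hT, Set.mem_singleton_iff] at h2
  exact h2

/-- transport of centralisers -/
theorem map_centralizer {G : Type*} [Group G] (H : Subgroup G) (k : G) :
    Subgroup.centralizer ((H.map (MulAut.conj k).toMonoidHom : Subgroup G) : Set G) =
      (Subgroup.centralizer (H : Set G)).map (MulAut.conj k).toMonoidHom := by
  ext g
  rw [Subgroup.mem_centralizer_iff, Subgroup.mem_map]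
  constructor
  · intro h
    refine ⟨k⁻¹ * g * k, ?_, ?_⟩
    · rw [Subgroup.mem_centralizer_iff]
      intro x hx
      have := h (k * x * k⁻¹) ⟨x, hx, rfl⟩
      calc x * (k⁻¹ * g * k) = k⁻¹ * (k * x * k⁻¹ * g) * k := by group
        _ = k⁻¹ * (g * (k * x * k⁻¹)) * k := by rw [this]
        _ = k⁻¹ * g * k * x := by group
    · show k * (k⁻¹ * g * k) * k⁻¹ = g
      group
  · rintro ⟨x, hx, rfl⟩ _ ⟨y, hy, rfl⟩
    show k * y * k⁻¹ * (k * x * k⁻¹) = k * x * k⁻¹ * (k * y * k⁻¹)
    have := (Subgroup.mem_centralizer_iff.1 hx) y hy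
    calc k * y * k⁻¹ * (k * x * k⁻¹) = k * (y * x) * k⁻¹ := by group
      _ = k * (x * y) * k⁻¹ := by rw [this]
      _ = k * x * k⁻¹ * (k * y * k⁻¹) := by group


/-- For a subgroup S of order 7 of the group of the length-24 code (a Sylow 7-subgroup): the normaliser of S has order 126, the centraliser of S has order 42 and is non-abelian, and the whole normaliser leaves some trio invariant. (These are the orders of a Frobenius group of order 21 times a symmetric group of degree 3; the isomorphism type itself is not asserted here.) -/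
theorem result (S : Subgroup ↥Cfsg.M24) (hS : Nat.card S = 7) : Nat.card ↥(Subgroup.normalizer (S : Set ↥Cfsg.M24)) = 126 ∧ Nat.card ↥(Subgroup.centralizer (S : Set ↥Cfsg.M24)) = 42 ∧ (∃ x ∈ Subgroup.centralizer (S : Set ↥Cfsg.M24), ∃ y ∈ Subgroup.centralizer (S : Set ↥Cfsg.M24), x * y ≠ y * x) ∧ ∃ T ∈ Cfsg.trios, ∀ n ∈ Subgroup.normalizer (S : Set ↥Cfsg.M24), ((n : ↥Cfsg.M24) : Equiv.Perm Cfsg.GolayPt) • T = T := by
  have : Fact (Nat.Prime 7) := ⟨by norm_num⟩
  have hM : Nat.card M24 = 244823040 := H8.M24Chain.card_M24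
  have hfac : Nat.factorization (Nat.card M24) 7 = 1 := by
    rw [hM, show 244823040 = 7 * 34974720 by norm_num, Nat.factorization_mul (by norm_num) (by norm_num),
      Finsupp.add_apply, Nat.Prime.factorization_self (by norm_num), Nat.factorization_eq_zero_of_not_dvd (by norm_num)]
  let P : Sylow 7 M24 := Sylow.ofCard S (by rw [hS, hfac, pow_one])
  let Q : Sylow 7 M24 := Sylow.ofCard S0 (by rw [Nat.card_zpowers, σ_order, hfac, pow_one])
  obtain ⟨k, hk⟩ := MulAction.exists_smul_eq M24 Q P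
  have hSk : S = S0.map (MulAut.conj k).toMonoidHom := by
    have h1 : ((k • Q : Sylow 7 M24) : Subgroup M24) = S := by rw [hk]; rfl
    rw [← h1]
    rfl
  have hN : Subgroup.normalizer (S : Set M24) = N0.map (MulAut.conj k).toMonoidHom := by
    rw [hSk]
    exact (Subgroup.map_equiv_normalizer_eq S0 (MulAut.conj k)).symm
  have hC : Subgroup.centralizer (S : Set M24) = C.map (MulAut.conj k).toMonoidHom := by
    rw [hSk, map_centralizer, centralizer_S0]
  refine ⟨?_, ?_, ?_, ?_⟩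
  · rw [hN, ← card_N0]
    exact (Nat.card_congr ((MulAut.conj k).subgroupMap N0).toEquiv).symm
  · rw [hC, ← card_C]
    exact (Nat.card_congr ((MulAut.conj k).subgroupMap C).toEquiv).symm
  · rw [hC]
    obtain ⟨x, hx, y, hy, hxy⟩ := noncomm
    refine ⟨_, ⟨x, hx, rfl⟩, _, ⟨y, hy, rfl⟩, fun h => hxy ?_⟩
    rw [← map_mul, ← map_mul] at h
    exact (MulAut.conj k).injective h
  · obtain ⟨T, hT, hn⟩ := trioN
    refine ⟨k • T, smul_trio k.2 hT, fun n hnN => ?_⟩
    rw [hN] at hnN
    obtain ⟨m, hm, rfl⟩ := hnN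
    show (k * m * k⁻¹) • k • T = k • T
    rw [mul_smul, inv_smul_smul, mul_smul]
    have : m • T = T := hn m hm
    rw [this]

end Cfsg.Agent.S5604
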