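import Cfsg.Statements.S5607
import Cfsg.Agent.Lib.H94.M24Inv

set_option autoImplicit false
open scoped Pointwise
open Cfsg

namespace Cfsg.Agent.S5607

open H8.GolayCode H8.GolayCount H8.GolayBasic H8.M24Mem H8.M24Trans H32.M24Kit H32.Sextet H94.M24Fast H94.M24Lists H94.M24Cls H94.M24Fix
  H94.M24Inv
open scoped Pointwise


/-- For a fixed-point-free involution t of the group of the length-24 code: its centraliser in that group has order 7680, is transitive on the 24 points, and is contained, together with t, in the stabiliser of some sextet. -/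
theorem result (t : Equiv.Perm Cfsg.GolayPt) (ht : t ∈ Cfsg.M24) (h₂ : orderOf t = 2) (h₀ : ∀ p, t p ≠ p) : Nat.card {c : Equiv.Perm Cfsg.GolayPt // c ∈ Cfsg.M24 ∧ c * t = t * c} = 7680 ∧ (∀ p q : Cfsg.GolayPt, ∃ c ∈ Cfsg.M24, c * t = t * c ∧ c p = q) ∧ ∃ S ∈ Cfsg.sextets, t • S = S ∧ ∀ c ∈ Cfsg.M24, c * t = t * c → c • S = S := by
  classical
  have hf : (Finset.univ.filter fun p => t p = p).card = 0 := by
    rw [Finset.card_eq_zero, Finset.filter_eq_empty_iff]
    exact fun p _ => h₀ p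
  obtain ⟨h8, -⟩ | ⟨-, k, hk, rfl⟩ := cls2' ht h₂
  · rw [hf] at h8; omega
  have hconj : ∀ c : Equiv.Perm GolayPt, c * (k * pm T0 * k⁻¹) = k * pm T0 * k⁻¹ * c ↔
      (k⁻¹ * c * k) * pm T0 = pm T0 * (k⁻¹ * c * k) := by
    intro c
    constructor
    · intro h
      have h1 := congrArg (fun x => k⁻¹ * x * k) h
      calc k⁻¹ * c * k * pm T0 = k⁻¹ * (c * (k * pm T0 * k⁻¹)) * k := by group
        _ = k⁻¹ * (k * pm T0 * k⁻¹ * c) * k := h1
        _ = pm T0 * (k⁻¹ * c * k) := by group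
    · intro h
      calc c * (k * pm T0 * k⁻¹) = k * ((k⁻¹ * c * k) * pm T0) * k⁻¹ := by group
        _ = k * (pm T0 * (k⁻¹ * c * k)) * k⁻¹ := by rw [h]
        _ = k * pm T0 * k⁻¹ * c := by group
  have hmem : ∀ c : Equiv.Perm GolayPt, c ∈ M24 ↔ k⁻¹ * c * k ∈ M24 := by
    intro c
    constructor
    · intro h; exact M24.mul_mem (M24.mul_mem (M24.inv_mem hk) h) hk
    · intro h
      have := M24.mul_mem (M24.mul_mem hk h) (M24.inv_mem hk)
      have e : k * (k⁻¹ * c * k) * k⁻¹ = c := by group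
      rwa [e] at this
  refine ⟨?_, ?_, ?_⟩
  · rw [← card_C']
    refine Nat.card_congr ⟨fun c => ⟨k⁻¹ * c.1 * k, (hmem _).1 c.2.1, (hconj _).1 c.2.2⟩,
      fun c => ⟨k * c.1 * k⁻¹, ?_, ?_⟩, ?_, ?_⟩
    · exact M24.mul_mem (M24.mul_mem hk c.2.1) (M24.inv_mem hk)
    · rw [hconj]
      have e : k⁻¹ * (k * c.1 * k⁻¹) * k = c.1 := by group
      rw [e]; exact c.2.2
    · intro c
      apply Subtype.ext
      show k * (k⁻¹ * c.1 * k) * k⁻¹ = c.1
      group
    · intro c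
      apply Subtype.ext
      show k⁻¹ * (k * c.1 * k⁻¹) * k = c.1
      group
  · intro p q
    have key : ∀ q : GolayPt, ∃ c ∈ M24, c * pm T0 = pm T0 * c ∧ c (pt 23) = q := by
      intro q
      have : q ∈ MulAction.orbit C (pt 23) := by rw [orbC]; exact Set.mem_univ q
      obtain ⟨g, hg⟩ := this
      exact ⟨(g : M24).1, (g : M24).2, mem_C.1 g.2, hg⟩
    obtain ⟨a, ha, ha1, ha2⟩ := key (k⁻¹ p)
    obtain ⟨b, hb, hb1, hb2⟩ := key (k⁻¹ q)
    have hab : (b * a⁻¹) * pm T0 = pm T0 * (b * a⁻¹) := by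
      have h1 : a⁻¹ * pm T0 = pm T0 * a⁻¹ := by
        rw [inv_mul_eq_iff_eq_mul, ← mul_assoc, ha1, mul_inv_cancel_right]
      rw [mul_assoc, h1, ← mul_assoc, hb1, mul_assoc]
    refine ⟨k * (b * a⁻¹) * k⁻¹, M24.mul_mem (M24.mul_mem hk (M24.mul_mem hb (M24.inv_mem ha))) (M24.inv_mem hk), ?_, ?_⟩
    · rw [hconj]
      have e : k⁻¹ * (k * (b * a⁻¹) * k⁻¹) * k = b * a⁻¹ := by group
      rw [e]; exact hab
    · simp only [Equiv.Perm.mul_apply]
      rw [← ha2, show a⁻¹ (a (pt 23)) = pt 23 from a.symm_apply_apply _, hb2]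
      exact k.apply_symm_apply q
  · refine ⟨k • U, smul_sextet hk U_mem, ?_, ?_⟩
    · rw [mul_smul, mul_smul, inv_smul_smul, C_U (pm_mem T0) rfl]
    · intro c hc hct
      rw [hconj] at hct
      have h1 := C_U ((hmem c).1 hc) hct
      rw [mul_smul, mul_smul, inv_smul_eq_iff] at h1
      exact h1

end Cfsg.Agent.S5607
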