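import Cfsg.Statements.S5394
import Cfsg.Agent.Lib.H91.M24Inv

set_option autoImplicit false
open Cfsg

namespace Cfsg.Agent.S5394




/-- The automorphism group of the length-24 code built from the squares modulo 23 has exactly two conjugacy classes of involutions: an involution either fixes exactly the eight points of an octad or has no fixed points, both kinds occur, and any two involutions of the same kind are conjugate in the group. -/
theorem result : (∀ g ∈ Cfsg.M24, orderOf g = 2 → (Finset.univ.filter fun p => g p = p) ∈ Cfsg.octads ∨ ∀ p, g p ≠ p) ∧ (∃ g ∈ Cfsg.M24, orderOf g = 2 ∧ (Finset.univ.filter fun p => g p = p) ∈ Cfsg.octads) ∧ (∃ g ∈ Cfsg.M24, orderOf g = 2 ∧ ∀ p, g p ≠ p) ∧ ∀ g ∈ Cfsg.M24, ∀ h ∈ Cfsg.M24, orderOf g = 2 → orderOf h = 2 → ((∀ p, g p ≠ p) ↔ (∀ p, h p ≠ p)) → ∃ k ∈ Cfsg.M24, k * g * k⁻¹ = h := by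
  have sq : ∀ {g : Equiv.Perm Cfsg.GolayPt}, orderOf g = 2 → ∀ x, g (g x) = x := by
    intro g hg x
    have h := pow_orderOf_eq_one g
    rw [hg, pow_two] at h
    exact congrArg (fun k : Equiv.Perm Cfsg.GolayPt => k x) h
  have ne1 : ∀ {g : Equiv.Perm Cfsg.GolayPt}, orderOf g = 2 → g ≠ 1 := by
    rintro g hg rfl
    rw [orderOf_one] at hg
    exact absurd hg (by norm_num)
  obtain ⟨g8, hg8M, hg8⟩ := H91.M24Inv.exists_s8
  have g8sq : ∀ p, g8 (g8 p) = p := by
    intro p
    apply H8.GolayCode.idx_injective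
    rw [hg8, hg8]
    exact (H91.M24Inv.s8_sq ⟨_, H8.GolayCode.idx_lt p⟩).1
  have g8fp : ∀ p, g8 p ≠ p := by
    intro p hp
    have h := (H91.M24Inv.s8_sq ⟨_, H8.GolayCode.idx_lt p⟩).2
    apply h
    show H8.M24Mem.tab H91.M24Inv.s8 (H8.GolayCode.idx p) = H8.GolayCode.idx p
    rw [← hg8, hp]
  refine ⟨fun g hg h2 => H91.M24Inv.fix_cases hg (sq h2) (ne1 h2), ?_, ⟨g8, hg8M, ?_, g8fp⟩, ?_⟩
  · obtain ⟨u, hu, hu1⟩ : ∃ u ∈ H91.M24Cent.U0, u ≠ 1 := by
      by_contra hcon
      push Not at hcon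
      have h : H91.M24Cent.U0 = ⊥ := (Subgroup.eq_bot_iff_forall _).2 hcon
      have := H91.M24Cent.card_U0
      rw [h, Subgroup.card_bot] at this
      exact absurd this (by norm_num)
    have hv := H91.M24Cent.mem_U0.1 hu
    have hpow : ((u : Cfsg.M24) : Equiv.Perm Cfsg.GolayPt) ^ 2 = 1 := by
      rw [pow_two]; exact H57.OctStab.VO_sq hv
    have h1 : ((u : Cfsg.M24) : Equiv.Perm Cfsg.GolayPt) ≠ 1 := by
      intro h
      apply hu1
      apply Subtype.ext; apply Subtype.ext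
      exact h
    have h2 : orderOf ((u : Cfsg.M24) : Equiv.Perm Cfsg.GolayPt) = 2 := orderOf_eq_prime hpow h1
    refine ⟨_, hv.1, h2, ?_⟩
    rcases H91.M24Inv.fix_cases hv.1 (sq h2) h1 with h | h
    · exact h
    · exfalso
      obtain ⟨p, hp⟩ : (H57.OctTab.O).Nonempty := by
        rw [← Finset.card_pos, (H57.OctTab.O_octad).2]; norm_num
      exact h p (hv.2 p hp)
  · apply orderOf_eq_prime
    · apply Equiv.ext
      intro p
      rw [pow_two]
      exact g8sq p
    · intro h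
      apply g8fp none
      rw [h]; rfl
  · intro g hg h hh hg2 hh2 hiff
    rcases H91.M24Inv.fix_cases hg (sq hg2) (ne1 hg2) with h1 | h1
    · rcases H91.M24Inv.fix_cases hh (sq hh2) (ne1 hh2) with h3 | h3
      · exact H91.M24Inv.conj_octad hg (ne1 hg2) hh (ne1 hh2) h1 h3
      · exfalso
        have h4 := hiff.2 h3
        have h5 := h1.2
        have h6 : (Finset.univ.filter fun p => g p = p) = ∅ := by
          rw [Finset.filter_eq_empty_iff]
          exact fun p _ => h4 p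
        rw [h6, Finset.card_empty] at h5
        exact absurd h5 (by norm_num)
    · obtain ⟨k, hk, hkk⟩ := H91.M24Inv.conj_s8 hg (sq hg2) h1 hg8
      obtain ⟨l, hl, hll⟩ := H91.M24Inv.conj_s8 hh (sq hh2) (hiff.1 h1) hg8
      refine ⟨l⁻¹ * k, Cfsg.M24.mul_mem (Cfsg.M24.inv_mem hl) hk, ?_⟩
      have e : k * g * k⁻¹ = l * h * l⁻¹ := hkk.trans hll.symm
      calc l⁻¹ * k * g * (l⁻¹ * k)⁻¹ = l⁻¹ * (k * g * k⁻¹) * l := by group
        _ = h := by rw [e]; group

end Cfsg.Agent.S5394
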