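import Cfsg.Statements.S5608
import Cfsg.Agent.Lib.H94.M24Inv

set_option autoImplicit false
open scoped Pointwise
open Cfsg

namespace Cfsg.Agent.S5608

open H8.GolayCode H8.GolayCount H8.GolayBasic H8.M24Mem H8.M24Trans H32.M24Kit H94.M24Fast H94.M24Lists H94.M24Cls H94.M24Fix
  H94.M24Inv
open scoped Pointwise

/-- the element of order 3 -/
noncomputable def y0 : M24 := ⟨pm TH, pm_mem TH⟩

theorem okTabTH : okTab TH = true := by decide +kernel

theorem y0_mem : y0 ∈ C := (okMv_spec okTH (by simp) (by norm_num)).1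

theorem y0_cube : pm TH * pm TH * pm TH = 1 := by
  apply Equiv.ext
  intro p
  apply idx_injective
  simp only [Equiv.Perm.mul_apply, Equiv.Perm.one_apply]
  rw [pm_idx okTabTH, pm_idx okTabTH, pm_idx okTabTH]
  have h := okTH3
  unfold okOrd3 at h
  rw [List.all_eq_true] at h
  exact Nat.eq_of_beq_eq_true (h _ (List.mem_range.2 (idx_lt p)))

theorem y0_fix : (Finset.univ.filter fun p => pm TH p = p).card = 0 := by
  rw [card_fix okTabTH]; exact fixTH

theorem y0_ne : pm TH ≠ 1 := by
  intro h
  have := y0_fix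
  rw [h] at this
  simp at this

theorem y0_order : orderOf (⟨y0, y0_mem⟩ : C) = 3 := by
  have : Fact (Nat.Prime 3) := ⟨Nat.prime_three⟩
  apply orderOf_eq_prime
  · apply Subtype.ext
    apply Subtype.ext
    show pm TH ^ 3 = 1
    rw [pow_succ, pow_two]; exact y0_cube
  · intro h
    exact y0_ne (congrArg (fun x : C => ((x : M24) : Equiv.Perm GolayPt)) h)

/-- elements of order 3 commuting with `T0` have no fixed points -/
theorem fpf3 {x : Equiv.Perm GolayPt} (hx : x ∈ M24) (h : x * pm T0 = pm T0 * x) (h3 : orderOf x = 3) :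
    (Finset.univ.filter fun p => x p = p).card = 0 := by
  have : Fact (Nat.Prime 3) := ⟨Nat.prime_three⟩
  let X : C := ⟨⟨x, hx⟩, mem_C.2 h⟩
  have hX : orderOf X = 3 := by
    rw [← h3, ← Subgroup.orderOf_coe, ← Subgroup.orderOf_coe]
  have hfac : Nat.factorization (Nat.card C) 3 = 1 := by
    rw [card_C, show 7680 = 3 * 2560 by norm_num, Nat.factorization_mul (by norm_num) (by norm_num), Finsupp.add_apply,
      Nat.Prime.factorization_self Nat.prime_three, Nat.factorization_eq_zero_of_not_dvd (by norm_num)]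
  let P : Sylow 3 C := Sylow.ofCard (Subgroup.zpowers X) (by rw [Nat.card_zpowers, hX, hfac, pow_one])
  let Q : Sylow 3 C := Sylow.ofCard (Subgroup.zpowers (⟨y0, y0_mem⟩ : C)) (by rw [Nat.card_zpowers, y0_order, hfac, pow_one])
  obtain ⟨g, hg⟩ := MulAction.exists_smul_eq C Q P
  have hXQ : X ∈ (g • Q : Sylow 3 C) := by
    rw [hg]; exact Subgroup.mem_zpowers X
  have h2 : g⁻¹ * X * g ∈ Subgroup.zpowers (⟨y0, y0_mem⟩ : C) := by
    have h1 : X ∈ MulAut.conj g • (Q : Subgroup C) := hXQ
    rw [Subgroup.mem_pointwise_smul_iff_inv_smul_mem] at h1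
    have h2 : (MulAut.conj g)⁻¹ • X = g⁻¹ * X * g := by
      rw [← map_inv]
      show g⁻¹ * X * g⁻¹⁻¹ = _
      rw [inv_inv]
    rw [h2] at h1
    exact h1
  -- `g⁻¹ X g` is `y` or `y²`
  obtain ⟨n, hn⟩ := Subgroup.mem_zpowers_iff.1 h2
  have hval : ((g : M24) : Equiv.Perm GolayPt)⁻¹ * x * ((g : M24) : Equiv.Perm GolayPt) = (pm TH) ^ n :=
    (congrArg (fun z : C => ((z : M24) : Equiv.Perm GolayPt)) hn).symm
  have hx' : x = ((g : M24) : Equiv.Perm GolayPt) * (pm TH) ^ n * ((g : M24) : Equiv.Perm GolayPt)⁻¹ := by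
    rw [← hval]; group
  have hx1 : x ≠ 1 := by rintro rfl; rw [orderOf_one] at h3; omega
  have hne : (pm TH) ^ n ≠ 1 := by
    intro h
    rw [h, mul_one, mul_inv_cancel] at hx'
    exact hx1 hx'
  rw [hx', card_fix_conj, Finset.card_eq_zero, Finset.filter_eq_empty_iff]
  intro p _ hp
  -- a fixed point of `y^n` is a fixed point of `y`
  have h5 : (pm TH) ^ (3 : ℤ) = 1 := by
    have := y0_cube
    rw [show (3 : ℤ) = 1 + 1 + 1 by norm_num, zpow_add, zpow_add, zpow_one]; exact this
  have hr : n % 3 = 0 ∨ n % 3 = 1 ∨ n % 3 = 2 := by omega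
  have hn3 : (pm TH) ^ n = (pm TH) ^ (n % 3) := by
    conv_lhs => rw [← Int.mul_ediv_add_emod n 3, zpow_add, zpow_mul, h5, one_zpow, one_mul]
  have hfix : pm TH p = p := by
    rcases hr with h | h | h
    · rw [h, zpow_zero] at hn3; exact absurd hn3 hne
    · rw [h, zpow_one] at hn3; rw [← hn3]; exact hp
    · rw [hn3, h] at hp
      have h6 : (pm TH) ^ (2 : ℤ) = (pm TH) * (pm TH) := by
        rw [show (2 : ℤ) = 1 + 1 by norm_num, zpow_add, zpow_one]
      rw [h6, Equiv.Perm.mul_apply] at hp
      have h7 := congrArg (fun f : Equiv.Perm GolayPt => f p) y0_cube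
      simp only [Equiv.Perm.mul_apply, Equiv.Perm.one_apply] at h7
      rw [hp] at h7
      exact h7
  have := y0_fix
  rw [Finset.card_eq_zero, Finset.filter_eq_empty_iff] at this
  exact this (Finset.mem_univ p) hfix


/-- If an element of order 3 and an involution of the group of the length-24 code commute, then either the element of order 3 has exactly 6 fixed points and the involution exactly 8, or both are fixed-point-free. -/
theorem result (x s : Equiv.Perm Cfsg.GolayPt) (hx : x ∈ Cfsg.M24) (hs : s ∈ Cfsg.M24) (h₃ : orderOf x = 3) (h₂ : orderOf s = 2) (hc : Commute x s) : ((Finset.univ.filter fun p => x p = p).card = 6 ∧ (Finset.univ.filter fun p => s p = p).card = 8) ∨ ((Finset.univ.filter fun p => x p = p).card = 0 ∧ (Finset.univ.filter fun p => s p = p).card = 0) := by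
  classical
  rcases cls2' hs h₂ with ⟨hs8, -⟩ | ⟨hs0, k, hk, hsk⟩
  · left
    rcases cls3' hx h₃ with ⟨hx6, -⟩ | ⟨hx0, -⟩
    · exact ⟨hx6, hs8⟩
    · exfalso
      -- `x` acts without fixed points on the eight fixed points of `s`
      have hx3 := (cube_of_order h₃).1
      set F := Finset.univ.filter fun p => s p = p with hF
      have hmem : ∀ p, p ∈ F ↔ s p = p := fun p => by rw [hF, Finset.mem_filter]; simp
      have hxF : ∀ p, p ∈ F ↔ x p ∈ F := by
        intro p
        rw [hmem, hmem]
        have h1 : s (x p) = x (s p) := by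
          have := congrArg (fun f : Equiv.Perm GolayPt => f p) hc
          simpa [Equiv.Perm.mul_apply] using this.symm
        rw [h1, x.injective.eq_iff]
      let σ : Equiv.Perm ↥F := x.subtypePerm fun p => (hxF p).symm
      have hσ3 : σ ^ 3 ^ 1 = 1 := by
        apply Equiv.ext
        intro p
        apply Subtype.ext
        show x (x (x (p : GolayPt))) = p
        exact congrArg (fun f : Equiv.Perm GolayPt => f p) hx3
      have : Fact (Nat.Prime 3) := ⟨Nat.prime_three⟩
      have h8 : Fintype.card ↥F = 8 := by rw [Fintype.card_coe]; exact hs8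
      have h1 := Equiv.Perm.card_compl_support_modEq (p := 3) (n := 1) (σ := σ) hσ3
      have h2 : σ.supportᶜ.card = 0 := by
        rw [Finset.card_eq_zero, Finset.eq_empty_iff_forall_notMem]
        intro p hp
        rw [Finset.mem_compl, Equiv.Perm.mem_support, not_not] at hp
        have hp : x (p.1 : GolayPt) = p.1 := congrArg Subtype.val hp
        rw [Finset.card_eq_zero, Finset.filter_eq_empty_iff] at hx0
        exact hx0 (Finset.mem_univ _) hp
      rw [h8, h2] at h1
      exact absurd h1 (by decide)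
  · right
    refine ⟨?_, hs0⟩
    have h1 : (k⁻¹ * x * k) * pm T0 = pm T0 * (k⁻¹ * x * k) := by
      have h2 : x * (k * pm T0 * k⁻¹) = k * pm T0 * k⁻¹ * x := by rw [← hsk]; exact hc
      calc k⁻¹ * x * k * pm T0 = k⁻¹ * (x * (k * pm T0 * k⁻¹)) * k := by group
        _ = k⁻¹ * (k * pm T0 * k⁻¹ * x) * k := by rw [h2]
        _ = pm T0 * (k⁻¹ * x * k) := by group
    have h4 : orderOf (k⁻¹ * x * k) = 3 := by
      have : k⁻¹ * x * k = (MulAut.conj k⁻¹) x := by
        rw [MulAut.conj_apply, inv_inv]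
      rw [this, MulEquiv.orderOf_eq, h₃]
    have h3 := fpf3 (M24.mul_mem (M24.mul_mem (M24.inv_mem hk) hx) hk) h1 h4
    have h5 := card_fix_conj x k⁻¹
    rw [inv_inv] at h5
    rw [← h5]; exact h3

end Cfsg.Agent.S5608
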