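import Cfsg.Statements.S5615
import Cfsg.Agent.Lib.H94.M24Forest
import Cfsg.Agent.Lib.H32.OctadStab
import Cfsg.Agent.Lib.H32.OctadOrb

set_option autoImplicit false
open scoped Pointwise
open Cfsg

namespace Cfsg.Agent.S5615

open H8.GolayCode H8.GolayCount H8.GolayBasic H8.M24Mem H8.M24Trans H32.M24Kit H32.Octad H32.OctadOrb H32.OctadStab
  H94.M24Fast H94.M24Lists H94.M24Forest
open scoped Pointwise

def gA : List ℕ := [0x732c47a62da01535c8f041855b8465, 0x759932480978cd5a220d3a82b15e25]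

def stA : List (ℕ × ℕ) := [(0x6920d0, 0), (0x6920d0, 1), (0x60b540, 0), (0x401ed0, 0), (0x401ed0, 1), (0x5d1440, 0),
  (0x5d1440, 1), (0x2c19c0, 0), (0x2c19c0, 1), (0x710d80, 0), (0x710d80, 1), (0xcb250, 0), (0xcb250, 1), (0x6c0710, 0),
  (0x498b40, 0), (0x498b40, 1), (0x453910, 0), (0x453910, 1), (0x583380, 0), (0x3886c0, 0), (0x258c50, 1), (0x11b8c0, 0),
  (0x293e00, 0), (0x293e00, 1), (0x99590, 0), (0x99590, 1), (0x149f00, 0)]

def TA : List ℕ := [0x6920d0, 0x60b540, 0x401ed0, 0x5d1440, 0x2c19c0, 0x710d80, 0xcb250, 0x6c0710, 0x498b40, 0x343490,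
  0x453910, 0x583380, 0x3886c0, 0x258c50, 0x659280, 0x11b8c0, 0x51a610, 0x293e00, 0x742a40, 0x99590, 0x5481d0, 0x149f00,
  0x182d50, 0x4cac80, 0x311350, 0x3da100, 0x20ab90, 0x1d0a90]

theorem certA : okStage [o0, 0x527c0] gA 0x6920d0 stA TA = true := by decide +kernel

theorem certA' : allB (fun n => !(Nat.beq (pop n) 8 && Nat.beq (o0 &&& n) 0 && !Nat.beq n 0x527c0 &&
    !Nat.beq (0x527c0 &&& n) 0) || TA.contains n) basisL 0 = true := by decide +kernel

theorem fs_inter_msk {m : ℕ} {s : Finset GolayPt} (hm : m < 2 ^ 24) (h : fs m ∩ s = ∅) : m &&& msk s = 0 := by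
  have h1 : fs (m &&& msk s) = fs 0 := by
    rw [← fs_inter, fs_msk, h]
    ext p
    rw [mem_fs]; simp
  exact fs_inj (lt_of_le_of_lt Nat.and_le_left hm) (by norm_num) h1

/-- the standard triple -/
theorem to_std {o a c : Finset GolayPt} (ho : o ∈ octads) (ha : a ∈ octads) (hc : c ∈ octads) (hoa : o ∩ a = ∅)
    (hoc : o ∩ c = ∅) (hac : a ≠ c) (hac' : a ∩ c ≠ ∅) :
    ∃ g ∈ M24, (fs o0).image g = o ∧ (fs 0x527c0).image g = a ∧ (fs 0x6920d0).image g = c := by
  have hm : (0x527c0 : ℕ) < 2 ^ 24 := by norm_num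
  have ha0 : fs 0x527c0 ∈ octads := (isOct_spec (by decide +kernel)).2
  have hoa0 : fs o0 ∩ fs 0x527c0 = ∅ := by
    rw [fs_inter]
    ext p
    rw [mem_fs, show o0 &&& 0x527c0 = 0 by decide +kernel]; simp
  obtain ⟨g, hg, h1, h2⟩ := octad_pair_trans' o0_mem ha0 ho ha (by rw [hoa, hoa0])
  have hinv : ∀ s : Finset GolayPt, (s.image ⇑(g⁻¹)).image g = s := fun s => by
    rw [Finset.image_image]
    conv_rhs => rw [← Finset.image_id (s := s)]
    apply Finset.image_congr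
    intro p _
    exact g.apply_symm_apply p
  have hinter : ∀ s t : Finset GolayPt, s.image g ∩ t = (s ∩ t.image ⇑(g⁻¹)).image g := fun s t => by
    rw [image_inter, hinv]
  have hc' : c.image ⇑(g⁻¹) ∈ octads := (image_mem_octads (M24.inv_mem hg)).2 hc
  have e1 : fs o0 ∩ c.image ⇑(g⁻¹) = ∅ := by
    have := hinter (fs o0) c
    rw [h1, hoc] at this
    exact Finset.image_eq_empty.1 this.symm
  have e2 : fs 0x527c0 ∩ c.image ⇑(g⁻¹) ≠ ∅ := by
    have := hinter (fs 0x527c0) c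
    rw [h2] at this
    intro h
    rw [h, Finset.image_empty] at this
    exact hac' this
  have e3 : c.image ⇑(g⁻¹) ≠ fs 0x527c0 := by
    intro h
    rw [← hinv c, h, h2] at hac
    exact hac rfl
  have hP : (Nat.beq (pop (msk (c.image ⇑(g⁻¹)))) 8 && Nat.beq (o0 &&& msk (c.image ⇑(g⁻¹))) 0 &&
      !Nat.beq (msk (c.image ⇑(g⁻¹))) 0x527c0 && !Nat.beq (0x527c0 &&& msk (c.image ⇑(g⁻¹))) 0) = true := by
    rw [Bool.and_eq_true, Bool.and_eq_true, Bool.and_eq_true]
    refine ⟨⟨⟨?_, ?_⟩, ?_⟩, ?_⟩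
    · rw [← card_eq_pop, show (c.image ⇑(g⁻¹)).card = 8 from hc'.2]; rfl
    · rw [fs_inter_msk (by norm_num [o0]) e1]; rfl
    · rw [Bool.not_eq_true', ← Bool.not_eq_true]
      intro h
      exact e3 (by rw [← fs_msk (c.image ⇑(g⁻¹)), Nat.eq_of_beq_eq_true h])
    · rw [Bool.not_eq_true', ← Bool.not_eq_true]
      intro h
      apply e2
      have h3 := Nat.eq_of_beq_eq_true h
      rw [← fs_msk (c.image ⇑(g⁻¹)), fs_inter, h3]
      ext p
      rw [mem_fs]; simp
  obtain ⟨k, hk, h4⟩ := stageGS certA certA' _ hc'.1 hP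
  refine ⟨g * k, M24.mul_mem hg hk.1, ?_, ?_, ?_⟩
  · rw [image_mul, hk.2 o0 (by simp), h1]
  · rw [image_mul, hk.2 0x527c0 (by simp), h2]
  · rw [image_mul, h4, hinv]

theorem exists_other {T : Finset (Finset GolayPt)} (hT : T ∈ trios) (o : Finset GolayPt) : ∃ a ∈ T, a ≠ o := by
  have : 1 < T.card := by rw [hT.1]; norm_num
  exact Finset.exists_mem_ne this o

theorem two_trans {o o' : Finset GolayPt} {T₁ T₂ T₁' T₂' : Finset (Finset GolayPt)} (h₁ : T₁ ∈ trios) (h₂ : T₂ ∈ trios)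
    (h₁' : T₁' ∈ trios) (h₂' : T₂' ∈ trios) (o₁ : o ∈ T₁) (o₂ : o ∈ T₂) (o₁' : o' ∈ T₁') (o₂' : o' ∈ T₂') (hne : T₁ ≠ T₂)
    (hne' : T₁' ≠ T₂') : ∃ g ∈ M24, g • o = o' ∧ g • T₁ = T₁' ∧ g • T₂ = T₂' := by
  have key : ∀ {o : Finset GolayPt} {T₁ T₂ : Finset (Finset GolayPt)} (_ : T₁ ∈ trios) (_ : T₂ ∈ trios) (_ : o ∈ T₁)
      (_ : o ∈ T₂) (_ : T₁ ≠ T₂), ∃ g ∈ M24, g • fs o0 = o ∧ g • trio (fs o0) (fs 0x527c0) = T₁ ∧
        g • trio (fs o0) (fs 0x6920d0) = T₂ := by
    intro o T₁ T₂ h₁ h₂ o₁ o₂ hne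
    obtain ⟨a, ha, hao⟩ := exists_other h₁ o
    obtain ⟨c, hc, hco⟩ := exists_other h₂ o
    have hoa := h₁.2.2 o o₁ a ha hao.symm
    have hoc := h₂.2.2 o o₂ c hc hco.symm
    rw [Finset.disjoint_iff_inter_eq_empty] at hoa hoc
    have hac : a ≠ c := by
      rintro rfl
      apply hne
      rw [eq_trio h₁ o₁ ha hao.symm, eq_trio h₂ o₂ hc hao.symm]
    have hac' : a ∩ c ≠ ∅ := by
      intro h
      apply hne
      have hac2 := h₁.2.1 a ha
      -- c is the third octad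
      have h3 : c = (o ∪ a)ᶜ := by
        apply Finset.eq_of_subset_of_card_le
        · intro p hp
          rw [Finset.mem_compl, Finset.mem_union]
          rintro (h4 | h4)
          · exact Finset.notMem_empty p (hoc ▸ Finset.mem_inter.2 ⟨h4, hp⟩)
          · exact Finset.notMem_empty p (h ▸ Finset.mem_inter.2 ⟨h4, hp⟩)
        · have h5 : (o ∪ a)ᶜ ∈ octads := third (h₁.2.1 o o₁) hac2 (Finset.disjoint_iff_inter_eq_empty.2 hoa)
          rw [show c.card = 8 from (h₂.2.1 c hc).2, show ((o ∪ a)ᶜ).card = 8 from h5.2]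
      have h4 : c ∈ T₁ := by
        rw [eq_trio h₁ o₁ ha hao.symm, trio, h3]
        simp
      rw [eq_trio h₁ o₁ h4 hco.symm, eq_trio h₂ o₂ hc hco.symm]
    obtain ⟨g, hg, g1, g2, g3⟩ := to_std (h₁.2.1 o o₁) (h₁.2.1 a ha) (h₂.2.1 c hc) hoa hoc hac hac'
    have st : ∀ s : Finset GolayPt, g • trio (fs o0) s = trio ((fs o0).image g) (s.image g) := by
      intro s
      unfold trio
      have hc : ((fs o0 ∪ s)ᶜ).image g = ((fs o0).image g ∪ s.image g)ᶜ := by
        rw [← Finset.image_union]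
        ext p
        simp only [Finset.mem_image, Finset.mem_compl]
        constructor
        · rintro ⟨q, hq, rfl⟩ ⟨r, hr, hrq⟩
          exact hq (g.injective hrq ▸ hr)
        · intro hp
          refine ⟨g⁻¹ p, fun h => hp ⟨_, h, g.apply_symm_apply p⟩, g.apply_symm_apply p⟩
      rw [← hc, Finset.smul_finset_insert, Finset.smul_finset_insert, Finset.smul_finset_singleton]
      rfl
    refine ⟨g, hg, g1, ?_, ?_⟩
    · rw [st, g1, g2, ← eq_trio h₁ o₁ ha hao.symm]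
    · rw [st, g1, g3, ← eq_trio h₂ o₂ hc hco.symm]
  obtain ⟨g, hg, g1, g2, g3⟩ := key h₁ h₂ o₁ o₂ hne
  obtain ⟨k, hk, k1, k2, k3⟩ := key h₁' h₂' o₁' o₂' hne'
  refine ⟨k * g⁻¹, M24.mul_mem hk (M24.inv_mem hg), ?_, ?_, ?_⟩
  · rw [mul_smul, ← g1, inv_smul_smul, k1]
  · rw [mul_smul, ← g2, inv_smul_smul, k2]
  · rw [mul_smul, ← g3, inv_smul_smul, k3]

theorem smul_mem_iff {g : Equiv.Perm GolayPt} {o : Finset GolayPt} (ho : g • o = o) {T : Finset (Finset GolayPt)}
    (hT : o ∈ T) : o ∈ g • T := by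
  have := Finset.smul_mem_smul_finset (a := g) hT
  rwa [ho] at this

/-- the trios on an octad -/
def TO (o : Finset GolayPt) : Set (Finset (Finset GolayPt)) := {T | T ∈ trios ∧ o ∈ T}

theorem ncard_TO {o : Finset GolayPt} (ho : o ∈ octads) : (TO o).ncard = 15 := by
  have h0 : (TO (fs o0)).ncard = 15 := by
    have h1 := ncard_trios (fun T => fs o0 ∈ T) (memT o0) (fun e _ => memT_iff (by norm_num [o0]))
    have h2 : cntTr (memT o0) = 15 := by decide +kernel
    exact h1.trans h2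
  obtain ⟨g, hg, h⟩ := octad_trans o0_mem ho
  have h' : g • fs o0 = o := h
  rw [← h0, ← Set.ncard_image_of_injective (TO (fs o0)) (MulAction.injective g)]
  congr 1
  ext T
  constructor
  · rintro ⟨h1, h2⟩
    refine ⟨g⁻¹ • T, ⟨smul_trio (M24.inv_mem hg) h1, ?_⟩, smul_inv_smul g T⟩
    rw [← h'] at h2
    have := Finset.smul_mem_smul_finset (a := g⁻¹) h2
    rwa [inv_smul_smul] at this
  · rintro ⟨T', ⟨h1, h2⟩, rfl⟩
    exact ⟨smul_trio hg h1, by rw [← h']; exact Finset.smul_mem_smul_finset h2⟩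

theorem exists_ne {o : Finset GolayPt} (ho : o ∈ octads) (T : Finset (Finset GolayPt)) :
    ∃ T' ∈ TO o, T' ≠ T := by
  by_contra hcon
  push Not at hcon
  have : TO o ⊆ {T} := fun T' h => hcon T' h
  have h2 := Set.ncard_le_ncard this (Set.finite_singleton T)
  rw [ncard_TO ho, Set.ncard_singleton] at h2
  omega

theorem E_fix {o : Finset GolayPt} (ho : o ∈ octads) {g : Equiv.Perm GolayPt} (hg : g ∈ EO o) {T : Finset (Finset GolayPt)}
    (hT : T ∈ TO o) : g • T = T := by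
  classical
  by_contra hne
  have hgo : ∀ {h : Equiv.Perm GolayPt}, h ∈ EO o → h • o = o := fun hh => (mem_HO.1 (EO_le_HO o hh)).2
  have horb : MulAction.orbit (EO o) T = TO o := by
    ext T'
    constructor
    · rintro ⟨h, rfl⟩
      exact ⟨smul_trio (mem_EO.1 h.2).1 hT.1, smul_mem_iff (hgo h.2) hT.2⟩
    · intro hT'
      by_cases hTT : T' = T
      · rw [hTT]; exact MulAction.mem_orbit_self T
      · have hgT : g • T ∈ TO o := ⟨smul_trio (mem_EO.1 hg).1 hT.1, smul_mem_iff (hgo hg) hT.2⟩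
        obtain ⟨h, hh, h1, h2, h3⟩ := two_trans hT.1 hgT.1 hT.1 hT'.1 hT.2 hgT.2 hT.2 hT'.2 (Ne.symm hne) (Ne.symm hTT)
        refine ⟨⟨h * g * h⁻¹, mem_EO.2 ⟨M24.mul_mem (M24.mul_mem hh (mem_EO.1 hg).1) (M24.inv_mem hh), ?_⟩⟩, ?_⟩
        · intro x hx
          have hx' : h⁻¹ x ∈ o := by
            have h1' : o.image h = o := h1
            rw [← h1', Finset.mem_image] at hx
            obtain ⟨y, hy, rfl⟩ := hx
            rw [show h⁻¹ (h y) = y from h.symm_apply_apply y]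
            exact hy
          rw [Equiv.Perm.mul_apply, Equiv.Perm.mul_apply, (mem_EO.1 hg).2 _ hx']
          exact h.apply_symm_apply x
        · show (h * g * h⁻¹) • T = T'
          rw [mul_smul, mul_smul]
          have : h⁻¹ • T = T := by rw [inv_smul_eq_iff, h2]
          rw [this, h3]
  have h2 := (MulAction.stabilizer (EO o) T).index_dvd_card
  rw [MulAction.index_stabilizer, horb, ncard_TO ho, card_EO ho] at h2
  omega


/-- An octad of the length-24 code lies in exactly 15 trios; the stabiliser of the octad in the code's group acts doubly transitively on these 15 trios, and the kernel of this action is the pointwise stabiliser of the octad. -/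
theorem result (o : Finset Cfsg.GolayPt) (ho : o ∈ Cfsg.octads) : {T : Finset (Finset Cfsg.GolayPt) | T ∈ Cfsg.trios ∧ o ∈ T}.ncard = 15 ∧ (∀ T₁ T₂ T₁' T₂' : Finset (Finset Cfsg.GolayPt), T₁ ∈ Cfsg.trios → T₂ ∈ Cfsg.trios → T₁' ∈ Cfsg.trios → T₂' ∈ Cfsg.trios → o ∈ T₁ → o ∈ T₂ → o ∈ T₁' → o ∈ T₂' → T₁ ≠ T₂ → T₁' ≠ T₂' → ∃ g ∈ Cfsg.M24, g • o = o ∧ g • T₁ = T₁' ∧ g • T₂ = T₂') ∧ ∀ g ∈ Cfsg.M24, g • o = o → ((∀ T ∈ Cfsg.trios, o ∈ T → g • T = T) ↔ ∀ p ∈ o, g p = p) := by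
  classical
  refine ⟨ncard_TO ho, ?_, ?_⟩
  · intro T₁ T₂ T₁' T₂' h₁ h₂ h₁' h₂' o₁ o₂ o₁' o₂' hne hne'
    exact two_trans h₁ h₂ h₁' h₂' o₁ o₂ o₁' o₂' hne hne'
  · intro g hg hgo
    constructor
    swap
    · intro h T hT hoT
      exact E_fix ho (mem_EO.2 ⟨hg, h⟩) ⟨hT, hoT⟩
    · intro h
      let K : Subgroup (HO o) :=
        { carrier := {k | ∀ T ∈ TO o, (k : Equiv.Perm GolayPt) • T = T}
          mul_mem' := by
            intro a b ha hb T hT
            show ((a : Equiv.Perm GolayPt) * (b : Equiv.Perm GolayPt)) • T = T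
            rw [mul_smul, hb T hT, ha T hT]
          one_mem' := fun T _ => one_smul _ T
          inv_mem' := by
            intro a ha T hT
            show (a : Equiv.Perm GolayPt)⁻¹ • T = T
            rw [inv_smul_eq_iff, ha T hT] }
      have hKn : K.Normal := by
        refine ⟨fun k hk f T hT => ?_⟩
        show ((f : Equiv.Perm GolayPt) * (k : Equiv.Perm GolayPt) * (f : Equiv.Perm GolayPt)⁻¹) • T = T
        have hf : ((f : Equiv.Perm GolayPt)⁻¹) • T ∈ TO o := by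
          refine ⟨smul_trio (M24.inv_mem f.2.1) hT.1, smul_mem_iff ?_ hT.2⟩
          rw [inv_smul_eq_iff]
          exact f.2.2.symm
        rw [mul_smul, mul_smul, hk _ hf, smul_inv_smul]
      have hEK : ∀ k : HO o, (k : Equiv.Perm GolayPt) ∈ EO o → k ∈ K := fun k hk T hT => E_fix ho hk hT
      have hKne : ∃ k : HO o, k ∉ K := by
        obtain ⟨T, hT, -⟩ := exists_ne ho ∅
        obtain ⟨T', hT', hne⟩ := exists_ne ho T
        obtain ⟨f, hf, f1, f2, f3⟩ := two_trans hT.1 hT'.1 hT'.1 hT.1 hT.2 hT'.2 hT'.2 hT.2 hne.symm hne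
        refine ⟨⟨f, mem_HO.2 ⟨hf, f1⟩⟩, fun hk => ?_⟩
        have h5 : f • T = T := hk T hT
        rw [f2] at h5
        exact hne h5
      have h8 : Nat.card ↥o = 8 := by rw [Nat.card_eq_fintype_card, Fintype.card_coe]; exact ho.2
      have hsimple : IsSimpleGroup (alternatingGroup ↥o) := alternatingGroup.isSimpleGroup (by rw [h8]; norm_num)
      let N : Subgroup (alternatingGroup ↥o) := (K.map (res o)).subgroupOf (alternatingGroup ↥o)
      have hN : N.Normal := by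
        refine ⟨fun n hn f => ?_⟩
        rw [Subgroup.mem_subgroupOf] at hn ⊢
        have hf : (f : Equiv.Perm ↥o) ∈ (res o).range := by rw [range_res ho]; exact f.2
        obtain ⟨f', hf'⟩ := hf
        obtain ⟨k, hk, hk'⟩ := hn
        refine ⟨f' * k * f'⁻¹, hKn.conj_mem k hk f', ?_⟩
        rw [map_mul, map_mul, map_inv, hf', hk']
        rfl
      rcases hsimple.eq_bot_or_eq_top_of_normal N hN with hb | ht
      · have hgK : (⟨g, mem_HO.2 ⟨hg, hgo⟩⟩ : HO o) ∈ K := fun T hT => h T hT.1 hT.2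
        have h3 : res o ⟨g, mem_HO.2 ⟨hg, hgo⟩⟩ ∈ alternatingGroup ↥o := by
          rw [← range_res ho]; exact ⟨_, rfl⟩
        have h4 : (⟨res o ⟨g, mem_HO.2 ⟨hg, hgo⟩⟩, h3⟩ : alternatingGroup ↥o) ∈ N := by
          rw [Subgroup.mem_subgroupOf]
          exact ⟨_, hgK, rfl⟩
        rw [hb, Subgroup.mem_bot] at h4
        intro p hp
        have h5 := congrArg (fun e : alternatingGroup ↥o => (((e : Equiv.Perm ↥o) ⟨p, hp⟩ : ↥o) : GolayPt)) h4
        exact h5
      · exfalso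
        obtain ⟨k, hk⟩ := hKne
        apply hk
        have h3 : res o k ∈ alternatingGroup ↥o := by
          rw [← range_res ho]; exact ⟨_, rfl⟩
        have h4 : (⟨res o k, h3⟩ : alternatingGroup ↥o) ∈ N := by rw [ht]; exact Subgroup.mem_top _
        rw [Subgroup.mem_subgroupOf] at h4
        obtain ⟨k', hk', he⟩ := h4
        have h5 : k'⁻¹ * k ∈ (res o).ker := by
          rw [MonoidHom.mem_ker, map_mul, map_inv, he]
          exact inv_mul_cancel _
        rw [ker_res, Subgroup.mem_subgroupOf] at h5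
        have h6 := hEK _ h5
        have h7 := K.mul_mem hk' h6
        rwa [mul_inv_cancel_left] at h7

end Cfsg.Agent.S5615
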