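import Cfsg.Statements.S5548
import Mathlib
import Cfsg.Agent.Lib.H93.GolayMod

set_option autoImplicit false
open Cfsg

namespace Cfsg.Agent.S5548


/-- orthogonal subspace for the dot product -/
def orth (W : Submodule (ZMod 2) (Cfsg.GolayPt → ZMod 2)) : Submodule (ZMod 2) (Cfsg.GolayPt → ZMod 2) where
  carrier := {c | ∀ w ∈ W, ∑ i, c i * w i = 0}
  add_mem' := by
    intro a b ha hb w hw
    simp only [Pi.add_apply, add_mul, Finset.sum_add_distrib]
    rw [ha w hw, hb w hw, add_zero]
  zero_mem' := by intro w _; simp
  smul_mem' := by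
    intro r a ha w hw
    simp only [Pi.smul_apply, smul_eq_mul, mul_assoc]
    rw [← Finset.mul_sum, ha w hw, mul_zero]

theorem sum_sh (σ : Equiv.Perm Cfsg.GolayPt) (c w : Cfsg.GolayPt → ZMod 2) :
    ∑ p, H93.GolayMod.sh σ c p * w p = ∑ p, c p * H93.GolayMod.sh σ⁻¹ w p := by
  rw [← Equiv.sum_comp σ (fun p => H93.GolayMod.sh σ c p * w p)]
  apply Finset.sum_congr rfl
  intro p _
  have e1 : H93.GolayMod.sh σ c (σ p) = c p := by
    rw [H93.GolayMod.sh_apply]
    exact congrArg c (σ.symm_apply_apply p)
  have e2 : H93.GolayMod.sh σ⁻¹ w p = w (σ p) := rfl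
  rw [e1, e2]

theorem mem_orth {W : Submodule (ZMod 2) (Cfsg.GolayPt → ZMod 2)} {c : Cfsg.GolayPt → ZMod 2} :
    c ∈ orth W ↔ ∀ w ∈ W, ∑ i, c i * w i = 0 := Iff.rfl

theorem dd {W : Submodule (ZMod 2) (Cfsg.GolayPt → ZMod 2)} {w : Cfsg.GolayPt → ZMod 2}
    (h : ∀ c ∈ orth W, ∑ i, c i * w i = 0) : w ∈ W := by
  have : Fact (Nat.Prime 2) := ⟨Nat.prime_two⟩
  rw [← Subspace.forall_mem_dualAnnihilator_apply_eq_zero_iff W w]
  intro φ hφ
  rw [Submodule.mem_dualAnnihilator] at hφ
  have hexp : ∀ v : Cfsg.GolayPt → ZMod 2, φ v = ∑ i, φ (Pi.single i 1) * v i := by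
    intro v
    have hv : v = ∑ i, v i • (Pi.single i (1 : ZMod 2) : Cfsg.GolayPt → ZMod 2) := by
      funext j
      rw [Finset.sum_apply, Finset.sum_eq_single j]
      · simp
      · intro b _ hb
        rw [Pi.smul_apply, Pi.single_eq_of_ne hb.symm, smul_zero]
      · intro hh; exact absurd (Finset.mem_univ _) hh
    conv_lhs => rw [hv]
    rw [map_sum]
    apply Finset.sum_congr rfl
    intro i _
    rw [map_smul, smul_eq_mul, mul_comm]
  rw [hexp]
  apply h (fun i => φ (Pi.single i 1))
  intro v hv
  rw [← hexp]
  exact hφ v hv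

/-- For the automorphism group of the length-24 binary Golay code of the definitions (the Mathieu group of degree 24) acting on binary words of length 24 by permuting coordinates, the only invariant subspaces of the space of all words are: zero, the span of the all-ones word, the code itself, the even-weight words, and the whole space. (So the permutation module has a unique composition series.) -/
theorem result (W : Submodule (ZMod 2) (Cfsg.GolayPt → ZMod 2)) (hW : ∀ σ ∈ Cfsg.M24, ∀ w ∈ W, (fun p => w (σ.symm p)) ∈ W) : W = ⊥ ∨ W = Submodule.span (ZMod 2) {fun _ => (1 : ZMod 2)} ∨ W = Cfsg.golayCode ∨ (W : Set (Cfsg.GolayPt → ZMod 2)) = {w | ∑ p, w p = 0} ∨ W = ⊤ := by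
  have hW' : ∀ σ ∈ Cfsg.M24, ∀ w ∈ W, H93.GolayMod.sh σ w ∈ W := hW
  by_cases h1 : W ≤ Submodule.span (ZMod 2) {fun _ => (1 : ZMod 2)}
  · have hat : IsAtom (Submodule.span (ZMod 2) {(fun _ => (1 : ZMod 2) : Cfsg.GolayPt → ZMod 2)}) := by
      apply nonzero_span_atom
      intro h0
      have := congrFun h0 none
      simp at this
    rcases hat.le_iff.mp h1 with h | h
    · exact Or.inl h
    · exact Or.inr (Or.inl h)
  · have hG := H93.GolayMod.golay_le hW' h1
    by_cases h2 : W ≤ Cfsg.golayCode
    · exact Or.inr (Or.inr (Or.inl (le_antisymm h2 hG)))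
    · right; right; right
      have hU : ∀ σ ∈ Cfsg.M24, ∀ c ∈ orth W, H93.GolayMod.sh σ c ∈ orth W := by
        intro σ hσ c hc w hw
        have h3 := hc _ (hW' σ⁻¹ (Cfsg.M24.inv_mem hσ) w hw)
        rw [← h3]
        exact sum_sh σ c w
      by_cases h3 : orth W ≤ Submodule.span (ZMod 2) {fun _ => (1 : ZMod 2)}
      · have hat : IsAtom (Submodule.span (ZMod 2) {(fun _ => (1 : ZMod 2) : Cfsg.GolayPt → ZMod 2)}) := by
          apply nonzero_span_atom
          intro h0
          have := congrFun h0 none
          simp at this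
        rcases hat.le_iff.mp h3 with h | h
        · right
          rw [eq_top_iff]
          intro w _
          apply dd
          intro c hc
          rw [h, Submodule.mem_bot] at hc
          rw [hc]
          simp
        · left
          ext w
          rw [SetLike.mem_coe, Set.mem_setOf_eq]
          constructor
          · intro hw
            have h4 : (fun _ => (1 : ZMod 2) : Cfsg.GolayPt → ZMod 2) ∈ orth W := by
              rw [h]; exact Submodule.mem_span_singleton_self _
            have := h4 w hw
            simpa using this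
          · intro hw
            apply dd
            intro c hc
            rw [h, Submodule.mem_span_singleton] at hc
            obtain ⟨a, rfl⟩ := hc
            simp only [Pi.smul_apply, smul_eq_mul, mul_one]
            rw [← Finset.mul_sum, hw, mul_zero]
      · exfalso
        have h4 := H93.GolayMod.golay_le hU h3
        apply h2
        intro w hw
        apply H93.GolayDual.mem_of_orth
        intro c hc
        exact h4 hc w hw

end Cfsg.Agent.S5548
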