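import Cfsg.Statements.S5422
import Cfsg.Agent.Lib.H91.LargePair2

set_option autoImplicit false
open Cfsg

namespace Cfsg.Agent.S5422




/-- Let Q be an extraspecial 2-subgroup of the finite group G whose centralizer in G is its centre Z and which is normal in the centralizer of Z; suppose Q has width at least 2 (order 2^(2w+1) with w ≥ 2) and g is an element of G not normalizing Z with g Z g⁻¹ inside Q. Then Z lies inside g Q g⁻¹; writing V for the subgroup generated by Z and g Z g⁻¹ (a four-group), the normalizer of V induces on V its full automorphism group, that is, the centralizer of V has index 6 in the normalizer of V; and Q is a large extraspecial 2-subgroup of G. -/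
theorem result {G : Type*} [Group G] [Finite G] (Q : Subgroup G) (hL1 : Cfsg.IsExtraspecial 2 ↥Q) (hL2 : Subgroup.centralizer (Q : Set G) = ((Subgroup.center ↥Q).map Q.subtype)) (hL3 : Subgroup.centralizer (((Subgroup.center ↥Q).map Q.subtype) : Set G) ≤ Subgroup.normalizer (Q : Set G)) (w : ℕ) (hw : 2 ≤ w) (hcard : Nat.card ↥Q = 2 ^ (2 * w + 1)) (g : G) (hg : g ∉ Subgroup.normalizer (((Subgroup.center ↥Q).map Q.subtype) : Set G)) (hZg : (((Subgroup.center ↥Q).map Q.subtype)).map (MulAut.conj g).toMonoidHom ≤ Q) : ((Subgroup.center ↥Q).map Q.subtype) ≤ (Q).map (MulAut.conj g).toMonoidHom ∧ (Subgroup.centralizer ((((Subgroup.center ↥Q).map Q.subtype) ⊔ (((Subgroup.center ↥Q).map Q.subtype)).map (MulAut.conj g).toMonoidHom : Subgroup G) : Set G)).relIndex (Subgroup.normalizer ((((Subgroup.center ↥Q).map Q.subtype) ⊔ (((Subgroup.center ↥Q).map Q.subtype)).map (MulAut.conj g).toMonoidHom : Subgroup G) : Set G)) = 6 ∧ Cfsg.IsLargeExtraspecial Q := by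
  classical
  obtain ⟨z, hP, hZz, hmem⟩ := H91.LargePair.pack_of hL1 hL2 hL3
  set Z := (Subgroup.center ↥Q).map Q.subtype with hZdef
  set s := g * z * g⁻¹ with hs
  have hzZ : z ∈ Z := (hmem z).mpr (Or.inr rfl)
  have hsQ : s ∈ Q := by
    apply hZg
    rw [H91.LargePair.mem_map_conj, hs]
    have : g⁻¹ * (g * z * g⁻¹) * g = z := by group
    rw [this]; exact hzZ
  have hP1 : H91.LargePair.Pack (Q.map (MulAut.conj g).toMonoidHom) s := hP.conj g
  have hsz : s ≠ z := by
    intro h
    apply hg
    rw [Subgroup.mem_normalizer_iff]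
    intro x
    have hgz : g * z * g⁻¹ = z := by rw [← hs]; exact h
    constructor
    · intro hx
      rcases (hmem x).mp hx with rfl | rfl
      · simp [Z.one_mem]
      · rw [hgz]; exact hzZ
    · intro hx
      rcases (hmem _).mp hx with h' | h'
      · have : x = 1 := by
          calc x = g⁻¹ * (g * x * g⁻¹) * g := by group
            _ = 1 := by rw [h']; group
        rw [this]; exact Z.one_mem
      · have : x = z := by
          calc x = g⁻¹ * (g * x * g⁻¹) * g := by group
            _ = g⁻¹ * (g * z * g⁻¹) * g := by rw [h', hgz]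
            _ = z := by group
        rw [this]; exact hzZ
  have hcard8 : 8 < Nat.card Q := by
    rw [hcard]
    calc 8 < 2 ^ (2 * 2 + 1) := by norm_num
      _ ≤ 2 ^ (2 * w + 1) := Nat.pow_le_pow_right (by norm_num) (by omega)
  have hconj : ∀ k, k * z * k⁻¹ = s → ∀ q ∈ Q, k * q * k⁻¹ ∈ Q.map (MulAut.conj g).toMonoidHom := by
    intro k hk q hq
    rw [H91.LargePair.mem_map_conj]
    have h1 : (g⁻¹ * k) * z = z * (g⁻¹ * k) := by
      have : k * z = s * k := by rw [← hk]; group
      calc (g⁻¹ * k) * z = g⁻¹ * (k * z) := by group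
        _ = g⁻¹ * (s * k) := by rw [this]
        _ = z * (g⁻¹ * k) := by rw [hs]; group
    have h2 := hP.N _ h1 q hq
    have e : g⁻¹ * (k * q * k⁻¹) * g = g⁻¹ * k * q * (g⁻¹ * k)⁻¹ := by group
    rw [e]; exact h2
  have hzQ1 : z ∈ Q.map (MulAut.conj g).toMonoidHom :=
    H91.LargePair.key hP hP1 hconj hsQ hsz hcard8
  have hs1 : s ≠ 1 := hP1.z1
  refine ⟨?_, ?_, hL1, hL2, hL3, ?_⟩
  · intro x hx
    rcases (hmem x).mp hx with rfl | rfl
    · exact Subgroup.one_mem _
    · exact hzQ1
  · obtain ⟨t, ht, hts⟩ := hP.exists_shift hsQ hs1 hsz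
    obtain ⟨y, hy, hyz⟩ := hP1.exists_shift hzQ1 hP.z1 (Ne.symm hsz)
    have hzs : z * s = s * z := (hP.zc s hsQ).symm
    have hsi : s⁻¹ = s := inv_eq_of_mul_eq_one_left hP1.zz
    have hzi : z⁻¹ = z := inv_eq_of_mul_eq_one_left hP.zz
    have hsZ : s ∈ Z.map (MulAut.conj g).toMonoidHom := by
      rw [H91.LargePair.mem_map_conj, hs]
      have : g⁻¹ * (g * z * g⁻¹) * g = z := by group
      rw [this]; exact hzZ
    have hV : ∀ x, x ∈ Z ⊔ Z.map (MulAut.conj g).toMonoidHom ↔ x = 1 ∨ x = z ∨ x = s ∨ x = z * s := by
      intro x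
      constructor
      · let W : Subgroup G :=
          { carrier := {x | x = 1 ∨ x = z ∨ x = s ∨ x = z * s}
            one_mem' := Or.inl rfl
            mul_mem' := by
              have e1 : z * (z * s) = s := by rw [← mul_assoc, hP.zz, one_mul]
              have e2 : s * (z * s) = z := by rw [hzs, ← mul_assoc, hP1.zz, one_mul]
              have e3 : z * s * z = s := by rw [hzs, mul_assoc, hP.zz, mul_one]
              have e4 : z * s * s = z := by rw [mul_assoc, hP1.zz, mul_one]
              have e5 : z * s * (z * s) = 1 := by rw [← mul_assoc, e3, hP1.zz]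
              rintro a b (rfl | rfl | rfl | rfl) (rfl | rfl | rfl | rfl)
              all_goals simp only [Set.mem_setOf_eq, mul_one, one_mul, hP.zz, hP1.zz, e1, e2, e3, e4, e5, true_or, or_true, ← hzs]
            inv_mem' := by
              rintro a (rfl | rfl | rfl | rfl)
              · left; simp
              · right; left; exact hzi
              · right; right; left; exact hsi
              · right; right; right; rw [mul_inv_rev, hsi, hzi, hzs] }
        intro hx
        have hle : Z ⊔ Z.map (MulAut.conj g).toMonoidHom ≤ W := by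
          apply sup_le
          · intro y hy
            rcases (hmem y).mp hy with rfl | rfl
            · exact Or.inl rfl
            · exact Or.inr (Or.inl rfl)
          · intro y hy
            rw [H91.LargePair.mem_map_conj] at hy
            rcases (hmem _).mp hy with h' | h'
            · left
              calc y = g * (g⁻¹ * y * g) * g⁻¹ := by group
                _ = 1 := by rw [h']; group
            · right; right; left
              rw [hs, ← h']; group
        exact hle hx
      · rintro (rfl | rfl | rfl | rfl)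
        · exact Subgroup.one_mem _
        · exact Subgroup.mem_sup_left hzZ
        · exact Subgroup.mem_sup_right hsZ
        · exact Subgroup.mul_mem _ (Subgroup.mem_sup_left hzZ) (Subgroup.mem_sup_right hsZ)
    exact H91.LargePair2.relIndex_eq_six hV hP.z1 hs1 hsz hP.zz hP1.zz hzs (hP.zc t ht) hts
      (hP1.zc y hy) (by rw [hyz, hzs])
  · intro K hKodd hQK
    apply H91.LargeExtra.eq_bot_of_le_centralizer hL1.1.1 hL2 hL3 hKodd hQK
    have hQ1p : IsPGroup 2 ↥(Q.map (MulAut.conj g).toMonoidHom) := hL1.1.1.map _
    have := H91.LargePair2.large_of_conj hP hP1 hsQ hsz hzQ1 hQ1p hKodd hQK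
    intro k hk
    rw [Subgroup.mem_centralizer_iff]
    intro x hx
    rcases (hmem x).mp hx with rfl | rfl
    · simp
    · exact this k hk

end Cfsg.Agent.S5422
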