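import Cfsg.Statements.S5428
import Cfsg.Agent.Lib.H91.LargeOdd2

set_option autoImplicit false
open Cfsg

namespace Cfsg.Agent.S5428




/-- Let z be an involution of the finite group G whose centralizer C has generalized Fitting subgroup Q extraspecial (as a 2-group), let A be a subgroup of C of odd order, and let R be the centralizer of A in Q; suppose R has order at least 32, the largest normal subgroup of odd order of the centralizer of the subgroup generated by A and R lies in A, the order of that centralizer is not divisible by 4, and g is an element of G with g z g⁻¹ in R but outside the centre Z of Q. Let M be the subgroup generated by A and the centralizer of A (A is normal in it). Then: the centralizer in M of the subgroup generated by R and A, joined with A, equals the subgroup generated by A and Z; the image of R in M/A is a large extraspecial 2-subgroup of M/A; and g z g⁻¹ is conjugate to z inside the subgroup generated by R and the centralizer of A in g Q g⁻¹.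 -/
theorem result {G : Type*} [Group G] [Finite G] (z : G) (hz : orderOf z = 2) (Q : Subgroup G) (hQC : Q ≤ Subgroup.centralizer ({z} : Set G)) (hF : (Cfsg.generalizedFittingSubgroup ↥(Subgroup.centralizer ({z} : Set G))).map (Subgroup.centralizer ({z} : Set G)).subtype = Q) (hQ : Cfsg.IsExtraspecial 2 ↥Q) (A : Subgroup G) (hA : A ≤ Subgroup.centralizer ({z} : Set G)) (hAodd : Odd (Nat.card ↥A)) (R : Subgroup G) (hR : R = Q ⊓ Subgroup.centralizer (A : Set G)) (hR32 : 32 ≤ Nat.card ↥R) (hO : (Cfsg.oddCore ↥(Subgroup.centralizer ((A ⊔ R : Subgroup G) : Set G))).map (Subgroup.centralizer ((A ⊔ R : Subgroup G) : Set G)).subtype ≤ A) (h4 : ¬ 4 ∣ Nat.card ↥(Subgroup.centralizer ((A ⊔ R : Subgroup G) : Set G))) (g : G) (hgR : g * z * g⁻¹ ∈ R) (hgZ : g * z * g⁻¹ ∉ ((Subgroup.center ↥Q).map Q.subtype)) (M : Subgroup G) (hM : M = Subgroup.centralizer (A : Set G) ⊔ A) [hn : (A.subgroupOf M).Normal] : (M ⊓ Subgroup.centralizer ((R ⊔ A : Subgroup G) : Set G)) ⊔ A = A ⊔ ((Subgroup.center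 ↥Q).map Q.subtype) ∧ Cfsg.IsLargeExtraspecial ((R.subgroupOf M).map (QuotientGroup.mk' (A.subgroupOf M))) ∧ ∃ x ∈ R ⊔ ((Q).map (MulAut.conj g).toMonoidHom ⊓ Subgroup.centralizer (A : Set G)), x * (g * z * g⁻¹) * x⁻¹ = z := by
  obtain ⟨hmem, hL2, hL3, P⟩ := H91.LargeOdd.fstar_pack hz hQC hF hQ
  have hAz : ∀ a ∈ A, a * z = z * a := fun a ha => Subgroup.mem_centralizer_singleton_iff.1 (hA ha)
  have hzR : z ∈ R := by
    rw [hR]
    exact ⟨P.zQ, Subgroup.mem_centralizer_iff.2 hAz⟩
  have hRQ : R ≤ Q := by rw [hR]; exact inf_le_left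
  have H : H91.LargeOdd.Dat Q R A M z :=
    { P := P
      p2 := hQ.1.1
      Az := hAz
      odd := hAodd
      R_eq := hR
      M_eq := hM
      cent := fun c hc => H91.LargeOdd.cent_AR P.z1 P.zz hzR hAz (fun r hr => P.zc r (hRQ hr)) hO h4 hc }
  set t := g * z * g⁻¹ with ht
  have ht1 : t ≠ 1 := fun h => hgZ ((hmem t).2 (Or.inl h))
  have htz : t ≠ z := fun h => hgZ ((hmem t).2 (Or.inr h))
  have hP1 := P.conj g
  -- `z` lies in `g Q g⁻¹`
  haveI : Fact (Nat.Prime 2) := ⟨Nat.prime_two⟩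
  obtain ⟨w, -, hw⟩ := H3.Extraspecial.card_eq_of_isExtraspecial hQ
  have hw2 : 2 ≤ w := by
    by_contra hlt
    have h1 : w ≤ 1 := by omega
    have h2 : (2 : ℕ) ^ (2 * w + 1) ≤ 2 ^ 3 := Nat.pow_le_pow_right (by norm_num) (by omega)
    have h3 := Subgroup.card_le_of_le hRQ
    omega
  have hz1 : z ∈ (Q).map (MulAut.conj g).toMonoidHom := by
    apply (Cfsg.Agent.S5422.result Q hQ hL2 hL3 w hw2 hw g ?_ ?_).1
    · exact (hmem z).2 (Or.inr rfl)
    · intro h
      exact hgZ ((Subgroup.mem_normalizer_iff.1 h z).1 ((hmem z).2 (Or.inr rfl)))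
    · rintro _ ⟨x, hx, rfl⟩
      rcases (hmem x).1 hx with rfl | rfl
      · rw [map_one]; exact one_mem _
      · exact hRQ hgR
  have hAt : ∀ a ∈ A, a * t = t * a := (H.mem_R.1 hgR).2
  obtain ⟨q, hqR, hq⟩ := H.pair hgR ht1 htz
  obtain ⟨q1, hq1, hq1A, hq1z⟩ := H91.LargeOdd.fixed_pair hP1 (H.p2.map _) hAodd hAt hz1 hAz P.z1 htz.symm
  have htt : t * t = 1 := hP1.zz
  have hx : (q1 * q) * t * (q1 * q)⁻¹ = z := by
    have hq1t : q1 * t = t * q1 := hP1.zc q1 hq1
    have hzt : z * t = t * z := (P.zc t (hRQ hgR)).symm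
    calc (q1 * q) * t * (q1 * q)⁻¹ = q1 * (q * t * q⁻¹) * q1⁻¹ := by group
      _ = (q1 * z * q1⁻¹) * (q1 * t) * q1⁻¹ := by rw [hq]; group
      _ = (t * z) * (t * q1) * q1⁻¹ := by rw [hq1z, hq1t]
      _ = t * (z * t) := by group
      _ = (t * t) * z := by rw [hzt]; group
      _ = z := by rw [htt, one_mul]
  have hq1M : q1 ∈ M := H.cA_le (Subgroup.mem_centralizer_iff.2 hq1A)
  refine ⟨?_, ?_, q1 * q, ?_, hx⟩
  · apply le_antisymm
    · refine sup_le ?_ le_sup_left
      rintro x ⟨hxM, hxC⟩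
      have hxC' : x ∈ Subgroup.centralizer ((A ⊔ R : Subgroup G) : Set G) := by
        rw [sup_comm]; exact hxC
      obtain ⟨a, ha, rfl | rfl⟩ := H.cent x hxC'
      · exact Subgroup.mem_sup_left ha
      · exact mul_mem (Subgroup.mem_sup_left ha) (Subgroup.mem_sup_right ((hmem z).2 (Or.inr rfl)))
    · refine sup_le le_sup_right ?_
      intro x hx
      apply Subgroup.mem_sup_left
      have hzin : z ∈ M ⊓ Subgroup.centralizer ((R ⊔ A : Subgroup G) : Set G) := by
        refine ⟨H.R_le hzR, ?_⟩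
        rw [sup_comm]
        exact H91.LargeOdd.mem_cent_sup.2 ⟨hAz, fun r hr => P.zc r (hRQ hr)⟩
      rcases (hmem x).1 hx with rfl | rfl
      · exact one_mem _
      · exact hzin
  · exact H.large hgR ht1 htz hR32 (mul_mem hq1M (H.R_le hqR)) hx
  · refine mul_mem (Subgroup.mem_sup_right ⟨hq1, Subgroup.mem_centralizer_iff.2 hq1A⟩) (Subgroup.mem_sup_left hqR)

end Cfsg.Agent.S5428
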