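import Cfsg.Statements.S0303
import Mathlib
import Cfsg.Agent.Lib.H7.LowRank6s

set_option autoImplicit false
open Cfsg

namespace Cfsg.Agent.S0303

/-- PΩ^-_6(q) is isomorphic to PSU_4(q). -/
theorem result {F K : Type*} [Field F] [Fintype F] [Field K] [Fintype K] {q : ℕ} (hF : Fintype.card F = q) (hK : Fintype.card K = q ^ 2) (a b : F) (hab : ∀ z₁ z₂ : F, z₁ ^ 2 + a * z₁ * z₂ + b * z₂ ^ 2 = 0 → z₁ = 0 ∧ z₂ = 0) : Nonempty (Cfsg.POmega F (Cfsg.quadFormMinus 2 F a b) ≃* Cfsg.PSU 4 K q) := by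
  have hfact : Fact (∀ r : F, r ^ 2 ≠ -b + a * r) := H7.AnisoPlane.Aniso.fact hab
  obtain ⟨e⟩ := ((H7.HypStd.minus_succ (F := F) 1 a b).trans (H7.OmegaIso.hyp_congr (H7.HypStd.minus_succ (F := F) 0 a b))).trans
    (H7.OmegaIso.hyp_congr (H7.OmegaIso.hyp_congr (H7.LowRank.equivalent_qN a b)))
  have hf : ∀ v, H7.Hyp.hyp (H7.Hyp.hyp (H7.LowRank.qN a b)) (e.toLinearEquiv v) = Cfsg.quadFormMinus 2 F a b v := by
    intro v
    rw [← H48.QuadStd.coe_qMinus]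
    exact e.map_app v
  have hfin : Module.Finite F (H7.AnisoPlane.K a b) := Module.Finite.of_finite
  obtain ⟨e1⟩ := H7.LowRank.iso6m hab (H7.OmegaOrd.tr (ι := (Fin 2 ⊕ Fin 2) ⊕ Fin 2) e.toLinearEquiv hf)
    (H7.OmegaIso.commutator_eq_two (H7.LowRank.nd_qN hab))
  obtain ⟨e2⟩ := H7.LowRank.G0_equiv (K := K) hF hK hab
  exact ⟨e1.trans (H7.OmegaIso.quotCenterCongr e2)⟩

end Cfsg.Agent.S0303
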