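import Cfsg.Statements.S5388
import Cfsg.Agent.Lib.H33.Oct11

set_option autoImplicit false
open Cfsg

namespace Cfsg.Agent.S5388

open Finset H9.Leech H9.ModTwo H9.LatticeIso H9.LeechGood H9.Trans H9.Cross H9.CoOrder H9.Co23
open H8.GolayCode H8.GolayBasic H8.GolayCount MulAction H32.OctadStab H32.Octad H32.M24Kit H33.Oct H9.Co1Out H33.Om8

section
variable {O : Finset GolayPt} (hO : O ∈ octads)

/-- the image downstairs -/
noncomputable def psi : CC hO →* Subgroup.centralizer ({q (zO hO)} : Set Spor.Co1) where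
  toFun g := ⟨q g.1, (mem_C1_iff hO g.1).2 g.2⟩
  map_one' := Subtype.ext (map_one _)
  map_mul' _ _ := Subtype.ext (map_mul _ _ _)

theorem psi_surj : Function.Surjective (psi hO) := by
  rintro ⟨x, hx⟩
  obtain ⟨g, rfl⟩ := q_surj x
  exact ⟨⟨g, (mem_C1_iff hO g).1 hx⟩, rfl⟩

theorem psi_eq_one {g : CC hO} (h : psi hO g = 1) : g.1 = 1 ∨ g.1 = ng :=
  q_eq_one.1 (congrArg Subtype.val h)

theorem main (e : Fin 8 ≃ {q // q ∈ O}) :
    ∃ (Q : Subgroup (Subgroup.centralizer ({q (zO hO)} : Set Spor.Co1))) (_ : Q.Normal),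
      (∀ k ∈ KO O, ∃ h : q k ∈ Subgroup.centralizer ({q (zO hO)} : Set Spor.Co1), (⟨q k, h⟩ : Subgroup.centralizer ({q (zO hO)} : Set Spor.Co1)) ∈ Q) ∧
      generalizedFittingSubgroup (Subgroup.centralizer ({q (zO hO)} : Set Spor.Co1)) = Q ∧ IsExtraspecial 2 Q ∧
      Nat.card Q = 2 ^ 9 ∧ Nonempty ((Subgroup.centralizer ({q (zO hO)} : Set Spor.Co1)) ⧸ Q ≃*
        Omega (ZMod 2) (quadFormPlus 4 (ZMod 2))) := by
  have : Fact (Nat.Prime 2) := ⟨Nat.prime_two⟩
  have : Finite Co0 := finite_co0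
  have : Finite Spor.Co1 := Finite.of_surjective _ q_surj
  have D := datO e hO (CC hO).subtype (fun g => g.2)
  have hker : ∀ g : CC hO, g ∈ D.rho.ker ↔ g.1 ∈ KO O ∨ ng * g.1 ∈ KO O := fun g =>
    kerO e hO (CC hO).subtype (fun g => g.2)
  let Q : Subgroup (Subgroup.centralizer ({q (zO hO)} : Set Spor.Co1)) := D.rho.ker.map (psi hO)
  have hQN : Q.Normal := Subgroup.Normal.map inferInstance _ (psi_surj hO)
  -- elements of Q
  have hng : ∀ g : CC hO, ng * g.1 ∈ CC hO := by
    intro g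
    rw [mem_CC_iff]
    have := (mem_CC_iff hO).1 g.2
    rw [← mul_assoc, ng_central, mul_assoc, this, mul_assoc]
  have hQ : ∀ x : Subgroup.centralizer ({q (zO hO)} : Set Spor.Co1), x ∈ Q ↔ ∃ k, ∃ hk : k ∈ KO O, x = psi hO ⟨k, KO_le_CC hO hk⟩ := by
    intro x
    constructor
    · rintro ⟨g, hg, rfl⟩
      rcases (hker g).1 hg with h | h
      · exact ⟨g.1, h, rfl⟩
      · refine ⟨ng * g.1, h, ?_⟩
        apply Subtype.ext
        show q g.1 = q (ng * g.1)
        rw [map_mul, q_ng, one_mul]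
    · rintro ⟨k, hk, rfl⟩
      exact ⟨_, (hker _).2 (Or.inl hk), rfl⟩
  -- isomorphism of Q with KO
  let f : KO O →* Subgroup.centralizer ({q (zO hO)} : Set Spor.Co1) :=
    (psi hO).comp (Subgroup.inclusion (KO_le_CC hO))
  have hf : Function.Injective f := by
    rw [injective_iff_map_eq_one]
    intro k hk
    rcases psi_eq_one hO hk with h | h
    · exact Subtype.ext h
    · exfalso
      have h1 : ng * (1 : Co0) ∈ KO O := by
        rw [mul_one, ← h]; exact k.2
      exact ng_not_mem hO (KO O).one_mem h1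
  have hfr : f.range = Q := by
    ext x
    rw [hQ]
    constructor
    · rintro ⟨k, rfl⟩
      exact ⟨k.1, k.2, rfl⟩
    · rintro ⟨k, hk, rfl⟩
      exact ⟨⟨k, hk⟩, rfl⟩
  let eQ : KO O ≃* Q := (MonoidHom.ofInjective hf).trans (MulEquiv.subgroupCongr hfr)
  have hcQ : Nat.card Q = 512 := by rw [← Nat.card_congr eQ.toEquiv, card_KO hO]
  have hfin : Finite (KO O) := Nat.finite_of_card_ne_zero (by rw [card_KO hO]; norm_num)
  have hexQ : IsExtraspecial 2 Q := H56.Heis.isExtraspecial_congr eQ (KO_extra hO)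
  -- order of the range
  have hcr : Nat.card D.rho.range = 174182400 := by
    have h1 : Nat.card D.rho.ker = 1024 := by
      have h2 : ∀ g : D.rho.ker, ∃ k : KO O × Bool, g.1.1 = if k.2 then ng * k.1.1 else k.1.1 := by
        intro g
        rcases (hker g.1).1 g.2 with h | h
        · exact ⟨(⟨_, h⟩, false), rfl⟩
        · refine ⟨(⟨_, h⟩, true), ?_⟩
          show g.1.1 = ng * (ng * g.1.1)
          rw [← mul_assoc, ng_sq, one_mul]
      have h3 : ∀ k : KO O × Bool, (if k.2 then ng * k.1.1 else k.1.1) ∈ CC hO := by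
        rintro ⟨k, b⟩
        cases b
        · exact KO_le_CC hO k.2
        · exact hng ⟨k.1, KO_le_CC hO k.2⟩
      let F : KO O × Bool → D.rho.ker := fun k => ⟨⟨if k.2 then ng * k.1.1 else k.1.1, h3 k⟩, (hker _).2 (by
        obtain ⟨k, b⟩ := k
        cases b
        · exact Or.inl k.2
        · right
          show ng * (ng * k.1) ∈ KO O
          rw [← mul_assoc, ng_sq, one_mul]; exact k.2)⟩
      have hF : Function.Bijective F := by
        constructor
        · rintro ⟨k, b⟩ ⟨k', b'⟩ h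
          have h4 : (if b then ng * k.1 else k.1) = (if b' then ng * k'.1 else k'.1) := congrArg (fun x : D.rho.ker => x.1.1) h
          cases b <;> cases b'
          · have h5 : k = k' := Subtype.ext h4
            rw [h5]
          · exfalso
            have h5 : k.1 = ng * k'.1 := h4
            exact ng_not_mem hO k'.2 (h5 ▸ k.2)
          · exfalso
            have h5 : ng * k.1 = k'.1 := h4
            exact ng_not_mem hO k.2 (h5 ▸ k'.2)
          · have h5 : ng * k.1 = ng * k'.1 := h4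
            have h6 : k = k' := Subtype.ext (mul_left_cancel h5)
            rw [h6]
        · intro g
          obtain ⟨k, hk⟩ := h2 g
          exact ⟨k, Subtype.ext (Subtype.ext hk.symm)⟩
      rw [← Nat.card_congr (Equiv.ofBijective F hF), Nat.card_prod, card_KO hO, Nat.card_eq_fintype_card, Fintype.card_bool]
    have h4 := D.rho.ker.card_mul_index
    rw [h1, card_CC hO, Subgroup.index_ker] at h4
    omega
  have hOm := eq_Omega hcr
  -- the quotient
  have hkk : ((QuotientGroup.mk' Q).comp (psi hO)).ker = D.rho.ker := by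
    ext g
    rw [MonoidHom.mem_ker, MonoidHom.comp_apply, QuotientGroup.mk'_apply, QuotientGroup.eq_one_iff, hQ, hker]
    constructor
    · rintro ⟨k, hk, h⟩
      have h1 : psi hO (g * ⟨k, KO_le_CC hO hk⟩⁻¹) = 1 := by rw [map_mul, map_inv, h, mul_inv_cancel]
      rcases psi_eq_one hO h1 with h2 | h2
      · left
        have h3 : g.1 = k := mul_inv_eq_one.1 h2
        rw [h3]; exact hk
      · right
        have h3 : g.1 = ng * k := by
          have h4 : g.1 * k⁻¹ = ng := h2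
          rw [← h4]; group
        rw [h3, ← mul_assoc, ng_sq, one_mul]; exact hk
    · rintro (h | h)
      · exact ⟨g.1, h, rfl⟩
      · refine ⟨ng * g.1, h, ?_⟩
        apply Subtype.ext
        show q g.1 = q (ng * g.1)
        rw [map_mul, q_ng, one_mul]
  have hsurj : Function.Surjective ((QuotientGroup.mk' Q).comp (psi hO)) :=
    (QuotientGroup.mk'_surjective Q).comp (psi_surj hO)
  let eR : (Subgroup.centralizer ({q (zO hO)} : Set Spor.Co1)) ⧸ Q ≃* D.rho.range :=
    ((QuotientGroup.quotientKerEquivOfSurjective _ hsurj).symm.trans (QuotientGroup.quotientMulEquivOfEq hkk)).trans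
      (QuotientGroup.quotientKerEquivRange D.rho)
  have hsimp : IsSimpleGroup ((Subgroup.centralizer ({q (zO hO)} : Set Spor.Co1)) ⧸ Q) := by
    have := simple_of hcr
    exact eR.isSimpleGroup
  have hnot : ¬ IsPGroup 2 ((Subgroup.centralizer ({q (zO hO)} : Set Spor.Co1)) ⧸ Q) := by
    intro h
    obtain ⟨n, hn⟩ := IsPGroup.iff_card.1 h
    rw [Nat.card_congr eR.toEquiv, hcr] at hn
    have h3 : 3 ∣ 2 ^ n := by rw [← hn]; norm_num
    have := Nat.Prime.dvd_of_dvd_pow Nat.prime_three h3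
    omega
  have hcore : pCore 2 (Subgroup.centralizer ({q (zO hO)} : Set Spor.Co1)) = Q := by
    have h := core_eq_ker (p := 2) (QuotientGroup.mk' Q) (QuotientGroup.mk'_surjective Q)
      (by rw [QuotientGroup.ker_mk']; exact IsPGroup.of_card (n := 9) (by rw [hcQ]; norm_num)) hsimp hnot
    rw [QuotientGroup.ker_mk'] at h
    exact h
  have hcent : Subgroup.centralizer (Q : Set (Subgroup.centralizer ({q (zO hO)} : Set Spor.Co1))) ≤ Q := by
    have hN : ((Subgroup.centralizer (Q : Set (Subgroup.centralizer ({q (zO hO)} : Set Spor.Co1)))).map (QuotientGroup.mk' Q)).Normal :=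
      Subgroup.Normal.map inferInstance _ (QuotientGroup.mk'_surjective Q)
    rcases hsimp.eq_bot_or_eq_top_of_normal _ hN with h | h
    · intro x hx
      have h1 : QuotientGroup.mk' Q x ∈ (Subgroup.centralizer (Q : Set (Subgroup.centralizer ({q (zO hO)} : Set Spor.Co1)))).map (QuotientGroup.mk' Q) :=
        ⟨x, hx, rfl⟩
      rw [h, Subgroup.mem_bot, QuotientGroup.mk'_apply, QuotientGroup.eq_one_iff] at h1
      exact h1
    · exfalso
      obtain ⟨g, hg, k, hk, hno⟩ := no_inner hO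
      have h1 : QuotientGroup.mk' Q (psi hO ⟨g, hg⟩) ∈ (Subgroup.centralizer (Q : Set (Subgroup.centralizer ({q (zO hO)} : Set Spor.Co1)))).map (QuotientGroup.mk' Q) := by
        rw [h]; exact Subgroup.mem_top _
      obtain ⟨a, ha, hax⟩ := h1
      have h2 : a⁻¹ * psi hO ⟨g, hg⟩ ∈ Q := QuotientGroup.eq.1 hax
      obtain ⟨b, hb, hbe⟩ := (hQ _).1 h2
      have hgab : psi hO ⟨g, hg⟩ = a * psi hO ⟨b, KO_le_CC hO hb⟩ := by rw [← hbe]; group
      have hkQ : psi hO ⟨k, KO_le_CC hO hk⟩ ∈ Q := (hQ _).2 ⟨k, hk, rfl⟩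
      have hbQ : psi hO ⟨b, KO_le_CC hO hb⟩ ∈ Q := (hQ _).2 ⟨b, hb, rfl⟩
      have hcQ' : psi hO ⟨b, KO_le_CC hO hb⟩ * psi hO ⟨k, KO_le_CC hO hk⟩ * (psi hO ⟨b, KO_le_CC hO hb⟩)⁻¹ ∈ Q :=
        Q.mul_mem (Q.mul_mem hbQ hkQ) (Q.inv_mem hbQ)
      have hcomm := Subgroup.mem_centralizer_iff.1 ha _ hcQ'
      apply hno b hb
      have h5 : psi hO ⟨g, hg⟩ * psi hO ⟨k, KO_le_CC hO hk⟩ * (psi hO ⟨g, hg⟩)⁻¹ =
          psi hO ⟨b, KO_le_CC hO hb⟩ * psi hO ⟨k, KO_le_CC hO hk⟩ * (psi hO ⟨b, KO_le_CC hO hb⟩)⁻¹ := by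
        rw [hgab]
        calc a * psi hO ⟨b, KO_le_CC hO hb⟩ * psi hO ⟨k, KO_le_CC hO hk⟩ * (a * psi hO ⟨b, KO_le_CC hO hb⟩)⁻¹ =
            a * (psi hO ⟨b, KO_le_CC hO hb⟩ * psi hO ⟨k, KO_le_CC hO hk⟩ * (psi hO ⟨b, KO_le_CC hO hb⟩)⁻¹) * a⁻¹ := by group
          _ = _ := by rw [← hcomm]; group
      have h6 := congrArg Subtype.val h5
      rw [map_mul, map_mul, map_inv, map_mul, map_mul, map_inv]
      exact h6
  refine ⟨Q, hQN, ?_, gFitting_eq hcore hcent, hexQ, by rw [hcQ]; norm_num, ⟨eR.trans (MulEquiv.subgroupCongr hOm.symm)⟩⟩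
  intro k hk
  exact ⟨(mem_C1_iff hO k).2 (KO_le_CC hO hk), (hQ _).2 ⟨k, hk, rfl⟩⟩
end

/-- The first Conway group, the automorphism group of the Leech lattice modulo its centre, satisfies the large extraspecial hypothesis of plus type in dimension 8: it has an involution z whose centralizer C has generalized Fitting subgroup Q extraspecial of order 2^9, with C/Q isomorphic to the commutator subgroup of the isometry group of the hyperbolic quadratic form in dimension 8 over the field with two elements, and some conjugate of z other than z lies in Q. -/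
theorem result : ∃ z : Cfsg.Spor.Co1, orderOf z = 2 ∧ ∃ (Q : Subgroup (Subgroup.centralizer ({z} : Set Cfsg.Spor.Co1))) (_ : Q.Normal), Cfsg.generalizedFittingSubgroup (Subgroup.centralizer ({z} : Set Cfsg.Spor.Co1)) = Q ∧ Cfsg.IsExtraspecial 2 Q ∧ Nat.card Q = 2 ^ 9 ∧ Nonempty ((Subgroup.centralizer ({z} : Set Cfsg.Spor.Co1)) ⧸ Q ≃* Cfsg.Omega (ZMod 2) (Cfsg.quadFormPlus 4 (ZMod 2))) ∧ ∃ g : Cfsg.Spor.Co1, (∃ hq : g * z * g⁻¹ ∈ Subgroup.centralizer ({z} : Set Cfsg.Spor.Co1), (⟨g * z * g⁻¹, hq⟩ : Subgroup.centralizer ({z} : Set Cfsg.Spor.Co1)) ∈ Q) ∧ g * z * g⁻¹ ≠ z := by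
  obtain ⟨O, hO, e, h0, h1⟩ := exists_O
  obtain ⟨d, hd, c, hc, hdO, hcO, -, -⟩ := exists_pair hO
  obtain ⟨Q, hQN, hKQ, hF, hex, hcard, hiso⟩ := main hO e
  refine ⟨q (zO hO), ?_, Q, hQN, hF, hex, hcard, hiso, ?_⟩
  · have hp : Fact (Nat.Prime 2) := ⟨Nat.prime_two⟩
    refine orderOf_eq_prime ?_ ?_
    · rw [pow_two, ← map_mul, zO_sq, map_one]
    · intro h
      rcases q_eq_one.1 h with h | h
      · exact zO_ne hO h
      · have h2 : ng * (1 : Co0) ∈ KO O := by rw [mul_one, ← h]; exact zO_mem hO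
        exact ng_not_mem hO (KO O).one_mem h2
  · obtain ⟨τ, hτ, hτO⟩ := H8.M24Trans.octad_trans hO hd
    have hdis : ∀ p ∈ O, p ∉ d := fun p hp h => hdO p h hp
    -- the conjugate
    have hz1 : ∀ {U : Finset GolayPt} (hU : U ∈ octads), q (es U hU.1) = q (zO hU) := by
      intro U hU
      have h2 : es U hU.1 = ng * zO hU := by
        apply ext_all
        intro x
        rw [es_eq hU, mul_smul, ng_smul]
      rw [h2, map_mul, q_ng, one_mul]
    have hconj : q (permHom ⟨τ, hτ⟩) * q (zO hO) * (q (permHom ⟨τ, hτ⟩))⁻¹ = q (es d hd.1) := by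
      rw [← hz1 hO, ← map_mul, ← map_inv, ← map_mul, perm_es ⟨τ, hτ⟩ hO.1 hd.1 hτO]
      congr 1; group
    refine ⟨q (permHom ⟨τ, hτ⟩), ?_, ?_⟩
    · rw [hconj]
      exact hKQ _ (es_mem_KO hd.1 hdO)
    · rw [hconj]
      intro h
      have h2 : q (es d hd.1 * (zO hO)⁻¹) = 1 := by rw [map_mul, map_inv, h, mul_inv_cancel]
      have h3 : es d hd.1 = zO hO := by
        rcases q_eq_one.1 h2 with h3 | h3
        · exact mul_inv_eq_one.1 h3
        · exfalso
          have h4 : es d hd.1 = ng * zO hO := by rw [← h3]; group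
          exact ng_not_mem hO (zO_mem hO) (h4 ▸ es_mem_KO hd.1 hdO)
      have h4 := congrArg tr h3
      rw [zO, tr_es, tr_es, Finset.card_compl, card_pt, hO.2, hd.2] at h4
      norm_num at h4

end Cfsg.Agent.S5388
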