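import Cfsg.Statements.S0405
import Cfsg.Agent.Lib.H63.LeechConj

set_option autoImplicit false
open Cfsg

namespace Cfsg.Agent.S0405

open MulAction H63.LeechHS H63.LeechFrame H9.LeechGood in
/-- Joint stabiliser of two vectors of sum of squares 48 with coordinate dot product −32 is simple of order 44352000. -/
theorem result (v w : Cfsg.leechLattice) (hv : Cfsg.sqNorm (v : Cfsg.GolayPt → ℤ) = 48) (hw : Cfsg.sqNorm (w : Cfsg.GolayPt → ℤ) = 48) (hvw : Cfsg.dotInt (v : Cfsg.GolayPt → ℤ) (w : Cfsg.GolayPt → ℤ) = -32) : Cfsg.IsHS ↥(MulAction.stabilizer Cfsg.Co0 v ⊓ MulAction.stabilizer Cfsg.Co0 w) := by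
  have e1 := eight_form_self v
  have e2 := eight_form_self w
  have e3 := eight_form v w
  have h1 : form v v = 6 := by omega
  have h2 : form w w = 6 := by omega
  have h3 : form v w = -4 := by omega
  have h4 : form v (v + w) = 2 := by rw [map_add, h1, h3]; norm_num
  have h5 : form (v + w) (v + w) = 4 := by
    rw [form_add_left, map_add, map_add, h1, h2, h3, form_symm w v, h3]; norm_num
  have hG : stabilizer Co0 v ⊓ stabilizer Co0 w = GG v (v + w) := by
    ext g
    rw [Subgroup.mem_inf, Subgroup.mem_inf, mem_stabilizer_iff, mem_stabilizer_iff, mem_stabilizer_iff]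
    constructor
    · rintro ⟨h, h'⟩
      exact ⟨h, by rw [co0_add, h, h']⟩
    · rintro ⟨h, h'⟩
      rw [co0_add, h] at h'
      exact ⟨h, add_left_cancel h'⟩
  rw [hG]
  exact isHS h1 h5 h4

end Cfsg.Agent.S0405
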