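import Cfsg.Statements.S1615
import Cfsg.Agent.Lib.H33.Fisch7

set_option autoImplicit false
open Cfsg

namespace Cfsg.Agent.S1615

/-- If O(⟨D_x⟩) is not central in ⟨D_x⟩ for some transposition x, the 3-transposition group is the symmetric group of degree 5. -/
theorem result {G : Type*} [Group G] [Finite G] (hsol : ∀ N : Subgroup G, N.Normal → Group.IsSolvable ↥N → N = ⊥) (hperf : ⁅commutator G, commutator G⁆ = commutator G) {D : Set G} (hD : Cfsg.IsThreeTranspositionClass D) (x : G) (hx : x ∈ D) (h : ¬ Cfsg.oddCore ↥(Subgroup.closure {y : G | y ∈ D ∧ y ≠ x ∧ Commute x y}) ≤ Subgroup.center ↥(Subgroup.closure {y : G | y ∈ D ∧ y ≠ x ∧ Commute x y})) : Nonempty (G ≃* Equiv.Perm (Fin 5)) := by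
  have hG := H90.ThreeTransB.group_of_class hD
  obtain ⟨y, hy, y', hy', hne, hR⟩ := H33.Fisch.exists_wclass hG (x := x) h
  have hw : ∃ a ∈ D, ∃ b ∈ D, a ≠ b ∧ Commute a b := ⟨x, hx, y, hy.1, hy.2.1.symm, hy.2.2⟩
  have hD2 : ∃ a ∈ D, ∃ b ∈ D, a ≠ b := ⟨x, hx, y, hy.1, hy.2.1.symm⟩
  have hprim := H33.Fisch.primitive hsol hperf hD hw
  have hV : ∀ x ∈ D, ∀ y ∈ D, H90.ThreeTransC.VRel D x y → x = y :=
    fun x hx y hy h => H90.ThreeTransI.V_trivial hG hprim hx hy h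
  have hW : ∀ x ∈ D, ∀ y ∈ D, H90.ThreeTransC.WRel D x y → x = y :=
    fun x hx y hy h => H90.ThreeTransI.W_trivial hG hprim hw hx hy h
  have hall := H33.Fisch.wclass_all hD hprim.2.2 hV hW hx ⟨y, hy, y', hy', hne, hR⟩
  have h3 : ∀ x ∈ D, ∃ a ∈ H90.ThreeTransH.Dn D x, ∃ b ∈ H90.ThreeTransH.Dn D x, a ≠ b ∧ ¬ Commute a b ∧
      ∀ m ∈ H90.ThreeTransH.Dn D x, m = a ∨ m = b ∨ m = a * b * a := by
    intro d hd
    have hnt : ∀ y ∈ H90.ThreeTransH.Dn D d, ∀ u ∈ H90.ThreeTransH.Dn D d, u ≠ y → ¬ Commute y u :=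
      fun y hy u hu huy => H33.Fisch.no_triangle hD hW hall hd hy hu huy
    -- `D_d` is non-empty
    obtain ⟨g, hg⟩ := H90.ThreeTransE.exists_conj_eq hD hx hd
    have hyd : g * y * g⁻¹ ∈ H90.ThreeTransH.Dn D d := by
      rw [← hg, H90.ThreeTransH.Dn_conj hG]
      exact ⟨y, hy, rfl⟩
    obtain ⟨y2, hy2, hne2, -⟩ := hall d hd _ hyd
    obtain ⟨z, hz, hzd⟩ := H90.ThreeTransE.exists_not_commute hD hD2 hd
    obtain ⟨a, ha, b, hb, hab, hc⟩ := H33.Fisch.card_three hD hW hd hnt ⟨_, hyd, y2, hy2, hne2.symm⟩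
      ⟨z, hz, fun h => hzd h.symm⟩
    exact ⟨a, ha, b, hb, hab, hnt a ha b hb hab.symm, hc⟩
  have hZ := H33.Fisch.center_bot hsol
  have hcl : Subgroup.closure D = ⊤ := hG.2.2
  have hfin : Nonempty (↥(Subgroup.closure D) ≃* Equiv.Perm (Fin 5)) ∨
      Nonempty (↥(Subgroup.closure D) ≃* Equiv.Perm (Fin 3) × Equiv.Perm (Fin 3)) :=
    Cfsg.Agent.S5365.result hG.1 hG.2.1 ⟨x, hx⟩ fun d hd => H33.Fisch.local_struct hD hprim hw h3 hZ hd
  rw [hcl] at hfin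
  rcases hfin with ⟨⟨e⟩⟩ | ⟨⟨e⟩⟩
  · exact ⟨Subgroup.topEquiv.symm.trans e⟩
  · exfalso
    have hs3 : Group.IsSolvable (Equiv.Perm (Fin 3)) := by
      let _ : CommGroup (alternatingGroup (Fin 3)) := { (inferInstance : Group (alternatingGroup (Fin 3))) with
        mul_comm := by decide }
      exact Group.isSolvable_of_ker_le_range (alternatingGroup (Fin 3)).subtype (Equiv.Perm.sign : Equiv.Perm (Fin 3) →* ℤˣ)
        (by rw [Subgroup.range_subtype]; exact le_rfl)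
    have hs : Group.IsSolvable (Equiv.Perm (Fin 3) × Equiv.Perm (Fin 3)) := inferInstance
    have h1 : Group.IsSolvable ↥(⊤ : Subgroup G) := Group.isSolvable_of_isSolvable_injective (f := e.toMonoidHom) e.injective
    have h2 := hsol ⊤ inferInstance h1
    have h3 : x ∈ (⊤ : Subgroup G) := trivial
    rw [h2, Subgroup.mem_bot] at h3
    exact H90.ThreeTrans.ne_one hG.1 hx h3

end Cfsg.Agent.S1615
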