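import Cfsg.Statements.S1590
import Cfsg.Agent.Lib.H33.Ternary2

set_option autoImplicit false
open Cfsg

namespace Cfsg.Agent.S1590

open H33.Ternary H33.BitSet in
/-- The length-12 ternary code has 729 words with weight distribution 0^1 6^264 9^440 12^24. -/
theorem result : Nat.card ↥Cfsg.ternaryGolayCode = 729 ∧ (∀ x ∈ Cfsg.ternaryGolayCode, x ≠ 0 → (Cfsg.ternarySupport x).card = 6 ∨ (Cfsg.ternarySupport x).card = 9 ∨ (Cfsg.ternarySupport x).card = 12) ∧ {x : Cfsg.ArrayPt → ZMod 3 | x ∈ Cfsg.ternaryGolayCode ∧ (Cfsg.ternarySupport x).card = 6}.ncard = 264 ∧ {x : Cfsg.ArrayPt → ZMod 3 | x ∈ Cfsg.ternaryGolayCode ∧ (Cfsg.ternarySupport x).card = 9}.ncard = 440 ∧ {x : Cfsg.ArrayPt → ZMod 3 | x ∈ Cfsg.ternaryGolayCode ∧ (Cfsg.ternarySupport x).card = 12}.ncard = 24 := by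
  refine ⟨card_code, ?_, ?_, ?_, ?_⟩
  · intro x hx h0
    obtain ⟨n, hn, rfl⟩ := (mem_code_iff' x).1 hx
    rw [card_support]
    have := (allB_iff _ _).1 weights n hn
    simp only [Bool.or_eq_true, Nat.beq_eq] at this
    rcases this with ((h | h) | h) | h
    · exfalso; apply h0; subst h
      funext p
      rw [enc_dig]
      show ((valN 0 (idx p) : ℕ) : ZMod 3) = 0
      revert p; decide
    · exact Or.inl h
    · exact Or.inr (Or.inl h)
    · exact Or.inr (Or.inr h)
  · rw [← count6]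
    apply ncard_words
    intro n _; rw [Nat.beq_eq, card_support]
  · rw [← count9]
    apply ncard_words
    intro n _; rw [Nat.beq_eq, card_support]
  · rw [← count12]
    apply ncard_words
    intro n _; rw [Nat.beq_eq, card_support]

end Cfsg.Agent.S1590
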