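import Cfsg.Statements.S1098
import Cfsg.Agent.Lib.H22.StThm
import Cfsg.Agent.Lib.H23.ChevExcCert

set_option autoImplicit false
open Cfsg

namespace Cfsg.Agent.S1098

/-- Graph automorphisms in characteristic 2 (K perfect): for B₂ (a short, b long) `x_a(t) ↦ x_b(t²)`, `x_b(t) ↦ x_a(t)`, and for F₄ (p₁, p₂ short, p₃, p₄ long) `x_{p₁}(t) ↦ x_{p₄}(t²)`, `x_{p₂}(t) ↦ x_{p₃}(t²)`, `x_{p₃}(t) ↦ x_{p₂}(t)`, `x_{p₄}(t) ↦ x_{p₁}(t)`, likewise on the negatives, extend to an automorphism of the group. -/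
theorem result {K : Type*} [Field K] [CharP K 2] (hperf : ∀ x : K, ∃ y : K, y ^ 2 = x)
    (p : Cfsg.Lie.ChevalleyDatum × List (ℕ × ℕ))
    (hp : p ∈ [(Cfsg.Lie.chevB2, [(1, 2), (0, 1)]), (Cfsg.Lie.chevF4, [(3, 2), (2, 2), (1, 1), (0, 1)])]) :
    ∃ α : ↥(p.1.group K) ≃* ↥(p.1.group K), ∀ (g : ↥(p.1.group K)) (i : ℕ) (t : K), i < p.1.rank →
      (((g : GL p.1.Idx K) : Matrix p.1.Idx p.1.Idx K) = p.1.x K (p.1.simple i) t →
        ((α g : GL p.1.Idx K) : Matrix p.1.Idx p.1.Idx K) = p.1.x K (p.1.simple (p.2.getD i (0, 1)).1) (t ^ (p.2.getD i (0, 1)).2)) ∧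
      (((g : GL p.1.Idx K) : Matrix p.1.Idx p.1.Idx K) = p.1.x K (p.1.neg (p.1.simple i)) t →
        ((α g : GL p.1.Idx K) : Matrix p.1.Idx p.1.Idx K) = p.1.x K (p.1.neg (p.1.simple (p.2.getD i (0, 1)).1)) (t ^ (p.2.getD i (0, 1)).2)) := by
  open H23.ChevExc in
  have key : ∀ (D : Cfsg.Lie.ChevalleyDatum) (c : ECode) (l : List (ℕ × ℕ)) [Fact c.p.Prime] [CharP K c.p],
      c.p = 2 → D ∈ [Cfsg.Lie.chevG2, Cfsg.Lie.chevB2, Cfsg.Lie.chevD4, Cfsg.Lie.chevF4, Cfsg.Lie.chevE6, Cfsg.Lie.chevE7,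
        Cfsg.Lie.chevE8] → (∀ r < D.nroots, D.neg r < D.nroots) → c.easy D = true → c.pairs D = true →
      (∀ i < D.rank, D.simple i < D.nroots ∧ c.rh (D.simple i) = D.simple (l.getD i (0, 1)).1 ∧
        c.rh (D.neg (D.simple i)) = D.neg (D.simple (l.getD i (0, 1)).1) ∧ c.la (D.simple i) = (l.getD i (0, 1)).2 ∧
        c.la (D.neg (D.simple i)) = (l.getD i (0, 1)).2) →
      ∃ α : ↥(D.group K) ≃* ↥(D.group K), ∀ (g : ↥(D.group K)) (i : ℕ) (t : K), i < D.rank →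
      (((g : GL D.Idx K) : Matrix D.Idx D.Idx K) = D.x K (D.simple i) t →
        ((α g : GL D.Idx K) : Matrix D.Idx D.Idx K) = D.x K (D.simple (l.getD i (0, 1)).1) (t ^ (l.getD i (0, 1)).2)) ∧
      (((g : GL D.Idx K) : Matrix D.Idx D.Idx K) = D.x K (D.neg (D.simple i)) t →
        ((α g : GL D.Idx K) : Matrix D.Idx D.Idx K) = D.x K (D.neg (D.simple (l.getD i (0, 1)).1)) (t ^ (l.getD i (0, 1)).2)) := by
    intro D c l _ _ hc2 hD hneg he hpr hl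
    obtain ⟨α, hα⟩ := exists_alpha (c := c) (K := K) hneg he hpr (by rw [hc2]; exact hperf) (H22.St.s1077 D hD)
    refine ⟨α, fun g i t hi => ?_⟩
    obtain ⟨h0, h1, h2, h3, h4⟩ := hl i hi
    refine ⟨fun hg => ?_, fun hg => ?_⟩
    · rw [hα g _ t h0 hg, h1, h3]
    · rw [hα g _ t (hneg _ h0) hg, h2, h4]
  simp only [List.mem_cons, List.not_mem_nil, or_false] at hp
  rcases hp with rfl | rfl
  · have : Fact H23.ChevExc.eB2.p.Prime := ⟨Nat.prime_two⟩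
    have : CharP K H23.ChevExc.eB2.p := (inferInstance : CharP K 2)
    exact key Cfsg.Lie.chevB2 H23.ChevExc.eB2 [(1, 2), (0, 1)] rfl (by simp) (by decide +kernel) H23.ChevExc.easyB2
      H23.ChevExc.pairsB2 (by decide +kernel)
  · have : Fact H23.ChevExc.eF4.p.Prime := ⟨Nat.prime_two⟩
    have : CharP K H23.ChevExc.eF4.p := (inferInstance : CharP K 2)
    exact key Cfsg.Lie.chevF4 H23.ChevExc.eF4 [(3, 2), (2, 2), (1, 1), (0, 1)] rfl (by simp) (by decide +kernel)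
      H23.ChevExc.easyF4 H23.ChevExc.pairsF4 (by decide +kernel)

end Cfsg.Agent.S1098
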