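import Cfsg.Statements.S1099
import Cfsg.Agent.Lib.H22.StThm
import Cfsg.Agent.Lib.H23.ChevExcCert

set_option autoImplicit false
open Cfsg

namespace Cfsg.Agent.S1099

/-- Graph automorphism of G₂ in characteristic 3 (K perfect): `x_a(t) ↦ x_b(t³)`, `x_b(t) ↦ x_a(t)`, `x_{-a}(t) ↦ x_{-b}(t³)`, `x_{-b}(t) ↦ x_{-a}(t)` extend to an automorphism of the group. -/
theorem result {K : Type*} [Field K] [CharP K 3] (hperf : ∀ x : K, ∃ y : K, y ^ 3 = x) :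
    ∃ α : ↥(Cfsg.Lie.chevG2.group K) ≃* ↥(Cfsg.Lie.chevG2.group K), ∀ (g : ↥(Cfsg.Lie.chevG2.group K)) (t : K),
      (((g : GL Cfsg.Lie.chevG2.Idx K) : Matrix _ _ K) = Cfsg.Lie.chevG2.x K Cfsg.Lie.g2a t →
        ((α g : GL Cfsg.Lie.chevG2.Idx K) : Matrix _ _ K) = Cfsg.Lie.chevG2.x K Cfsg.Lie.g2b (t ^ 3)) ∧
      (((g : GL Cfsg.Lie.chevG2.Idx K) : Matrix _ _ K) = Cfsg.Lie.chevG2.x K Cfsg.Lie.g2b t →
        ((α g : GL Cfsg.Lie.chevG2.Idx K) : Matrix _ _ K) = Cfsg.Lie.chevG2.x K Cfsg.Lie.g2a t) ∧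
      (((g : GL Cfsg.Lie.chevG2.Idx K) : Matrix _ _ K) = Cfsg.Lie.chevG2.x K Cfsg.Lie.g2ma t →
        ((α g : GL Cfsg.Lie.chevG2.Idx K) : Matrix _ _ K) = Cfsg.Lie.chevG2.x K Cfsg.Lie.g2mb (t ^ 3)) ∧
      (((g : GL Cfsg.Lie.chevG2.Idx K) : Matrix _ _ K) = Cfsg.Lie.chevG2.x K Cfsg.Lie.g2mb t →
        ((α g : GL Cfsg.Lie.chevG2.Idx K) : Matrix _ _ K) = Cfsg.Lie.chevG2.x K Cfsg.Lie.g2ma t) := by
  open H23.ChevExc in
  have h1 : Fact eG2.p.Prime := ⟨Nat.prime_three⟩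
  have h2 : CharP K H23.ChevExc.eG2.p := (inferInstance : CharP K 3)
  obtain ⟨α, hα⟩ := H23.ChevExc.exists_alpha (c := H23.ChevExc.eG2) (K := K) (D := Cfsg.Lie.chevG2) (by decide +kernel)
    H23.ChevExc.easyG2 H23.ChevExc.pairsG2 hperf (H22.St.s1077 Cfsg.Lie.chevG2 (by simp))
  refine ⟨α, fun g t => ⟨fun h => ?_, fun h => ?_, fun h => ?_, fun h => ?_⟩⟩
  · have := hα g Cfsg.Lie.g2a t (by decide +kernel) h
    have e1 : H23.ChevExc.eG2.rh Cfsg.Lie.g2a = Cfsg.Lie.g2b := by decide +kernel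
    have e2 : H23.ChevExc.eG2.la Cfsg.Lie.g2a = 3 := by decide +kernel
    rwa [e1, e2] at this
  · have := hα g Cfsg.Lie.g2b t (by decide +kernel) h
    have e1 : H23.ChevExc.eG2.rh Cfsg.Lie.g2b = Cfsg.Lie.g2a := by decide +kernel
    have e2 : H23.ChevExc.eG2.la Cfsg.Lie.g2b = 1 := by decide +kernel
    rwa [e1, e2, pow_one] at this
  · have := hα g Cfsg.Lie.g2ma t (by decide +kernel) h
    have e1 : H23.ChevExc.eG2.rh Cfsg.Lie.g2ma = Cfsg.Lie.g2mb := by decide +kernel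
    have e2 : H23.ChevExc.eG2.la Cfsg.Lie.g2ma = 3 := by decide +kernel
    rwa [e1, e2] at this
  · have := hα g Cfsg.Lie.g2mb t (by decide +kernel) h
    have e1 : H23.ChevExc.eG2.rh Cfsg.Lie.g2mb = Cfsg.Lie.g2ma := by decide +kernel
    have e2 : H23.ChevExc.eG2.la Cfsg.Lie.g2mb = 1 := by decide +kernel
    rwa [e1, e2, pow_one] at this

end Cfsg.Agent.S1099
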