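import Mathlib
import Cfsg.Statements.S0244


set_option autoImplicit false
open Cfsg

namespace Cfsg.Agent.S0244

/-- Sp_2 = SL_2: a matrix on Fin 1 ⊕ Fin 1 lies in Mathlib's symplectic group iff its determinant is 1. -/
theorem result {R : Type*} [CommRing R] (A : Matrix (Fin 1 ⊕ Fin 1) (Fin 1 ⊕ Fin 1) R) : A ∈ Matrix.symplecticGroup (Fin 1) R ↔ A.det = 1 := by
  have hdet : A.det = A (.inl 0) (.inl 0) * A (.inr 0) (.inr 0) - A (.inl 0) (.inr 0) * A (.inr 0) (.inl 0) := by
    rw [← Matrix.det_submatrix_equiv_self finSumFinEquiv.symm A, Matrix.det_fin_two]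
    rfl
  rw [← Matrix.fromBlocks_toBlocks A, SymplecticGroup.fromBlocks_mem_iff, Matrix.fromBlocks_toBlocks, hdet]
  constructor
  · rintro ⟨_, _, h⟩
    have h1 := congrFun (congrFun h 0) 0
    simp only [Matrix.sub_apply, Matrix.mul_apply, Finset.univ_unique, Fin.default_eq_zero,
      Finset.sum_singleton, Matrix.transpose_apply, Matrix.one_apply_eq, Matrix.toBlocks₁₁,
      Matrix.toBlocks₁₂, Matrix.toBlocks₂₁, Matrix.toBlocks₂₂, Matrix.of_apply] at h1
    rw [← h1]
    ring
  · intro h
    refine ⟨?_, ?_, ?_⟩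
    · ext i j
      fin_cases i; fin_cases j
      simp [Matrix.mul_apply, mul_comm]
    · ext i j
      fin_cases i; fin_cases j
      simp [Matrix.mul_apply, mul_comm]
    · ext i j
      fin_cases i; fin_cases j
      simp only [Fin.zero_eta, Fin.isValue, Matrix.sub_apply, Matrix.mul_apply, Finset.univ_unique, Fin.default_eq_zero,
        Finset.sum_singleton, Matrix.transpose_apply, Matrix.one_apply_eq, Matrix.toBlocks₁₁,
        Matrix.toBlocks₁₂, Matrix.toBlocks₂₁, Matrix.toBlocks₂₂, Matrix.of_apply]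
      rw [← h]
      ring

end Cfsg.Agent.S0244
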