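import Mathlib
import Cfsg.Statements.S0269
import Cfsg.Agent.Lib.H6.SympPerfect

set_option autoImplicit false
open Cfsg

namespace Cfsg.Agent.S0269

/-- Sp_{2m}(q) is perfect except for Sp_2(2), Sp_2(3) and Sp_4(2): stated as m at least 3, or m = 2 and q at least 3, or q at least 4. -/
theorem result {F : Type*} [Field F] [Fintype F] (m : ℕ) (h : 3 ≤ m ∨ (m = 2 ∧ 3 ≤ Fintype.card F) ∨ 4 ≤ Fintype.card F) : commutator (Matrix.symplecticGroup (Fin m) F) = ⊤ := by
  refine H6.SympPerfect.commutator_eq_top ?_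
  rw [Fintype.card_fin]
  omega

end Cfsg.Agent.S0269
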