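import Cfsg.Statements.S2589
import Cfsg.Agent.Lib.H49.FormConj3
import Cfsg.Agent.Lib.H48.SimMatrix

set_option autoImplicit false
open Cfsg

namespace Cfsg.Agent.S2589

open H49.FormConj3 H49.FormConj2 H16.Symp

/-- Two semisimple elements of the finite symplectic group Sp_2m(F) (elements of order prime to the characteristic) are conjugate in Sp_2m(F) if and only if they are conjugate in GL_2m(F). -/
theorem result {F : Type*} [Field F] [Fintype F] {p : ℕ} [Fact p.Prime] [CharP F p] {m : ℕ} (A B : Matrix.symplecticGroup (Fin m) F) (hA : (orderOf A).Coprime p) : IsConj A B ↔ IsConj (A : Matrix (Fin m ⊕ Fin m) (Fin m ⊕ Fin m) F) (B : Matrix (Fin m ⊕ Fin m) (Fin m ⊕ Fin m) F) := by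
  constructor
  · intro h
    exact (Matrix.symplecticGroup (Fin m) F).subtype.map_isConj h
  · intro hconj
    obtain ⟨cl, hcl⟩ := H48.SimMatrix.exists_equiv_of_isConj hconj
    have : Fintype (Matrix.symplecticGroup (Fin m) F) := Fintype.ofFinite _
    set N := orderOf A with hNdef
    have hN : (N : F) ≠ 0 := by
      rw [Ne, CharP.cast_eq_zero_iff F p N]
      intro hd
      have := Nat.Coprime.eq_one_of_dvd hA.symm hd
      exact (Fact.out : p.Prime).one_lt.ne' this
    let g : (Fin m ⊕ Fin m → F) →ₗ[F] (Fin m ⊕ Fin m → F) := Matrix.toLin' (A : Matrix _ _ F)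
    have hgA : ∀ v, g v = (A : Matrix (Fin m ⊕ Fin m) (Fin m ⊕ Fin m) F).mulVec v := fun v => rfl
    have hgN : g ^ N = 1 := by
      have h1 : (A : Matrix (Fin m ⊕ Fin m) (Fin m ⊕ Fin m) F) ^ N = 1 := by
        have := congrArg Subtype.val (pow_orderOf_eq_one A)
        rwa [SubmonoidClass.coe_pow] at this
      rw [← Matrix.toLin'_pow, h1, Matrix.toLin'_one]
      rfl
    let f := sympBilin m F
    let f' : LinearMap.BilinForm F (Fin m ⊕ Fin m → F) := f.comp cl.toLinearMap cl.toLinearMap
    have hf' : ∀ u v, f' u v = sympForm m F (cl u) (cl v) := fun u v => rfl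
    have hAB : ∀ v, cl (g v) = (B : Matrix (Fin m ⊕ Fin m) (Fin m ⊕ Fin m) F).mulVec (cl v) := hcl
    obtain ⟨y, hy1, hy2⟩ := sp_conj g f f' (fun x hx => eq_zero_of_forall_sympForm_right hx)
      (fun x hx => by
        apply cl.injective
        rw [map_zero]
        apply eq_zero_of_forall_sympForm_right
        intro v
        have := hx (cl.symm v)
        rwa [hf', cl.apply_symm_apply] at this)
      sympBilin_isAlt (fun v => sympForm_self _)
      (fun u v => (mem_symplecticGroup_iff _).mp A.2 u v)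
      (fun u v => by
        rw [hf', hf', hAB, hAB]
        exact (mem_symplecticGroup_iff _).mp B.2 _ _) N hN hgN
    have hy2' : ∀ u v, sympForm m F (y u) (y v) = sympForm m F (cl u) (cl v) := hy2
    let h : (Fin m ⊕ Fin m → F) →ₗ[F] (Fin m ⊕ Fin m → F) := cl.toLinearMap ∘ₗ y.symm.toLinearMap
    have hh : ∀ v, h v = cl (y.symm v) := fun v => rfl
    have hsp : LinearMap.toMatrix' h ∈ Matrix.symplecticGroup (Fin m) F := by
      rw [mem_symplecticGroup_iff]
      intro u v
      rw [LinearMap.toMatrix'_mulVec, LinearMap.toMatrix'_mulVec, hh, hh, ← hy2',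
        y.apply_symm_apply, y.apply_symm_apply]
    rw [isConj_iff]
    refine ⟨⟨LinearMap.toMatrix' h, hsp⟩, ?_⟩
    rw [mul_inv_eq_iff_eq_mul]
    apply Subtype.ext
    change LinearMap.toMatrix' h * (A : Matrix _ _ F) = (B : Matrix _ _ F) * LinearMap.toMatrix' h
    apply Matrix.mulVec_injective
    funext v
    rw [← Matrix.mulVec_mulVec, ← Matrix.mulVec_mulVec, LinearMap.toMatrix'_mulVec,
      LinearMap.toMatrix'_mulVec, hh, hh, ← hAB, ← hgA]
    congr 1
    apply y.injective
    rw [hy1, y.apply_symm_apply, y.apply_symm_apply]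

end Cfsg.Agent.S2589
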