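import Mathlib
import Cfsg.Statements.S0245
import Cfsg.Agent.Lib.H6.SympCard

set_option autoImplicit false
open Cfsg

namespace Cfsg.Agent.S0245

/-- Order of the finite symplectic group: |Sp_{2m}(q)| = q^(m^2) * prod_{i=1}^{m} (q^(2i) - 1). -/
theorem result {F : Type*} [Field F] [Fintype F] {q : ℕ} (hF : Fintype.card F = q) (m : ℕ) : Nat.card (Matrix.symplecticGroup (Fin m) F) = q ^ (m ^ 2) * ∏ i ∈ Finset.range m, (q ^ (2 * (i + 1)) - 1) := by
  subst hF
  rw [H6.SympCard.card_symplecticGroup, Nat.card_eq_fintype_card, Fintype.card_fin]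

end Cfsg.Agent.S0245
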