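import Cfsg.Statements.S0294
import Mathlib
import Cfsg.Agent.Lib.H7.OmegaOrd
import Cfsg.Agent.S0288
import Cfsg.Agent.S0791

set_option autoImplicit false
open Cfsg

namespace Cfsg.Agent.S0294

/-- gcd(4, q^m + 1) |PΩ^-_{2m}(q)| = q^(m(m-1)) (q^m + 1) prod_{i=1}^{m-1} (q^(2i) - 1), m at least 4 (type ²D_m). -/
theorem result {F : Type*} [Field F] [Fintype F] {q : ℕ} (hF : Fintype.card F = q) (m : ℕ) (hm : 4 ≤ m) (a b : F) (hab : ∀ z₁ z₂ : F, z₁ ^ 2 + a * z₁ * z₂ + b * z₂ ^ 2 = 0 → z₁ = 0 ∧ z₂ = 0) : Nat.gcd 4 (q ^ m + 1) * Nat.card (Cfsg.POmega F (Cfsg.quadFormMinus (m - 1) F a b)) = q ^ (m * (m - 1)) * (q ^ m + 1) * ∏ i ∈ Finset.range (m - 1), (q ^ (2 * (i + 1)) - 1) := by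
  have hO := Cfsg.Agent.S0288.result hF m (by omega) a b hab
  have hQm := H7.OmegaIso.ND.nondegenerate (H7.MinusOrd.nd_minus (F := F) (m - 1) hab)
  have hqm : q ≤ q ^ m := Nat.le_self_pow (by omega) q
  have hq1 : 1 < q := by rw [← hF]; exact Fintype.one_lt_card
  set X := q ^ (m * (m - 1)) * (q ^ m + 1) * ∏ i ∈ Finset.range (m - 1), (q ^ (2 * (i + 1)) - 1) with hX
  have hO' : Nat.card (Cfsg.isometryGroup F (Cfsg.quadFormMinus (m - 1) F a b)) = 2 * X := by
    rw [hO, hX]; ring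
  obtain ⟨k, rfl⟩ : ∃ k, m = k + 3 := ⟨m - 3, by omega⟩
  change Nat.card (Cfsg.isometryGroup F (Cfsg.quadFormMinus (k + 2) F a b)) = 2 * X at hO'
  obtain ⟨e⟩ := (H7.HypStd.minus_succ (F := F) (k + 1) a b).trans (H7.OmegaIso.hyp_congr (H7.HypStd.minus_succ (F := F) k a b))
  have hf : ∀ v, H7.Hyp.hyp (H7.Hyp.hyp (H48.QuadStd.qMinus k F a b)) (e.toLinearEquiv v) = Cfsg.quadFormMinus (k + 2) F a b v := by
    intro v
    rw [← H48.QuadStd.coe_qMinus]
    exact e.map_app v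
  have hQ := H7.MinusOrd.nd_minus (F := F) k hab
  have hm' := H7.OmegaOrd.card_POmega_mul (F := F) (Cfsg.quadFormMinus (k + 2) F a b)
  rw [hO'] at hm'
  by_cases h2 : (2 : F) = 0
  · have hchar : ringChar F = 2 := CharP.ringChar_of_prime_eq_zero Nat.prime_two (by exact_mod_cast h2)
    have : CharP F 2 := by rw [← hchar]; exact ringChar.charP F
    have hidx : (Cfsg.Omega F (Cfsg.quadFormMinus (k + 2) F a b)).index = 2 := by
      rw [← H48.QuadStd.coe_qMinus]
      exact (H17.DicksonInv.main_even hQm (by simp) (Or.inr (by simp; omega))).1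
    have hc := H7.OmegaOrd.card_center_one (ι := ((Fin (k + 2) ⊕ Fin (k + 2)) ⊕ Fin 2)) hQ.hyp e.toLinearEquiv hf
      (H7.OmegaIso.commutator_eq_two hQ) (Or.inl h2)
    rw [hidx, hc, one_mul] at hm'
    have heven : q % 2 = 0 := by
      rw [← hF]; exact (FiniteField.even_card_iff_char_two (F := F)).1 hchar
    have hqm2 : q ^ (k + 3) % 2 = 0 := by
      rw [Nat.pow_mod, heven]; simp
    have hg : Nat.gcd 4 (q ^ (k + 3) + 1) = 1 := by
      have hodd : Odd (q ^ (k + 3) + 1) := by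
        rw [Nat.odd_iff]; omega
      have : Nat.Coprime (2 ^ 2) (q ^ (k + 3) + 1) := Nat.Coprime.pow_left 2 (Nat.coprime_two_left.2 hodd)
      exact this
    rw [hg, one_mul]
    change Nat.card (Cfsg.POmega F (Cfsg.quadFormMinus (k + 2) F a b)) = X
    omega
  · have hidx : (Cfsg.Omega F (Cfsg.quadFormMinus (k + 2) F a b)).index = 4 := by
      rw [← H48.QuadStd.coe_qMinus]
      exact H17.OrthTrans2.index_Omega h2 (by simp) _ hQm
    have hodd : Odd q := by
      rw [← hF, Nat.odd_iff]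
      by_contra hcon
      have h3 : Fintype.card F % 2 = 0 := by omega
      have h4 := (FiniteField.even_card_iff_char_two (F := F)).2 h3
      apply h2
      have := ringChar.spec F 2
      rw [h4] at this
      exact_mod_cast this.2 (dvd_refl 2)
    have hneg := Cfsg.Agent.S0791.result hF hodd (k + 3) (by omega) a b hab
    have hqo : q ^ (k + 3) % 2 = 1 := Nat.odd_iff.1 hodd.pow
    by_cases h4 : q ^ (k + 3) % 4 = 3
    · have hc := H7.OmegaOrd.card_center_two (ι := ((Fin (k + 2) ⊕ Fin (k + 2)) ⊕ Fin 2)) hQ.hyp e.toLinearEquiv hf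
        (H7.OmegaIso.commutator_eq_two hQ) h2 (hneg.2 h4)
      rw [hidx, hc] at hm'
      have hg : Nat.gcd 4 (q ^ (k + 3) + 1) = 4 := Nat.gcd_eq_left (by omega)
      rw [hg]
      change 4 * Nat.card (Cfsg.POmega F (Cfsg.quadFormMinus (k + 2) F a b)) = X
      omega
    · have hc := H7.OmegaOrd.card_center_one (ι := ((Fin (k + 2) ⊕ Fin (k + 2)) ⊕ Fin 2)) hQ.hyp e.toLinearEquiv hf
        (H7.OmegaIso.commutator_eq_two hQ) (Or.inr (fun hcon => h4 (hneg.1 hcon)))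
      rw [hidx, hc] at hm'
      have hg : Nat.gcd 4 (q ^ (k + 3) + 1) = 2 := by
        obtain ⟨j, hj⟩ : ∃ j, q ^ (k + 3) + 1 = 2 + 4 * j := ⟨(q ^ (k + 3) + 1) / 4, by omega⟩
        rw [hj, Nat.gcd_add_mul_left_right]; rfl
      rw [hg]
      change 2 * Nat.card (Cfsg.POmega F (Cfsg.quadFormMinus (k + 2) F a b)) = X
      omega

end Cfsg.Agent.S0294
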