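import Cfsg.Statements.S2437
import Cfsg.Agent.Lib.H45.SL2TorusConj

set_option autoImplicit false
open Cfsg

namespace Cfsg.Agent.S2437

open H45.SL2

variable {F : Type*} [Field F]

abbrev B (F : Type*) [Field F] : Subgroup (Matrix.SpecialLinearGroup (Fin 2) F) :=
  (Cfsg.upperTriangularGL 2 F).comap Matrix.SpecialLinearGroup.toGL

theorem mem_B (g : Matrix.SpecialLinearGroup (Fin 2) F) : g ∈ B F ↔ g.1 1 0 = 0 := by
  constructor
  · intro h
    have h1 : (g.1).BlockTriangular id := h
    exact h1 (show (0 : Fin 2) < 1 by decide)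
  · intro h
    change (g.1).BlockTriangular id
    intro i j hij
    fin_cases i <;> fin_cases j
    · exact absurd hij (by decide)
    · exact absurd hij (by decide)
    · exact h
    · exact absurd hij (by decide)

/-- coordinates on the Borel subgroup -/
def coord (F : Type*) [Field F] : B F ≃ Fˣ × F where
  toFun g := (Units.mkOfMulEqOne (g.1.1 0 0) (g.1.1 1 1) (by
      have hd := det_eq g.1
      rw [(mem_B g.1).1 g.2] at hd
      linear_combination hd), g.1.1 0 1)
  invFun p := ⟨mk2 p.1 p.2 0 (p.1⁻¹ : Fˣ) (by simp), (mem_B _).2 rfl⟩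
  left_inv := by
    rintro ⟨g, hg⟩
    apply Subtype.ext
    apply ext4
    · rfl
    · rfl
    · exact ((mem_B g).1 hg).symm
    · rfl
  right_inv := by
    rintro ⟨a, b⟩
    apply Prod.ext
    · apply Units.ext; rfl
    · rfl

theorem commute_iff (p p' : Fˣ × F) : Commute ((coord F).symm p) ((coord F).symm p') ↔
    p'.2 * ((p.1 : F) - ((p.1⁻¹ : Fˣ) : F)) = p.2 * ((p'.1 : F) - ((p'.1⁻¹ : Fˣ) : F)) := by
  obtain ⟨a, b⟩ := p
  obtain ⟨c, d⟩ := p'
  have e1 : ((coord F).symm (a, b)).1 = mk2 (a : F) b 0 ((a⁻¹ : Fˣ) : F) (by simp) := rfl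
  have e2 : ((coord F).symm (c, d)).1 = mk2 (c : F) d 0 ((c⁻¹ : Fˣ) : F) (by simp) := rfl
  constructor
  · intro h
    have h1 := congrArg Subtype.val h.eq
    have h2 : (((coord F).symm (a, b)).1 * ((coord F).symm (c, d)).1).1 0 1 =
        (((coord F).symm (c, d)).1 * ((coord F).symm (a, b)).1).1 0 1 := by
      have h3 : ((coord F).symm (a, b)).1 * ((coord F).symm (c, d)).1 = ((coord F).symm (c, d)).1 * ((coord F).symm (a, b)).1 := h1
      rw [h3]
    rw [mul_01, mul_01, e1, e2] at h2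
    simp only [mk2_00, mk2_01, mk2_11] at h2
    change d * ((a : F) - ((a⁻¹ : Fˣ) : F)) = b * ((c : F) - ((c⁻¹ : Fˣ) : F))
    linear_combination h2
  · intro h
    change d * ((a : F) - ((a⁻¹ : Fˣ) : F)) = b * ((c : F) - ((c⁻¹ : Fˣ) : F)) at h
    apply Subtype.ext
    change ((coord F).symm (a, b)).1 * ((coord F).symm (c, d)).1 = ((coord F).symm (c, d)).1 * ((coord F).symm (a, b)).1
    rw [e1, e2]
    apply ext4
    · rw [mul_00, mul_00]; simp only [mk2_00, mk2_01, mk2_10]; ring
    · rw [mul_01, mul_01]; simp only [mk2_00, mk2_01, mk2_11]; linear_combination h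
    · rw [mul_10, mul_10]; simp only [mk2_00, mk2_10, mk2_11]; ring
    · rw [mul_11, mul_11]; simp only [mk2_01, mk2_10, mk2_11]; ring

/-- number of solutions of a linear equation -/
theorem card_lin [Fintype F] [DecidableEq F] (α γ : F) :
    Nat.card {p : F × F // p.2 * α = p.1 * γ} = if α = 0 ∧ γ = 0 then Fintype.card F ^ 2 else Fintype.card F := by
  by_cases hα : α = 0
  · by_cases hγ : γ = 0
    · rw [if_pos ⟨hα, hγ⟩, sq, ← Fintype.card_prod, ← Nat.card_eq_fintype_card]
      apply Nat.card_congr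
      apply Equiv.subtypeUnivEquiv
      intro x; rw [hα, hγ, mul_zero, mul_zero]
    · rw [if_neg (by tauto), ← Nat.card_eq_fintype_card]
      apply Nat.card_congr
      refine ⟨fun p => p.1.2, fun x => ⟨(0, x), by rw [hα]; ring⟩, ?_, ?_⟩
      · rintro ⟨⟨x, y⟩, h⟩
        change y * α = x * γ at h
        rw [hα, mul_zero] at h
        have : x = 0 := by
          rcases mul_eq_zero.1 h.symm with h | h
          · exact h
          · exact absurd h hγ
        simp [this]
      · intro x; rfl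
  · rw [if_neg (by tauto), ← Nat.card_eq_fintype_card]
    apply Nat.card_congr
    refine ⟨fun p => p.1.1, fun x => ⟨(x, x * γ / α), by field_simp⟩, ?_, ?_⟩
    · rintro ⟨⟨x, y⟩, h⟩
      change y * α = x * γ at h
      have : x * γ / α = y := by rw [← h]; field_simp
      simp [this]
    · intro x; rfl

/-- Over a finite field F with q elements, q odd, the upper triangular subgroup of SL₂ (a Borel subgroup, of order q(q − 1)) has exactly q + 3 conjugacy classes. -/
theorem result {F : Type*} [Field F] [Fintype F] (hodd : Odd (Fintype.card F)) :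
    Nat.card (ConjClasses ((Cfsg.upperTriangularGL 2 F).comap Matrix.SpecialLinearGroup.toGL)) = Fintype.card F + 3 := by
  classical
  have h2 : (2 : F) ≠ 0 := two_ne_zero_of_odd hodd
  have hq : 1 < Fintype.card F := Fintype.one_lt_card
  have hmain := card_comm_eq_card_conjClasses_mul_card (B F)
  have hB : Nat.card (B F) = Fintype.card F * (Fintype.card F - 1) := by
    rw [Nat.card_congr (coord F), Nat.card_eq_fintype_card, Fintype.card_prod, Fintype.card_units, mul_comm]
  -- rewrite the commuting pairs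
  have e1 : Nat.card {p : B F × B F // Commute p.1 p.2} =
      Nat.card {p : (Fˣ × F) × (Fˣ × F) // p.2.2 * ((p.1.1 : F) - ((p.1.1⁻¹ : Fˣ) : F)) = p.1.2 * ((p.2.1 : F) - ((p.2.1⁻¹ : Fˣ) : F))} := by
    apply Nat.card_congr
    apply Equiv.subtypeEquiv (Equiv.prodCongr (coord F) (coord F))
    rintro ⟨g, h⟩
    have := commute_iff ((coord F) g) ((coord F) h)
    rw [Equiv.symm_apply_apply, Equiv.symm_apply_apply] at this
    exact this
  have e2 : Nat.card {p : (Fˣ × F) × (Fˣ × F) // p.2.2 * ((p.1.1 : F) - ((p.1.1⁻¹ : Fˣ) : F)) = p.1.2 * ((p.2.1 : F) - ((p.2.1⁻¹ : Fˣ) : F))} =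
      Nat.card (Σ ac : Fˣ × Fˣ, {p : F × F // p.2 * ((ac.1 : F) - ((ac.1⁻¹ : Fˣ) : F)) = p.1 * ((ac.2 : F) - ((ac.2⁻¹ : Fˣ) : F))}) := by
    apply Nat.card_congr
    exact
      { toFun := fun p => ⟨(p.1.1.1, p.1.2.1), ⟨(p.1.1.2, p.1.2.2), p.2⟩⟩
        invFun := fun s => ⟨((s.1.1, s.2.1.1), (s.1.2, s.2.1.2)), s.2.2⟩
        left_inv := fun p => rfl
        right_inv := fun s => rfl }
  have hcrit : ∀ a : Fˣ, ((a : F) - ((a⁻¹ : Fˣ) : F)) = 0 ↔ a = 1 ∨ a = -1 := by
    intro a
    constructor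
    · intro h
      have h3 : ((a : F) - 1) * ((a : F) + 1) = 0 := by
        have h4 : (a : F) * ((a⁻¹ : Fˣ) : F) = 1 := by simp
        linear_combination (a : F) * h + h4
      rcases mul_eq_zero.1 h3 with h5 | h5
      · left; apply Units.ext; rw [Units.val_one]; linear_combination h5
      · right; apply Units.ext; rw [Units.val_neg, Units.val_one]; linear_combination h5
    · rintro (rfl | rfl) <;> simp
  rw [e1, e2, Nat.card_sigma, hB] at hmain
  have e3 : ∀ ac : Fˣ × Fˣ, Nat.card {p : F × F // p.2 * ((ac.1 : F) - ((ac.1⁻¹ : Fˣ) : F)) = p.1 * ((ac.2 : F) - ((ac.2⁻¹ : Fˣ) : F))} =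
      if ac ∈ ({1, -1} ×ˢ {1, -1} : Finset (Fˣ × Fˣ)) then Fintype.card F ^ 2 else Fintype.card F := by
    intro ac
    rw [card_lin]
    congr 1
    rw [Finset.mem_product, hcrit, hcrit]
    simp
  rw [Finset.sum_congr rfl (fun ac _ => e3 ac), Finset.sum_ite, Finset.sum_const, Finset.sum_const,
    smul_eq_mul, smul_eq_mul] at hmain
  have hne : (1 : Fˣ) ≠ -1 := by
    intro h
    have : (1 : F) = -1 := by
      have := congrArg Units.val h
      simpa using this
    apply h2; linear_combination this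
  have e4 : (Finset.univ.filter (fun ac : Fˣ × Fˣ => ac ∈ ({1, -1} ×ˢ {1, -1} : Finset (Fˣ × Fˣ)))).card = 4 := by
    rw [Finset.filter_mem_eq_inter, Finset.univ_inter, Finset.card_product, Finset.card_pair hne]
  have e5 : (Finset.univ.filter (fun ac : Fˣ × Fˣ => ¬ ac ∈ ({1, -1} ×ˢ {1, -1} : Finset (Fˣ × Fˣ)))).card =
      (Fintype.card F - 1) * (Fintype.card F - 1) - 4 := by
    have h3 : (Finset.univ.filter (fun ac : Fˣ × Fˣ => ac ∈ ({1, -1} ×ˢ {1, -1} : Finset (Fˣ × Fˣ)))).card +
        (Finset.univ.filter (fun ac : Fˣ × Fˣ => ¬ ac ∈ ({1, -1} ×ˢ {1, -1} : Finset (Fˣ × Fˣ)))).card = (Fintype.card F - 1) * (Fintype.card F - 1) := by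
      rw [Finset.card_filter_add_card_filter_not, Finset.card_univ, Fintype.card_prod, Fintype.card_units]
    omega
  rw [e4, e5] at hmain
  have hq3 : 3 ≤ Fintype.card F := by
    obtain ⟨k, hk⟩ := hodd
    omega
  obtain ⟨n, hn⟩ := Nat.exists_eq_add_of_le hq3
  rw [hn] at hmain ⊢
  have e6 : 3 + n - 1 = n + 2 := by omega
  rw [e6] at hmain
  have e7 : (n + 2) * (n + 2) - 4 = n * n + 4 * n := by
    have : (n + 2) * (n + 2) = n * n + 4 * n + 4 := by ring
    omega
  rw [e7] at hmain
  have hpos : 0 < (3 + n) * (n + 2) := by positivity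
  apply Nat.eq_of_mul_eq_mul_right hpos
  rw [← hmain]
  ring

end Cfsg.Agent.S2437
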