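import Cfsg.Statements.S2947
import Mathlib
import Cfsg.Agent.Lib.H54.Basic
import Cfsg.Agent.Lib.H28.RelSyl
import Cfsg.Agent.Lib.H13.Cores

set_option autoImplicit false
open Cfsg

namespace Cfsg.Agent.S2947

/-- Let G be a finite group of characteristic 2 type in which every 2-local subgroup is solvable and the centralizer of Ω₁(Z(S)) lies in N_G(S) for every Sylow 2-subgroup S; suppose O₂(G) = 1, fix a Sylow 2-subgroup S and a 2-local subgroup M containing N_G(J(S)) (J the Thompson subgroup generated by the elementary abelian 2-subgroups of largest order). Then M is strongly embedded in G (a proper subgroup of even order whose intersection with each conjugate by an element outside M has odd order) if and only if no nontrivial 2-subgroup of M lies in a 2-local subgroup of G not contained in M. -/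
theorem result {G : Type*} [Group G] [Finite G] (hL : Cfsg.IsCharacteristicTwoType G) (hN : ∀ N : Subgroup G, Cfsg.IsTwoLocal N → Group.IsSolvable ↥N)
    (hZ : ∀ S : Sylow 2 G, Subgroup.centralizer (Cfsg.omegaCenterOf (S : Subgroup G) : Set G) ≤ Subgroup.normalizer ((S : Subgroup G) : Set G)) (hO : Cfsg.pCore 2 G = ⊥) (S : Sylow 2 G) (M : Subgroup G) (hM : Cfsg.IsTwoLocal M)
    (hMJ : Subgroup.normalizer (Cfsg.thompsonSubgroupOf 2 (S : Subgroup G) : Set G) ≤ M) :
    Cfsg.IsStronglyEmbedded M ↔ Cfsg.straddlingTwoSubgroups M = ∅ := by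
  classical
  obtain ⟨Q, hQ2, hQ1, hMQ⟩ := hM
  have hQM : Q ≤ M := by rw [hMQ]; exact Subgroup.le_normalizer
  -- a 2-group is of even order when nontrivial
  have heven : ∀ X : Subgroup G, IsPGroup 2 ↥X → X ≠ ⊥ → Even (Nat.card ↥X) := by
    intro X hX hX1
    rcases hX.card_eq_or_dvd with h | h
    · exact absurd (Subgroup.card_eq_one.mp h) hX1
    · exact even_iff_two_dvd.mpr h
  have hMtop : M ≠ ⊤ := by
    intro hMt
    have hQn : Q.Normal := by
      rw [← Subgroup.normalizer_eq_top_iff, ← hMQ, hMt]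
    have := H13.Cores.le_pCore hQn hQ2
    rw [hO] at this
    exact hQ1 (le_bot_iff.mp this)
  constructor
  · intro hse
    obtain ⟨-, -, hse⟩ := hse
    have h1 : ∀ R : Subgroup G, IsPGroup 2 ↥R → R ≠ ⊥ → R ≤ M →
        Subgroup.normalizer (R : Set G) ≤ M := by
      intro R hR hR1 hRM g hg
      by_contra hgM
      have hodd := hse g hgM
      have hle : R ≤ M ⊓ M.map (MulAut.conj g).toMonoidHom := by
        refine le_inf hRM ?_
        intro x hx
        rw [H54.Basic.mem_map_conj]
        exact hRM (H54.Basic.inv_mul_mem_of_mem_normalizer hg hx)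
      have h2 := Subgroup.card_dvd_of_le hle
      have h3 := heven R hR hR1
      rw [← Nat.not_even_iff_odd] at hodd
      exact hodd (even_iff_two_dvd.mpr ((even_iff_two_dvd.mp h3).trans h2))
    rw [Set.eq_empty_iff_forall_notMem]
    rintro T ⟨hT2, hT1, hTM, L, ⟨P, hP2, hP1, hLP⟩, hTL, hLM⟩
    -- the 2-group T ⊔ P
    have hTP : T ≤ Subgroup.normalizer (P : Set G) := by rw [← hLP]; exact hTL
    have hTP2 : IsPGroup 2 ↥(T ⊔ P) := hT2.to_sup_of_normal_right' hP2 hTP
    have hTPM : T ⊔ P ≤ M := by
      by_contra hcon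
      have hlt : (T ⊔ P) ⊓ M < T ⊔ P :=
        lt_of_le_of_ne inf_le_left (fun h => hcon (inf_eq_left.mp h))
      have h2 := H28.RelSyl.lt_inf_normalizer_of_isPGroup hTP2 hlt
      have hne : (T ⊔ P) ⊓ M ≠ ⊥ := by
        intro h
        apply hT1
        rw [← le_bot_iff, ← h]
        exact le_inf le_sup_left hTM
      have h3 := h1 _ (hTP2.to_le inf_le_left) hne inf_le_right
      have h4 : (T ⊔ P) ⊓ Subgroup.normalizer (((T ⊔ P) ⊓ M : Subgroup G) : Set G) ≤
          (T ⊔ P) ⊓ M := inf_le_inf_left _ h3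
      exact absurd (lt_of_lt_of_le h2 h4) (lt_irrefl _)
    apply hLM
    rw [hLP]
    exact h1 P hP2 hP1 (le_sup_right.trans hTPM)
  · intro hempty
    have hcontra : ∀ T : Subgroup G, IsPGroup 2 ↥T → T ≠ ⊥ → T ≤ M →
        ∀ L : Subgroup G, Cfsg.IsTwoLocal L → T ≤ L → L ≤ M := by
      intro T hT2 hT1 hTM L hL2 hTL
      by_contra hLM
      have : T ∈ Cfsg.straddlingTwoSubgroups M := ⟨hT2, hT1, hTM, L, hL2, hTL, hLM⟩
      rw [hempty] at this
      exact this
    refine ⟨hMtop, ?_, ?_⟩
    · have h1 := heven Q hQ2 hQ1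
      exact even_iff_two_dvd.mpr ((even_iff_two_dvd.mp h1).trans (Subgroup.card_dvd_of_le hQM))
    · intro g hg
      rw [← Nat.not_even_iff_odd]
      intro heo
      -- a nontrivial 2-subgroup of the intersection
      obtain ⟨X, hXle, hXcard⟩ := H28.RelSyl.exists_card_eq_prime (p := 2)
        (even_iff_two_dvd.mp heo)
      have hX2 : IsPGroup 2 ↥X := IsPGroup.of_card (n := 1) (by rw [hXcard, pow_one])
      have hX1 : X ≠ ⊥ := by
        rintro rfl
        rw [Subgroup.card_bot] at hXcard
        omega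
      have hloc : Cfsg.IsTwoLocal (M.map (MulAut.conj g).toMonoidHom) := by
        refine ⟨Q.map (MulAut.conj g).toMonoidHom, H54.Basic.isPGroup_map_conj g hQ2, ?_, ?_⟩
        · intro h
          apply hQ1
          rw [← Subgroup.card_eq_one, ← H54.Basic.card_map_conj g Q, h, Subgroup.card_bot]
        · rw [H54.Basic.normalizer_map_conj, ← hMQ]
      have hle := hcontra X hX2 hX1 (hXle.trans inf_le_left) _ hloc (hXle.trans inf_le_right)
      have heq : M.map (MulAut.conj g).toMonoidHom = M :=
        Subgroup.eq_of_le_of_card_ge hle (by rw [H54.Basic.card_map_conj])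
      have hgN : g ∈ Subgroup.normalizer (M : Set G) := (H54.Basic.map_conj_eq_iff g M).mp heq
      -- the normalizer of M normalizes O_2(M)
      let R : Subgroup G := (Cfsg.pCore 2 ↥M).map M.subtype
      have hQn : M ≤ Subgroup.normalizer (Q : Set G) := hMQ.le
      have hQR : Q ≤ R := H13.Cores.le_map_pCore hQM hQn hQ2
      have hR2 : IsPGroup 2 ↥R := H13.Cores.isPGroup_map_subtype_pCore M
      have hR1 : R ≠ ⊥ := fun h => hQ1 (le_bot_iff.mp (h ▸ hQR))
      have hRM : R ≤ M := Subgroup.map_subtype_le _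
      have hNR := hcontra R hR2 hR1 hRM (Subgroup.normalizer (R : Set G)) ⟨R, hR2, hR1, rfl⟩
        Subgroup.le_normalizer
      exact hg (hNR (H13.Cores.normalizer_le_normalizer_map_pCore M hgN))

end Cfsg.Agent.S2947
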