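import Cfsg.Statements.S4499
import Cfsg.Agent.Lib.H78.BF

set_option autoImplicit false
open Cfsg

namespace Cfsg.Agent.S4499


open H20.Loc H20.GA H20.Blk H20.Orth H20.Defect H20.Height H78.BF
open H18.CharBasic H18.CharOrtho

/-- If a member of `B` has `p`-part of its degree at least `p^(a-1)` then `B` has defect at most
one. -/
theorem defect_le_one {G : Type*} [Group G] [Fintype G] {p : ℕ} {M : Ideal AlgInt}
    (hM : IsPModular p M) {B : Set (IrrCharacter G)} (hB : IsPBlock M B) {χ : IrrCharacter G}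
    (hχ : χ ∈ B) (h : (Nat.card G).factorization p ≤ (charDegree (χ : G → ℂ)).factorization p + 1) :
    blockDefect p B ≤ 1 := by
  classical
  have hp := pm_prime hM
  have hMp := pm_isPrime hM
  letI := Fintype.ofFinite (IrrCharacter G)
  have hh := height_eq hM hB hχ
  obtain ⟨n, hn, hn2, hpos, hsum⟩ := exists_matrix hM hB hχ
  set d := blockDefect p B with hd
  set t := blockHeight p B (χ : G → ℂ) with ht
  -- `d ≤ t + 1`
  have hdt : d ≤ t + 1 := by omega
  by_contra hcon
  push Not at hcon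
  have ht1 : 1 ≤ t := by omega
  obtain ⟨ψ, hψ, hψ0⟩ := exists_height_zero hM hB
  have hψn := (hn2 ψ).2 ⟨hψ, hψ0⟩
  have hne : ψ ≠ χ := by
    rintro rfl
    omega
  have hχn : (p : ℤ) ∣ n χ := by
    by_contra h1
    have := ((hn2 χ).1 h1).2
    omega
  have hpz : (0 : ℤ) < p := by exact_mod_cast hp.pos
  have h1 : (n χ) ^ 2 + (n ψ) ^ 2 ≤ ∑ ψ, n ψ ^ 2 := by
    have h2 : ∑ φ ∈ ({χ, ψ} : Finset (IrrCharacter G)), n φ ^ 2 ≤ ∑ ψ, n ψ ^ 2 :=
      Finset.sum_le_sum_of_subset_of_nonneg (Finset.subset_univ _) (fun _ _ _ => sq_nonneg _)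
    rwa [Finset.sum_pair (fun h => hne h.symm)] at h2
  have h2 : ∑ ψ, n ψ ^ 2 ≤ p * n χ := by
    have h3 : (p : ℤ) ^ t * ∑ ψ, n ψ ^ 2 ≤ (p : ℤ) ^ t * (p * n χ) := by
      rw [hsum, ← mul_assoc, ← pow_succ]
      apply mul_le_mul_of_nonneg_right _ hpos.le
      exact pow_le_pow_right₀ (by omega) hdt
    exact le_of_mul_le_mul_left h3 (pow_pos hpz t)
  have h3 : (n ψ) ^ 2 ≤ n χ * (p - n χ) := by nlinarith
  have h4 : 0 < (n ψ) ^ 2 := by
    have : n ψ ≠ 0 := fun h5 => hψn (h5 ▸ dvd_zero _)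
    positivity
  have h5 : n χ < p := by
    by_contra h6
    push Not at h6
    have : n χ * (p - n χ) ≤ 0 := mul_nonpos_of_nonneg_of_nonpos hpos.le (by linarith)
    linarith
  exact absurd (Int.le_of_dvd hpos hχn) (not_le.2 h5)


/-- Let G be a finite group whose order has p-part p^a (a ≥ 1), and fix a maximal ideal M of the algebraic integers containing p. If the degree of one irreducible character of a p-block B is divisible by p^(a−1), then the degree of every irreducible character in B is divisible by p^(a−1) (so B has defect at most 1). -/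
theorem result {G : Type*} [Group G] [Finite G] (p : ℕ) [Fact p.Prime] (M : Ideal Cfsg.AlgInt) (hM : Cfsg.IsPModular p M) (hpa : p ∣ Nat.card G) (B : Set (Cfsg.IrrCharacter G)) (hB : Cfsg.IsPBlock M B) (χ : Cfsg.IrrCharacter G) (hχ : χ ∈ B) (hdiv : p ^ ((Nat.card G).factorization p - 1) ∣ Cfsg.charDegree (χ : G → ℂ)) (ψ : Cfsg.IrrCharacter G) (hψ : ψ ∈ B) : p ^ ((Nat.card G).factorization p - 1) ∣ Cfsg.charDegree (ψ : G → ℂ) := by

  classical
  have hp := pm_prime hM
  have hMp := pm_isPrime hM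
  letI := Fintype.ofFinite G
  have h1 : (Nat.card G).factorization p - 1 ≤ (charDegree (χ : G → ℂ)).factorization p :=
    (hp.pow_dvd_iff_le_factorization (charDegree_ne_zero χ)).1 hdiv
  have h2 := defect_le_one hM hB hχ (by omega)
  rw [hp.pow_dvd_iff_le_factorization (charDegree_ne_zero ψ)]
  have h3 := defect_le_degree hM hB hψ
  omega


end Cfsg.Agent.S4499
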