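import Cfsg.Statements.S4500
import Cfsg.Agent.Lib.H78.BF
import Cfsg.Agent.S4499
import Cfsg.Agent.Lib.H4.Burnside
import Cfsg.Agent.Lib.H78.PrincReal
import Cfsg.Agent.Lib.H78.Cong

set_option autoImplicit false
open Cfsg

namespace Cfsg.Agent.S4500


open H20.Loc H20.GA H20.Blk H20.Orth H20.Defect H20.Height H78.BF H78.PrincReal
open H18.CharBasic H18.CharOrtho

/-- one half of the statement: a nonprincipal character of degree a power of `q`. -/
theorem half {G : Type*} [Group G] [Finite G] [Nontrivial G] {p q r a b c : ℕ} (hp : p.Prime)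
    (hq : q.Prime) (hr : r.Prime) (hpq : p ≠ q) (hpr : p ≠ r) (hqr : q ≠ r) (ha : a ≤ 2)
    (hG : Nat.card G = p ^ a * q ^ b * r ^ c) :
    ∃ χ : IrrCharacter G, (χ : G → ℂ) ≠ (fun _ => 1) ∧ ∃ k : ℕ, charDegree (χ : G → ℂ) = q ^ k := by
  classical
  letI := Fintype.ofFinite G
  letI := Fintype.ofFinite (IrrCharacter G)
  -- it suffices to find a nonprincipal character of degree prime to `p` and `r`
  suffices hs : ∃ χ : IrrCharacter G, (χ : G → ℂ) ≠ (fun _ => 1) ∧ ¬ p ∣ charDegree (χ : G → ℂ) ∧
      ¬ r ∣ charDegree (χ : G → ℂ) by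
    obtain ⟨χ, hχ, h1, h2⟩ := hs
    refine ⟨χ, hχ, ?_⟩
    have h3 := charDegree_dvd_card χ
    rw [hG] at h3
    have h4 : Nat.Coprime (charDegree (χ : G → ℂ)) (r ^ c) :=
      Nat.Coprime.pow_right c ((Nat.Prime.coprime_iff_not_dvd hr).2 h2).symm
    have h5 : Nat.Coprime (charDegree (χ : G → ℂ)) (p ^ a) :=
      Nat.Coprime.pow_right a ((Nat.Prime.coprime_iff_not_dvd hp).2 h1).symm
    have h6 := h5.dvd_of_dvd_mul_left (h4.dvd_of_dvd_mul_right h3)
    obtain ⟨k, _, hk⟩ := (Nat.dvd_prime_pow hq).1 h6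
    exact ⟨k, hk⟩
  have hone : ∀ {s : ℕ}, s.Prime → ¬ s ∣ 1 := fun hs h => hs.one_lt.ne' (Nat.dvd_one.1 h)
  rcases Nat.eq_zero_or_pos a with ha0 | ha0
  · -- solvable case
    subst ha0
    rw [pow_zero, one_mul] at hG
    have hsol : Group.IsSolvable G := H4.Burnside.isSolvable_of_card_eq q r hq hr _ G rfl ⟨b, c, hG⟩
    have h1 : commutator G ≠ ⊤ := by
      intro h
      have := Group.IsSolvable.commutator_lt_top_of_nontrivial G
      rw [h] at this
      exact lt_irrefl _ this
    obtain ⟨g, hg⟩ : ∃ g : G, g ∉ commutator G := by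
      by_contra h2
      push Not at h2
      exact h1 (eq_top_iff.2 fun x _ => h2 x)
    obtain ⟨f, hf⟩ := H18.CharQuot.exists_hom_ne_one hg
    refine ⟨⟨fun x => (f x : ℂ), isIrrCharacter_of_hom f⟩, ?_, ?_, ?_⟩
    · intro h2
      apply hf
      exact Units.ext (congrFun h2 g)
    · have : charDegree (fun x => (f x : ℂ)) = 1 := by simp [charDegree]
      show ¬ p ∣ charDegree (fun x => (f x : ℂ))
      rw [this]
      exact hone hp
    · have : charDegree (fun x => (f x : ℂ)) = 1 := by simp [charDegree]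
      show ¬ r ∣ charDegree (fun x => (f x : ℂ))
      rw [this]
      exact hone hr
  · have hpG : p ∣ Nat.card G := by
      rw [hG, mul_assoc]
      exact Dvd.dvd.mul_right (dvd_pow_self p ha0.ne') _
    have hfac : (Nat.card G).factorization p = a := by
      rw [hG, Nat.factorization_mul (by
          exact mul_ne_zero (pow_ne_zero _ hp.ne_zero) (pow_ne_zero _ hq.ne_zero))
          (pow_ne_zero _ hr.ne_zero),
        Nat.factorization_mul (pow_ne_zero _ hp.ne_zero) (pow_ne_zero _ hq.ne_zero),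
        Finsupp.add_apply, Finsupp.add_apply, hp.factorization_pow, hq.factorization_pow,
        hr.factorization_pow]
      simp [Finsupp.single_apply, hpq.symm, hpr.symm]
    haveI : Fact p.Prime := ⟨hp⟩
    obtain ⟨x, hx⟩ := exists_prime_orderOf_dvd_card' p hpG
    obtain ⟨M, hM⟩ := H78.Cong.exists_isPModular hp
    have hMp := pm_isPrime hM
    set B := principalBlock M G with hBdef
    have hB : IsPBlock M B := isPBlock_principal
    have h1B : triv G ∈ B := triv_mem
    have hd1 : charDegree ((triv G : IrrCharacter G) : G → ℂ) = 1 := by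
      simp [charDegree, triv]
    -- the defect is `a`
    have hd : blockDefect p B = a := by
      have h2 := height_eq hM hB h1B
      have h3 := defect_le_degree hM hB h1B
      rw [hd1, Nat.factorization_one, hfac] at h3
      simp only [Finsupp.coe_zero, Pi.zero_apply, zero_add] at h3
      have h4 : blockDefect p B ≤ a := by rw [blockDefect, hfac]; omega
      omega
    -- all degrees are prime to `p`
    have hdeg : ∀ χ ∈ B, ¬ p ∣ charDegree (χ : G → ℂ) := by
      intro χ hχ hdvd
      have h2 : 1 ≤ (charDegree (χ : G → ℂ)).factorization p :=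
        (hp.dvd_iff_one_le_factorization (charDegree_ne_zero χ)).1 hdvd
      have h3 := Cfsg.Agent.S4499.defect_le_one hM hB hχ (by omega)
      have h4 : a = 1 := by omega
      -- now `a = 1` and `χ` has `p | χ(1)`
      have hh := height_eq hM hB hχ
      obtain ⟨n, hn, hn2, hpos, hsum⟩ := exists_matrix hM hB hχ
      have ht : blockHeight p B (χ : G → ℂ) ≠ 0 := by omega
      obtain ⟨ψ, hψ, hψ0⟩ := exists_height_zero hM hB
      have hψn := (hn2 ψ).2 ⟨hψ, hψ0⟩
      have hne : ψ ≠ χ := by
        rintro rfl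
        exact ht hψ0
      have h1' : (n χ) ^ 2 + (n ψ) ^ 2 ≤ ∑ ψ, n ψ ^ 2 := by
        have h2 : ∑ φ ∈ ({χ, ψ} : Finset (IrrCharacter G)), n φ ^ 2 ≤ ∑ ψ, n ψ ^ 2 :=
          Finset.sum_le_sum_of_subset_of_nonneg (Finset.subset_univ _) (fun _ _ _ => sq_nonneg _)
        rwa [Finset.sum_pair (fun h => hne h.symm)] at h2
      have hpz : (0 : ℤ) < p := by exact_mod_cast hp.pos
      have h5 : ∑ ψ, n ψ ^ 2 ≤ n χ := by
        have h6 : (p : ℤ) ^ blockHeight p B (χ : G → ℂ) * ∑ ψ, n ψ ^ 2 ≤
            (p : ℤ) ^ blockHeight p B (χ : G → ℂ) * n χ := by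
          rw [hsum]
          apply mul_le_mul_of_nonneg_right _ hpos.le
          exact pow_le_pow_right₀ (by omega) (by omega)
        exact le_of_mul_le_mul_left h6 (pow_pos hpz _)
      have h7 : 0 < (n ψ) ^ 2 := by
        have : n ψ ≠ 0 := fun h5 => hψn (h5 ▸ dvd_zero _)
        positivity
      nlinarith
    -- some nonprincipal character of degree prime to `r`
    by_contra hcon
    push Not at hcon
    have hall : ∀ χ ∈ B, χ ≠ triv G → r ∣ charDegree (χ : G → ℂ) := by
      intro χ hχ hne
      apply hcon χ ?_ (hdeg χ hχ)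
      intro h
      exact hne (Subtype.ext h)
    have hw := weak_orth hM (S := B) (isUnion_of_isPBlock hB) (x := (1 : G)) (y := x)
      (by rw [orderOf_one]; exact hone hp) (by rw [hx])
    rw [← Finset.add_sum_erase _ _ (Finset.mem_univ (triv G)), if_pos h1B] at hw
    have h5 : ((triv G : IrrCharacter G) : G → ℂ) 1 *
        (starRingEnd ℂ) (((triv G : IrrCharacter G) : G → ℂ) x) = 1 := by simp [triv]
    rw [h5] at hw
    have h6 : IsIntegral ℤ ((1 : ℂ) / (r : ℂ)) := by
      have h7 : (1 : ℂ) / (r : ℂ) = - ∑ χ ∈ Finset.univ.erase (triv G),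
          (if χ ∈ B then ((charDegree (χ : G → ℂ) / r : ℕ) : ℂ) *
            (starRingEnd ℂ) ((χ : G → ℂ) x) else 0) := by
        have hr0 : (r : ℂ) ≠ 0 := by exact_mod_cast hr.ne_zero
        have h9 : (r : ℂ) * ∑ χ ∈ Finset.univ.erase (triv G),
            (if χ ∈ B then ((charDegree (χ : G → ℂ) / r : ℕ) : ℂ) *
              (starRingEnd ℂ) ((χ : G → ℂ) x) else 0) =
            ∑ χ ∈ Finset.univ.erase (triv G),
              (if χ ∈ B then (χ : G → ℂ) 1 * (starRingEnd ℂ) ((χ : G → ℂ) x) else 0) := by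
          rw [Finset.mul_sum]
          refine Finset.sum_congr rfl fun χ hχ => ?_
          have hne := Finset.ne_of_mem_erase hχ
          by_cases h8 : χ ∈ B
          · rw [if_pos h8, if_pos h8, ← mul_assoc, ← Nat.cast_mul,
              Nat.mul_div_cancel' (hall χ h8 hne), charDegree_irr]
          · rw [if_neg h8, if_neg h8, mul_zero]
        have h10 := eq_neg_of_add_eq_zero_left hw
        rw [← h9] at h10
        rw [div_eq_iff hr0, h10]
        ring
      rw [h7]
      refine (IsIntegral.sum _ fun χ _ => ?_).neg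
      split_ifs
      · refine IsIntegral.mul ?_ ?_
        · obtain ⟨m, hm⟩ : ∃ m, m = charDegree (χ : G → ℂ) / r := ⟨_, rfl⟩
          rw [← hm]
          have := (isIntegral_algebraMap (R := ℤ) (A := ℂ) (x := (m : ℤ)))
          simpa using this
        · exact (irr_int χ x).map (starRingEnd ℂ).toIntAlgHom
      · exact isIntegral_zero
    have h7 : ((1 : ℕ) : ℂ) / (r : ℂ) = (1 : ℂ) / (r : ℂ) := by rw [Nat.cast_one]
    rw [← h7] at h6
    exact hone hr (exists_nat_of_div_isIntegral hr.ne_zero h6)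


/-- Let G be a non-trivial finite group of order p^a · q^b · r^c with p, q, r distinct primes and a ≤ 2. Then G has a non-principal irreducible character whose degree is a power of q, and a non-principal irreducible character whose degree is a power of r; the power may be the zeroth, so a non-principal linear character serves for both. -/
theorem result {G : Type*} [Group G] [Finite G] [Nontrivial G] (p q r a b c : ℕ) (hp : p.Prime) (hq : q.Prime) (hr : r.Prime) (hpq : p ≠ q) (hpr : p ≠ r) (hqr : q ≠ r) (ha : a ≤ 2) (hG : Nat.card G = p ^ a * q ^ b * r ^ c) : (∃ χ : Cfsg.IrrCharacter G, (χ : G → ℂ) ≠ (fun _ => 1) ∧ ∃ k : ℕ, Cfsg.charDegree (χ : G → ℂ) = q ^ k) ∧ ∃ χ : Cfsg.IrrCharacter G, (χ : G → ℂ) ≠ (fun _ => 1) ∧ ∃ k : ℕ, Cfsg.charDegree (χ : G → ℂ) = r ^ k := by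

  constructor
  · exact half hp hq hr hpq hpr hqr ha hG
  · exact half (b := c) (c := b) hp hr hq hpr hpq hqr.symm ha (by rw [hG]; ring)


end Cfsg.Agent.S4500
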