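import Cfsg.Statements.S1582
import Cfsg.Agent.Lib.H86.U43D
import Cfsg.Agent.Lib.H86.CoStab
import Cfsg.Agent.S0280
import Cfsg.Agent.S1580

set_option autoImplicit false
open Cfsg

namespace Cfsg.Agent.S1582

open H86.UCode H86.CoSets H86.CoStab H9.CoMat H40.PermCode MulAction
open H33.Leech2 H33.Leech4 H33.Leech7 H33.Leech9
open scoped Pointwise

/-- code of `(5, 1, …, 1)` -/
noncomputable def eU0 : ℕ := 9 * ones + 4 <<< 368

/-- code of `(4, 4)` -/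
noncomputable def eV0 : ℕ := 8 * ones + 4 + 4 <<< 368

/-- code of another `(4, 4)` -/
noncomputable def eX0 : ℕ := 8 * ones + 4 <<< 16 + 4 <<< 368

/-- the vector `(5, 1, …, 1)` -/
noncomputable def U : leechLattice := ⟨vec eU0, inLat_spec (by decide +kernel)⟩

/-- the vector `(4, 4)` -/
noncomputable def V : leechLattice := ⟨vec eV0, inLat_spec (by decide +kernel)⟩

/-- another vector `(4, 4)` -/
noncomputable def X : leechLattice := ⟨vec eX0, inLat_spec (by decide +kernel)⟩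

theorem hU : sqNorm (U : GolayPt → ℤ) = 48 := by
  show sqNorm (vec eU0) = 48
  decide +kernel

theorem hV : sqNorm (V : GolayPt → ℤ) = 32 := by
  show sqNorm (vec eV0) = 32
  decide +kernel

theorem hUV : sqNorm ((U - V) : GolayPt → ℤ) = 32 := by
  show sqNorm (vec eU0 - vec eV0) = 32
  decide +kernel

theorem hX : sqNorm (X : GolayPt → ℤ) = 32 := by
  show sqNorm (vec eX0) = 32
  decide +kernel

theorem hUX : sqNorm ((U - X) : GolayPt → ℤ) = 32 := by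
  show sqNorm (vec eU0 - vec eX0) = 32
  decide +kernel

theorem hVX : dotInt (V : GolayPt → ℤ) (X : GolayPt → ℤ) = 16 := by
  show dotInt (vec eV0) (vec eX0) = 16
  decide +kernel

/-- the standard stabiliser -/
noncomputable abbrev S : Subgroup Co0 := stabilizer Co0 U ⊓ stabilizer Co0 V ⊓ stabilizer Co0 X

theorem mem {B C : List ℕ} (h : okM B C = true) (h1 : rowOK eU0 B eU0 = true) (h2 : rowOK eV0 B eV0 = true)
    (h3 : rowOK eX0 B eX0 = true) : ofM B C h ∈ S := by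
  refine ⟨⟨?_, ?_⟩, ?_⟩
  · exact (rep_ofM h).fix (wf_of_ok h) (v := U) rfl (by decide +kernel) h1
  · exact (rep_ofM h).fix (wf_of_ok h) (v := V) rfl (by decide +kernel) h2
  · exact (rep_ofM h).fix (wf_of_ok h) (v := X) rfl (by decide +kernel) h3

theorem to_std {u v x : leechLattice} (hu : sqNorm (u : GolayPt → ℤ) = 48)
    (hv : sqNorm (v : GolayPt → ℤ) = 32 ∧ sqNorm ((u - v) : GolayPt → ℤ) = 32)
    (hx : sqNorm (x : GolayPt → ℤ) = 32 ∧ sqNorm ((u - x) : GolayPt → ℤ) = 32 ∧ dotInt (v : GolayPt → ℤ) (x : GolayPt → ℤ) = 16) :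
    ∃ g : Co0, g • u = A + W0 ∧ g • v = A ∧ g • x = X0 := by
  obtain ⟨g0, h01, h02, h03⟩ := toM hu hv
  obtain ⟨g1, h11, h12, h13⟩ := tripleM ((h03 x).1 hx)
  refine ⟨g1 * g0, ?_, ?_, ?_⟩
  · have h1 : u = v + (u - v) := by abel
    have h2 : (g1 * g0) • (v + (u - v)) = (g1 * g0) • v + (g1 * g0) • (u - v) := map_add (H9.LeechGood.co0Equiv (g1 * g0)) _ _
    rw [← h1] at h2
    rw [h2, mul_smul, h01, h11, mul_smul, h02, h12]
  · rw [mul_smul, h01, h11]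
  · rw [mul_smul, h13]

theorem triple {u v x u' v' x' : leechLattice} (hu : sqNorm (u : GolayPt → ℤ) = 48)
    (hv : sqNorm (v : GolayPt → ℤ) = 32 ∧ sqNorm ((u - v) : GolayPt → ℤ) = 32)
    (hx : sqNorm (x : GolayPt → ℤ) = 32 ∧ sqNorm ((u - x) : GolayPt → ℤ) = 32 ∧ dotInt (v : GolayPt → ℤ) (x : GolayPt → ℤ) = 16)
    (hu' : sqNorm (u' : GolayPt → ℤ) = 48)
    (hv' : sqNorm (v' : GolayPt → ℤ) = 32 ∧ sqNorm ((u' - v') : GolayPt → ℤ) = 32)
    (hx' : sqNorm (x' : GolayPt → ℤ) = 32 ∧ sqNorm ((u' - x') : GolayPt → ℤ) = 32 ∧ dotInt (v' : GolayPt → ℤ) (x' : GolayPt → ℤ) = 16) :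
    ∃ g : Co0, g • u = u' ∧ g • v = v' ∧ g • x = x' := by
  obtain ⟨g, h1, h2, h3⟩ := to_std hu hv hx
  obtain ⟨g', h1', h2', h3'⟩ := to_std hu' hv' hx'
  exact ⟨g'⁻¹ * g, by rw [mul_smul, h1, inv_smul_eq_iff, h1'], by rw [mul_smul, h2, inv_smul_eq_iff, h2'],
    by rw [mul_smul, h3, inv_smul_eq_iff, h3']⟩

theorem card_S : Nat.card S ≤ 3265920 := by
  refine card_inf_le (stabilizer Co0 U ⊓ stabilizer Co0 V) X {x : leechLattice | sqNorm (x : GolayPt → ℤ) = 32 ∧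
    sqNorm ((U - x) : GolayPt → ℤ) = 32 ∧ dotInt (V : GolayPt → ℤ) (x : GolayPt → ℤ) = 16}
    (a := 898128000) (c := 275) ?_ (Cfsg.Agent.S1580.result U V hU ⟨hV, hUV⟩).1 (card_mcl hU ⟨hV, hUV⟩) (by norm_num) (by norm_num)
  rintro x hx
  obtain ⟨g, hg1, hg2, hg3⟩ := triple hU ⟨hV, hUV⟩ ⟨hX, hUX, hVX⟩ hU ⟨hV, hUV⟩ hx
  exact ⟨g, ⟨hg1, hg2⟩, hg3⟩

open H86.U43D in
/-- the generators -/
noncomputable def gs : ℕ → S := fun j =>
  [(⟨ofM B0 C0 hO0, mem _ (by decide +kernel) (by decide +kernel) (by decide +kernel)⟩ : S),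
    ⟨ofM B1 C1 hO1, mem _ (by decide +kernel) (by decide +kernel) (by decide +kernel)⟩,
    ⟨ofM B2 C2 hO2, mem _ (by decide +kernel) (by decide +kernel) (by decide +kernel)⟩,
    ⟨ofM B3 C3 hO3, mem _ (by decide +kernel) (by decide +kernel) (by decide +kernel)⟩].getD j 1

theorem smul_gs : ∀ j < 4, ∀ k < 280, gs j • XS 4 H86.U43D.yT H86.U43D.tT k = XS 4 H86.U43D.yT H86.U43D.tT (tab 16 (H86.U43D.piL.getD j 0) k) := by
  intro j hj k hk
  interval_cases j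
  · exact smul_XS H86.U43D.hY H86.U43D.hT (rep_ofM H86.U43D.hO0) (wf_of_ok H86.U43D.hO0) H86.U43D.hP0 H86.U43D.hS0 hk
  · exact smul_XS H86.U43D.hY H86.U43D.hT (rep_ofM H86.U43D.hO1) (wf_of_ok H86.U43D.hO1) H86.U43D.hP1 H86.U43D.hS1 hk
  · exact smul_XS H86.U43D.hY H86.U43D.hT (rep_ofM H86.U43D.hO2) (wf_of_ok H86.U43D.hO2) H86.U43D.hP2 H86.U43D.hS2 hk
  · exact smul_XS H86.U43D.hY H86.U43D.hT (rep_ofM H86.U43D.hO3) (wf_of_ok H86.U43D.hO3) H86.U43D.hP3 H86.U43D.hS3 hk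

theorem card_psu (K : Type) [Field K] [Fintype K] (hK : Fintype.card K = 3 ^ 2) : Nat.card (PSU 4 K 3) = 3265920 := by
  have h := Cfsg.Agent.S0280.result (F := K) (q := 3) hK 4 (by norm_num)
  simp only [Finset.prod_range_succ, Finset.prod_range_zero] at h
  rw [if_pos (by decide), if_neg (by decide), if_pos (by decide), if_neg (by decide)] at h
  have hg : Nat.gcd 4 (3 + 1) = 4 := by decide
  rw [hg] at h
  norm_num at h
  omega

/-- The point stabiliser in the rank-3 action of the McLaughlin group on 275 points is isomorphic to PSU(4, 3). -/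
theorem result (u v x : ↥Cfsg.leechLattice) (hu : Cfsg.sqNorm (u : Cfsg.GolayPt → ℤ) = 48) (hv : Cfsg.sqNorm (v : Cfsg.GolayPt → ℤ) = 32 ∧ Cfsg.sqNorm ((u - v) : Cfsg.GolayPt → ℤ) = 32) (hx : x ∈ {x : ↥Cfsg.leechLattice | Cfsg.sqNorm (x : Cfsg.GolayPt → ℤ) = 32 ∧ Cfsg.sqNorm ((u - x) : Cfsg.GolayPt → ℤ) = 32 ∧ Cfsg.dotInt (v : Cfsg.GolayPt → ℤ) (x : Cfsg.GolayPt → ℤ) = 16}) (F : Type) [Field F] [Fintype F] (hF : Fintype.card F = 9) : Nonempty (↥(MulAction.stabilizer ↥Cfsg.Co0 u ⊓ MulAction.stabilizer ↥Cfsg.Co0 v ⊓ MulAction.stabilizer ↥Cfsg.Co0 x) ≃* Cfsg.PSU 4 F 3) := by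
  obtain ⟨g, hg1, hg2, hg3⟩ := triple hu hv hx hU ⟨hV, hUV⟩ ⟨hX, hUX, hVX⟩
  obtain ⟨D⟩ := H86.UField.fd9 (F := F) hF
  obtain ⟨e⟩ := psu_codes D (n := 4) (by norm_num) (by norm_num) (S := S) 280 H86.U43D.wT H86.U43D.iT
    (XS 4 H86.U43D.yT H86.U43D.tT) H86.U43D.hC H86.U43D.hI (XS_inj H86.U43D.hY H86.U43D.hT) 4 (by norm_num) gs
    H86.U43D.ctrL H86.U43D.cL H86.U43D.piL H86.U43D.hG smul_gs H86.U43D.parT H86.U43D.labT H86.U43D.depT H86.U43D.hB H86.U43D.hK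
    (by rw [card_psu F hF]; exact card_S)
  exact ⟨(equiv3 hg1 hg2 hg3).trans e⟩

end Cfsg.Agent.S1582
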