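import Cfsg.Statements.S3780
import Mathlib.Algebra.CharP.Lemmas
import Mathlib.Algebra.Group.Hom.Basic
import Mathlib.Tactic

set_option autoImplicit false
open Cfsg

namespace Cfsg.Agent.S3780

theorem card_comap_le {M : Type*} [AddCommGroup M] [Finite M] (g : M →+ M) (K : AddSubgroup M) :
    Nat.card (K.comap g) ≤ Nat.card g.ker * Nat.card K := by
  have h1 : Nat.card (K.comap g) * (K.comap g).index = Nat.card M := AddSubgroup.card_mul_index _
  have h2 : Nat.card g.ker * Nat.card g.range = Nat.card M := by
    rw [← AddSubgroup.index_ker, AddSubgroup.card_mul_index]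
  have h3 : Nat.card ↥(K ⊓ g.range) * K.relIndex g.range = Nat.card g.range := by
    have := AddSubgroup.relIndex_mul_relIndex (⊥ : AddSubgroup M) (K ⊓ g.range) g.range bot_le inf_le_right
    rw [AddSubgroup.relIndex_bot_left, AddSubgroup.relIndex_bot_left, AddSubgroup.inf_relIndex_right] at this
    exact this
  rw [AddSubgroup.index_comap] at h1
  have hr : 0 < K.relIndex g.range :=
    Nat.pos_of_dvd_of_pos (AddSubgroup.relIndex_dvd_card _ _) Nat.card_pos
  have h4 : Nat.card (K.comap g) = Nat.card g.ker * Nat.card ↥(K ⊓ g.range) := by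
    apply Nat.eq_of_mul_eq_mul_right hr
    rw [h1, ← h2, ← h3]; ring
  rw [h4]
  exact Nat.mul_le_mul_left _ (AddSubgroup.card_le_of_le inf_le_left)

/-- iterated kernels -/
def kerIter {M : Type*} [AddCommGroup M] (g : M →+ M) : ℕ → AddSubgroup M
  | 0 => ⊥
  | k + 1 => (kerIter g k).comap g

theorem card_kerIter_le {M : Type*} [AddCommGroup M] [Finite M] (g : M →+ M) (k : ℕ) :
    Nat.card (kerIter g k) ≤ (Nat.card g.ker) ^ k := by
  induction k with
  | zero => simp [kerIter]
  | succ k ih =>
    rw [pow_succ, mul_comm]
    exact (card_comap_le g _).trans (Nat.mul_le_mul_left _ ih)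

theorem mem_kerIter {M : Type*} [AddCommGroup M] (g : M →+ M) (k : ℕ) (x : M) :
    x ∈ kerIter g k ↔ g^[k] x = 0 := by
  induction k generalizing x with
  | zero => simp [kerIter]
  | succ k ih =>
    rw [Function.iterate_succ_apply, ← ih]
    rfl

theorem ring_lemma {R : Type*} [Ring R] {p : ℕ} (hp : p.Prime) (b : R) (hb : b ^ p = 1)
    (hpR : (p : R) = 0) : (b - 1) ^ p = 0 := by
  have hcomm : Commute b (-1 : R) := (Commute.one_right b).neg_right
  obtain ⟨r, hr⟩ := hcomm.exists_add_pow_prime_eq hp
  rw [sub_eq_add_neg, hr, hb, hpR]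
  have hneg : (-1 : R) ^ p = -1 := by
    rcases hp.eq_two_or_odd' with h2 | ho
    · subst h2
      have h4 : (1 : R) + 1 = 0 := by
        have : (1 : R) + 1 = ((2 : ℕ) : R) := by norm_num
        rw [this]; exact hpR
      rw [neg_one_sq]
      exact eq_neg_of_add_eq_zero_left h4
    · exact ho.neg_one_pow
  rw [hneg]; simp

theorem result {V : Type*} [CommGroup V] [Finite V] {p : ℕ} [Fact p.Prime] (hV : IsPGroup p V) (α : MulAut V) (hα : orderOf α = p) (n : ℕ) (hfix : Nat.card {v : V // α v = v} = p ^ n) : ∃ S : Finset V, S.card ≤ p * n ∧ Subgroup.closure (S : Set V) = ⊤ := by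
  classical
  have hp : p.Prime := Fact.out
  let W : Subgroup V := (powMonoidHom p : V →* V).ker
  have hW : ∀ w : V, w ∈ W ↔ w ^ p = 1 := fun w => by
    simp only [W, MonoidHom.mem_ker, powMonoidHom_apply]
  let P : Subgroup V := (powMonoidHom p : V →* V).range
  -- |W| = index of P
  have hidx : P.index = Nat.card W := by
    have h1 : Nat.card W * Nat.card P = Nat.card V := by
      rw [← Subgroup.index_ker, Subgroup.card_mul_index]
    have h2 : Nat.card P * P.index = Nat.card V := Subgroup.card_mul_index _
    have h3 : 0 < Nat.card P := Nat.card_pos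
    apply Nat.eq_of_mul_eq_mul_left h3
    rw [h2, ← h1, mul_comm]
  -- α restricted to W
  have hαW : ∀ w : W, α (w : V) ∈ W := by
    intro w
    rw [hW, ← map_pow, (hW _).1 w.2, map_one]
  let αW : W →* W := (α.toMonoidHom.comp W.subtype).codRestrict W hαW
  have hαWc : ∀ w : W, ((αW w : W) : V) = α w := fun w => rfl
  let b : AddMonoid.End (Additive W) := MonoidHom.toAdditive αW
  have hb : ∀ (k : ℕ) (w : W), ((Additive.toMul ((b ^ k : AddMonoid.End (Additive W)) (Additive.ofMul w)) : W) : V) =
      (α ^ k) (w : V) := by
    intro k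
    induction k with
    | zero => intro w; rfl
    | succ k ih =>
      intro w
      rw [pow_succ, pow_succ]
      have h1 : (b ^ k * b : AddMonoid.End (Additive W)) (Additive.ofMul w) =
          (b ^ k : AddMonoid.End (Additive W)) (Additive.ofMul (αW w)) := rfl
      rw [h1, ih]
      rfl
  have hpz : ∀ x : Additive W, p • x = 0 := by
    intro x
    have h1 : (Additive.toMul x : W) ^ p = 1 := by
      ext
      exact (hW _).1 (Additive.toMul x).2
    have : Additive.ofMul ((Additive.toMul x : W) ^ p) = p • x := rfl
    rw [← this, h1]; rfl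
  let f : AddMonoid.End (Additive W) := b - 1
  have hfp : (f ^ p : AddMonoid.End (Additive W)) = 0 := by
    apply ring_lemma hp
    · have h2 : (α ^ p) = 1 := by rw [← hα]; exact pow_orderOf_eq_one α
      apply AddMonoidHom.ext
      intro w
      have h1 := hb p (Additive.toMul w)
      rw [h2] at h1
      have h3 : (Additive.toMul ((b ^ p : AddMonoid.End (Additive W)) w) : W) = Additive.toMul w := by
        ext; exact h1
      exact Additive.toMul.injective h3
    · apply AddMonoidHom.ext
      intro w
      have h1 : ((p : AddMonoid.End (Additive W))) w = p • w := by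
        have := congrArg (fun g : AddMonoid.End (Additive W) => g w)
          (nsmul_one (A := AddMonoid.End (Additive W)) p)
        exact this.symm
      exact h1.trans (hpz w)
  let f' : Additive W →+ Additive W := f
  have hfa : ∀ x : Additive W, f' x = b x - x := fun x => rfl
  have hkf : Nat.card (AddMonoidHom.ker f') ≤ p ^ n := by
    rw [← hfix]
    have hmem : ∀ x : AddMonoidHom.ker f', α ((Additive.toMul (x : Additive W) : W) : V) =
        ((Additive.toMul (x : Additive W) : W) : V) := by
      intro x
      have h1 : f' (x : Additive W) = 0 := x.2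
      rw [hfa, sub_eq_zero] at h1
      exact congrArg (fun z : Additive W => ((Additive.toMul z : W) : V)) h1
    refine Nat.card_le_card_of_injective (fun x => ⟨_, hmem x⟩) ?_
    intro x y hxy
    have h1 := congrArg Subtype.val hxy
    have h2 : (Additive.toMul (x : Additive W) : W) = Additive.toMul (y : Additive W) := Subtype.ext h1
    exact Subtype.ext (Additive.toMul.injective h2)
  have hWcard : Nat.card W ≤ p ^ (p * n) := by
    have h1 := card_kerIter_le f' p
    have h2 : kerIter f' p = ⊤ := by
      rw [eq_top_iff]
      intro x _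
      rw [mem_kerIter]
      have h3 : (f ^ p : AddMonoid.End (Additive W)) x = f'^[p] x := by
        rw [AddMonoid.End.coe_pow]; rfl
      rw [← h3, hfp]; rfl
    rw [h2, AddSubgroup.card_top] at h1
    have h3 : Nat.card (Additive W) = Nat.card W := rfl
    rw [h3] at h1
    refine h1.trans ?_
    rw [mul_comm, pow_mul]
    exact Nat.pow_le_pow_left hkf p
  -- generating sets modulo P
  have hgen : ∀ k, ∃ S : Finset V, S.card ≤ k ∧ (Subgroup.closure (S : Set V) ⊔ P = ⊤ ∨
      p ^ k * (Subgroup.closure (S : Set V) ⊔ P).index ≤ P.index) := by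
    intro k
    induction k with
    | zero =>
      refine ⟨∅, by simp, Or.inr ?_⟩
      simp
    | succ k ih =>
      obtain ⟨S, hS, hS'⟩ := ih
      rcases hS' with h | h
      · exact ⟨S, by omega, Or.inl h⟩
      · by_cases htop : Subgroup.closure (S : Set V) ⊔ P = ⊤
        · exact ⟨S, by omega, Or.inl htop⟩
        · obtain ⟨x, hx⟩ : ∃ x, x ∉ Subgroup.closure (S : Set V) ⊔ P := by
            by_contra hne
            push Not at hne
            exact htop (eq_top_iff.2 fun x _ => hne x)
          refine ⟨insert x S, (Finset.card_insert_le _ _).trans (by omega), Or.inr ?_⟩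
          set A := Subgroup.closure (S : Set V) ⊔ P with hA
          set B := Subgroup.closure ((insert x S : Finset V) : Set V) ⊔ P with hB
          have hAB : A ≤ B := by
            apply sup_le_sup_right
            apply Subgroup.closure_mono
            simp
          have hxB : x ∈ B := by
            apply (le_sup_left : _ ≤ B)
            apply Subgroup.subset_closure
            simp
          have hmul : A.relIndex B * B.index = A.index := Subgroup.relIndex_mul_index hAB
          have hpr : p ≤ A.relIndex B := by
            have hne : A.relIndex B ≠ 1 := by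
              intro h1
              exact hx (Subgroup.relIndex_eq_one.1 h1 hxB)
            obtain ⟨m, hm⟩ := IsPGroup.iff_card.1 hV
            have h3 : A.relIndex B ∣ p ^ m := by
              rw [← hm]
              exact (Subgroup.relIndex_dvd_card _ _).trans (Subgroup.card_subgroup_dvd_card _)
            obtain ⟨t, _, ht⟩ := (Nat.dvd_prime_pow hp).1 h3
            rw [ht]
            exact Nat.le_self_pow (by rintro rfl; exact hne (by simpa using ht)) p
          calc p ^ (k + 1) * B.index = p ^ k * (p * B.index) := by ring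
            _ ≤ p ^ k * (A.relIndex B * B.index) :=
                Nat.mul_le_mul_left _ (Nat.mul_le_mul_right _ hpr)
            _ = p ^ k * A.index := by rw [hmul]
            _ ≤ P.index := h
  obtain ⟨S, hS, hS'⟩ := hgen (p * n)
  refine ⟨S, hS, ?_⟩
  have htop : Subgroup.closure (S : Set V) ⊔ P = ⊤ := by
    rcases hS' with h | h
    · exact h
    · rw [hidx] at h
      have h1 : p ^ (p * n) * (Subgroup.closure (S : Set V) ⊔ P).index ≤ p ^ (p * n) * 1 := by
        rw [mul_one]; exact h.trans hWcard
      have h2 := Nat.le_of_mul_le_mul_left h1 (Nat.pow_pos hp.pos)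
      have h3 : (Subgroup.closure (S : Set V) ⊔ P).index ≠ 0 := Subgroup.index_ne_zero_of_finite
      exact Subgroup.index_eq_one.1 (by omega)
  -- Frattini type argument
  set H := Subgroup.closure (S : Set V) with hH
  by_contra hne
  -- V/H: p-th power map is surjective
  have hnt : Nontrivial (V ⧸ H) := QuotientGroup.nontrivial_iff.2 hne
  have hsurj : Function.Surjective (fun x : V ⧸ H => x ^ p) := by
    intro y
    obtain ⟨v, rfl⟩ := QuotientGroup.mk_surjective y
    have hv : v ∈ H ⊔ P := by rw [htop]; trivial
    obtain ⟨h, hh, q, hq, rfl⟩ := Subgroup.mem_sup.1 hv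
    obtain ⟨u, rfl⟩ := hq
    refine ⟨(u : V ⧸ H), ?_⟩
    have h1 : ((h * (powMonoidHom p) u : V) : V ⧸ H) = ((powMonoidHom p u : V) : V ⧸ H) := by
      rw [QuotientGroup.mk_mul, (QuotientGroup.eq_one_iff h).2 hh, one_mul]
    rw [h1]
    simp
  have hinj : Function.Injective (fun x : V ⧸ H => x ^ p) := Finite.injective_iff_surjective.2 hsurj
  have hVH : IsPGroup p (V ⧸ H) := hV.to_quotient H
  obtain ⟨m, hm⟩ := IsPGroup.iff_card.1 hVH
  have hm0 : m ≠ 0 := by
    rintro rfl
    have h1 : Nat.card (V ⧸ H) = 1 := by simpa using hm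
    exact absurd h1 (ne_of_gt (Finite.one_lt_card))
  have hdvd : p ∣ Nat.card (V ⧸ H) := by rw [hm]; exact dvd_pow_self p hm0
  obtain ⟨x, hx⟩ := exists_prime_orderOf_dvd_card' p hdvd
  have h1 : x ^ p = 1 := by rw [← hx]; exact pow_orderOf_eq_one x
  have h2 : x = 1 := hinj (by simpa using h1)
  rw [h2, orderOf_one] at hx
  exact hp.one_lt.ne hx

end Cfsg.Agent.S3780
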