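import Cfsg.Statements.S3997
import Mathlib

set_option autoImplicit false
open Cfsg

namespace Cfsg.Agent.S3997

/-- Groups of the same order type admit an order-preserving bijection. -/
lemma exists_orderEquiv {G H : Type*} [Group G] [Finite G] [Group H] [Finite H]
    (hT : (∀ m : ℕ, Nat.card {g : G // orderOf g = m} = Nat.card {h : H // orderOf h = m})) :
    ∃ e : G ≃ H, ∀ g, orderOf (e g) = orderOf g := by
  have h1 : ∀ m : ℕ, Nonempty ({g : G // orderOf g = m} ≃ {h : H // orderOf h = m}) :=
    fun m => Finite.card_eq.1 (hT m)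
  let f := fun m => Classical.choice (h1 m)
  refine ⟨(Equiv.sigmaFiberEquiv (orderOf : G → ℕ)).symm.trans
    ((Equiv.sigmaCongrRight f).trans (Equiv.sigmaFiberEquiv (orderOf : H → ℕ))), ?_⟩
  intro g
  simp only [Equiv.trans_apply, Equiv.sigmaCongrRight_apply]
  exact (f _ _).2

lemma isPElem_of_mem {G : Type*} [Group G] [Finite G] {p : ℕ} [Fact p.Prime] (P : Sylow p G)
    {g : G} (hg : g ∈ (P : Subgroup G)) : ∃ k, orderOf g = p ^ k := by
  obtain ⟨k, hk⟩ := IsPGroup.iff_orderOf.1 P.2 ⟨g, hg⟩
  refine ⟨k, ?_⟩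
  rwa [Subgroup.orderOf_mk] at hk

lemma mem_of_isPElem {G : Type*} [Group G] [Finite G] {p : ℕ} [Fact p.Prime] (P : Sylow p G)
    (hP : (P : Subgroup G).Normal) {g : G} {k : ℕ} (hg : orderOf g = p ^ k) :
    g ∈ (P : Subgroup G) := by
  have h1 : IsPGroup p (Subgroup.zpowers g) := by
    apply IsPGroup.of_card (n := k)
    rw [Nat.card_zpowers, hg]
  obtain ⟨Q, hQ⟩ := h1.exists_le_sylow
  have : Subsingleton (Sylow p G) := @Unique.instSubsingleton _ (Sylow.unique_of_normal P hP)
  rw [Subsingleton.elim P Q]
  exact hQ (Subgroup.mem_zpowers g)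

/-- Let G and H be finite groups with the same order type: for every m they have the same number of elements of order m. If G is nilpotent then so is H. -/
theorem result {G H : Type*} [Group G] [Finite G] [Group H] [Finite H] (hT : (∀ m : ℕ, Nat.card {g : G // orderOf g = m} = Nat.card {h : H // orderOf h = m})) (hG : Group.IsNilpotent G) :
    Group.IsNilpotent H := by
  obtain ⟨e, he⟩ := exists_orderEquiv hT
  have hGs := ((Group.isNilpotent_of_finite_tfae (G := G)).out 0 3).1 hG
  apply ((Group.isNilpotent_of_finite_tfae (G := H)).out 0 3).2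
  intro p hp Q
  let P : Sylow p G := default
  have hP := hGs p hp P
  have hcard : Nat.card P = Nat.card Q := by
    rw [P.card_eq_multiplicity, Q.card_eq_multiplicity, Nat.card_congr e]
  have hset : ((P : Subgroup G) : Set G) = {g : G | ∃ k, orderOf g = p ^ k} := by
    ext g
    exact ⟨fun hg => isPElem_of_mem P hg, fun ⟨k, hk⟩ => mem_of_isPElem P hP hk⟩
  have hcnt : Set.ncard {g : H | ∃ k, orderOf g = p ^ k} = Nat.card P := by
    have h1 : Nat.card P = Set.ncard {g : G | ∃ k, orderOf g = p ^ k} := by
      rw [← hset]; rfl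
    rw [h1]
    symm
    apply Nat.card_congr
    exact e.subtypeEquiv (fun g => by simp [he])
  have hsetQ : ((Q : Subgroup H) : Set H) = {g : H | ∃ k, orderOf g = p ^ k} := by
    apply Set.eq_of_subset_of_ncard_le
    · intro g hg
      exact isPElem_of_mem Q hg
    · rw [hcnt, hcard]
      exact le_of_eq rfl
    · exact Set.toFinite _
  have hmem : ∀ g : H, g ∈ (Q : Subgroup H) ↔ ∃ k, orderOf g = p ^ k := by
    intro g
    rw [← SetLike.mem_coe, hsetQ]
    rfl
  constructor
  intro x hx y
  rw [hmem] at hx ⊢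
  have : orderOf (y * x * y⁻¹) = orderOf x := by
    have := orderOf_injective (MulAut.conj y).toMonoidHom (MulAut.conj y).injective x
    simpa using this
  rwa [this]

end Cfsg.Agent.S3997
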