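import Cfsg.Statements.S3974
import Cfsg.Agent.Lib.H69.SchurRank

set_option autoImplicit false
universe u v
open Cfsg

namespace Cfsg.Agent.S3974

open H69.SchurUniv H69.SchurCover H69.SchurRank

theorem exists_nontrivial_hom {X Y : Type*} [AddCommGroup X] [AddCommGroup Y] [Finite X] [Finite Y]
    (p : ℕ) (hp : p.Prime) (hX : p ∣ Nat.card X) (hY : p ∣ Nat.card Y) :
    ∃ h : X →+ Y, ∃ x, h x ≠ 0 := by
  obtain ⟨I, _, n, hn, ⟨e⟩⟩ := AddCommGroup.equiv_directSum_zmod_of_finite' X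
  let e' : X ≃+ (∀ i, ZMod (n i)) := e.trans (DirectSum.addEquivProd (fun i => ZMod (n i)))
  rw [Nat.card_congr e'.toEquiv, Nat.card_pi] at hX
  simp only [Nat.card_zmod] at hX
  obtain ⟨i, -, hi⟩ := (Nat.Prime.prime hp).exists_mem_finset_dvd hX
  have : Fact p.Prime := ⟨hp⟩
  obtain ⟨y, hy⟩ := exists_prime_addOrderOf_dvd_card' p hY
  have hpy : (zmultiplesHom Y y) (p : ℤ) = 0 := by
    rw [zmultiplesHom_apply, natCast_zsmul, ← hy]
    exact addOrderOf_nsmul_eq_zero y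
  let a : ZMod p →+ Y := ZMod.lift p ⟨zmultiplesHom Y y, hpy⟩
  let b : ZMod (n i) →+ ZMod p := (ZMod.castHom hi (ZMod p)).toAddMonoidHom
  refine ⟨(a.comp b).comp ((Pi.evalAddMonoidHom (fun i => ZMod (n i)) i).comp e'.toAddMonoidHom), ?_⟩
  refine ⟨e'.symm (fun _ => 1), ?_⟩
  show a (b ((e' (e'.symm (fun _ => 1))) i)) ≠ 0
  rw [AddEquiv.apply_symm_apply]
  show a (ZMod.castHom hi (ZMod p) 1) ≠ 0
  rw [map_one]
  have h1 : a 1 = y := by
    have := ZMod.lift_coe p ⟨zmultiplesHom Y y, hpy⟩ 1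
    simpa using this
  rw [h1]
  intro h0
  rw [h0, addOrderOf_zero] at hy
  exact hp.ne_one hy.symm

section

variable {ι : Type u} {Q : Type v} [Group Q] (f : FreeGroup ι →* Q)

/-- restriction of homomorphisms to `N` -/
noncomputable def res (B : Type*) [AddCommGroup B] (h : (ι →₀ ℤ) →ₗ[ℤ] B) : N f →ₗ[ℤ] B := h.comp (N f).subtype

theorem res_injective_iff (hf : Function.Surjective f) [Finite Q] [Finite ι] (B : Type*)
    [AddCommGroup B] [Finite B] :
    Function.Injective (res f B) ↔ Function.Surjective (res f B) := by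
  have hfin : Finite ((ι →₀ ℤ) →ₗ[ℤ] B) := by
    apply Finite.of_injective (fun (h : (ι →₀ ℤ) →ₗ[ℤ] B) (i : ι) => h (Finsupp.single i 1))
    intro h h' hh
    apply Finsupp.lhom_ext'
    intro i
    apply LinearMap.ext_ring
    exact congrFun hh i
  have e : (ι →₀ ℤ) ≃ₗ[ℤ] N f := LinearEquiv.ofFinrankEq _ _ (finrank_N f hf).symm
  have e' : ((ι →₀ ℤ) →ₗ[ℤ] B) ≃ (N f →ₗ[ℤ] B) :=
    { toFun := fun h => h.comp e.symm.toLinearMap
      invFun := fun h => h.comp e.toLinearMap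
      left_inv := fun h => by ext; simp
      right_inv := fun h => by ext; simp }
  exact Finite.injective_iff_surjective_of_equiv e'

theorem res_injective_iff_coprime (hf : Function.Surjective f) [Finite Q] [Finite ι] (B : Type*)
    [AddCommGroup B] [Finite B] :
    Function.Injective (res f B) ↔ Nat.Coprime (Nat.card (Abelianization Q)) (Nat.card B) := by
  have := finite_quotient f hf
  rw [← card_quotient f hf]
  constructor
  · intro hinj
    by_contra hcop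
    obtain ⟨p, hp, h1, h2⟩ := Nat.Prime.not_coprime_iff_dvd.1 hcop
    obtain ⟨h, x, hx⟩ := exists_nontrivial_hom p hp h1 h2
    obtain ⟨x, rfl⟩ := Submodule.Quotient.mk_surjective _ x
    have h3 : h.toIntLinearMap.comp (N f).mkQ = 0 := by
      apply hinj
      apply LinearMap.ext
      rintro ⟨y, hy⟩
      show h (Submodule.Quotient.mk y) = 0
      rw [(Submodule.Quotient.mk_eq_zero (N f)).2 hy, map_zero]
    exact hx (LinearMap.congr_fun h3 x)
  · intro hcop h h' hh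
    apply LinearMap.ext
    intro y
    rw [← sub_eq_zero]
    set c := Nat.card ((ι →₀ ℤ) ⧸ N f) with hc
    have h1 : (c : ℤ) • (h y - h' y) = 0 := by
      have hcy : (c : ℤ) • y ∈ N f := by
        rw [← Submodule.Quotient.mk_eq_zero, Submodule.Quotient.mk_smul, natCast_zsmul]
        exact card_nsmul_eq_zero' (x := (Submodule.Quotient.mk y : (ι →₀ ℤ) ⧸ N f))
      have h2 := LinearMap.congr_fun hh ⟨_, hcy⟩
      have h3 : h ((c : ℤ) • y) = h' ((c : ℤ) • y) := h2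
      rw [map_smul, map_smul] at h3
      rw [smul_sub, h3, sub_self]
    have h2 : (Nat.card B : ℤ) • (h y - h' y) = 0 := by
      rw [natCast_zsmul]
      exact card_nsmul_eq_zero' (x := h y - h' y)
    obtain ⟨a, b, hab⟩ := Nat.isCoprime_iff_coprime.2 hcop
    have h3 : (a * (c : ℤ) + b * (Nat.card B : ℤ)) • (h y - h' y) = 0 := by
      rw [add_smul, mul_smul, mul_smul, h1, h2, smul_zero, smul_zero, add_zero]
    rwa [hab, one_smul] at h3

/-- a map from the kernel which kills `M` factors through `N`. -/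
theorem exists_factor (B : Type*) [AddCommGroup B] (δ : Additive (pr f).ker →+ B)
    (hδ : ∀ k : (pr f).ker, (k : Ext f) ∈ M f → δ (Additive.ofMul k) = 0) :
    ∃ g : N f →ₗ[ℤ] B, ∀ k : (pr f).ker, g ⟨alpha f (Additive.ofMul k), ⟨_, rfl⟩⟩ = δ (Additive.ofMul k) := by
  refine ⟨((LinearMap.ker (alpha f)).liftQ δ.toIntLinearMap ?_).comp
    (LinearMap.quotKerEquivRange (alpha f)).symm.toLinearMap, ?_⟩
  · intro k hk
    exact hδ (Additive.toMul k) ((alpha_eq_zero_iff f _).1 hk)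
  · intro k
    have h1 : (LinearMap.quotKerEquivRange (alpha f)).symm ⟨alpha f (Additive.ofMul k), ⟨_, rfl⟩⟩ =
        Submodule.Quotient.mk (Additive.ofMul k) := by
      rw [LinearEquiv.symm_apply_eq]
      rfl
    rw [LinearMap.comp_apply, LinearEquiv.coe_coe, h1]
    rfl

/-- the projection of the kernel onto `M` along a complement -/
theorem exists_proj (S : Subgroup (Ext f)) (hS : S ≤ (pr f).ker) (h1 : S ⊓ M f = ⊥)
    (h2 : S ⊔ M f = (pr f).ker) :
    ∃ π : (pr f).ker →* M f, (∀ k : (pr f).ker, (k : Ext f) * ((π k : M f) : Ext f)⁻¹ ∈ S) ∧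
      ∀ m (hm : m ∈ M f), π ⟨m, hm.1⟩ = ⟨m, hm⟩ := by
  have hSn := normal_of_le_ker f hS
  have hex : ∀ k : (pr f).ker, ∃ m : M f, (k : Ext f) * (m : Ext f)⁻¹ ∈ S := by
    rintro ⟨k, hk⟩
    rw [← h2, Subgroup.mem_sup_of_normal_left] at hk
    obtain ⟨s, hs, m, hm, rfl⟩ := hk
    exact ⟨⟨m, hm⟩, by simpa using hs⟩
  have huniq : ∀ (k : (pr f).ker) (m m' : M f), (k : Ext f) * (m : Ext f)⁻¹ ∈ S →
      (k : Ext f) * (m' : Ext f)⁻¹ ∈ S → m = m' := by
    intro k m m' hm hm'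
    have h3 : ((m : Ext f)) * (m' : Ext f)⁻¹ ∈ S ⊓ M f := by
      refine ⟨?_, Subgroup.mul_mem _ m.2 (Subgroup.inv_mem _ m'.2)⟩
      have h4 : ((m : Ext f)) * (m' : Ext f)⁻¹ =
          ((k : Ext f) * (m : Ext f)⁻¹)⁻¹ * ((k : Ext f) * (m' : Ext f)⁻¹) := by group
      rw [h4]
      exact Subgroup.mul_mem _ (Subgroup.inv_mem _ hm) hm'
    rw [h1, Subgroup.mem_bot, mul_inv_eq_one] at h3
    exact Subtype.ext h3
  choose π hπ using hex
  refine ⟨MonoidHom.mk' π ?_, hπ, ?_⟩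
  · intro a b
    apply huniq (a * b) _ _ (hπ _)
    have h3 : ((a * b : (pr f).ker) : Ext f) * ((π a * π b : M f) : Ext f)⁻¹ =
        ((a : Ext f) * (π a : Ext f)⁻¹) * ((b : Ext f) * (π b : Ext f)⁻¹) := by
      rw [Subgroup.coe_mul, Subgroup.coe_mul, mul_inv_rev]
      have h4 := ker_pr_comm f (Subgroup.inv_mem _ (π a).2.1) ((b : Ext f) * (π b : Ext f)⁻¹)
      calc (a : Ext f) * b * ((π b : Ext f)⁻¹ * (π a : Ext f)⁻¹)
          = (a : Ext f) * ((b : Ext f) * (π b : Ext f)⁻¹ * (π a : Ext f)⁻¹) := by group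
        _ = (a : Ext f) * ((π a : Ext f)⁻¹ * ((b : Ext f) * (π b : Ext f)⁻¹)) := by rw [h4]
        _ = _ := by group
    rw [h3]
    exact Subgroup.mul_mem _ (hπ a) (hπ b)
  · intro m hm
    apply huniq ⟨m, hm.1⟩ _ _ (hπ _)
    simp

end

/-- Let `Q` be a finite group with Schur multiplier `A`. Any two Schur covering groups of `Q` (finite stem extensions `σ₁ : Γ₁ →* Q`, `σ₂ : Γ₂ →* Q` with kernels isomorphic to `A`, `Γ₁, Γ₂` in the universe of `Q`) are isomorphic over `Q` — there is a group isomorphism `e : Γ₁ ≃* Γ₂` with `σ₂ ∘ e = σ₁` — if and only if the order of the commutator quotient of `Q` is coprime to the order of `A`. In particular a finite perfect group has a unique Schur covering group up to isomorphism over it. -/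
theorem result {Q : Type u} [Group Q] [Finite Q] {A : Type v} [CommGroup A] (hA : Cfsg.HasSchurMultiplier Q A) : (∀ (Γ₁ Γ₂ : Type u) [Group Γ₁] [Finite Γ₁] [Group Γ₂] [Finite Γ₂] (σ₁ : Γ₁ →* Q) (σ₂ : Γ₂ →* Q), Cfsg.IsStemExtension σ₁ → Cfsg.IsStemExtension σ₂ → Nonempty (σ₁.ker ≃* A) → Nonempty (σ₂.ker ≃* A) → ∃ e : Γ₁ ≃* Γ₂, σ₂.comp e.toMonoidHom = σ₁) ↔ Nat.Coprime (Nat.card (Abelianization Q)) (Nat.card A) := by
  let f := canon Q
  have hf : Function.Surjective f := canon_surjective Q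
  obtain ⟨eA⟩ := nonempty_equiv_M hA f hf
  have hcardA : Nat.card A = Nat.card (Additive (M f)) := Nat.card_congr eA.toEquiv
  rw [hcardA, ← res_injective_iff_coprime f hf (Additive (M f))]
  constructor
  · intro huniq
    by_contra hinj
    rw [res_injective_iff f hf] at hinj
    unfold Function.Surjective at hinj
    push Not at hinj
    obtain ⟨g, hg⟩ := hinj
    obtain ⟨S₁, hS₁, hS₁', hS₁''⟩ := exists_complement f (pr f).ker le_rfl le_sup_left
    -- the twisted complement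
    let tw : Ext f → Ext f := fun s => s
    have hNs : ∀ s : S₁, alpha f (Additive.ofMul ⟨(s : Ext f), hS₁ s.2⟩) ∈ N f := fun s => ⟨_, rfl⟩
    let gg : S₁ →* M f := MonoidHom.mk' (fun s =>
        Additive.toMul (g ⟨alpha f (Additive.ofMul ⟨(s : Ext f), hS₁ s.2⟩), hNs s⟩)) (by
      intro a b
      have h1 : g ⟨alpha f (Additive.ofMul ⟨((a * b : S₁) : Ext f), hS₁ (a * b).2⟩), hNs (a * b)⟩ =
          g ⟨alpha f (Additive.ofMul ⟨(a : Ext f), hS₁ a.2⟩), hNs a⟩ +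
          g ⟨alpha f (Additive.ofMul ⟨(b : Ext f), hS₁ b.2⟩), hNs b⟩ := by
        rw [← map_add]
        congr 1
        apply Subtype.ext
        exact map_add (alpha f) (Additive.ofMul ⟨(a : Ext f), hS₁ a.2⟩) (Additive.ofMul ⟨(b : Ext f), hS₁ b.2⟩)
      rw [h1]
      rfl)
    let ψ : S₁ →* Ext f := MonoidHom.mk' (fun s => (s : Ext f) * ((gg s : M f) : Ext f)) (by
      intro a b
      rw [map_mul, Subgroup.coe_mul, Subgroup.coe_mul]
      have h2 := ker_pr_comm f (gg a).2.1 (b : Ext f)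
      calc (a : Ext f) * b * ((gg a : Ext f) * gg b) = (a : Ext f) * (b * (gg a : Ext f)) * gg b := by group
        _ = (a : Ext f) * ((gg a : Ext f) * b) * gg b := by rw [h2]
        _ = _ := by group)
    have hψK : ∀ s, ψ s ∈ (pr f).ker := fun s => Subgroup.mul_mem _ (hS₁ s.2) (Subtype.prop _ : _ ∈ M f).1
    let S₂ := ψ.range
    have hS₂ : S₂ ≤ (pr f).ker := by
      rintro _ ⟨s, rfl⟩
      exact hψK s
    have hS₂' : S₂ ⊓ M f = ⊥ := by
      rw [Subgroup.eq_bot_iff_forall]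
      intro x hx
      obtain ⟨hx1, hx2⟩ := Subgroup.mem_inf.1 hx
      obtain ⟨s, rfl⟩ := hx1
      have h1 : (s : Ext f) ∈ S₁ ⊓ M f := by
        refine ⟨s.2, ?_⟩
        have h2 : (s : Ext f) = ψ s * ((gg s : M f) : Ext f)⁻¹ := by
          show (s : Ext f) = (s : Ext f) * _ * _
          group
        rw [h2]
        exact Subgroup.mul_mem _ hx2 (Subgroup.inv_mem _ (Subtype.prop _))
      rw [hS₁', Subgroup.mem_bot] at h1
      have h3 : s = 1 := Subtype.ext h1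
      rw [h3, map_one]
    have hS₂'' : S₂ ⊔ M f = (pr f).ker := by
      apply le_antisymm (sup_le hS₂ inf_le_left)
      intro x hx
      rw [← hS₁'', Subgroup.mem_sup_of_normal_right] at hx
      obtain ⟨s, hs, m, hm, rfl⟩ := hx
      have h2 : s * m = ψ ⟨s, hs⟩ * (((gg ⟨s, hs⟩ : M f) : Ext f)⁻¹ * m) := by
        show s * m = s * _ * _
        group
      rw [h2]
      exact Subgroup.mul_mem_sup ⟨_, rfl⟩ (Subgroup.mul_mem _ (Subgroup.inv_mem _ (Subtype.prop _)) hm)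
    have hn1 := normal_of_le_ker f hS₁
    have hn2 := normal_of_le_ker f hS₂
    have hfin1 := finite_quot f S₁ hS₁ hS₁''
    have hfin2 := finite_quot f S₂ hS₂ hS₂''
    obtain ⟨e, he⟩ := huniq (Ext f ⧸ S₁) (Ext f ⧸ S₂) (prS f S₁ hS₁) (prS f S₂ hS₂)
      (prS_stem f hf S₁ hS₁ hS₁'') (prS_stem f hf S₂ hS₂ hS₂'')
      ⟨(kerEquiv f S₁ hS₁ hS₁'' hS₁').symm.trans eA.symm⟩
      ⟨(kerEquiv f S₂ hS₂ hS₂'' hS₂').symm.trans eA.symm⟩
    have he' : ∀ x, prS f S₂ hS₂ (e x) = prS f S₁ hS₁ x := fun x => DFunLike.congr_fun he x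
    -- define t
    have hex : ∀ x : Ext f, ∃ m : M f, e (QuotientGroup.mk x) = QuotientGroup.mk (x * (m : Ext f)) := by
      intro x
      have h1 : (QuotientGroup.mk x)⁻¹ * e (QuotientGroup.mk x) ∈ (prS f S₂ hS₂).ker := by
        rw [MonoidHom.mem_ker, map_mul, map_inv, he', prS_mk, prS_mk, inv_mul_cancel]
      obtain ⟨m, hm, hmx⟩ := exists_mem_M f S₂ hS₂ hS₂'' h1
      refine ⟨⟨m, hm⟩, ?_⟩
      rw [QuotientGroup.mk_mul, hmx, mul_inv_cancel_left]
    have huni : ∀ (x : Ext f) (m m' : M f), (QuotientGroup.mk (x * (m : Ext f)) : Ext f ⧸ S₂) =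
        QuotientGroup.mk (x * (m' : Ext f)) → m = m' := by
      intro x m m' h
      rw [QuotientGroup.eq] at h
      have h1 : (m : Ext f)⁻¹ * (m' : Ext f) ∈ S₂ ⊓ M f := by
        refine ⟨?_, Subgroup.mul_mem _ (Subgroup.inv_mem _ m.2) m'.2⟩
        have h2 : (m : Ext f)⁻¹ * (m' : Ext f) = (x * (m : Ext f))⁻¹ * (x * (m' : Ext f)) := by group
        rw [h2]
        exact h
      rw [hS₂', Subgroup.mem_bot, inv_mul_eq_one] at h1
      exact Subtype.ext h1
    choose t ht using hex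
    let T : Ext f →* M f := MonoidHom.mk' t (by
      intro x y
      apply huni (x * y)
      rw [← ht, QuotientGroup.mk_mul, map_mul, ht, ht, ← QuotientGroup.mk_mul]
      congr 1
      rw [Subgroup.coe_mul]
      have h2 := ker_pr_comm f (t x).2.1 y
      rw [mul_assoc, mul_assoc, ← mul_assoc (t x : Ext f), ← h2]
      group)
    have hTker : (ab f).ker ≤ T.ker := by
      rw [ker_ab]
      exact H69.SchurBasic.commutator_le_ker_of_comm T (fun a b => mul_comm _ _)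
    let T' : Multiplicative (Q →₀ ℤ) →* M f :=
      (ab f).liftOfSurjective (ab_surjective f) ⟨T, hTker⟩
    have hT' : ∀ x, T' (ab f x) = t x := by
      intro x
      exact MonoidHom.liftOfRightInverse_comp_apply (ab f) _ _ ⟨T, hTker⟩ x
    apply hg (AddMonoidHom.toIntLinearMap (MonoidHom.toAdditiveRight T'))
    apply LinearMap.ext
    rintro ⟨y, ⟨k, rfl⟩⟩
    -- replace k by an element of S₁
    obtain ⟨s, hs, hsk⟩ : ∃ s, ∃ hs : s ∈ S₁, alpha f (Additive.ofMul ⟨s, hS₁ hs⟩) = alpha f k := by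
      have hk : ((Additive.toMul k : (pr f).ker) : Ext f) ∈ S₁ ⊔ M f := hS₁''.ge (Additive.toMul k).2
      rw [Subgroup.mem_sup_of_normal_right] at hk
      obtain ⟨s, hs, m, hm, hsm⟩ := hk
      refine ⟨s, hs, ?_⟩
      show Multiplicative.toAdd (ab f s) =
        Multiplicative.toAdd (ab f ((Additive.toMul k : (pr f).ker) : Ext f))
      rw [← hsm, map_mul, ((mem_M_iff f).1 hm).2, mul_one]
    have h5 : ∀ z (hz : z = alpha f k) (hzN : z ∈ N f), g ⟨z, hzN⟩ = g ⟨alpha f k, ⟨k, rfl⟩⟩ := by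
      rintro z rfl hzN
      rfl
    show Additive.ofMul (T' (Multiplicative.ofAdd (alpha f k))) = g ⟨alpha f k, ⟨k, rfl⟩⟩
    rw [← h5 _ hsk (hNs ⟨s, hs⟩), ← hsk]
    have h6 : T' (Multiplicative.ofAdd (alpha f (Additive.ofMul ⟨s, hS₁ hs⟩))) = t s := hT' s
    rw [h6]
    -- now t s = g (alpha s)
    have h7 := ht s
    have h8 : (QuotientGroup.mk s : Ext f ⧸ S₁) = 1 := (QuotientGroup.eq_one_iff s).2 hs
    rw [h8, map_one] at h7
    have h9 : (QuotientGroup.mk (s * ((gg ⟨s, hs⟩ : M f) : Ext f)) : Ext f ⧸ S₂) = 1 :=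
      (QuotientGroup.eq_one_iff _).2 ⟨⟨s, hs⟩, rfl⟩
    exact congrArg Additive.ofMul (huni s _ _ (h7.symm.trans h9.symm))
  · intro hinj Γ₁ Γ₂ _ _ _ _ σ₁ σ₂ hσ₁ hσ₂ ⟨e₁⟩ ⟨e₂⟩
    have hsurj := (res_injective_iff f hf (Additive (M f))).1 hinj
    obtain ⟨φ₁, hφ₁⟩ := exists_lift f σ₁ hσ₁.1 hσ₁.2.1 (MonoidHom.id Q)
    obtain ⟨φ₂, hφ₂⟩ := exists_lift f σ₂ hσ₂.1 hσ₂.2.1 (MonoidHom.id Q)
    have hc1 : Nat.card (M f) ≤ Nat.card σ₁.ker :=
      (Nat.card_congr (e₁.trans eA).toEquiv).ge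
    have hc2 : Nat.card (M f) ≤ Nat.card σ₂.ker :=
      (Nat.card_congr (e₂.trans eA).toEquiv).ge
    obtain ⟨a1, a2, a3⟩ := ker_lift_complement f hf σ₁ hσ₁ hc1 φ₁ hφ₁
    obtain ⟨b1, b2, b3⟩ := ker_lift_complement f hf σ₂ hσ₂ hc2 φ₂ hφ₂
    obtain ⟨π₁, hπ₁, hπ₁'⟩ := exists_proj f φ₁.ker a1 a2 a3
    obtain ⟨π₂, hπ₂, hπ₂'⟩ := exists_proj f φ₂.ker b1 b2 b3
    let δ : Additive (pr f).ker →+ Additive (M f) := MonoidHom.toAdditive (π₁ * π₂⁻¹)
    obtain ⟨g, hg⟩ := exists_factor f (Additive (M f)) δ (by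
      rintro ⟨k, hk⟩ hkM
      show Additive.ofMul (π₁ ⟨k, hk⟩ * (π₂ ⟨k, hk⟩)⁻¹) = 0
      have h1 := hπ₁' k hkM
      have h2 := hπ₂' k hkM
      rw [h1, h2, mul_inv_cancel]
      rfl)
    obtain ⟨h, hh⟩ := hsurj g
    let t : Ext f →* M f := (AddMonoidHom.toMultiplicativeLeft h.toAddMonoidHom).comp (ab f)
    have ht : ∀ k : (pr f).ker, t (k : Ext f) = π₁ k * (π₂ k)⁻¹ := by
      intro k
      have h1 := LinearMap.congr_fun hh ⟨alpha f (Additive.ofMul k), ⟨_, rfl⟩⟩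
      rw [hg k] at h1
      exact h1
    let θ : Ext f →* Γ₂ := MonoidHom.mk' (fun x => φ₂ x * φ₂ (t x : Ext f)) (by
      intro x y
      have h1 : φ₂ (t x : Ext f) * φ₂ y = φ₂ y * φ₂ (t x : Ext f) := by
        rw [← map_mul, ← map_mul, ker_pr_comm f (t x).2.1 y]
      rw [map_mul, map_mul, Subgroup.coe_mul, map_mul, mul_assoc, mul_assoc, ← mul_assoc (φ₂ y),
        ← h1]
      group)
    have hθ : φ₁.ker ≤ θ.ker := by
      intro s hs
      rw [MonoidHom.mem_ker]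
      show φ₂ s * φ₂ (t s : Ext f) = 1
      have hsK := a1 hs
      have h1 := ht ⟨s, hsK⟩
      have h2 : π₁ ⟨s, hsK⟩ = 1 := by
        have h3 := hπ₁ ⟨s, hsK⟩
        have h4 : ((π₁ ⟨s, hsK⟩ : M f) : Ext f) ∈ φ₁.ker ⊓ M f := by
          refine ⟨?_, Subtype.prop _⟩
          have h5 : ((π₁ ⟨s, hsK⟩ : M f) : Ext f) = (s * ((π₁ ⟨s, hsK⟩ : M f) : Ext f)⁻¹)⁻¹ * s := by
            group
          rw [h5]
          exact Subgroup.mul_mem _ (Subgroup.inv_mem _ h3) hs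
        rw [a2, Subgroup.mem_bot] at h4
        exact Subtype.ext h4
      rw [h2, one_mul] at h1
      have h6 : t s = (π₂ ⟨s, hsK⟩)⁻¹ := h1
      rw [h6, Subgroup.coe_inv, ← map_mul]
      exact hπ₂ ⟨s, hsK⟩
    have hφ₁s := surjective_of_stem (pr f) (pr_surjective hf) σ₁ hσ₁ φ₁ hφ₁
    let ε : Γ₁ →* Γ₂ := φ₁.liftOfSurjective hφ₁s ⟨θ, hθ⟩
    have hε : ∀ x, ε (φ₁ x) = θ x := by
      intro x
      exact MonoidHom.liftOfRightInverse_comp_apply φ₁ _ _ ⟨θ, hθ⟩ x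
    have hφ₁' : ∀ e, σ₁ (φ₁ e) = pr f e := fun e => DFunLike.congr_fun hφ₁ e
    have hφ₂' : ∀ e, σ₂ (φ₂ e) = pr f e := fun e => DFunLike.congr_fun hφ₂ e
    have hεσ : σ₂.comp ε = σ₁ := by
      ext γ
      obtain ⟨x, rfl⟩ := hφ₁s γ
      rw [MonoidHom.comp_apply, hε, hφ₁']
      show σ₂ (φ₂ x * φ₂ (t x : Ext f)) = pr f x
      have h1 : pr f (t x : Ext f) = 1 := (t x).2.1
      rw [map_mul, hφ₂', hφ₂', h1, mul_one]
    have hεs := surjective_of_stem σ₁ hσ₁.1 σ₂ hσ₂ ε hεσ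
    have hcard : Nat.card Γ₁ = Nat.card Γ₂ := by
      rw [Subgroup.card_eq_card_quotient_mul_card_subgroup σ₁.ker,
        Subgroup.card_eq_card_quotient_mul_card_subgroup σ₂.ker,
        Nat.card_congr (QuotientGroup.quotientKerEquivOfSurjective σ₁ hσ₁.1).toEquiv,
        Nat.card_congr (QuotientGroup.quotientKerEquivOfSurjective σ₂ hσ₂.1).toEquiv,
        Nat.card_congr (e₁.trans e₂.symm).toEquiv]
    have hεb : Function.Bijective ε := (Nat.bijective_iff_surjective_and_card ε).2 ⟨hεs, hcard⟩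
    exact ⟨MulEquiv.ofBijective ε hεb, hεσ⟩

end Cfsg.Agent.S3974
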