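import Cfsg.Statements.S4637
import Cfsg.Agent.Lib.H84.GL6

set_option autoImplicit false
open Cfsg

namespace Cfsg.Agent.S4637

open H84.FL in
/-- Let B be a block of the finite group G relative to a maximal ideal M of the algebraic integers containing 2, with a Klein four defect group P. Let c be a block of C_G(P) inducing B, T the stabilizer of c in N_G(P) and e the index of C_G(P) in T (the inertial index). Then e is 1 or 3, B contains exactly four irreducible characters, and the 2-regular rank of B (its number of irreducible Brauer characters) equals e. -/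
theorem result {G : Type*} [Group G] [Finite G] (M : Ideal Cfsg.AlgInt) (hM : Cfsg.IsPModular 2 M) (B : Set (Cfsg.IrrCharacter G)) (hB : Cfsg.IsPBlock M B) (P : Subgroup G) (hPD : Cfsg.IsDefectGroup 2 M B P) (hV : IsKleinFour P) (c : Set (Cfsg.IrrCharacter (Subgroup.centralizer (P : Set G)))) (hc : Cfsg.IsInducedBlock M (Subgroup.centralizer (P : Set G)) c B) (T : Subgroup G) (hT : ∀ g : G, g ∈ T ↔ (g ∈ Subgroup.normalizer (P : Set G) ∧ Cfsg.StabilizesBlock (Subgroup.centralizer (P : Set G)) c g)) (e : ℕ) (he : (Subgroup.centralizer (P : Set G)).relIndex T = e) : (e = 1 ∨ e = 3) ∧ Nat.card B = 4 ∧ Cfsg.blockRank 2 B = e := by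
  have : Fact (Nat.Prime 2) := ⟨Nat.prime_two⟩
  have : M.IsMaximal := hM.2.1
  have : CharP (H20.Loc.ResF M) 2 := H20.Loc.charP_resF hM
  let _ : Algebra (ZMod 2) (H20.Loc.ResF M) := ZMod.algebra (H20.Loc.ResF M) 2
  have : Algebra.IsAlgebraic (ZMod 2) (H20.Loc.ResF M) := H80.BR1.isAlgebraic_resF hM
  have : IsAlgClosed (H20.Loc.ResF M) := H20.Loc.isAlgClosed_resF
  have hPab : ∀ x ∈ P, ∀ y ∈ P, x * y = y * x := by
    intro x hx y hy
    have hc1 : ∀ a b : P, a * b = b * a := by
      intro a b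
      have h1 : ∀ z : P, z⁻¹ = z := fun z => inv_eq_of_mul_eq_one_right (IsKleinFour.mul_self z)
      rw [← h1 (a * b), mul_inv_rev, h1, h1]
    exact congrArg Subtype.val (hc1 ⟨x, hx⟩ ⟨y, hy⟩)
  have hcP : Nat.card P = 4 := IsKleinFour.card_four
  have hP1 : P ≠ ⊥ := by
    rintro rfl
    rw [Subgroup.card_bot] at hcP
    omega
  obtain ⟨hmax, hTe, hTN, hCT, hidx⟩ := H80.BR11.setup hM hB hPD hPab hc hT
  subst hTe
  have hcard := card_WT hCT
  rw [he] at hcard
  have hfree := H84.GL.free_klein (e := H80.BR2.bl M _ c) hV (by rw [card_WT hCT]; exact hidx)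
  obtain ⟨n, rep, hrep⟩ := H84.FR.exists_reps (sub_comm hPab) (WT P (H80.BR2.bl M _ c))
  have hn := hrep.card (sub_comm hPab) (WT_free hfree)
  have hk := card_eq hM hmax hB hPab hfree hn
  rw [hcard, hcP] at hn
  have hne : n * e = 3 := by omega
  have he3 : e ∣ 3 := ⟨n, by rw [mul_comm]; exact hne.symm⟩
  have he13 : e = 1 ∨ e = 3 := (Nat.dvd_prime Nat.prime_three).1 he3
  have h4 := H84.GL.rank_eq_free hM hmax hB hPab hP1 hfree (by rw [hcard]; omega)
  rw [hcard] at h4
  refine ⟨he13, ?_, h4⟩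
  rcases he13 with h | h <;> subst h <;> omega

end Cfsg.Agent.S4637
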