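import Cfsg.Statements.S0305
import Mathlib
import Cfsg.Agent.Lib.H7.HypOrd
import Cfsg.Agent.Lib.H5.DihedralLift

set_option autoImplicit false
open Cfsg

namespace Cfsg.Agent.S0305

/-- GO^+_2(q) is dihedral of order 2(q-1). -/
theorem result {F : Type*} [Field F] [Fintype F] {q : ℕ} (hF : Fintype.card F = q) : Nonempty (Cfsg.isometryGroup F (Cfsg.quadFormPlus 1 F) ≃* DihedralGroup (q - 1)) := by
  classical
  obtain ⟨g, hg⟩ := IsCyclic.exists_generator (α := Fˣ)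
  have hord : orderOf g = q - 1 := by
    rw [orderOf_eq_card_of_forall_mem_zpowers hg, Nat.card_units, Nat.card_eq_fintype_card, hF]
  have e0 := H7.HypOrd.matEquiv (Cfsg.quadFormPlus 1 F)
  rw [← H48.QuadStd.coe_qPlus] at e0 ⊢
  obtain ⟨e1⟩ := H7.HypStd.nonempty_congrO (H7.HypStd.plus_succ (F := F) 0)
  set Q := H48.QuadStd.qPlus 0 F with hQ
  set G := H7.Hyp.O (H7.Hyp.hyp Q) with hG
  let R : G := ⟨H7.Hyp.T g, H7.Hyp.T_mem Q g⟩
  let S' : G := ⟨H7.Hyp.S, H7.Hyp.S_mem Q⟩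
  have hTmul : ∀ a b : Fˣ, (H7.Hyp.T (a * b) : (F × F × (Fin 0 ⊕ Fin 0 → F)) ≃ₗ[F] _) = H7.Hyp.T a * H7.Hyp.T b := by
    intro a b
    apply LinearEquiv.ext
    rintro ⟨x, y, v⟩
    rw [LinearEquiv.mul_apply, H7.Hyp.T_apply, H7.Hyp.T_apply, H7.Hyp.T_apply]
    simp only [mul_inv, Units.val_mul, mul_assoc]
  let TT : Fˣ →* ((F × F × (Fin 0 ⊕ Fin 0 → F)) ≃ₗ[F] (F × F × (Fin 0 ⊕ Fin 0 → F))) :=
    MonoidHom.mk' H7.Hyp.T hTmul
  have hTinj : Function.Injective TT := by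
    intro a b hab
    have := congrArg (fun g : (F × F × (Fin 0 ⊕ Fin 0 → F)) ≃ₗ[F] (F × F × (Fin 0 ⊕ Fin 0 → F)) => (g (1, 0, 0)).1) hab
    change (a : F) * 1 = b * 1 at this
    rw [mul_one, mul_one] at this
    exact Units.ext this
  have hRord : orderOf R = q - 1 := by
    rw [← hord, ← orderOf_injective TT hTinj g]
    exact (orderOf_injective G.subtype Subtype.val_injective R).symm
  have hSS : S' * S' = 1 := by
    apply Subtype.ext
    apply LinearEquiv.ext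
    rintro ⟨x, y, v⟩
    rfl
  have hSR : S' * R * S'⁻¹ = R⁻¹ := by
    have hSi : S'⁻¹ = S' := inv_eq_of_mul_eq_one_left hSS
    rw [hSi, eq_inv_iff_mul_eq_one]
    apply Subtype.ext
    apply LinearEquiv.ext
    rintro ⟨x, y, v⟩
    change ((g⁻¹ : Fˣ) * ((g : F) * x), (g : F) * ((g⁻¹ : Fˣ) * y), v) = (x, y, v)
    simp
  have hcases : ∀ h ∈ G, ∃ u : Fˣ, h = H7.Hyp.T u ∨ h = H7.Hyp.T u * H7.Hyp.S := by
    have key : ∀ h ∈ G, (h (1, 0, 0)).1 ≠ 0 → ∃ u : Fˣ, h = H7.Hyp.T u := by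
      intro h hh hne
      have h1 := hh (1, 0, 0)
      rw [H7.Hyp.hyp_apply, H7.Hyp.hyp_apply] at h1
      have hv : (h (1, 0, 0)).2.2 = 0 := Subsingleton.elim _ _
      rw [hv] at h1
      simp at h1
      have h2 : (h (1, 0, 0)).2.1 = 0 := h1.resolve_left hne
      refine ⟨Units.mk0 _ hne, ?_⟩
      have hfix : (H7.Hyp.T (Units.mk0 _ hne))⁻¹ * h ∈ G :=
        G.mul_mem (G.inv_mem (H7.Hyp.T_mem Q _)) hh
      obtain ⟨w, h', hh', he⟩ := H7.Hyp.exists_E_emb hfix (by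
        rw [LinearEquiv.mul_apply, H7.Hyp.inv_apply_eq]
        simp only [H7.Hyp.e1, H7.Hyp.T_apply, Units.val_mk0, mul_one, mul_zero]
        exact Prod.ext rfl (Prod.ext h2 hv))
      have hw : w = 0 := Subsingleton.elim _ _
      have hh1 : h' = 1 := by
        apply LinearEquiv.ext
        intro v
        exact Subsingleton.elim _ _
      rw [hw, hh1, map_one, mul_one] at he
      have hE : H7.Hyp.E Q 0 = 1 := by
        apply LinearEquiv.ext
        rintro ⟨x, y, v⟩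
        rw [H7.Hyp.E_apply]
        simp
      rw [hE] at he
      exact (inv_mul_eq_one.1 he).symm
    intro h hh
    by_cases hne : (h (1, 0, 0)).1 ≠ 0
    · obtain ⟨u, hu⟩ := key h hh hne
      exact ⟨u, Or.inl hu⟩
    · push Not at hne
      have h1 : (((H7.Hyp.S : (F × F × (Fin 0 ⊕ Fin 0 → F)) ≃ₗ[F] _) * h) (1, 0, 0)).1 ≠ 0 := by
        intro h0
        have h2 : (h (1, 0, 0)).2.1 = 0 := h0
        have h3 : h (1, 0, 0) = 0 := Prod.ext hne (Prod.ext h2 (Subsingleton.elim _ _))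
        have h4 : ((1, 0, 0) : F × F × (Fin 0 ⊕ Fin 0 → F)) = 0 := by
          apply h.injective; rw [h3, map_zero]
        simp at h4
      obtain ⟨u, hu⟩ := key _ (G.mul_mem (H7.Hyp.S_mem Q) hh) h1
      refine ⟨u⁻¹, Or.inr ?_⟩
      have h5 : h = H7.Hyp.S * (H7.Hyp.S * h) := by
        rw [← mul_assoc]
        have : (H7.Hyp.S * H7.Hyp.S : (F × F × (Fin 0 ⊕ Fin 0 → F)) ≃ₗ[F] _) = 1 := by
          apply LinearEquiv.ext
          rintro ⟨x, y, v⟩
          rfl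
        rw [this, one_mul]
      rw [h5, hu]
      apply LinearEquiv.ext
      rintro ⟨x, y, v⟩
      rw [LinearEquiv.mul_apply, LinearEquiv.mul_apply, H7.Hyp.T_apply, H7.Hyp.S_apply, H7.Hyp.S_apply, H7.Hyp.T_apply, inv_inv]
  have hcl : Subgroup.closure ({R, S'} : Set G) = ⊤ := by
    rw [Subgroup.eq_top_iff']
    rintro ⟨h, hh⟩
    obtain ⟨u, hu⟩ := hcases h hh
    obtain ⟨k, hk⟩ := hg u
    simp only at hk
    have hRk : (⟨H7.Hyp.T u, H7.Hyp.T_mem Q u⟩ : G) = R ^ k := by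
      apply Subtype.ext
      change TT u = ((R ^ k : G) : (F × F × (Fin 0 ⊕ Fin 0 → F)) ≃ₗ[F] (F × F × (Fin 0 ⊕ Fin 0 → F)))
      rw [← hk, map_zpow]
      rfl
    have hRm : R ∈ Subgroup.closure ({R, S'} : Set G) := Subgroup.subset_closure (by simp)
    have hSm : S' ∈ Subgroup.closure ({R, S'} : Set G) := Subgroup.subset_closure (by simp)
    rcases hu with hu | hu
    · have : (⟨h, hh⟩ : G) = R ^ k := by rw [← hRk]; exact Subtype.ext hu
      rw [this]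
      exact Subgroup.zpow_mem _ hRm k
    · have : (⟨h, hh⟩ : G) = R ^ k * S' := by rw [← hRk]; exact Subtype.ext hu
      rw [this]
      exact Subgroup.mul_mem _ (Subgroup.zpow_mem _ hRm k) hSm
  have hSn : S' ∉ Subgroup.zpowers R := by
    rintro ⟨k, hk⟩
    simp only at hk
    have hRk : ((R ^ k : G) : (F × F × (Fin 0 ⊕ Fin 0 → F)) ≃ₗ[F] (F × F × (Fin 0 ⊕ Fin 0 → F))) = TT (g ^ k) := by
      rw [map_zpow]; rfl
    have hk1 := congrArg (fun h : G => ((h : (F × F × (Fin 0 ⊕ Fin 0 → F)) ≃ₗ[F] (F × F × (Fin 0 ⊕ Fin 0 → F))) (1, 0, 0)).1) hk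
    simp only [hRk] at hk1
    change ((g ^ k : Fˣ) : F) * 1 = 0 at hk1
    rw [mul_one] at hk1
    exact (g ^ k).ne_zero hk1
  have hinj := H5.DihedralLift.lift_injective R S' hSS hSR hSn
  have hran := H5.DihedralLift.range_lift (orderOf R) R S' (pow_orderOf_eq_one R) hSS hSR
  rw [hcl] at hran
  have e2 : DihedralGroup (orderOf R) ≃* G := MulEquiv.ofBijective _ ⟨hinj, MonoidHom.range_eq_top.1 hran⟩
  rw [hRord] at e2
  exact ⟨(e0.trans e1).trans e2.symm⟩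

end Cfsg.Agent.S0305
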