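import Cfsg.Statements.S0806
import Cfsg.Agent.Lib.H98.DicksonIdx

set_option autoImplicit false
open Cfsg

namespace Cfsg.Agent.S0806

/-- Minimal index (Galois): if q ∉ {2, 3, 5, 7, 9, 11} then every proper subgroup of PSL_2(q) has index ≥ q + 1, and some subgroup has index exactly q + 1. -/
theorem result {F : Type*} [Field F] [Fintype F] {q : ℕ} (hF : Fintype.card F = q) (hq : q ∉ ({2, 3, 5, 7, 9, 11} : Finset ℕ)) : (∀ H : Subgroup (Matrix.ProjectiveSpecialLinearGroup (Fin 2) F), H ≠ ⊤ → q + 1 ≤ H.index) ∧ ∃ H : Subgroup (Matrix.ProjectiveSpecialLinearGroup (Fin 2) F), H.index = q + 1 := by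
  classical
  haveI hfG : Finite (Matrix.ProjectiveSpecialLinearGroup (Fin 2) F) := inferInstanceAs (Finite (_ ⧸ _))
  have hF' : Nat.card F = q := by rw [Nat.card_eq_fintype_card, hF]
  have h1F : 1 < Nat.card F := Finite.one_lt_card
  have hB : 0 < Nat.card F * ((Nat.card F - 1) / Nat.gcd 2 (Nat.card F - 1)) := by
    apply Nat.mul_pos (by omega)
    exact Nat.div_pos (Nat.le_of_dvd (by omega) (Nat.gcd_dvd_right _ _)) (Nat.gcd_pos_of_pos_left _ (by norm_num))
  constructor
  · intro H hH
    have h1 := H98.DicksonIdx.card_le (by rw [hF']; exact hq) H hH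
    have h2 := H98.DicksonIdx.card_G (F := F)
    have h3 := H.card_mul_index
    rw [h2] at h3
    rw [← hF']
    by_contra hlt
    push Not at hlt
    have h4 : Nat.card H * H.index ≤ Nat.card F * ((Nat.card F - 1) / Nat.gcd 2 (Nat.card F - 1)) * H.index :=
      Nat.mul_le_mul_right _ h1
    have h5 : Nat.card F * ((Nat.card F - 1) / Nat.gcd 2 (Nat.card F - 1)) * H.index <
        Nat.card F * ((Nat.card F - 1) / Nat.gcd 2 (Nat.card F - 1)) * (Nat.card F + 1) := Nat.mul_lt_mul_of_pos_left hlt hB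
    rw [h3, mul_comm] at h4
    omega
  · letI : MulAction (Matrix.ProjGenLinGroup (Fin 2) F) (OnePoint F) := H98.Moebius.pglAction
    let S : Subgroup (Matrix.ProjectiveSpecialLinearGroup (Fin 2) F) :=
      (MulAction.stabilizer (Matrix.ProjGenLinGroup (Fin 2) F) (OnePoint.infty : OnePoint F)).comap (H98.DicksonPSL.ιP F)
    refine ⟨S, ?_⟩
    have h1 : Nat.card S = Nat.card F * ((Nat.card F - 1) / Nat.gcd 2 (Nat.card F - 1)) :=
      H98.DicksonPSL.card_stab (OnePoint.infty : OnePoint F)
    have h2 := H98.DicksonIdx.card_G (F := F)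
    have h3 := S.card_mul_index
    rw [h1, h2, mul_comm] at h3
    rw [← hF']
    exact Nat.eq_of_mul_eq_mul_right hB h3

end Cfsg.Agent.S0806
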