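import Cfsg.Statements.S0581
import Cfsg.Agent.Lib.H12.NilpHall

set_option autoImplicit false
open Pointwise
open Cfsg

namespace Cfsg.Agent.S0581

theorem result {G : Type*} [Group G] [Finite G] (H K : Subgroup G) (hH : Group.IsNilpotent H) (hHall : (Nat.card H).Coprime H.index) (hK : ∀ p : ℕ, p.Prime → p ∣ Nat.card K → p ∣ Nat.card H) : ∃ x : G, K ≤ MulAut.conj x • H :=
  H12.NilpHall.exists_conj_ge hH hHall hK

end Cfsg.Agent.S0581
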