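import Cfsg.Statements.S0430
import Cfsg.Agent.Lib.H10.HSGraph
import Cfsg.Agent.Lib.H10.PBIso
import Cfsg.Agent.S0410

set_option autoImplicit false
open Cfsg

namespace Cfsg.Agent.S0430

/-- Uniqueness of the strongly regular graph with parameters (100, 22, 0, 6). -/
theorem result {V W : Type*} [Fintype V] [Fintype W] {G : SimpleGraph V} {H : SimpleGraph W} [DecidableRel G.Adj] [DecidableRel H.Adj] (hG : G.IsSRGWith 100 22 0 6) (hH : H.IsSRGWith 100 22 0 6) : Nonempty (G ≃g H) := by
  classical
  have v0 : V := by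
    have h := hG.card
    exact Classical.choice (Fintype.card_pos_iff.1 (by omega))
  have w0 : W := by
    have h := hH.card
    exact Classical.choice (Fintype.card_pos_iff.1 (by omega))
  obtain ⟨f⟩ := H10.HSGraph.nonempty_iso hG (v0 := v0)
  obtain ⟨g⟩ := H10.HSGraph.nonempty_iso hH (v0 := w0)
  have h := Cfsg.Agent.S0410.result (H10.HSGraph.card_pt hG (v0 := v0)) (H10.HSGraph.card_pt hH (v0 := w0))
    (H10.HSGraph.isSteinerSystem hG) (H10.HSGraph.isSteinerSystem hH)
  obtain ⟨e⟩ := H10.PBIso.nonempty_graphIso h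
    (H10.PBIso.nonempty_of_card (by norm_num) (H10.HSGraph.isSteinerSystem hG))
  exact ⟨(f.symm.trans e).trans g⟩


end Cfsg.Agent.S0430
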