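import Cfsg.Statements.S0014
import Cfsg.Agent.Lib.H1.Frat

set_option autoImplicit false
open Cfsg

namespace Cfsg.Agent.S0014

/-- Burnside's basis Theorem: in a finite p-group whose Frattini quotient has order p ^ n, every generating set contains n elements that already generate, and no set with fewer than n elements generates. -/
theorem result {G : Type*} [Group G] [Finite G] (p n : ℕ) [Fact p.Prime]
    (hG : IsPGroup p G) (hn : (frattini G).index = p ^ n) :
    (∀ S : Finset G, Subgroup.closure (S : Set G) = ⊤ → ∃ T : Finset G, T ⊆ S ∧ T.card = n ∧ Subgroup.closure (T : Set G) = ⊤) ∧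
    (∀ T : Finset G, Subgroup.closure (T : Set G) = ⊤ → n ≤ T.card) := by
  constructor
  · intro S hS
    obtain ⟨T, hTS, hTn, hT⟩ := H1.Frat.exists_subset_card hG hn S hS n le_rfl
    refine ⟨T, hTS, hTn, ?_⟩
    have h1 : Subgroup.closure (T : Set G) ⊔ frattini G = ⊤ := by
      apply Subgroup.eq_top_of_card_eq
      rw [hT, ← hn, mul_comm, Subgroup.card_mul_index]
    exact frattini_nongenerating h1
  · intro T hT
    have h1 := H1.Frat.card_closure_sup_frattini_dvd hG T
    rw [hT, top_sup_eq, Subgroup.card_top, ← Subgroup.card_mul_index (frattini G), hn, mul_comm] at h1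
    have h2 := Nat.dvd_of_mul_dvd_mul_right Nat.card_pos h1
    exact (Nat.pow_dvd_pow_iff_le_right (Fact.out : p.Prime).one_lt).mp h2

end Cfsg.Agent.S0014
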