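import Cfsg.Statements.S0021
import Cfsg.Agent.Lib.H11.HallConverse
import Cfsg.Agent.Lib.H1.PermProd

set_option autoImplicit false
open Pointwise
open Cfsg

namespace Cfsg.Agent.S0021

theorem exists_finset (u : Finset ℕ) (hu : ∀ p ∈ u, p.Prime) (f : ℕ → ℕ) :
    ∃ s : Finset Nat.Primes, ∏ q ∈ s, f (q : ℕ) = ∏ q ∈ u, f q := by
  classical
  have hg : ∃ g : {x // x ∈ u} → Nat.Primes, ∀ x, (g x : ℕ) = x.1 :=
    ⟨fun q => ⟨q.1, hu q.1 q.2⟩, fun _ => rfl⟩
  obtain ⟨g, hg⟩ := hg
  refine ⟨u.attach.image g, ?_⟩
  rw [Finset.prod_image]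
  · simp only [hg]
    exact Finset.prod_attach u f
  · intro a _ b _ h
    exact Subtype.ext (by rw [← hg a, ← hg b, h])

/-- A finite group with a family of pairwise permuting Sylow subgroups, one for each prime, is solvable (this direction rests on Burnside's two-prime Theorem). -/
theorem result {G : Type*} [Group G] [Finite G]
    (S : (p : Nat.Primes) → Sylow (p : ℕ) G)
    (hS : ∀ p q : Nat.Primes, (S p : Set G) * (S q : Set G) = (S q : Set G) * (S p : Set G)) :
    Group.IsSolvable G := by
  classical
  refine H11.HallConverse.isSolvable_of_complements fun p hp => ?_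
  have h0 : Nat.card G ≠ 0 := Nat.card_pos.ne'
  obtain ⟨s, hs⟩ := exists_finset ((Nat.card G).primeFactors.erase p)
    (fun q hq => Nat.prime_of_mem_primeFactors (Finset.mem_of_mem_erase hq))
    (fun q => q ^ (Nat.card G).factorization q)
  obtain ⟨T, hT, -⟩ := H1.PermProd.exists_prod_sylow S hS s
  refine ⟨T, ?_⟩
  have hprod : p ^ (Nat.card G).factorization p * Nat.card T = Nat.card G := by
    rw [hT]
    refine (congrArg _ hs).trans ?_
    by_cases hpd : p ∈ (Nat.card G).primeFactors
    · rw [Finset.mul_prod_erase (Nat.card G).primeFactors (fun q => q ^ (Nat.card G).factorization q) hpd]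
      exact Nat.prod_factorization_pow_eq_self h0
    · have h1 : (Nat.card G).factorization p = 0 := by
        rw [← Nat.support_factorization] at hpd
        exact Finsupp.notMem_support_iff.mp hpd
      rw [h1, pow_zero, one_mul, Finset.erase_eq_of_notMem hpd]
      exact Nat.prod_factorization_pow_eq_self h0
  have h4 := T.card_mul_index
  have h5 : 0 < Nat.card T := Nat.card_pos
  rw [mul_comm, ← h4] at hprod
  rw [h4] at hprod
  exact (Nat.eq_of_mul_eq_mul_left h5 (hprod.trans h4.symm)).symm

end Cfsg.Agent.S0021
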