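import Cfsg.Statements.S0038
import Cfsg.Agent.Lib.H1.FrobConj

set_option autoImplicit false
open Pointwise
open Cfsg

namespace Cfsg.Agent.S0038

/-- All Frobenius complements of a finite group are conjugate to one another. -/
theorem result {G : Type*} [Group G] [Finite G] (H H₀ : Subgroup G)
    (hH : Cfsg.IsFrobeniusComplement H) (hH₀ : Cfsg.IsFrobeniusComplement H₀) :
    ∃ g : G, MulAut.conj g • H₀ = H := by
  have key : ∀ A B : Subgroup G, IsFrobeniusComplement A → IsFrobeniusComplement B →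
      Nat.card B ≤ Nat.card A → ∃ g : G, MulAut.conj g • B = A := by
    intro A B hA hB hle
    obtain ⟨g, hg⟩ := H1.FrobConj.exists_conj_le_of_card_le hA hB hle
    refine ⟨g, H1.FrobConj.eq_of_le ⟨H1.FrobConj.smul_ne_bot hB.1 g, ?_, ?_⟩ hA hg⟩
    · intro h
      apply hB.2.1
      rw [← Subgroup.card_eq_iff_eq_top, ← H1.SZ.card_conj_smul g B, h, Subgroup.card_top]
    · intro x hx
      have hx' : g⁻¹ * x * g ∉ B := fun h => hx (H1.SZ.mem_conj_smul.mpr h)
      have h1 := hB.2.2 _ hx'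
      rw [eq_bot_iff]
      intro y hy
      obtain ⟨hy1, hy2⟩ := Subgroup.mem_inf.mp hy
      rw [H1.SZ.mem_conj_smul] at hy1
      rw [H1.SZ.mem_conj_smul, H1.SZ.mem_conj_smul] at hy2
      have h2 : g⁻¹ * y * g ∈ B ⊓ (MulAut.conj (g⁻¹ * x * g) • B) := by
        refine Subgroup.mem_inf.mpr ⟨hy1, H1.SZ.mem_conj_smul.mpr ?_⟩
        have : (g⁻¹ * x * g)⁻¹ * (g⁻¹ * y * g) * (g⁻¹ * x * g) = g⁻¹ * (x⁻¹ * y * x) * g := by group
        rw [this]; exact hy2
      rw [h1, Subgroup.mem_bot] at h2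
      rw [Subgroup.mem_bot]
      have : y = g * (g⁻¹ * y * g) * g⁻¹ := by group
      rw [this, h2]; simp
  rcases le_total (Nat.card H₀) (Nat.card H) with h | h
  · exact key H H₀ hH hH₀ h
  · obtain ⟨g, hg⟩ := key H₀ H hH₀ hH h
    refine ⟨g⁻¹, ?_⟩
    rw [← hg, ← H1.SZ.conj_mul_smul, inv_mul_cancel, map_one, one_smul]

end Cfsg.Agent.S0038
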