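import Cfsg.Statements.S0047
import Mathlib.GroupTheory.Commutator.Basic
import Mathlib.Tactic.Group

set_option autoImplicit false
open Cfsg
open scoped commutatorElement

namespace Cfsg.Agent.S0047

/-- A finite group which is the product AB of two abelian subgroups A and B is solvable. -/
theorem result {G : Type*} [Group G] [Finite G] (A B : Subgroup G)
    [IsMulCommutative A] [IsMulCommutative B] (hAB : ∀ g : G, ∃ a ∈ A, ∃ b ∈ B, g = a * b) :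
    Group.IsSolvable G := by
  have hBA : ∀ g : G, ∃ b ∈ B, ∃ a ∈ A, g = b * a := by
    intro g
    obtain ⟨a, ha, b, hb, h⟩ := hAB g⁻¹
    exact ⟨b⁻¹, B.inv_mem hb, a⁻¹, A.inv_mem ha, by rw [← mul_inv_rev, ← h, inv_inv]⟩
  have hA : ∀ a ∈ A, ∀ a' ∈ A, a * a' = a' * a := fun a ha a' ha' => by
    have := IsMulCommutative.is_comm.comm (⟨a, ha⟩ : A) ⟨a', ha'⟩
    simpa using congrArg Subtype.val this
  have hB : ∀ a ∈ B, ∀ a' ∈ B, a * a' = a' * a := fun a ha a' ha' => by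
    have := IsMulCommutative.is_comm.comm (⟨a, ha⟩ : B) ⟨a', ha'⟩
    simpa using congrArg Subtype.val this
  have hnormal : (⁅A, B⁆ : Subgroup G).Normal := by
    rw [← Subgroup.normalizer_eq_top_iff, eq_top_iff]
    intro g _
    obtain ⟨a, ha, b, hb, rfl⟩ := hAB g
    exact Subgroup.mul_mem _ (Subgroup.normalizer_commutator_ge_left A B ha)
      (Subgroup.normalizer_commutator_ge_right A B hb)
  have e3 : ∀ a ∈ A, ∀ b ∈ B, ∀ a1 ∈ A, ∀ b1 ∈ B,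
      b1 * (a1 * ⁅a, b⁆ * a1⁻¹) * b1⁻¹ = a1 * (b1 * ⁅a, b⁆ * b1⁻¹) * a1⁻¹ := by
    intro a ha b hb a1 ha1 b1 hb1
    obtain ⟨b2, hb2, a2, ha2, h2⟩ := hBA (a1 * b * a1⁻¹)
    obtain ⟨a3, ha3, b3, hb3, h3⟩ := hAB (b1 * a * b1⁻¹)
    have e1 : ∀ x ∈ A, a1 * ⁅x, b⁆ * a1⁻¹ = ⁅x, b2⁆ := by
      intro x hx
      have : a1 * ⁅x, b⁆ * a1⁻¹ = ⁅a1 * x * a1⁻¹, a1 * b * a1⁻¹⁆ := by
        simp only [commutatorElement_def]; group
      rw [this, h2, hA a1 ha1 x hx, mul_inv_cancel_right, commutatorElement_def, commutatorElement_def]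
      calc x * (b2 * a2) * x⁻¹ * (b2 * a2)⁻¹ = x * b2 * (a2 * x⁻¹) * a2⁻¹ * b2⁻¹ := by group
        _ = x * b2 * (x⁻¹ * a2) * a2⁻¹ * b2⁻¹ := by rw [hA a2 ha2 _ (A.inv_mem hx)]
        _ = x * b2 * x⁻¹ * b2⁻¹ := by group
    have e2 : ∀ y ∈ B, b1 * ⁅a, y⁆ * b1⁻¹ = ⁅a3, y⁆ := by
      intro y hy
      have : b1 * ⁅a, y⁆ * b1⁻¹ = ⁅b1 * a * b1⁻¹, b1 * y * b1⁻¹⁆ := by
        simp only [commutatorElement_def]; group
      rw [this, h3, hB b1 hb1 y hy, mul_inv_cancel_right, commutatorElement_def, commutatorElement_def]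
      calc a3 * b3 * y * (a3 * b3)⁻¹ * y⁻¹ = a3 * (b3 * y) * b3⁻¹ * a3⁻¹ * y⁻¹ := by group
        _ = a3 * (y * b3) * b3⁻¹ * a3⁻¹ * y⁻¹ := by rw [hB b3 hb3 y hy]
        _ = a3 * y * a3⁻¹ * y⁻¹ := by group
    rw [e1 a ha, e2 b2 hb2, e2 b hb, e1 a3 ha3]
  -- key commutation
  have key : ∀ a ∈ A, ∀ b ∈ B, ∀ a1 ∈ A, ∀ b1 ∈ B, ⁅a, b⁆ * ⁅a1, b1⁆ = ⁅a1, b1⁆ * ⁅a, b⁆ := by
    intro a ha b hb a1 ha1 b1 hb1
    have h := e3 a ha b hb a1⁻¹ (A.inv_mem ha1) b1⁻¹ (B.inv_mem hb1)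
    rw [inv_inv, inv_inv] at h
    generalize ⁅a, b⁆ = x at h
    rw [commutatorElement_def]
    calc x * (a1 * b1 * a1⁻¹ * b1⁻¹)
        = a1 * b1 * (b1⁻¹ * (a1⁻¹ * x * a1) * b1) * a1⁻¹ * b1⁻¹ := by group
      _ = a1 * b1 * (a1⁻¹ * (b1⁻¹ * x * b1) * a1) * a1⁻¹ * b1⁻¹ := by rw [h]
      _ = a1 * b1 * a1⁻¹ * b1⁻¹ * x := by group
  have hCcomm : IsMulCommutative (⁅A, B⁆ : Subgroup G) := by
    rw [Subgroup.commutator_def]
    apply Subgroup.isMulCommutative_closure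
    rintro x ⟨a, ha, b, hb, rfl⟩ y ⟨a1, ha1, b1, hb1, rfl⟩
    exact key a ha b hb a1 ha1 b1 hb1
  rw [Group.isSolvable_iff_subgroup_quotient (⁅A, B⁆ : Subgroup G)]
  constructor
  · exact Group.isSolvable_of_comm (fun a b => IsMulCommutative.is_comm.comm a b)
  · apply Group.isSolvable_of_comm
    intro x y
    obtain ⟨g, rfl⟩ := QuotientGroup.mk_surjective x
    obtain ⟨g', rfl⟩ := QuotientGroup.mk_surjective y
    obtain ⟨a, ha, b, hb, rfl⟩ := hAB g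
    obtain ⟨a', ha', b', hb', rfl⟩ := hAB g'
    have hc : ∀ a ∈ A, ∀ b ∈ B, (a : G ⧸ (⁅A, B⁆ : Subgroup G)) * b = b * a := by
      intro a ha b hb
      rw [← QuotientGroup.mk_mul, ← QuotientGroup.mk_mul, QuotientGroup.eq]
      have : (a * b)⁻¹ * (b * a) = ⁅b⁻¹, a⁻¹⁆ := by rw [commutatorElement_def]; group
      rw [this, ← commutatorElement_inv]
      exact Subgroup.inv_mem _ (Subgroup.commutator_mem_commutator (A.inv_mem ha) (B.inv_mem hb))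
    simp only [QuotientGroup.mk_mul]
    have h1 : (a : G ⧸ (⁅A, B⁆ : Subgroup G)) * a' = a' * a := by
      rw [← QuotientGroup.mk_mul, hA a ha a' ha', QuotientGroup.mk_mul]
    have h2 : (b : G ⧸ (⁅A, B⁆ : Subgroup G)) * b' = b' * b := by
      rw [← QuotientGroup.mk_mul, hB b hb b' hb', QuotientGroup.mk_mul]
    calc (a : G ⧸ (⁅A, B⁆ : Subgroup G)) * b * (a' * b') = a * (b * a') * b' := by group
      _ = a * (a' * b) * b' := by rw [hc a' ha' b hb]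
      _ = (a * a') * (b * b') := by group
      _ = (a' * a) * (b' * b) := by rw [h1, h2]
      _ = a' * (a * b') * b := by group
      _ = a' * (b' * a) * b := by rw [hc a ha b' hb']
      _ = a' * b' * (a * b) := by group

end Cfsg.Agent.S0047
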