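import Cfsg.Statements.S0049
import Mathlib.GroupTheory.SchurZassenhaus
import Mathlib.GroupTheory.Frattini

set_option autoImplicit false
open Cfsg

namespace Cfsg.Agent.S0049

/-- A prime divisor of the order of a finite group also divides the index of the Frattini subgroup. -/
theorem result {G : Type*} [Group G] [Finite G] (p : ℕ) (hp : p.Prime) (hdvd : p ∣ Nat.card G) :
    p ∣ (frattini G).index := by
  by_contra hnd
  haveI : Fact p.Prime := ⟨hp⟩
  obtain ⟨P⟩ := (Sylow.nonempty : Nonempty (Sylow p (frattini G)))
  have h1 := frattini_nongenerating (Sylow.normalizer_sup_eq_top P)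
  have hN : ((P : Subgroup (frattini G)).map (frattini G).subtype).Normal :=
    Subgroup.normalizer_eq_top_iff.mp h1
  have hcard : Nat.card ((P : Subgroup (frattini G)).map (frattini G).subtype) = Nat.card P :=
    Subgroup.card_map_of_injective (frattini G).subtype_injective
  have hidx : ((P : Subgroup (frattini G)).map (frattini G).subtype).index =
      (P : Subgroup (frattini G)).index * (frattini G).index := by
    rw [Subgroup.index_map_subtype]
  obtain ⟨n, hn⟩ := IsPGroup.iff_card.mp P.2
  have hcop : Nat.Coprime (Nat.card ((P : Subgroup (frattini G)).map (frattini G).subtype))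
      ((P : Subgroup (frattini G)).map (frattini G).subtype).index := by
    rw [hcard, hidx, hn]
    refine Nat.Coprime.pow_left _ ((Nat.Prime.coprime_iff_not_dvd hp).2 ?_)
    intro h
    rcases (Nat.Prime.dvd_mul hp).1 h with h | h
    · exact P.not_dvd_index h
    · exact hnd h
  obtain ⟨K, hK⟩ := Subgroup.exists_right_complement'_of_coprime hcop
  have hKtop : K = ⊤ := by
    apply frattini_nongenerating
    rw [eq_top_iff, ← hK.symm.sup_eq_top]
    exact sup_le_sup_left (Subgroup.map_subtype_le _) _
  rw [hKtop, Subgroup.isComplement'_top_right] at hK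
  rw [hK] at hidx
  have : p ∣ (P : Subgroup (frattini G)).index * (frattini G).index := by
    rw [← hidx, Subgroup.index_bot]; exact hdvd
  rcases (Nat.Prime.dvd_mul hp).1 this with h | h
  · exact P.not_dvd_index h
  · exact hnd h

end Cfsg.Agent.S0049
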