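import Cfsg.Statements.S0050
import Cfsg.Agent.Lib.H1.Hall
import Cfsg.Agent.Lib.H1.SZ

set_option autoImplicit false
open Cfsg

namespace Cfsg.Agent.S0050

open Pointwise

/-- Frattini argument for Hall subgroups: if L is a solvable normal subgroup and H a subgroup of L of order coprime to its index in L, then L together with the normaliser of H generates the whole group. -/
theorem result {G : Type*} [Group G] [Finite G] (L : Subgroup G) [L.Normal] (hL : Group.IsSolvable L)
    (H : Subgroup G) (hHL : H ≤ L) (hHall : (Nat.card H).Coprime (H.relIndex L)) :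
    L ⊔ Subgroup.normalizer (H : Set G) = ⊤ := by
  rw [eq_top_iff]
  intro g _
  have hgL : MulAut.conj g • H ≤ L := by
    intro x hx
    rw [H1.SZ.mem_conj_smul] at hx
    have := (inferInstance : L.Normal).conj_mem _ (hHL hx) g
    simpa [mul_assoc] using this
  have hc1 : Nat.card (H.subgroupOf L) = Nat.card H := H1.SZ.card_subgroupOf_of_le hHL
  have hc2 : Nat.card ((MulAut.conj g • H).subgroupOf L) = Nat.card H := by
    rw [H1.SZ.card_subgroupOf_of_le hgL, H1.SZ.card_conj_smul]
  have hcard : Nat.card L = Nat.card H * H.relIndex L := by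
    rw [← hc1]; exact ((H.subgroupOf L).card_mul_index).symm
  obtain ⟨l, hl⟩ := H1.Hall.conj_of_card_eq hL (Nat.card H) (H.relIndex L) hcard hHall
    ((MulAut.conj g • H).subgroupOf L) (H.subgroupOf L) hc2 hc1
  rw [H1.SZ.conj_smul_subgroupOf_eq_iff hgL hHL] at hl
  rw [← H1.SZ.conj_mul_smul] at hl
  have h1 : (l : G) * g ∈ Subgroup.normalizer (H : Set G) := H1.SZ.mem_normalizer_of_conj_smul_eq hl
  have h2 : g = (l : G)⁻¹ * ((l : G) * g) := by group
  rw [h2]
  exact Subgroup.mul_mem_sup (L.inv_mem l.2) h1

end Cfsg.Agent.S0050
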