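import Cfsg.Statements.S0053
import Mathlib.GroupTheory.Frattini
import Mathlib.GroupTheory.Complement

set_option autoImplicit false
open Cfsg

namespace Cfsg.Agent.S0053

/-- An abelian minimal normal subgroup N of a finite group is complemented exactly when N is not inside the Frattini subgroup. -/
theorem result {G : Type*} [Group G] [Finite G]
    (N : Subgroup G) [N.Normal] [IsMulCommutative N] (hN : N ≠ ⊥)
    (hmin : ∀ M : Subgroup G, M.Normal → M ≤ N → M = ⊥ ∨ M = N) :
    (∃ H : Subgroup G, Subgroup.IsComplement' N H) ↔ ¬ N ≤ frattini G := by
  constructor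
  · rintro ⟨H, hH⟩ hle
    have hHtop : H = ⊤ := by
      apply frattini_nongenerating
      rw [eq_top_iff, ← hH.symm.sup_eq_top]
      exact sup_le_sup_left hle _
    rw [hHtop, Subgroup.isComplement'_top_right] at hH
    exact hN hH
  · intro hle
    have : ∃ M : Subgroup G, IsCoatom M ∧ ¬ N ≤ M := by
      by_contra hcon
      push Not at hcon
      apply hle
      rw [frattini, Order.radical]
      exact le_iInf₂ fun M hM => hcon M hM
    obtain ⟨M, hM, hNM⟩ := this
    refine ⟨M, ?_⟩
    have hsup : N ⊔ M = ⊤ := by
      rw [sup_comm]
      exact hM.2 _ (lt_of_le_of_ne le_sup_left (fun h => hNM (by rw [h]; exact le_sup_right)))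
    have hnorm : (N ⊓ M).Normal := by
      rw [← Subgroup.normalizer_eq_top_iff, eq_top_iff, ← hsup]
      apply sup_le
      · intro n hn
        rw [Subgroup.mem_normalizer_iff]
        intro h
        have hc : ∀ x ∈ N, n * x = x * n := fun x hx => by
          have := IsMulCommutative.is_comm.comm (⟨n, hn⟩ : N) ⟨x, hx⟩
          simpa using congrArg Subtype.val this
        constructor
        · intro hh
          have := hc h hh.1
          rw [this, mul_inv_cancel_right]; exact hh
        · intro hh
          have h1 : h ∈ N := by
            have := (inferInstance : N.Normal).conj_mem _ hh.1 n⁻¹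
            simpa [mul_assoc] using this
          have := hc h h1
          rw [this, mul_inv_cancel_right] at hh
          exact hh
      · intro m hm
        rw [Subgroup.mem_normalizer_iff]
        intro h
        rw [Subgroup.mem_inf, Subgroup.mem_inf]
        constructor
        · rintro ⟨h1, h2⟩
          exact ⟨(inferInstance : N.Normal).conj_mem _ h1 m, M.mul_mem (M.mul_mem hm h2) (M.inv_mem hm)⟩
        · rintro ⟨h1, h2⟩
          refine ⟨?_, ?_⟩
          · have := (inferInstance : N.Normal).conj_mem _ h1 m⁻¹
            simpa [mul_assoc] using this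
          · have := M.mul_mem (M.mul_mem (M.inv_mem hm) h2) hm
            simpa [mul_assoc] using this
    have hbot : N ⊓ M = ⊥ := by
      rcases hmin _ hnorm inf_le_left with h | h
      · exact h
      · exact absurd (inf_eq_left.1 h) hNM
    apply Subgroup.isComplement'_of_disjoint_and_mul_eq_univ (disjoint_iff.2 hbot)
    rw [← Subgroup.normal_mul, hsup]
    rfl

end Cfsg.Agent.S0053
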