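import Cfsg.Statements.S0054
import Mathlib.GroupTheory.PGroup
import Mathlib.GroupTheory.Sylow

set_option autoImplicit false
open Cfsg

namespace Cfsg.Agent.S0054

/-- A regular normal subgroup of a finite 2-transitive group is elementary abelian: it is commutative and all its elements have order dividing one prime. -/
theorem result {G : Type*} [Group G] [Finite G]
    {X : Type*} [Nonempty X] [MulAction G X] (h2 : MulAction.IsMultiplyPretransitive G X 2)
    (N : Subgroup G) [N.Normal] (htrans : MulAction.IsPretransitive N X) (hreg : ∀ x : X, MulAction.stabilizer N x = ⊥) :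
    IsMulCommutative N ∧ ∃ p : ℕ, p.Prime ∧ ∀ n ∈ N, n ^ p = 1 := by
  rw [MulAction.is_two_pretransitive_iff] at h2
  obtain ⟨x₀⟩ := (inferInstance : Nonempty X)
  have hmove : ∀ a ∈ N, a ≠ 1 → a • x₀ ≠ x₀ := by
    intro a ha ha1 h
    have : (⟨a, ha⟩ : N) ∈ MulAction.stabilizer N x₀ := h
    rw [hreg, Subgroup.mem_bot] at this
    exact ha1 (congrArg Subtype.val this)
  have hconj : ∀ a ∈ N, ∀ b ∈ N, a ≠ 1 → b ≠ 1 → ∃ g : G, g * a * g⁻¹ = b := by
    intro a ha b hb ha1 hb1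
    obtain ⟨g, hg1, hg2⟩ := h2 (hmove a ha ha1).symm (hmove b hb hb1).symm
    refine ⟨g, ?_⟩
    have hmem : b⁻¹ * (g * a * g⁻¹) ∈ N :=
      N.mul_mem (N.inv_mem hb) ((inferInstance : N.Normal).conj_mem _ ha g)
    have hst : (⟨b⁻¹ * (g * a * g⁻¹), hmem⟩ : N) ∈ MulAction.stabilizer N x₀ := by
      change (b⁻¹ * (g * a * g⁻¹)) • x₀ = x₀
      have h3 : g⁻¹ • x₀ = x₀ := by rw [inv_smul_eq_iff]; exact hg1.symm
      rw [mul_smul, mul_smul, mul_smul, h3, hg2, inv_smul_smul]
    rw [hreg, Subgroup.mem_bot] at hst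
    have := congrArg Subtype.val hst
    simp only [Subgroup.coe_one] at this
    rw [inv_mul_eq_one] at this
    exact this.symm
  by_cases hN : N = ⊥
  · subst hN
    refine ⟨⟨⟨fun a b => Subsingleton.elim _ _⟩⟩, 2, Nat.prime_two, ?_⟩
    intro n hn
    rw [Subgroup.mem_bot.1 hn, one_pow]
  · have hcard : Nat.card N ≠ 1 := fun h => hN (Subgroup.card_eq_one.1 h)
    obtain ⟨p, hp, hpd⟩ := Nat.exists_prime_and_dvd hcard
    haveI : Fact p.Prime := ⟨hp⟩
    obtain ⟨x, hx⟩ := exists_prime_orderOf_dvd_card' p hpd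
    have hxo : orderOf (x : G) = p := by rw [Subgroup.orderOf_coe]; exact hx
    have hx1 : (x : G) ≠ 1 := by
      intro h; rw [h, orderOf_one] at hxo; exact hp.one_lt.ne hxo
    have hexp : ∀ n ∈ N, n ^ p = 1 := by
      intro n hn
      by_cases hn1 : n = 1
      · rw [hn1, one_pow]
      · obtain ⟨g, hg⟩ := hconj x x.2 n hn hx1 hn1
        have hxp : (x : G) ^ p = 1 := by rw [← hxo]; exact pow_orderOf_eq_one _
        rw [← hg, conj_pow, hxp, mul_one, mul_inv_cancel]
    refine ⟨?_, p, hp, hexp⟩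
    have hPG : IsPGroup p N := by
      intro n
      exact ⟨1, by rw [pow_one]; exact Subtype.ext (hexp n n.2)⟩
    haveI : Nontrivial N := (Subgroup.nontrivial_iff_ne_bot N).2 hN
    obtain ⟨z, hz, hz1⟩ := (Subgroup.ne_bot_iff_exists_ne_one).1 hPG.bot_lt_center.ne' |>.elim
      (fun z hz => (⟨z.1, z.2, fun h => hz (Subtype.ext h)⟩ : ∃ z : N, z ∈ Subgroup.center N ∧ z ≠ 1))
    have hz1' : (z : G) ≠ 1 := fun h => hz1 (Subtype.ext h)
    refine ⟨⟨fun a b => ?_⟩⟩
    by_cases ha1 : (a : G) = 1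
    · have : a = 1 := Subtype.ext ha1
      rw [this, one_mul, mul_one]
    · obtain ⟨g, hg⟩ := hconj z z.2 a a.2 hz1' ha1
      apply Subtype.ext
      rw [Subgroup.coe_mul, Subgroup.coe_mul, ← hg]
      have h1 : g⁻¹ * b * g ∈ N := by
        have := (inferInstance : N.Normal).conj_mem _ b.2 g⁻¹
        simpa using this
      have h2 := Subgroup.mem_center_iff.1 hz ⟨g⁻¹ * b * g, h1⟩
      have h3 : (g⁻¹ * b * g) * z = z * (g⁻¹ * b * g) := congrArg Subtype.val h2
      calc g * z * g⁻¹ * b = g * (z * (g⁻¹ * b * g)) * g⁻¹ := by group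
        _ = g * ((g⁻¹ * b * g) * z) * g⁻¹ := by rw [h3]
        _ = b * (g * z * g⁻¹) := by group

end Cfsg.Agent.S0054
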