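import Cfsg.Statements.S0057
import Cfsg.Agent.Lib.H1.Coprime2
import Cfsg.Agent.S0007
import Cfsg.Agent.S0055

set_option autoImplicit false
open Cfsg
open scoped commutatorElement

namespace Cfsg.Agent.S0057

/-- Under coprime action, if the centraliser of A in K has prime index p in K then the commutator subgroup [K, A] has order exactly p. -/
theorem result {G : Type*} [Group G] [Finite G] (A K : Subgroup G) (hAK : A ≤ Subgroup.normalizer (K : Set G))
    (hcop : (Nat.card A).Coprime (Nat.card K)) (hsolv : Group.IsSolvable A ∨ Group.IsSolvable K)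
    (p : ℕ) (hp : p.Prime) (hidx : (K ⊓ Subgroup.centralizer (A : Set G)).relIndex K = p) :
    Nat.card (⁅K, A⁆ : Subgroup G) = p := by
  haveI : Fact p.Prime := ⟨hp⟩
  set C := K ⊓ Subgroup.centralizer (A : Set G) with hC
  set B : Subgroup G := ⁅K, A⁆ with hB
  have hBK : B ≤ K := H1.Coprime2.commutator_le_left hAK
  have hCK : C ≤ K := inf_le_left
  have hBC : B ⊔ C = K := H1.Coprime2.commutator_sup_centralizer A K hAK hcop hsolv
  have hBA : ⁅B, A⁆ = B := H1.Coprime2.commutator_commutator_eq A K hAK hcop hsolv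
  have hKB : K ≤ Subgroup.normalizer (B : Set G) := H1.Coprime2.le_normalizer_commutator_left K A
  have hAB : A ≤ Subgroup.normalizer (B : Set G) := H1.Coprime2.le_normalizer_commutator_right K A
  -- B is a p-group
  obtain ⟨P, hP, hAP⟩ := H1.Coprime2.exists_invariant_sylow A K hAK hcop hsolv p
  have hBP : B ≤ P := by
    obtain ⟨Q, hQ⟩ := hP.exists_sylow
    have hcopidx : (Q : Subgroup K).index.Coprime (C.subgroupOf K).index := by
      have h1 : (C.subgroupOf K).index = p := hidx
      rw [h1, Nat.coprime_comm, Nat.Prime.coprime_iff_not_dvd hp]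
      exact Q.not_dvd_index
    have h2 := (S0007.result (Q : Subgroup K) (C.subgroupOf K) hcopidx).2
    rw [hB, Subgroup.commutator_le]
    intro k hk a ha
    obtain ⟨x, hx, c, hc, hkxc⟩ := h2 ⟨k, hk⟩
    have hk' : k = x * c := congrArg Subtype.val hkxc
    have hxP : (x : G) ∈ P := by rw [← hQ]; exact ⟨x, hx, rfl⟩
    have hcC : (c : G) ∈ C := hc
    have h3 : ⁅(c : G), a⁆ = 1 := by
      rw [commutatorElement_eq_one_iff_mul_comm]
      exact (Subgroup.mem_centralizer_iff.mp (Subgroup.mem_inf.1 hcC).2 a ha).symm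
    rw [hk', H1.Coprime2.commutatorElement_mul_left, h3, mul_one, mul_inv_cancel, one_mul]
    have h4 : ⁅(x : G), a⁆ = x * (a * (x : G)⁻¹ * a⁻¹) := by rw [commutatorElement_def]; group
    rw [h4]
    exact P.mul_mem hxP ((Subgroup.mem_normalizer_iff.1 (hAP ha) _).1 (P.inv_mem hxP))
  have hBp : IsPGroup p B := hP.isPGroup.to_le hBP
  -- index of C ∩ B in B is p
  set D : Subgroup G := B ⊓ Subgroup.centralizer (A : Set G) with hD
  have hDidx : D.relIndex B = p := by
    have h1 : (C.subgroupOf K) ⊔ (B.subgroupOf K) = ⊤ := by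
      rw [← Subgroup.subgroupOf_sup hCK hBK, sup_comm, hBC, Subgroup.subgroupOf_self]
    haveI : (B.subgroupOf K).Normal := (Subgroup.normal_subgroupOf_iff_le_normalizer hBK).2 hKB
    have h2 : (C.subgroupOf K).index = (C.subgroupOf K).relIndex (B.subgroupOf K) := by
      rw [← Subgroup.relIndex_top_right, ← h1]
      set M := C.subgroupOf K
      set N := B.subgroupOf K
      have e1 : (M ⊓ N).relIndex N * N.relIndex (M ⊔ N) = (M ⊓ N).relIndex (M ⊔ N) :=
        Subgroup.relIndex_mul_relIndex _ _ _ inf_le_right le_sup_right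
      have e2 : (M ⊓ N).relIndex M * M.relIndex (M ⊔ N) = (M ⊓ N).relIndex (M ⊔ N) :=
        Subgroup.relIndex_mul_relIndex _ _ _ inf_le_left le_sup_left
      rw [Subgroup.relIndex_sup_right, Subgroup.inf_relIndex_right] at e1
      rw [Subgroup.inf_relIndex_left] at e2
      have h3 : N.relIndex M ≠ 0 := (Subgroup.index_ne_zero_of_finite : (N.subgroupOf M).index ≠ 0)
      have h4 : N.relIndex M * M.relIndex (M ⊔ N) = N.relIndex M * M.relIndex N := by
        rw [e2, ← e1, mul_comm]
      exact Nat.eq_of_mul_eq_mul_left (Nat.pos_of_ne_zero h3) h4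
    rw [Subgroup.relIndex_subgroupOf hBK] at h2
    have h3 : C.relIndex B = p := by rw [← h2]; exact hidx
    have h4 : D = C ⊓ B := by
      rw [hD, hC]
      ext z
      simp only [Subgroup.mem_inf]
      constructor
      · rintro ⟨h1, h2⟩; exact ⟨⟨hBK h1, h2⟩, h1⟩
      · rintro ⟨⟨_, h2⟩, h1⟩; exact ⟨h1, h2⟩
    rw [h4, Subgroup.inf_relIndex_right, h3]
  have hDB : D ≤ B := inf_le_left
  -- D is normal in B
  have hDne : D ≠ B := by
    intro he
    rw [he, Subgroup.relIndex_self] at hDidx
    exact hp.one_lt.ne hDidx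
  have hBnil : Group.IsNilpotent B := hBp.isNilpotent
  have hDnorm : (D.subgroupOf B).Normal := by
    have hlt : D.subgroupOf B < ⊤ := by
      rw [lt_top_iff_ne_top]
      intro h
      rw [Subgroup.subgroupOf_eq_top] at h
      exact hDne (le_antisymm hDB h)
    have h1 := Group.normalizerCondition_of_isNilpotent (G := B) _ hlt
    have h2 : (D.subgroupOf B).index = p := hDidx
    have h3 : (Subgroup.normalizer ((D.subgroupOf B : Subgroup B) : Set B)).index ∣ p := by
      rw [← h2]; exact Subgroup.index_dvd_of_le h1.le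
    have h4 : (Subgroup.normalizer ((D.subgroupOf B : Subgroup B) : Set B)).index < p := by
      rw [← h2]; exact Subgroup.index_strictAnti h1
    rcases (Nat.dvd_prime hp).1 h3 with h5 | h5
    · rw [Subgroup.index_eq_one] at h5
      exact Subgroup.normalizer_eq_top_iff.1 h5
    · omega
  have hBD : B ≤ Subgroup.normalizer (D : Set G) :=
    (Subgroup.normal_subgroupOf_iff_le_normalizer hDB).1 hDnorm
  -- D central in B by three subgroups
  have hDA : ⁅D, A⁆ = ⊥ := by
    rw [Subgroup.commutator_eq_bot_iff_le_centralizer]; exact inf_le_right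
  have hDBc : ⁅D, B⁆ ≤ D := Subgroup.le_normalizer_iff_commutator_le_left.1 hBD
  have hDcentral : ⁅B, D⁆ = ⊥ := by
    have h1 : ⁅⁅D, B⁆, A⁆ = ⊥ := by
      rw [eq_bot_iff, ← hDA]; exact Subgroup.commutator_mono hDBc le_rfl
    have h2 : ⁅⁅A, D⁆, B⁆ = ⊥ := by
      rw [Subgroup.commutator_comm A D, hDA, Subgroup.commutator_bot_left]
    -- rotate: ⁅⁅B, A⁆, D⁆ = ⊥
    have h3 := Subgroup.commutator_commutator_eq_bot_of_rotate (H₁ := B) (H₂ := A) (H₃ := D) h2 h1
    rwa [hBA] at h3
  -- B is abelian
  have hBcomm : IsMulCommutative B := by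
    have hcyc : IsCyclic (B ⧸ D.subgroupOf B) := by
      apply isCyclic_of_prime_card (p := p)
      rw [← Subgroup.index_eq_card]; exact hDidx
    have := MonoidHom.isMulCommutative_of_isCyclic_of_ker_le_center (QuotientGroup.mk' (D.subgroupOf B)) (by
      rw [QuotientGroup.ker_mk']
      intro x hx
      rw [Subgroup.mem_center_iff]
      intro g
      apply Subtype.ext
      rw [Subgroup.commutator_eq_bot_iff_le_centralizer] at hDcentral
      exact (Subgroup.mem_centralizer_iff.1 (hDcentral g.2) x hx).symm)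
    exact this
  have h5 := S0055.result A B hAB (hcop.coprime_dvd_right (Subgroup.card_dvd_of_le hBK))
  rw [hBA] at h5
  have hDbot : D = ⊥ := by
    rw [← h5.1]; exact (inf_eq_left.2 hDB).symm
  rw [hDbot, Subgroup.relIndex_bot_left] at hDidx
  exact hDidx

end Cfsg.Agent.S0057
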