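import Cfsg.Statements.S0060
import Mathlib.GroupTheory.Sylow
import Mathlib.GroupTheory.Subgroup.Centralizer
import Mathlib.Data.Fintype.Lattice
import Cfsg.Agent.Lib.H2.Conj

set_option autoImplicit false
open Pointwise
open Cfsg

namespace Cfsg.Agent.S0060

/-- Brodkey's Theorem: in a finite group with abelian Sylow p-subgroups and no nontrivial normal p-subgroup, some conjugate of a Sylow p-subgroup meets it trivially. -/
theorem result {G : Type*} [Group G] [Finite G] (p : ℕ) [Fact p.Prime]
    (S : Sylow p G) (hS : IsMulCommutative S) (hOp : Cfsg.pCore p G = ⊥) :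
    ∃ g : G, (S : Subgroup G) ⊓ MulAut.conj g • (S : Subgroup G) = ⊥ := by
  classical
  -- choose `g` with minimal intersection
  obtain ⟨g, hg⟩ := Finite.exists_min
    (fun g : G => Nat.card ((S : Subgroup G) ⊓ MulAut.conj g • (S : Subgroup G) : Subgroup G))
  refine ⟨g, ?_⟩
  set D : Subgroup G := (S : Subgroup G) ⊓ MulAut.conj g • (S : Subgroup G) with hD
  set T : Sylow p G := g • S with hT
  have hTS : (T : Subgroup G) = MulAut.conj g • (S : Subgroup G) := Sylow.coe_subgroup_smul
  have hScomm : ∀ x ∈ (S : Subgroup G), ∀ y ∈ (S : Subgroup G), x * y = y * x := by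
    intro x hx y hy
    have := hS.is_comm.comm ⟨x, hx⟩ ⟨y, hy⟩
    exact congrArg Subtype.val this
  have hTcomm : ∀ x ∈ (T : Subgroup G), ∀ y ∈ (T : Subgroup G), x * y = y * x := by
    intro x hx y hy
    rw [hTS, H2.Conj.mem_conj_smul] at hx hy
    have := hScomm _ hx _ hy
    calc x * y = g * (g⁻¹ * x * g * (g⁻¹ * y * g)) * g⁻¹ := by group
      _ = g * (g⁻¹ * y * g * (g⁻¹ * x * g)) * g⁻¹ := by rw [this]
      _ = y * x := by group
  -- normalizer of D
  set N := Subgroup.normalizer (D : Set G) with hN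
  have hSN : (S : Subgroup G) ≤ N := by
    refine le_trans ?_ (Subgroup.centralizer_le_normalizer _)
    intro x hx
    rw [Subgroup.mem_centralizer_iff]
    intro y hy
    exact hScomm y (Subgroup.mem_inf.1 hy).1 x hx
  have hTN : (T : Subgroup G) ≤ N := by
    refine le_trans ?_ (Subgroup.centralizer_le_normalizer _)
    intro x hx
    rw [Subgroup.mem_centralizer_iff]
    intro y hy
    exact hTcomm y (by rw [hTS]; exact (Subgroup.mem_inf.1 hy).2) x hx
  -- D is contained in every Sylow subgroup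
  have hall : ∀ P : Sylow p G, D ≤ (P : Subgroup G) := by
    intro P
    -- (P ∩ N) is contained in an N-conjugate of S
    have hPN : IsPGroup p ((P : Subgroup G).subgroupOf N) := P.2.comap_subtype
    obtain ⟨Q, hQ⟩ := hPN.exists_le_sylow
    obtain ⟨n, hn⟩ := MulAction.exists_smul_eq N Q (S.subtype hSN)
    -- n • Q = S ∩ N
    have hincl : ∀ x ∈ (P : Subgroup G), x ∈ N → (n : G) * x * (n : G)⁻¹ ∈ (S : Subgroup G) := by
      intro x hx hxN
      have h1 : (⟨x, hxN⟩ : N) ∈ (Q : Subgroup N) := hQ hx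
      have h2 : n * ⟨x, hxN⟩ * n⁻¹ ∈ ((n • Q : Sylow p N) : Subgroup N) := by
        rw [Sylow.coe_subgroup_smul]
        exact ⟨⟨x, hxN⟩, h1, rfl⟩
      rw [hn] at h2
      exact h2
    -- T ∩ nPn⁻¹ ≤ D
    have hle : ((T : Subgroup G) ⊓ ((n : G) • P : Sylow p G) : Subgroup G) ≤ D := by
      rintro y hy
      obtain ⟨hyT, hyP⟩ := Subgroup.mem_inf.1 hy
      rw [H2.Conj.mem_sylow_smul] at hyP
      have hxN : (n : G)⁻¹ * y * n ∈ N := N.mul_mem (N.mul_mem (N.inv_mem n.2) (hTN hyT)) n.2
      rw [hD, ← hTS]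
      refine Subgroup.mem_inf.2 ⟨?_, hyT⟩
      have := hincl _ hyP hxN
      simpa [mul_assoc] using this
    -- by minimality equality
    have hcard : Nat.card D ≤ Nat.card ((T : Subgroup G) ⊓ ((n : G) • P : Sylow p G) : Subgroup G) := by
      obtain ⟨h, hh⟩ := MulAction.exists_smul_eq G T ((n : G) • P)
      obtain ⟨u, hu⟩ := MulAction.exists_smul_eq G T S
      -- u • (T ∩ hT) = S ∩ (u h u⁻¹) S
      have h1 := hg (u * h * u⁻¹)
      refine le_trans h1 (le_of_eq ?_)
      have h2 : (S : Subgroup G) ⊓ MulAut.conj (u * h * u⁻¹) • (S : Subgroup G)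
          = MulAut.conj u • ((T : Subgroup G) ⊓ ((n : G) • P : Sylow p G) : Subgroup G) := by
        have e1 : MulAut.conj u • (T : Subgroup G) = S := by
          rw [← Sylow.coe_subgroup_smul, hu]
        have e2 : MulAut.conj u⁻¹ • (S : Subgroup G) = T := by
          rw [← e1, smul_smul, ← map_mul, inv_mul_cancel, map_one, one_smul]
        have e3 : ((h • T : Sylow p G) : Subgroup G) = MulAut.conj h • (T : Subgroup G) :=
          Sylow.coe_subgroup_smul
        rw [Subgroup.smul_inf, ← hh, e3, e1, H2.Conj.conj_mul_smul,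
          H2.Conj.conj_mul_smul, e2]
      rw [h2]
      exact (Nat.card_congr (Subgroup.equivSMul (MulAut.conj u) _).toEquiv).symm
    have heq : ((T : Subgroup G) ⊓ ((n : G) • P : Sylow p G) : Subgroup G) = D :=
      Subgroup.eq_of_le_of_card_ge hle hcard
    have hDP : D ≤ (((n : G) • P : Sylow p G) : Subgroup G) := by
      rw [← heq]; exact inf_le_right
    intro d hd
    have h3 : (n : G) * d * (n : G)⁻¹ ∈ D := (Subgroup.mem_normalizer_iff.1 n.2 d).1 hd
    have h4 := hDP h3
    rw [H2.Conj.mem_sylow_smul] at h4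
    simpa [mul_assoc] using h4
  -- D ≤ O_p(G)
  have hcore : (⨅ P : Sylow p G, (P : Subgroup G)) ≤ Cfsg.pCore p G := by
    apply le_sSup
    refine ⟨?_, ?_⟩
    · constructor
      intro x hx g
      rw [Subgroup.mem_iInf] at hx ⊢
      intro P
      have := hx (g⁻¹ • P)
      rw [H2.Conj.mem_sylow_smul, inv_inv] at this
      exact this
    · obtain ⟨P⟩ := (Sylow.nonempty : Nonempty (Sylow p G))
      exact P.2.to_le (iInf_le _ P)
  rw [hOp] at hcore
  rw [eq_bot_iff]
  exact le_trans (le_iInf hall) hcore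

end Cfsg.Agent.S0060
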