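import Cfsg.Statements.S0061
import Mathlib.GroupTheory.Nilpotent
import Mathlib.GroupTheory.Perm.Cycle.Type
import Mathlib.Data.Fintype.Lattice
import Mathlib.GroupTheory.Complement
import Cfsg.Agent.Lib.H2.PGrp
import Cfsg.Agent.Lib.H2.Conj

set_option autoImplicit false
open Pointwise
open Cfsg

namespace Cfsg.Agent.S0061

/-- The trivial intersection case: a Sylow `q`-subgroup is normal. -/
theorem ti_case {G : Type*} [Group G] [Finite G] (p q m : ℕ) [hp : Fact p.Prime] [hq : Fact q.Prime]
    (hpq : p ≠ q) (hG : Nat.card G = p ^ m * q) (P : Sylow p G) (hNP : ¬ (P : Subgroup G).Normal)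
    (hti : ∀ g : G, g • P ≠ P → (P : Subgroup G) ⊓ (g • P : Sylow p G) = ⊥) (Q : Sylow q G) :
    (Q : Subgroup G).Normal := by
  classical
  have hpq' : ¬ p ∣ q := fun h => hpq ((Nat.prime_dvd_prime_iff_eq hp.out hq.out).1 h)
  obtain ⟨hPc, hPi⟩ := H2.PGrp.card_sylow_mul_index hpq' hG P
  have hQc : Nat.card Q = q := by
    have hqp : ¬ q ∣ p ^ m := fun h => hpq
      ((Nat.prime_dvd_prime_iff_eq hq.out hp.out).1 (hq.out.dvd_of_dvd_pow h)).symm
    have := (H2.PGrp.card_sylow_mul_index (m := 1) hqp (by rw [hG, pow_one, mul_comm]) Q).1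
    rwa [pow_one] at this
  -- normalizer of P is P
  have hnorm : Subgroup.normalizer ((P : Subgroup G) : Set G) = (P : Subgroup G) := by
    have h1 : (P : Subgroup G) ≤ Subgroup.normalizer ((P : Subgroup G) : Set G) :=
      Subgroup.le_normalizer
    have h2 := Subgroup.relIndex_mul_index h1
    rw [hPi] at h2
    rcases (Nat.dvd_prime hq.out).1 (Dvd.intro _ h2) with h3 | h3
    · exact le_antisymm (Subgroup.relIndex_eq_one.1 h3) h1
    · exfalso
      rw [h3] at h2
      have h4 : (Subgroup.normalizer ((P : Subgroup G) : Set G)).index = 1 :=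
        Nat.eq_of_mul_eq_mul_left hq.out.pos (by rw [h2, mul_one])
      rw [Subgroup.index_eq_one] at h4
      exact hNP (Subgroup.normalizer_eq_top_iff.1 h4)
  let f : (G ⧸ (P : Subgroup G)) × {x : P // x ≠ 1} ⊕ Q → G := fun z =>
    match z with
    | Sum.inl z => z.1.out * (z.2 : P) * z.1.out⁻¹
    | Sum.inr y => y
  have hcopQ : ∀ x ∈ (P : Subgroup G), ∀ g : G, g * x * g⁻¹ ∈ (Q : Subgroup G) → x = 1 := by
    intro x hx g hxQ
    obtain ⟨a, ha⟩ := (IsPGroup.iff_orderOf.1 P.2) ⟨x, hx⟩
    obtain ⟨b, hb⟩ := (IsPGroup.iff_orderOf.1 Q.2) ⟨_, hxQ⟩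
    rw [Subgroup.orderOf_mk] at ha hb
    have h1 : orderOf (g * x * g⁻¹) = orderOf x := by
      rw [← MulAut.conj_apply]
      exact orderOf_injective (MulAut.conj g).toMonoidHom (MulAut.conj g).injective x
    rw [h1, ha] at hb
    have hcop : Nat.Coprime (p ^ a) (q ^ b) := Nat.Coprime.pow _ _ ((Nat.coprime_primes hp.out hq.out).2 hpq)
    rw [hb, Nat.coprime_self] at hcop
    rw [hb, hcop] at ha
    exact orderOf_eq_one_iff.1 ha
  have hf : Function.Injective f := by
    rintro (⟨c, x⟩ | y) (⟨c', x'⟩ | y') hxy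
    · have hxy' : c.out * (x : P) * c.out⁻¹ = c'.out * (x' : P) * c'.out⁻¹ := hxy
      have hx1 : ((x : P) : G) ≠ 1 := fun h => x.2 (Subtype.ext h)
      -- P meets its conjugate
      have hcc : c = c' := by
        by_contra hne
        have hg : (c.out⁻¹ * c'.out) • P ≠ P := by
          intro h
          apply hne
          have h2 : (c.out⁻¹ * c'.out) ∈ (P : Subgroup G) :=
            hnorm.le (Sylow.smul_eq_iff_mem_normalizer.1 h)
          have h3 := QuotientGroup.eq.2 h2
          rwa [QuotientGroup.out_eq', QuotientGroup.out_eq'] at h3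
        have h4 := hti _ hg
        have h5 : ((x : P) : G) ∈ (P : Subgroup G) ⊓ ((c.out⁻¹ * c'.out) • P : Sylow p G) := by
          refine Subgroup.mem_inf.2 ⟨(x : P).2, ?_⟩
          rw [H2.Conj.mem_sylow_smul]
          have h6 : (c.out⁻¹ * c'.out)⁻¹ * ((x : P) : G) * (c.out⁻¹ * c'.out)
              = c'.out⁻¹ * (c.out * (x : P) * c.out⁻¹) * c'.out := by group
          rw [h6, hxy']
          have h7 : c'.out⁻¹ * (c'.out * ((x' : P) : G) * c'.out⁻¹) * c'.out = (x' : P) := by group
          rw [h7]; exact (x' : P).2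
        rw [h4, Subgroup.mem_bot] at h5
        exact hx1 h5
      subst hcc
      have : x = x' := by
        apply Subtype.ext; apply Subtype.ext
        exact mul_left_cancel (mul_right_cancel hxy')
      rw [this]
    · exfalso
      have hxy' : c.out * (x : P) * c.out⁻¹ = (y' : G) := hxy
      exact x.2 (Subtype.ext (hcopQ _ (x : P).2 c.out (by rw [hxy']; exact y'.2)))
    · exfalso
      have hxy' : (y : G) = c'.out * (x' : P) * c'.out⁻¹ := hxy
      exact x'.2 (Subtype.ext (hcopQ _ (x' : P).2 c'.out (by rw [← hxy']; exact y.2)))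
    · have hxy' : (y : G) = y' := hxy
      rw [Subtype.ext hxy']
  have hfs : Function.Surjective f := by
    haveI : Fintype G := Fintype.ofFinite G
    haveI : Fintype P := Fintype.ofFinite P
    haveI : Fintype Q := Fintype.ofFinite Q
    haveI : Fintype (G ⧸ (P : Subgroup G)) := Fintype.ofFinite _
    have hcard : Fintype.card ((G ⧸ (P : Subgroup G)) × {x : P // x ≠ 1} ⊕ Q) = Fintype.card G := by
      rw [Fintype.card_sum, Fintype.card_prod, ← Nat.card_eq_fintype_card, ← Nat.card_eq_fintype_card (α := Q),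
        ← Nat.card_eq_fintype_card (α := G), hQc, hG, ← Subgroup.index_eq_card, hPi]
      have h1 : Fintype.card {x : P // x ≠ 1} = p ^ m - 1 := by
        have := Set.card_ne_eq (1 : (P : Subgroup G))
        rw [← hPc, Nat.card_eq_fintype_card]
        exact this
      rw [h1, Nat.mul_sub, mul_one, mul_comm]
      have : q ≤ p ^ m * q := Nat.le_mul_of_pos_left _ (pow_pos hp.out.pos _)
      omega
    exact ((Fintype.bijective_iff_injective_and_card f).2 ⟨hf, hcard⟩).2
  -- uniqueness of the Sylow q-subgroup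
  rw [← Subgroup.normalizer_eq_top_iff, eq_top_iff]
  intro g _
  refine Sylow.smul_eq_iff_mem_normalizer.1 ?_
  have hle : ((g • Q : Sylow q G) : Subgroup G) ≤ Q := by
    intro y hy
    obtain ⟨z, hz⟩ := hfs y
    rcases z with ⟨c, x⟩ | y'
    · exfalso
      have hz' : c.out * (x : P) * c.out⁻¹ = y := hz
      rw [H2.Conj.mem_sylow_smul, ← hz'] at hy
      refine x.2 (Subtype.ext (hcopQ _ (x : P).2 (g⁻¹ * c.out) ?_))
      have : (g⁻¹ * c.out) * ((x : P) : G) * (g⁻¹ * c.out)⁻¹ = g⁻¹ * (c.out * (x : P) * c.out⁻¹) * g := by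
        group
      rw [this]; exact hy
    · have hz' : (y' : G) = y := hz
      rw [← hz']; exact y'.2
  exact (Sylow.ext ((g • Q).3 Q.2 hle)).symm

/-- existence of a proper nontrivial normal subgroup -/
theorem exists_normal {G : Type*} [Group G] [Finite G] (p q m : ℕ) [hp : Fact p.Prime] [hq : Fact q.Prime]
    (hpq : p ≠ q) (hm : m ≠ 0) (hG : Nat.card G = p ^ m * q) :
    ∃ N : Subgroup G, N.Normal ∧ N ≠ ⊥ ∧ N ≠ ⊤ := by
  classical
  have hpq' : ¬ p ∣ q := fun h => hpq ((Nat.prime_dvd_prime_iff_eq hp.out hq.out).1 h)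
  have hqp : ¬ q ∣ p ^ m := fun h => hpq
      ((Nat.prime_dvd_prime_iff_eq hq.out hp.out).1 (hq.out.dvd_of_dvd_pow h)).symm
  obtain ⟨P⟩ := (Sylow.nonempty : Nonempty (Sylow p G))
  obtain ⟨Q⟩ := (Sylow.nonempty : Nonempty (Sylow q G))
  obtain ⟨hPc, hPi⟩ := H2.PGrp.card_sylow_mul_index hpq' hG P
  have hPbot : (P : Subgroup G) ≠ ⊥ :=
    P.ne_bot_of_dvd_card (by rw [hG]; exact (dvd_pow_self p hm).mul_right _)
  have hPtop : (P : Subgroup G) ≠ ⊤ := by
    intro h
    rw [h, Subgroup.index_top] at hPi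
    exact hq.out.one_lt.ne hPi
  by_cases hPn : (P : Subgroup G).Normal
  · exact ⟨P, hPn, hPbot, hPtop⟩
  by_cases hti : ∀ g : G, g • P ≠ P → (P : Subgroup G) ⊓ (g • P : Sylow p G) = ⊥
  · refine ⟨Q, ti_case p q m hpq hG P hPn hti Q, ?_, ?_⟩
    · exact Q.ne_bot_of_dvd_card (by rw [hG]; exact Dvd.intro_left _ rfl)
    · intro h
      obtain ⟨k, hk⟩ := IsPGroup.iff_card.1 Q.2
      rw [h] at hk
      have h2 : Nat.card (⊤ : Subgroup G) = Nat.card G := Subgroup.card_top
      rw [h2, hG] at hk
      have : p ∣ q ^ k := by rw [← hk]; exact (dvd_pow_self p hm).mul_right _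
      exact hpq' (hp.out.dvd_of_dvd_pow this)
  · push Not at hti
    obtain ⟨g0, hg0, hg0'⟩ := hti
    -- maximal intersection
    haveI : Nonempty {g : G // g • P ≠ P} := ⟨⟨g0, hg0⟩⟩
    obtain ⟨⟨g, hgP⟩, hg⟩ := Finite.exists_max
      (fun g : {g : G // g • P ≠ P} => Nat.card ((P : Subgroup G) ⊓ ((g : G) • P : Sylow p G) : Subgroup G))
    set D : Subgroup G := (P : Subgroup G) ⊓ (g • P : Sylow p G) with hD
    have hDbot : D ≠ ⊥ := by
      intro h
      have h1 := hg ⟨g0, hg0⟩
      change Nat.card ((P : Subgroup G) ⊓ (g0 • P : Sylow p G) : Subgroup G) ≤ Nat.card D at h1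
      rw [h, Subgroup.card_bot] at h1
      exact hg0' ((Subgroup.card_le_one_iff_eq_bot _).1 h1)
    have hDP : D < (P : Subgroup G) := by
      refine lt_of_le_of_ne inf_le_left (fun h => hgP ?_)
      have h1 : (P : Subgroup G) ≤ (g • P : Sylow p G) := by rw [← h]; exact inf_le_right
      exact (Sylow.ext (P.3 (g • P).2 h1))
    have hDT : D < ((g • P : Sylow p G) : Subgroup G) := by
      refine lt_of_le_of_ne inf_le_right (fun h => hgP ?_)
      have h1 : ((g • P : Sylow p G) : Subgroup G) ≤ P := by rw [← h]; exact inf_le_left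
      exact (Sylow.ext ((g • P).3 P.2 h1)).symm
    have hN1 := H2.PGrp.lt_inf_normalizer P.2 hDP
    have hN2 := H2.PGrp.lt_inf_normalizer (g • P).2 hDT
    have hqN : q ∣ Nat.card (Subgroup.normalizer (D : Set G)) := by
      by_contra hqN
      have hdvd : Nat.card (Subgroup.normalizer (D : Set G)) ∣ p ^ m := by
        have h1 : Nat.card (Subgroup.normalizer (D : Set G)) ∣ p ^ m * q := by
          rw [← hG]; exact Subgroup.card_subgroup_dvd_card _
        exact ((Nat.Prime.coprime_iff_not_dvd hq.out).2 hqN).symm.dvd_of_dvd_mul_right h1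
      obtain ⟨R, hR⟩ := (IsPGroup.of_card_dvd_pow hdvd).exists_le_sylow
      obtain ⟨h, rfl⟩ := MulAction.exists_smul_eq G P R
      have hRP : h • P = P := by
        by_contra hne
        have h1 := hg ⟨h, hne⟩
        change Nat.card ((P : Subgroup G) ⊓ (h • P : Sylow p G) : Subgroup G) ≤ Nat.card D at h1
        have h2 : D < (P : Subgroup G) ⊓ (h • P : Sylow p G) :=
          lt_of_lt_of_le hN1 (inf_le_inf_left _ hR)
        have h3 : Nat.card D < Nat.card ((P : Subgroup G) ⊓ (h • P : Sylow p G) : Subgroup G) := by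
          have := Set.ncard_lt_ncard (s := (D : Set G)) (t := (((P : Subgroup G) ⊓ (h • P : Sylow p G) : Subgroup G) : Set G)) h2 (Set.toFinite _)
          exact this
        omega
      rw [hRP] at hR
      have h1 : ((g • P : Sylow p G) : Subgroup G) ⊓ Subgroup.normalizer (D : Set G) ≤ D := by
        rw [hD]
        refine le_inf ?_ inf_le_left
        exact le_trans inf_le_right hR
      exact hN2.not_ge h1
    obtain ⟨x, hx⟩ := exists_prime_orderOf_dvd_card' q hqN
    have hxo : orderOf (x : G) = q := by rw [Subgroup.orderOf_coe]; exact hx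
    have hcompl : Subgroup.IsComplement' (P : Subgroup G) (Subgroup.zpowers (x : G)) := by
      apply Subgroup.isComplement'_of_coprime
      · rw [Nat.card_zpowers, hxo, hG]; congr 1
      · rw [Nat.card_zpowers, hxo]
        have : Nat.card (P : Subgroup G) = p ^ m := hPc
        rw [this]
        exact Nat.Coprime.pow_left _ ((Nat.coprime_primes hp.out hq.out).2 hpq)
    refine ⟨(P : Subgroup G).normalCore, inferInstance, ?_, ?_⟩
    · intro hbot
      apply hDbot
      rw [eq_bot_iff, ← hbot]
      intro d hd u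
      obtain ⟨⟨s, t⟩, hst⟩ := hcompl.2 u
      simp only at hst
      obtain ⟨k, hk⟩ := Subgroup.mem_zpowers_iff.1 t.2
      have ht : (t : G) ∈ Subgroup.normalizer (D : Set G) := by
        rw [← hk]; exact Subgroup.zpow_mem _ x.2 k
      have h1 : (t : G) * d * (t : G)⁻¹ ∈ D := (Subgroup.mem_normalizer_iff.1 ht d).1 hd
      have h2 : (t : G) * d * (t : G)⁻¹ ∈ (P : Subgroup G) := hDP.le h1
      have h3 := (P : Subgroup G).mul_mem ((P : Subgroup G).mul_mem s.2 h2) ((P : Subgroup G).inv_mem s.2)
      have h4 : u * d * u⁻¹ = s * ((t : G) * d * (t : G)⁻¹) * (s : G)⁻¹ := by rw [← hst]; group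
      rw [h4]; exact h3
    · intro htop
      apply hPtop
      rw [eq_top_iff, ← htop]
      exact Subgroup.normalCore_le _

theorem aux (n : ℕ) : ∀ (G : Type*) [Group G] [Finite G] (p q m : ℕ) (_ : p.Prime) (_ : q.Prime)
    (_ : Nat.card G = p ^ m * q) (_ : Nat.card G = n), Group.IsSolvable G := by
  induction n using Nat.strong_induction_on with
  | _ n ih =>
    intro G _ _ p q m hp hq hG hn
    haveI : Fact p.Prime := ⟨hp⟩
    haveI : Fact q.Prime := ⟨hq⟩
    by_cases hpq : p = q
    · have h1 : IsPGroup p G := IsPGroup.of_card (n := m + 1) (by rw [hG, pow_succ, hpq])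
      haveI := h1.isNilpotent
      infer_instance
    by_cases hm : m = 0
    · rw [hm, pow_zero, one_mul] at hG
      have h1 : IsPGroup q G := IsPGroup.of_card (n := 1) (by rw [hG, pow_one])
      haveI := h1.isNilpotent
      infer_instance
    obtain ⟨N, hN, hN1, hN2⟩ := exists_normal p q m hpq hm hG
    have key : ∀ k : ℕ, k ∣ p ^ m * q → (∃ a, k = p ^ a) ∨ (∃ a, k = p ^ a * q) := by
      intro k hk
      rcases (Nat.coprime_or_dvd_of_prime hq k) with hc | hd
      · left
        have := hc.symm.dvd_of_dvd_mul_right hk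
        obtain ⟨a, -, ha⟩ := (Nat.dvd_prime_pow hp).1 this
        exact ⟨a, ha⟩
      · right
        obtain ⟨l, rfl⟩ := hd
        rw [mul_comm (p ^ m)] at hk
        have := Nat.dvd_of_mul_dvd_mul_left hq.pos hk
        obtain ⟨a, -, ha⟩ := (Nat.dvd_prime_pow hp).1 this
        exact ⟨a, by rw [ha, mul_comm]⟩
    have solv : ∀ (H : Type _) [Group H] [Finite H], Nat.card H ∣ p ^ m * q → Nat.card H < n →
        Group.IsSolvable H := by
      intro H _ _ hdvd hlt
      rcases key _ hdvd with ⟨a, ha⟩ | ⟨a, ha⟩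
      · haveI := (IsPGroup.of_card ha).isNilpotent
        infer_instance
      · exact ih _ hlt H p q a hp hq ha rfl
    have hmul := Subgroup.card_eq_card_quotient_mul_card_subgroup N
    rw [Group.isSolvable_iff_subgroup_quotient N]
    constructor
    · apply solv
      · rw [← hG]; exact Subgroup.card_subgroup_dvd_card N
      · rw [← hn]
        have h1 := Subgroup.one_lt_index_of_ne_top hN2
        rw [Subgroup.index_eq_card] at h1
        rw [hmul]
        exact lt_mul_of_one_lt_left Nat.card_pos h1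
    · apply solv
      · rw [← hG]; exact Subgroup.card_quotient_dvd_card N
      · rw [← hn, hmul]
        exact lt_mul_of_one_lt_right Nat.card_pos (N.one_lt_card_iff_ne_bot.2 hN1)

/-- A finite group whose order is a prime power times a prime is solvable. -/
theorem result {G : Type*} [Group G] [Finite G] (p q m : ℕ) (hp : p.Prime) (hq : q.Prime)
    (hG : Nat.card G = p ^ m * q) : Group.IsSolvable G :=
  aux _ G p q m hp hq hG rfl

end Cfsg.Agent.S0061
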