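import Cfsg.Statements.S0062
import Cfsg.Agent.S0061
import Mathlib.GroupTheory.Perm.Basic
import Mathlib.GroupTheory.GroupAction.Quotient
import Mathlib.NumberTheory.Divisors
import Mathlib.GroupTheory.IndexNormal

set_option autoImplicit false
open Cfsg

namespace Cfsg.Agent.S0062

theorem solv_of_dvd_36 {H : Type*} [Group H] [Finite H] (h : Nat.card H ∣ 36) (h' : Nat.card H ≠ 36) :
    Group.IsSolvable H := by
  have hmem : Nat.card H ∈ Nat.divisors 36 := Nat.mem_divisors.2 ⟨h, by norm_num⟩
  have hdiv : Nat.divisors 36 = {1, 2, 3, 4, 6, 9, 12, 18, 36} := by decide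
  rw [hdiv] at hmem
  simp only [Finset.mem_insert, Finset.mem_singleton] at hmem
  rcases hmem with h1 | h1 | h1 | h1 | h1 | h1 | h1 | h1 | h1
  · haveI := (Nat.card_eq_one_iff_unique.1 h1).1
    infer_instance
  · exact S0061.result 2 2 0 Nat.prime_two Nat.prime_two (by rw [h1]; norm_num)
  · exact S0061.result 2 3 0 Nat.prime_two Nat.prime_three (by rw [h1]; norm_num)
  · exact S0061.result 2 2 1 Nat.prime_two Nat.prime_two (by rw [h1]; norm_num)
  · exact S0061.result 2 3 1 Nat.prime_two Nat.prime_three (by rw [h1]; norm_num)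
  · exact S0061.result 3 3 1 Nat.prime_three Nat.prime_three (by rw [h1]; norm_num)
  · exact S0061.result 2 3 2 Nat.prime_two Nat.prime_three (by rw [h1]; norm_num)
  · exact S0061.result 3 2 2 Nat.prime_three Nat.prime_two (by rw [h1]; norm_num)
  · exact absurd h1 h'

theorem solv_pgroup {H : Type*} [Group H] [Finite H] {p k : ℕ} (hp : p.Prime) (h : Nat.card H = p ^ k) :
    Group.IsSolvable H := by
  haveI : Fact p.Prime := ⟨hp⟩
  haveI := (IsPGroup.of_card h).isNilpotent
  infer_instance

theorem aux {G : Type*} [Group G] [Finite G] (p q : ℕ) (hp : p.Prime) (hq : q.Prime) (hqp : q < p)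
    (hG : Nat.card G = p ^ 2 * q ^ 2) : Group.IsSolvable G := by
  haveI : Fact p.Prime := ⟨hp⟩
  haveI : Fact q.Prime := ⟨hq⟩
  have hpq' : ¬ p ∣ q ^ 2 := fun h =>
    hqp.ne' ((Nat.prime_dvd_prime_iff_eq hp hq).1 (hp.dvd_of_dvd_pow h))
  obtain ⟨P⟩ := (Sylow.nonempty : Nonempty (Sylow p G))
  obtain ⟨hPc, hPi⟩ := H2.PGrp.card_sylow_mul_index hpq' hG P
  have hPc' : Nat.card (P : Subgroup G) = p ^ 2 := hPc
  by_cases hPn : (P : Subgroup G).Normal
  · rw [Group.isSolvable_iff_subgroup_quotient (P : Subgroup G)]
    refine ⟨solv_pgroup hp hPc', solv_pgroup hq (k := 2) ?_⟩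
    rw [← Subgroup.index_eq_card, hPi]
  · have hn1 : Nat.card (Sylow p G) ≠ 1 := by
      intro h
      haveI : Subsingleton (Sylow p G) := (Nat.card_eq_one_iff_unique.1 h).1
      exact hPn (P.normal_of_subsingleton)
    have hdvd : Nat.card (Sylow p G) ∣ q ^ 2 := by
      rw [← hPi]; exact P.card_dvd_index
    have hmod := card_sylow_modEq_one p G
    obtain ⟨i, hi, hni⟩ := (Nat.dvd_prime_pow hq).1 hdvd
    have hq2 := hq.two_le
    have h36 : p = 3 ∧ q = 2 ∧ Nat.card (Sylow p G) = 4 := by
      interval_cases i
      · rw [pow_zero] at hni; exact absurd hni hn1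
      · rw [pow_one] at hni
        rw [hni] at hmod
        have := (Nat.modEq_iff_dvd' hq.one_lt.le).1 hmod.symm
        have := Nat.le_of_dvd (by omega) this
        omega
      · rw [hni] at hmod
        have h1 := (Nat.modEq_iff_dvd' (Nat.one_le_pow _ _ hq.pos)).1 hmod.symm
        have h2 : q ^ 2 - 1 = (q + 1) * (q - 1) := by
          have := Nat.sq_sub_sq q 1
          simpa using this
        rw [h2] at h1
        rcases hp.dvd_mul.1 h1 with h3 | h3
        · have h4 := Nat.le_of_dvd (by omega) h3
          have h5 : p = q + 1 := by omega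
          have h6 : q = 2 := by
            by_contra hne
            have hodd := hq.eq_two_or_odd'.resolve_left hne
            have h7 : Even p := by rw [h5]; exact hodd.add_one
            have h8 := (hp.even_iff).1 h7
            omega
          refine ⟨by omega, h6, ?_⟩
          rw [hni, h6]; norm_num
        · have h4 := Nat.le_of_dvd (by omega) h3
          omega
    obtain ⟨rfl, rfl, hn4⟩ := h36
    have hG36 : Nat.card G = 36 := by rw [hG]; norm_num
    let φ := MulAction.toPermHom G (Sylow 3 G)
    have hrange : Nat.card φ.range ∣ 24 := by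
      have h1 : Nat.card φ.range ∣ Nat.card (Equiv.Perm (Sylow 3 G)) :=
        Subgroup.card_subgroup_dvd_card _
      rw [Nat.card_perm, hn4] at h1
      exact h1
    have hker : Nat.card φ.ker * Nat.card φ.range = 36 := by
      rw [← hG36, ← Subgroup.index_ker, Subgroup.card_mul_index]
    have hne1 : Nat.card φ.range ≠ 36 := by
      intro h; rw [h] at hrange; revert hrange; norm_num
    have hne2 : Nat.card φ.ker ≠ 36 := by
      intro h
      rw [h] at hker
      have h1 : Nat.card φ.range = 1 := by omega
      rw [← Subgroup.index_ker, Subgroup.index_eq_one] at h1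
      apply hPn
      rw [← Subgroup.normalizer_eq_top_iff, eq_top_iff]
      intro g _
      have h2 : g ∈ φ.ker := by rw [h1]; trivial
      rw [MonoidHom.mem_ker] at h2
      have h3 : g • P = P := by
        have := congrArg (fun f : Equiv.Perm (Sylow 3 G) => f P) h2
        exact this
      exact Sylow.smul_eq_iff_mem_normalizer.1 h3
    rw [Group.isSolvable_iff_subgroup_quotient φ.ker]
    refine ⟨solv_of_dvd_36 (Dvd.intro _ hker) hne2, ?_⟩
    have h1 : Nat.card (G ⧸ φ.ker) = Nat.card φ.range := by
      rw [← Subgroup.index_eq_card, Subgroup.index_ker]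
    exact solv_of_dvd_36 (by rw [h1]; exact Dvd.intro_left _ hker) (by rw [h1]; exact hne1)

/-- A finite group of order p^2 * q^2 with p and q prime is solvable. -/
theorem result {G : Type*} [Group G] [Finite G] (p q : ℕ) (hp : p.Prime) (hq : q.Prime)
    (hG : Nat.card G = p ^ 2 * q ^ 2) : Group.IsSolvable G := by
  rcases lt_trichotomy p q with h | h | h
  · exact aux q p hq hp h (by rw [hG, mul_comm])
  · subst h
    exact solv_pgroup hp (k := 4) (by rw [hG]; ring)
  · exact aux p q hp hq h hG

end Cfsg.Agent.S0062
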