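import Cfsg.Statements.S0063
import Mathlib.GroupTheory.PGroup
import Mathlib.GroupTheory.Nilpotent

set_option autoImplicit false
open Cfsg

namespace Cfsg.Agent.S0063

theorem aux (p : ℕ) [Fact p.Prime] (m : ℕ) : ∀ (G : Type*) [Group G] [Finite G]
    (_ : Nat.card G = p ^ m) (_ : 1 < m), Group.nilpotencyClass G ≤ m - 1 := by
  induction m using Nat.strong_induction_on with
  | _ m ih =>
    intro G _ _ hG hm
    have hp : p.Prime := Fact.out
    have hPG : IsPGroup p G := IsPGroup.of_card hG
    haveI : Group.IsNilpotent G := hPG.isNilpotent
    haveI : Nontrivial G := by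
      rw [← Finite.one_lt_card_iff_nontrivial, hG]
      exact Nat.one_lt_pow (by omega) hp.one_lt
    have hZ : Subgroup.center G ≠ ⊥ := hPG.bot_lt_center.ne'
    obtain ⟨k, hk⟩ := (IsPGroup.iff_card.1 (hPG.to_quotient (Subgroup.center G)))
    obtain ⟨l, hl⟩ := (IsPGroup.iff_card.1 (hPG.to_subgroup (Subgroup.center G)))
    have hmul := Subgroup.card_eq_card_quotient_mul_card_subgroup (Subgroup.center G)
    rw [hG, hk, hl, ← pow_add] at hmul
    have hkl : m = k + l := Nat.pow_right_injective hp.two_le hmul
    have hl0 : l ≠ 0 := by
      rintro rfl
      rw [pow_zero] at hl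
      exact hZ (Subgroup.card_eq_one.1 hl)
    rw [nilpotencyClass_eq_quotient_center_plus_one]
    by_cases hk1 : 1 < k
    · have := ih k (by omega) (G ⧸ Subgroup.center G) hk hk1
      omega
    · -- quotient is cyclic, hence G abelian
      have hcyc : IsCyclic (G ⧸ Subgroup.center G) := by
        rcases Nat.lt_or_ge k 1 with h0 | h0
        · have : k = 0 := by omega
          rw [this, pow_zero] at hk
          haveI := (Nat.card_eq_one_iff_unique.1 hk).1
          infer_instance
        · have : k = 1 := by omega
          rw [this, pow_one] at hk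
          exact isCyclic_of_prime_card hk
      have hcomm : ∀ a b : G, a * b = b * a := by
        have := commutative_of_cyclic_center_quotient (QuotientGroup.mk' (Subgroup.center G))
          (by rw [QuotientGroup.ker_mk'])
        exact this
      have htop : Subgroup.center G = ⊤ := by
        rw [eq_top_iff]
        intro x _
        rw [Subgroup.mem_center_iff]
        exact fun g => hcomm g x
      have : Subsingleton (G ⧸ Subgroup.center G) := by
        rw [QuotientGroup.subsingleton_iff]; exact htop
      have h0 : Group.nilpotencyClass (G ⧸ Subgroup.center G) = 0 :=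
        nilpotencyClass_zero_iff_subsingleton.2 this
      rw [h0]
      omega

/-- A finite group of prime-power order p ^ m with m > 1 is nilpotent of class at most m - 1. -/
theorem result {G : Type*} [Group G] [Finite G] (p m : ℕ) [Fact p.Prime]
    (hG : Nat.card G = p ^ m) (hm : 1 < m) : Group.nilpotencyClass G ≤ m - 1 :=
  aux p m G hG hm

end Cfsg.Agent.S0063
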