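import Cfsg.Statements.S0064
import Mathlib.GroupTheory.Nilpotent
import Mathlib.GroupTheory.IsSubnormal

set_option autoImplicit false
open Cfsg

namespace Cfsg.Agent.S0064

theorem mp {G : Type*} [Group G] [Finite G] (hG : Group.IsNilpotent G) (H : Subgroup G) :
    H.IsSubnormal := by
  have key : ∀ (n : ℕ) (H : Subgroup G), H.index ≤ n → H.IsSubnormal := by
    intro n
    induction n with
    | zero =>
      intro H hH
      exact absurd (Nat.le_zero.1 hH) Subgroup.index_ne_zero_of_finite
    | succ n ih =>
      intro H hH
      by_cases htop : H = ⊤
      · rw [htop]; exact Subgroup.IsSubnormal.top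
      · have hlt := Group.normalizerCondition_of_isNilpotent (G := G) H (lt_top_iff_ne_top.2 htop)
        have hidx : (Subgroup.normalizer (H : Set G)).index < H.index :=
          Subgroup.index_strictAnti hlt
        exact Subgroup.IsSubnormal.step H _ hlt.le (ih _ (by omega))
          (Subgroup.normal_subgroupOf_of_le_normalizer le_rfl)
  exact key _ H le_rfl

/-- A finite group is nilpotent exactly when each of its subgroups is subnormal. -/
theorem result {G : Type*} [Group G] [Finite G] :
    Group.IsNilpotent G ↔ ∀ H : Subgroup G, H.IsSubnormal := by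
  constructor
  · exact fun h H => mp h H
  · intro h
    have q := (Group.isNilpotent_of_finite_tfae (G := G)).out 0 2
    rw [q]
    intro M hM
    obtain ⟨K, hK, hle, hlt⟩ := (h M).exists_normal_and_le_and_lt_top_of_ne hM.1
    rcases eq_or_lt_of_le hle with h1 | h1
    · rw [h1]; exact hK
    · exact absurd (hM.2 K h1) hlt.ne

end Cfsg.Agent.S0064
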