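import Cfsg.Statements.S0065
import Mathlib.GroupTheory.Nilpotent

set_option autoImplicit false
open Cfsg

namespace Cfsg.Agent.S0065

/-- A nontrivial normal subgroup of a nilpotent group intersects the centre nontrivially. -/
theorem result {G : Type*} [Group G] [Finite G] [Group.IsNilpotent G]
    (N : Subgroup G) [N.Normal] (hN : N ≠ ⊥) : N ⊓ Subgroup.center G ≠ ⊥ := by
  classical
  have hex : ∃ n, N ⊓ Subgroup.upperCentralSeries G n ≠ ⊥ := by
    obtain ⟨n, hn⟩ := Group.IsNilpotent.nilpotent G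
    exact ⟨n, by rw [hn, inf_top_eq]; exact hN⟩
  have hspec := Nat.find_spec hex
  have hmin := fun m hm => not_not.1 (Nat.find_min hex (m := m) hm)
  obtain ⟨n, hn⟩ : ∃ n, Nat.find hex = n + 1 := by
    rcases Nat.exists_eq_succ_of_ne_zero (n := Nat.find hex) (fun h0 => hspec (by rw [h0]; simp)) with ⟨n, hn⟩
    exact ⟨n, hn⟩
  rw [hn] at hspec
  have hn' := hmin n (by omega)
  intro hbot
  apply hspec
  rw [eq_bot_iff] at hbot ⊢
  refine le_trans ?_ hbot
  rintro x ⟨hxN, hxU⟩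
  refine Subgroup.mem_inf.2 ⟨hxN, ?_⟩
  rw [Subgroup.mem_center_iff]
  intro g
  have h1 := (Subgroup.mem_upperCentralSeries_succ_iff (G := G)).1 hxU g
  have h2 : x * g * x⁻¹ * g⁻¹ ∈ N := by
    have : x * g * x⁻¹ * g⁻¹ = x * (g * x⁻¹ * g⁻¹) := by group
    rw [this]
    exact N.mul_mem hxN ((inferInstance : N.Normal).conj_mem _ (N.inv_mem hxN) g)
  have h3 : x * g * x⁻¹ * g⁻¹ ∈ (⊥ : Subgroup G) := by
    rw [← hn']; exact ⟨h2, h1⟩
  rw [Subgroup.mem_bot, mul_inv_eq_one, mul_inv_eq_iff_eq_mul] at h3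
  exact h3.symm

end Cfsg.Agent.S0065
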