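import Cfsg.Statements.S0066
import Cfsg.Agent.Lib.H11.SubnormalJoin
import Cfsg.Agent.Lib.H2.Conj

set_option autoImplicit false
open Pointwise
open Cfsg

namespace Cfsg.Agent.S0066

universe u

/-- relative subnormality is inherited by intermediate subgroups, inside `H`. -/
theorem sub_in {G : Type u} [Group G] (A X H : Subgroup G)
    (h : (A.subgroupOf X).IsSubnormal) :
    ((A.subgroupOf H).subgroupOf (X.subgroupOf H)).IsSubnormal := by
  let f : (X.subgroupOf H) →* X :=
    (H.subtype.comp (X.subgroupOf H).subtype).codRestrict X (fun x => x.2)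
  have h1 := h.comap f
  have h2 : (A.subgroupOf X).comap f = (A.subgroupOf H).subgroupOf (X.subgroupOf H) := by
    ext x; exact Iff.rfl
  rwa [h2] at h1

theorem sub_conj {G : Type u} [Group G] (A H : Subgroup G) (x : G)
    (h : (A.subgroupOf (MulAut.conj x⁻¹ • H)).IsSubnormal) :
    ((MulAut.conj x • A).subgroupOf H).IsSubnormal := by
  let f : H →* (MulAut.conj x⁻¹ • H : Subgroup G) :=
    ((MulAut.conj x⁻¹).toMonoidHom.comp H.subtype).codRestrict _
      (fun y => H2.Conj.conj_mem_conj_smul y.2)
  have h1 := h.comap f
  have h2 : (A.subgroupOf (MulAut.conj x⁻¹ • H)).comap f = (MulAut.conj x • A).subgroupOf H := by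
    ext y
    rw [Subgroup.mem_comap, Subgroup.mem_subgroupOf, Subgroup.mem_subgroupOf, H2.Conj.mem_conj_smul]
    change x⁻¹ * (y : G) * x⁻¹⁻¹ ∈ A ↔ _
    rw [inv_inv]
  rwa [h2] at h1

theorem isSubnormal_of_subgroupOf_top {G : Type u} [Group G] {A : Subgroup G}
    (h : (A.subgroupOf ⊤).IsSubnormal) : A.IsSubnormal :=
  Subgroup.IsSubnormal.trans le_top h Subgroup.IsSubnormal.top

/-- Wielandt's zipper lemma. -/
theorem zipper (n : ℕ) : ∀ (G : Type u) [Group G] [Finite G] (A : Subgroup G) (_ : A.index ≤ n)
    (_ : ∀ H : Subgroup G, A ≤ H → H ≠ ⊤ → (A.subgroupOf H).IsSubnormal)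
    (_ : ¬ A.IsSubnormal), ∃ M : Subgroup G, IsCoatom M ∧ A ≤ M ∧
      ∀ K : Subgroup G, IsCoatom K → A ≤ K → K = M := by
  induction n with
  | zero =>
    intro G _ _ A h
    exact absurd (Nat.le_zero.1 h) Subgroup.index_ne_zero_of_finite
  | succ n ih =>
    intro G _ _ A hidx h hA
    have hnn : Subgroup.normalizer (A : Set G) ≠ ⊤ := by
      intro htop
      exact hA (Subgroup.Normal.isSubnormal (Subgroup.normalizer_eq_top_iff.1 htop))
    obtain ⟨M, hM, hNM⟩ := (eq_top_or_exists_le_coatom (Subgroup.normalizer (A : Set G))).resolve_left hnn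
    refine ⟨M, hM, Subgroup.le_normalizer.trans hNM, ?_⟩
    intro K hK hAK
    by_cases hn : (A.subgroupOf K).Normal
    · have h1 : K ≤ M := ((Subgroup.normal_subgroupOf_iff_le_normalizer hAK).1 hn).trans hNM
      by_contra hne
      exact hM.1 (hK.2 M (lt_of_le_of_ne h1 hne))
    · obtain ⟨x, hx1, hx2⟩ := H11.SubnormalJoin.exists_conj_le_normalizer (A.subgroupOf K)
        (h K hAK hK.1) hn
      -- translate to the group G
      have hxA : MulAut.conj (x : G) • A ≠ A := by
        intro he
        apply hx1
        ext y
        rw [H2.Conj.mem_conj_smul, Subgroup.mem_subgroupOf, Subgroup.mem_subgroupOf]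
        change (x : G)⁻¹ * y * x ∈ A ↔ _
        rw [← H2.Conj.mem_conj_smul, he]
      have hxK : MulAut.conj (x : G) • A ≤ K := by
        intro y hy
        rw [H2.Conj.mem_conj_smul] at hy
        have := K.mul_mem (K.mul_mem x.2 (hAK hy)) (K.inv_mem x.2)
        simpa [mul_assoc] using this
      have hxN : MulAut.conj (x : G) • A ≤ Subgroup.normalizer (A : Set G) := by
        intro y hy
        have h1 : (⟨y, hxK hy⟩ : K) ∈ MulAut.conj x • (A.subgroupOf K) := by
          rw [H2.Conj.mem_conj_smul, Subgroup.mem_subgroupOf]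
          exact H2.Conj.mem_conj_smul.1 hy
        have h2 := hx2 h1
        rw [Subgroup.mem_normalizer_iff] at h2 ⊢
        intro z
        constructor
        · intro hz
          exact (h2 ⟨z, hAK hz⟩).1 hz
        · intro hz
          have hzK : z ∈ K := by
            have := K.mul_mem (K.mul_mem (K.inv_mem (hxK hy)) (hAK hz)) (hxK hy)
            simpa [mul_assoc] using this
          exact (h2 ⟨z, hzK⟩).2 hz
      set B : Subgroup G := A ⊔ MulAut.conj (x : G) • A with hB
      have hAB : A < B := by
        refine lt_of_le_of_ne le_sup_left (fun he => hxA ?_)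
        have h1 : MulAut.conj (x : G) • A ≤ A := by
          conv_rhs => rw [he]
          exact le_sup_right
        exact Subgroup.eq_of_le_of_card_ge h1 (by rw [H2.Conj.card_conj_smul])
      have hBN : B ≤ Subgroup.normalizer (A : Set G) := sup_le Subgroup.le_normalizer hxN
      have hBK : B ≤ K := sup_le hAK hxK
      have hBidx : B.index ≤ n := by
        have := Subgroup.index_strictAnti hAB
        omega
      obtain ⟨M', hM', -, huniq⟩ := ih G B hBidx (by
        intro H hBH hH
        rw [hB, ← H11.SubnormalJoin.subgroupOf_sup_eq (hAB.le.trans hBH) (le_sup_right.trans hBH)]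
        apply H11.SubnormalJoin.sup
        · exact h H (hAB.le.trans hBH) hH
        · apply sub_conj
          apply h
          · intro a ha
            rw [H2.Conj.mem_conj_smul, inv_inv]
            exact (le_sup_right.trans hBH) (H2.Conj.conj_mem_conj_smul ha)
          · intro htop
            apply hH
            rw [eq_top_iff]
            intro y _
            have : (x : G)⁻¹ * y * x ∈ MulAut.conj (x : G)⁻¹ • H := by rw [htop]; trivial
            rw [H2.Conj.mem_conj_smul] at this
            simpa [mul_assoc] using this) (by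
        intro hBs
        exact hA (Subgroup.IsSubnormal.step A B hAB.le hBs
          ((Subgroup.normal_subgroupOf_iff_le_normalizer hAB.le).2 hBN)))
      rw [huniq K hK hBK, huniq M hM (hBN.trans hNM)]

theorem aux (n : ℕ) : ∀ (G : Type u) [Group G] [Finite G] (_ : Nat.card G = n) (A : Subgroup G)
    (_ : ∀ g : G, (A.subgroupOf (A ⊔ MulAut.conj g • A)).IsSubnormal), A.IsSubnormal := by
  induction n using Nat.strong_induction_on with
  | _ n ih =>
    intro G _ _ hn A h
    by_contra hA
    have hproper : ∀ H : Subgroup G, A ≤ H → H ≠ ⊤ → (A.subgroupOf H).IsSubnormal := by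
      intro H hAH hH
      have hlt : Nat.card H < n := by
        rw [← hn]; exact H11.SubnormalJoin.card_subgroup_lt H hH
      apply ih _ hlt H rfl
      intro g
      have h1 := sub_in A (A ⊔ MulAut.conj (g : G) • A) H (h g)
      have h2 : MulAut.conj (g : G) • A ≤ H := by
        intro y hy
        rw [H2.Conj.mem_conj_smul] at hy
        have := H.mul_mem (H.mul_mem g.2 (hAH hy)) (H.inv_mem g.2)
        simpa [mul_assoc] using this
      rw [← H11.SubnormalJoin.subgroupOf_sup_eq hAH h2] at h1
      have h3 : (MulAut.conj (g : G) • A).subgroupOf H = MulAut.conj g • (A.subgroupOf H) := by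
        ext y
        rw [H2.Conj.mem_conj_smul, Subgroup.mem_subgroupOf, Subgroup.mem_subgroupOf,
          H2.Conj.mem_conj_smul]
        exact Iff.rfl
      rwa [h3] at h1
    obtain ⟨M, hM, hAM, huniq⟩ := zipper _ G A le_rfl hproper hA
    have hgM : ∀ g : G, MulAut.conj g • A ≤ M := by
      intro g
      have hne : A ⊔ MulAut.conj g • A ≠ ⊤ := by
        intro htop
        have h1 := h g
        rw [htop] at h1
        exact hA (isSubnormal_of_subgroupOf_top h1)
      obtain ⟨K, hK, hle⟩ := (eq_top_or_exists_le_coatom _).resolve_left hne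
      have := huniq K hK (le_sup_left.trans hle)
      rw [← this]
      exact le_sup_right.trans hle
    have hncl : Subgroup.normalClosure (A : Set G) ≤ M := by
      rw [Subgroup.normalClosure, Subgroup.closure_le]
      intro y hy
      rw [Group.mem_conjugatesOfSet_iff] at hy
      obtain ⟨a, ha, hc⟩ := hy
      obtain ⟨g, rfl⟩ := isConj_iff.1 hc
      exact hgM g (H2.Conj.conj_mem_conj_smul ha)
    have hne : Subgroup.normalClosure (A : Set G) ≠ ⊤ := by
      intro htop
      rw [htop, top_le_iff] at hncl
      exact hM.1 hncl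
    have hAN : A ≤ Subgroup.normalClosure (A : Set G) := Subgroup.subset_normalClosure
    exact hA (Subgroup.IsSubnormal.trans hAN (hproper _ hAN hne)
      (Subgroup.Normal.isSubnormal Subgroup.normalClosure_normal))

/-- Wielandt's subnormality criterion: a subgroup that is subnormal in its join with each of its conjugates is subnormal in the whole finite group. -/
theorem result {G : Type*} [Group G] [Finite G] (A : Subgroup G)
    (h : ∀ g : G, (A.subgroupOf (A ⊔ MulAut.conj g • A)).IsSubnormal) : A.IsSubnormal :=
  aux _ G rfl A h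

end Cfsg.Agent.S0066
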