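import Cfsg.Statements.S0070
import Cfsg.Agent.Lib.H2.FrattiniNilp
import Cfsg.Agent.Lib.H1.Cores

set_option autoImplicit false
open Cfsg

namespace Cfsg.Agent.S0070

/-- The Fitting subgroup commutes with passing to the Frattini quotient: the Fitting subgroup of G modulo its Frattini subgroup is the image of the Fitting subgroup of G. -/
theorem result {G : Type*} [Group G] [Finite G] :
    Cfsg.fittingSubgroup (G ⧸ frattini G) = (Cfsg.fittingSubgroup G).map (QuotientGroup.mk' (frattini G)) := by
  apply le_antisymm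
  · haveI : (Cfsg.fittingSubgroup (G ⧸ frattini G)).Normal := H1.Cores.fittingSubgroup_normal
    have h1 := H2.FrattiniNilp.isNilpotent_comap (Cfsg.fittingSubgroup (G ⧸ frattini G))
      H1.Cores.isNilpotent_fittingSubgroup
    have h2 : (Cfsg.fittingSubgroup (G ⧸ frattini G)).comap (QuotientGroup.mk' (frattini G)) ≤
        Cfsg.fittingSubgroup G := le_sSup ⟨inferInstance, h1⟩
    intro x hx
    obtain ⟨g, rfl⟩ := QuotientGroup.mk'_surjective (frattini G) x
    exact ⟨g, h2 hx, rfl⟩
  · rw [Subgroup.map_le_iff_le_comap]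
    apply sSup_le
    rintro N ⟨hN, hNn⟩
    rw [← Subgroup.map_le_iff_le_comap]
    apply le_sSup
    refine ⟨hN.map _ (QuotientGroup.mk'_surjective _), ?_⟩
    haveI := hNn
    let f : N →* (N.map (QuotientGroup.mk' (frattini G))) :=
      ((QuotientGroup.mk' (frattini G)).comp N.subtype).codRestrict _ (fun x => ⟨x, x.2, rfl⟩)
    have hf : Function.Surjective f := by
      rintro ⟨_, g, hg, rfl⟩
      exact ⟨⟨g, hg⟩, rfl⟩
    exact nilpotent_of_surjective f hf

end Cfsg.Agent.S0070
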