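import Cfsg.Statements.S0073
import Cfsg.Agent.Lib.H2.ElAbSyl
import Cfsg.Agent.Lib.H21.SylowTools
-- import your own Cfsg.Agent.* helpers here

set_option autoImplicit false
open Cfsg

namespace Cfsg.Agent.S0073

/-- For a finite non-abelian simple group, either the cube of the least prime divisor of the order divides the order, or 12 does. -/
theorem result {G : Type*} [Group G] [Finite G] [IsSimpleGroup G] (hG : ∃ x y : G, x * y ≠ y * x) : (Nat.card G).minFac ^ 3 ∣ Nat.card G ∨ 12 ∣ Nat.card G := by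
  classical
  by_contra hcon
  push Not at hcon
  obtain ⟨hc1, hc2⟩ := hcon
  have hnc : ¬ IsMulCommutative G := by
    intro h
    obtain ⟨x, y, hxy⟩ := hG
    exact hxy (h.is_comm.comm x y)
  have hn1 : Nat.card G ≠ 1 := (Finite.one_lt_card (α := G)).ne'
  set p := (Nat.card G).minFac with hp
  have hpp : p.Prime := Nat.minFac_prime hn1
  haveI : Fact p.Prime := ⟨hpp⟩
  have hpd : p ∣ Nat.card G := Nat.minFac_dvd _
  obtain ⟨P⟩ : Nonempty (Sylow p G) := inferInstance
  have hnot := H21.SylowTools.burnside_not_le hnc hpd P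
  obtain ⟨k, hk⟩ := IsPGroup.iff_card.1 P.2
  have hk3 : k ≤ 2 := by
    by_contra h
    push Not at h
    apply hc1
    calc p ^ 3 ∣ p ^ k := pow_dvd_pow _ h
      _ = Nat.card P := hk.symm
      _ ∣ Nat.card G := Subgroup.card_subgroup_dvd_card _
  have hncyc : ¬ IsCyclic P := by
    intro h
    exact hnot (IsCyclic.normalizer_le_centralizer hp.symm h)
  have hk2 : k = 2 := by
    have hk0 : k ≠ 0 := by
      rintro rfl
      apply hncyc
      rw [pow_zero] at hk
      haveI : Subsingleton P := (Nat.card_eq_one_iff_unique.1 hk).1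
      infer_instance
    have hk1 : k ≠ 1 := by
      rintro rfl
      rw [pow_one] at hk
      exact hncyc (isCyclic_of_prime_card hk)
    omega
  subst hk2
  have hexp' := (not_isCyclic_iff_exponent_eq_prime hpp hk).1 hncyc
  have hexp : ∀ a ∈ P, a ^ p = 1 := by
    intro a ha
    have h1 : (⟨a, ha⟩ : P) ^ Monoid.exponent P = 1 := Monoid.pow_exponent_eq_one _
    rw [hexp'] at h1
    exact congrArg Subtype.val h1
  have hcomm : ∀ a ∈ P, ∀ b ∈ P, a * b = b * a := by
    intro a ha b hb
    exact congrArg Subtype.val (IsPGroup.commutative_of_card_eq_prime_sq hk ⟨a, ha⟩ ⟨b, hb⟩)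
  apply hnot
  apply H2.ElAbSyl.normalizer_le_centralizer (e := 2) P hcomm hexp hk
  intro q hq h1 h2
  by_contra hqp
  have hpq : p < q := lt_of_le_of_ne (Nat.minFac_le_of_dvd hq.two_le h1) (Ne.symm hqp)
  rw [H2.ElAbSyl.card_GL, Fin.prod_univ_two] at h2
  have hp2 := hpp.two_le
  have e1 : p ^ 2 - p ^ ((0 : Fin 2) : ℕ) = (p + 1) * (p - 1) := by
    show p ^ 2 - p ^ 0 = _
    rw [pow_zero]
    zify [Nat.one_le_pow 2 p (by omega), (by omega : 1 ≤ p)]
    ring
  have e2 : p ^ 2 - p ^ ((1 : Fin 2) : ℕ) = p * (p - 1) := by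
    show p ^ 2 - p ^ 1 = _
    rw [pow_one]
    zify [(by nlinarith : p ≤ p ^ 2), (by omega : 1 ≤ p)]
    ring
  rw [e1, e2] at h2
  have hle1 : ¬ q ∣ p - 1 := fun h => by
    have := Nat.le_of_dvd (by omega) h
    omega
  have hle2 : ¬ q ∣ p := fun h => by
    have := Nat.le_of_dvd (by omega) h
    omega
  have h3 : q ∣ p + 1 := by
    rcases (Nat.Prime.dvd_mul hq).1 h2 with h | h
    · rcases (Nat.Prime.dvd_mul hq).1 h with h | h
      · exact h
      · exact absurd h hle1
    · rcases (Nat.Prime.dvd_mul hq).1 h with h | h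
      · exact absurd h hle2
      · exact absurd h hle1
  have h4 : q = p + 1 := by
    have := Nat.le_of_dvd (by omega) h3
    omega
  have h5 : p = 2 := by
    rcases hpp.eq_two_or_odd with h | h
    · exact h
    · have h6 : 2 ∣ q := by omega
      have := (Nat.prime_dvd_prime_iff_eq Nat.prime_two hq).1 h6
      omega
  apply hc2
  have h6 : 4 ∣ Nat.card G := by
    have : Nat.card P = 4 := by rw [hk, h5]; norm_num
    rw [← this]
    exact Subgroup.card_subgroup_dvd_card _
  have h7 : 3 ∣ Nat.card G := by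
    have : q = 3 := by omega
    rw [← this]; exact h1
  have : 4 * 3 ∣ Nat.card G := Nat.Coprime.mul_dvd_of_dvd_of_dvd (by norm_num) h6 h7
  exact this

end Cfsg.Agent.S0073
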