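import Cfsg.Statements.S0077
import Cfsg.Agent.Lib.H2.Control

set_option autoImplicit false
open Cfsg

namespace Cfsg.Agent.S0077

/-- If a subgroup Z of the centre of a Sylow p-subgroup P is weakly closed in P, then P meets the derived subgroup of G exactly where it meets the derived subgroup of the normalizer of Z. -/
theorem result {G : Type*} [Group G] [Finite G] {p : ℕ} [Fact p.Prime] (P : Sylow p G) (Z : Subgroup G) (hZ : Z ≤ Subgroup.centralizer (P : Set G)) (hW : Cfsg.IsWeaklyClosed Z P) : commutator G ⊓ (P : Subgroup G) = ⁅Subgroup.normalizer (Z : Set G), Subgroup.normalizer (Z : Set G)⁆ ⊓ (P : Subgroup G) := by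
  have hPN : (P : Subgroup G) ≤ Subgroup.normalizer (Z : Set G) := by
    refine le_trans ?_ (Subgroup.centralizer_le_normalizer _)
    exact Subgroup.le_centralizer_iff.1 hZ
  apply le_antisymm
  · refine le_inf ?_ inf_le_right
    rw [Subgroup.commutator_inf_eq_focalSubgroup]
    refine le_trans (H2.Control.focal_le_commutator_of_control _ _
      (H2.Control.normalizer_control_of_weaklyClosed P Z hZ hW)) ?_
    exact Subgroup.commutator_mono hPN le_rfl
  · refine inf_le_inf_right _ ?_
    rw [commutator_def]
    exact Subgroup.commutator_mono le_top le_top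

end Cfsg.Agent.S0077
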