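import Cfsg.Statements.S0078
import Cfsg.Agent.Lib.H2.Control

set_option autoImplicit false
open Cfsg

namespace Cfsg.Agent.S0078

open Pointwise

/-- In a p-normal group, a Sylow p-subgroup P meets O^p(G) exactly where it meets O^p(V), for any subgroup V containing the normalizer of the centre of P. -/
theorem result {G : Type*} [Group G] [Finite G] {p : ℕ} [Fact p.Prime] (P : Sylow p G) (hn : ∀ Q : Sylow p G, (P : Subgroup G) ⊓ Subgroup.centralizer (P : Set G) ≤ (Q : Subgroup G) → (Q : Subgroup G) ⊓ Subgroup.centralizer (Q : Set G) = (P : Subgroup G) ⊓ Subgroup.centralizer (P : Set G)) (V : Subgroup G) (hV : Subgroup.normalizer (((P : Subgroup G) ⊓ Subgroup.centralizer (P : Set G) : Subgroup G) : Set G) ≤ V) : (P : Subgroup G) ⊓ Cfsg.pResidual p G = (P : Subgroup G) ⊓ (Cfsg.pResidual p V).map V.subtype := by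
  set Z : Subgroup G := (P : Subgroup G) ⊓ Subgroup.centralizer (P : Set G) with hZdef
  have hPN : (P : Subgroup G) ≤ Subgroup.normalizer (Z : Set G) := by
    refine le_trans ?_ (Subgroup.centralizer_le_normalizer _)
    rw [Subgroup.le_centralizer_iff]
    exact inf_le_right
  have hconjZ : ∀ g : G, ((g • P : Sylow p G) : Subgroup G) ⊓ Subgroup.centralizer ((g • P : Sylow p G) : Set G)
      = MulAut.conj g • Z := by
    intro g
    ext x
    rw [Subgroup.mem_inf, H2.Conj.mem_conj_smul, H2.Conj.mem_sylow_smul, hZdef, Subgroup.mem_inf]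
    refine and_congr Iff.rfl ?_
    rw [Subgroup.mem_centralizer_iff, Subgroup.mem_centralizer_iff]
    constructor
    · intro h y hy
      have h1 : g * y * g⁻¹ ∈ ((g • P : Sylow p G) : Subgroup G) := by
        rw [H2.Conj.mem_sylow_smul]
        have : g⁻¹ * (g * y * g⁻¹) * g = y := by group
        rw [this]; exact hy
      have h2 := h _ h1
      calc y * (g⁻¹ * x * g) = g⁻¹ * ((g * y * g⁻¹) * x) * g := by group
        _ = g⁻¹ * (x * (g * y * g⁻¹)) * g := by rw [h2]
        _ = g⁻¹ * x * g * y := by group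
    · intro h y hy
      have h1 : g⁻¹ * y * g ∈ (P : Subgroup G) := H2.Conj.mem_sylow_smul.1 hy
      have h2 := h _ h1
      calc y * x = g * ((g⁻¹ * y * g) * (g⁻¹ * x * g)) * g⁻¹ := by group
        _ = g * (g⁻¹ * x * g * (g⁻¹ * y * g)) * g⁻¹ := by rw [h2]
        _ = x * y := by group
  have hW : Cfsg.IsWeaklyClosed Z (P : Subgroup G) := by
    refine ⟨inf_le_left, ?_⟩
    intro g hg
    rw [H2.Conj.map_conj_eq] at hg ⊢
    have h1 : Z ≤ ((g⁻¹ • P : Sylow p G) : Subgroup G) := by
      intro z hz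
      rw [H2.Conj.mem_sylow_smul, inv_inv]
      exact hg (H2.Conj.conj_mem_conj_smul hz)
    have h2 := hn _ h1
    rw [hconjZ] at h2
    have h3 : g⁻¹ ∈ Subgroup.normalizer (Z : Set G) := H2.Conj.mem_normalizer_of_conj_smul_eq h2
    have h4 := Subgroup.inv_mem _ h3
    rw [inv_inv] at h4
    exact H2.Conj.conj_smul_eq_iff.2 h4
  apply H2.Fusion.inf_residual_eq_of_control P V (hPN.trans hV)
  intro x hx g hg
  obtain ⟨h, hh, e⟩ := H2.Control.normalizer_control_of_weaklyClosed P Z inf_le_right hW x hx g hg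
  exact ⟨h, hV hh, e⟩

end Cfsg.Agent.S0078
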