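import Cfsg.Statements.S0079
import Cfsg.Agent.Lib.H2.Nilp

set_option autoImplicit false
open Cfsg

namespace Cfsg.Agent.S0079

/-- A nilpotent Hall subgroup has a normal complement exactly when elements of it that are conjugate in the whole group are already conjugate inside it. -/
theorem result {G : Type*} [Group G] [Finite G] (H : Subgroup G) (hH : Group.IsNilpotent H) (hHall : Nat.Coprime (Nat.card H) H.index) : (∃ N : Subgroup G, N.Normal ∧ N.IsComplement' H) ↔ ∀ x ∈ H, ∀ y ∈ H, (∃ g : G, g * x * g⁻¹ = y) → ∃ h ∈ H, h * x * h⁻¹ = y := by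
  constructor
  · rintro ⟨N, hN, hc⟩ x hx y hy ⟨g, rfl⟩
    obtain ⟨⟨k, w⟩, hkw⟩ := hc.2 g
    simp only at hkw
    refine ⟨w, w.2, ?_⟩
    have hwx : (w : G) * x * (w : G)⁻¹ ∈ H := H.mul_mem (H.mul_mem w.2 hx) (H.inv_mem w.2)
    have h2 : g * x * g⁻¹ * ((w : G) * x * (w : G)⁻¹)⁻¹ ∈ H := H.mul_mem hy (H.inv_mem hwx)
    have h3 : g * x * g⁻¹ * ((w : G) * x * (w : G)⁻¹)⁻¹ ∈ N := by
      have : g * x * g⁻¹ * ((w : G) * x * (w : G)⁻¹)⁻¹
          = k * (((w : G) * x * (w : G)⁻¹) * (k : G)⁻¹ * ((w : G) * x * (w : G)⁻¹)⁻¹) := by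
        rw [← hkw]; group
      rw [this]
      exact N.mul_mem k.2 (hN.conj_mem _ (N.inv_mem k.2) _)
    have h4 := hc.disjoint.le_bot (Subgroup.mem_inf.2 ⟨h3, h2⟩)
    rw [Subgroup.mem_bot, mul_inv_eq_one] at h4
    exact h4.symm
  · intro hctrl
    apply H2.Nilp.exists_normal_complement_of_npc H hHall
    intro p hp hpd
    haveI : Fact p.Prime := ⟨hp⟩
    obtain ⟨Q⟩ := (Sylow.nonempty : Nonempty (Sylow p H))
    obtain ⟨P, hP⟩ := H2.Nilp.exists_sylow_of_hall H hpd hHall Q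
    apply H2.Fusion.hasNPC_of_self_control P
    intro x hx g hg
    rw [hP] at hx hg
    obtain ⟨x', hx', rfl⟩ := hx
    obtain ⟨y', hy', hxy⟩ := hg
    obtain ⟨h, hh, hh'⟩ := hctrl _ x'.2 _ y'.2 ⟨g, hxy.symm⟩
    have hself := H2.Fusion.self_control_of_hasNPC (H2.Nilp.hasNPC_of_nilpotent (p := p) hH) Q x' hx'
      ⟨h, hh⟩ (by
        have : (⟨h, hh⟩ : H) * x' * (⟨h, hh⟩ : H)⁻¹ = y' := Subtype.ext hh'
        rw [this]; exact hy')
    obtain ⟨w, hw, hw'⟩ := hself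
    refine ⟨w, ?_, ?_⟩
    · rw [hP]; exact ⟨w, hw, rfl⟩
    · have h1 := congrArg Subtype.val hw'
      simp only [Subgroup.coe_mul, Subgroup.coe_inv] at h1
      rw [Subgroup.coe_subtype, h1, hh']
      exact hxy

end Cfsg.Agent.S0079
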