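import Cfsg.Statements.S0080
import Mathlib.GroupTheory.Focal

set_option autoImplicit false
open Cfsg

namespace Cfsg.Agent.S0080

/-- When the index of H is prime to the order of H/H', the focal subgroup of H is G' ∩ H, and H/(G' ∩ H) has a normal complement. -/
theorem result {G : Type*} [Group G] [Finite G] (H : Subgroup G) (h : Nat.Coprime H.index (⁅H, H⁆.relIndex H)) : Subgroup.focalSubgroup H = commutator G ⊓ H ∧ ∃ N : Subgroup G, N.Normal ∧ N ⊓ H = commutator G ⊓ H ∧ N ⊔ H = ⊤ := by
  -- order of H / Foc(H) is coprime to the index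
  have hcard : Nat.card (H ⧸ H.focalSubgroupOf) ∣ ⁅H, H⁆.relIndex H := by
    rw [← Subgroup.index_eq_card]
    change H.focalSubgroup.relIndex H ∣ _
    exact Subgroup.relIndex_dvd_of_le_left H H.commutator_le_focalSubgroup
  have hcop : Nat.Coprime (Nat.card (H ⧸ H.focalSubgroupOf)) H.index :=
    (Nat.Coprime.coprime_dvd_right hcard h).symm
  have hpow : Function.Bijective (fun x : H ⧸ H.focalSubgroupOf => x ^ H.index) :=
    (powCoprime hcop).bijective
  have hker : H.transferFocal.ker ⊓ H = H.focalSubgroup := by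
    ext x
    rw [Subgroup.mem_inf, MonoidHom.mem_ker]
    constructor
    · rintro ⟨h1, h2⟩
      have h3 := H.transferFocal_eq_pow ⟨x, h2⟩
      change H.transferFocal x = _ at h3
      rw [h1] at h3
      have h4 : ((⟨x, h2⟩ : H) : H ⧸ H.focalSubgroupOf) = 1 := by
        apply hpow.1
        simp only [one_pow]
        exact h3.symm
      have h5 : (⟨x, h2⟩ : H) ∈ H.focalSubgroupOf := (QuotientGroup.eq_one_iff _).1 h4
      exact h5
    · intro hx
      have h2 := H.focalSubgroup_le hx
      refine ⟨?_, h2⟩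
      have h3 := H.transferFocal_eq_pow ⟨x, h2⟩
      change H.transferFocal x = _ at h3
      rw [h3]
      have h5 : (⟨x, h2⟩ : H) ∈ H.focalSubgroupOf := hx
      have h4 : ((⟨x, h2⟩ : H) : H ⧸ H.focalSubgroupOf) = 1 := (QuotientGroup.eq_one_iff _).2 h5
      rw [h4, one_pow]
  have hcomm : commutator G ≤ H.transferFocal.ker := by
    haveI : IsMulCommutative (H ⧸ H.focalSubgroupOf) := inferInstance
    letI : CommGroup (H ⧸ H.focalSubgroupOf) :=
      { (inferInstance : Group (H ⧸ H.focalSubgroupOf)) with
        mul_comm := fun a b => IsMulCommutative.is_comm.comm a b }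
    exact Abelianization.commutator_subset_ker H.transferFocal
  have hfoc : H.focalSubgroup = commutator G ⊓ H := by
    apply le_antisymm
    · exact le_inf H.focalSubgroup_le_commutator H.focalSubgroup_le
    · rw [← hker]; exact inf_le_inf_right _ hcomm
  refine ⟨hfoc, H.transferFocal.ker, inferInstance, by rw [hker, hfoc], ?_⟩
  rw [eq_top_iff]
  intro g _
  obtain ⟨y, hy⟩ := hpow.2 (H.transferFocal g)
  obtain ⟨z, rfl⟩ := QuotientGroup.mk_surjective y
  have h3 := H.transferFocal_eq_pow z
  have h4 : g * (z : G)⁻¹ ∈ H.transferFocal.ker := by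
    rw [MonoidHom.mem_ker, map_mul, map_inv, h3, ← hy, mul_inv_cancel]
  have : g = g * (z : G)⁻¹ * z := by group
  rw [this]
  exact Subgroup.mul_mem_sup h4 z.2

end Cfsg.Agent.S0080
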