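import Cfsg.Statements.S0083
import Cfsg.Agent.Lib.H2.NPC

set_option autoImplicit false
open Cfsg
open scoped commutatorElement

namespace Cfsg.Agent.S0083

/-- For an abelian Sylow p-subgroup P, a normal p-complement exists exactly when the normalizer of P is an internal direct product of P with some subgroup. -/
theorem result {G : Type*} [Group G] [Finite G] {p : ℕ} [Fact p.Prime] (P : Sylow p G) (hP : IsMulCommutative P) : Cfsg.HasNormalPComplement p G ↔ ∃ Q : Subgroup G, Q ≤ Subgroup.centralizer (P : Set G) ∧ Q ⊓ (P : Subgroup G) = ⊥ ∧ Q ⊔ (P : Subgroup G) = Subgroup.normalizer (P : Set G) := by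
  constructor
  · intro h
    have hc := H2.NPC.isComplement'_residual_of_hasNPC h P
    set K := Cfsg.pResidual p G with hK
    refine ⟨K ⊓ Subgroup.normalizer (P : Set G), ?_, ?_, ?_⟩
    · intro x hx
      obtain ⟨hxK, hxN⟩ := Subgroup.mem_inf.1 hx
      rw [Subgroup.mem_centralizer_iff]
      intro y hy
      have h1 : y * x * y⁻¹ * x⁻¹ ∈ K :=
        K.mul_mem ((inferInstance : K.Normal).conj_mem _ hxK _) (K.inv_mem hxK)
      have h2 : y * x * y⁻¹ * x⁻¹ ∈ (P : Subgroup G) := by
        have e : y * x * y⁻¹ * x⁻¹ = y * (x * y⁻¹ * x⁻¹) := by group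
        rw [e]
        exact (P : Subgroup G).mul_mem hy ((Subgroup.mem_normalizer_iff.1 hxN _).1 ((P : Subgroup G).inv_mem hy))
      have h3 := hc.disjoint.le_bot (Subgroup.mem_inf.2 ⟨h1, h2⟩)
      rw [Subgroup.mem_bot, mul_inv_eq_one, mul_inv_eq_iff_eq_mul] at h3
      exact h3
    · rw [eq_bot_iff]
      exact le_trans (inf_le_inf_right _ inf_le_left) hc.disjoint.le_bot
    · apply le_antisymm
      · exact sup_le inf_le_right Subgroup.le_normalizer
      · intro n hn
        obtain ⟨⟨k, y⟩, hky⟩ := hc.2 n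
        simp only at hky
        have hyN : (y : G) ∈ Subgroup.normalizer (P : Set G) := Subgroup.le_normalizer y.2
        have hkN : (k : G) ∈ Subgroup.normalizer (P : Set G) := by
          have : (k : G) = n * (y : G)⁻¹ := by rw [← hky]; group
          rw [this]
          exact Subgroup.mul_mem _ hn (Subgroup.inv_mem _ hyN)
        rw [← hky]
        exact Subgroup.mul_mem_sup (Subgroup.mem_inf.2 ⟨k.2, hkN⟩) y.2
  · rintro ⟨Q, hQ, -, hsup⟩
    have hle : Subgroup.normalizer (P : Set G) ≤ Subgroup.centralizer (P : Set G) := by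
      rw [← hsup]
      exact sup_le hQ (Subgroup.le_centralizer_iff_isMulCommutative.2 hP)
    exact ⟨P, _, inferInstance, MonoidHom.ker_transferSylow_isComplement' P hle⟩

end Cfsg.Agent.S0083
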