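import Cfsg.Statements.S0085
import Cfsg.Agent.Lib.H2.ElAbSyl
-- import your own Cfsg.Agent.* helpers here

set_option autoImplicit false
open Cfsg

namespace Cfsg.Agent.S0085

/-- A group whose Sylow 2-subgroups are elementary abelian of order 8 and whose order is prime to 3 and to 7 has a normal 2-complement. -/
theorem result {G : Type*} [Group G] [Finite G] (T : Sylow 2 G) (h8 : Nat.card T = 8) (he : ∀ x : T, x * x = 1) (h3 : ¬ 3 ∣ Nat.card G) (h7 : ¬ 7 ∣ Nat.card G) : Cfsg.HasNormalPComplement 2 G := by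
  have hexp : ∀ a ∈ T, a ^ 2 = 1 := by
    intro a ha
    rw [sq]
    exact congrArg Subtype.val (he ⟨a, ha⟩)
  have hcomm : ∀ a ∈ T, ∀ b ∈ T, a * b = b * a := by
    intro a ha b hb
    have h1 := hexp a ha
    have h2 := hexp b hb
    have h3 := hexp (a * b) (T.mul_mem ha hb)
    rw [sq] at h1 h2 h3
    have e1 : a⁻¹ = a := inv_eq_of_mul_eq_one_left h1
    have e2 : b⁻¹ = b := inv_eq_of_mul_eq_one_left h2
    have e3 : (a * b)⁻¹ = a * b := inv_eq_of_mul_eq_one_left h3
    rw [mul_inv_rev, e1, e2] at e3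
    exact e3.symm
  haveI : Fact (Nat.Prime 2) := ⟨Nat.prime_two⟩
  have hGL : Nat.card (Matrix.GeneralLinearGroup (Fin 3) (ZMod 2)) = 2 ^ 3 * (3 * 7) := by
    rw [H2.ElAbSyl.card_GL]; decide
  have hle := H2.ElAbSyl.normalizer_le_centralizer (e := 3) T hcomm hexp (by rw [h8]; norm_num)
    (by
      intro q hq h1 h2
      rw [hGL] at h2
      rcases (Nat.Prime.dvd_mul hq).1 h2 with h4 | h4
      · exact (Nat.prime_dvd_prime_iff_eq hq Nat.prime_two).1 (hq.dvd_of_dvd_pow h4)
      · rcases (Nat.Prime.dvd_mul hq).1 h4 with h5 | h5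
        · have := (Nat.prime_dvd_prime_iff_eq hq Nat.prime_three).1 h5
          subst this
          exact absurd h1 h3
        · have := (Nat.prime_dvd_prime_iff_eq hq (by norm_num)).1 h5
          subst this
          exact absurd h1 h7)
  obtain ⟨K, hK, hc⟩ := H2.ElAbSyl.hasComplement T hle
  exact ⟨T, K, hK, hc⟩

end Cfsg.Agent.S0085
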