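import Cfsg.Statements.S0086
import Cfsg.Agent.Lib.H2.NPC

set_option autoImplicit false
open Cfsg

namespace Cfsg.Agent.S0086

/-- A normal complement to a Sylow p-subgroup is exactly the set of elements of order prime to p. -/
theorem result {G : Type*} [Group G] [Finite G] {p : ℕ} [Fact p.Prime] (P : Sylow p G) (N : Subgroup G) [N.Normal] (hN : N.IsComplement' (P : Subgroup G)) (x : G) : x ∈ N ↔ Nat.Coprime (orderOf x) p := by
  constructor
  · intro hx
    have h1 : orderOf x ∣ Nat.card N := by
      rw [← Subgroup.orderOf_mk x hx]; exact orderOf_dvd_natCard _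
    refine Nat.Coprime.coprime_dvd_left h1 ?_
    have hcard : Nat.card N = (P : Subgroup G).index := hN.index_eq_card.symm
    rw [hcard]
    exact ((Nat.Prime.coprime_iff_not_dvd Fact.out).2 P.not_dvd_index).symm
  · intro hx
    rw [H2.NPC.eq_residual_of_isComplement' P N hN]
    exact H2.Residual.mem_residual_of_coprime hx

end Cfsg.Agent.S0086
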