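import Cfsg.Statements.S0087
import Cfsg.Agent.S0079
import Cfsg.Agent.Lib.H12.NilpHall
import Cfsg.Agent.Lib.H1.SZ
-- import your own Cfsg.Agent.* helpers here

set_option autoImplicit false
open Cfsg
open scoped Pointwise

namespace Cfsg.Agent.S0087

/-- A Hall subgroup that is central in its normalizer has a normal complement. -/
theorem result {G : Type*} [Group G] [Finite G] (H : Subgroup G) (hHall : Nat.Coprime (Nat.card H) H.index) (h : Subgroup.normalizer (H : Set G) ≤ Subgroup.centralizer (H : Set G)) : ∃ N : Subgroup G, N.Normal ∧ N.IsComplement' H := by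
  have hHC : H ≤ Subgroup.centralizer (H : Set G) := Subgroup.le_normalizer.trans h
  have hcomm : ∀ a ∈ H, ∀ b ∈ H, a * b = b * a := fun a ha b hb =>
    (Subgroup.mem_centralizer_iff.1 (hHC ha) b hb).symm
  have hHnil : Group.IsNilpotent H := by
    letI : CommGroup H := { (inferInstance : Group H) with
      mul_comm := fun a b => Subtype.ext (hcomm a a.2 b b.2) }
    exact CommGroup.isNilpotent
  haveI := hHnil
  apply (Cfsg.Agent.S0079.result H hHnil hHall).2
  intro x hx y hy hxy
  obtain ⟨g, hg⟩ := hxy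
  set C := Subgroup.centralizer ({y} : Set G) with hC
  have hHleC : H ≤ C := by
    intro a ha
    rw [hC, Subgroup.mem_centralizer_singleton_iff]
    exact hcomm a ha y hy
  have hKleC : MulAut.conj g • H ≤ C := by
    rintro _ ⟨a, ha, rfl⟩
    rw [hC, Subgroup.mem_centralizer_singleton_iff]
    show (g * a * g⁻¹) * y = y * (g * a * g⁻¹)
    rw [← hg]
    have := hcomm a ha x hx
    calc g * a * g⁻¹ * (g * x * g⁻¹) = g * (a * x) * g⁻¹ := by group
      _ = g * (x * a) * g⁻¹ := by rw [this]
      _ = _ := by group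
  have e1 : Nat.card (H.subgroupOf C) = Nat.card H :=
    Nat.card_congr (Subgroup.subgroupOfEquivOfLe hHleC).toEquiv
  have e2 : Nat.card ((MulAut.conj g • H).subgroupOf C) = Nat.card H := by
    rw [Nat.card_congr (Subgroup.subgroupOfEquivOfLe hKleC).toEquiv]
    exact Nat.card_congr (Subgroup.equivSMul (MulAut.conj g) H).symm.toEquiv
  have hnil : Group.IsNilpotent (H.subgroupOf C) :=
    Group.nilpotent_of_mulEquiv (Subgroup.subgroupOfEquivOfLe hHleC).symm
  obtain ⟨c, hc⟩ := H12.NilpHall.exists_conj_ge (G := C) (H := H.subgroupOf C)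
    (K := (MulAut.conj g • H).subgroupOf C) hnil
    (by
      rw [e1]
      exact hHall.coprime_dvd_right (Subgroup.relIndex_dvd_index_of_le hHleC))
    (by
      intro p _ hp
      rw [e1, ← e2]
      exact hp)
  have hle : MulAut.conj g • H ≤ MulAut.conj (c : G) • H := by
    intro z hz
    have h1 := hc (show (⟨z, hKleC hz⟩ : C) ∈ (MulAut.conj g • H).subgroupOf C from hz)
    obtain ⟨w, hw, hw'⟩ := h1
    refine ⟨w, hw, ?_⟩
    exact congrArg Subtype.val hw'
  have heq : MulAut.conj g • H = MulAut.conj (c : G) • H := by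
    apply Subgroup.eq_of_le_of_card_ge hle
    rw [Nat.card_congr (Subgroup.equivSMul (MulAut.conj g) H).symm.toEquiv,
      Nat.card_congr (Subgroup.equivSMul (MulAut.conj (c : G)) H).symm.toEquiv]
  have hn : (c : G)⁻¹ * g ∈ Subgroup.normalizer (H : Set G) := by
    rw [← H1.SZ.conj_smul_eq_iff, H1.SZ.conj_mul_smul, heq, ← H1.SZ.conj_mul_smul,
      inv_mul_cancel, map_one, one_smul]
  have hn2 := Subgroup.mem_centralizer_iff.1 (h hn) x hx
  have hcy : (c : G) * y = y * c := Subgroup.mem_centralizer_singleton_iff.1 c.2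
  have hxy : x = y := by
    have h1 : (c : G) * x * (c : G)⁻¹ = y := by
      calc (c : G) * x * (c : G)⁻¹ = c * (x * ((c : G)⁻¹ * g)) * g⁻¹ := by group
        _ = c * (((c : G)⁻¹ * g) * x) * g⁻¹ := by rw [hn2]
        _ = g * x * g⁻¹ := by group
        _ = y := hg
    have h2 : (c : G) * x = c * y := by
      rw [hcy, ← h1]; group
    exact mul_left_cancel h2
  exact ⟨1, H.one_mem, by rw [hxy]; group⟩

end Cfsg.Agent.S0087
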