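import Cfsg.Statements.S0090
import Cfsg.Agent.Lib.H2.AbSylow
import Cfsg.Agent.S0088

set_option autoImplicit false
open Cfsg

namespace Cfsg.Agent.S0090

/-- An abelian normal Hall subgroup A splits as the internal direct product of G' ∩ A and Z(G) ∩ A, and [A, G] = G' ∩ A. -/
theorem result {G : Type*} [Group G] [Finite G] (A : Subgroup G) [A.Normal] (hc : IsMulCommutative A) (hHall : Nat.Coprime (Nat.card A) A.index) : ⁅A, (⊤ : Subgroup G)⁆ = commutator G ⊓ A ∧ (commutator G ⊓ A) ⊓ (Subgroup.center G ⊓ A) = ⊥ ∧ (commutator G ⊓ A) ⊔ (Subgroup.center G ⊓ A) = A := by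
  obtain ⟨h1, h2⟩ := H2.AbSylow.abelian_normal_hall A hc hHall
  have h3 := S0088.result A hc hHall
  have h4 : ⁅A, (⊤ : Subgroup G)⁆ ≤ commutator G ⊓ A := by
    refine le_inf ?_ (Subgroup.commutator_le_left _ _)
    rw [commutator_def]; exact Subgroup.commutator_mono le_top le_rfl
  have h5 : (commutator G ⊓ A) ⊓ (Subgroup.center G ⊓ A) = ⊥ := by
    rw [eq_bot_iff, ← h3]
    intro x hx
    obtain ⟨⟨a, b⟩, ⟨c, d⟩⟩ := (Subgroup.mem_inf.1 hx).imp Subgroup.mem_inf.1 Subgroup.mem_inf.1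
    exact Subgroup.mem_inf.2 ⟨Subgroup.mem_inf.2 ⟨b, a⟩, c⟩
  have h6 : commutator G ⊓ A ≤ ⁅A, (⊤ : Subgroup G)⁆ := by
    intro x hx
    have hxA : x ∈ (Subgroup.center G ⊓ A) ⊔ ⁅A, (⊤ : Subgroup G)⁆ := by
      rw [h2]; exact (Subgroup.mem_inf.1 hx).2
    rw [← SetLike.mem_coe, Subgroup.mul_normal] at hxA
    obtain ⟨z, hz, y, hy, rfl⟩ := hxA
    have h7 : z ∈ (commutator G ⊓ A) ⊓ (Subgroup.center G ⊓ A) := by
      refine Subgroup.mem_inf.2 ⟨?_, hz⟩
      have h8 := (commutator G ⊓ A).mul_mem hx ((commutator G ⊓ A).inv_mem (h4 hy))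
      simpa using h8
    rw [h5, Subgroup.mem_bot] at h7
    simp only [h7, one_mul]
    exact hy
  refine ⟨le_antisymm h4 h6, h5, ?_⟩
  apply le_antisymm
  · exact sup_le inf_le_right inf_le_right
  · conv_lhs => rw [← h2]
    rw [sup_comm]
    exact sup_le_sup_right h4 _

end Cfsg.Agent.S0090
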