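import Cfsg.Statements.S0091
import Cfsg.Agent.Lib.H2.Control

set_option autoImplicit false
open Cfsg
open scoped commutatorElement

namespace Cfsg.Agent.S0091

/-- If a nontrivial Sylow p-subgroup controls its own fusion then it is not contained in the derived subgroup. -/
theorem result {G : Type*} [Group G] [Finite G] {p : ℕ} [Fact p.Prime] (P : Sylow p G) (hp : p ∣ Nat.card G) (h : ∀ x ∈ P, ∀ y ∈ P, (∃ g : G, g * x * g⁻¹ = y) → ∃ z ∈ P, z * x * z⁻¹ = y) : ¬ (P : Subgroup G) ≤ commutator G := by
  intro hle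
  have h1 : (P : Subgroup G).focalSubgroup ≤ ⁅(P : Subgroup G), (P : Subgroup G)⁆ := by
    apply H2.Control.focal_le_commutator_of_control
    intro x hx g hg
    exact h x hx _ hg ⟨g, rfl⟩
  rw [← Subgroup.commutator_inf_eq_focalSubgroup, inf_eq_right.2 hle] at h1
  have h2 : (P : Subgroup G) ≤ ⊥ := by
    apply H2.Residual.le_of_le_sup_commutator (P := (P : Subgroup G)) P.2.isNilpotent bot_le le_rfl
    · rw [Subgroup.normalizer_eq_top]; exact le_top
    · rw [bot_sup_eq]; exact h1
  exact P.ne_bot_of_dvd_card hp (le_bot_iff.1 h2)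

end Cfsg.Agent.S0091
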