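import Cfsg.Statements.S0092
import Cfsg.Agent.S0075
import Cfsg.Agent.Lib.H2.AbSylow
import Cfsg.Agent.Lib.H1.SZ
-- import your own Cfsg.Agent.* helpers here

set_option autoImplicit false
open Cfsg
open scoped Pointwise

namespace Cfsg.Agent.S0092

/-- If the Sylow p-subgroups of O^p(G) are abelian then G splits over O^p(G). -/
theorem result {G : Type*} [Group G] [Finite G] {p : ℕ} [Fact p.Prime] (h : ∀ Q : Sylow p (Cfsg.pResidual p G), IsMulCommutative Q) : ∃ K : Subgroup G, K.IsComplement' (Cfsg.pResidual p G) := by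
  set K := Cfsg.pResidual p G with hK
  obtain ⟨P⟩ : Nonempty (Sylow p G) := inferInstance
  obtain ⟨Q', hQ'⟩ := H2.Residual.exists_sylow_inf P K
  have hQ'comm : IsMulCommutative Q' := h Q'
  set Q : Subgroup G := (P : Subgroup G) ⊓ K with hQ
  have hQK : Q ≤ K := inf_le_right
  have hQsub : (Q' : Subgroup K).map K.subtype = Q := by
    rw [hQ', Subgroup.subgroupOf_map_subtype]
  have hQcomm : ∀ a ∈ Q, ∀ b ∈ Q, a * b = b * a := by
    intro a ha b hb
    have ha' : (⟨a, hQK ha⟩ : K) ∈ (Q' : Subgroup K) := by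
      rw [hQ', Subgroup.mem_subgroupOf]; exact ha.1
    have hb' : (⟨b, hQK hb⟩ : K) ∈ (Q' : Subgroup K) := by
      rw [hQ', Subgroup.mem_subgroupOf]; exact hb.1
    have := hQ'comm.is_comm.comm ⟨_, ha'⟩ ⟨_, hb'⟩
    exact congrArg (fun z : Q' => ((z : K) : G)) this
  -- no nontrivial element of `Q` commutes with `N_K(Q)`
  set M : Subgroup G := K ⊓ Subgroup.normalizer (Q : Set G) with hM
  have hQN : Q ≤ Subgroup.normalizer (Q : Set G) := Subgroup.le_normalizer
  have hQM : Q ≤ M := le_inf hQK hQN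
  have hfix : ∀ x ∈ Q, (∀ m ∈ M, m * x = x * m) → x = 1 := by
    intro x hx hxm
    have h1 : (Q' : Subgroup K) = ⁅(Q' : Subgroup K),
        Subgroup.normalizer ((Q' : Subgroup K) : Set K)⁆ := by
      have h0 := Cfsg.Agent.S0075.result Q' hQ'comm
      rw [H2.Residual.residual_residual, inf_top_eq] at h0
      exact h0
    have h2 := (H2.AbSylow.abelian_sylow_decomp Q' hQ'comm).1
    rw [← h1] at h2
    have h3 : (⟨x, hQK hx⟩ : K) ∈ (Q' : Subgroup K) := by
      rw [hQ', Subgroup.mem_subgroupOf]; exact hx.1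
    have h4 : (⟨x, hQK hx⟩ : K) ∈ Subgroup.centralizer
        (Subgroup.normalizer ((Q' : Subgroup K) : Set K) : Set K) := by
      rw [Subgroup.mem_centralizer_iff]
      intro m hm
      apply Subtype.ext
      apply hxm
      refine ⟨m.2, ?_⟩
      refine Subgroup.mem_normalizer_iff.2 ?_
      have hm' := Subgroup.mem_normalizer_iff.1 hm
      intro z
      constructor
      · intro hz
        have h5 : (⟨z, hQK hz⟩ : K) ∈ (Q' : Subgroup K) := by
          rw [hQ', Subgroup.mem_subgroupOf]; exact hz.1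
        have h6 := (hm' _).1 h5
        rw [hQ', Subgroup.mem_subgroupOf] at h6
        refine ⟨h6, ?_⟩
        exact K.mul_mem (K.mul_mem m.2 (hQK hz)) (K.inv_mem m.2)
      · intro hz
        have hzK : z ∈ K := by
          have : z = (m : G)⁻¹ * (m * z * (m : G)⁻¹) * m := by group
          rw [this]
          exact K.mul_mem (K.mul_mem (K.inv_mem m.2) (hQK hz)) m.2
        have h5 : (m * ⟨z, hzK⟩ * m⁻¹ : K) ∈ (Q' : Subgroup K) := by
          rw [hQ', Subgroup.mem_subgroupOf]; exact hz.1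
        have h6 := (hm' _).2 h5
        rw [hQ', Subgroup.mem_subgroupOf] at h6
        exact ⟨h6, hzK⟩
    have h5 : (⟨x, hQK hx⟩ : K) ∈ (⊥ : Subgroup K) := by
      rw [← h2]
      exact ⟨⟨h3, h4⟩, h3⟩
    rw [Subgroup.mem_bot] at h5
    exact congrArg Subtype.val h5
  -- coprimality
  have hp : p.Prime := Fact.out
  have hQp : IsPGroup p Q := P.2.to_le inf_le_left
  have hcop : (Nat.card Q).Coprime (Q.relIndex M) := by
    obtain ⟨k, hk⟩ := IsPGroup.iff_card.1 hQp
    rw [hk]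
    apply Nat.Coprime.pow_left
    rw [Nat.Prime.coprime_iff_not_dvd hp]
    intro hd
    have h1 : Q.relIndex M ∣ Q.relIndex K :=
      Dvd.intro _ (Subgroup.relIndex_mul_relIndex Q M K hQM inf_le_left)
    have h2 : Q.relIndex K = (Q' : Subgroup K).index := by
      rw [hQ', Subgroup.relIndex, hQ]
      congr 1
      rw [Subgroup.inf_subgroupOf_right]
    rw [h2] at h1
    exact Q'.not_dvd_index (hd.trans h1)
  -- complement in M
  obtain ⟨K₀, hK₀M, hK₀card, hK₀inf, hK₀sup⟩ : ∃ K₀ : Subgroup G, K₀ ≤ M ∧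
      Nat.card K₀ = Q.relIndex M ∧ Q ⊓ K₀ = ⊥ ∧ ∀ m ∈ M, ∃ q ∈ Q, ∃ k ∈ K₀, q * k = m := by
    haveI hn : (Q.subgroupOf M).Normal := by
      refine ⟨fun n hn g => ?_⟩
      rw [Subgroup.mem_subgroupOf] at hn ⊢
      exact (Subgroup.mem_normalizer_iff.1 g.2.2 _).1 hn
    have hcardQ : Nat.card (Q.subgroupOf M) = Nat.card Q :=
      Nat.card_congr (Subgroup.subgroupOfEquivOfLe hQM).toEquiv
    obtain ⟨C, hC⟩ := Subgroup.exists_right_complement'_of_coprime
      (N := Q.subgroupOf M) (by rw [hcardQ]; exact hcop)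
    refine ⟨C.map M.subtype, Subgroup.map_subtype_le _, ?_, ?_, ?_⟩
    · rw [Nat.card_congr (C.equivMapOfInjective M.subtype M.subtype_injective).symm.toEquiv]
      exact hC.symm.index_eq_card.symm
    · rw [eq_bot_iff]
      rintro x ⟨hx1, ⟨c, hc, rfl⟩⟩
      have := hC.disjoint
      rw [Subgroup.disjoint_def] at this
      have h1 := this (show c ∈ Q.subgroupOf M from hx1) hc
      rw [h1]
      exact Subgroup.one_mem _
    · intro m hm
      obtain ⟨⟨q, c⟩, hqc⟩ := hC.2 ⟨m, hm⟩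
      exact ⟨q, q.2, c, ⟨c, c.2, rfl⟩, congrArg Subtype.val hqc⟩
  -- the complement
  have hKP : (P : Subgroup G) ⊔ K = ⊤ := H2.Residual.sylow_sup_residual P
  refine ⟨(P : Subgroup G) ⊓ Subgroup.normalizer (K₀ : Set G), ?_⟩
  apply Subgroup.isComplement'_of_disjoint_and_mul_eq_univ
  · rw [Subgroup.disjoint_def]
    rintro x ⟨hxP, hxN⟩ hxK
    apply hfix x ⟨hxP, hxK⟩
    have hcen : ∀ k ∈ K₀, k * x = x * k := by
      intro k hk
      have h1 : k * x * k⁻¹ * x⁻¹ ∈ Q := by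
        apply Q.mul_mem _ (Q.inv_mem ⟨hxP, hxK⟩)
        exact (Subgroup.mem_normalizer_iff.1 (hK₀M hk).2 x).1 ⟨hxP, hxK⟩
      have h2 : k * x * k⁻¹ * x⁻¹ ∈ K₀ := by
        have : k * x * k⁻¹ * x⁻¹ = k * (x * k⁻¹ * x⁻¹) := by group
        rw [this]
        exact K₀.mul_mem hk ((Subgroup.mem_normalizer_iff.1 hxN _).1 (K₀.inv_mem hk))
      have h3 : k * x * k⁻¹ * x⁻¹ ∈ Q ⊓ K₀ := ⟨h1, h2⟩
      rw [hK₀inf, Subgroup.mem_bot] at h3
      have h4 : k * x * k⁻¹ = x := mul_inv_eq_one.1 h3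
      exact mul_inv_eq_iff_eq_mul.1 h4
    intro m hm
    obtain ⟨q, hq, k, hk, rfl⟩ := hK₀sup m hm
    have h1 := hcen k hk
    have h2 := hQcomm q hq x ⟨hxP, hxK⟩
    calc q * k * x = q * (k * x) := by group
      _ = q * (x * k) := by rw [h1]
      _ = (q * x) * k := by group
      _ = (x * q) * k := by rw [h2]
      _ = x * (q * k) := by group
  · -- P ≤ R Q
    have hPQ : ∀ y ∈ P, ∃ r ∈ (P : Subgroup G) ⊓ Subgroup.normalizer (K₀ : Set G), ∃ q ∈ Q,
        r * q = y := by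
      intro y hy
      have hyQ : y ∈ Subgroup.normalizer (Q : Set G) := by
        rw [Subgroup.mem_normalizer_iff]
        intro z
        constructor
        · rintro ⟨hz1, hz2⟩
          exact ⟨P.mul_mem (P.mul_mem hy hz1) (P.inv_mem hy), Subgroup.Normal.conj_mem inferInstance _ hz2 y⟩
        · rintro ⟨hz1, hz2⟩
          have e : z = y⁻¹ * (y * z * y⁻¹) * y := by group
          rw [e]
          refine ⟨P.mul_mem (P.mul_mem (P.inv_mem hy) hz1) hy, ?_⟩
          have := Subgroup.Normal.conj_mem (H := K) inferInstance _ hz2 y⁻¹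
          simpa using this
      have hyM : MulAut.conj y⁻¹ • K₀ ≤ M := by
        rintro _ ⟨k, hk, rfl⟩
        refine ⟨Subgroup.Normal.conj_mem inferInstance _ (hK₀M hk).1 y⁻¹, ?_⟩
        exact Subgroup.mul_mem _ (Subgroup.mul_mem _ (Subgroup.inv_mem _ hyQ) (hK₀M hk).2)
          (Subgroup.inv_mem _ (Subgroup.inv_mem _ hyQ))
      haveI hQc : IsMulCommutative Q := ⟨⟨fun a b => Subtype.ext (hQcomm a a.2 b b.2)⟩⟩
      have hQsol : Group.IsSolvable Q := by
        letI : CommGroup Q := { (inferInstance : Group Q) with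
          mul_comm := fun a b => Subtype.ext (hQcomm a a.2 b b.2) }
        infer_instance
      obtain ⟨q, hq, hqy⟩ := H1.SZ.conj_of_card_rel M Q hQM inf_le_right hcop (Or.inl hQsol)
        (MulAut.conj y⁻¹ • K₀) K₀ hyM hK₀M
        (by rw [H1.SZ.card_conj_smul]; exact hK₀card) hK₀card
      rw [← H1.SZ.conj_mul_smul, H1.SZ.conj_smul_eq_iff] at hqy
      have hqP : q ∈ P := hq.1
      refine ⟨(q * y⁻¹)⁻¹, ⟨P.inv_mem (P.mul_mem hqP (P.inv_mem hy)),
        Subgroup.inv_mem _ hqy⟩, q, hq, by group⟩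
    rw [Set.eq_univ_iff_forall]
    intro g
    have hg : g ∈ (P : Subgroup G) ⊔ K := by rw [hKP]; trivial
    obtain ⟨y, hy, k, hk, rfl⟩ := Subgroup.mem_sup_of_normal_right.1 hg
    obtain ⟨r, hr, q, hq, rfl⟩ := hPQ y hy
    exact Set.mem_mul.2 ⟨r, hr, q * k, K.mul_mem (hQK hq) hk, by group⟩

end Cfsg.Agent.S0092
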