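import Cfsg.Statements.S0097
import Cfsg.Agent.Lib.H3.Extraspecial

set_option autoImplicit false
set_option linter.all false
open Cfsg

namespace Cfsg.Agent.S0097

/-- For odd p and E extraspecial, the subgroup generated by the elements of order dividing p has exponent dividing p and index at most p. -/
theorem result {E : Type*} [Group E] [Finite E] {p : ℕ} [Fact p.Prime] (hp : p ≠ 2) (h : Cfsg.IsExtraspecial p E) : (Subgroup.closure {x : E | x ^ p = 1}).index ≤ p ∧ ∀ g ∈ Subgroup.closure {x : E | x ^ p = 1}, g ^ p = 1 := by
  have hpp : p.Prime := Fact.out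
  have hZ := H3.Extraspecial.commutator_le h.1
  let f : E →* Subgroup.center E :=
    { toFun := fun g => ⟨g ^ p, H3.Extraspecial.pow_mem_center hZ h.2 g⟩
      map_one' := by ext; simp
      map_mul' := by
        intro a b
        ext
        exact H3.ClassTwo.mul_pow_prime hZ hpp hp a b
          (H3.Extraspecial.comm_pow_eq_one hZ h.2 b a) }
  have hf : ∀ g, (f g : E) = g ^ p := fun _ => rfl
  have hker : f.ker = Subgroup.closure {x : E | x ^ p = 1} := by
    apply le_antisymm
    · intro x hx
      apply Subgroup.subset_closure
      rw [MonoidHom.mem_ker] at hx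
      show x ^ p = 1
      rw [← hf, hx]; rfl
    · rw [Subgroup.closure_le]
      intro x hx
      show x ∈ f.ker
      rw [MonoidHom.mem_ker]
      ext
      exact hx
  constructor
  · rw [← hker, Subgroup.index_ker]
    calc Nat.card f.range ≤ Nat.card (Subgroup.center E) := Subgroup.card_le_card_group _
      _ = p := h.2
  · intro g hg
    rw [← hker, MonoidHom.mem_ker] at hg
    rw [← hf, hg]; rfl

end Cfsg.Agent.S0097
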