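import Cfsg.Statements.S0098
import Cfsg.Agent.Lib.H3.ExtraspecialUnique

set_option autoImplicit false
set_option linter.all false
open Cfsg

namespace Cfsg.Agent.S0098

/-- For odd p, extraspecial p-groups of exponent p are determined up to isomorphism by their order. -/
theorem result {E₁ : Type*} {E₂ : Type*} [Group E₁] [Group E₂] [Finite E₁] [Finite E₂] {p : ℕ} [Fact p.Prime] (hp : p ≠ 2) (h₁ : Cfsg.IsExtraspecial p E₁) (h₂ : Cfsg.IsExtraspecial p E₂) (he₁ : Monoid.exponent E₁ = p) (he₂ : Monoid.exponent E₂ = p) (hc : Nat.card E₁ = Nat.card E₂) : Nonempty (E₁ ≃* E₂) := by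
  have e₁ : ∀ x : E₁, x ^ p = 1 := fun x => by rw [← he₁]; exact Monoid.pow_exponent_eq_one x
  have e₂ : ∀ x : E₂, x ^ p = 1 := fun x => by rw [← he₂]; exact Monoid.pow_exponent_eq_one x
  have hz : ∀ {E : Type _} [Group E] [Finite E], Cfsg.IsExtraspecial p E →
      ∃ z ∈ Subgroup.center E, z ≠ 1 := by
    intro E _ _ h
    have hp1 : 1 < Nat.card (Subgroup.center E) := by rw [h.2]; exact (Fact.out : p.Prime).one_lt
    obtain ⟨z, hz⟩ := Subgroup.ne_bot_iff_exists_ne_one.1 ((Subgroup.one_lt_card_iff_ne_bot _).1 hp1)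
    exact ⟨z, z.2, fun h => hz (Subtype.ext h)⟩
  have hz2 : ∃ z ∈ Subgroup.center E₂, z ≠ 1 := by
    have hp1 : 1 < Nat.card (Subgroup.center E₂) := by rw [h₂.2]; exact (Fact.out : p.Prime).one_lt
    obtain ⟨z, hz⟩ := Subgroup.ne_bot_iff_exists_ne_one.1 ((Subgroup.one_lt_card_iff_ne_bot _).1 hp1)
    exact ⟨z, z.2, fun h => hz (Subtype.ext h)⟩
  obtain ⟨z₁, hz₁, hz₁1⟩ := hz h₁
  obtain ⟨z₂, hz₂, hz₂1⟩ := hz2
  obtain ⟨ψ, -⟩ := H3.ExtraspecialUnique.iso_exponent_p (Nat.card E₁)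
    (H3.Extraspecial.commutator_le h₁.1) h₁.2 (H3.Extraspecial.commutator_le h₂.1) h₂.2 e₁ e₂ hc
    le_rfl z₁ hz₁ hz₁1 z₂ hz₂ hz₂1
  exact ⟨ψ⟩

end Cfsg.Agent.S0098
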