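import Cfsg.Statements.S0101
import Cfsg.Agent.Lib.H3.TransferCenter

set_option autoImplicit false
set_option linter.all false
open Cfsg

namespace Cfsg.Agent.S0101

/-- In a perfect central extension, the kernel meets each Sylow p-subgroup P inside the Frattini subgroup of P. -/
theorem result {H : Type*} {G : Type*} [Group H] [Group G] [Finite H] (σ : H →* G) (hσ : Function.Surjective σ) (hc : σ.ker ≤ Subgroup.center H) (hH : commutator H = ⊤) {p : ℕ} [Fact p.Prime] (P : Sylow p H) : σ.ker ⊓ (P : Subgroup H) ≤ (frattini P).map (P : Subgroup H).subtype := by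
  rintro z ⟨hz1, hz2⟩
  have h1 : z ∈ commutator H := by rw [hH]; exact Subgroup.mem_top z
  have h2 := H3.TransferCenter.mem_commutator P (hc hz1) h1 hz2
  have h3 := H3.PBasic.commutator_le_frattini P.isPGroup' h2
  exact ⟨_, h3, rfl⟩

end Cfsg.Agent.S0101
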