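import Cfsg.Statements.S0103

set_option autoImplicit false
set_option linter.all false
open Cfsg

namespace Cfsg.Agent.S0103

/-- If a Sylow p-subgroup P intersects every distinct conjugate trivially, then its normalizer controls fusion in P. -/
theorem result {G : Type*} [Group G] [Finite G] {p : ℕ} [Fact p.Prime] (P : Sylow p G) (hTI : ∀ g : G, (P : Subgroup G).map (MulAut.conj g).toMonoidHom ≠ (P : Subgroup G) → (P : Subgroup G) ⊓ (P : Subgroup G).map (MulAut.conj g).toMonoidHom = ⊥) (x y : G) (hx : x ∈ P) (hy : y ∈ P) (hc : ∃ g : G, g * x * g⁻¹ = y) : ∃ n ∈ Subgroup.normalizer (P : Set G), n * x * n⁻¹ = y := by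
  obtain ⟨g, hg⟩ := hc
  by_cases hx1 : x = 1
  · refine ⟨1, Subgroup.one_mem _, ?_⟩
    rw [hx1] at hg ⊢
    rw [← hg]; simp
  · refine ⟨g, ?_, hg⟩
    have h1 : (P : Subgroup G).map (MulAut.conj g).toMonoidHom = (P : Subgroup G) := by
      by_contra hne
      have h2 := hTI g hne
      have h3 : y ∈ (P : Subgroup G) ⊓ (P : Subgroup G).map (MulAut.conj g).toMonoidHom := by
        refine ⟨hy, x, hx, ?_⟩
        simpa using hg
      rw [h2, Subgroup.mem_bot] at h3
      apply hx1
      rw [h3] at hg
      have : x = g⁻¹ * (g * x * g⁻¹) * g := by group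
      rw [this, hg]; group
    rw [Subgroup.mem_set_normalizer_iff]
    intro h
    constructor
    · intro hh
      have : g * h * g⁻¹ ∈ (P : Subgroup G).map (MulAut.conj g).toMonoidHom := ⟨h, hh, by simp⟩
      rw [h1] at this
      exact this
    · intro hh
      have h4 : g * h * g⁻¹ ∈ (P : Subgroup G).map (MulAut.conj g).toMonoidHom := by rw [h1]; exact hh
      obtain ⟨k, hk, hk2⟩ := h4
      have h5 : g * k * g⁻¹ = g * h * g⁻¹ := by simpa using hk2
      have : k = h := by simpa using h5
      rw [← this]; exact hk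

end Cfsg.Agent.S0103
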