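import Cfsg.Statements.S0104
import Cfsg.Agent.Lib.H3.Conj

set_option autoImplicit false
set_option linter.all false
open Cfsg

namespace Cfsg.Agent.S0104

/-- A subgroup Z of a Sylow p-subgroup P that is normalized by N_G(P) is weakly closed in P exactly when it is normal in every Sylow p-subgroup containing it. -/
theorem result {G : Type*} [Group G] [Finite G] {p : ℕ} [Fact p.Prime] (P : Sylow p G) (Z : Subgroup G) (hZP : Z ≤ (P : Subgroup G)) (hZN : Subgroup.normalizer (P : Set G) ≤ Subgroup.normalizer (Z : Set G)) : Cfsg.IsWeaklyClosed Z P ↔ ∀ R : Sylow p G, Z ≤ (R : Subgroup G) → (R : Subgroup G) ≤ Subgroup.normalizer (Z : Set G) := by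
  constructor
  · rintro ⟨_, hw⟩ R hZR
    obtain ⟨g, hg⟩ := H3.Conj.exists_conj_eq P R
    -- `R = g P g⁻¹`, so `g⁻¹ Z g ≤ P`
    have h1 : Z.map (MulAut.conj g⁻¹).toMonoidHom ≤ (P : Subgroup G) := by
      rw [← (H3.Conj.map_conj_inv_eq_iff (R : Subgroup G) (P : Subgroup G) g).2 hg.symm]
      exact H3.Conj.map_conj_mono hZR g⁻¹
    have h2 := hw g⁻¹ h1
    have h3 := (H3.Conj.map_conj_inv_eq_iff Z Z g).1 h2
    have h4 : (P : Subgroup G) ≤ Subgroup.normalizer (Z : Set G) :=
      le_trans Subgroup.le_normalizer hZN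
    have h5 := H3.Conj.le_normalizer_map_conj h4 g
    rwa [← h3, hg] at h5
  · intro h
    refine ⟨hZP, ?_⟩
    intro g hg
    -- `Z ≤ g⁻¹ P g = R`
    have hR : ((g⁻¹ • P : Sylow p G) : Subgroup G) = (P : Subgroup G).map (MulAut.conj g⁻¹).toMonoidHom :=
      H3.Conj.coe_smul_sylow _ _
    have h1 : Z ≤ ((g⁻¹ • P : Sylow p G) : Subgroup G) := by
      rw [hR]
      intro z hz
      rw [H3.Conj.mem_map_conj]
      apply hg
      rw [H3.Conj.mem_map_conj]
      simpa [mul_assoc] using hz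
    have h2 := h _ h1
    have h3 : (P : Subgroup G) ≤ Subgroup.normalizer (Z : Set G) :=
      le_trans Subgroup.le_normalizer hZN
    obtain ⟨n, hn, hnP⟩ := H3.Conj.exists_conj_eq_of_le P _ h3 h2
    rw [hR] at hnP
    -- `n P n⁻¹ = g⁻¹ P g`, hence `g n` normalises `P`
    have h4 : (P : Subgroup G).map (MulAut.conj (g * n)).toMonoidHom = P := by
      rw [H3.Conj.map_conj_mul, hnP, ← H3.Conj.map_conj_mul, mul_inv_cancel]
      ext x; rw [H3.Conj.mem_map_conj]; simp
    have h5 : g * n ∈ Subgroup.normalizer (Z : Set G) := hZN (H3.Conj.map_conj_eq_iff.1 h4)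
    have h6 : g ∈ Subgroup.normalizer (Z : Set G) := by
      have := Subgroup.mul_mem _ h5 (Subgroup.inv_mem _ hn)
      simpa [mul_assoc] using this
    exact H3.Conj.map_conj_eq_iff.2 h6

end Cfsg.Agent.S0104
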