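import Cfsg.Statements.S0123
import Cfsg.Agent.Lib.H3.ClassThree

set_option autoImplicit false
set_option linter.all false
open Cfsg

namespace Cfsg.Agent.S0123

open scoped commutatorElement

/-- For a p-group of small class relative to p (class ≤ 2 with p odd, or class ≤ 3 with p > 3) whose derived subgroup is generated by elements of order dividing p, the p-th power map is multiplicative. -/
theorem result {R : Type*} [Group R] [Finite R] {p : ℕ} [Fact p.Prime] (hR : IsPGroup p R) (hcl : (p ≠ 2 ∧ ⁅commutator R, (⊤ : Subgroup R)⁆ = ⊥) ∨ (3 < p ∧ ⁅⁅commutator R, (⊤ : Subgroup R)⁆, (⊤ : Subgroup R)⁆ = ⊥)) (hder : commutator R ≤ Subgroup.closure {x : R | x ^ p = 1}) (x y : R) : (x * y) ^ p = x ^ p * y ^ p := by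
  have hpp : p.Prime := Fact.out
  have hmem : ∀ a b : R, ⁅a, b⁆ ∈ Subgroup.closure {x : R | x ^ p = 1} := fun a b =>
    hder (Subgroup.commutator_mem_commutator (Subgroup.mem_top a) (Subgroup.mem_top b))
  rcases hcl with ⟨hp2, hcl⟩ | ⟨hp3, hcl⟩
  · have hZ := H3.ClassTwo.commutator_le_center_of_class_two hcl
    exact H3.ClassTwo.mul_pow_prime hZ hpp hp2 x y (H3.ClassTwo.omega_one hZ hpp hp2 (hmem y x))
  · exact H3.ClassThree.mul_pow_prime hpp hp3 x y (H3.ClassThree.triple_mem_center hcl y x y)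
      (H3.ClassThree.triple_mem_center hcl y x x)
      (H3.ClassThree.omega_one hpp hp3 hcl (hmem _ _))
      (H3.ClassThree.omega_one hpp hp3 hcl (hmem _ _))
      (H3.ClassThree.omega_one hpp hp3 hcl (hmem _ _))

end Cfsg.Agent.S0123
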