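import Cfsg.Statements.S0125
import Cfsg.Agent.Lib.H3.SylowInf
import Cfsg.Agent.Lib.H3.CentralizerNorm

set_option autoImplicit false
set_option linter.all false
open Cfsg

namespace Cfsg.Agent.S0125

/-- The centralizer of a self-centralizing normal subgroup A of a Sylow p-subgroup is the direct product of A with a normal p'-subgroup. -/
theorem result {G : Type*} [Group G] [Finite G] {p : ℕ} [Fact p.Prime] (R : Sylow p G) (A : Subgroup G) (hAR : A ≤ (R : Subgroup G)) (hAn : (R : Subgroup G) ≤ Subgroup.normalizer (A : Set G)) (hC : (R : Subgroup G) ⊓ Subgroup.centralizer (A : Set G) = A) : ∃ H : Subgroup G, H ≤ Subgroup.centralizer (A : Set G) ∧ Nat.Coprime (Nat.card H) p ∧ Subgroup.centralizer (A : Set G) ≤ Subgroup.normalizer (H : Set G) ∧ H ⊓ A = ⊥ ∧ H ⊔ A = Subgroup.centralizer (A : Set G) := by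
  have hAC : A ≤ Subgroup.centralizer (A : Set G) := by
    intro a ha
    rw [← hC] at ha
    exact ha.2
  set C := Subgroup.centralizer (A : Set G) with hCdef
  obtain ⟨Q, hQ⟩ := H3.SylowInf.exists_sylow_inf_of_le R (Subgroup.normalizer (A : Set G)) C hAn
    (Subgroup.centralizer_le_normalizer (A : Set G))
    (H3.CentralizerNorm.normalizer_le_normalizer_centralizer A)
  have hQA : ∀ x : C, x ∈ (Q : Subgroup C) ↔ (x : G) ∈ A := by
    intro x
    rw [hQ, Subgroup.mem_subgroupOf]
    constructor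
    · intro hx
      rw [← hC]
      exact ⟨hx, x.2⟩
    · intro hx
      exact hAR hx
  have hQc : (Q : Subgroup C) ≤ Subgroup.center C := by
    intro x hx
    rw [Subgroup.mem_center_iff]
    intro y
    apply Subtype.ext
    exact (Subgroup.mem_centralizer_iff.1 y.2 x ((hQA x).1 hx)).symm
  obtain ⟨H, hHn, hHc⟩ := H3.SylowInf.exists_complement_of_le_center Q hQc
  refine ⟨H.map C.subtype, Subgroup.map_subtype_le H, ?_, ?_, ?_, ?_⟩
  · rw [Subgroup.card_map_of_injective (Subgroup.subtype_injective C)]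
    have h1 : (Q : Subgroup C).index = Nat.card H := hHc.index_eq_card
    rw [← h1]
    exact ((Fact.out : p.Prime).coprime_iff_not_dvd.2 Q.not_dvd_index).symm
  · intro c hc
    show c ∈ Subgroup.normalizer ((H.map C.subtype : Subgroup G) : Set G)
    rw [Subgroup.mem_normalizer_iff]
    have key : ∀ c ∈ C, ∀ h ∈ H.map C.subtype, c * h * c⁻¹ ∈ H.map C.subtype := by
      rintro c hc _ ⟨h, hh, rfl⟩
      exact ⟨⟨c, hc⟩ * h * ⟨c, hc⟩⁻¹, hHn.conj_mem h hh _, rfl⟩
    intro h
    constructor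
    · exact key c hc h
    · intro hh
      have := key c⁻¹ (C.inv_mem hc) _ hh
      simpa [mul_assoc] using this
  · rw [eq_bot_iff]
    rintro _ ⟨⟨h, hh, rfl⟩, hA⟩
    have h1 : h ∈ (Q : Subgroup C) := (hQA h).2 hA
    have h2 : h ∈ H ⊓ (Q : Subgroup C) := ⟨hh, h1⟩
    rw [disjoint_iff.1 hHc.disjoint, Subgroup.mem_bot] at h2
    rw [h2]; rfl
  · apply le_antisymm
    · exact sup_le (Subgroup.map_subtype_le H) hAC
    · intro c hc
      have h1 : (⟨c, hc⟩ : C) ∈ H ⊔ (Q : Subgroup C) := by rw [hHc.sup_eq_top]; exact Subgroup.mem_top _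
      obtain ⟨h, hh, q, hq, hhq⟩ := Subgroup.mem_sup_of_normal_left.1 h1
      have h2 : c = (h : G) * (q : G) := congrArg Subtype.val hhq.symm
      rw [h2]
      exact Subgroup.mul_mem_sup ⟨h, hh, rfl⟩ ((hQA q).1 hq)

end Cfsg.Agent.S0125
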