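import Cfsg.Statements.S0131

set_option autoImplicit false
set_option linter.all false
open Cfsg

namespace Cfsg.Agent.S0131

open scoped commutatorElement

/-- P/P' has a normal complement in G exactly when the focal subgroup G' ∩ P is as small as possible, namely P'. -/
theorem result {G : Type*} [Group G] [Finite G] {p : ℕ} [Fact p.Prime] (P : Sylow p G) : (∃ N : Subgroup G, N.Normal ∧ N ⊓ (P : Subgroup G) = ⁅(P : Subgroup G), (P : Subgroup G)⁆ ∧ N ⊔ (P : Subgroup G) = ⊤) ↔ commutator G ⊓ (P : Subgroup G) = ⁅(P : Subgroup G), (P : Subgroup G)⁆ := by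
  constructor
  · rintro ⟨N, hN, h1, h2⟩
    apply le_antisymm
    · rw [← h1]
      apply inf_le_inf_right
      rw [commutator_def, Subgroup.commutator_le]
      intro g _ h _
      let f := QuotientGroup.mk' N
      have key : ∀ g : G, ∃ x ∈ (P : Subgroup G), f g = f x := by
        intro g
        have hg : g ∈ N ⊔ (P : Subgroup G) := by rw [h2]; exact Subgroup.mem_top g
        obtain ⟨n, hn, x, hx, rfl⟩ := Subgroup.mem_sup_of_normal_left.1 hg
        refine ⟨x, hx, ?_⟩
        have : f n = 1 := (QuotientGroup.eq_one_iff n).2 hn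
        rw [map_mul, this, one_mul]
      obtain ⟨x, hx, hgx⟩ := key g
      obtain ⟨y, hy, hhy⟩ := key h
      have h3 : ⁅x, y⁆ ∈ N := by
        have : ⁅x, y⁆ ∈ ⁅(P : Subgroup G), (P : Subgroup G)⁆ :=
          Subgroup.commutator_mem_commutator hx hy
        rw [← h1] at this
        exact this.1
      have h4 : f ⁅g, h⁆ = 1 := by
        rw [map_commutatorElement, hgx, hhy, ← map_commutatorElement]
        exact (QuotientGroup.eq_one_iff _).2 h3
      exact (QuotientGroup.eq_one_iff _).1 h4
    · apply le_inf
      · exact Subgroup.commutator_mono le_top le_top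
      · exact Subgroup.commutator_le_self _
  · intro h
    refine ⟨(P : Subgroup G).transferFocal.ker, inferInstance, ?_, ?_⟩
    · rw [Subgroup.ker_transferFocal_inf_eq_focalSubgroup, ← h,
        Subgroup.commutator_inf_eq_focalSubgroup]
    · rw [eq_top_iff]
      intro g _
      obtain ⟨v, hv⟩ := Subgroup.focalSubgroupOf.pow_index_surjective P
        ((P : Subgroup G).transferFocal g)
      obtain ⟨x, rfl⟩ := QuotientGroup.mk'_surjective _ v
      have h1 : (P : Subgroup G).transferFocal (x : G) = (P : Subgroup G).transferFocal g := by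
        rw [Subgroup.transferFocal_eq_pow]
        exact hv
      have h2 : g = (g * (x : G)⁻¹) * x := by group
      rw [h2]
      refine Subgroup.mul_mem_sup ?_ x.2
      rw [MonoidHom.mem_ker, map_mul, map_inv, h1, mul_inv_cancel]

end Cfsg.Agent.S0131
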