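import Cfsg.Statements.S0167
import Cfsg.Agent.Lib.H4.Commutator

set_option autoImplicit false
open Cfsg

namespace Cfsg.Agent.S0167

/-- An element g of a finite group is a commutator if and only if the sum over the irreducible characters χ of χ g / χ 1 is nonzero. -/
theorem result {G : Type*} [Group G] [Finite G] (g : G) : (∃ a b : G, g = a * b * a⁻¹ * b⁻¹) ↔ ∑ᶠ χ : Cfsg.IrrCharacter G, (χ : G → ℂ) g / (χ : G → ℂ) 1 ≠ 0 := by
  have := Fintype.ofFinite G
  have := Fintype.ofFinite (Cfsg.IrrCharacter G)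
  rw [finsum_eq_sum_of_fintype]
  have h := H4.Commutator.card_commutator_eq g
  have hG : (Nat.card G : ℂ) ≠ 0 := H4.CharOrth.card_ne_zero'
  have h2 : (Nat.card {p : G × G // p.1 * p.2 * p.1⁻¹ * p.2⁻¹ = g} : ℂ) =
      (Nat.card G : ℂ) * ∑ χ : Cfsg.IrrCharacter G, (χ : G → ℂ) g / (χ : G → ℂ) 1 := by
    rw [h, Finset.mul_sum]
    exact Finset.sum_congr rfl fun χ _ => by ring
  have h3 : (∃ a b : G, g = a * b * a⁻¹ * b⁻¹) ↔
      Nat.card {p : G × G // p.1 * p.2 * p.1⁻¹ * p.2⁻¹ = g} ≠ 0 := by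
    rw [Nat.card_ne_zero]
    constructor
    · rintro ⟨a, b, hab⟩
      exact ⟨⟨⟨(a, b), hab.symm⟩⟩, inferInstance⟩
    · rintro ⟨⟨p⟩, _⟩
      exact ⟨p.1.1, p.1.2, p.2.symm⟩
  rw [h3]
  constructor
  · intro h4 h5
    rw [h5, mul_zero] at h2
    exact h4 (by exact_mod_cast h2)
  · intro h4 h5
    rw [h5, Nat.cast_zero] at h2
    rcases mul_eq_zero.mp h2.symm with h6 | h6
    · exact hG h6
    · exact h4 h6

end Cfsg.Agent.S0167
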