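import Cfsg.Statements.S0185
import Cfsg.Agent.Lib.H5.CharMisc
import Cfsg.Agent.Lib.H4.Eigen

set_option autoImplicit false
open Cfsg

namespace Cfsg.Agent.S0185

/-- If a finite group has a faithful complex representation of degree less than the smallest prime dividing its order, the group is abelian. -/
theorem result {G : Type*} [Group G] [Finite G] {V : Type*} [AddCommGroup V] [Module ℂ V] [FiniteDimensional ℂ V] (ρ : Representation ℂ G V) (hfaithful : Function.Injective ρ) (hdeg : ∀ p : ℕ, p.Prime → p ∣ Nat.card G → Module.finrank ℂ V < p) (a b : G) : a * b = b * a := by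
  have h1 := H5.CharMisc.char_commutator_of_small (H18.CharBasic.isCharacter_of_rep ρ)
    (n := Module.finrank ℂ V) (by rw [Representation.char_one]) hdeg a b
  rw [Representation.char_one] at h1
  have h4 := (H4.Eigen.char_eq_degree_iff ρ _).mp h1
  have h5 : a * b * a⁻¹ * b⁻¹ = 1 := hfaithful (by rw [h4, map_one]; rfl)
  rw [mul_inv_eq_one, mul_inv_eq_iff_eq_mul] at h5
  exact h5

end Cfsg.Agent.S0185
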