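import Cfsg.Statements.S0186
import Cfsg.Agent.Lib.H5.CharMisc

set_option autoImplicit false
open Cfsg

namespace Cfsg.Agent.S0186

/-- Let G be a finite simple group of order n and p a prime dividing n. If G has more than n / p^2 conjugacy classes, then every Sylow p-subgroup of G is abelian. -/
theorem result {G : Type*} [Group G] [Finite G] [IsSimpleGroup G] (p : ℕ) [Fact p.Prime] (hp : p ∣ Nat.card G) (hmany : Nat.card G < p ^ 2 * Nat.card (ConjClasses G)) (P : Sylow p G) (a b : G) (ha : a ∈ P) (hb : b ∈ P) : a * b = b * a := by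
  classical
  have := Fintype.ofFinite G
  have := Fintype.ofFinite (Cfsg.IrrCharacter G)
  by_contra hab
  have hp0 : p.Prime := Fact.out
  -- p^3 divides |G|
  have hp3 : p ^ 3 ∣ Nat.card G := by
    refine dvd_trans ?_ (P : Subgroup G).card_subgroup_dvd_card
    obtain ⟨k, hk⟩ := P.2.exists_card_eq
    rw [hk]
    apply pow_dvd_pow
    by_contra hk3
    push Not at hk3
    apply hab
    have hk2 : k ≤ 2 := by omega
    have hcomm : ∀ x y : P, x * y = y * x := by
      interval_cases k
      · intro x y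
        have : Subsingleton P := (Nat.card_eq_one_iff_unique.mp (by simpa using hk)).1
        exact Subsingleton.elim _ _
      · have : IsCyclic P := isCyclic_of_prime_card (p := p) (by simpa using hk)
        intro x y
        exact (IsCyclic.commGroup (α := P)).mul_comm x y
      · intro x y
        exact (IsPGroup.commGroupOfCardEqPrimeSq (p := p) hk).mul_comm x y
    exact congrArg Subtype.val (hcomm ⟨a, ha⟩ ⟨b, hb⟩)
  obtain ⟨m, hm⟩ := hp3
  -- a nonprincipal irreducible character of degree < p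
  have hex : ∃ χ : Cfsg.IrrCharacter G, (χ : G → ℂ) ≠ (fun _ => 1) ∧
      ∃ n : ℕ, (χ : G → ℂ) 1 = n ∧ n < p := by
    by_contra hcon
    push Not at hcon
    choose d hd using fun χ : Cfsg.IrrCharacter G =>
      H18.CharBasic.exists_degree (H18.CharBasic.isCharacter_of_isIrr χ.2)
    have h1 := H18.CharInd.sum_degree_sq (G := G)
    simp only [hd] at h1
    have h2 : ∑ χ : Cfsg.IrrCharacter G, (d χ) ^ 2 = Nat.card G := by exact_mod_cast h1
    let χ₁ : Cfsg.IrrCharacter G := ⟨fun _ => 1, H18.CharBasic.isIrrCharacter_one⟩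
    have h3 : ∀ χ ∈ Finset.univ.erase χ₁, p ^ 2 ≤ (d χ) ^ 2 := by
      intro χ hχ
      have hne : (χ : G → ℂ) ≠ (fun _ => 1) := fun h => (Finset.mem_erase.mp hχ).1 (Subtype.ext h)
      exact Nat.pow_le_pow_left (hcon χ hne (d χ) (hd χ)) 2
    rw [← Finset.add_sum_erase _ _ (Finset.mem_univ χ₁)] at h2
    have h4 : d χ₁ = 1 := by
      have := hd χ₁
      have h5 : (χ₁ : G → ℂ) 1 = 1 := rfl
      rw [h5] at this
      exact_mod_cast this.symm
    have h5 := Finset.card_nsmul_le_sum _ _ _ h3
    rw [Finset.card_erase_of_mem (Finset.mem_univ _), Finset.card_univ, ← Nat.card_eq_fintype_card,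
      H18.CharOrtho.card_irr_eq_card_conjClasses, smul_eq_mul] at h5
    rw [h4] at h2
    set k := Nat.card (ConjClasses G) with hk
    have h6 : p * m < k := by
      rw [hm] at hmany
      have : p ^ 2 * (p * m) < p ^ 2 * k := by
        calc p ^ 2 * (p * m) = p ^ 3 * m := by ring
          _ < _ := hmany
      exact Nat.lt_of_mul_lt_mul_left this
    have h7 : p * m * p ^ 2 ≤ (k - 1) * p ^ 2 := Nat.mul_le_mul_right _ (by omega)
    have h8 : p * m * p ^ 2 = Nat.card G := by rw [hm]; ring
    omega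
  obtain ⟨χ, hne, n, hn, hnp⟩ := hex
  have hχ := H18.CharBasic.isCharacter_of_isIrr χ.2
  -- χ is faithful
  have hker : H18.CharQuot.kerSub (χ : G → ℂ) hχ = ⊥ := by
    have hN := H18.CharQuot.kerSub_normal hχ
    rcases hN.eq_bot_or_eq_top with h | h
    · exact h
    · exfalso
      have h1 : ∀ g : G, (χ : G → ℂ) g = (χ : G → ℂ) 1 := fun g =>
        (H18.CharQuot.mem_kerSub hχ).mp (by rw [h]; trivial)
      have h2 := H18.CharOrtho.inner_irr_ne χ.2 H18.CharBasic.isIrrCharacter_one hne
      have h3 : (χ : G → ℂ) = (χ : G → ℂ) 1 • (fun _ => (1 : ℂ)) := by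
        ext g; simp [h1 g]
      rw [h3, H18.CharOrtho.inner_smul_left,
        H18.CharOrtho.inner_irr_self H18.CharBasic.isIrrCharacter_one, mul_one] at h2
      exact H18.CharBasic.irr_one_ne_zero χ.2 h2
  have hres := H18.CharBasic.isCharacter_restrict (P : Subgroup G) hχ
  have h5 := H5.CharMisc.char_commutator_of_small hres (n := n) hn (by
    intro q hq hqP
    obtain ⟨k, hk⟩ := P.2.exists_card_eq
    have hqP' : q ∣ Nat.card P := hqP
    rw [hk] at hqP'
    rw [(Nat.prime_dvd_prime_iff_eq hq hp0).mp (hq.dvd_of_dvd_pow hqP')]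
    exact hnp) ⟨a, ha⟩ ⟨b, hb⟩
  have h6 : a * b * a⁻¹ * b⁻¹ ∈ H18.CharQuot.kerSub (χ : G → ℂ) hχ :=
    (H18.CharQuot.mem_kerSub hχ).mpr h5
  rw [hker, Subgroup.mem_bot, mul_inv_eq_one, mul_inv_eq_iff_eq_mul] at h6
  exact hab h6

end Cfsg.Agent.S0186
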