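import Cfsg.Statements.S0187
import Cfsg.Agent.Lib.H5.CharMisc

set_option autoImplicit false
open Cfsg

namespace Cfsg.Agent.S0187

/-- A finite group is commutative if and only if every irreducible complex character has degree 1. -/
theorem result {G : Type*} [Group G] [Finite G] : (∀ a b : G, a * b = b * a) ↔ ∀ χ : Cfsg.IrrCharacter G, (χ : G → ℂ) 1 = 1 := by
  have := Fintype.ofFinite G
  have := Fintype.ofFinite (Cfsg.IrrCharacter G)
  constructor
  · intro h χ
    obtain ⟨f, hf⟩ := H18.CharBasic.exists_hom_of_isIrr_of_comm h χ.2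
    rw [hf]; simp
  · intro h a b
    have h1 := H18.CharInd.sum_degree_sq (G := G)
    simp only [h, one_pow, Finset.sum_const, Finset.card_univ, nsmul_eq_mul, mul_one] at h1
    have h2 : Nat.card (Cfsg.IrrCharacter G) = Nat.card G := by
      rw [Nat.card_eq_fintype_card]
      exact_mod_cast h1
    rw [H18.CharOrtho.card_irr_eq_card_conjClasses] at h2
    have h3 : Function.Bijective (ConjClasses.mk : G → ConjClasses G) :=
      (Nat.bijective_iff_surjective_and_card _).mpr ⟨ConjClasses.mk_surjective, h2.symm⟩
    have h4 : a * b * a⁻¹ = b := by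
      apply h3.1
      rw [ConjClasses.mk_eq_mk_iff_isConj]
      exact (isConj_iff.2 ⟨a, rfl⟩).symm
    rw [mul_inv_eq_iff_eq_mul] at h4
    exact h4

end Cfsg.Agent.S0187
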