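import Cfsg.Statements.S0190
import Mathlib.Tactic

set_option autoImplicit false
open Cfsg

namespace Cfsg.Agent.S0190

/-- For a transitive action of a finite group on X, the permutation character g ↦ (number of fixed points of g) is the function induced from the principal character of the stabilizer of any point. -/
theorem result {G : Type*} [Group G] [Fintype G] (X : Type*) [MulAction G X] [Finite X] [MulAction.IsPretransitive G X] (x : X) : (fun g : G => (Nat.card (MulAction.fixedBy X g) : ℂ)) = Cfsg.indFun (MulAction.stabilizer G x) (fun _ => 1) := by
  classical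
  funext g
  have : Fintype X := Fintype.ofFinite X
  unfold Cfsg.indFun
  have hext : ∀ y : G, Cfsg.extendByZero (MulAction.stabilizer G x) (fun _ => (1 : ℂ)) (y⁻¹ * g * y) =
      if g • (y • x) = y • x then 1 else 0 := by
    intro y
    unfold Cfsg.extendByZero
    by_cases h : y⁻¹ * g * y ∈ MulAction.stabilizer G x
    · have h' : g • (y • x) = y • x := by
        rw [MulAction.mem_stabilizer_iff] at h
        rw [mul_smul, mul_smul, inv_smul_eq_iff] at h
        exact h
      rw [if_pos h']
      exact Function.Injective.extend_apply Subtype.val_injective _ _ (⟨_, h⟩ : MulAction.stabilizer G x)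
    · have h' : ¬ g • (y • x) = y • x := by
        intro h2
        apply h
        rw [MulAction.mem_stabilizer_iff, mul_smul, mul_smul, inv_smul_eq_iff]
        exact h2
      rw [if_neg h', Function.extend_apply']
      · rfl
      · rintro ⟨⟨a, ha⟩, rfl⟩
        exact h ha
  simp_rw [hext]
  -- sum over G of indicator = |Stab| * fixed points
  have hfib : ∀ z : X, Finset.card {y : G | y • x = z} = Nat.card (MulAction.stabilizer G x) := by
    intro z
    obtain ⟨a, rfl⟩ := MulAction.exists_smul_eq G x z
    rw [← Fintype.card_subtype, ← Nat.card_eq_fintype_card]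
    apply Nat.card_congr
    exact {
      toFun := fun y => ⟨a⁻¹ * y.1, by
        rw [MulAction.mem_stabilizer_iff, mul_smul, y.2, inv_smul_smul]⟩
      invFun := fun y => ⟨a * y.1, by
        have := y.2
        rw [MulAction.mem_stabilizer_iff] at this
        rw [mul_smul, this]⟩
      left_inv := fun y => by simp
      right_inv := fun y => by simp }
  have h1 := Finset.sum_comp (s := (Finset.univ : Finset G))
    (fun z : X => if g • z = z then (1 : ℂ) else 0) (fun y : G => y • x)
  rw [h1]
  have himg : Finset.image (fun y : G => y • x) Finset.univ = (Finset.univ : Finset X) := by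
    ext z
    simp only [Finset.mem_image, Finset.mem_univ, true_and, iff_true]
    exact MulAction.exists_smul_eq G x z
  rw [himg]
  simp_rw [hfib, nsmul_eq_mul]
  rw [← Finset.mul_sum, ← mul_assoc, inv_mul_cancel₀, one_mul]
  · rw [Finset.sum_boole, Nat.card_eq_fintype_card, Fintype.card_subtype]
    rfl
  · exact Nat.cast_ne_zero.mpr Nat.card_pos.ne'

end Cfsg.Agent.S0190
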