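import Cfsg.Statements.S0192
import Mathlib.Tactic

set_option autoImplicit false
open Cfsg

namespace Cfsg.Agent.S0192

theorem inner_eq {G : Type*} [Group G] {n : ℕ} (ρ : Representation ℂ G (Fin n → ℂ))
    (H : Subgroup G) [Fintype H] :
    (Cfsg.classInner (fun x : H => ρ.character x) (fun _ => 1)).re =
      (Module.finrank ℂ (Representation.invariants (ρ.comp H.subtype)) : ℝ) := by
  have hcard : (Nat.card H : ℂ) ≠ 0 := Nat.cast_ne_zero.mpr Nat.card_pos.ne'
  have : Invertible (Nat.card H : ℂ) := invertibleOfNonzero hcard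
  have h := Representation.card_inv_mul_sum_char_eq_finrank (ρ.comp H.subtype)
  have h2 : Cfsg.classInner (fun x : H => ρ.character x) (fun _ => 1) =
      (Module.finrank ℂ (Representation.invariants (ρ.comp H.subtype)) : ℂ) := by
    rw [← h]
    unfold Cfsg.classInner
    simp [Representation.character]
  rw [h2]
  simp

/-- Brauer's generation criterion. Let G be a finite simple group, H₁ and H₂ subgroups, and χ a non-principal irreducible character. If the multiplicity of the principal character in χ restricted to H₁ ⊓ H₂ is less than the sum of the corresponding multiplicities for H₁ and H₂, then H₁ and H₂ do not generate G. -/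
theorem result {G : Type*} [Group G] [Fintype G] [IsSimpleGroup G] (H₁ H₂ : Subgroup G) [Fintype H₁] [Fintype H₂] [Fintype ↥(H₁ ⊓ H₂)] (χ : G → ℂ) (hχ : Cfsg.IsIrrCharacter G χ) (hχ1 : χ ≠ fun _ => 1) (hlt : (Cfsg.classInner (fun x : ↥(H₁ ⊓ H₂) => χ x) (fun _ => 1)).re < (Cfsg.classInner (fun x : H₁ => χ x) (fun _ => 1)).re + (Cfsg.classInner (fun x : H₂ => χ x) (fun _ => 1)).re) : H₁ ⊔ H₂ ≠ ⊤ := by
  intro htop
  obtain ⟨n, ρ, hirr, rfl⟩ := hχ
  rw [inner_eq, inner_eq, inner_eq] at hlt
  set V₁ := Representation.invariants (ρ.comp H₁.subtype) with hV₁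
  set V₂ := Representation.invariants (ρ.comp H₂.subtype) with hV₂
  set V₃ := Representation.invariants (ρ.comp (H₁ ⊓ H₂).subtype) with hV₃
  have hlt' : Module.finrank ℂ V₃ < Module.finrank ℂ V₁ + Module.finrank ℂ V₂ := by
    exact_mod_cast hlt
  have hle : V₁ ⊔ V₂ ≤ V₃ := by
    apply sup_le
    · intro v hv g
      exact hv ⟨g.1, g.2.1⟩
    · intro v hv g
      exact hv ⟨g.1, g.2.2⟩
  have h1 := Submodule.finrank_sup_add_finrank_inf_eq V₁ V₂
  have h2 : Module.finrank ℂ ↥(V₁ ⊔ V₂) ≤ Module.finrank ℂ V₃ := Submodule.finrank_mono hle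
  have h3 : 0 < Module.finrank ℂ ↥(V₁ ⊓ V₂) := by omega
  have h4 : V₁ ⊓ V₂ ≠ ⊥ := by
    intro h; rw [h] at h3; simp at h3
  obtain ⟨v, hv, hv0⟩ := Submodule.exists_mem_ne_zero_of_ne_bot h4
  -- v fixed by all of G
  have hfix : ∀ g : G, ρ g v = v := by
    intro g
    have hg : g ∈ H₁ ⊔ H₂ := by rw [htop]; exact Subgroup.mem_top g
    let S : Subgroup G :=
      { carrier := {g | ρ g v = v}
        one_mem' := by simp
        mul_mem' := by
          intro a b ha hb
          simp only [Set.mem_setOf_eq] at ha hb ⊢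
          rw [map_mul, Module.End.mul_apply, hb, ha]
        inv_mem' := by
          intro a ha
          simp only [Set.mem_setOf_eq] at ha ⊢
          nth_rewrite 1 [← ha]
          rw [← Module.End.mul_apply, ← map_mul, inv_mul_cancel, map_one, Module.End.one_apply] }
    have hS : H₁ ⊔ H₂ ≤ S := by
      apply sup_le
      · intro h hh; exact hv.1 ⟨h, hh⟩
      · intro h hh; exact hv.2 ⟨h, hh⟩
    exact hS hg
  let W : Subrepresentation ρ := ⟨Submodule.span ℂ {v}, by
    intro g w hw
    obtain ⟨c, rfl⟩ := Submodule.mem_span_singleton.mp hw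
    rw [map_smul, hfix]
    exact hw⟩
  have hW : W = ⊤ := by
    rcases hirr.eq_bot_or_eq_top W with h | h
    · exfalso
      have : v ∈ W := Submodule.mem_span_singleton_self v
      rw [h] at this
      exact hv0 this
    · exact h
  have hspan : ∀ w : Fin n → ℂ, ∃ c : ℂ, c • v = w := by
    intro w
    have : w ∈ (⊤ : Subrepresentation ρ) := trivial
    rw [← hW] at this
    exact Submodule.mem_span_singleton.mp this
  have hid : ∀ g : G, ρ g = LinearMap.id := by
    intro g
    ext1 i
    ext1 
    obtain ⟨c, hc⟩ := hspan (LinearMap.single ℂ (fun _ : Fin n => ℂ) i 1)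
    simp only [LinearMap.comp_apply]
    rw [← hc, map_smul, hfix, LinearMap.id_apply]
  have hfr : Module.finrank ℂ (Fin n → ℂ) = 1 := finrank_eq_one v hv0 hspan
  apply hχ1
  funext g
  rw [Representation.character, hid]
  have : LinearMap.trace ℂ (Fin n → ℂ) LinearMap.id = (Module.finrank ℂ (Fin n → ℂ) : ℂ) := LinearMap.trace_id _ _
  rw [this, hfr]; simp

end Cfsg.Agent.S0192
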