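import Cfsg.Statements.S0194
import Cfsg.Agent.Lib.H5.CharMisc

set_option autoImplicit false
open scoped ComplexConjugate
open Cfsg

namespace Cfsg.Agent.S0194

/-- Let G have odd order, H be a normal subgroup and θ a non-principal irreducible character of H. Then the function induced from θ is orthogonal to its complex conjugate. -/
theorem result {G : Type*} [Group G] [Fintype G] (hodd : Odd (Nat.card G)) (H : Subgroup G) [H.Normal] (θ : H → ℂ) (hθ : Cfsg.IsIrrCharacter H θ) (hθ1 : θ ≠ fun _ => 1) : Cfsg.classInner (fun g => conj (Cfsg.indFun H θ g)) (Cfsg.indFun H θ) = 0 := by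
  classical
  have := Fintype.ofFinite H
  have hθ' : Cfsg.IsIrrCharacter H (fun h => conj (θ h)) := H4.FixedCount.isIrrCharacter_conj hθ
  have h0 : (fun g => conj (Cfsg.indFun H θ g)) = Cfsg.indFun H (fun h => conj (θ h)) := by
    ext g
    rw [H18.CharInd.indFun_apply, H18.CharInd.indFun_apply, map_mul, map_inv₀,
      Complex.conj_natCast, map_sum]
    congr 1
    refine Finset.sum_congr rfl fun x _ => ?_
    rw [H18.CharInd.ext_eq, H18.CharInd.ext_eq]
    split_ifs <;> simp
  have hne : (Nat.card H : ℂ) ≠ 0 := by exact_mod_cast (Nat.card_pos (α := H)).ne'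
  rw [h0]
  have h1 : (Nat.card H : ℂ) * Cfsg.classInner (Cfsg.indFun H (fun h => conj (θ h)))
      (Cfsg.indFun H θ) = 0 := by
    rw [H5.CharMisc.classInner_ind_normal]
    apply Finset.sum_eq_zero
    intro x _
    rw [H18.CharOrtho.inner_irr_ne hθ' (H5.CharMisc.cj_irr H hθ x)]
    intro hx
    -- θ^x = conj θ
    have hsq : H5.CharMisc.cj H θ (x * x) = θ := by
      rw [← H5.CharMisc.cj_cj, ← hx]
      ext h
      have h2 : H5.CharMisc.cj H (fun h => conj (θ h)) x h = conj (H5.CharMisc.cj H θ x h) := rfl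
      rw [h2, ← hx]
      simp
    have hpow : ∀ m : ℕ, H5.CharMisc.cj H θ ((x * x) ^ m) = θ := by
      intro m
      induction m with
      | zero =>
        ext h
        simp [H5.CharMisc.cj]
      | succ m ih => rw [pow_succ, ← H5.CharMisc.cj_cj, ih, hsq]
    obtain ⟨m, hm⟩ := hodd
    have hx1 : (x * x) ^ (m + 1) = x := by
      rw [← pow_two, ← pow_mul]
      have : 2 * (m + 1) = Nat.card G + 1 := by omega
      rw [this, pow_succ, pow_card_eq_one', one_mul]
    have h3 := hpow (m + 1)
    rw [hx1, ← hx] at h3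
    have hoddH : Odd (Nat.card H) := by
      have h4 := H.card_subgroup_dvd_card
      exact Odd.of_dvd_nat ⟨m, hm⟩ h4
    apply hθ1
    refine H4.FixedCount.real_irr_eq_one hoddH ⟨θ, hθ⟩ fun g => ?_
    have h5 := congrFun h3 g
    exact Complex.conj_eq_iff_im.mp h5
  exact (mul_eq_zero.mp h1).resolve_left hne

end Cfsg.Agent.S0194
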