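import Cfsg.Statements.S0196
import Cfsg.Agent.Lib.H5.ActionCount
import Mathlib.Tactic

set_option autoImplicit false
open Cfsg

namespace Cfsg.Agent.S0196

/-- Let A be a subgroup of a finite group G that equals the centralizer of each of its non-identity elements, and let N be its normalizer. Then the index of A in N divides |A| − 1 (N/A permutes the non-identity elements of A in orbits of full length). -/
theorem result {G : Type*} [Group G] [Finite G] (A : Subgroup G) (hA : ∀ x ∈ A, x ≠ 1 → Subgroup.centralizer ({x} : Set G) = A) : (A.subgroupOf (Subgroup.normalizer (A : Set G))).index ∣ Nat.card A - 1 := by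
  classical
  set N := Subgroup.normalizer (A : Set G) with hN
  by_cases hA1 : A = ⊥
  · subst hA1; simp
  have hAN : A ≤ N := Subgroup.le_normalizer
  -- conjugation action of N on the nonidentity elements of A
  let X := {a : G // a ∈ A ∧ a ≠ 1}
  let act : MulAction N X :=
    { smul := fun n a => ⟨n * a.1 * (n : G)⁻¹,
        ((Subgroup.mem_normalizer_iff.mp n.2) a.1).mp a.2.1, by
          intro h
          apply a.2.2
          have : a.1 = (n : G)⁻¹ * ((n : G) * a.1 * (n : G)⁻¹) * n := by group
          rw [this, h]; group⟩
      one_smul := fun a => by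
        apply Subtype.ext
        show ((1 : N) : G) * a.1 * ((1 : N) : G)⁻¹ = a.1
        simp
      mul_smul := fun m n a => by
        apply Subtype.ext
        show ((m * n : N) : G) * a.1 * ((m * n : N) : G)⁻¹ = m * (n * a.1 * (n : G)⁻¹) * (m : G)⁻¹
        push_cast; group }
  have hcard : Nat.card X = Nat.card A - 1 := by
    have h1 : ((A : Set G) \ {1}) = {a : G | a ∈ A ∧ a ≠ 1} := by ext; simp
    have h2 : Nat.card X = ({a : G | a ∈ A ∧ a ≠ 1} : Set G).ncard := by
      rw [← Nat.card_coe_set_eq]; rfl
    rw [h2, ← h1, Set.ncard_sdiff_singleton_of_mem (A.one_mem)]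
    rw [← Nat.card_coe_set_eq]; rfl
  rw [← hcard]
  apply H5.ActionCount.dvd_card_of_forall_stabilizer_index (N := N)
  intro x
  have hst : MulAction.stabilizer N x = A.subgroupOf N := by
    ext n
    rw [MulAction.mem_stabilizer_iff, Subgroup.mem_subgroupOf]
    have hx := hA x.1 x.2.1 x.2.2
    rw [← hx, Subgroup.mem_centralizer_singleton_iff]
    constructor
    · intro h
      have h' : (n : G) * x.1 * (n : G)⁻¹ = x.1 := congrArg Subtype.val h
      nth_rewrite 2 [← h']; group
    · intro h
      apply Subtype.ext
      show (n : G) * x.1 * (n : G)⁻¹ = x.1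
      rw [h]; group
  rw [hst]

end Cfsg.Agent.S0196
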