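import Cfsg.Statements.S0199
import Cfsg.Agent.Lib.H55.BaerSuzuki
import Mathlib.Tactic

set_option autoImplicit false
open Cfsg

namespace Cfsg.Agent.S0199

/-- Baer–Suzuki Theorem: a p-subgroup X of a finite group such that X and any of its conjugates generate a p-group is contained in a normal p-subgroup. -/
theorem result {G : Type*} [Group G] [Finite G] {p : ℕ} [Fact p.Prime] (X : Subgroup G) (hX : IsPGroup p X) (h : ∀ g : G, IsPGroup p ↥(X ⊔ X.map (MulAut.conj g).toMonoidHom)) : ∃ N : Subgroup G, N.Normal ∧ IsPGroup p N ∧ X ≤ N := by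
  classical
  set D : Set G := {y | ∃ g : G, ∃ x ∈ X, y = g * x * g⁻¹} with hDdef
  have hD : ∀ g : G, ∀ y ∈ D, g * y * g⁻¹ ∈ D := by
    rintro g _ ⟨k, x, hx, rfl⟩
    exact ⟨g * k, x, hx, by group⟩
  have h2 : ∀ y ∈ D, ∀ z ∈ D, IsPGroup p (Subgroup.closure ({y, z} : Set G)) := by
    rintro _ ⟨g, x, hx, rfl⟩ _ ⟨k, x', hx', rfl⟩
    have h3 := (h (g⁻¹ * k)).map (MulAut.conj g).toMonoidHom
    apply h3.to_le
    rw [Subgroup.closure_le]
    intro w hw
    simp only [Set.mem_insert_iff, Set.mem_singleton_iff] at hw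
    rcases hw with rfl | rfl
    · exact ⟨x, Subgroup.mem_sup_left hx, by simp⟩
    · refine ⟨(g⁻¹ * k) * x' * (g⁻¹ * k)⁻¹, Subgroup.mem_sup_right ⟨x', hx', by simp [mul_assoc]⟩, ?_⟩
      simp [mul_assoc]
  obtain ⟨P⟩ := (inferInstance : Nonempty (Sylow p G))
  refine ⟨Subgroup.closure D, ?_, ?_, ?_⟩
  · constructor
    intro n hn g
    have : Subgroup.map (MulAut.conj g).toMonoidHom (Subgroup.closure D) ≤ Subgroup.closure D := by
      rw [MonoidHom.map_closure, Subgroup.closure_le]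
      rintro _ ⟨y, hy, rfl⟩
      exact Subgroup.subset_closure (hD g y hy)
    exact this ⟨n, hn, rfl⟩
  · apply P.2.to_le
    rw [Subgroup.closure_le]
    exact H55.BaerSuzuki.subset_sylow D hD h2 P
  · intro x hx
    exact Subgroup.subset_closure ⟨1, x, hx, by simp⟩

end Cfsg.Agent.S0199
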