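import Cfsg.Statements.S0211
import Cfsg.Agent.Lib.H5.DihedralLift

set_option autoImplicit false
open Cfsg

namespace Cfsg.Agent.S0211

/-- Let x, y be involutions with xy of even order n and z = (xy)^(n/2). Then xz is conjugate to x by an element of the subgroup generated by x, y if and only if 4 divides n. -/
theorem result {G : Type*} [Group G] [Finite G] (x y : G) (hx : orderOf x = 2) (hy : orderOf y = 2) (heven : Even (orderOf (x * y))) : (∃ d ∈ Subgroup.closure ({x, y} : Set G), d * x * d⁻¹ = x * (x * y) ^ (orderOf (x * y) / 2)) ↔ 4 ∣ orderOf (x * y) := by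
  have hx1 := H5.Dihedral.mul_self hx
  have hy1 := H5.Dihedral.mul_self hy
  obtain ⟨n, hn⟩ := heven
  have hn2 : orderOf (x * y) / 2 = n := by omega
  rw [hn2]
  have hpos : 0 < orderOf (x * y) := orderOf_pos _
  obtain ⟨-, hc, -⟩ := H5.Dihedral.central_pow hx1 hy1 hpos.ne' ⟨n, hn⟩
  rw [hn2] at hc
  constructor
  · rintro ⟨d, hd, hd'⟩
    obtain ⟨k, hk⟩ := H5.Dihedral.conj_x hx1 hy1 hd
    rw [hk, ← hc.eq] at hd'
    have h2 := mul_right_cancel hd'
    rw [← zpow_natCast, zpow_eq_zpow_iff_modEq, Int.modEq_iff_dvd] at h2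
    obtain ⟨c, hcc⟩ := h2
    rw [hn] at hcc
    push_cast at hcc
    have h3 : (n : ℤ) = 2 * (k + n * c) := by linarith [hcc, (by ring : ((n : ℤ) + n) * c = 2 * (n * c))]
    have h4 : (2 : ℤ) ∣ n := ⟨_, h3⟩
    have h5 : 2 ∣ n := by exact_mod_cast h4
    obtain ⟨m, rfl⟩ := h5
    rw [hn]
    exact ⟨m, by ring⟩
  · intro h4
    rw [hn] at h4
    have h5 : 2 ∣ n := by omega
    obtain ⟨m, rfl⟩ := h5
    refine ⟨(x * y) ^ (m : ℤ), H5.Dihedral.zpow_mem_closure x y _, ?_⟩
    rw [H5.Dihedral.conj_x_zpow hx1 hy1, ← hc.eq, ← zpow_natCast]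
    congr 2

end Cfsg.Agent.S0211
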