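import Cfsg.Statements.S0212
import Cfsg.Agent.Lib.H5.BrauerFowler2

set_option autoImplicit false
open Cfsg

namespace Cfsg.Agent.S0212

/-- The Brauer–Fowler bound: if G is a finite simple group and t an involution of G whose centralizer has order n, then |G| ≤ (2n^2)!. -/
theorem result {G : Type*} [Group G] [Finite G] [IsSimpleGroup G] (t : G) (ht : orderOf t = 2) : Nat.card G ≤ Nat.factorial (2 * (Nat.card (Subgroup.centralizer ({t} : Set G))) ^ 2) := by
  classical
  have : Fintype G := Fintype.ofFinite G
  by_cases hC : H5.BrauerFowler.cent t = ⊤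
  · -- t central: G has order two
    have hz : t ∈ Subgroup.center G := by
      rw [Subgroup.mem_center_iff]
      intro x
      have : x ∈ H5.BrauerFowler.cent t := by rw [hC]; exact Subgroup.mem_top x
      exact H5.BrauerFowler.mem_cent.mp this
    have hCG : Nat.card (Subgroup.centralizer ({t} : Set G)) = Nat.card G := by
      have : Nat.card (H5.BrauerFowler.cent t) = Nat.card (⊤ : Subgroup G) := by rw [hC]
      rw [Subgroup.card_top] at this
      exact this
    rw [hCG]
    calc Nat.card G ≤ 2 * Nat.card G ^ 2 := by nlinarith [Nat.card_pos (α := G)]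
      _ ≤ _ := Nat.self_le_factorial _
  · set n := Nat.card (Subgroup.centralizer ({t} : Set G)) with hn
    set N := Nat.card G with hN
    have hZ : ∀ g : G, g ≠ 1 → H5.BrauerFowler.cent g ≠ ⊤ := by
      intro g hg h
      have hz : g ∈ Subgroup.center G := by
        rw [Subgroup.mem_center_iff]
        intro x
        have : x ∈ H5.BrauerFowler.cent g := by rw [h]; exact Subgroup.mem_top x
        exact H5.BrauerFowler.mem_cent.mp this
      have hct : Subgroup.center G = ⊤ := by
        rcases (inferInstance : (Subgroup.center G).Normal).eq_bot_or_eq_top with h1 | h1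
        · rw [h1, Subgroup.mem_bot] at hz; exact absurd hz hg
        · exact h1
      apply hC
      rw [eq_top_iff]
      intro x _
      rw [H5.BrauerFowler.mem_cent]
      have : t ∈ Subgroup.center G := by rw [hct]; exact Subgroup.mem_top t
      exact Subgroup.mem_center_iff.mp this x
    -- find g ≠ 1 with small index
    have hex : ∃ g : G, g ≠ 1 ∧ (H5.BrauerFowler.cent g).index ≤ 2 * n ^ 2 := by
      by_contra hcon
      push Not at hcon
      let T : Finset G := Finset.univ.filter (fun x => IsConj t x)
      have hT : ∀ x ∈ T, orderOf x = 2 := by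
        intro x hx
        obtain ⟨c, hc⟩ := isConj_iff.mp (Finset.mem_filter.mp hx).2
        rw [← hc, H5.Dihedral.orderOf_conj]; exact ht
      have hT' : ∀ x ∈ T, x * x = 1 := fun x hx => H5.Dihedral.mul_self (hT x hx)
      have hTc : T.card * n = N := by
        rw [hN, ← H5.BrauerFowler.card_conj_mul_card_cent t]
        congr 1
        rw [← Fintype.card_coe, ← Nat.card_eq_fintype_card]
        exact Nat.card_congr (Equiv.subtypeEquivRight (fun x => by simp [T]))
      have hsum := H5.BrauerFowler2.sum_fib T
      have h1 := H5.BrauerFowler2.card_fib_one T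
      have h2 : ∀ g : G, g ≠ 1 → 2 * n ^ 2 * (H5.BrauerFowler2.fib T g).card ≤ N := by
        intro g hg
        have h3 := H5.BrauerFowler2.card_fib_le hT' g
        have h4 := (H5.BrauerFowler.cent g).card_mul_index
        have h5 := hcon g hg
        calc 2 * n ^ 2 * (H5.BrauerFowler2.fib T g).card
            ≤ (H5.BrauerFowler.cent g).index * Nat.card (H5.BrauerFowler.cent g) :=
              Nat.mul_le_mul h5.le h3
          _ = N := by rw [mul_comm]; exact h4
      have h3 : ∑ g ∈ Finset.univ.erase (1 : G), 2 * n ^ 2 * (H5.BrauerFowler2.fib T g).card ≤ (N - 1) * N := by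
        calc _ ≤ ∑ g ∈ Finset.univ.erase (1 : G), N := by
              apply Finset.sum_le_sum
              intro g hg
              exact h2 g (Finset.ne_of_mem_erase hg)
          _ = (N - 1) * N := by
            rw [Finset.sum_const, smul_eq_mul, Finset.card_erase_of_mem (Finset.mem_univ _),
              Finset.card_univ, ← Nat.card_eq_fintype_card]
      have h4 : ∑ g : G, 2 * n ^ 2 * (H5.BrauerFowler2.fib T g).card = 2 * n ^ 2 * (T.card * T.card) := by
        rw [← Finset.mul_sum, hsum]
      have h5 := Finset.add_sum_erase (Finset.univ : Finset G)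
        (fun g => 2 * n ^ 2 * (H5.BrauerFowler2.fib T g).card) (Finset.mem_univ 1)
      rw [h4] at h5
      have hidx := (H5.BrauerFowler.cent t).card_mul_index
      have hidx2 : 2 ≤ (H5.BrauerFowler.cent t).index := by
        have h6 : (H5.BrauerFowler.cent t).index ≠ 1 := fun h => hC (Subgroup.index_eq_one.mp h)
        have h7 : (H5.BrauerFowler.cent t).index ≠ 0 := Subgroup.FiniteIndex.index_ne_zero
        omega
      have h6 : 2 * n ≤ N := by
        calc 2 * n = n * 2 := by ring
          _ ≤ n * (H5.BrauerFowler.cent t).index := Nat.mul_le_mul_left _ hidx2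
          _ = N := hidx
      have hNpos : 0 < N := Nat.card_pos
      obtain ⟨N', hN'⟩ : ∃ N', N = N' + 1 := ⟨N - 1, by omega⟩
      have e1 : 2 * n ^ 2 * (T.card * T.card) = 2 * (N * N) := by rw [← hTc]; ring
      have e2 : 2 * n ^ 2 * (H5.BrauerFowler2.fib T 1).card ≤ 2 * n * N := by
        calc 2 * n ^ 2 * (H5.BrauerFowler2.fib T 1).card ≤ 2 * n ^ 2 * T.card := Nat.mul_le_mul_left _ h1
          _ = 2 * n * (T.card * n) := by ring
          _ = 2 * n * N := by rw [hTc]
      have e3 : 2 * n * N ≤ N * N := Nat.mul_le_mul_right _ h6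
      have e4 : (N - 1) * N < N * N := Nat.mul_lt_mul_of_pos_right (by omega) hNpos
      omega
    obtain ⟨g, hg1, hg⟩ := hex
    -- G acts faithfully on the cosets of cent g
    have hfaith : Function.Injective (MulAction.toPermHom G (G ⧸ H5.BrauerFowler.cent g)) := by
      rw [← MonoidHom.ker_eq_bot_iff]
      rcases (inferInstance : (MulAction.toPermHom G (G ⧸ H5.BrauerFowler.cent g)).ker.Normal).eq_bot_or_eq_top with h | h
      · exact h
      · exfalso
        apply hZ g hg1
        rw [← Subgroup.normalCore_eq_ker] at h
        rw [eq_top_iff, ← h]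
        exact Subgroup.normalCore_le _
    have hle := Nat.card_le_card_of_injective _ hfaith
    have : Fintype (G ⧸ H5.BrauerFowler.cent g) := Fintype.ofFinite _
    rw [Nat.card_eq_fintype_card (α := Equiv.Perm _), Fintype.card_perm, ← Nat.card_eq_fintype_card] at hle
    exact hle.trans (Nat.factorial_le hg)

end Cfsg.Agent.S0212
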