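import Cfsg.Statements.S0226
import Mathlib.GroupTheory.Perm.Cycle.Type
import Mathlib.Tactic

set_option autoImplicit false
open Cfsg

namespace Cfsg.Agent.S0226

/-- A finite group of even order has an odd number of involutions. -/
theorem result {G : Type*} [Group G] [Finite G] (heven : Even (Nat.card G)) : Odd (Nat.card {t : G // orderOf t = 2}) := by
  classical
  haveI : Fintype G := Fintype.ofFinite G
  have h2 : Fintype.card G ≡ Fintype.card (Function.fixedPoints (fun g : G => g⁻¹)) [MOD 2] := by
    let f : Function.End G := (fun g : G => g⁻¹)
    have hf : f ^ 2 ^ 1 = 1 := by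
      rw [pow_one, pow_two]
      funext g
      exact inv_inv g
    have := Equiv.Perm.card_fixedPoints_modEq (α := G) (f := f) (p := 2) (n := 1) hf
    convert this
  have h3 : Fintype.card (Function.fixedPoints (fun g : G => g⁻¹)) =
      Nat.card {t : G // orderOf t = 2} + 1 := by
    rw [← Nat.card_eq_fintype_card]
    have h4 : (Function.fixedPoints (fun g : G => g⁻¹)) = insert 1 {t : G | orderOf t = 2} := by
      ext g
      simp only [Function.mem_fixedPoints, Function.IsFixedPt, Set.mem_insert_iff, Set.mem_setOf_eq]
      constructor
      · intro h
        by_cases h1 : g = 1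
        · left; exact h1
        · right
          apply orderOf_eq_prime _ h1
          rw [pow_two]
          nth_rewrite 1 [← h]
          exact inv_mul_cancel g
      · rintro (rfl | h)
        · simp
        · have h5 : g ^ 2 = 1 := by rw [← h]; exact pow_orderOf_eq_one g
          rw [pow_two] at h5
          exact inv_eq_of_mul_eq_one_left h5
    rw [h4, Nat.card_coe_set_eq, Set.ncard_insert_of_notMem (by simp) (Set.toFinite _)]
    rfl
  rw [Nat.card_eq_fintype_card] at heven
  rw [Nat.odd_iff]
  have h5 := Nat.even_iff.mp heven
  unfold Nat.ModEq at h2
  omega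

end Cfsg.Agent.S0226
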