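import Cfsg.Statements.S0230
import Cfsg.Agent.Lib.H5.BrauerFowler2

set_option autoImplicit false
open Cfsg

namespace Cfsg.Agent.S0230

/-- Let G be a finite group with two non-conjugate involutions, and let t be an involution whose centralizer has maximal order among centralizers of involutions. Then |G| < |C_G(t)|^3. -/
theorem result {G : Type*} [Group G] [Finite G] (s t : G) (hs : orderOf s = 2) (ht : orderOf t = 2) (hnc : ¬ IsConj s t) (hmax : ∀ u : G, orderOf u = 2 → Nat.card (Subgroup.centralizer ({u} : Set G)) ≤ Nat.card (Subgroup.centralizer ({t} : Set G))) : Nat.card G < Nat.card (Subgroup.centralizer ({t} : Set G)) ^ 3 := by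
  classical
  have : Fintype G := Fintype.ofFinite G
  have hss := H5.Dihedral.mul_self hs
  have htt := H5.Dihedral.mul_self ht
  set c := Nat.card (Subgroup.centralizer ({t} : Set G)) with hc
  -- class of s
  let S : Finset G := Finset.univ.filter (fun x => IsConj s x)
  have hS : S.card * Nat.card (H5.BrauerFowler.cent s) = Nat.card G := by
    rw [← H5.BrauerFowler.card_conj_mul_card_cent s]
    congr 1
    rw [← Fintype.card_coe, ← Nat.card_eq_fintype_card]
    exact Nat.card_congr (Equiv.subtypeEquivRight (fun x => by simp [S]))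
  -- covering
  let Z : Finset G := (H5.BrauerFowler2.invs G).filter (fun z => z * t = t * z)
  have hcov : S ⊆ Z.biUnion (fun z => (Finset.univ.filter (fun v => v * z = z * v)).erase 1) := by
    intro v hv
    have hv' := (Finset.mem_filter.mp hv).2
    obtain ⟨d, hd⟩ := isConj_iff.mp hv'
    have hv2 : orderOf v = 2 := by rw [← hd, H5.Dihedral.orderOf_conj]; exact hs
    have hvv := H5.Dihedral.mul_self hv2
    have heven : Even (orderOf (t * v)) := by
      by_contra hodd
      rw [Nat.not_even_iff_odd] at hodd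
      obtain ⟨e, -, he⟩ := H5.Dihedral.conj_of_odd htt hvv hodd
      exact hnc (hv'.trans (isConj_iff.mpr ⟨e, he⟩ : IsConj t v).symm)
    obtain ⟨h1, h2, h3⟩ := H5.Dihedral.central_pow htt hvv (orderOf_pos _).ne' heven
    rw [Finset.mem_biUnion]
    refine ⟨_, Finset.mem_filter.mpr ⟨H5.BrauerFowler2.mem_invs.mpr h1, h2⟩, ?_⟩
    rw [Finset.mem_erase, Finset.mem_filter]
    exact ⟨H5.Dihedral.ne_one hv2, Finset.mem_univ _, h3.symm⟩
  have hcent : ∀ z : G, (Finset.univ.filter (fun v => v * z = z * v)).card = Nat.card (H5.BrauerFowler.cent z) := by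
    intro z
    rw [← Fintype.card_coe, ← Nat.card_eq_fintype_card]
    exact Nat.card_congr (Equiv.subtypeEquivRight (fun x => by
      rw [H5.BrauerFowler.mem_cent]; simp))
  have hone : ∀ z ∈ Z, ((Finset.univ.filter (fun v => v * z = z * v)).erase 1).card ≤ c - 1 := by
    intro z hz
    rw [Finset.card_erase_of_mem (by simp), hcent]
    have := hmax z (H5.BrauerFowler2.mem_invs.mp (Finset.mem_filter.mp hz).1)
    exact Nat.sub_le_sub_right this 1
  have hZ : Z.card ≤ c - 1 := by
    have h1 : Z ⊆ (Finset.univ.filter (fun v => v * t = t * v)).erase 1 := by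
      intro z hz
      have hz1 := Finset.mem_filter.mp hz
      rw [Finset.mem_erase, Finset.mem_filter]
      exact ⟨H5.Dihedral.ne_one (H5.BrauerFowler2.mem_invs.mp hz1.1), Finset.mem_univ _, hz1.2⟩
    have h2 := Finset.card_le_card h1
    rw [Finset.card_erase_of_mem (by simp), hcent] at h2
    exact h2
  have hScard : S.card ≤ (c - 1) * (c - 1) := by
    calc S.card ≤ _ := Finset.card_le_card hcov
      _ ≤ ∑ z ∈ Z, ((Finset.univ.filter (fun v => v * z = z * v)).erase 1).card := Finset.card_biUnion_le
      _ ≤ ∑ z ∈ Z, (c - 1) := Finset.sum_le_sum hone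
      _ = Z.card * (c - 1) := by rw [Finset.sum_const, smul_eq_mul]
      _ ≤ (c - 1) * (c - 1) := Nat.mul_le_mul_right _ hZ
  have hcpos : 0 < c := Nat.card_pos
  have hsc : Nat.card (H5.BrauerFowler.cent s) ≤ c := hmax s hs
  calc Nat.card G = S.card * Nat.card (H5.BrauerFowler.cent s) := hS.symm
    _ ≤ (c - 1) * (c - 1) * c := Nat.mul_le_mul hScard hsc
    _ < c ^ 3 := by
      obtain ⟨k, hk⟩ : ∃ k, c = k + 1 := ⟨c - 1, by omega⟩
      rw [hk]
      simp only [Nat.add_sub_cancel]
      nlinarith [Nat.zero_le k, Nat.zero_le (k*k)]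

end Cfsg.Agent.S0230
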