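import Cfsg.Statements.S0231
import Cfsg.Agent.Lib.H5.InvTools

set_option autoImplicit false
open scoped Pointwise
open Cfsg

namespace Cfsg.Agent.S0231

open Subgroup in
/-- an involution in a TI Sylow 2-subgroup `T'`: commuting involutions lie in the same Sylow. -/
theorem mem_of_commute {G : Type*} [Group G] [Finite G]
    (hTI : ∀ P Q : Sylow 2 G, P ≠ Q → (P : Subgroup G) ⊓ Q = ⊥)
    (P : Sylow 2 G) (s z : G) (hs : orderOf s = 2) (hz : orderOf z = 2) (hc : Commute s z)
    (hsP : s ∈ P) : z ∈ P := by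
  have : Fact (Nat.Prime 2) := ⟨Nat.prime_two⟩
  obtain ⟨Q, hQ⟩ := (H5.InvTools.isPGroup_closure_commuting hs hz hc).exists_le_sylow
  have hsQ : s ∈ Q := hQ (subset_closure (by simp))
  have hzQ : z ∈ Q := hQ (subset_closure (by simp))
  by_cases h : P = Q
  · rw [h]; exact hzQ
  · have h1 := hTI P Q h
    have h2 : s ∈ (P : Subgroup G) ⊓ Q := ⟨hsP, hsQ⟩
    rw [h1, mem_bot] at h2
    exact absurd h2 (H5.Dihedral.ne_one hs)

theorem conj_of_ne {G : Type*} [Group G] [Finite G]
    (hTI : ∀ P Q : Sylow 2 G, P ≠ Q → (P : Subgroup G) ⊓ Q = ⊥)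
    (P Q : Sylow 2 G) (hPQ : P ≠ Q) (s t : G) (hs : orderOf s = 2) (ht : orderOf t = 2)
    (hsP : s ∈ P) (htQ : t ∈ Q) : IsConj s t := by
  have hss := H5.Dihedral.mul_self hs
  have htt := H5.Dihedral.mul_self ht
  rcases Nat.even_or_odd (orderOf (s * t)) with he | ho
  · exfalso
    obtain ⟨h1, h2, h3⟩ := H5.Dihedral.central_pow hss htt (orderOf_pos _).ne' he
    have hzP := mem_of_commute hTI P s _ hs h1 h2.symm hsP
    have hzQ := mem_of_commute hTI Q t _ ht h1 h3.symm htQ
    have h4 : (s * t) ^ (orderOf (s * t) / 2) ∈ (P : Subgroup G) ⊓ Q := ⟨hzP, hzQ⟩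
    rw [hTI P Q hPQ, Subgroup.mem_bot] at h4
    exact H5.Dihedral.ne_one h1 h4
  · obtain ⟨d, -, hd⟩ := H5.Dihedral.conj_of_odd hss htt ho
    exact isConj_iff.mpr ⟨d, hd⟩

/-- Let T be a Sylow 2-subgroup of the finite group G which is not normal and which intersects every other Sylow 2-subgroup trivially. Then G has a single conjugacy class of involutions. -/
theorem result {G : Type*} [Group G] [Finite G] (T : Sylow 2 G) (hnn : ¬ (T : Subgroup G).Normal) (hTI : ∀ g : G, MulAut.conj g • (T : Subgroup G) ≠ T → MulAut.conj g • (T : Subgroup G) ⊓ T = ⊥) (s t : G) (hs : orderOf s = 2) (ht : orderOf t = 2) : IsConj s t := by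
  have : Fact (Nat.Prime 2) := ⟨Nat.prime_two⟩
  have hTI' : ∀ P Q : Sylow 2 G, P ≠ Q → (P : Subgroup G) ⊓ Q = ⊥ := by
    intro P Q hPQ
    obtain ⟨a, ha⟩ := MulAction.exists_smul_eq G Q T
    obtain ⟨b, hb⟩ := MulAction.exists_smul_eq G T (a • P)
    have h1 : MulAut.conj b • (T : Subgroup G) = MulAut.conj a • (P : Subgroup G) := by
      exact congrArg (fun R : Sylow 2 G => (R : Subgroup G)) hb
    have h2 : (T : Subgroup G) = MulAut.conj a • (Q : Subgroup G) := by
      exact (congrArg (fun R : Sylow 2 G => (R : Subgroup G)) ha).symm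
    have hne : MulAut.conj b • (T : Subgroup G) ≠ T := by
      intro h
      apply hPQ
      rw [h1, h2] at h
      have h4 : (P : Subgroup G) = Q := smul_left_cancel _ h
      exact Sylow.ext h4
    have h3 := hTI b hne
    rw [h1, h2] at h3
    rw [← Subgroup.smul_inf, smul_eq_iff_eq_inv_smul, Subgroup.smul_bot] at h3
    exact h3
  obtain ⟨g, hg⟩ : ∃ g : G, g • T ≠ T := by
    by_contra hcon
    push Not at hcon
    apply hnn
    rw [← Subgroup.normalizer_eq_top_iff, eq_top_iff]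
    intro g _
    exact Sylow.smul_eq_iff_mem_normalizer.mp (hcon g)
  have hex : ∀ R : Sylow 2 G, ∃ Q : Sylow 2 G, Q ≠ R := by
    intro R
    by_cases h : R = T
    · exact ⟨g • T, by rw [h]; exact hg⟩
    · exact ⟨T, fun h' => h h'.symm⟩
  obtain ⟨P, hP⟩ := (H5.PLocal.isPGroup_zpowers_involution hs).exists_le_sylow
  obtain ⟨Q, hQ⟩ := (H5.PLocal.isPGroup_zpowers_involution ht).exists_le_sylow
  have hsP : s ∈ P := hP (Subgroup.mem_zpowers s)
  have htQ : t ∈ Q := hQ (Subgroup.mem_zpowers t)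
  by_cases hPQ : P = Q
  · subst hPQ
    obtain ⟨R, hR⟩ := hex P
    -- R is nontrivial
    obtain ⟨c, hc⟩ := MulAction.exists_smul_eq G P R
    have hr : c * s * c⁻¹ ∈ R := by
      rw [← hc]
      have : MulAut.conj c • s ∈ MulAut.conj c • (P : Subgroup G) :=
        Subgroup.smul_mem_pointwise_smul _ _ _ hsP
      exact this
    have hr2 : orderOf (c * s * c⁻¹) = 2 := by rw [H5.Dihedral.orderOf_conj]; exact hs
    have h1 := conj_of_ne hTI' P R hR.symm t (c * s * c⁻¹) ht hr2 htQ hr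
    exact (isConj_iff.mpr ⟨c, rfl⟩ : IsConj s (c * s * c⁻¹)).trans h1.symm
  · exact conj_of_ne hTI' P Q hPQ s t hs ht hsP htQ

end Cfsg.Agent.S0231
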