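import Cfsg.Statements.S0232
import Cfsg.Agent.Lib.H5.BrauerFowler2

set_option autoImplicit false
open Cfsg

namespace Cfsg.Agent.S0232

open H5.BrauerFowler H5.BrauerFowler2 in
theorem odd_case {G : Type*} [Group G] [Finite G] (heven : Even (Nat.card G))
    (hgt : 2 < Nat.card G) (hZ : Odd (Nat.card (Subgroup.center G))) :
    ∃ H : Subgroup G, H ≠ ⊤ ∧ Nat.card G < (Nat.card H) ^ 3 := by
  classical
  have : Fintype G := Fintype.ofFinite G
  obtain ⟨H, hH, h | h⟩ := H5.BrauerFowler2.exists_subgroup heven hZ
  · refine ⟨H, hH, ?_⟩
    have h1 := H.card_mul_index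
    rw [h] at h1
    have h2 : 2 ≤ Nat.card H := by omega
    rw [← h1]
    nlinarith [Nat.mul_le_mul h2 h2]
  · set n := (invs G).card
    set N := Nat.card G
    obtain ⟨t, -, ht⟩ := H5.PLocal.exists_involution_mem (⊤ : Subgroup G)
      (by rw [Subgroup.card_top]; exact heven)
    have hC : cent t ≠ ⊤ := by
      intro h
      have hc : t ∈ Subgroup.center G := by
        rw [Subgroup.mem_center_iff]
        intro x
        have : x ∈ cent t := by rw [h]; exact Subgroup.mem_top x
        exact mem_cent.mp this
      exact (Nat.not_odd_iff_even.mpr (H5.PLocal.even_card_of_mem hc ht)) hZ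
    have hnC : N ≤ n * Nat.card (cent t) := by
      have h1 := card_conj_mul_card_cent t
      have h2 : Nat.card {x : G // IsConj t x} ≤ n := by
        have : n = Nat.card {t : G // orderOf t = 2} := card_invs
        rw [this]
        apply Nat.card_le_card_of_injective (fun x : {x : G // IsConj t x} =>
          (⟨x.1, by
            obtain ⟨c, hc⟩ := isConj_iff.mp x.2
            rw [← hc, H5.Dihedral.orderOf_conj]; exact ht⟩ : {t : G // orderOf t = 2}))
        intro a b hab
        have h6 := congrArg Subtype.val hab
        exact Subtype.ext h6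
      calc N = _ := h1.symm
        _ ≤ n * Nat.card (cent t) := Nat.mul_le_mul_right _ h2
    by_contra hcon
    push Not at hcon
    have a1 := hcon H hH
    have a2 := hcon (cent t) hC
    set a := Nat.card H
    set b := Nat.card (cent t)
    have hnpos : 0 < n := by
      rcases Nat.eq_zero_or_pos n with h0 | h0
      · rw [h0] at hnC; omega
      · exact h0
    -- m = max a b
    obtain ⟨m, ha, hb, hm⟩ : ∃ m, a ≤ m ∧ b ≤ m ∧ m ^ 3 ≤ N := by
      rcases le_total a b with hab | hab
      · exact ⟨b, hab, le_rfl, a2⟩
      · exact ⟨a, le_rfl, hab, a1⟩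
    have e1 : N ≤ n * m := hnC.trans (Nat.mul_le_mul_left n hb)
    have e2 : 2 * n ^ 2 < m * (N + n) := lt_of_lt_of_le h (Nat.mul_le_mul_right _ ha)
    have hmpos : 0 < m := by
      rcases Nat.eq_zero_or_pos m with h0 | h0
      · rw [h0] at e2; omega
      · exact h0
    have e3 : m ^ 2 ≤ n := by
      have : m * m ^ 2 ≤ m * n := by
        calc m * m ^ 2 = m ^ 3 := by ring
          _ ≤ N := hm
          _ ≤ n * m := e1
          _ = m * n := mul_comm _ _
      exact Nat.le_of_mul_le_mul_left this hmpos
    have e4 : m * N ≤ n ^ 2 := by
      calc m * N ≤ m * (n * m) := Nat.mul_le_mul_left m e1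
        _ = n * m ^ 2 := by ring
        _ ≤ n * n := Nat.mul_le_mul_left n e3
        _ = n ^ 2 := by ring
    have e5 : m * n ≤ n ^ 2 := by
      have : m ≤ n := le_trans (by nlinarith) e3
      calc m * n ≤ n * n := Nat.mul_le_mul_right n this
        _ = n ^ 2 := by ring
    nlinarith

theorem main : ∀ (k : ℕ) {G : Type _} [Group G] [Finite G], Nat.card G = k →
    Even (Nat.card G) → 2 < Nat.card G → ∃ H : Subgroup G, H ≠ ⊤ ∧ Nat.card G < (Nat.card H) ^ 3 := by
  intro k
  induction k using Nat.strong_induction_on with
  | _ k ih =>
    intro G _ _ hk heven hgt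
    have : Fact (Nat.Prime 2) := ⟨Nat.prime_two⟩
    rcases Nat.even_or_odd (Nat.card (Subgroup.center G)) with hZ | hZ
    · obtain ⟨z, hz, hz2⟩ := H5.PLocal.exists_involution_mem _ hZ
      have hzn : (Subgroup.zpowers z).Normal := by
        constructor
        intro n hn g
        have : n ∈ Subgroup.center G := (Subgroup.zpowers_le.mpr hz) hn
        have h3 : g * n * g⁻¹ = n := by
          rw [(Subgroup.mem_center_iff.mp this) g]; group
        rw [h3]; exact hn
      have hidx : (Subgroup.zpowers z).index * 2 = Nat.card G := by
        have := (Subgroup.zpowers z).card_mul_index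
        rw [Nat.card_zpowers, hz2] at this
        omega
      have hq : Nat.card (G ⧸ Subgroup.zpowers z) * 2 = Nat.card G := hidx
      rcases Nat.even_or_odd (Nat.card (G ⧸ Subgroup.zpowers z)) with he | ho
      · by_cases h4 : Nat.card (G ⧸ Subgroup.zpowers z) = 2
        · refine ⟨Subgroup.zpowers z, ?_, ?_⟩
          · intro h
            have := congrArg (fun K : Subgroup G => Nat.card K) h
            simp only [Subgroup.card_top] at this
            rw [Nat.card_zpowers, hz2] at this
            omega
          · rw [Nat.card_zpowers, hz2, ← hq, h4]; norm_num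
        · have hpos : 0 < Nat.card (G ⧸ Subgroup.zpowers z) := Nat.card_pos
          have hgt2 : 2 < Nat.card (G ⧸ Subgroup.zpowers z) := by
            obtain ⟨r, hr⟩ := he
            omega
          obtain ⟨K, hK, hKc⟩ := ih (Nat.card (G ⧸ Subgroup.zpowers z)) (by omega) rfl he hgt2
          refine ⟨K.comap (QuotientGroup.mk' _), ?_, ?_⟩
          · intro h
            apply hK
            rw [eq_top_iff]
            intro x _
            obtain ⟨y, rfl⟩ := QuotientGroup.mk'_surjective _ x
            have : y ∈ K.comap (QuotientGroup.mk' (Subgroup.zpowers z)) := by rw [h]; trivial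
            exact this
          · have h5 : Nat.card (K.comap (QuotientGroup.mk' (Subgroup.zpowers z))) = 2 * Nat.card K := by
              have e1 := (K.comap (QuotientGroup.mk' (Subgroup.zpowers z))).card_mul_index
              rw [Subgroup.index_comap_of_surjective _ (QuotientGroup.mk'_surjective _)] at e1
              have e2 := K.card_mul_index
              have e3 : 0 < K.index := Nat.pos_of_ne_zero Subgroup.FiniteIndex.index_ne_zero
              have e4 : Nat.card (K.comap (QuotientGroup.mk' (Subgroup.zpowers z))) * K.index =
                  (2 * Nat.card K) * K.index := by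
                rw [e1, ← hq, ← e2]; ring
              exact Nat.eq_of_mul_eq_mul_right e3 e4
            rw [h5, ← hq]
            calc Nat.card (G ⧸ Subgroup.zpowers z) * 2 < Nat.card K ^ 3 * 2 := by omega
              _ ≤ (2 * Nat.card K) ^ 3 := by rw [mul_pow]; omega
      · -- Sylow 2 of order 2
        obtain ⟨T⟩ := (inferInstance : Nonempty (Sylow 2 G))
        have hT : Nat.card (T : Subgroup G) = 2 := by
          have := T.card_eq_multiplicity
          rw [← hq, Nat.factorization_mul (by rintro h; rw [h] at ho; exact absurd ho (by decide)) (by norm_num)] at this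
          rw [Finsupp.add_apply, Nat.factorization_eq_zero_of_not_dvd (by
            intro h; exact (Nat.not_even_iff_odd.mpr ho) (even_iff_two_dvd.mpr h)), zero_add,
            Nat.Prime.factorization_self Nat.prime_two, pow_one] at this
          exact this
        have hcyc : IsCyclic (T : Subgroup G) := isCyclic_of_prime_card hT
        obtain ⟨K, hK⟩ := H5.IndexTwo.exists_index_two_of_cyclic_sylow heven T hcyc
        refine ⟨K, ?_, ?_⟩
        · intro h; rw [h, Subgroup.index_top] at hK; omega
        · have h1 := K.card_mul_index
          rw [hK] at h1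
          have h2 : 2 ≤ Nat.card K := by omega
          rw [← h1]
          nlinarith [Nat.mul_le_mul h2 h2]
    · exact odd_case heven hgt hZ

/-- A finite group G of even order greater than 2 has a proper subgroup H with |G| < |H|^3. -/
theorem result {G : Type*} [Group G] [Finite G] (heven : Even (Nat.card G)) (hgt : 2 < Nat.card G) : ∃ H : Subgroup G, H ≠ ⊤ ∧ Nat.card G < (Nat.card H) ^ 3 := by
  exact main _ rfl heven hgt

end Cfsg.Agent.S0232
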