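import Cfsg.Statements.S0234
import Cfsg.Agent.Lib.H5.BrauerFowler2
import Cfsg.Agent.Lib.H5.SmallIndex

set_option autoImplicit false
open Cfsg

namespace Cfsg.Agent.S0234

/-- In a finite simple group G of even order greater than 2, the number n of involutions satisfies 3n < |G|. -/
theorem result {G : Type*} [Group G] [Finite G] [IsSimpleGroup G] (heven : Even (Nat.card G)) (hgt : 2 < Nat.card G) : 3 * Nat.card {t : G // orderOf t = 2} < Nat.card G := by
  classical
  have : Fintype G := Fintype.ofFinite G
  by_contra hcon
  push Not at hcon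
  have hZ : Odd (Nat.card (Subgroup.center G)) := by
    rw [H5.SmallIndex.center_eq_bot hgt heven, Subgroup.card_bot]; exact odd_one
  obtain ⟨H, hH, h | h⟩ := H5.BrauerFowler2.exists_subgroup heven hZ
  · exact H5.SmallIndex.no_index_two hgt H h
  · rw [H5.BrauerFowler2.card_invs] at h
    set n := Nat.card {t : G // orderOf t = 2} with hn
    set N := Nat.card G with hN
    have h1 := H.card_mul_index
    rw [← hN] at h1
    have h5 : H.index ≤ 5 := by
      by_contra h6
      push Not at h6
      have h7 : Nat.card H * 6 ≤ N := by rw [← h1]; exact Nat.mul_le_mul_left _ h6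
      have h8 : Nat.card H * (N + n) ≤ Nat.card H * (4 * n) := Nat.mul_le_mul_left _ (by omega)
      have h9 : 2 * n ^ 2 < Nat.card H * (4 * n) := lt_of_lt_of_le h h8
      have h10 : n * (6 * n) < n * (2 * N) := by nlinarith
      have h11 := Nat.lt_of_mul_lt_mul_left h10
      omega
    obtain ⟨h60, hi5⟩ := H5.SmallIndex.card_eq_sixty hgt heven H hH h5
    have h15 := H5.SmallIndex.card_involutions_of_index_five hgt H hH h60 hi5
    rw [← hn] at h15
    omega

end Cfsg.Agent.S0234
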