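import Mathlib
import Cfsg.Statements.S0235

set_option autoImplicit false
open Cfsg

namespace Cfsg.Agent.S0235

theorem result {G : Type*} [Group G] [Finite G] (x : G) (hx : x ^ 2 ≠ 1) : Nat.card {p : G × G // orderOf p.1 = 2 ∧ orderOf p.2 = 2 ∧ p.1 * p.2 = x} = Nat.card {t : G // orderOf t = 2 ∧ t * x * t⁻¹ = x⁻¹} := by
  have key : ∀ t : G, orderOf t = 2 ↔ t * t = 1 ∧ t ≠ 1 := by
    intro t
    rw [orderOf_eq_prime_iff, sq]
  refine Nat.card_congr
    { toFun := fun p => ⟨p.1.1, p.2.1, ?_⟩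
      invFun := fun t => ⟨(t.1, t.1⁻¹ * x), t.2.1, ?_, ?_⟩
      left_inv := ?_
      right_inv := ?_ }
  · obtain ⟨⟨u, v⟩, hu, hv, h⟩ := p
    simp only at hu hv h ⊢
    subst h
    obtain ⟨hu1, _⟩ := (key u).1 hu
    obtain ⟨hv1, _⟩ := (key v).1 hv
    have hvi : v⁻¹ = v := inv_eq_of_mul_eq_one_left hv1
    rw [← mul_assoc, hu1, one_mul, mul_inv_rev, hvi]
  · obtain ⟨t, ht, h⟩ := t
    simp only at ht h ⊢
    obtain ⟨h1, h2⟩ := (key t).1 ht
    have hti : t⁻¹ = t := inv_eq_of_mul_eq_one_left h1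
    rw [key]
    constructor
    · rw [hti] at h ⊢
      calc t * x * (t * x) = (t * x * t) * x := by group
        _ = x⁻¹ * x := by rw [h]
        _ = 1 := inv_mul_cancel x
    · intro h3
      have : x = t := by
        rw [inv_mul_eq_one] at h3; exact h3.symm
      apply hx
      rw [this, sq, h1]
  · obtain ⟨t, ht, h⟩ := t
    simp
  · rintro ⟨⟨u, v⟩, hu, hv, h⟩
    simp only at hu hv h ⊢
    subst h
    simp
  · rintro ⟨t, ht, h⟩
    simp

end Cfsg.Agent.S0235
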