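import Mathlib
import Cfsg.Statements.S0236

set_option autoImplicit false
open Cfsg

namespace Cfsg.Agent.S0236

theorem result {G : Type*} [Group G] [Finite G] (x : G) (hx : orderOf x = 2) : Nat.card {p : G × G // orderOf p.1 = 2 ∧ orderOf p.2 = 2 ∧ p.1 * p.2 = x} + 1 = Nat.card {t : G // orderOf t = 2 ∧ Commute t x} := by
  have key : ∀ t : G, orderOf t = 2 ↔ t * t = 1 ∧ t ≠ 1 := by
    intro t
    rw [orderOf_eq_prime_iff, sq]
  obtain ⟨hx1, hx2⟩ := (key x).1 hx
  have hxi : x⁻¹ = x := inv_eq_of_mul_eq_one_left hx1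
  have e : {p : G × G // orderOf p.1 = 2 ∧ orderOf p.2 = 2 ∧ p.1 * p.2 = x} ≃
      (({t : G | orderOf t = 2 ∧ Commute t x} \ {x} : Set G)) := by
    refine
      { toFun := fun p => ⟨p.1.1, ⟨p.2.1, ?_⟩, ?_⟩
        invFun := fun t => ⟨(t.1, t.1⁻¹ * x), t.2.1.1, ?_, ?_⟩
        left_inv := ?_
        right_inv := ?_ }
    · obtain ⟨⟨u, v⟩, hu, hv, h⟩ := p
      simp only at hu hv h ⊢
      obtain ⟨hu1, _⟩ := (key u).1 hu
      obtain ⟨hv1, _⟩ := (key v).1 hv
      have hui : u⁻¹ = u := inv_eq_of_mul_eq_one_left hu1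
      have hvi : v⁻¹ = v := inv_eq_of_mul_eq_one_left hv1
      have h' : v * u = x := by
        have := congrArg (·⁻¹) h
        simpa [hui, hvi, hxi] using this
      show u * x = x * u
      calc u * x = u * (u * v) := by rw [h]
        _ = v := by rw [← mul_assoc, hu1, one_mul]
        _ = (v * u) * u := by rw [mul_assoc, hu1, mul_one]
        _ = x * u := by rw [h']
    · obtain ⟨⟨u, v⟩, hu, hv, h⟩ := p
      simp only [Set.mem_singleton_iff] at hu hv h ⊢
      intro h3
      have : v = 1 := by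
        rw [← h] at h3
        exact (mul_eq_left.1 h3.symm)
      exact ((key v).1 hv).2 this
    · obtain ⟨t, ⟨ht, hc⟩, hne⟩ := t
      simp only at ht hc hne ⊢
      obtain ⟨h1, h2⟩ := (key t).1 ht
      have hti : t⁻¹ = t := inv_eq_of_mul_eq_one_left h1
      rw [key]
      constructor
      · rw [hti]
        calc t * x * (t * x) = t * (x * t) * x := by group
          _ = t * (t * x) * x := by rw [hc.eq]
          _ = (t * t) * (x * x) := by group
          _ = 1 := by rw [h1, hx1, one_mul]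
      · intro h3
        rw [inv_mul_eq_one] at h3
        exact hne h3
    · obtain ⟨t, ht, h⟩ := t
      simp
    · rintro ⟨⟨u, v⟩, hu, hv, h⟩
      simp only at hu hv h ⊢
      subst h
      simp
    · rintro ⟨t, ht, h⟩
      simp
  rw [Nat.card_congr e]
  have hmem : x ∈ {t : G | orderOf t = 2 ∧ Commute t x} := ⟨hx, Commute.refl x⟩
  have := Set.ncard_sdiff_singleton_add_one hmem (Set.toFinite _)
  exact this

end Cfsg.Agent.S0236
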