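import Mathlib
import Cfsg.Statements.S0237

set_option autoImplicit false
open Cfsg

namespace Cfsg.Agent.S0237

theorem result {G : Type*} [Group G] [Finite G] (x : G) (hreal : IsConj x x⁻¹) : Nat.card {g : G // g * x * g⁻¹ = x⁻¹} = Nat.card (Subgroup.centralizer ({x} : Set G)) := by
  obtain ⟨c, hc⟩ := isConj_iff.1 hreal
  refine Nat.card_congr
    { toFun := fun g => ⟨c⁻¹ * g.1, ?_⟩
      invFun := fun g => ⟨c * g.1, ?_⟩
      left_inv := ?_
      right_inv := ?_ }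
  · obtain ⟨g, hg⟩ := g
    rw [Subgroup.mem_centralizer_singleton_iff]
    simp only
    have h : g * x * g⁻¹ = c * x * c⁻¹ := by rw [hg, hc]
    calc c⁻¹ * g * x = c⁻¹ * (g * x * g⁻¹) * g := by group
      _ = c⁻¹ * (c * x * c⁻¹) * g := by rw [h]
      _ = x * (c⁻¹ * g) := by group
  · obtain ⟨g, hg⟩ := g
    rw [Subgroup.mem_centralizer_singleton_iff] at hg
    simp only
    calc c * g * x * (c * g)⁻¹ = c * (g * x) * g⁻¹ * c⁻¹ := by group
      _ = c * (x * g) * g⁻¹ * c⁻¹ := by rw [hg]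
      _ = c * x * c⁻¹ := by group
      _ = x⁻¹ := hc
  · rintro ⟨g, hg⟩
    simp
  · rintro ⟨g, hg⟩
    simp

end Cfsg.Agent.S0237
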