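import Mathlib
import Cfsg.Statements.S0238
import Cfsg.Agent.S0236
import Cfsg.Agent.S0237

set_option autoImplicit false
open Cfsg

namespace Cfsg.Agent.S0238

theorem result {G : Type*} [Group G] [Finite G] (x : G) : Nat.card {p : G × G // orderOf p.1 = 2 ∧ orderOf p.2 = 2 ∧ p.1 * p.2 = x} ≤ Nat.card (Subgroup.centralizer ({x} : Set G)) ∧ (¬ IsConj x x⁻¹ → Nat.card {p : G × G // orderOf p.1 = 2 ∧ orderOf p.2 = 2 ∧ p.1 * p.2 = x} = 0) ∧ (orderOf x = 2 → Nat.card {p : G × G // orderOf p.1 = 2 ∧ orderOf p.2 = 2 ∧ p.1 * p.2 = x} + 2 ≤ Nat.card (Subgroup.centralizer ({x} : Set G))) := by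
  have key : ∀ t : G, orderOf t = 2 ↔ t * t = 1 ∧ t ≠ 1 := by
    intro t
    rw [orderOf_eq_prime_iff, sq]
  have hinv : ∀ p : G × G, (orderOf p.1 = 2 ∧ orderOf p.2 = 2 ∧ p.1 * p.2 = x) →
      p.1 * x * p.1⁻¹ = x⁻¹ := by
    rintro ⟨u, v⟩ ⟨hu, hv, h⟩
    simp only at hu hv h ⊢
    subst h
    obtain ⟨hu1, _⟩ := (key u).1 hu
    obtain ⟨hv1, _⟩ := (key v).1 hv
    have hvi : v⁻¹ = v := inv_eq_of_mul_eq_one_left hv1
    rw [← mul_assoc, hu1, one_mul, mul_inv_rev, hvi]
  have hzero : ¬ IsConj x x⁻¹ → Nat.card {p : G × G // orderOf p.1 = 2 ∧ orderOf p.2 = 2 ∧ p.1 * p.2 = x} = 0 := by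
    intro hn
    have : IsEmpty {p : G × G // orderOf p.1 = 2 ∧ orderOf p.2 = 2 ∧ p.1 * p.2 = x} := by
      constructor
      rintro ⟨p, hp⟩
      exact hn (isConj_iff.2 ⟨p.1, hinv p hp⟩)
    exact Nat.card_of_isEmpty
  refine ⟨?_, hzero, ?_⟩
  · by_cases hr : IsConj x x⁻¹
    · rw [← S0237.result x hr]
      refine Nat.card_le_card_of_injective
        (fun p : {p : G × G // orderOf p.1 = 2 ∧ orderOf p.2 = 2 ∧ p.1 * p.2 = x} =>
          (⟨p.1.1, hinv p.1 p.2⟩ : {g : G // g * x * g⁻¹ = x⁻¹})) ?_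
      rintro ⟨⟨u, v⟩, hu, hv, h⟩ ⟨⟨u', v'⟩, hu', hv', h'⟩ heq
      simp only [Subtype.mk.injEq] at heq hu hv h hu' hv' h'
      subst heq
      rw [← h] at h'
      have := mul_left_cancel h'
      subst this
      rfl
    · rw [hzero hr]
      exact Nat.zero_le _
  · intro hx
    have h1 := S0236.result x hx
    have h2 : Nat.card {t : G // orderOf t = 2 ∧ Commute t x} + 1 ≤
        Nat.card (Subgroup.centralizer ({x} : Set G)) := by
      have : Nat.card {t : G // orderOf t = 2 ∧ Commute t x} + 1 =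
          Nat.card (Option {t : G // orderOf t = 2 ∧ Commute t x}) := by
        rw [Finite.card_option]
      rw [this]
      refine Nat.card_le_card_of_injective
        (fun o => (Option.elim o 1 (fun t => ⟨t.1, Subgroup.mem_centralizer_singleton_iff.2 t.2.2⟩) :
          Subgroup.centralizer ({x} : Set G))) ?_
      intro a b hab
      rcases a with _ | ⟨a, ha1, ha2⟩ <;> rcases b with _ | ⟨b, hb1, hb2⟩
      · rfl
      · exfalso
        simp only [Option.elim] at hab
        have := congrArg Subtype.val hab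
        simp only [OneMemClass.coe_one] at this
        exact ((key b).1 hb1).2 this.symm
      · exfalso
        simp only [Option.elim] at hab
        have := congrArg Subtype.val hab
        simp only [OneMemClass.coe_one] at this
        exact ((key a).1 ha1).2 this
      · simp only [Option.elim] at hab
        have := congrArg Subtype.val hab
        simp only at this
        subst this
        rfl
    omega

end Cfsg.Agent.S0238
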