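import Mathlib
import Cfsg.Statements.S0239

set_option autoImplicit false
open Cfsg

namespace Cfsg.Agent.S0239

theorem result {G : Type*} [Group G] [Finite G] (x : G) (hx : x ≠ 1) (hreal : IsConj x x⁻¹) : Even (Nat.card G) := by
  by_contra hodd
  rw [Nat.not_even_iff_odd] at hodd
  obtain ⟨c, hc⟩ := isConj_iff.1 hreal
  have h2 : c ^ 2 * x * (c ^ 2)⁻¹ = x := by
    calc c ^ 2 * x * (c ^ 2)⁻¹ = c * (c * x * c⁻¹) * c⁻¹ := by rw [sq]; group
      _ = c * x⁻¹ * c⁻¹ := by rw [hc]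
      _ = (c * x * c⁻¹)⁻¹ := by group
      _ = x := by rw [hc, inv_inv]
  have hcomm2 : Commute (c ^ 2) x := by
    rw [commute_iff_eq]
    exact mul_inv_eq_iff_eq_mul.1 h2
  obtain ⟨k, hk⟩ := hodd
  have hcpow : c ^ (Nat.card G) = 1 := pow_card_eq_one'
  have hcc : Commute c x := by
    have : c = (c ^ 2) ^ (k + 1) := by
      rw [← pow_mul]
      have : 2 * (k + 1) = Nat.card G + 1 := by omega
      rw [this, pow_succ, hcpow, one_mul]
    rw [this]
    exact hcomm2.pow_left _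
  have hxx : x = x⁻¹ := by
    rw [← hc, hcc.eq, mul_inv_cancel_right]
  have hx2 : x ^ 2 = 1 := by
    rw [sq]
    nth_rewrite 1 [hxx]
    exact inv_mul_cancel x
  apply hx
  have : x ^ (Nat.card G) = 1 := pow_card_eq_one'
  rw [hk, pow_succ, pow_mul, hx2, one_pow, one_mul] at this
  exact this

end Cfsg.Agent.S0239
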