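import Mathlib
import Cfsg.Statements.S0240

set_option autoImplicit false
open Cfsg

namespace Cfsg.Agent.S0240

theorem result {G : Type*} [Group G] [Finite G] (H : Subgroup G) (hH : Nat.card G < Nat.card H * (Nat.card {t : G // orderOf t = 2} + 1)) : ∃ h : G, h ∈ H ∧ h ≠ 1 ∧ ∃ t : G, orderOf t = 2 ∧ t * h * t⁻¹ = h⁻¹ := by
  have key : ∀ t : G, orderOf t = 2 ↔ t * t = 1 ∧ t ≠ 1 := by
    intro t
    rw [orderOf_eq_prime_iff, sq]
  let f : H × Option {t : G // orderOf t = 2} → G := fun p => Option.elim p.2 1 Subtype.val * (p.1 : G)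
  have hf : ¬ Function.Injective f := by
    intro hinj
    have := Nat.card_le_card_of_injective f hinj
    rw [Nat.card_prod, Finite.card_option] at this
    omega
  have hsq : ∀ o : Option {t : G // orderOf t = 2},
      (Option.elim o 1 Subtype.val : G) * (Option.elim o 1 Subtype.val : G) = 1 := by
    rintro (_ | ⟨t, ht⟩)
    · simp
    · exact ((key t).1 ht).1
  have hinj2 : Function.Injective (fun o : Option {t : G // orderOf t = 2} =>
      (Option.elim o 1 Subtype.val : G)) := by
    rintro (_ | ⟨a, ha⟩) (_ | ⟨b, hb⟩) hab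
    · rfl
    · simp only [Option.elim] at hab
      exact absurd hab.symm ((key b).1 hb).2
    · simp only [Option.elim] at hab
      exact absurd hab ((key a).1 ha).2
    · simp only [Option.elim] at hab
      subst hab; rfl
  simp only [Function.Injective, not_forall] at hf
  obtain ⟨⟨h, o⟩, ⟨h', o'⟩, heq, hne⟩ := hf
  simp only [f] at heq
  set s : G := Option.elim o 1 Subtype.val with hs
  set s' : G := Option.elim o' 1 Subtype.val with hs'
  have hss' : s ≠ s' := by
    intro h3
    apply hne
    have : o = o' := hinj2 h3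
    subst this
    have : (h : G) = h' := by
      rw [← h3] at heq
      exact mul_left_cancel heq
    have : h = h' := Subtype.ext this
    rw [this]
  have hs1 : s * s = 1 := hsq o
  have hs'1 : s' * s' = 1 := hsq o'
  have hsi : s⁻¹ = s := inv_eq_of_mul_eq_one_left hs1
  have hs'i : s'⁻¹ = s' := inv_eq_of_mul_eq_one_left hs'1
  have hk : s * s' = (h : G) * (h' : G)⁻¹ := by
    rw [eq_mul_inv_iff_mul_eq, mul_assoc, ← heq, ← mul_assoc, hs1, one_mul]
  refine ⟨s * s', ?_, ?_, ?_⟩
  · rw [hk]
    exact H.mul_mem h.2 (H.inv_mem h'.2)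
  · intro h3
    apply hss'
    rw [mul_eq_one_iff_eq_inv, hs'i] at h3
    exact h3
  · by_cases h3 : s = 1
    · refine ⟨s', ?_, ?_⟩
      · rw [key]
        refine ⟨hs'1, ?_⟩
        rw [← h3]
        exact hss'.symm
      · rw [h3, one_mul, hs'i, hs'1, one_mul]
    · refine ⟨s, (key s).2 ⟨hs1, h3⟩, ?_⟩
      rw [← mul_assoc, hs1, one_mul, mul_inv_rev, hs'i]

end Cfsg.Agent.S0240
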