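import Mathlib
import Cfsg.Statements.S0241

set_option autoImplicit false
open Cfsg

namespace Cfsg.Agent.S0241

theorem result {G : Type*} [Group G] [Finite G] (x : G) (hx : x ≠ 1) (hreal : IsConj x x⁻¹) (hodd : Odd (Nat.card (Subgroup.centralizer ({x} : Set G)))) : ∃ t : G, orderOf t = 2 ∧ t * x * t⁻¹ = x⁻¹ := by
  obtain ⟨c, hc⟩ := isConj_iff.1 hreal
  have h2 : c ^ 2 * x * (c ^ 2)⁻¹ = x := by
    calc c ^ 2 * x * (c ^ 2)⁻¹ = c * (c * x * c⁻¹) * c⁻¹ := by rw [sq]; group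
      _ = c * x⁻¹ * c⁻¹ := by rw [hc]
      _ = (c * x * c⁻¹)⁻¹ := by group
      _ = x := by rw [hc, inv_inv]
  have hcomm2 : c ^ 2 * x = x * c ^ 2 := by
    exact mul_inv_eq_iff_eq_mul.1 h2
  have hxne : x ≠ x⁻¹ := by
    intro h
    have hxx : x ^ 2 = 1 := by
      rw [sq]; nth_rewrite 1 [h]; exact inv_mul_cancel x
    obtain ⟨k, hk⟩ := hodd
    have hxm : x ∈ Subgroup.centralizer ({x} : Set G) := by
      rw [Subgroup.mem_centralizer_singleton_iff]
    have h3 : (⟨x, hxm⟩ : Subgroup.centralizer ({x} : Set G)) ^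
      (Nat.card (Subgroup.centralizer ({x} : Set G))) = 1 := pow_card_eq_one'
    have h4 := congrArg Subtype.val h3
    simp only [SubmonoidClass.mk_pow, OneMemClass.coe_one] at h4
    rw [hk, pow_succ, pow_mul, hxx, one_pow, one_mul] at h4
    exact hx h4
  obtain ⟨k, hk⟩ := hodd
  have hcm : c ^ 2 ∈ Subgroup.centralizer ({x} : Set G) := by
    rw [Subgroup.mem_centralizer_singleton_iff]; exact hcomm2
  have h3 : (⟨c ^ 2, hcm⟩ : Subgroup.centralizer ({x} : Set G)) ^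
      (Nat.card (Subgroup.centralizer ({x} : Set G))) = 1 := pow_card_eq_one'
  have h4 := congrArg Subtype.val h3
  simp only [SubmonoidClass.mk_pow, OneMemClass.coe_one] at h4
  rw [hk] at h4
  have hconj : c ^ (2 * k + 1) * x * (c ^ (2 * k + 1))⁻¹ = x⁻¹ := by
    have hck : (c ^ 2) ^ k * x = x * (c ^ 2) ^ k := by
      have : Commute (c ^ 2) x := hcomm2
      exact (this.pow_left k).eq
    calc c ^ (2 * k + 1) * x * (c ^ (2 * k + 1))⁻¹
        = c * ((c ^ 2) ^ k * x) * (c ^ (2 * k + 1))⁻¹ := by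
          rw [pow_succ', ← pow_mul, ← mul_assoc]
      _ = c * (x * (c ^ 2) ^ k) * (c * (c ^ 2) ^ k)⁻¹ := by
          rw [hck, pow_succ' c (2 * k), pow_mul]
      _ = c * x * c⁻¹ := by group
      _ = x⁻¹ := hc
  refine ⟨c ^ (2 * k + 1), ?_, hconj⟩
  rw [orderOf_eq_prime_iff]
  refine ⟨?_, ?_⟩
  · rw [← pow_mul, mul_comm, pow_mul]; exact h4
  · intro h5
    rw [h5] at hconj
    simp only [one_mul, inv_one, mul_one] at hconj
    exact hxne hconj

end Cfsg.Agent.S0241
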