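import Mathlib
import Cfsg.Statements.S0262
import Cfsg.Agent.Lib.H6.SL2Tor

set_option autoImplicit false
open Cfsg

namespace Cfsg.Agent.S0262

/-- For an odd prime r different from the characteristic, the Sylow r-subgroups of SL_2(q) are cyclic. -/
theorem result {F : Type*} [Field F] [Fintype F] (p : ℕ) [Fact p.Prime] [CharP F p] (r : ℕ) [Fact r.Prime] (hr : r ≠ 2) (hrp : r ≠ p) (R : Sylow r (Matrix.SpecialLinearGroup (Fin 2) F)) : IsCyclic (R : Subgroup (Matrix.SpecialLinearGroup (Fin 2) F)) := by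
  have hr0 : (r : F) ≠ 0 := by
    intro h
    rw [CharP.cast_eq_zero_iff F p] at h
    exact hrp ((Nat.prime_dvd_prime_iff_eq (Fact.out : p.Prime) (Fact.out : r.Prime)).1 h).symm
  exact H6.SL2Tor.isCyclic_of_odd_pgroup hr hr0 R.2
    ((R : Subgroup (Matrix.SpecialLinearGroup (Fin 2) F)).subtype) (Subgroup.subtype_injective _)

end Cfsg.Agent.S0262
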