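import Mathlib
import Cfsg.Statements.S0263
import Cfsg.Agent.Lib.H6.SL2Sylow

set_option autoImplicit false
open Cfsg

namespace Cfsg.Agent.S0263

/-- A Sylow p-subgroup of GL_n(q), p the characteristic, has order q^(n(n-1)/2). -/
theorem result {F : Type*} [Field F] [Fintype F] {q : ℕ} (hF : Fintype.card F = q) (p : ℕ) [Fact p.Prime] [CharP F p] (n : ℕ) (P : Sylow p (Matrix.GeneralLinearGroup (Fin n) F)) : Nat.card P = q ^ (n * (n - 1) / 2) := by
  subst hF
  obtain ⟨k, hk0, hk⟩ := H6.SL2Sylow.exists_card_eq (F := F) p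
  have hq1 : 1 < Fintype.card F := Fintype.one_lt_card
  have hcard : Nat.card (Matrix.GeneralLinearGroup (Fin n) F) =
      p ^ (k * (n * (n - 1) / 2)) * ∏ i : Fin n, (Fintype.card F ^ (n - (i : ℕ)) - 1) := by
    rw [Matrix.card_GL_field]
    have h1 : ∀ i : Fin n, Fintype.card F ^ n - Fintype.card F ^ (i : ℕ) =
        Fintype.card F ^ (i : ℕ) * (Fintype.card F ^ (n - (i : ℕ)) - 1) := by
      intro i
      rw [Nat.mul_sub, ← pow_add, mul_one]
      congr 2
      have := i.2
      omega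
    rw [Finset.prod_congr rfl (fun i _ => h1 i), Finset.prod_mul_distrib, Finset.prod_pow_eq_pow_sum]
    congr 1
    rw [Fin.sum_univ_eq_sum_range (fun i => i) n, Finset.sum_range_id, pow_mul, ← hk]
  have hnd : ¬ p ∣ ∏ i : Fin n, (Fintype.card F ^ (n - (i : ℕ)) - 1) := by
    rw [Prime.dvd_finsetProd_iff (Nat.Prime.prime Fact.out)]
    rintro ⟨i, _, hi⟩
    refine H6.SL2Sylow.not_dvd_pred p (H6.SL2Sylow.dvd_card (F := F) p) ?_ hq1.le hi
    have := i.2
    omega
  rw [H6.SL2Sylow.card_sylow_of_card hcard hnd P, pow_mul, ← hk]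

end Cfsg.Agent.S0263
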