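import Mathlib
import Cfsg.Statements.S0268


set_option autoImplicit false
open Cfsg

namespace Cfsg.Agent.S0268

/-- For q odd, -1 is the unique involution of SL_2(q). -/
theorem result {F : Type*} [Field F] [Fintype F] (hF : Odd (Fintype.card F)) (g : Matrix.SpecialLinearGroup (Fin 2) F) (h1 : g ≠ 1) (h2 : g * g = 1) : (g : Matrix (Fin 2) (Fin 2) F) = -1 := by
  obtain ⟨g, hg⟩ := g
  have h1' : g ≠ 1 := by
    intro h
    apply h1
    exact Subtype.ext h
  have h2' : g * g = 1 := by
    exact congrArg Subtype.val h2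
  have htwo : (2 : F) ≠ 0 := by
    intro h
    have h3 : ((Fintype.card F : ℕ) : F) = 0 := Nat.cast_card_eq_zero F
    obtain ⟨k, hk⟩ := hF
    rw [hk] at h3
    push_cast at h3
    rw [h, zero_mul, zero_add] at h3
    exact one_ne_zero h3
  have e1 := congrFun (congrFun h2' 0) 0
  have e2 := congrFun (congrFun h2' 0) 1
  have e3 := congrFun (congrFun h2' 1) 0
  have e4 := congrFun (congrFun h2' 1) 1
  rw [Matrix.det_fin_two] at hg
  simp only [Matrix.mul_apply, Fin.sum_univ_two, Matrix.one_apply_eq] at e1 e2 e3 e4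
  rw [Matrix.one_apply_ne (by decide)] at e2 e3
  -- trace is nonzero
  have ht : g 0 0 + g 1 1 ≠ 0 := by
    intro ht
    apply htwo
    have h5 : g 1 1 = - g 0 0 := by linear_combination ht
    rw [h5] at hg e4
    linear_combination (-1 : F) * e1 - hg
  have hb : g 0 1 = 0 := by
    have : (g 0 0 + g 1 1) * g 0 1 = 0 := by linear_combination e2
    rcases mul_eq_zero.1 this with h | h
    · exact absurd h ht
    · exact h
  have hc : g 1 0 = 0 := by
    have : (g 0 0 + g 1 1) * g 1 0 = 0 := by linear_combination e3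
    rcases mul_eq_zero.1 this with h | h
    · exact absurd h ht
    · exact h
  have hd : g 0 0 = g 1 1 := by
    have : (g 0 0 + g 1 1) * (g 0 0 - g 1 1) = 0 := by linear_combination e1 - e4
    rcases mul_eq_zero.1 this with h | h
    · exact absurd h ht
    · exact sub_eq_zero.1 h
  have hpm : g 0 0 = 1 ∨ g 0 0 = -1 := by
    have : (g 0 0 - 1) * (g 0 0 + 1) = 0 := by
      rw [hb, zero_mul, add_zero] at e1
      linear_combination e1
    rcases mul_eq_zero.1 this with h | h
    · exact Or.inl (sub_eq_zero.1 h)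
    · exact Or.inr (eq_neg_of_add_eq_zero_left h)
  show g = -1
  rcases hpm with h | h
  · exfalso
    apply h1'
    ext i j
    fin_cases i <;> fin_cases j <;> simp [h, hb, hc, ← hd]
  · ext i j
    fin_cases i <;> fin_cases j <;> simp [h, hb, hc, ← hd]

end Cfsg.Agent.S0268
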