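import Mathlib
import Cfsg.Statements.S0273
import Cfsg.Agent.Lib.H6.SL2Sylow

set_option autoImplicit false
open Cfsg

namespace Cfsg.Agent.S0273

/-- In GL_2(q) the centraliser of a non-trivial element of a Sylow p-subgroup (p the characteristic) has order q (q-1): the Sylow subgroup times the scalars. -/
theorem result {F : Type*} [Field F] [Fintype F] {q : ℕ} (hF : Fintype.card F = q) (p : ℕ) [Fact p.Prime] [CharP F p] (P : Sylow p (Matrix.GeneralLinearGroup (Fin 2) F)) (a : Matrix.GeneralLinearGroup (Fin 2) F) (ha : a ∈ P) (ha1 : a ≠ 1) : Nat.card (Subgroup.centralizer ({a} : Set (Matrix.GeneralLinearGroup (Fin 2) F))) = q * (q - 1) := by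
  subst hF
  obtain ⟨x, rfl⟩ := H6.SL2Sylow.exists_eq_sylGL p P
  obtain ⟨g, rfl⟩ := H6.SL2Sylow.exists_smul_pt0 x
  -- the element, up to conjugation
  have ha' : a ∈ (Matrix.SpecialLinearGroup.lineStab
      (g • H6.SL2Sylow.pt0 : Projectivization F (Fin 2 → F)).submodule).map
      Matrix.SpecialLinearGroup.toGL := ha
  rw [H6.SL2Sylow.lineStab_smul_pt] at ha'
  obtain ⟨s, hs, hsa⟩ := Subgroup.mem_map.1 ha'
  rw [Subgroup.mem_pointwise_smul_iff_inv_smul_mem, H6.SL2Sylow.pt0_submodule,
    H6.SL2Sylow.mem_lineStab_e0, ← map_inv, MulAut.smul_def, MulAut.conj_apply, inv_inv] at hs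
  obtain ⟨b, hbs⟩ := hs
  have hs2 : s = g * Matrix.SpecialLinearGroup.transvection zero_ne_one b * g⁻¹ := by
    rw [← hbs]; group
  have hb : b ≠ 0 := by
    rintro rfl
    apply ha1
    rw [← hsa, hs2]
    simp
  set t : Matrix.GeneralLinearGroup (Fin 2) F := Matrix.SpecialLinearGroup.toGL
    (Matrix.SpecialLinearGroup.transvection zero_ne_one b) with ht
  have hconj : a = Matrix.SpecialLinearGroup.toGL g * t * (Matrix.SpecialLinearGroup.toGL g)⁻¹ := by
    rw [ht, ← map_mul, ← map_inv, ← map_mul, ← hs2, hsa]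
  rw [hconj]
  set γ : Matrix.GeneralLinearGroup (Fin 2) F := Matrix.SpecialLinearGroup.toGL g with hγ
  have hmem : ∀ z : Matrix.GeneralLinearGroup (Fin 2) F,
      z ∈ Subgroup.centralizer ({t} : Set (Matrix.GeneralLinearGroup (Fin 2) F)) ↔
      (z 1 0 = 0 ∧ z 0 0 = z 1 1) := by
    intro z
    rw [Subgroup.mem_centralizer_singleton_iff]
    rw [Matrix.GeneralLinearGroup.ext_iff]
    have h00 : (t : Matrix (Fin 2) (Fin 2) F) 0 0 = 1 := by
      simp [ht, Matrix.SpecialLinearGroup.transvection_coe]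
    have h01 : (t : Matrix (Fin 2) (Fin 2) F) 0 1 = b := by
      simp [ht, Matrix.SpecialLinearGroup.transvection_coe]
    have h10 : (t : Matrix (Fin 2) (Fin 2) F) 1 0 = 0 := by
      simp [ht, Matrix.SpecialLinearGroup.transvection_coe]
    have h11 : (t : Matrix (Fin 2) (Fin 2) F) 1 1 = 1 := by
      simp [ht, Matrix.SpecialLinearGroup.transvection_coe]
    constructor
    · intro h
      have e0 := h 0 0
      have e1 := h 0 1
      simp only [Matrix.GeneralLinearGroup.coe_mul, Matrix.mul_apply, Fin.sum_univ_two, h00, h01, h10, h11] at e0 e1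
      have h2 : b * z 1 0 = 0 := by linear_combination -e0
      have h3 : z 1 0 = 0 := by
        rcases mul_eq_zero.1 h2 with h | h
        · exact absurd h hb
        · exact h
      refine ⟨h3, ?_⟩
      have h4 : b * (z 0 0 - z 1 1) = 0 := by linear_combination e1
      rcases mul_eq_zero.1 h4 with h | h
      · exact absurd h hb
      · exact sub_eq_zero.1 h
    · rintro ⟨h1, h2⟩ i j
      fin_cases i <;> fin_cases j <;>
        simp [Matrix.mul_apply, Fin.sum_univ_two, h00, h01, h10, h11, h1, h2] <;> ring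
  -- equivalence with `Fˣ × F`
  have hcard : Nat.card (Subgroup.centralizer ({t} : Set (Matrix.GeneralLinearGroup (Fin 2) F))) =
      Nat.card (Fˣ × F) := by
    refine (Nat.card_congr (Equiv.ofBijective (fun w : Fˣ × F =>
      (⟨Matrix.GeneralLinearGroup.mkOfDetNeZero !![(w.1 : F), w.2; 0, (w.1 : F)] (by
        rw [Matrix.det_fin_two_of]; simp), by
        rw [hmem]
        constructor <;> rfl⟩ :
        Subgroup.centralizer ({t} : Set (Matrix.GeneralLinearGroup (Fin 2) F)))) ⟨?_, ?_⟩)).symm
    · rintro ⟨a1, b1⟩ ⟨a2, b2⟩ hab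
      have h := congrArg (fun z : Subgroup.centralizer ({t} : Set (Matrix.GeneralLinearGroup (Fin 2) F)) =>
        ((z : Matrix.GeneralLinearGroup (Fin 2) F) : Matrix (Fin 2) (Fin 2) F)) hab
      have e0 := congrFun (congrFun h 0) 0
      have e1 := congrFun (congrFun h 0) 1
      have e0' : (a1 : F) = a2 := e0
      have e1' : b1 = b2 := e1
      rw [Prod.mk.injEq]
      exact ⟨Units.ext e0', e1'⟩
    · rintro ⟨z, hz⟩
      obtain ⟨h1, h2⟩ := (hmem z).1 hz
      have hdet := Matrix.GeneralLinearGroup.det_ne_zero z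
      rw [Matrix.det_fin_two] at hdet
      have h3 : z 0 0 ≠ 0 := by
        intro h
        apply hdet
        rw [h, h1]; ring
      refine ⟨(Units.mk0 (z 0 0) h3, z 0 1), ?_⟩
      apply Subtype.ext
      apply Matrix.GeneralLinearGroup.ext
      intro i j
      fin_cases i <;> fin_cases j
      · rfl
      · rfl
      · exact h1.symm
      · exact h2
  have hcc : Nat.card (Subgroup.centralizer ({γ * t * γ⁻¹} : Set (Matrix.GeneralLinearGroup (Fin 2) F))) =
      Nat.card (Subgroup.centralizer ({t} : Set (Matrix.GeneralLinearGroup (Fin 2) F))) := by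
    have h1 : ∀ z : Subgroup.centralizer ({γ * t * γ⁻¹} : Set (Matrix.GeneralLinearGroup (Fin 2) F)),
        γ⁻¹ * z.1 * γ ∈ Subgroup.centralizer ({t} : Set (Matrix.GeneralLinearGroup (Fin 2) F)) := by
      rintro ⟨z, hz⟩
      rw [Subgroup.mem_centralizer_singleton_iff] at hz ⊢
      simp only
      calc γ⁻¹ * z * γ * t = γ⁻¹ * (z * (γ * t * γ⁻¹)) * γ := by group
        _ = γ⁻¹ * ((γ * t * γ⁻¹) * z) * γ := by rw [hz]
        _ = _ := by group
    have h2 : ∀ z : Subgroup.centralizer ({t} : Set (Matrix.GeneralLinearGroup (Fin 2) F)),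
        γ * z.1 * γ⁻¹ ∈ Subgroup.centralizer ({γ * t * γ⁻¹} : Set (Matrix.GeneralLinearGroup (Fin 2) F)) := by
      rintro ⟨z, hz⟩
      rw [Subgroup.mem_centralizer_singleton_iff] at hz ⊢
      simp only
      calc γ * z * γ⁻¹ * (γ * t * γ⁻¹) = γ * (z * t) * γ⁻¹ := by group
        _ = γ * (t * z) * γ⁻¹ := by rw [hz]
        _ = _ := by group
    exact Nat.card_congr
      { toFun := fun z => ⟨γ⁻¹ * z.1 * γ, h1 z⟩
        invFun := fun z => ⟨γ * z.1 * γ⁻¹, h2 z⟩
        left_inv := by
          rintro ⟨z, hz⟩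
          apply Subtype.ext
          simp only
          group
        right_inv := by
          rintro ⟨z, hz⟩
          apply Subtype.ext
          simp only
          group }
  rw [hcc, hcard, Nat.card_prod, H6.SLCard.card_units', Nat.card_eq_fintype_card, mul_comm]

end Cfsg.Agent.S0273
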