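import Mathlib
import Cfsg.Statements.S0275
import Cfsg.Agent.S0274
import Cfsg.Agent.Lib.H6.SL2Tor

set_option autoImplicit false
open Cfsg

namespace Cfsg.Agent.S0275

/-- If p is odd and H is a subgroup of SL_2(q), q a power of p, with more than one Sylow p-subgroup, then the Sylow 2-subgroups of H are generalised quaternion. -/
theorem result {F : Type*} [Field F] [Fintype F] (p : ℕ) [Fact p.Prime] [CharP F p] (hp : p ≠ 2) (H : Subgroup (Matrix.SpecialLinearGroup (Fin 2) F)) (hH : 1 < Nat.card (Sylow p H)) (S : Sylow 2 H) : ∃ k : ℕ, 1 ≤ k ∧ Nonempty ((S : Subgroup H) ≃* QuaternionGroup (2 ^ k)) := by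
  have h2 : (2 : F) ≠ 0 := by
    intro h0
    have h1 : ((2 : ℕ) : F) = 0 := by exact_mod_cast h0
    rw [CharP.cast_eq_zero_iff F p] at h1
    exact hp ((Nat.prime_dvd_prime_iff_eq (Fact.out : p.Prime) Nat.prime_two).1 h1)
  have h2' : (2 : ZMod p) ≠ 0 := by
    intro h0
    have h1 : ((2 : ℕ) : ZMod p) = 0 := by exact_mod_cast h0
    rw [CharP.cast_eq_zero_iff (ZMod p) p] at h1
    exact hp ((Nat.prime_dvd_prime_iff_eq (Fact.out : p.Prime) Nat.prime_two).1 h1)
  obtain ⟨K, hK, ⟨e⟩⟩ := Cfsg.Agent.S0274.result p hp H hH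
  obtain ⟨i, j, hi, hj, hij, hi2⟩ := H6.SL2Tor.exists_quaternion (F := ZMod p) h2'
  -- transport to H
  let f : Matrix.SpecialLinearGroup (Fin 2) (ZMod p) →* H :=
    (Subgroup.inclusion hK).comp e.symm.toMonoidHom
  have hf : Function.Injective f :=
    (Subgroup.inclusion_injective hK).comp e.symm.injective
  refine H6.SL2Tor.quaternion_sylow h2 H.subtype H.subtype_injective (i := f i) (j := f j) ?_ ?_ ?_ ?_ S
  · rw [← map_pow, hi, map_one]
  · rw [← map_pow, hj, map_one]
  · rw [← map_inv, ← map_mul, ← map_mul, hij, map_inv]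
  · intro h
    apply hi2
    apply hf
    rw [map_pow, h, map_one]

end Cfsg.Agent.S0275
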