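import Cfsg.Statements.S0284
import Mathlib
import Cfsg.Agent.Lib.H7.HermCount

set_option autoImplicit false
open Cfsg

namespace Cfsg.Agent.S0284

/-- The standard Hermitian form on F^n, |F| = q^2, has exactly q^(n-1) (q^n - (-1)^n) vectors of norm 1. -/
theorem result {F : Type*} [Field F] [Fintype F] {q : ℕ} (hF : Fintype.card F = q ^ 2) (n : ℕ) : Nat.card {v : Fin n → F // Cfsg.hermForm n F q v v = 1} = (if Even n then q ^ (n - 1) * (q ^ n - 1) else q ^ (n - 1) * (q ^ n + 1)) := by
  have e : Nat.card {v : Fin n → F // Cfsg.hermForm n F q v v = 1} = H7.HermCount.M F q n 1 := by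
    unfold H7.HermCount.M
    simp_rw [H7.HermCount.hermForm_self]
  rw [e]
  rcases n with _ | n
  · have h := (H7.HermCount.formulas hF 0).2
    have hq := H7.QuadExt.one_lt_q hF
    have : H7.HermCount.M F q 0 1 = 0 := by
      have hq0 : (q : ℤ) ≠ 0 := by
        have : (1 : ℤ) < q := by exact_mod_cast hq
        omega
      have h2 : (q : ℤ) * H7.HermCount.M F q 0 1 = 0 := by rw [h]; simp
      have := (mul_eq_zero.1 h2).resolve_left hq0
      exact_mod_cast this
    rw [this]; simp
  · rw [H7.HermCount.M_one hF, Nat.add_sub_cancel]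
    by_cases he : Even n
    · rw [if_pos he, if_neg (by simpa [Nat.even_add_one] using he)]
    · rw [if_neg he, if_pos (by simpa [Nat.even_add_one] using he)]

end Cfsg.Agent.S0284
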