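import Cfsg.Statements.S0298
import Mathlib
import Cfsg.Agent.Lib.H7.LowRank

set_option autoImplicit false
open Cfsg

namespace Cfsg.Agent.S0298

/-- PΩ_3(q) is isomorphic to PSL_2(q) for q odd. -/
theorem result {F : Type*} [Field F] [Fintype F] (hodd : Odd (Fintype.card F)) : Nonempty (Cfsg.POmega F (Cfsg.quadFormOdd 1 F) ≃* Matrix.ProjectiveSpecialLinearGroup (Fin 2) F) := by
  have h2 : (2 : F) ≠ 0 := H7.OmegaIso.two_ne_zero_of_odd hodd
  have h3 : 3 ≤ Fintype.card F := by
    have h1 := Fintype.one_lt_card (α := F)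
    obtain ⟨k, hk⟩ := hodd
    omega
  let f : (Unit ⊕ (Fin 1 ⊕ Fin 1) → F) ≃ₗ[F] (F × F × F) :=
    { toFun := fun v => (v (.inr (.inl 0)), v (.inr (.inr 0)), v (.inl ()))
      invFun := fun p => Sum.elim (fun _ => p.2.2) (Sum.elim (fun _ => p.1) (fun _ => p.2.1))
      map_add' := fun _ _ => rfl
      map_smul' := fun _ _ => rfl
      left_inv := by
        intro v
        funext i
        rcases i with ⟨⟩ | i | i
        · rfl
        · fin_cases i; rfl
        · fin_cases i; rfl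
      right_inv := fun _ => rfl }
  have hf : ∀ v, H7.Hyp.hyp (H7.LowRank.qsq F) (f v) = Cfsg.quadFormOdd 1 F v := by
    intro v
    have hfv : f v = (v (.inr (.inl 0)), v (.inr (.inr 0)), v (.inl ())) := rfl
    rw [hfv, H7.Hyp.hyp_apply, H7.LowRank.qsq_apply, Cfsg.quadFormOdd]
    simp
    ring
  have hQ := H7.LowRank.nd_qsq h2
  exact H7.LowRank.iso_POmega hQ (H7.OmegaOrd.tr f hf) (H7.OmegaIso.commutator_eq_units hQ h3) (H7.LowRank.rho3 F)
    H7.LowRank.rho3_range (fun g x _ h => H7.LowRank.rho3_center h)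

end Cfsg.Agent.S0298
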