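import Cfsg.Statements.S0299
import Mathlib
import Cfsg.Agent.Lib.H7.LowRank4

set_option autoImplicit false
open Cfsg

namespace Cfsg.Agent.S0299

/-- PΩ^+_4(q) is isomorphic to PSL_2(q) x PSL_2(q) for q at least 3. -/
theorem result {F : Type*} [Field F] [Fintype F] (hF : 3 ≤ Fintype.card F) : Nonempty (Cfsg.POmega F (Cfsg.quadFormPlus 2 F) ≃* Matrix.ProjectiveSpecialLinearGroup (Fin 2) F × Matrix.ProjectiveSpecialLinearGroup (Fin 2) F) := by
  let f : (Fin 2 ⊕ Fin 2 → F) ≃ₗ[F] (F × F × (F × F)) :=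
    { toFun := fun v => (v (.inl 0), v (.inr 0), (-v (.inl 1), v (.inr 1)))
      invFun := fun p => Sum.elim ![p.1, -p.2.2.1] ![p.2.1, p.2.2.2]
      map_add' := fun v w => by
        refine Prod.ext rfl (Prod.ext rfl (Prod.ext ?_ rfl))
        change -(v (.inl 1) + w (.inl 1)) = -v (.inl 1) + -w (.inl 1)
        ring
      map_smul' := fun c v => by
        refine Prod.ext rfl (Prod.ext rfl (Prod.ext ?_ rfl))
        change -(c * v (.inl 1)) = c * -v (.inl 1)
        ring
      left_inv := by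
        intro v
        funext i
        rcases i with i | i <;> fin_cases i <;> simp
      right_inv := by
        rintro ⟨x, y, b, c⟩
        simp }
  have hf : ∀ v, H7.Hyp.hyp (H7.LowRank.qneg F) (f v) = Cfsg.quadFormPlus 2 F v := by
    intro v
    have hfv : f v = (v (.inl 0), v (.inr 0), (-v (.inl 1), v (.inr 1))) := rfl
    rw [hfv, H7.Hyp.hyp_apply, H7.LowRank.qneg_apply, Cfsg.quadFormPlus, Fin.sum_univ_two]
    simp
  have hQ := H7.LowRank.nd_qneg (F := F)
  obtain ⟨e⟩ := H7.LowRank.iso_POmega hQ (H7.OmegaOrd.tr f hf) (H7.OmegaIso.commutator_eq_units hQ hF) (H7.LowRank.rho4 F)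
    H7.LowRank.rho4_range (fun g x hx h => H7.LowRank.rho4_center (left_ne_zero_of_mul_eq_one hx) h)
  obtain ⟨e'⟩ := H7.LowRank.quot_prod (Matrix.SpecialLinearGroup (Fin 2) F) (Matrix.SpecialLinearGroup (Fin 2) F)
  exact ⟨e.trans e'⟩

end Cfsg.Agent.S0299
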