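import Cfsg.Statements.S0300
import Mathlib
import Cfsg.Agent.Lib.H7.LowRank4m

set_option autoImplicit false
open Cfsg

namespace Cfsg.Agent.S0300

/-- PΩ^-_4(q) is isomorphic to PSL_2(q^2). -/
theorem result {F K : Type*} [Field F] [Fintype F] [Field K] [Fintype K] {q : ℕ} (hF : Fintype.card F = q) (hK : Fintype.card K = q ^ 2) (a b : F) (hab : ∀ z₁ z₂ : F, z₁ ^ 2 + a * z₁ * z₂ + b * z₂ ^ 2 = 0 → z₁ = 0 ∧ z₂ = 0) : Nonempty (Cfsg.POmega F (Cfsg.quadFormMinus 1 F a b) ≃* Matrix.ProjectiveSpecialLinearGroup (Fin 2) K) := by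
  rename_i _ _ fK ftK
  have hfact : Fact (∀ r : F, r ^ 2 ≠ -b + a * r) := H7.AnisoPlane.Aniso.fact hab
  let _ : Fintype (H7.AnisoPlane.K a b) := Fintype.ofFinite _
  have hcard : Fintype.card (H7.AnisoPlane.K a b) = Fintype.card K := by
    rw [H7.AnisoPlane.card_K, hF, hK]
  let r : H7.AnisoPlane.K a b ≃+* K := FiniteField.ringEquivOfCardEq hcard
  obtain ⟨e⟩ := (H7.HypStd.minus_succ (F := F) 0 a b).trans (H7.OmegaIso.hyp_congr (H7.LowRank.equivalent_qN a b))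
  have hf : ∀ v, H7.Hyp.hyp (H7.LowRank.qN a b) (e.toLinearEquiv v) = Cfsg.quadFormMinus 1 F a b v := by
    intro v
    rw [← H48.QuadStd.coe_qMinus]
    exact e.map_app v
  have hQ := H7.LowRank.nd_qN (F := F) hab
  have hfin : Module.Finite F (H7.AnisoPlane.K a b) := Module.Finite.of_finite
  have hrank : Module.finrank F (H7.AnisoPlane.K a b) = 2 := by
    rw [← (H7.AnisoPlane.eK a b).finrank_eq, Module.finrank_fintype_fun_eq_card]
    simp
  have hc := H7.OmegaIso.commutator_eq_aniso hQ (fun w hw h0 => hw (by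
    rw [H7.LowRank.qN_apply] at h0
    exact QuadraticAlgebra.norm_eq_zero_iff_eq_zero.1 h0)) (Or.inr (by rw [hrank]; norm_num))
  obtain ⟨e1⟩ := H7.LowRank.iso_POmega hQ (H7.OmegaOrd.tr (ι := (Fin 1 ⊕ Fin 1) ⊕ Fin 2) e.toLinearEquiv hf) hc (H7.LowRank.rho4m a b)
    H7.LowRank.rho4m_range (fun g x hx h => H7.LowRank.rho4m_center (left_ne_zero_of_mul_eq_one hx) h)
  exact ⟨e1.trans (H7.OmegaIso.quotCenterCongr (H7.LowRank.slMapEquiv (Fin 2) r))⟩

end Cfsg.Agent.S0300
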