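import Cfsg.Statements.S0301
import Mathlib
import Cfsg.Agent.Lib.H7.LowRank5

set_option autoImplicit false
open Cfsg

namespace Cfsg.Agent.S0301

/-- PΩ_5(q) is isomorphic to PSp_4(q) for q odd. -/
theorem result {F : Type*} [Field F] [Fintype F] (hodd : Odd (Fintype.card F)) : Nonempty (Cfsg.POmega F (Cfsg.quadFormOdd 2 F) ≃* Cfsg.PSp 2 F) := by
  have h2 : (2 : F) ≠ 0 := H7.OmegaIso.two_ne_zero_of_odd hodd
  let f : (Unit ⊕ (Fin 2 ⊕ Fin 2) → F) ≃ₗ[F] (F × F × (F × F × F)) :=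
    { toFun := fun v => (v (.inr (.inl 0)), v (.inr (.inr 0)), (v (.inr (.inl 1)), v (.inr (.inr 1)), v (.inl ())))
      invFun := fun p => Sum.elim (fun _ => p.2.2.2.2) (Sum.elim ![p.1, p.2.2.1] ![p.2.1, p.2.2.2.1])
      map_add' := fun _ _ => rfl
      map_smul' := fun _ _ => rfl
      left_inv := by
        intro v
        funext i
        rcases i with ⟨⟩ | i | i
        · rfl
        · fin_cases i <;> rfl
        · fin_cases i <;> rfl
      right_inv := fun _ => rfl }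
  have hf : ∀ v, H7.Hyp.hyp (H7.Hyp.hyp (H7.LowRank.qsq F)) (f v) = Cfsg.quadFormOdd 2 F v := by
    intro v
    have hfv : f v = (v (.inr (.inl 0)), v (.inr (.inr 0)), (v (.inr (.inl 1)), v (.inr (.inr 1)), v (.inl ()))) := rfl
    rw [hfv, H7.Hyp.hyp_apply, H7.Hyp.hyp_apply, H7.LowRank.qsq_apply, Cfsg.quadFormOdd, Fin.sum_univ_two]
    ring
  exact H7.LowRank.iso5 h2 (H7.OmegaOrd.tr f hf) (H7.OmegaIso.commutator_eq_two (H7.LowRank.nd_qsq h2))

end Cfsg.Agent.S0301
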