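import Cfsg.Statements.S0302
import Mathlib
import Cfsg.Agent.Lib.H7.LowRank6p

set_option autoImplicit false
open Cfsg

namespace Cfsg.Agent.S0302

/-- PΩ^+_6(q) is isomorphic to PSL_4(q). -/
theorem result {F : Type*} [Field F] [Fintype F] : Nonempty (Cfsg.POmega F (Cfsg.quadFormPlus 3 F) ≃* Matrix.ProjectiveSpecialLinearGroup (Fin 4) F) := by
  let f : (Fin 3 ⊕ Fin 3 → F) ≃ₗ[F] (F × F × (F × F × (F × F))) :=
    { toFun := fun v => (v (.inl 0), v (.inr 0), (v (.inl 1), v (.inr 1), (-v (.inl 2), v (.inr 2))))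
      invFun := fun p => Sum.elim ![p.1, p.2.2.1, -p.2.2.2.2.1] ![p.2.1, p.2.2.2.1, p.2.2.2.2.2]
      map_add' := fun v w => by
        refine Prod.ext rfl (Prod.ext rfl (Prod.ext rfl (Prod.ext rfl (Prod.ext ?_ rfl))))
        change -(v (.inl 2) + w (.inl 2)) = -v (.inl 2) + -w (.inl 2)
        ring
      map_smul' := fun c v => by
        refine Prod.ext rfl (Prod.ext rfl (Prod.ext rfl (Prod.ext rfl (Prod.ext ?_ rfl))))
        change -(c * v (.inl 2)) = c * -v (.inl 2)
        ring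
      left_inv := by
        intro v
        funext i
        rcases i with i | i <;> fin_cases i <;> simp
      right_inv := by
        rintro ⟨x, y, b, c, a, d⟩
        simp }
  have hf : ∀ v, H7.Hyp.hyp (H7.Hyp.hyp (H7.LowRank.qneg F)) (f v) = Cfsg.quadFormPlus 3 F v := by
    intro v
    have hfv : f v = (v (.inl 0), v (.inr 0), (v (.inl 1), v (.inr 1), (-v (.inl 2), v (.inr 2)))) := rfl
    rw [hfv, H7.Hyp.hyp_apply, H7.Hyp.hyp_apply, H7.LowRank.qneg_apply, Cfsg.quadFormPlus, Fin.sum_univ_three]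
    simp
    ring
  obtain ⟨e⟩ := H7.LowRank.iso6p (H7.OmegaOrd.tr f hf) (H7.OmegaIso.commutator_eq_two H7.LowRank.nd_qneg)
  exact ⟨e.trans (H7.OmegaIso.quotCenterCongr (H7.LowRank.slReindex finSumFinEquiv))⟩

end Cfsg.Agent.S0302
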