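import Cfsg.Statements.S0307
import Mathlib

set_option autoImplicit false
open Cfsg

namespace Cfsg.Agent.S0307

theorem exists_hom (G : Type*) [CommGroup G] [Finite G] [IsCyclic G] (n : ℕ) {N : ℕ} (hN : Nat.card G = N) :
    ∃ f : G →* Multiplicative (ZMod (Nat.gcd n N)), Function.Surjective f ∧ ∀ x, f x = 1 ↔ ∃ c, c ^ n = x := by
  subst hN
  set N := Nat.card G with hN
  have hN0 : 0 < N := Nat.card_pos
  have : NeZero N := ⟨hN0.ne'⟩
  set d := Nat.gcd n N with hd
  have hd0 : 0 < d := Nat.gcd_pos_of_pos_right _ hN0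
  have : NeZero d := ⟨hd0.ne'⟩
  have hdN : d ∣ N := Nat.gcd_dvd_right _ _
  let e : Multiplicative (ZMod N) ≃* G := zmodCyclicMulEquiv inferInstance
  let c : ZMod N →+* ZMod d := ZMod.castHom hdN (ZMod d)
  have hc : Function.Surjective c := ZMod.castHom_surjective hdN
  let f : G →* Multiplicative (ZMod d) := (AddMonoidHom.toMultiplicative c.toAddMonoidHom).comp e.symm.toMonoidHom
  have hf : ∀ a : ZMod N, f (e (Multiplicative.ofAdd a)) = Multiplicative.ofAdd (c a) := by
    intro a
    simp [f]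
  refine ⟨f, ?_, ?_⟩
  · intro y
    obtain ⟨a, ha⟩ := hc (Multiplicative.toAdd y)
    refine ⟨e (Multiplicative.ofAdd a), ?_⟩
    rw [hf, ha]; rfl
  · intro x
    obtain ⟨a, rfl⟩ := e.surjective x
    obtain ⟨a, rfl⟩ : ∃ a', Multiplicative.ofAdd a' = a := ⟨Multiplicative.toAdd a, rfl⟩
    rw [hf]
    constructor
    · intro h
      have h1 : c a = 0 := by
        have := congrArg Multiplicative.toAdd h
        simpa using this
      have h2 : d ∣ a.val := by
        rw [← ZMod.natCast_eq_zero_iff]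
        have : c a = ((a.val : ℕ) : ZMod d) := by
          rw [← ZMod.natCast_zmod_val a]
          simp [c]
        rw [← this]; exact h1
      obtain ⟨k, hk⟩ := h2
      have hb := Nat.gcd_eq_gcd_ab n N
      refine ⟨e (Multiplicative.ofAdd (((Nat.gcdA n N * k : ℤ)) : ZMod N)), ?_⟩
      rw [← map_pow]
      congr 1
      rw [← ofAdd_nsmul]
      congr 1
      have : (a : ZMod N) = ((a.val : ℕ) : ZMod N) := (ZMod.natCast_zmod_val a).symm
      rw [this, hk]
      push_cast
      have h3 : ((d : ℕ) : ZMod N) = (n : ZMod N) * ((Nat.gcdA n N : ℤ) : ZMod N) := by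
        have := congrArg (fun z : ℤ => (z : ZMod N)) hb
        simp only [Int.cast_natCast, Int.cast_add, Int.cast_mul, ZMod.natCast_self, zero_mul, add_zero] at this
        exact this
      rw [h3]; ring
    · rintro ⟨y, hy⟩
      obtain ⟨b, rfl⟩ := e.surjective y
      obtain ⟨b, rfl⟩ : ∃ b', Multiplicative.ofAdd b' = b := ⟨Multiplicative.toAdd b, rfl⟩
      rw [← map_pow, ← ofAdd_nsmul] at hy
      have h1 : n • b = a := by
        have := e.injective hy
        exact Multiplicative.ofAdd.injective this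
      rw [← h1, map_nsmul, nsmul_eq_mul]
      have : ((n : ℕ) : ZMod d) = 0 := (ZMod.natCast_eq_zero_iff _ _).2 (Nat.gcd_dvd_left _ _)
      rw [this, zero_mul]; rfl


open Matrix

/-- PSL_n(q) is normal in PGL_n(q) with cyclic quotient of order gcd(n, q-1): the image of the natural map PSL_n → PGL_n is the kernel of a surjective homomorphism onto the cyclic group of that order. -/
theorem result {F : Type*} [Field F] [Fintype F] {q : ℕ} (hF : Fintype.card F = q) (n : ℕ) (hn : 1 ≤ n) : ∃ g : Matrix.ProjGenLinGroup (Fin n) F →* Multiplicative (ZMod (Nat.gcd n (q - 1))), Function.Surjective g ∧ g.ker = (Matrix.ProjectiveSpecialLinearGroup.toPGL : Matrix.ProjectiveSpecialLinearGroup (Fin n) F →* Matrix.ProjGenLinGroup (Fin n) F).range := by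
  have hu : Nat.card Fˣ = q - 1 := by
    classical
    rw [Nat.card_eq_fintype_card, Fintype.card_units, hF]
  obtain ⟨f, hf, hk⟩ := exists_hom Fˣ n hu
  have : Nonempty (Fin n) := ⟨⟨0, hn⟩⟩
  have hdet : ∀ u : Fˣ, GeneralLinearGroup.det (GeneralLinearGroup.scalar (Fin n) u) = u ^ n := by
    intro u
    apply Units.ext
    simp
  have hsc : (f.comp GeneralLinearGroup.det).comp (GeneralLinearGroup.scalar (Fin n)) = 1 := by
    ext u
    simp only [MonoidHom.comp_apply, MonoidHom.one_apply]
    rw [hdet, (hk _).2 ⟨u, rfl⟩]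
  refine ⟨ProjGenLinGroup.lift (f.comp GeneralLinearGroup.det) hsc, ?_, ?_⟩
  · intro y
    obtain ⟨u, hu⟩ := hf y
    obtain ⟨A, hA⟩ := GeneralLinearGroup.det_surjective (n := Fin n) u
    refine ⟨ProjGenLinGroup.mk A, ?_⟩
    rw [ProjGenLinGroup.lift_mk]
    simp only [MonoidHom.comp_apply]
    rw [hA, hu]
  · ext x
    rw [MonoidHom.mem_ker]
    induction x using ProjGenLinGroup.induction_on with | mk A =>
    rw [ProjGenLinGroup.lift_mk, MonoidHom.comp_apply, hk]
    constructor
    · rintro ⟨c, hc⟩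
      have hd : ((c⁻¹ : Fˣ) : F) ^ n * (A : Matrix (Fin n) (Fin n) F).det = 1 := by
        have := congrArg Units.val hc
        simp only [Units.val_pow_eq_pow_val, GeneralLinearGroup.val_det_apply] at this
        rw [← this, ← mul_pow]; simp
      have hd' : (((c⁻¹ : Fˣ) : F) • (A : Matrix (Fin n) (Fin n) F)).det = 1 := by
        rw [Matrix.det_smul, Fintype.card_fin, hd]
      obtain ⟨B, hB⟩ : ∃ B : SpecialLinearGroup (Fin n) F, (B : Matrix (Fin n) (Fin n) F) = ((c⁻¹ : Fˣ) : F) • (A : Matrix (Fin n) (Fin n) F) :=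
        ⟨⟨((c⁻¹ : Fˣ) : F) • (A : Matrix (Fin n) (Fin n) F), hd'⟩, rfl⟩
      refine ⟨QuotientGroup.mk B, ?_⟩
      rw [ProjectiveSpecialLinearGroup.toPGL_mk, ProjGenLinGroup.mk_eq_mk_iff]
      refine ⟨c, Units.ext ?_⟩
      simp only [Units.val_mul, SpecialLinearGroup.coe_GL_coe_matrix, GeneralLinearGroup.coe_scalar]
      rw [hB]
      simp only [Matrix.smul_mul]
      rw [Matrix.scalar_apply, ← Matrix.smul_one_eq_diagonal]
      simp
    · rintro ⟨X, hX⟩
      induction X using QuotientGroup.induction_on with | H X =>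
      rw [ProjectiveSpecialLinearGroup.toPGL_mk, ProjGenLinGroup.mk_eq_mk_iff] at hX
      obtain ⟨u, hu⟩ := hX
      refine ⟨u, ?_⟩
      rw [← hu, map_mul, hdet]
      have : GeneralLinearGroup.det (SpecialLinearGroup.toGL X) = 1 := by
        apply Units.ext; simp
      rw [this, one_mul]

end Cfsg.Agent.S0307
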