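import Cfsg.Statements.S0310
import Cfsg.Agent.Lib.H7.TitsPar

set_option autoImplicit false
open Cfsg

namespace Cfsg.Agent.S0310

/-- For a set `J` of distinguished generators, the subgroup generated by `B` and `J` is exactly the union of
the double cosets `B n B` with `n` in the subgroup generated by `J` (so `B W_J B` is a subgroup). -/
theorem result {G : Type*} [Group G] (P : Cfsg.BNPair G) {J : Set G}
    (hJ : J ⊆ P.S) (g : G) :
    g ∈ P.parabolic J ↔ ∃ n ∈ Subgroup.closure J, g ∈ DoubleCoset.doubleCoset n (P.B : Set G) P.B := by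
  constructor
  · intro h
    rw [H7.TitsPar.parabolic_eq' hJ] at h
    obtain ⟨w, hw, hg⟩ := h
    obtain ⟨l, _, hl, hJ', hC⟩ := H7.TitsPar.exists_wn hw
    refine ⟨H7.TitsPar.wn l, H7.TitsPar.wn_mem_closure l (fun s hs => hJ' s hs), ?_⟩
    rw [H7.Tits.mem_C_iff_of_mem hC] at hg
    obtain ⟨b, hb, b', hb', e⟩ := hg
    exact DoubleCoset.mem_doubleCoset.2 ⟨b, hb, b', hb', e⟩
  · rintro ⟨n, hn, hg⟩
    obtain ⟨b, hb, b', hb', rfl⟩ := DoubleCoset.mem_doubleCoset.1 hg
    have hB : P.B ≤ P.parabolic J := le_sup_left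
    have hC : Subgroup.closure J ≤ P.parabolic J := le_sup_right
    exact Subgroup.mul_mem _ (Subgroup.mul_mem _ (hB hb) (hC hn)) (hB hb')

end Cfsg.Agent.S0310
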