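import Cfsg.Statements.S0313
import Cfsg.Agent.Lib.H7.TitsPar

set_option autoImplicit false
open Cfsg

namespace Cfsg.Agent.S0313

/-- Two standard parabolic subgroups of a group with a (B,N)-pair which are conjugate in `G` coincide. -/
theorem result {G : Type*} [Group G] (P : Cfsg.BNPair G) {J K : Set G}
    (hJ : J ⊆ P.S) (hK : K ⊆ P.S) (g : G)
    (h : (P.parabolic J).map (MulAut.conj g).toMonoidHom = P.parabolic K) :
    P.parabolic J = P.parabolic K := by
  have hBJ : P.B ≤ P.parabolic J := le_sup_left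
  have hBK : P.B ≤ P.parabolic K := le_sup_left
  have hg : g ∈ P.parabolic K := by
    apply H7.TitsPar.mem_of_conj_le' hBK
    intro b hb
    rw [← h]
    exact ⟨b, hBJ hb, rfl⟩
  rw [← h] at hg ⊢
  obtain ⟨x, hx, hxg⟩ := hg
  have hgJ : g ∈ P.parabolic J := by
    have : g * x * g⁻¹ = g := hxg
    have h3 : x = g := by
      have h4 : g⁻¹ * (g * x * g⁻¹) * g = g⁻¹ * g * g := by rw [this]; 
      simpa [mul_assoc] using h4
    rwa [← h3]
  ext y
  constructor
  · intro hy
    exact ⟨g⁻¹ * y * g, Subgroup.mul_mem _ (Subgroup.mul_mem _ (Subgroup.inv_mem _ hgJ) hy) hgJ, by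
      simp [mul_assoc]⟩
  · rintro ⟨z, hz, rfl⟩
    exact Subgroup.mul_mem _ (Subgroup.mul_mem _ hgJ hz) (Subgroup.inv_mem _ hgJ)

end Cfsg.Agent.S0313
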