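import Cfsg.Statements.S0314
import Cfsg.Agent.Lib.H7.TitsPar

set_option autoImplicit false
open Cfsg

namespace Cfsg.Agent.S0314

/-- Distinct sets of distinguished generators give distinct standard parabolic subgroups. -/
theorem result {G : Type*} [Group G] (P : Cfsg.BNPair G) {J K : Set G}
    (hJ : J ⊆ P.S) (hK : K ⊆ P.S) (h : P.parabolic J = P.parabolic K) : J = K := by
  rw [H7.TitsPar.parabolic_eq' hJ, H7.TitsPar.parabolic_eq' hK] at h
  have h1 := H7.TitsPar.par_injective h
  have h2 := congrArg (fun X : Set P.S => Subtype.val '' X) h1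
  simp only [Subtype.image_preimage_coe] at h2
  rwa [Set.inter_eq_self_of_subset_right hJ, Set.inter_eq_self_of_subset_right hK] at h2

end Cfsg.Agent.S0314
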