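import Cfsg.Statements.S0316
import Cfsg.Agent.Lib.H7.TitsPar

set_option autoImplicit false
open Cfsg

namespace Cfsg.Agent.S0316

/-- The map `J ↦ P_J` is a lattice isomorphism from the power set of the set of distinguished generators onto the
subgroups containing `B`. -/
theorem result {G : Type*} [Group G] (P : Cfsg.BNPair G) :
    ∃ e : Set P.S ≃o {M : Subgroup G // P.B ≤ M},
      ∀ J : Set P.S, ((e J : {M : Subgroup G // P.B ≤ M}) : Subgroup G) = P.parabolic (Subtype.val '' J) := by
  refine ⟨{ toFun := fun J => ⟨H7.TitsPar.par P J, H7.TitsPar.B_le_par J⟩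
            invFun := fun M => {s | (s : G) ∈ (M : Subgroup G)}
            left_inv := ?_
            right_inv := ?_
            map_rel_iff' := ?_ }, ?_⟩
  · intro J
    ext s
    exact H7.TitsPar.mem_par_simple
  · intro M
    exact Subtype.ext (H7.TitsPar.eq_par M.2).symm
  · intro J K
    exact H7.TitsPar.par_mono
  · intro J
    exact (H7.TitsPar.parabolic_eq J).symm

end Cfsg.Agent.S0316
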