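import Cfsg.Statements.S0321
import Cfsg.Agent.Lib.H7.TitsPar

set_option autoImplicit false
open Cfsg

namespace Cfsg.Agent.S0321

/-- For `n ∈ N` not in `B`, the union `B ∪ B n B` is (the underlying set of) a subgroup exactly when `n` agrees
modulo `B ⊓ N` with one of the distinguished representatives; thus the distinguished involutions are
determined by `B` and `N`. -/
theorem result {G : Type*} [Group G] (P : Cfsg.BNPair G) {n : G}
    (hn : n ∈ P.N) (hnB : n ∉ P.B) :
    (∃ H : Subgroup G, (H : Set G) = (P.B : Set G) ∪ DoubleCoset.doubleCoset n (P.B : Set G) P.B) ↔ ∃ s ∈ P.S, s⁻¹ * n ∈ P.B := by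
  constructor
  · rintro ⟨H, hH⟩
    have hBH : P.B ≤ H := by
      intro b hb
      have : b ∈ (H : Set G) := by rw [hH]; exact Or.inl hb
      exact this
    have hnH : n ∈ H := by
      have : n ∈ (H : Set G) := by
        rw [hH]; exact Or.inr (DoubleCoset.mem_doubleCoset_self _ _ _)
      exact this
    obtain ⟨l, hl, hr⟩ := H7.CoxComb.exists_red (H7.Tits.isInvGen P) (QuotientGroup.mk ⟨n, hn⟩ : H7.Tits.W P)
    have h1 := H7.TitsPar.letters_mem hBH l hr (fun g' hg' => by
      rw [hl] at hg'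
      exact H7.TitsPar.mem_of_C_mem hBH (H7.Tits.mem_C_self ⟨n, hn⟩) hnH hg')
    match l, hl, h1 with
    | [], hl, _ =>
      exfalso
      apply hnB
      have := H7.Tits.mem_C_self (P := P) ⟨n, hn⟩
      rw [← hl] at this
      exact H7.Tits.mem_C_one.1 this
    | s :: l, hl, h1 =>
      refine ⟨s, s.2, ?_⟩
      have hs : (s : G) ∈ (H : Set G) := h1 s (by simp)
      rw [hH] at hs
      rcases hs with hs | hs
      · exfalso
        apply H7.Tits.σ_ne_one s
        exact H7.Tits.eq_of_mem_C (H7.Tits.mem_C_self _) (H7.Tits.mem_C_one.2 hs)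
      · have h2 := H7.Tits.C_mk (P := P) ⟨n, hn⟩
        simp only at h2
        rw [← h2] at hs
        have h3 := (H7.Tits.C_mk_mem_iff (P := P) (n := ⟨(s : G), P.subset s.2⟩) (n' := ⟨n, hn⟩)).1 hs
        rw [H7.Tits.mk_eq_mk] at h3
        exact h3
  · rintro ⟨s, hs, hsn⟩
    refine ⟨H7.TitsPar.par P {(⟨s, hs⟩ : P.S)}, ?_⟩
    ext g
    have hns : (QuotientGroup.mk (⟨n, hn⟩ : P.N) : H7.Tits.W P) = H7.Tits.σ P ⟨s, hs⟩ := by
      unfold H7.Tits.σ
      rw [eq_comm, H7.Tits.mk_eq_mk]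
      exact hsn
    have h2 := H7.Tits.C_mk (P := P) ⟨n, hn⟩
    simp only at h2
    rw [← h2, hns]
    constructor
    · rintro ⟨w, hw, hg⟩
      rw [Set.image_singleton] at hw
      have hw' : w = 1 ∨ w = H7.Tits.σ P ⟨s, hs⟩ := by
        have hsq := H7.Tits.σ_sq P ⟨s, hs⟩
        rw [Subgroup.mem_closure_singleton] at hw
        obtain ⟨k, rfl⟩ := hw
        rcases Int.even_or_odd k with ⟨j, hj⟩ | ⟨j, hj⟩
        · left
          rw [hj, ← two_mul, zpow_mul, zpow_two, hsq, one_zpow]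
        · right
          rw [hj, zpow_add, zpow_mul, zpow_two, hsq, one_zpow, one_mul, zpow_one]
      rcases hw' with rfl | rfl
      · exact Or.inl (H7.Tits.mem_C_one.1 hg)
      · exact Or.inr hg
    · rintro (hg | hg)
      · exact ⟨1, Subgroup.one_mem _, H7.Tits.mem_C_one.2 hg⟩
      · exact ⟨_, Subgroup.subset_closure ⟨_, rfl, rfl⟩, hg⟩

end Cfsg.Agent.S0321
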