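import Cfsg.Statements.S0322
import Cfsg.Agent.Lib.H7.TitsPar

set_option autoImplicit false
open Cfsg

namespace Cfsg.Agent.S0322

/-- A group with a (B,N)-pair of rank one acts doubly transitively on the left cosets of `B`. -/
theorem result {G : Type*} [Group G] (P : Cfsg.BNPair G) (h : P.rank = 1) : MulAction.IsMultiplyPretransitive G (G ⧸ P.B) 2 := by
  rw [MulAction.is_two_pretransitive_iff]
  have h' : Nat.card P.S = 1 := h
  rw [Nat.card_eq_one_iff_exists] at h'
  obtain ⟨s, hs⟩ := h'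
  have key : ∀ g : G, g ∉ P.B → g ∈ H7.Tits.C P (H7.Tits.σ P s) := by
    intro g hg
    obtain ⟨w, hw⟩ := H7.TitsPar.exists_mem_C (P := P) g
    obtain ⟨l, hl⟩ := (H7.Tits.isInvGen P).gen w
    have hw' : w = 1 ∨ w = H7.Tits.σ P s := by
      rw [← hl]
      clear hl
      induction l with
      | nil => left; simp
      | cons t l ih =>
        rw [H7.CoxComb.wp_cons, hs t]
        rcases ih with ih | ih
        · right; rw [ih, mul_one]
        · left; rw [ih, H7.Tits.σ_sq]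
    rcases hw' with rfl | rfl
    · exact absurd (H7.Tits.mem_C_one.1 hw) hg
    · exact hw
  intro a b c d hab hcd
  obtain ⟨x, rfl⟩ := QuotientGroup.mk_surjective a
  obtain ⟨y, rfl⟩ := QuotientGroup.mk_surjective b
  obtain ⟨z, rfl⟩ := QuotientGroup.mk_surjective c
  obtain ⟨w, rfl⟩ := QuotientGroup.mk_surjective d
  have h1 : x⁻¹ * y ∉ P.B := fun h => hab (QuotientGroup.eq.2 h)
  have h2 : z⁻¹ * w ∉ P.B := fun h => hcd (QuotientGroup.eq.2 h)
  have h3 := key _ h1
  have h4 := key _ h2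
  rw [H7.Tits.mem_C_iff_of_mem h3] at h4
  obtain ⟨b1, hb1, b2, hb2, e⟩ := h4
  refine ⟨z * b1 * x⁻¹, ?_, ?_⟩
  · change (QuotientGroup.mk (z * b1 * x⁻¹ * x) : G ⧸ P.B) = QuotientGroup.mk z
    rw [QuotientGroup.eq]
    have : (z * b1 * x⁻¹ * x)⁻¹ * z = b1⁻¹ := by group
    rw [this]; exact P.B.inv_mem hb1
  · change (QuotientGroup.mk (z * b1 * x⁻¹ * y) : G ⧸ P.B) = QuotientGroup.mk w
    rw [QuotientGroup.eq]
    have : (z * b1 * x⁻¹ * y)⁻¹ * w = b2 := by
      have : w = z * (b1 * (x⁻¹ * y) * b2) := by rw [← e]; group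
      rw [this]; group
    rw [this]; exact hb2

end Cfsg.Agent.S0322
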