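import Cfsg.Statements.S0323


set_option autoImplicit false
open scoped Pointwise
open Cfsg

namespace Cfsg.Agent.S0323

/-- A doubly transitive action on a set with at least three points yields a (B,N)-pair of rank one:
`B` is the stabiliser of a point `x`, `N` the setwise stabiliser of a pair `{x, y}`. -/
theorem result {G Ω : Type*} [Group G] [MulAction G Ω]
    (h2 : MulAction.IsMultiplyPretransitive G Ω 2) {x y z : Ω} (hxy : x ≠ y) (hyz : y ≠ z) (hxz : x ≠ z) :
    ∃ P : Cfsg.BNPair G, P.B = MulAction.stabilizer G x ∧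
      P.N = MulAction.stabilizer G ({x, y} : Set Ω) ∧ P.rank = 1 := by
  rw [MulAction.is_two_pretransitive_iff] at h2
  obtain ⟨s, hsx, hsy⟩ := h2 hxy hxy.symm
  have memN : ∀ g : G, g ∈ MulAction.stabilizer G ({x, y} : Set Ω) ↔
      (g • x = x ∧ g • y = y) ∨ (g • x = y ∧ g • y = x) := by
    intro g
    rw [MulAction.mem_stabilizer_iff]
    constructor
    · intro hg
      have h1 : g • x ∈ ({x, y} : Set Ω) := by
        rw [← hg]; exact Set.smul_mem_smul_set (by simp)
      have h3 : g • y ∈ ({x, y} : Set Ω) := by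
        rw [← hg]; exact Set.smul_mem_smul_set (by simp)
      have h4 : g • x ≠ g • y := fun h => hxy (MulAction.injective g h)
      simp only [Set.mem_insert_iff, Set.mem_singleton_iff] at h1 h3
      rcases h1 with h1 | h1 <;> rcases h3 with h3 | h3
      · exact absurd (h1.trans h3.symm) h4
      · exact Or.inl ⟨h1, h3⟩
      · exact Or.inr ⟨h1, h3⟩
      · exact absurd (h1.trans h3.symm) h4
    · rintro (⟨h1, h3⟩ | ⟨h1, h3⟩)
      · rw [Set.smul_set_insert, Set.smul_set_singleton, h1, h3]
      · rw [Set.smul_set_insert, Set.smul_set_singleton, h1, h3, Set.pair_comm]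
  have hsN : s ∈ MulAction.stabilizer G ({x, y} : Set Ω) := (memN s).2 (Or.inr ⟨hsx, hsy⟩)
  have hsB : s ∉ MulAction.stabilizer G x := by
    rw [MulAction.mem_stabilizer_iff, hsx]; exact hxy.symm
  have hN2 : ∀ n ∈ MulAction.stabilizer G ({x, y} : Set Ω), n ∉ MulAction.stabilizer G x →
      n • x = y ∧ n • y = x := by
    intro n hn hnB
    rcases (memN n).1 hn with h | h
    · exact absurd h.1 hnB
    · exact h
  -- two cells
  have hcell : ∀ g g' : G, g ∉ MulAction.stabilizer G x → g' ∉ MulAction.stabilizer G x →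
      g' ∈ DoubleCoset.doubleCoset g (MulAction.stabilizer G x : Set G) (MulAction.stabilizer G x) := by
    intro g g' hg hg'
    rw [MulAction.mem_stabilizer_iff] at hg hg'
    obtain ⟨b, hb1, hb2⟩ := h2 (Ne.symm hg) (Ne.symm hg')
    rw [DoubleCoset.mem_doubleCoset]
    refine ⟨b, hb1, (b * g)⁻¹ * g', ?_, by group⟩
    change ((b * g)⁻¹ * g') • x = x
    rw [mul_smul, ← hb2, ← mul_smul b g x, ← mul_smul, inv_mul_cancel, one_smul]
  have hcell1 : ∀ g g' : G, g ∈ MulAction.stabilizer G x → g' ∈ MulAction.stabilizer G x →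
      g' ∈ DoubleCoset.doubleCoset g (MulAction.stabilizer G x : Set G) (MulAction.stabilizer G x) := by
    intro g g' hg hg'
    rw [DoubleCoset.mem_doubleCoset]
    exact ⟨g' * g⁻¹, Subgroup.mul_mem _ hg' (Subgroup.inv_mem _ hg), 1, Subgroup.one_mem _, by group⟩
  refine ⟨{ B := MulAction.stabilizer G x
            N := MulAction.stabilizer G ({x, y} : Set Ω)
            S := {s}
            sup_eq_top := ?_
            conj_mem := ?_
            subset := ?_
            sq_mem := ?_
            inj := ?_
            closure_sup := ?_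
            mul_mem_union := ?_
            conj_ne := ?_ }, rfl, rfl, ?_⟩
  · rw [Subgroup.eq_top_iff']
    intro g
    by_cases hg : g ∈ MulAction.stabilizer G x
    · exact Subgroup.mem_sup_left hg
    · have := hcell s g hsB hg
      obtain ⟨b, hb, b', hb', rfl⟩ := DoubleCoset.mem_doubleCoset.1 this
      exact Subgroup.mul_mem _ (Subgroup.mul_mem _ (Subgroup.mem_sup_left hb) (Subgroup.mem_sup_right hsN))
        (Subgroup.mem_sup_left hb')
  · intro n hn t ht
    have ht1 : t • x = x := ht.1
    have ht2 : t • y = y := by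
      rcases (memN t).1 ht.2 with h | h
      · exact h.2
      · exact absurd (ht1.symm.trans h.1) hxy
    rw [MulAction.mem_stabilizer_iff, mul_smul, mul_smul]
    rcases (memN n).1 hn with h | h
    · have : n⁻¹ • x = x := by rw [inv_smul_eq_iff, h.1]
      rw [this, ht1, h.1]
    · have : n⁻¹ • x = y := by rw [inv_smul_eq_iff, h.2]
      rw [this, ht2, h.2]
  · intro t ht
    rw [Set.mem_singleton_iff] at ht
    rw [ht]; exact hsN
  · intro t ht
    rw [Set.mem_singleton_iff] at ht
    rw [ht, MulAction.mem_stabilizer_iff, mul_smul, hsx, hsy]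
  · intro t ht t' ht' _
    rw [Set.mem_singleton_iff] at ht ht'
    rw [ht, ht']
  · apply le_antisymm
    · rw [sup_le_iff, Subgroup.closure_le, Set.singleton_subset_iff]
      exact ⟨hsN, inf_le_right⟩
    · intro n hn
      by_cases hnB : n ∈ MulAction.stabilizer G x
      · exact Subgroup.mem_sup_right ⟨hnB, hn⟩
      · have h3 := hN2 n hn hnB
        have h4 : s⁻¹ * n ∈ MulAction.stabilizer G x := by
          rw [MulAction.mem_stabilizer_iff, mul_smul, h3.1, inv_smul_eq_iff, hsx]
        have h5 : n = s * (s⁻¹ * n) := by group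
        rw [h5]
        refine Subgroup.mul_mem _ (Subgroup.mem_sup_left (Subgroup.subset_closure rfl)) 
          (Subgroup.mem_sup_right ⟨h4, Subgroup.mul_mem _ (Subgroup.inv_mem _ hsN) hn⟩)
  · intro t ht n hn b hb
    rw [Set.mem_singleton_iff] at ht
    subst ht
    have hsn : n ∉ MulAction.stabilizer G x → t * n ∈ MulAction.stabilizer G x := by
      intro hnB
      rw [MulAction.mem_stabilizer_iff, mul_smul, (hN2 n hn hnB).1, hsy]
    have hsn' : n ∈ MulAction.stabilizer G x → t * n ∉ MulAction.stabilizer G x := by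
      intro hnB h
      apply hsB
      have := Subgroup.mul_mem _ h (Subgroup.inv_mem _ hnB)
      rwa [mul_inv_cancel_right] at this
    by_cases hnB : n ∈ MulAction.stabilizer G x
    · by_cases h6 : t * b * n ∈ MulAction.stabilizer G x
      · exact Or.inr (hcell1 _ _ hnB h6)
      · exact Or.inl (hcell _ _ (hsn' hnB) h6)
    · by_cases h6 : t * b * n ∈ MulAction.stabilizer G x
      · exact Or.inl (hcell1 _ _ (hsn hnB) h6)
      · exact Or.inr (hcell _ _ hnB h6)
  · intro t ht heq
    rw [Set.mem_singleton_iff] at ht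
    subst ht
    obtain ⟨b, hbx, hby⟩ := h2 hxy hxz
    have hbB : b ∈ MulAction.stabilizer G x := hbx
    have h7 : t * b * t ∈ (MulAction.stabilizer G x : Set G) := by
      rw [← heq]; exact ⟨b, hbB, rfl⟩
    have h8 : (t * b * t) • x = x := h7
    rw [mul_smul, mul_smul, hsx, hby, ← hsy] at h8
    exact hyz (MulAction.injective t h8).symm
  · change Nat.card ({s} : Set G) = 1
    simp

end Cfsg.Agent.S0323
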