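import Cfsg.Statements.S0340
import Cfsg.Agent.Lib.H8.SuzMain2

set_option autoImplicit false
open Cfsg

namespace Cfsg.Agent.S0340

/-- Classification of Zassenhaus groups, simple case, order-level form: a finite simple Zassenhaus group is
isomorphic to `PSL₂(F)` for some finite field `F` or is simple of Suzuki order. -/
theorem result {G Ω : Type*} [Group G] [Finite G] [MulAction G Ω]
    [Finite Ω] (hZ : Cfsg.IsZassenhausGroup G Ω) [IsSimpleGroup G] :
    (∃ (F : Type) (_ : Field F) (_ : Fintype F), Nonempty (G ≃* Matrix.ProjectiveSpecialLinearGroup (Fin 2) F)) ∨ Cfsg.IsSuzuki G := by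
  classical
  letI : Fintype Ω := Fintype.ofFinite Ω
  obtain ⟨g, hg, a, b, hab, -, -⟩ := hZ.2.2.2.1
  rcases Nat.even_or_odd (Nat.card (H8.Zass.E2 G a b)) with he | ho
  · obtain ⟨F, iF, iFf, -, -, hiso⟩ := H8.ZassSimp.even_main hZ hab he
    exact Or.inl ⟨F, iF, iFf, hiso⟩
  · obtain ⟨K, hK⟩ := H8.Zass.exists_isKer hZ hab
    have hcardK := hK.card hZ hab
    rcases H8.ZassFeit.gen_case _ rfl hZ hab hK ho with h | ⟨⟨n, hn⟩, hna, -⟩
    · obtain ⟨F, iF, iFf, hcard, hiso⟩ := H8.ZassPSL2.main hZ hab ho (by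
        change Fintype.card Ω - 2 ≤ 2 * Nat.card (H8.Zass.E2 G a b)
        omega)
      exact Or.inl ⟨F, iF, iFf, hiso⟩
    · exact Or.inr (H8.SuzMain.isSuzuki hZ hab hK (IsPGroup.of_card hn) hna)

end Cfsg.Agent.S0340
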