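import Cfsg.Statements.S0345
import Cfsg.Agent.Lib.H8.ZassEvenS

set_option autoImplicit false
open Cfsg

namespace Cfsg.Agent.S0345

/-- In a finite simple Zassenhaus group the stabiliser `H` of two points `a ≠ b` is cyclic, and some involution
interchanging `a` and `b` inverts every element of `H`. -/
theorem result {G Ω : Type*} [Group G] [Finite G] [MulAction G Ω] [Finite Ω]
    (hZ : Cfsg.IsZassenhausGroup G Ω) [IsSimpleGroup G]
    {a b : Ω} (hab : a ≠ b) :
    IsCyclic ↥(MulAction.stabilizer G a ⊓ MulAction.stabilizer G b) ∧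
      ∃ v : G, orderOf v = 2 ∧ v • a = b ∧ v • b = a ∧ ∀ h ∈ MulAction.stabilizer G a ⊓ MulAction.stabilizer G b, v * h * v⁻¹ = h⁻¹ := by
  classical
  have : Fintype Ω := Fintype.ofFinite Ω
  rcases Nat.even_or_odd (Nat.card ↥(MulAction.stabilizer G a ⊓ MulAction.stabilizer G b)) with he | ho
  · obtain ⟨v, hv1, hv2, hv3, hv4⟩ := H8.ZassSimp.even_inv hZ hab he
    refine ⟨H8.ZassSimp.isCyclic_of_comm hZ hab ?_, v, hv1, hv2, hv3, hv4⟩
    intro x hx y hy
    have h1 := hv4 _ (Subgroup.mul_mem _ hx hy)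
    have h2 : v * (x * y) * v⁻¹ = (v * x * v⁻¹) * (v * y * v⁻¹) := by group
    rw [h2, hv4 x hx, hv4 y hy, ← mul_inv_rev] at h1
    exact (inv_injective h1).symm
  · obtain ⟨h1, -, h2⟩ := H8.ZassSimp.odd_main hZ hab ho
    obtain ⟨v, hv1, hv2, hv3⟩ := H8.ZassSimp.exists_swap hZ hab ho
    exact ⟨h1, v, hv1, hv2, hv3, h2 v hv2 hv3⟩

end Cfsg.Agent.S0345
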