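import Cfsg.Statements.S0358
import Cfsg.Agent.Lib.H8.GolayCount

set_option autoImplicit false
open Cfsg

namespace Cfsg.Agent.S0358

open H8.GolayCode H8.GolayCount

/-- The length-24 code built from the squares modulo 23 has dimension 12 over the field with two elements. -/
theorem result : Module.finrank (ZMod 2) Cfsg.golayCode = 12 := by
  have h : Nat.card Cfsg.golayCode = 2 ^ 12 := by
    have e : Cfsg.golayCode ≃ Fin 4096 := (Equiv.ofBijective
      (fun k : Fin 4096 => (⟨wd (cw k.1), wd_cw_mem _⟩ : Cfsg.golayCode)) (by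
        constructor
        · intro j k h
          have h' : wd (cw j.1) = wd (cw k.1) := congrArg Subtype.val h
          exact Fin.ext (cw_injOn j.2 k.2 (wd_inj (cw_lt _) (cw_lt _) h'))
        · rintro ⟨w, hw⟩
          obtain ⟨k, hk, rfl⟩ := mem_golay_iff_exists.1 hw
          exact ⟨⟨k, hk⟩, rfl⟩)).symm
    rw [Nat.card_congr e]; simp
  have h2 := Module.natCard_eq_pow_finrank (K := ZMod 2) (V := Cfsg.golayCode)
  rw [h, Nat.card_zmod] at h2
  exact (Nat.pow_right_injective (le_refl 2) h2).symm

end Cfsg.Agent.S0358
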