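import Cfsg.Statements.S0361
import Cfsg.Agent.Lib.H8.GolayCount

set_option autoImplicit false
open Cfsg

namespace Cfsg.Agent.S0361

open H8.GolayCode H8.GolayCount

/-- There are exactly 2576 dodecads (supports of weight-12 words) in the length-24 code. -/
theorem result : Cfsg.dodecads.ncard = 2576 := by
  have h := ncard_supports (fun n => Nat.beq (pop n) 12)
  have h2 : cntB (fun n => Nat.beq (pop n) 12) basisL 0 = 2576 := by decide +kernel
  rw [h2] at h
  rw [← h]
  congr 1
  ext s
  simp [Cfsg.dodecads, Cfsg.wordsOfWeight, pop_mk, support_ofSupp]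

end Cfsg.Agent.S0361
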