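import Cfsg.Statements.S0383
import Cfsg.Agent.Lib.H33.M12c
import Cfsg.Agent.Lib.H9.Sharp

set_option autoImplicit false
open scoped Pointwise
open Cfsg

namespace Cfsg.Agent.S0383
open H33.M12 H33.M12b H33.M12c

/-- A dodecad stabiliser in the group of the length-24 code is simple. -/
theorem result (d : Finset Cfsg.GolayPt) (hd : d ∈ Cfsg.dodecads) : IsSimpleGroup (MulAction.stabilizer Cfsg.M24 d) := by
  have hcardΔ : Nat.card ({p : GolayPt | p ∈ d} : Set GolayPt) = 12 := by
    rw [Nat.card_coe_set_eq, show ({p : GolayPt | p ∈ d} : Set GolayPt) = ↑d from rfl, Set.ncard_coe_finset]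
    exact hd.2
  have hfix : ∀ g : ↥(MulAction.stabilizer M24 d), (∀ x ∈ ({p : GolayPt | p ∈ d} : Set GolayPt), g • x = x) → g = 1 := by
    intro g hg
    obtain ⟨m, h1, h2, h3⟩ := exists_list hd [] List.nodup_nil (by simp) (by simp)
    have := sharp12 hd ([] ++ m) h1 (by omega) h2 g.1.2 g.2 (fun a ha => hg a (h2 a ha))
    exact Subtype.ext (Subtype.ext this)
  refine H9.Sharp.simple_95040 (Δ := {p : GolayPt | p ∈ d}) hcardΔ ⟨?_, ?_, ?_, ?_⟩ hfix (card_stab hd)
  · intro g x hx
    have hg : d.image g.1.1 = d := g.2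
    show g.1.1 x ∈ d
    exact hg.subset (Finset.mem_image_of_mem _ hx)
  · intro a ha x hx y hy z hz hxa hya hza hyx hzx
    obtain ⟨g, hg, hgl, hgd⟩ := move12 hd hd [a, x, y] [a, x, z] (by simp [hxa.symm, hya.symm, hyx.symm])
      (by simp [hxa.symm, hza.symm, hzx.symm]) rfl (by simp)
      (by intro b hb; simp only [List.mem_cons, List.not_mem_nil, or_false] at hb; rcases hb with rfl | rfl | rfl <;> assumption)
      (by intro b hb; simp only [List.mem_cons, List.not_mem_nil, or_false] at hb; rcases hb with rfl | rfl | rfl <;> assumption)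
    simp only [List.map_cons, List.map_nil, List.cons.injEq, and_true] at hgl
    exact ⟨⟨⟨g, hg⟩, hgd⟩, hgl.1, hgl.2.1, hgl.2.2⟩
  · intro a ha x hx y hy hxa hya
    obtain ⟨g, hg, hgl, hgd⟩ := move12 hd hd [a, x] [a, y] (by simp [hxa.symm])
      (by simp [hya.symm]) rfl (by simp)
      (by intro b hb; simp only [List.mem_cons, List.not_mem_nil, or_false] at hb; rcases hb with rfl | rfl <;> assumption)
      (by intro b hb; simp only [List.mem_cons, List.not_mem_nil, or_false] at hb; rcases hb with rfl | rfl <;> assumption)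
    simp only [List.map_cons, List.map_nil, List.cons.injEq, and_true] at hgl
    exact ⟨⟨⟨g, hg⟩, hgd⟩, hgl.1, hgl.2⟩
  · intro x hx y hy
    obtain ⟨g, hg, hgl, hgd⟩ := move12 hd hd [x] [y] (List.nodup_singleton _)
      (List.nodup_singleton _) rfl (by simp)
      (by intro b hb; simp only [List.mem_cons, List.not_mem_nil, or_false] at hb; rcases hb with rfl; assumption)
      (by intro b hb; simp only [List.mem_cons, List.not_mem_nil, or_false] at hb; rcases hb with rfl; assumption)
    simp only [List.map_cons, List.map_nil, List.cons.injEq, and_true] at hgl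
    exact ⟨⟨⟨g, hg⟩, hgd⟩, hgl⟩

end Cfsg.Agent.S0383
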