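import Cfsg.Statements.S0384
import Cfsg.Agent.Lib.H33.M12b

set_option autoImplicit false
open scoped Pointwise
open Cfsg

namespace Cfsg.Agent.S0384

/-- A dodecad stabiliser is sharply 5-transitive on the dodecad. -/
theorem result (d : Finset Cfsg.GolayPt) (hd : d ∈ Cfsg.dodecads) (x y : Fin 5 ↪ Cfsg.GolayPt) (hx : ∀ i, x i ∈ d) (hy : ∀ i, y i ∈ d) : ∃! g : MulAction.stabilizer Cfsg.M24 d, ∀ i, ((g : Cfsg.M24) : Equiv.Perm Cfsg.GolayPt) (x i) = y i := by
  obtain ⟨g, hg, hgl, hgd⟩ := H33.M12.move12 hd hd (List.ofFn x) (List.ofFn y)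
    (List.nodup_ofFn.2 x.injective) (List.nodup_ofFn.2 y.injective) (by simp) (by simp)
    (by intro a ha; rw [List.mem_ofFn] at ha; obtain ⟨i, rfl⟩ := ha; exact hx i)
    (by intro a ha; rw [List.mem_ofFn] at ha; obtain ⟨i, rfl⟩ := ha; exact hy i)
  rw [List.map_ofFn] at hgl
  have hgl' : ∀ i, g (x i) = y i := fun i => congrFun (List.ofFn_injective hgl) i
  refine ⟨⟨⟨g, hg⟩, hgd⟩, hgl', ?_⟩
  intro h hh
  have hgd' : h.1 • d = d := h.2
  have h1 : (g⁻¹ * h.1.1 : Equiv.Perm GolayPt) = 1 := by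
    apply H33.M12b.sharp12 hd (List.ofFn x) (List.nodup_ofFn.2 x.injective) (by simp)
      (by intro a ha; rw [List.mem_ofFn] at ha; obtain ⟨i, rfl⟩ := ha; exact hx i)
      (M24.mul_mem (M24.inv_mem hg) h.1.2)
    · rw [H8.M24Trans.image_mul]
      have : d.image h.1.1 = d := hgd'
      rw [this]
      exact H8.M24Trans.image_inv hgd
    · intro a ha
      rw [List.mem_ofFn] at ha
      obtain ⟨i, rfl⟩ := ha
      rw [Equiv.Perm.mul_apply, hh i, ← hgl' i]
      exact g.symm_apply_apply _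
  apply Subtype.ext
  apply Subtype.ext
  show h.1.1 = g
  rw [inv_mul_eq_one] at h1
  exact h1.symm

end Cfsg.Agent.S0384
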