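import Cfsg.Statements.S0388
import Cfsg.Agent.Lib.H33.M12c
import Cfsg.Agent.Lib.H9.Sharp

set_option autoImplicit false
open scoped Pointwise
open Cfsg

namespace Cfsg.Agent.S0388
open H33.M12 H33.M12b H33.M12c

/-- The stabiliser of a dodecad and a point on it is simple. -/
theorem result (d : Finset Cfsg.GolayPt) (hd : d ∈ Cfsg.dodecads) (p : Cfsg.GolayPt) (hp : p ∈ d) : IsSimpleGroup ↥(MulAction.stabilizer Cfsg.M24 d ⊓ MulAction.stabilizer Cfsg.M24 p) := by
  have hcardΔ : Nat.card ({x : GolayPt | x ∈ d ∧ x ≠ p} : Set GolayPt) = 11 := by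
    rw [Nat.card_coe_set_eq, show ({x : GolayPt | x ∈ d ∧ x ≠ p} : Set GolayPt) = ↑(d.erase p) by
      ext x; simp [and_comm], Set.ncard_coe_finset, Finset.card_erase_of_mem hp, hd.2]
  have hfix : ∀ g : ↥(MulAction.stabilizer M24 d ⊓ MulAction.stabilizer M24 p),
      (∀ x ∈ ({x : GolayPt | x ∈ d ∧ x ≠ p} : Set GolayPt), g • x = x) → g = 1 := by
    intro g hg
    obtain ⟨m, h1, h2, h3⟩ := exists_list hd [] List.nodup_nil (by simp) (by simp)
    have := sharp12 hd ([] ++ m) h1 (by omega) h2 g.1.2 g.2.1 (fun a ha => by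
      by_cases hap : a = p
      · subst hap; exact g.2.2
      · exact hg a ⟨h2 a ha, hap⟩)
    exact Subtype.ext (Subtype.ext this)
  refine H9.Sharp.simple_7920 (Δ := {x : GolayPt | x ∈ d ∧ x ≠ p}) hcardΔ ⟨?_, ?_⟩ hfix (card_one hd hp)
  · rintro g x ⟨hx, hxp⟩
    have hg : d.image g.1.1 = d := g.2.1
    have hgp : g.1.1 p = p := g.2.2
    constructor
    · show g.1.1 x ∈ d
      exact hg.subset (Finset.mem_image_of_mem _ hx)
    · show g.1.1 x ≠ p
      intro h
      exact hxp (g.1.1.injective (h.trans hgp.symm))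
  · rintro x ⟨hx, hxp⟩ y ⟨hy, hyp⟩ z ⟨hz, hzp⟩ hyx hzx
    obtain ⟨g, hg, hgl, hgd⟩ := move12 hd hd [p, x, y] [p, x, z] (by simp [hxp.symm, hyp.symm, hyx.symm])
      (by simp [hxp.symm, hzp.symm, hzx.symm]) rfl (by simp)
      (by intro b hb; simp only [List.mem_cons, List.not_mem_nil, or_false] at hb; rcases hb with rfl | rfl | rfl <;> assumption)
      (by intro b hb; simp only [List.mem_cons, List.not_mem_nil, or_false] at hb; rcases hb with rfl | rfl | rfl <;> assumption)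
    simp only [List.map_cons, List.map_nil, List.cons.injEq, and_true] at hgl
    exact ⟨⟨⟨g, hg⟩, ⟨hgd, hgl.1⟩⟩, hgl.2.1, hgl.2.2⟩

end Cfsg.Agent.S0388
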