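import Cfsg.Statements.S0389
import Cfsg.Agent.Lib.H33.M12c

set_option autoImplicit false
open scoped Pointwise
open Cfsg

namespace Cfsg.Agent.S0389

/-- The stabiliser of a dodecad and a point on it is 3-transitive on the complementary dodecad. -/
theorem result (d : Finset Cfsg.GolayPt) (hd : d ∈ Cfsg.dodecads) (p : Cfsg.GolayPt) (hp : p ∈ d) (x y : Fin 3 ↪ Cfsg.GolayPt) (hx : ∀ i, x i ∉ d) (hy : ∀ i, y i ∉ d) : ∃ g ∈ MulAction.stabilizer Cfsg.M24 d ⊓ MulAction.stabilizer Cfsg.M24 p, ∀ i, (g : Equiv.Perm Cfsg.GolayPt) (x i) = y i := by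
  obtain ⟨g, hg, hgp, hgl, hgd⟩ := H33.M12b.move11 hd hd hp hp (List.ofFn x) (List.ofFn y)
    (List.nodup_ofFn.2 x.injective) (List.nodup_ofFn.2 y.injective) (by simp) (by simp)
    (by intro a ha; rw [List.mem_ofFn] at ha; obtain ⟨i, rfl⟩ := ha; exact hx i)
    (by intro a ha; rw [List.mem_ofFn] at ha; obtain ⟨i, rfl⟩ := ha; exact hy i)
  rw [List.map_ofFn] at hgl
  exact ⟨⟨g, hg⟩, ⟨hgd, hgp⟩, fun i => congrFun (List.ofFn_injective hgl) i⟩

end Cfsg.Agent.S0389
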