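import Cfsg.Statements.S0406
import Cfsg.Agent.Lib.H9.LatticeIso

set_option autoImplicit false
open Matrix
open Cfsg

namespace Cfsg.Agent.S0406

/-- the bilinear form of a matrix -/
def form (B : Matrix (Fin 24) (Fin 24) ℤ) : (Fin 24 → ℤ) →+ (Fin 24 → ℤ) →+ ℤ :=
  AddMonoidHom.mk' (fun x => AddMonoidHom.mk' (fun y => x ⬝ᵥ (B *ᵥ y)) (by
    intro y z; rw [Matrix.mulVec_add, dotProduct_add])) (by
    intro x y
    ext z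
    simp [add_dotProduct])

theorem form_apply (B : Matrix (Fin 24) (Fin 24) ℤ) (x y : Fin 24 → ℤ) :
    form B x y = x ⬝ᵥ (B *ᵥ y) := rfl

/-- A rank-24 even lattice with no roots and the stated numbers of vectors of norms 4, 6, 8 is isomorphic to the Leech lattice. -/
theorem result (B : Matrix (Fin 24) (Fin 24) ℤ) (hsymm : B.IsSymm) (hpos : ∀ x : Fin 24 → ℤ, x ≠ 0 → 0 < x ⬝ᵥ (B *ᵥ x)) (heven : ∀ x : Fin 24 → ℤ, (2 : ℤ) ∣ x ⬝ᵥ (B *ᵥ x)) (h2 : ∀ x : Fin 24 → ℤ, x ⬝ᵥ (B *ᵥ x) ≠ 2) (h4 : {x : Fin 24 → ℤ | x ⬝ᵥ (B *ᵥ x) = 4}.ncard = 196560) (h6 : {x : Fin 24 → ℤ | x ⬝ᵥ (B *ᵥ x) = 6}.ncard = 16773120) (h8 : {x : Fin 24 → ℤ | x ⬝ᵥ (B *ᵥ x) = 8}.ncard = 398034000) : ∃ f : (Fin 24 → ℤ) ≃+ Cfsg.leechLattice, ∀ x : Fin 24 → ℤ, Cfsg.sqNorm ((f x : Cfsg.leechLattice) : Cfsg.GolayPt → ℤ) = 8 * (x ⬝ᵥ (B *ᵥ x)) := by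
  have hg : H9.ModTwo.IsGood (form B) := by
    refine ⟨?_, hpos, heven, h2, inferInstance, inferInstance, by simp, h4, h6, h8⟩
    intro x y
    rw [form_apply, form_apply, dotProduct_mulVec, ← Matrix.mulVec_transpose, hsymm.eq,
      dotProduct_comm]
  have hne : {x : Fin 24 → ℤ | x ⬝ᵥ (B *ᵥ x) = 8}.Nonempty := by
    apply Set.nonempty_of_ncard_ne_zero
    rw [h8]; norm_num
  obtain ⟨v, hv⟩ := hne
  obtain ⟨f, hf, -⟩ := H9.LatticeIso.exists_iso hg (v := v) hv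
  exact ⟨f, hf⟩

end Cfsg.Agent.S0406
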