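import Cfsg.Statements.S0412
import Cfsg.Agent.Lib.H9.Sharp
import Cfsg.Agent.Lib.H9.Aut24
-- import your own Cfsg.Agent.* helpers here

set_option autoImplicit false
open Cfsg

namespace Cfsg.Agent.S0412

/-- Aut of an S(5, 8, 24) is simple of order 244823040 and 5-transitive on points. -/
theorem result {α : Type*} [Fintype α] [DecidableEq α] (hα : Fintype.card α = 24) {B : Set (Finset α)} (hB : Cfsg.IsSteinerSystem 5 8 B) : Cfsg.IsM24 (Cfsg.setSystemAut B) ∧ MulAction.IsMultiplyPretransitive (Cfsg.setSystemAut B) α 5 := by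
  have h5 := H9.Aut24.aut_five_transitive hα hB
  have hc := H9.Aut24.card_aut hα hB
  refine ⟨⟨?_, hc⟩, h5⟩
  have h3 : MulAction.IsMultiplyPretransitive (Cfsg.setSystemAut B) α 3 :=
    MulAction.isMultiplyPretransitive_of_le (n := 5) (by norm_num) (by simp [hα])
  apply H9.Sharp.simple_244823040 (Δ := (Set.univ : Set α)) _
    (H9.Sharp.threeTransOn_univ h3 (by simp [hα])) _ hc
  · rw [Nat.card_coe_set_eq, Set.ncard_univ, Nat.card_eq_fintype_card, hα]
  · intro g hg
    apply Subtype.ext; ext x; exact hg x (Set.mem_univ x)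

end Cfsg.Agent.S0412
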