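import Cfsg.Statements.S0423
import Cfsg.Agent.Lib.H63.J2U3

set_option autoImplicit false
open Cfsg

namespace Cfsg.Agent.S0423

/-- Existence of a simple group of order 604800. -/
theorem result : ∃ G : Subgroup (Equiv.Perm (Fin 100)), Cfsg.IsJ2 G := by
  exact ⟨H63.J2.ps.range, (by
    haveI := H63.J2.simple_P0
    exact H63.J2.rangeIso.symm.isSimpleGroup),
    (Nat.card_congr H63.J2.rangeIso.toEquiv).symm.trans H63.J2.card_P0⟩

end Cfsg.Agent.S0423
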