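import Cfsg.Statements.S0424
import Cfsg.Agent.Lib.H35.SuzMain

set_option autoImplicit false
open Cfsg

namespace Cfsg.Agent.S0424

/-- Existence of a simple group of order 448345497600. -/
theorem result : ∃ (G : Type) (_ : Group G), Cfsg.IsSuz G := by
  exact ⟨Cfsg.Spor.Suz, inferInstance, H35.SuzMain.isSuz⟩

end Cfsg.Agent.S0424
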