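import Cfsg.Statements.S0425
import Cfsg.Agent.Lib.H10.SteinerAut
import Cfsg.Agent.Lib.H10.Data5612
import Cfsg.Agent.Lib.H9.Sharp

set_option autoImplicit false
open Cfsg

namespace Cfsg.Agent.S0425

open H10.SteinerTree H10.SteinerAut H10.Data5612

theorem std_lt : (par.std.all fun m => Nat.blt m (2 ^ par.v)) = true := by decide +kernel

theorem search_eq : search par (bitsOf id par.std) (par.v - par.nb) par.nb (List.range par.nb) = true := by
  decide +kernel

/-- Aut of an S(5, 6, 12) is simple of order 95040 and sharply 5-transitive on points. -/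
theorem result {α : Type*} [Fintype α] [DecidableEq α] (hα : Fintype.card α = 12) {B : Set (Finset α)} (hB : Cfsg.IsSteinerSystem 5 6 B) : Cfsg.IsM12 (Cfsg.setSystemAut B) ∧ MulAction.IsMultiplyPretransitive (Cfsg.setSystemAut B) α 5 ∧ ∀ x : Fin 5 ↪ α, MulAction.stabilizer (Cfsg.setSystemAut B) x = ⊥ := by
  have h1 : MulAction.IsMultiplyPretransitive (Cfsg.setSystemAut B) α 5 :=
    isMultiplyPretransitive par tree (by decide) (by decide) (by decide) (by rfl) check_eq covers_eq hα hB
  have h2 : ∀ x : Fin 5 ↪ α, MulAction.stabilizer (Cfsg.setSystemAut B) x = ⊥ :=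
    stabilizer_eq_bot par tree (by decide) (by decide) (by decide) (by rfl) check_eq covers_eq std_lt search_eq hα hB
  exact ⟨H9.Sharp.isM12_of_sharp hα _ h2, h1, h2⟩

end Cfsg.Agent.S0425
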