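import Cfsg.Statements.S0429
import Cfsg.Agent.Lib.H86.SRG77D
import Cfsg.Agent.S0410

set_option autoImplicit false
open Cfsg

namespace Cfsg.Agent.S0429

/-- Uniqueness of the strongly regular graph with parameters (77, 16, 0, 4). -/
theorem result {V W : Type*} [Fintype V] [Fintype W] {G : SimpleGraph V} {H : SimpleGraph W} [DecidableRel G.Adj] [DecidableRel H.Adj] (hG : G.IsSRGWith 77 16 0 4) (hH : H.IsSRGWith 77 16 0 4) : Nonempty (G ≃g H) := by
  classical
  have dG := H86.SRG77.dat_of_srg G hG
  have dH := H86.SRG77.dat_of_srg H hH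
  obtain ⟨e, he⟩ := Cfsg.Agent.S0410.result (H86.SRG77.card_Pt dG) (H86.SRG77.card_Pt dH)
    (H86.SRG77.steiner dG) (H86.SRG77.steiner dH)
  have h1 : ∀ v : V, ∃ w : W, H86.SRG77.blk H w = (H86.SRG77.blk G v).image e := by
    intro v
    have : (H86.SRG77.blk G v).image e ∈ (fun b : Finset (H86.SRG77.Pt G) => b.image e) '' (Set.range (H86.SRG77.blk G)) :=
      ⟨_, ⟨v, rfl⟩, rfl⟩
    rw [he] at this
    exact this
  choose f hf using h1
  have hinj : Function.Injective f := by
    intro v v' h
    have h2 : (H86.SRG77.blk G v).image e = (H86.SRG77.blk G v').image e := by rw [← hf, ← hf, h]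
    exact H86.SRG77.blk_inj dG (Finset.image_injective e.injective h2)
  have hbij : Function.Bijective f := by
    rw [Fintype.bijective_iff_injective_and_card]
    exact ⟨hinj, by rw [dG.card, dH.card]⟩
  refine ⟨⟨Equiv.ofBijective f hbij, ?_⟩⟩
  intro v w
  rw [Equiv.ofBijective_apply, Equiv.ofBijective_apply, H86.SRG77.blk_disj dH, H86.SRG77.blk_disj dG, hf, hf,
    Finset.disjoint_image e.injective]

end Cfsg.Agent.S0429
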