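import Cfsg.Statements.S0434
import Cfsg.Agent.Lib.H94.M11Syl3

set_option autoImplicit false
open Cfsg

namespace Cfsg.Agent.S0434

/-- Sylow 3-normalisers in a simple group of order 7920 have order 144 (so there are 55 Sylow 3-subgroups). -/
theorem result {G : Type*} [Group G] [Finite G] (hG : Cfsg.IsM11 G) (P : Sylow 3 G) : Nat.card (Subgroup.normalizer ((P : Subgroup G) : Set G)) = 144 := by
  obtain ⟨hs, hc⟩ := hG
  exact (H94.M11.syl3_main hc P).1

end Cfsg.Agent.S0434
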