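import Cfsg.Statements.S0439

set_option autoImplicit false
open Cfsg

namespace Cfsg.Agent.S0439

open Equiv Equiv.Perm

theorem swap_mul_swap {α : Type*} [DecidableEq α] {a b c d : α} (hab : a ≠ b) (hcd : c ≠ d) :
    (swap a b * swap c d) ^ 2 = 1 ∨ (swap a b * swap c d) ^ 3 = 1 := by
  have key : ∀ x y z : α, x ≠ y → x ≠ z → (swap x y * swap x z) ^ 2 = 1 ∨ (swap x y * swap x z) ^ 3 = 1 := by
    intro x y z hxy hxz
    by_cases hyz : y = z
    · left; subst hyz; simp
    · right
      ext1 w
      simp only [pow_succ, pow_zero, one_mul, Perm.mul_apply, Perm.one_apply]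
      by_cases hwx : w = x
      · subst hwx
        simp [swap_apply_of_ne_of_ne, Ne.symm hxy, Ne.symm hxz, hyz, Ne.symm hyz]
      · by_cases hwy : w = y
        · subst hwy
          simp [swap_apply_of_ne_of_ne, Ne.symm hxy, Ne.symm hxz, hyz, Ne.symm hyz]
        · by_cases hwz : w = z
          · subst hwz
            simp [swap_apply_of_ne_of_ne, Ne.symm hxy, Ne.symm hxz, hyz, Ne.symm hyz]
          · simp [swap_apply_of_ne_of_ne, hwx, hwy, hwz]
  by_cases hac : a = c
  · subst hac; exact key a b d hab hcd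
  by_cases had : a = d
  · subst had; rw [swap_comm c a]; exact key a b c hab hac
  by_cases hbc : b = c
  · subst hbc; rw [swap_comm a b]; exact key b a d hab.symm hcd
  by_cases hbd : b = d
  · subst hbd; rw [swap_comm a b, swap_comm c b]; exact key b a c hab.symm hbc
  left
  have : Disjoint (swap a b) (swap c d) := by
    intro x
    by_cases hxa : x = a
    · right; subst hxa; exact swap_apply_of_ne_of_ne hac had
    · by_cases hxb : x = b
      · right; subst hxb; exact swap_apply_of_ne_of_ne hbc hbd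
      · left; exact swap_apply_of_ne_of_ne hxa hxb
  rw [this.commute.mul_pow, pow_two, pow_two, swap_mul_self, swap_mul_self, one_mul]

/-- In the symmetric group of degree n ≥ 2, the set of transpositions is a conjugacy class of 3-transpositions which generates the group. -/
theorem result (n : ℕ) (hn : 2 ≤ n) : Cfsg.IsThreeTranspositionClass {σ : Equiv.Perm (Fin n) | σ.IsSwap} := by
  refine ⟨⟨?_, ?_⟩, ?_, ?_⟩
  · rintro d ⟨x, y, hxy, rfl⟩
    exact orderOf_eq_prime (by rw [pow_two, swap_mul_self]) (by rwa [Ne, swap_eq_one_iff])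
  · rintro d ⟨x, y, hxy, rfl⟩ e ⟨z, w, hzw, rfl⟩
    exact swap_mul_swap hxy hzw
  · obtain ⟨m, rfl⟩ : ∃ m, n = m + 2 := ⟨n - 2, by omega⟩
    have h01 : (0 : Fin (m + 2)) ≠ 1 := by simp
    refine ⟨swap 0 1, ⟨0, 1, h01, rfl⟩, ?_⟩
    ext σ
    show σ.IsSwap ↔ IsConj (swap 0 1) σ
    constructor
    · rintro ⟨x, y, hxy, rfl⟩
      exact isConj_swap h01 hxy
    · intro h
      obtain ⟨c, hc⟩ := isConj_iff.1 h
      rw [← hc]
      refine ⟨c 0, c 1, c.injective.ne h01, ?_⟩
      rw [Equiv.swap_apply_apply]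
  · exact Equiv.Perm.closure_isSwap

end Cfsg.Agent.S0439
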