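import Cfsg.Statements.S0440
import Cfsg.Prelude.Def_ClassicalGeometry
import Cfsg.Agent.Lib.H16.Symp
import Cfsg.Agent.Lib.H16.SympTransv
import Cfsg.Agent.S0765
import Cfsg.Agent.S0766

set_option autoImplicit false
open Cfsg

namespace Cfsg.Agent.S0440

open H16.Symp H16.SympTransv Matrix

variable {n : ℕ}

abbrev Mat (n : ℕ) := Matrix (Fin n ⊕ Fin n) (Fin n ⊕ Fin n) (ZMod 2)

theorem f2_cases : ∀ a : ZMod 2, a = 0 ∨ a = 1 := by decide

theorem coe_tv' (v : Fin n ⊕ Fin n → ZMod 2) (c : ZMod 2) :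
    ((tv v c : Matrix.symplecticGroup (Fin n) (ZMod 2)) : Matrix (Fin n ⊕ Fin n) (Fin n ⊕ Fin n) (ZMod 2)) = sympTransvection n v c := coe_tv v c

theorem tv_ne_one {v : Fin n ⊕ Fin n → ZMod 2} (hv : v ≠ 0) : tv v (1 : ZMod 2) ≠ 1 := by
  intro h
  have h1 : ∀ x, sympTransvection n v (1 : ZMod 2) *ᵥ x = x := by
    intro x
    rw [← coe_tv' v 1, h]
    simp
  have h2 : ∀ x, sympForm n (ZMod 2) x v = 0 := by
    intro x
    have := h1 x
    rw [sympTransvection_mulVec, one_mul, add_eq_left] at this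
    rcases smul_eq_zero.1 this with h3 | h3
    · exact h3
    · exact absurd h3 hv
  exact hv (eq_zero_of_forall_sympForm_left h2)

theorem tv_zero (v : Fin n ⊕ Fin n → ZMod 2) : tv v (0 : ZMod 2) = 1 := by
  apply Subtype.ext
  rw [coe_tv']
  apply mulVec_ext
  intro x
  rw [sympTransvection_mulVec]
  simp

theorem tv_zero' (c : ZMod 2) : tv (0 : Fin n ⊕ Fin n → ZMod 2) c = 1 := by
  apply Subtype.ext
  rw [coe_tv']
  apply mulVec_ext
  intro x
  rw [sympTransvection_mulVec]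
  simp

theorem tv_sq (v : Fin n ⊕ Fin n → ZMod 2) : tv v (1 : ZMod 2) * tv v 1 = 1 := by
  have : tv v (1 : ZMod 2) * tv v 1 = tv v (1 + 1) := by
    apply Subtype.ext
    show (tv v (1 : ZMod 2) : Mat n) * (tv v (1 : ZMod 2) : Mat n) = _
    rw [coe_tv', coe_tv', sympTransvection_mul]
  rw [this, show (1 + 1 : ZMod 2) = 0 by decide, tv_zero]

theorem orderOf_tv {v : Fin n ⊕ Fin n → ZMod 2} (hv : v ≠ 0) : orderOf (tv v (1 : ZMod 2)) = 2 :=
  orderOf_eq_prime (by rw [pow_two, tv_sq]) (tv_ne_one hv)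

theorem conj_tv (A : Matrix.symplecticGroup (Fin n) (ZMod 2)) (v : Fin n ⊕ Fin n → ZMod 2) :
    A * tv v (1 : ZMod 2) = tv ((A : Mat n) *ᵥ v) 1 * A := by
  apply Subtype.ext
  show (A : Mat n) * (tv v (1 : ZMod 2) : Mat n) = (tv ((A : Mat n) *ᵥ v) (1 : ZMod 2) : Mat n) * (A : Mat n)
  rw [coe_tv', coe_tv', mul_sympTransvection _ A.2]

/-- the elements with `g - 1` of rank one are the transvections -/
theorem rank_one_iff (g : Matrix.symplecticGroup (Fin n) (ZMod 2)) :
    ((g : Matrix (Fin n ⊕ Fin n) (Fin n ⊕ Fin n) (ZMod 2)) - 1).rank = 1 ↔ ∃ v, v ≠ 0 ∧ g = tv v (1 : ZMod 2) := by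
  constructor
  · intro h
    unfold Matrix.rank at h
    rw [finrank_eq_one_iff'] at h
    obtain ⟨⟨a, ⟨y0, hy0⟩⟩, ha0, ha⟩ := h
    have ha1 : a ≠ 0 := fun h => ha0 (Subtype.ext h)
    have hc : ∀ x, ∃ c : ZMod 2, (g : Mat n) *ᵥ x = x + c • a := by
      intro x
      obtain ⟨c, hc⟩ := ha ⟨_, ⟨x, rfl⟩⟩
      refine ⟨c, ?_⟩
      have h1 : c • a = ((g : Mat n) - 1) *ᵥ x := congrArg Subtype.val hc
      rw [h1, sub_mulVec, one_mulVec]; abel
    have hg := (mem_symplecticGroup_iff (g : Mat n)).1 g.2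
    have hy0' : (g : Mat n) *ᵥ y0 = y0 + a := by
      have : ((g : Mat n) - 1) *ᵥ y0 = a := hy0
      rw [sub_mulVec, one_mulVec] at this
      rw [← this]; abel
    have key : ∀ x c, (g : Mat n) *ᵥ x = x + c • a →
        sympForm n (ZMod 2) x a = c * sympForm n (ZMod 2) y0 a := by
      intro x c hx
      have h1 := hg x y0
      rw [hx, hy0', sympForm_add_left, sympForm_add_right, sympForm_add_right, sympForm_smul_left, sympForm_smul_left,
        sympForm_self, sympForm_swap a y0] at h1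
      revert h1
      generalize sympForm n (ZMod 2) x y0 = p
      generalize sympForm n (ZMod 2) x a = q
      generalize sympForm n (ZMod 2) y0 a = r
      intro h1
      linear_combination h1
    have hy1 : sympForm n (ZMod 2) y0 a = 1 := by
      rcases f2_cases (sympForm n (ZMod 2) y0 a) with h0 | h0
      · exfalso
        apply ha1
        apply eq_zero_of_forall_sympForm_left
        intro x
        obtain ⟨c, hc⟩ := hc x
        rw [key x c hc, h0, mul_zero]
      · exact h0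
    refine ⟨a, ha1, Subtype.ext ?_⟩
    rw [coe_tv']
    apply mulVec_ext
    intro x
    obtain ⟨c, hc⟩ := hc x
    rw [sympTransvection_mulVec, hc, key x c hc, hy1, one_mul, mul_one]
  · rintro ⟨v, hv, rfl⟩
    rw [coe_tv']
    unfold Matrix.rank
    rw [finrank_eq_one_iff']
    have hmul : ∀ x, (sympTransvection n v (1 : ZMod 2) - 1) *ᵥ x = sympForm n (ZMod 2) x v • v := by
      intro x
      rw [sub_mulVec, sympTransvection_mulVec, one_mulVec, one_mul]; abel
    obtain ⟨y, hy⟩ : ∃ y, sympForm n (ZMod 2) y v = 1 := by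
      by_contra hcon
      push Not at hcon
      apply hv
      apply eq_zero_of_forall_sympForm_left
      intro x
      exact (f2_cases _).resolve_right (hcon x)
    refine ⟨⟨v, ⟨y, ?_⟩⟩, ?_, ?_⟩
    · show (sympTransvection n v (1 : ZMod 2) - 1) *ᵥ y = v
      rw [hmul, hy, one_smul]
    · intro h; exact hv (congrArg Subtype.val h)
    · rintro ⟨_, ⟨x, rfl⟩⟩
      refine ⟨sympForm n (ZMod 2) x v, Subtype.ext ?_⟩
      exact (hmul x).symm

/-- In the symplectic group in dimension 2n ≥ 2 over the field with two elements, the elements g for which g - 1 has rank one (the symplectic transvections) form a conjugacy class of 3-transpositions generating the group. -/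
theorem result (n : ℕ) (hn : 1 ≤ n) : Cfsg.IsThreeTranspositionClass {g : Matrix.symplecticGroup (Fin n) (ZMod 2) | ((g : Matrix (Fin n ⊕ Fin n) (Fin n ⊕ Fin n) (ZMod 2)) - 1).rank = 1} := by
  have hset : {g : Matrix.symplecticGroup (Fin n) (ZMod 2) | ((g : Matrix (Fin n ⊕ Fin n) (Fin n ⊕ Fin n) (ZMod 2)) - 1).rank = 1} =
      {g | ∃ v, v ≠ 0 ∧ g = tv v (1 : ZMod 2)} := by
    ext g; exact rank_one_iff g
  rw [hset]
  have hpair : ∀ u : Fin n ⊕ Fin n → ZMod 2, u ≠ 0 → ∃ v, sympForm n (ZMod 2) u v = 1 := by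
    intro u hu
    by_contra hcon
    push Not at hcon
    apply hu
    apply eq_zero_of_forall_sympForm_right
    intro x
    exact (f2_cases _).resolve_right (hcon x)
  refine ⟨⟨?_, ?_⟩, ?_, ?_⟩
  · rintro d ⟨v, hv, rfl⟩
    exact orderOf_tv hv
  · rintro d ⟨u, hu, rfl⟩ e ⟨v, hv, rfl⟩
    rcases f2_cases (sympForm n (ZMod 2) v u) with h | h
    · left
      have hc : Commute (tv u (1 : ZMod 2)) (tv v 1) := by
        show tv u (1 : ZMod 2) * tv v 1 = tv v 1 * tv u (1 : ZMod 2)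
        rw [conj_tv, coe_tv', sympTransvection_mulVec, h]
        simp
      rw [hc.mul_pow, pow_two, pow_two, tv_sq, tv_sq, one_mul]
    · right
      have hvu : sympForm n (ZMod 2) u v = 1 := by
        rw [sympForm_swap, h]; decide
      have h1 : tv u (1 : ZMod 2) * tv v 1 * tv u (1 : ZMod 2) = tv (v + u) 1 := by
        rw [conj_tv (tv u 1) v, coe_tv', sympTransvection_mulVec, h, mul_assoc, tv_sq]
        simp
      have h2 : tv v (1 : ZMod 2) * tv u 1 * tv v (1 : ZMod 2) = tv (u + v) 1 := by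
        rw [conj_tv (tv v 1) u, coe_tv', sympTransvection_mulVec, hvu, mul_assoc, tv_sq]
        simp
      have h3 : (tv u (1 : ZMod 2) * tv v 1) ^ 3 = (tv u (1 : ZMod 2) * tv v 1 * tv u (1 : ZMod 2)) * (tv v (1 : ZMod 2) * tv u 1 * tv v (1 : ZMod 2)) := by
        simp only [pow_succ, pow_zero, one_mul, mul_assoc]
      rw [h3, h1, h2, add_comm u v, tv_sq]
  · have h0 : (Pi.single (Sum.inl ⟨0, hn⟩) 1 : Fin n ⊕ Fin n → ZMod 2) ≠ 0 := by
      intro h
      have := congrFun h (Sum.inl ⟨0, hn⟩)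
      simp at this
    refine ⟨tv (Pi.single (Sum.inl ⟨0, hn⟩) 1) 1, ⟨_, h0, rfl⟩, ?_⟩
    ext g
    show (∃ v, v ≠ 0 ∧ g = tv v (1 : ZMod 2)) ↔ IsConj _ g
    rw [isConj_iff]
    constructor
    · rintro ⟨v, hv, rfl⟩
      obtain ⟨w, hw⟩ := hpair _ h0
      obtain ⟨w', hw'⟩ := hpair _ hv
      obtain ⟨A, -, hA, -⟩ := S0766.result n _ w v w' hw hw'
      refine ⟨A, ?_⟩
      have hA' : (A : Mat n) *ᵥ (Pi.single (Sum.inl ⟨0, hn⟩) 1 : Fin n ⊕ Fin n → ZMod 2) = v := hA
      rw [conj_tv, hA', mul_inv_cancel_right]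
    · rintro ⟨A, hA⟩
      refine ⟨(A : Mat n) *ᵥ (Pi.single (Sum.inl ⟨0, hn⟩) 1 : Fin n ⊕ Fin n → ZMod 2), ?_, ?_⟩
      · intro hz
        rw [conj_tv, hz, tv_zero', one_mul, mul_inv_cancel] at hA
        have h5 := conj_tv A (Pi.single (Sum.inl ⟨0, hn⟩) 1)
        rw [hz, tv_zero', one_mul] at h5
        exact tv_ne_one h0 (mul_eq_left.1 h5)
      · rw [conj_tv, mul_inv_cancel_right] at hA
        exact hA.symm
  · rw [eq_top_iff, ← S0765.result (F := ZMod 2) n, Subgroup.closure_le]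
    rintro A ⟨w, c, hA⟩
    have hA' : A = tv w c := Subtype.ext (by rw [coe_tv']; exact hA)
    rcases f2_cases c with hc | hc
    · rw [hA', hc, tv_zero]; exact one_mem _
    · by_cases hw : w = 0
      · rw [hA', hw, tv_zero']; exact one_mem _
      · apply Subgroup.subset_closure
        exact ⟨w, hw, by rw [hA', hc]⟩

end Cfsg.Agent.S0440
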