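import Cfsg.Statements.S0442
import Mathlib

set_option autoImplicit false
open Cfsg

namespace Cfsg.Agent.S0442

/-- in the dihedral situation: `a` inverts `a * b`. -/
theorem inv_conj {G : Type*} [Group G] {a b : G} (ha : a * a = 1) (hb : b * b = 1) (n : ℕ) :
    a * (a * b) ^ n * a⁻¹ = ((a * b) ^ n)⁻¹ := by
  have hai : a⁻¹ = a := inv_eq_of_mul_eq_one_left ha
  have hbi : b⁻¹ = b := inv_eq_of_mul_eq_one_left hb
  have h1 : a * (a * b) * a⁻¹ = (a * b)⁻¹ := by
    rw [mul_inv_rev, hai, hbi, ← mul_assoc, ha, one_mul]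
  rw [← inv_pow, ← h1, ← conj_pow]

/-- A standard trick for producing elements of an involution centraliser: for an involution a and an element g, let b be the conjugate g⁻¹ * a * g. If a * b has odd order 2m + 1 then g * (a * b) ^ m commutes with a; if a * b has even order 2m then (a * b) ^ m and (a * (g * a * g⁻¹)) ^ m commute with a. -/
theorem result {G : Type*} [Group G] (a g : G) (ha : orderOf a = 2) : (∀ m : ℕ, orderOf (a * (g⁻¹ * a * g)) = 2 * m + 1 → Commute (g * (a * (g⁻¹ * a * g)) ^ m) a) ∧ (∀ m : ℕ, orderOf (a * (g⁻¹ * a * g)) = 2 * m → Commute ((a * (g⁻¹ * a * g)) ^ m) a ∧ Commute ((a * (g * a * g⁻¹)) ^ m) a) := by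
  have ha2 : a * a = 1 := by
    have := pow_orderOf_eq_one a
    rwa [ha, pow_two] at this
  have hai : a⁻¹ = a := inv_eq_of_mul_eq_one_left ha2
  have key : ∀ b : G, b * b = 1 → ∀ m : ℕ, (a * b) ^ (2 * m) = 1 → Commute ((a * b) ^ m) a := by
    intro b hb m hm
    have h1 := inv_conj ha2 hb m
    have h2 : ((a * b) ^ m)⁻¹ = (a * b) ^ m := by
      apply inv_eq_of_mul_eq_one_left
      rw [← pow_add, ← two_mul, hm]
    rw [h2] at h1
    have h3 : a * (a * b) ^ m = (a * b) ^ m * a := by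
      conv_rhs => rw [← h1]
      group
    exact h3.symm
  refine ⟨fun m hm => ?_, fun m hm => ⟨?_, ?_⟩⟩
  · set b := g⁻¹ * a * g with hb
    have hb2 : b * b = 1 := by
      rw [hb]
      have : g⁻¹ * a * g * (g⁻¹ * a * g) = g⁻¹ * (a * a) * g := by group
      rw [this, ha2]; group
    have hbi : b⁻¹ = b := inv_eq_of_mul_eq_one_left hb2
    have hord : (a * b) ^ (2 * m + 1) = 1 := by rw [← hm]; exact pow_orderOf_eq_one _
    have h1 := inv_conj ha2 hb2 m
    -- want g * c^m * a = a * g * c^m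
    have h2 : a * g = g * b := by rw [hb]; group
    show g * (a * b) ^ m * a = a * (g * (a * b) ^ m)
    rw [← mul_assoc a g, h2, mul_assoc g, mul_assoc g]
    congr 1
    -- c^m a = b c^m
    have h4 : (a * b) ^ m * (a * b) * (a * b) ^ m = 1 := by
      rw [← pow_succ, ← pow_add, ← hord]; congr 1; omega
    have h5 : a * ((a * b) ^ m) = ((a * b) ^ m)⁻¹ * a := by
      rw [← h1]; group
    have h6 : (a * b) ^ m * a = a * ((a * b) ^ m)⁻¹ := by
      rw [← h1, hai]
      have : a * (a * (a * b) ^ m * a) = (a * a) * (a * b) ^ m * a := by group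
      rw [this, ha2, one_mul]
    rw [h6]
    have h7 : ((a * b) ^ m)⁻¹ = (a * b) * (a * b) ^ m := by
      rw [inv_eq_iff_mul_eq_one, ← mul_assoc]; exact h4
    rw [h7, ← mul_assoc, ← mul_assoc, ha2, one_mul]
  · have hb2 : (g⁻¹ * a * g) * (g⁻¹ * a * g) = 1 := by
      have : g⁻¹ * a * g * (g⁻¹ * a * g) = g⁻¹ * (a * a) * g := by group
      rw [this, ha2]; group
    apply key _ hb2 m
    rw [← hm]; exact pow_orderOf_eq_one _
  · have hb2 : (g * a * g⁻¹) * (g * a * g⁻¹) = 1 := by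
      have : g * a * g⁻¹ * (g * a * g⁻¹) = g * (a * a) * g⁻¹ := by group
      rw [this, ha2]; group
    apply key _ hb2 m
    -- a * g a g⁻¹ is conjugate to g⁻¹ a g a, inverse of a * (g⁻¹ a g)
    have h1 : a * (g * a * g⁻¹) = g * (a * (g⁻¹ * a * g))⁻¹ * g⁻¹ := by
      have : (a * (g⁻¹ * a * g))⁻¹ = g⁻¹ * a⁻¹ * g * a⁻¹ := by group
      rw [this, hai]; group
    rw [h1, conj_pow, inv_pow, ← hm, pow_orderOf_eq_one]; group

end Cfsg.Agent.S0442
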