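import Cfsg.Statements.S0443

set_option autoImplicit false
open Cfsg

namespace Cfsg.Agent.S0443

/-- Two definitions of a 2-central involution agree: an element t of order 2 of a finite group lies in the centre of some Sylow 2-subgroup if and only if its centraliser contains some Sylow 2-subgroup. -/
theorem result {G : Type*} [Group G] [Finite G] (t : G) (ht : orderOf t = 2) : Cfsg.IsTwoCentralInvolution t ↔ ∃ P : Sylow 2 G, (P : Subgroup G) ≤ Subgroup.centralizer ({t} : Set G) := by
  constructor
  · rintro ⟨-, P, htP, hP⟩
    refine ⟨P, fun x hx => ?_⟩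
    rw [Subgroup.mem_centralizer_singleton_iff]
    exact hP x hx
  · rintro ⟨P, hP⟩
    refine ⟨ht, P, ?_, fun x hx => Subgroup.mem_centralizer_singleton_iff.1 (hP hx)⟩
    -- the subgroup generated by P and t is a 2-group
    have hcomm : ∀ x ∈ P, x * t = t * x := fun x hx => Subgroup.mem_centralizer_singleton_iff.1 (hP hx)
    have hz : IsPGroup 2 (Subgroup.zpowers t) := by
      apply IsPGroup.of_card (n := 1)
      rw [Nat.card_zpowers, ht]; rfl
    have hnorm : Subgroup.zpowers t ≤ Subgroup.normalizer ((P : Subgroup G) : Set G) := by
      rw [Subgroup.zpowers_le, Subgroup.mem_normalizer_iff]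
      intro h
      constructor
      · intro hh
        have := hcomm h hh
        rw [← this, mul_inv_cancel_right]; exact hh
      · intro hh
        have := hcomm _ hh
        have h2 : t * h = t * (t * h * t⁻¹) := by
          rw [← this, inv_mul_cancel_right]
        have h3 : h = t * h * t⁻¹ := mul_left_cancel h2
        rw [h3]; exact hh
    have hsup : IsPGroup 2 ((P : Subgroup G) ⊔ Subgroup.zpowers t : Subgroup G) :=
      IsPGroup.to_sup_of_normal_left' P.isPGroup' hz hnorm
    have := P.is_maximal' hsup le_sup_left
    have htm : t ∈ ((P : Subgroup G) ⊔ Subgroup.zpowers t : Subgroup G) :=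
      (le_sup_right : _ ≤ (P : Subgroup G) ⊔ Subgroup.zpowers t) (Subgroup.mem_zpowers t)
    rw [this] at htm
    exact htm

end Cfsg.Agent.S0443
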