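import Cfsg.Statements.S0459
import Cfsg.Agent.Lib.H10.RuMain
import Cfsg.Agent.Lib.H10.PermReal

set_option autoImplicit false
open Cfsg

namespace Cfsg.Agent.S0459

/-- The Rudvalis group exists as a transitive permutation group of degree 4060: simple of order 145926144000, with point stabiliser of order 35942400 containing a simple subgroup of order 17971200 (the order of the Tits group). -/
theorem result : ∃ H : Subgroup (Equiv.Perm (Fin 4060)), Cfsg.IsRu H ∧ MulAction.IsPretransitive H (Fin 4060) ∧ Nat.card (MulAction.stabilizer H (0 : Fin 4060)) = 35942400 ∧ ∃ T : Subgroup (MulAction.stabilizer H (0 : Fin 4060)), Cfsg.IsTits T := by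
  have hle : H35.Net.stabs H10.Ru.Γ [4059] ≤ H10.Ru.Γ := fun g hg => (H10.RuKit.mem_stabs_fix hg).1
  obtain ⟨hT, hS, hG⟩ := H10.Ru.cards
  have := H10.Ru.simple_Γ
  have := H10.Ru.simple_T
  let S : Subgroup H10.Ru.Γ := (H35.Net.stabs H10.Ru.Γ [4059]).subgroupOf H10.Ru.Γ
  have hScard : Nat.card S = 35942400 := by
    rw [← hS]; exact Nat.card_congr (Subgroup.subgroupOfEquivOfLe hle).toEquiv
  have hidx : S.index = 4060 := by
    have h1 := Subgroup.card_mul_index S
    rw [hScard, hG, Nat.mul_comm 4060] at h1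
    exact Nat.eq_of_mul_eq_mul_left (by norm_num) h1
  have hne : S ≠ ⊤ := by
    intro h
    rw [h, Subgroup.index_top] at hidx
    norm_num at hidx
  obtain ⟨H, e, htr, hst⟩ := H10.PermReal.exists_perm S hidx hne
  obtain ⟨f⟩ := H10.PermReal.stabilizer_equiv e hst
  refine ⟨H, ⟨?_, ?_⟩, htr, ?_, ?_⟩
  · have : Nontrivial H := e.symm.toEquiv.nontrivial
    exact IsSimpleGroup.isSimpleGroup_of_surjective e.toMonoidHom e.surjective
  · rw [← Nat.card_congr e.toEquiv, hG]
  · rw [← Nat.card_congr f.toEquiv, hScard]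
  · let T1 : Subgroup H10.Ru.Γ := H10.Ru.T.subgroupOf H10.Ru.Γ
    have hT1 : T1 ≤ S := fun g hg => H10.Ru.T_le_S hg
    let e1 : H10.Ru.T ≃* T1 := (Subgroup.subgroupOfEquivOfLe H10.Ru.T_le).symm
    let e2 : T1 ≃* T1.subgroupOf S := (Subgroup.subgroupOfEquivOfLe hT1).symm
    let e3 := (T1.subgroupOf S).equivMapOfInjective f.toMonoidHom f.injective
    let e4 := (e1.trans e2).trans e3
    refine ⟨(T1.subgroupOf S).map f.toMonoidHom, ?_, ?_⟩
    · have := e4.symm.toEquiv.nontrivial
      exact IsSimpleGroup.isSimpleGroup_of_surjective e4.toMonoidHom e4.surjective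
    · rw [← Nat.card_congr e4.toEquiv, hT]

end Cfsg.Agent.S0459
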