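import Cfsg.Statements.S0463
import Cfsg.Agent.Lib.H10.HNFinal
import Cfsg.Agent.Lib.H9.HN.HNSimple

set_option autoImplicit false
open Cfsg

namespace Cfsg.Agent.S0463

/-- The Harada–Norton group exists as a transitive permutation group of degree 1140000: simple of order 273030912000000 with point stabiliser isomorphic to the alternating group of degree 12. -/
theorem result : ∃ H : Subgroup (Equiv.Perm (Fin 1140000)), Cfsg.IsHN H ∧ MulAction.IsPretransitive H (Fin 1140000) ∧ Nonempty (MulAction.stabilizer H (0 : Fin 1140000) ≃* alternatingGroup (Fin 12)) := by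
  exact H10.HNF.s0463 H9.HN.Simple.simple H9.HN.Faith.card_HN

end Cfsg.Agent.S0463
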