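import Cfsg.Statements.S0481

set_option autoImplicit false
open Cfsg

namespace Cfsg.Agent.S0481

open scoped Pointwise

/-- a `p`-element normalizing (here: centralizing) a Sylow subgroup lies in it -/
theorem mem_of_sylow_le_centralizer {G : Type*} [Group G] {t : G} (ht : orderOf t = 2) (P : Sylow 2 G)
    (hP : (P : Subgroup G) ≤ Subgroup.centralizer ({t} : Set G)) : t ∈ P := by
  have hcomm : ∀ x ∈ P, x * t = t * x := fun x hx => Subgroup.mem_centralizer_singleton_iff.1 (hP hx)
  have hz : IsPGroup 2 (Subgroup.zpowers t) := by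
    apply IsPGroup.of_card (n := 1)
    rw [Nat.card_zpowers, ht]; rfl
  have hnorm : Subgroup.zpowers t ≤ Subgroup.normalizer ((P : Subgroup G) : Set G) := by
    rw [Subgroup.zpowers_le, Subgroup.mem_normalizer_iff]
    intro h
    constructor
    · intro hh
      have := hcomm h hh
      rw [← this, mul_inv_cancel_right]; exact hh
    · intro hh
      have := hcomm _ hh
      have h2 : t * h = t * (t * h * t⁻¹) := by
        rw [← this, inv_mul_cancel_right]
      have h3 : h = t * h * t⁻¹ := mul_left_cancel h2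
      rw [h3]; exact hh
  have hsup : IsPGroup 2 ((P : Subgroup G) ⊔ Subgroup.zpowers t : Subgroup G) :=
    IsPGroup.to_sup_of_normal_left' P.isPGroup' hz hnorm
  have := P.is_maximal' hsup le_sup_left
  have htm : t ∈ ((P : Subgroup G) ⊔ Subgroup.zpowers t : Subgroup G) :=
    (le_sup_right : _ ≤ (P : Subgroup G) ⊔ Subgroup.zpowers t) (Subgroup.mem_zpowers t)
  rw [this] at htm
  exact htm

/-- Large extraspecial subgroups: let z be an involution of a finite group G whose centraliser C contains a normal 2-subgroup Q with centre of order 2 and all squares central, such that every element of G centralising Q lies in Q. Then C contains a Sylow 2-subgroup of G, and any involution of G whose centraliser contains a Sylow 2-subgroup of G is conjugate to z. -/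
theorem result {G : Type*} [Group G] [Finite G] (z : G) (hz : orderOf z = 2) (Q : Subgroup G) (hQC : Q ≤ Subgroup.centralizer ({z} : Set G)) (hQn : ∀ g ∈ Subgroup.centralizer ({z} : Set G), ∀ q ∈ Q, g * q * g⁻¹ ∈ Q) (hQ2 : IsPGroup 2 Q) (hZ : Nat.card (Subgroup.center Q) = 2) (hsq : ∀ x : Q, x ^ 2 ∈ Subgroup.center Q) (hlarge : Subgroup.centralizer (Q : Set G) ≤ Q) : (∃ P : Sylow 2 G, (P : Subgroup G) ≤ Subgroup.centralizer ({z} : Set G)) ∧ ∀ u : G, orderOf u = 2 → (∃ P : Sylow 2 G, (P : Subgroup G) ≤ Subgroup.centralizer ({u} : Set G)) → IsConj z u := by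
  -- z ∈ Q and z generates the centre of Q
  have hzQ : z ∈ Q := by
    apply hlarge
    rw [Subgroup.mem_centralizer_iff]
    intro h hh
    exact Subgroup.mem_centralizer_singleton_iff.1 (hQC hh)
  have hcen : ∀ w : G, w ∈ Subgroup.centralizer (Q : Set G) → w ≠ 1 → w = z := by
    intro w hw hw1
    have hwQ := hlarge hw
    have hwc : (⟨w, hwQ⟩ : Q) ∈ Subgroup.center Q := by
      rw [Subgroup.mem_center_iff]
      rintro ⟨q, hq⟩
      exact Subtype.ext (Subgroup.mem_centralizer_iff.1 hw q hq)
    have hzc : (⟨z, hzQ⟩ : Q) ∈ Subgroup.center Q := by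
      rw [Subgroup.mem_center_iff]
      rintro ⟨q, hq⟩
      exact Subtype.ext (Subgroup.mem_centralizer_singleton_iff.1 (hQC hq))
    have hz1 : z ≠ 1 := by
      rintro rfl; simp at hz
    by_contra hne
    -- three distinct elements in a group of order 2
    have hcard : 3 ≤ Nat.card (Subgroup.center Q) := by
      classical
      have hfin : Fintype (Subgroup.center Q) := Fintype.ofFinite _
      rw [Nat.card_eq_fintype_card]
      let s : Finset (Subgroup.center Q) := {1, ⟨⟨w, hwQ⟩, hwc⟩, ⟨⟨z, hzQ⟩, hzc⟩}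
      have hs : s.card = 3 := by
        apply Finset.card_eq_three.2
        refine ⟨1, ⟨⟨w, hwQ⟩, hwc⟩, ⟨⟨z, hzQ⟩, hzc⟩, ?_, ?_, ?_, rfl⟩
        · intro h; apply hw1; exact (congrArg (fun x : Subgroup.center Q => ((x : Q) : G)) h).symm
        · intro h; apply hz1; exact (congrArg (fun x : Subgroup.center Q => ((x : Q) : G)) h).symm
        · intro h; apply hne; exact (congrArg (fun x : Subgroup.center Q => ((x : Q) : G)) h)
      rw [← hs]; exact Finset.card_le_univ s
    omega
  -- a Sylow 2-subgroup containing Q centralizes an involution of Z(P) ≤ C(Q) = ⟨z⟩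
  have key : ∀ P : Sylow 2 G, Q ≤ P → (P : Subgroup G) ≤ Subgroup.centralizer ({z} : Set G) := by
    intro P hQP
    have hP : IsPGroup 2 (P : Subgroup G) := P.isPGroup'
    have hPnt : Nontrivial (P : Subgroup G) := by
      refine ⟨⟨⟨z, hQP hzQ⟩, 1, ?_⟩⟩
      intro h
      have : z = 1 := congrArg Subtype.val h
      rw [this] at hz; simp at hz
    have hcnt : Nontrivial (Subgroup.center (P : Subgroup G)) := hP.center_nontrivial
    obtain ⟨⟨⟨w, hwP⟩, hwc⟩, hw1⟩ := exists_ne (1 : Subgroup.center (P : Subgroup G))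
    have hwall : ∀ x ∈ (P : Subgroup G), x * w = w * x := by
      intro x hx
      exact congrArg Subtype.val (Subgroup.mem_center_iff.1 hwc ⟨x, hx⟩)
    have hwne : w ≠ 1 := by
      rintro rfl
      apply hw1
      rfl
    have : w = z := by
      apply hcen w _ hwne
      rw [Subgroup.mem_centralizer_iff]
      intro h hh
      exact hwall h (hQP hh)
    intro x hx
    rw [Subgroup.mem_centralizer_singleton_iff, ← this]
    exact hwall x hx
  obtain ⟨P, hQP⟩ := hQ2.exists_le_sylow
  have hP := key P hQP
  refine ⟨⟨P, hP⟩, ?_⟩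
  rintro u hu ⟨R, hR⟩
  -- conjugate so that R becomes P
  obtain ⟨g, hg⟩ := MulAction.exists_smul_eq G R P
  have hv : (P : Subgroup G) ≤ Subgroup.centralizer ({g * u * g⁻¹} : Set G) := by
    intro x hx
    rw [← hg] at hx
    have hx' : g⁻¹ * x * g ∈ (R : Subgroup G) := by
      have h1 : x ∈ MulAut.conj g • (R : Subgroup G) := hx
      rw [Subgroup.mem_pointwise_smul_iff_inv_smul_mem] at h1
      simpa [MulAut.smul_def] using h1
    have h2 := Subgroup.mem_centralizer_singleton_iff.1 (hR hx')
    rw [Subgroup.mem_centralizer_singleton_iff]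
    calc x * (g * u * g⁻¹) = g * (g⁻¹ * x * g * u) * g⁻¹ := by group
      _ = g * (u * (g⁻¹ * x * g)) * g⁻¹ := by rw [h2]
      _ = g * u * g⁻¹ * x := by group
  have hvo : orderOf (g * u * g⁻¹) = 2 := by
    rw [← hu]
    refine (SemiconjBy.orderOf_eq g ?_).symm
    show g * u = g * u * g⁻¹ * g
    group
  have hv1 : g * u * g⁻¹ ≠ 1 := by
    intro h; rw [h] at hvo; simp at hvo
  have : g * u * g⁻¹ = z := by
    apply hcen _ _ hv1
    rw [Subgroup.mem_centralizer_iff]
    intro h hh
    exact Subgroup.mem_centralizer_singleton_iff.1 (hv (hQP hh))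
  exact (isConj_iff.2 ⟨g, this⟩ : IsConj u z).symm

end Cfsg.Agent.S0481
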