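import Cfsg.Statements.S0499
import Cfsg.Agent.S0071
import Cfsg.Agent.Lib.H11.PrimeAutPGroup

set_option autoImplicit false
open Cfsg

namespace Cfsg.Agent.S0499

/-- A non-abelian finite simple group of even order has order divisible by 12, 16 or 56. -/
theorem result {G : Type*} [Group G] [Finite G] [IsSimpleGroup G]
    (hG : ¬ IsMulCommutative G) (h2 : Even (Nat.card G)) :
    12 ∣ Nat.card G ∨ 16 ∣ Nat.card G ∨ 56 ∣ Nat.card G := by
  classical
  by_contra hcon
  push Not at hcon
  obtain ⟨h12, h16, h56⟩ := hcon
  have h2p : Nat.Prime 2 := Nat.prime_two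
  have := Fact.mk h2p
  obtain ⟨P⟩ : Nonempty (Sylow 2 G) := inferInstance
  have hfrob := (Cfsg.Agent.S0071.result P).mpr (by
    intro Q hQP g hg hgo
    by_contra hgc
    have hQ : IsPGroup 2 Q := P.2.to_le hQP
    obtain ⟨r, hr, hr2, hrg, k, hk1, hkQ, hrk⟩ :=
      H11.PrimeAutPGroup.exists_prime_of_normalizer h2p hQ hg hgo hgc
    have hrG : r ∣ Nat.card G := hrg.trans (orderOf_dvd_natCard g)
    have hkG : 2 ^ k ∣ Nat.card G := hkQ.trans (Subgroup.card_subgroup_dvd_card Q)
    have hk3 : k ≤ 3 := by
      by_contra hk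
      exact h16 ((pow_dvd_pow 2 (show 4 ≤ k by omega)).trans hkG)
    have hcop : ∀ j, Nat.Coprime (2 ^ j) r := fun j =>
      Nat.Coprime.pow_left _ ((Nat.coprime_primes h2p hr).mpr hr2.symm)
    have hmul : 2 ^ k * r ∣ Nat.card G := (hcop k).mul_dvd_of_dvd_of_dvd hkG hrG
    interval_cases k
    · exact hr.one_lt.ne' (Nat.dvd_one.mp (by simpa using hrk))
    · have : r = 3 := (Nat.prime_dvd_prime_iff_eq hr Nat.prime_three).mp (by simpa using hrk)
      subst this
      exact h12 (by simpa using hmul)
    · have : r = 7 := (Nat.prime_dvd_prime_iff_eq hr (by norm_num)).mp (by simpa using hrk)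
      subst this
      exact h56 (by simpa using hmul))
  obtain ⟨N, hN, hNP⟩ := hfrob
  rcases hN.eq_bot_or_eq_top with h | h
  · subst h
    have hPtop : (P : Subgroup G) = ⊤ := by
      have := hNP.sup_eq_top
      simpa using this
    have hpg : IsPGroup 2 G := by
      have := P.2
      intro g
      obtain ⟨k, hk⟩ := this ⟨g, hPtop ▸ Subgroup.mem_top g⟩
      exact ⟨k, congrArg Subtype.val hk⟩
    have hnil : Group.IsNilpotent G := hpg.isNilpotent
    have hcenter : Subgroup.center G = ⊤ := by
      rcases (inferInstance : (Subgroup.center G).Normal).eq_bot_or_eq_top with h | h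
      · exact absurd h (by
          have := hpg.bot_lt_center
          exact this.ne')
      · exact h
    apply hG
    constructor
    constructor
    intro a b
    exact (Subgroup.mem_center_iff.mp (hcenter ▸ Subgroup.mem_top b) a)
  · subst h
    have hbot : (P : Subgroup G) = ⊥ := by
      have := hNP.disjoint
      simpa using this
    have : 2 ∣ Nat.card P := P.dvd_card_of_dvd_card h2.two_dvd
    rw [hbot] at this
    simp at this

end Cfsg.Agent.S0499
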