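import Cfsg.Statements.S0493
import Cfsg.Agent.Lib.H30.SmallSimple
import Cfsg.Agent.S0499
import Cfsg.Agent.S0205

set_option autoImplicit false
open Cfsg

namespace Cfsg.Agent.S0493

/-- A finite simple group of order at most 100 that is not cyclic has order 60. -/
theorem result {G : Type*} [Group G] [Finite G] [IsSimpleGroup G]
    (hG : ¬ IsCyclic G) (h : Nat.card G ≤ 100) : Nat.card G = 60 := by
  have hnc : ¬ IsMulCommutative G := by
    intro hc
    apply hG
    let _ : CommGroup G := { ‹Group G› with mul_comm := hc.is_comm.comm }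
    exact isCyclic_of_prime_card (p := Nat.card G) (hp := ⟨IsSimpleGroup.prime_card⟩) rfl
  have heven : Even (Nat.card G) := by
    by_contra h
    rw [Nat.not_even_iff_odd] at h
    exact hnc (H30.SmallSimple.comm_of_solvable (Cfsg.Agent.S0205.result h))
  have key := Cfsg.Agent.S0499.result hnc heven
  have h84 : Nat.card G ≠ 84 := by
    intro h84
    have := H30.SmallSimple.of_twelve hnc 7 (by norm_num) (by rw [h84])
    norm_num at this
  have hpos : 0 < Nat.card G := Nat.card_pos
  have hpq : ∀ (p q a b : ℕ), p.Prime → q.Prime → Nat.card G ≠ p ^ a * q ^ b := by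
    intro p q a b hp hq h
    exact H30.SmallSimple.not_pq hnc p q hp hq a b h
  have p2 := Nat.prime_two
  have p3 := Nat.prime_three
  have p5 := Nat.prime_five
  have p7 : Nat.Prime 7 := by norm_num
  have c12 := hpq 2 3 2 1 p2 p3
  have c24 := hpq 2 3 3 1 p2 p3
  have c36 := hpq 2 3 2 2 p2 p3
  have c48 := hpq 2 3 4 1 p2 p3
  have c72 := hpq 2 3 3 2 p2 p3
  have c96 := hpq 2 3 5 1 p2 p3
  have c16 := hpq 2 3 4 0 p2 p3
  have c32 := hpq 2 3 5 0 p2 p3
  have c64 := hpq 2 3 6 0 p2 p3
  have c80 := hpq 2 5 4 1 p2 p5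
  have c56 := hpq 2 7 3 1 p2 p7
  norm_num at c12 c24 c36 c48 c72 c96 c16 c32 c64 c80 c56
  generalize Nat.card G = n at *
  rcases key with ⟨k, hk⟩ | ⟨k, hk⟩ | ⟨k, hk⟩
  · have : k ≤ 8 := by omega
    interval_cases k <;> omega
  · have : k ≤ 6 := by omega
    interval_cases k <;> omega
  · have : k ≤ 1 := by omega
    interval_cases k <;> omega

end Cfsg.Agent.S0493
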