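import Cfsg.Statements.S0505
import Cfsg.Agent.Lib.H26.SolvBal

set_option autoImplicit false
open Cfsg

namespace Cfsg.Agent.S0505

/-- Let G be a finite group of even order in which the centralizer of every involution is solvable and has trivial
core (no nontrivial normal subgroup of odd order). Then G is of characteristic 2 type. -/
theorem result {G : Type*} [Group G] [Finite G]
    (h2 : Even (Nat.card G))
    (hs : ∀ t : G, orderOf t = 2 → Group.IsSolvable (Subgroup.centralizer ({t} : Set G)))
    (hc : ∀ t : G, orderOf t = 2 → Cfsg.oddCore (Subgroup.centralizer ({t} : Set G)) = ⊥) :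
    Cfsg.IsCharacteristicTwoType G := by
  classical
  have h2p : Nat.Prime 2 := Nat.prime_two
  have := Fact.mk h2p
  refine ⟨h2, fun T hT hT1 => ?_⟩
  set N := Subgroup.normalizer (T : Set G) with hN
  have hTN : T ≤ N := Subgroup.le_normalizer
  -- an involution in `Z(T)`
  obtain ⟨t, htT, htZ, hto⟩ : ∃ t ∈ T, (∀ x ∈ T, x * t = t * x) ∧ orderOf t = 2 := by
    have hnt : Nontrivial T := (Subgroup.nontrivial_iff_ne_bot T).mpr hT1
    have hZ : Nontrivial (Subgroup.center T) := hT.center_nontrivial
    have hZp : IsPGroup 2 (Subgroup.center T) := hT.to_subgroup _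
    obtain ⟨n, hn⟩ := IsPGroup.iff_card.mp hZp
    have hn0 : n ≠ 0 := by
      rintro rfl
      have := (Finite.one_lt_card_iff_nontrivial (α := Subgroup.center T)).mpr hZ
      rw [hn] at this
      simp at this
    obtain ⟨z, hz⟩ := exists_prime_orderOf_dvd_card' (G := Subgroup.center T) 2 (by
      rw [hn]; exact dvd_pow_self 2 hn0)
    refine ⟨((z : T) : G), (z : T).2, ?_, ?_⟩
    · intro x hx
      have := Subgroup.mem_center_iff.mp z.2 ⟨x, hx⟩
      exact congrArg Subtype.val this
    · rw [Subgroup.orderOf_coe, Subgroup.orderOf_coe, hz]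
  set C := Subgroup.centralizer ({t} : Set G) with hC
  have hTC : T ≤ C := fun x hx => Subgroup.mem_centralizer_singleton_iff.mpr (htZ x hx)
  have hCTC : Subgroup.centralizer (T : Set G) ≤ C := by
    intro x hx
    exact Subgroup.mem_centralizer_singleton_iff.mpr (hx t htT).symm
  have hCTN : Subgroup.centralizer (T : Set G) ≤ N := Subgroup.centralizer_le_normalizer _
  have hCs : Group.IsSolvable C := hs t hto
  have hCC : Subgroup.centralizer (pCore 2 C : Set C) ≤ pCore 2 C :=
    H1.Solv.centralizer_pCore_le hCs 2 (hc t hto)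
  -- the odd core of `N` is trivial
  set K := pPrimeCore 2 N with hK
  have hKn : K.Normal := by
    have := H1.Cores.pPrimeCore_characteristic (G := N) 2
    exact Subgroup.normal_of_characteristic K
  have hKc : (Nat.card K).Coprime 2 := H1.Cores.coprime_card_pPrimeCore 2
  have hTNn : (T.subgroupOf N).Normal := Subgroup.normal_subgroupOf_of_le_normalizer le_rfl
  have hTNp : IsPGroup 2 (T.subgroupOf N) :=
    hT.of_injective (T.subgroupOfEquivOfLe hTN).toMonoidHom (T.subgroupOfEquivOfLe hTN).injective
  have hdisj : Disjoint K (T.subgroupOf N) := by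
    rw [disjoint_iff, inf_comm]
    exact H26.LocalFitting.inf_eq_bot_of_coprime hTNp hKc
  have hcomm : ∀ k ∈ K, ∀ x ∈ T.subgroupOf N, k * x = x * k := fun k hk x hx =>
    Subgroup.commute_of_normal_of_disjoint K _ hKn hTNn hdisj k x hk hx
  set KG := K.map N.subtype with hKG
  have hKGC : KG ≤ Subgroup.centralizer (T : Set G) := by
    rintro _ ⟨k, hk, rfl⟩
    rw [Subgroup.mem_centralizer_iff]
    intro x hx
    exact congrArg Subtype.val (hcomm k hk ⟨x, hTN hx⟩ hx).symm
  have hKGn : N ≤ Subgroup.normalizer (KG : Set G) := by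
    intro g hg
    rw [Subgroup.mem_normalizer_iff]
    have h1 : ∀ g ∈ N, ∀ x, x ∈ KG → g * x * g⁻¹ ∈ KG := by
      rintro g hg _ ⟨k, hk, rfl⟩
      exact ⟨⟨g, hg⟩ * k * ⟨g, hg⟩⁻¹, hKn.conj_mem k hk _, rfl⟩
    intro x
    refine ⟨h1 g hg x, fun h => ?_⟩
    have := h1 g⁻¹ (N.inv_mem hg) _ h
    simpa [mul_assoc] using this
  have hKGcard : (Nat.card KG).Coprime 2 := by
    rw [hKG, Subgroup.card_map_of_injective N.subtype_injective]
    exact hKc
  have hKGleC : KG ≤ C := hKGC.trans hCTC
  have hXbot : KG.subgroupOf C = ⊥ := by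
    refine H26.SolvBal.eq_bot_of_normal_in_centralizer (P := T.subgroupOf C) hCC ?_ ?_ ?_ ?_
    · exact hT.of_injective (T.subgroupOfEquivOfLe hTC).toMonoidHom (T.subgroupOfEquivOfLe hTC).injective
    · rw [Nat.card_congr (KG.subgroupOfEquivOfLe hKGleC).toEquiv]
      exact hKGcard
    · intro x hx
      rw [Subgroup.mem_centralizer_iff]
      intro y hy
      apply Subtype.ext
      exact hKGC hx y hy
    · intro x hx
      have hxT : (x : G) ∈ Subgroup.centralizer (T : Set G) := by
        rw [Subgroup.mem_centralizer_iff]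
        intro y hy
        exact congrArg Subtype.val (hx ⟨y, hTC hy⟩ hy)
      have hxN := hKGn (hCTN hxT)
      rw [Subgroup.mem_normalizer_iff] at hxN ⊢
      intro y
      exact hxN y
  have hKbot : K = ⊥ := by
    rw [Subgroup.subgroupOf_eq_bot] at hXbot
    have h1 : KG = ⊥ := by
      have := hXbot.eq_bot
      rwa [inf_eq_left.mpr hKGleC] at this
    rwa [hKG, Subgroup.map_eq_bot_iff_of_injective _ N.subtype_injective] at h1
  have hF : fittingSubgroup N = pCore 2 N := H1.Cores.fittingSubgroup_eq_pCore_of 2 hKbot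
  change Subgroup.centralizer (pCore 2 N : Set N) ≤ pCore 2 N
  rw [← hF]
  have hFn : (fittingSubgroup N).Normal := by
    have := H1.Cores.fittingSubgroup_characteristic (G := N)
    exact Subgroup.normal_of_characteristic _
  apply H26.GenFitting.le_fitting_of_isSolvable le_rfl
  · rw [Subgroup.normalizer_eq_top]
    exact le_top
  · have hTF : T.subgroupOf N ≤ fittingSubgroup N := by
      rw [hF]
      exact H1.Cores.le_pCore hTNn hTNp
    set D := Subgroup.centralizer (fittingSubgroup N : Set N) with hD
    have hDC : D.map N.subtype ≤ C := by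
      rintro _ ⟨d, hd, rfl⟩
      apply hCTC
      rw [Subgroup.mem_centralizer_iff]
      intro x hx
      exact congrArg Subtype.val (hd ⟨x, hTN hx⟩ (hTF hx))
    have h1 : Group.IsSolvable (D.map N.subtype) :=
      Group.isSolvable_of_isSolvable_injective (Subgroup.inclusion_injective hDC)
    exact Group.isSolvable_of_isSolvable_injective
      (f := (D.equivMapOfInjective N.subtype N.subtype_injective).toMonoidHom)
      (D.equivMapOfInjective N.subtype N.subtype_injective).injective

end Cfsg.Agent.S0505
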