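import Cfsg.Statements.S0518
import Cfsg.Agent.Lib.H55.ZN22

set_option autoImplicit false
open Cfsg

namespace Cfsg.Agent.S0518

/-- Let G be a finite group of characteristic 2 type with trivial 2-core in which every 2-local subgroup is solvable
and, for every Sylow 2-subgroup S, the centralizer of the set of central involutions of S lies in the normalizer of S.
Then either G has a strongly embedded subgroup, or the subgroup generated by the elements of odd order has two distinct
maximal 2-local subgroups, each isomorphic to the symmetric group of degree 4, whose intersection has order 8. -/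
theorem result {G : Type*} [Group G] [Finite G]
    (hL : Cfsg.IsCharacteristicTwoType G) (hO : Cfsg.pCore 2 G = ⊥)
    (hN : ∀ N : Subgroup G, Cfsg.IsTwoLocal N → Group.IsSolvable N)
    (hZ : ∀ S : Sylow 2 G,
      Subgroup.centralizer {z : G | z ∈ (S : Subgroup G) ∧ z ^ 2 = 1 ∧ ∀ s ∈ (S : Subgroup G), s * z = z * s} ≤
        Subgroup.normalizer ((S : Subgroup G) : Set G))
    (H : Subgroup G) (hH : H = Subgroup.closure {g : G | Odd (orderOf g)}) :
    (∃ K : Subgroup G, Cfsg.IsStronglyEmbedded K) ∨
      ∃ M₁ M₂ : Subgroup H, M₁ ≠ M₂ ∧ Cfsg.IsMaximalTwoLocal M₁ ∧ Cfsg.IsMaximalTwoLocal M₂ ∧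
        Nonempty (M₁ ≃* Equiv.Perm (Fin 4)) ∧ Nonempty (M₂ ≃* Equiv.Perm (Fin 4)) ∧ Nat.card ↥(M₁ ⊓ M₂) = 8 := by
  by_cases hK : ∃ K : Subgroup G, Cfsg.IsStronglyEmbedded K
  · exact Or.inl hK
  · right
    have hyp : H55.ZN.Hyp G := {
      ct := hL.2
      ev := hL.1
      O := hO
      sol := hN
      zz := by
        intro S hS x hx
        have hsy : ∃ P : Sylow 2 G, (P : Subgroup G) = S :=
          ⟨{ toSubgroup := S, isPGroup' := hS.2.1, is_maximal' := fun {Q} hQ hle =>
              le_antisymm (hS.2.2 Q hQ hle le_top) hle }, rfl⟩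
        obtain ⟨P, rfl⟩ := hsy
        apply hZ P
        rw [Subgroup.mem_centralizer_iff]
        rintro z ⟨hz, hz2, hzc⟩
        exact (hx z ⟨hz, by rw [← pow_two]; exact hz2, hzc⟩).symm
      nse := hK }
    exact H55.ZN.main hyp hH


end Cfsg.Agent.S0518
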