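import Cfsg.Statements.S0519
import Cfsg.Agent.Lib.H11.NormalRankOne
import Cfsg.Agent.Lib.H24.OddPGroup

set_option autoImplicit false
open Cfsg

namespace Cfsg.Agent.S0519

/-- Let P be a finite p-group in which every abelian normal subgroup is cyclic, but which has a non-cyclic abelian
subgroup. Then p = 2 and P is generalized quaternion, dihedral of order at least 16, or quasi-dihedral. -/
theorem result {P : Type*} [Group P] [Finite P] (p : ℕ) [Fact p.Prime]
    (hP : IsPGroup p P) (hn : ∀ A : Subgroup P, A.Normal → IsMulCommutative A → IsCyclic A)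
    (hm : ∃ B : Subgroup P, IsMulCommutative B ∧ ¬ IsCyclic B) :
    p = 2 ∧ ((∃ n : ℕ, Nonempty (P ≃* QuaternionGroup n)) ∨ (∃ n : ℕ, 8 ≤ n ∧ Nonempty (P ≃* DihedralGroup n)) ∨
      Cfsg.IsQuasiDihedral P) := by
  classical
  have hnc : ¬ IsCyclic P := by
    intro h
    obtain ⟨B, -, hB⟩ := hm
    exact hB inferInstance
  have hp2 : p = 2 := by
    by_contra hp2
    obtain ⟨A, hAn, hAc, hAp⟩ := H24.OddPGroup.exists_normal_elementary_sq hp2 hP hnc
    have hAcomm : IsMulCommutative A := IsPGroup.isMulCommutative_of_card_eq_prime_sq hAc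
    have hAcyc := hn A hAn hAcomm
    obtain ⟨g, hg⟩ := hAcyc.exists_generator
    have h1 : orderOf g = p ^ 2 := by
      rw [orderOf_eq_card_of_forall_mem_zpowers hg, hAc]
    have h2 : orderOf g ∣ p := orderOf_dvd_of_pow_eq_one (Subtype.ext (hAp g g.2))
    rw [h1] at h2
    have hp := (Fact.out : p.Prime)
    have h3 := Nat.le_of_dvd hp.pos h2
    nlinarith [hp.one_lt]
  subst hp2
  refine ⟨rfl, ?_⟩
  rcases H11.NormalRankOne.classification hP hnc hn with ⟨k, h⟩ | ⟨k, h⟩ | h
  · refine Or.inr (Or.inl ⟨2 ^ (k + 3), ?_, h⟩)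
    calc 8 = 2 ^ 3 := by norm_num
      _ ≤ 2 ^ (k + 3) := Nat.pow_le_pow_right (by norm_num) (by omega)
  · exact Or.inl ⟨_, h⟩
  · exact Or.inr (Or.inr h)

end Cfsg.Agent.S0519
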