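import Cfsg.Statements.S0521
import Cfsg.Agent.Lib.H11.PStabApp

set_option autoImplicit false
open Cfsg

namespace Cfsg.Agent.S0521

/-- Let X be a finite solvable group of odd order, p a prime and S a Sylow p-subgroup of X whose commutator subgroup is
cyclic. Then the product of the largest normal subgroup of X of order prime to p with S is a normal subgroup of X. -/
theorem result {X : Type*} [Group X] [Finite X] [Group.IsSolvable X]
    (hX : Odd (Nat.card X)) (p : ℕ) [Fact p.Prime] (S : Sylow p X) (hS : IsCyclic (commutator (S : Subgroup X))) :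
    (Cfsg.pPrimeCore p X ⊔ (S : Subgroup X)).Normal := by
  classical
  have hp : p.Prime := Fact.out
  set K := pPrimeCore p X with hK
  have hKn : K.Normal := by
    have := H1.Cores.pPrimeCore_characteristic (G := X) p
    exact Subgroup.normal_of_characteristic K
  set q := QuotientGroup.mk' K with hq
  have hqs : Function.Surjective q := QuotientGroup.mk'_surjective K
  suffices h : (S : Subgroup X).map q ≤ pCore p (X ⧸ K) by
    have h1 : (S : Subgroup X).map q = pCore p (X ⧸ K) := by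
      apply le_antisymm h
      exact H1.Cores.pCore_le_sylow (S.mapSurjective hqs)
    have h2 : K ⊔ (S : Subgroup X) = ((S : Subgroup X).map q).comap q := by
      rw [Subgroup.comap_map_eq, hq, QuotientGroup.ker_mk', sup_comm]
    rw [h2, h1]
    infer_instance
  by_cases hp2 : p = 2
  · subst hp2
    have h1 : (S : Subgroup X) = ⊥ := by
      rw [← Subgroup.card_eq_one]
      obtain ⟨n, hn⟩ := IsPGroup.iff_card.mp S.2
      have h2 : Odd (Nat.card S) := hX.of_dvd_nat (Subgroup.card_subgroup_dvd_card _)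
      rcases Nat.eq_zero_or_pos n with rfl | hn0
      · rw [hn, pow_zero]
      · rw [hn] at h2
        exact absurd h2 (by rw [Nat.not_odd_iff_even]; exact Nat.even_pow.mpr ⟨even_two, by omega⟩)
    rw [h1, Subgroup.map_bot]
    exact bot_le
  have hodd : Odd (Nat.card (X ⧸ K)) := hX.of_dvd_nat (Subgroup.card_quotient_dvd_card K)
  have hC : Subgroup.centralizer (pCore p (X ⧸ K) : Set (X ⧸ K)) ≤ pCore p (X ⧸ K) :=
    H1.Solv.centralizer_pCore_le inferInstance p (H1.Cores.pPrimeCore_quotient_pPrimeCore p)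
  rintro _ ⟨s, hs, rfl⟩
  apply H11.PStabApp.mem_pCore_of_quadratic hodd p hp2 hC
  intro n' hn'
  have hPT := H1.Cores.pCore_le_sylow (S.mapSurjective hqs) hn'
  obtain ⟨n, hn, rfl⟩ : n' ∈ (S : Subgroup X).map q := hPT
  obtain ⟨m, hm⟩ := H11.PStabApp.exists_zpow_modEq S.2 (commutator (S : Subgroup X)) ⟨s, hs⟩
  set c : X := s * n * s⁻¹ * n⁻¹ with hc
  have hcS : (⟨s, hs⟩ * ⟨n, hn⟩ * ⟨s, hs⟩⁻¹ * ⟨n, hn⟩⁻¹ : (S : Subgroup X)) ∈ commutator (S : Subgroup X) := by
    rw [commutator_def]
    exact Subgroup.commutator_mem_commutator (Subgroup.mem_top _) (Subgroup.mem_top _)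
  have h1 : s * c * s⁻¹ * c⁻¹ = (c ^ m) ^ p := congrArg Subtype.val (hm _ hcS)
  have hcP : q c ∈ pCore p (X ⧸ K) := by
    have h2 : q c = (q s * q n * (q s)⁻¹) * (q n)⁻¹ := by rw [hc]; simp
    rw [h2]
    apply mul_mem _ (inv_mem hn')
    exact (inferInstance : (pCore p (X ⧸ K)).Normal).conj_mem _ hn' _
  have h2 : q s * (q s * q n * (q s)⁻¹ * (q n)⁻¹) * (q s)⁻¹ * (q s * q n * (q s)⁻¹ * (q n)⁻¹)⁻¹ =
      ((q c) ^ m) ^ p := by
    rw [← map_zpow, ← map_pow, ← h1, hc]
    simp only [map_mul, map_inv]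
  rw [h2]
  refine ⟨⟨(q c) ^ m, zpow_mem hcP m⟩ ^ p, ?_, rfl⟩
  exact H1.Frat.pow_mem_frattini (H1.Cores.isPGroup_pCore p) _

end Cfsg.Agent.S0521
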