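import Cfsg.Statements.S0522
import Cfsg.Agent.Lib.H11.Transitivity2

set_option autoImplicit false
open Cfsg

namespace Cfsg.Agent.S0522

/-- Transitivity Theorem (odd-order setting). Let X be a finite group of odd order in which the normalizer of every
nontrivial p-subgroup is solvable, P a Sylow p-subgroup, and B an abelian subgroup of P, normalized by P, with
C_P(B) = B and containing an elementary abelian subgroup of order p^3. Then for every prime q ≠ p, any two q-subgroups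
that are maximal among the q-subgroups normalized by B are conjugate by an element of the centralizer of B. -/
theorem result {X : Type*} [Group X] [Finite X] (hX : Odd (Nat.card X)) (p : ℕ)
    [Fact p.Prime] (hloc : ∀ T : Subgroup X, IsPGroup p T → T ≠ ⊥ → Group.IsSolvable (Subgroup.normalizer (T : Set X)))
    (P : Sylow p X) (B : Subgroup X) (hBP : B ≤ (P : Subgroup X))
    (hBn : ∀ x ∈ (P : Subgroup X), ∀ b ∈ B, x * b * x⁻¹ ∈ B) (hBa : IsMulCommutative B)
    (hBc : (P : Subgroup X) ⊓ Subgroup.centralizer (B : Set X) = B)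
    (hB3 : ∃ E : Subgroup X, E ≤ B ∧ (∀ e ∈ E, e ^ p = 1) ∧ p ^ 3 ≤ Nat.card E)
    (q : ℕ) [Fact q.Prime] (hqp : q ≠ p) (Q₁ Q₂ : Subgroup X)
    (h₁ : IsPGroup q Q₁ ∧ B ≤ Subgroup.normalizer (Q₁ : Set X) ∧
      ∀ R : Subgroup X, IsPGroup q R → B ≤ Subgroup.normalizer (R : Set X) → Q₁ ≤ R → R = Q₁)
    (h₂ : IsPGroup q Q₂ ∧ B ≤ Subgroup.normalizer (Q₂ : Set X) ∧
      ∀ R : Subgroup X, IsPGroup q R → B ≤ Subgroup.normalizer (R : Set X) → Q₂ ≤ R → R = Q₂) :
    ∃ c ∈ Subgroup.centralizer (B : Set X), Q₂ = Q₁.map (MulAut.conj c).toMonoidHom := by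
  classical
  have hp : p.Prime := Fact.out
  have hcomm : ∀ a ∈ B, ∀ b ∈ B, a * b = b * a := fun a ha b hb =>
    congrArg Subtype.val (hBa.is_comm.comm ⟨a, ha⟩ ⟨b, hb⟩)
  have h : H11.Transitivity.Hyp p P B := by
    refine ⟨hX, hloc, hBP, ?_, hcomm, hBc.le⟩
    exact H1.Coprime.le_normalizer_of_conj_mem hBn
  obtain ⟨E, hEB, hE, hE3⟩ := hB3
  have hp2 : p ≠ 2 := by
    rintro rfl
    have h1 : IsPGroup 2 E := h.isPGroup.to_le hEB
    obtain ⟨n, hn⟩ := IsPGroup.iff_card.mp h1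
    have h2 : Odd (Nat.card E) := hX.of_dvd_nat (Subgroup.card_subgroup_dvd_card _)
    rcases Nat.eq_zero_or_pos n with rfl | hn0
    · rw [hn] at hE3
      norm_num at hE3
    · rw [hn] at h2
      exact absurd h2 (by rw [Nat.not_odd_iff_even]; exact Nat.even_pow.mpr ⟨even_two, by omega⟩)
  obtain ⟨c, hc, h1⟩ := H11.Transitivity.transitivity h hp2 E hEB hE hE3 hqp _ Q₁ Q₂ rfl h₁ h₂
  exact ⟨c, hc, h1⟩

end Cfsg.Agent.S0522
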