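import Cfsg.Statements.S0548
import Cfsg.Agent.Lib.H12.Corefree
import Cfsg.Agent.Lib.H12.MinNormal

set_option autoImplicit false
open Cfsg

namespace Cfsg.Agent.S0548

theorem result {G : Type*} [Group G] [Finite G] [Group.IsSolvable G] {Ω : Type*} [MulAction G Ω] [FaithfulSMul G Ω] (hprim : MulAction.IsPreprimitive G Ω) (M : Subgroup G) [M.Normal] (hM : M ≠ ⊥) (hmin : ∀ K : Subgroup G, K.Normal → K ≤ M → K = ⊥ ∨ K = M) (ω : Ω) : Subgroup.IsComplement' M (MulAction.stabilizer G ω) ∧ MulAction.stabilizer G ω ⊓ Subgroup.centralizer (M : Set G) = ⊥ ∧ ∀ K : Subgroup G, K ≤ M → MulAction.stabilizer G ω ≤ Subgroup.normalizer (K : Set G) → K = ⊥ ∨ K = M := by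
  have hnt : Nontrivial Ω := by
    by_contra h
    rw [not_nontrivial_iff_subsingleton] at h
    apply hM
    rw [eq_bot_iff]
    intro g _
    rw [Subgroup.mem_bot]
    apply FaithfulSMul.eq_of_smul_eq_smul (α := Ω)
    intro a
    exact Subsingleton.elim _ _
  have hU : IsCoatom (MulAction.stabilizer G ω) :=
    MulAction.IsPreprimitive.isCoatom_stabilizer_of_isPreprimitive (G := G) ω
  have hcore : (MulAction.stabilizer G ω).normalCore = ⊥ := by
    rw [eq_bot_iff]
    intro g hg
    rw [Subgroup.mem_bot]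
    apply FaithfulSMul.eq_of_smul_eq_smul (α := Ω)
    intro a
    obtain ⟨h, rfl⟩ := MulAction.exists_smul_eq G ω a
    have h1 : h⁻¹ * g * (h⁻¹)⁻¹ ∈ MulAction.stabilizer G ω := hg h⁻¹
    rw [MulAction.mem_stabilizer_iff, mul_smul, mul_smul, inv_inv, inv_smul_eq_iff] at h1
    rw [h1, one_smul]
  have hcomm := H12.MinNormal.comm_of_solvable (M := M) inferInstance hM hmin
  have hinf := H12.Corefree.inf_eq_bot_of_comm hU hcore (K := M) inferInstance hM hcomm
  refine ⟨H12.Corefree.isComplement' hU hcore inferInstance hM hinf, ?_, ?_⟩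
  · rw [inf_comm]
    exact H12.Corefree.centralizer_inf_eq_bot hU hcore inferInstance hM
  · intro K hK hn
    refine hmin K ?_ hK
    constructor
    intro x hx g
    obtain ⟨m, hm, u, hu, rfl⟩ := H12.Corefree.exists_mul hU hcore (K := M) inferInstance hM g
    have h1 : u * x * u⁻¹ ∈ K := (Subgroup.mem_normalizer_iff.mp (hn hu) x).mp hx
    have h2 : m * (u * x * u⁻¹) = (u * x * u⁻¹) * m :=
      (Subgroup.mem_centralizer_iff.mp (hcomm (hK h1)) m hm)
    have h4 : m * u * x * (m * u)⁻¹ = u * x * u⁻¹ := by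
      calc m * u * x * (m * u)⁻¹ = m * (u * x * u⁻¹) * m⁻¹ := by group
        _ = u * x * u⁻¹ := by rw [h2]; group
    rw [h4]; exact h1

end Cfsg.Agent.S0548
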