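import Cfsg.Statements.S0550
import Cfsg.Agent.Lib.H12.Corefree

set_option autoImplicit false
open Cfsg
open scoped commutatorElement

namespace Cfsg.Agent.S0550

/-- `(A ⊔ B) ⊓ U ≃ A` -/
theorem aux {G : Type*} [Group G] (U : Subgroup G)
    (A B : Subgroup G) (hA : A.Normal) (hB : B.Normal) (hAB : A ⊓ B = ⊥) (hBU : B ⊓ U = ⊥)
    (hBU' : ∀ g : G, ∃ b ∈ B, ∃ u ∈ U, b * u = g) :
    Nonempty (A ≃* ↥((A ⊔ B) ⊓ U)) := by
  -- both embed isomorphically in the quotient by B
  let f : A →* G ⧸ B := (QuotientGroup.mk' B).comp A.subtype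
  let g : ↥((A ⊔ B) ⊓ U) →* G ⧸ B := (QuotientGroup.mk' B).comp ((A ⊔ B) ⊓ U).subtype
  have hf : Function.Injective f := by
    rw [injective_iff_map_eq_one]
    intro a ha
    have h1 : (a : G) ∈ B := by
      have := (QuotientGroup.eq_one_iff (a : G)).mp ha
      exact this
    have h2 : (a : G) ∈ A ⊓ B := ⟨a.2, h1⟩
    rw [hAB, Subgroup.mem_bot] at h2
    exact Subtype.ext h2
  have hg : Function.Injective g := by
    rw [injective_iff_map_eq_one]
    intro a ha
    have h1 : (a : G) ∈ B := by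
      have := (QuotientGroup.eq_one_iff (a : G)).mp ha
      exact this
    have h2 : (a : G) ∈ B ⊓ U := ⟨h1, a.2.2⟩
    rw [hBU, Subgroup.mem_bot] at h2
    exact Subtype.ext h2
  have hr : f.range = g.range := by
    ext x
    constructor
    · rintro ⟨a, rfl⟩
      obtain ⟨b, hb, u, hu, e⟩ := hBU' a
      have hmem : u ∈ (A ⊔ B) ⊓ U := by
        refine ⟨?_, hu⟩
        have : u = b⁻¹ * a := by rw [← e]; group
        rw [this]
        exact Subgroup.mul_mem _ (Subgroup.mem_sup_right (B.inv_mem hb)) (Subgroup.mem_sup_left a.2)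
      refine ⟨⟨u, hmem⟩, ?_⟩
      change ((u : G) : G ⧸ B) = ((a : G) : G ⧸ B)
      rw [QuotientGroup.eq]
      have : u⁻¹ * (a : G) = u⁻¹ * b * (u⁻¹)⁻¹ := by rw [← e]; group
      rw [this]
      exact hB.conj_mem b hb u⁻¹
    · rintro ⟨⟨v, hv1, hv2⟩, rfl⟩
      obtain ⟨a, ha, b, hb, e⟩ := Subgroup.mem_sup_of_normal_left.mp hv1
      refine ⟨⟨a, ha⟩, ?_⟩
      change ((a : G) : G ⧸ B) = ((v : G) : G ⧸ B)
      rw [QuotientGroup.eq, ← e]
      simpa using hb
  exact ⟨((MonoidHom.ofInjective hf).trans (MulEquiv.subgroupCongr hr)).trans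
    (MonoidHom.ofInjective hg).symm⟩

theorem comm_of_inf {G : Type*} [Group G] (A B : Subgroup G) (hA : A.Normal) (hB : B.Normal)
    (hAB : A ⊓ B = ⊥) : A ≤ Subgroup.centralizer (B : Set G) := by
  intro n hn
  rw [Subgroup.mem_centralizer_iff]
  intro k hk
  have hh : ⁅n, k⁆ ∈ A ⊓ B := by
    refine ⟨?_, ?_⟩
    · rw [commutatorElement_def, mul_assoc, mul_assoc]
      refine A.mul_mem hn ?_
      rw [← mul_assoc]
      exact hA.conj_mem _ (A.inv_mem hn) k
    · rw [commutatorElement_def]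
      exact B.mul_mem (hB.conj_mem _ hk n) (B.inv_mem hk)
  rw [hAB, Subgroup.mem_bot, commutatorElement_eq_one_iff_mul_comm] at hh
  exact hh.symm

theorem result {G : Type*} [Group G] [Finite G] (U : Subgroup G) (hU : IsCoatom U) (hcore : U.normalCore = ⊥) (A B : Subgroup G) [A.Normal] [B.Normal] (hA : A ≠ ⊥) (hB : B ≠ ⊥) (hAmin : ∀ K : Subgroup G, K.Normal → K ≤ A → K = ⊥ ∨ K = A) (hBmin : ∀ K : Subgroup G, K.Normal → K ≤ B → K = ⊥ ∨ K = B) (hAB : A ≠ B) : Subgroup.centralizer (B : Set G) = A ∧ Subgroup.centralizer (A : Set G) = B ∧ Subgroup.IsComplement' A U ∧ Subgroup.IsComplement' B U ∧ ¬ IsMulCommutative A ∧ Nonempty (A ≃* B) ∧ Nonempty (A ≃* ↥((A ⊔ B) ⊓ U)) := by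
  have hinf : A ⊓ B = ⊥ := by
    rcases hAmin (A ⊓ B) inferInstance inf_le_left with h | h
    · exact h
    · rcases hBmin (A ⊓ B) inferInstance inf_le_right with h' | h'
      · exact h'
      · exact absurd (h.symm.trans h') hAB
  have hAc := comm_of_inf A B inferInstance inferInstance hinf
  have hBc := comm_of_inf B A inferInstance inferInstance (by rw [inf_comm]; exact hinf)
  have hcA := H12.Corefree.centralizer_inf_eq_bot hU hcore (N := A) inferInstance hA
  have hcB := H12.Corefree.centralizer_inf_eq_bot hU hcore (N := B) inferInstance hB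
  have e1 : A = Subgroup.centralizer (B : Set G) :=
    H12.Corefree.eq_of_le hU hcore inferInstance hA hAc hcB
  have e2 : B = Subgroup.centralizer (A : Set G) :=
    H12.Corefree.eq_of_le hU hcore inferInstance hB hBc hcA
  have hAU : A ⊓ U = ⊥ := by rw [e1]; exact hcB
  have hBU : B ⊓ U = ⊥ := by rw [e2]; exact hcA
  obtain ⟨f⟩ := aux U A B inferInstance inferInstance hinf hBU
    (H12.Corefree.exists_mul hU hcore inferInstance hB)
  obtain ⟨g⟩ := aux U B A inferInstance inferInstance (by rw [inf_comm]; exact hinf) hAU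
    (H12.Corefree.exists_mul hU hcore inferInstance hA)
  refine ⟨e1.symm, e2.symm, H12.Corefree.isComplement' hU hcore inferInstance hA hAU,
    H12.Corefree.isComplement' hU hcore inferInstance hB hBU, ?_, ?_, ⟨f⟩⟩
  · intro hcomm
    have : A ≤ Subgroup.centralizer (A : Set G) := by
      intro a ha
      rw [Subgroup.mem_centralizer_iff]
      intro b hb
      have := hcomm.is_comm.comm ⟨b, hb⟩ ⟨a, ha⟩
      exact congrArg Subtype.val this
    rw [← e2] at this
    rw [inf_eq_left.mpr this] at hinf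
    exact hA hinf
  · rw [sup_comm] at g
    exact ⟨f.trans g.symm⟩

end Cfsg.Agent.S0550
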