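import Cfsg.Statements.S0551
import Cfsg.Agent.Lib.H12.Corefree
import Cfsg.Agent.Lib.H12.MinNormal
import Cfsg.Agent.Lib.H1.Hall

set_option autoImplicit false
open Pointwise
open Cfsg

namespace Cfsg.Agent.S0551

theorem normalizer_eq {G : Type*} [Group G] (U K : Subgroup G) (hU : IsCoatom U)
    (hUc : U.normalCore = ⊥) (hK : K.Normal) (hne : U ⊓ K ≠ ⊥) :
    Subgroup.normalizer ((U ⊓ K : Subgroup G) : Set G) = U := by
  have h1 : U ≤ Subgroup.normalizer ((U ⊓ K : Subgroup G) : Set G) := by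
    intro u hu
    rw [Subgroup.mem_normalizer_iff]
    intro x
    constructor
    · rintro ⟨h1, h2⟩
      exact ⟨U.mul_mem (U.mul_mem hu h1) (U.inv_mem hu), hK.conj_mem x h2 u⟩
    · rintro ⟨h1, h2⟩
      refine ⟨?_, ?_⟩
      · have := U.mul_mem (U.mul_mem (U.inv_mem hu) h1) hu
        simpa [mul_assoc] using this
      · have := hK.conj_mem _ h2 u⁻¹
        simpa [mul_assoc] using this
  by_contra hcon
  have h2 : Subgroup.normalizer ((U ⊓ K : Subgroup G) : Set G) = ⊤ :=
    hU.2 _ (lt_of_le_of_ne h1 (Ne.symm hcon))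
  rw [Subgroup.normalizer_eq_top_iff] at h2
  have h3 := (Subgroup.normal_le_normalCore (hN := h2)).mpr (inf_le_left : U ⊓ K ≤ U)
  rw [hUc] at h3
  exact hne (le_bot_iff.mp h3)

theorem result {G : Type*} [Group G] [Finite G] [Group.IsSolvable G] (U V : Subgroup G) (hU : IsCoatom U) (hV : IsCoatom V) (hUc : U.normalCore = ⊥) (hVc : V.normalCore = ⊥) : ∃ g : G, MulAut.conj g • U = V := by
  by_cases hG : Nontrivial G
  swap
  · rw [not_nontrivial_iff_subsingleton] at hG
    exact absurd (Subsingleton.elim U ⊤) hU.1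
  obtain ⟨N, hN, hNne, -, hNmin⟩ := H12.MinNormal.exists_min (G := G) (N := ⊤) inferInstance
    (by exact top_ne_bot)
  have hNc := H12.MinNormal.comm_of_solvable hN hNne hNmin
  obtain ⟨p, hp, hpN⟩ := H12.MinNormal.exists_prime_exponent hN hNne hNmin hNc
  have hpF := Fact.mk hp
  have hCN := H12.Corefree.centralizer_eq_of_comm hU hUc hN hNne hNc
  have hNU := H12.Corefree.inf_eq_bot_of_comm hU hUc hN hNne hNc
  have hNV := H12.Corefree.inf_eq_bot_of_comm hV hVc hN hNne hNc
  by_cases hNtop : N = ⊤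
  · rw [hNtop, top_inf_eq] at hNU hNV
    exact ⟨1, by rw [hNU, hNV]; simp⟩
  -- the quotient
  have hQ : Nontrivial (G ⧸ N) := by
    rw [QuotientGroup.nontrivial_iff]; exact hNtop
  obtain ⟨L, hL, hLne, -, hLmin⟩ := H12.MinNormal.exists_min (G := G ⧸ N) (N := ⊤) inferInstance
    (by exact top_ne_bot)
  have hLc := H12.MinNormal.comm_of_solvable hL hLne hLmin
  obtain ⟨q, hq, hqL⟩ := H12.MinNormal.exists_prime_exponent hL hLne hLmin hLc
  have hqF := Fact.mk hq
  set K := L.comap (QuotientGroup.mk' N) with hK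
  have hKn : K.Normal := hL.comap _
  have hNK : N ≤ K := by
    intro n hn
    rw [hK, Subgroup.mem_comap]
    have : QuotientGroup.mk' N n = 1 := (QuotientGroup.eq_one_iff n).mpr hn
    rw [this]; exact L.one_mem
  have hKN : K ≠ N := by
    intro h
    apply hLne
    have h1 : K.map (QuotientGroup.mk' N) = L :=
      Subgroup.map_comap_eq_self_of_surjective (QuotientGroup.mk'_surjective N) L
    rw [h] at h1
    rw [← h1, Subgroup.map_eq_bot_iff, QuotientGroup.ker_mk']
  have hpow : ∀ x ∈ K, x ^ q ∈ N := by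
    intro x hx
    have := hqL _ (Subgroup.mem_comap.mp hx)
    rw [← map_pow] at this
    exact (QuotientGroup.eq_one_iff _).mp this
  have hpq : p ≠ q := by
    rintro rfl
    -- K is a p-group
    have hKp : IsPGroup p K := by
      intro x
      refine ⟨2, Subtype.ext ?_⟩
      rw [Subgroup.coe_pow, pow_two, pow_mul, hpN _ (hpow x x.2)]; rfl
    have hKnt : Nontrivial K := by
      rw [Subgroup.nontrivial_iff_ne_bot]
      intro h
      apply hNne
      rw [eq_bot_iff, ← h]; exact hNK
    have hZ := hKp.center_nontrivial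
    have hZn : ((Subgroup.center K).map K.subtype).Normal := inferInstance
    have hZne : (Subgroup.center K).map K.subtype ≠ ⊥ := by
      intro h
      rw [Subgroup.map_eq_bot_iff_of_injective _ K.subtype_injective] at h
      rw [h] at hZ
      exact (Subgroup.nontrivial_iff_ne_bot _).mp hZ rfl
    have hle := H12.Corefree.le_of_normal hU hUc hN hNne hNc hZn hZne
    have : K ≤ Subgroup.centralizer (N : Set G) := by
      intro k hk
      rw [Subgroup.mem_centralizer_iff]
      intro n hn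
      obtain ⟨z, hz, rfl⟩ := Subgroup.mem_map.mp (hle hn)
      have := Subgroup.mem_center_iff.mp hz ⟨k, hk⟩
      exact (congrArg Subtype.val this).symm
    rw [hCN] at this
    exact hKN (le_antisymm this hNK)
  -- complements of N in K
  have hcop : ∀ W : Subgroup G, IsCoatom W → W.normalCore = ⊥ → N ⊓ W = ⊥ →
      Nat.card (W ⊓ K : Subgroup G) = N.relIndex K ∧ W ⊓ K ≠ ⊥ ∧ IsPGroup q (W ⊓ K : Subgroup G) := by
    intro W hW hWc hNW
    have hsup : (W ⊓ K) ⊔ N = K := by
      apply le_antisymm (sup_le inf_le_right hNK)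
      intro k hk
      obtain ⟨n, hn, u, hu, e⟩ := H12.Corefree.exists_mul hW hWc hN hNne k
      rw [← e]
      refine Subgroup.mul_mem _ (Subgroup.mem_sup_right hn) (Subgroup.mem_sup_left ⟨hu, ?_⟩)
      have : u = n⁻¹ * k := by rw [← e]; group
      rw [this]
      exact K.mul_mem (K.inv_mem (hNK hn)) hk
    have hinf : (W ⊓ K) ⊓ N = ⊥ := by
      rw [eq_bot_iff, ← hNW]
      exact le_inf inf_le_right (inf_le_left.trans inf_le_left)
    have hc := H1.Hall.card_sup_of_disjoint_normal hinf
    rw [hsup] at hc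
    refine ⟨?_, ?_, ?_⟩
    · have h1 : Nat.card N * N.relIndex K = Nat.card K := H12.Basic.card_mul_relIndex hNK
      have h2 : 0 < Nat.card N := Nat.card_pos
      apply Nat.eq_of_mul_eq_mul_left h2
      rw [h1, hc]; ring
    · intro h
      rw [h, bot_sup_eq] at hsup
      exact hKN hsup.symm
    · intro x
      refine ⟨1, Subtype.ext ?_⟩
      have h1 : (x : G) ^ q ∈ N ⊓ W := ⟨hpow _ x.2.2, W.pow_mem x.2.1 q⟩
      rw [hNW, Subgroup.mem_bot] at h1
      simpa using h1
  obtain ⟨hUcard, hUne, hUq⟩ := hcop U hU hUc hNU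
  obtain ⟨hVcard, hVne, hVq⟩ := hcop V hV hVc hNV
  have hNp : IsPGroup p N := H12.MinNormal.isPGroup_of_exponent hpN
  have hco : (Nat.card N).Coprime (N.relIndex K) := by
    rw [← hUcard]
    exact IsPGroup.coprime_card_of_ne q p hpq.symm _ _ hUq hNp |>.symm
  obtain ⟨g, -, hg⟩ := H1.SZ.conj_of_card_rel K N hNK (by rw [Subgroup.normalizer_eq_top]; exact le_top)
    hco (Or.inl inferInstance) (U ⊓ K) (V ⊓ K) inf_le_right inf_le_right hUcard hVcard
  refine ⟨g, ?_⟩
  rw [← normalizer_eq U K hU hUc hKn hUne, ← normalizer_eq V K hV hVc hKn hVne, ← hg,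
    H12.Basic.conj_smul_normalizer]

end Cfsg.Agent.S0551
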