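import Cfsg.Statements.S0552
import Cfsg.Agent.Lib.H1.Solv

set_option autoImplicit false
open Cfsg
open scoped commutatorElement

namespace Cfsg.Agent.S0552

theorem result {G : Type*} [Group G] [Finite G] [Group.IsSolvable G] (σ : G ≃* G) (hσ : ∀ x ∈ Cfsg.fittingSubgroup G, σ x = x) (hne : σ ≠ MulEquiv.refl G) : ¬ (orderOf σ).Coprime (Nat.card G) := by
  intro hcop
  apply hne
  have hFn : (Cfsg.fittingSubgroup G).Normal := H1.Cores.fittingSubgroup_normal
  have hcent := H1.Solv.centralizer_fitting_le (G := G) inferInstance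
  -- g⁻¹ σ(g) ∈ F
  have h1 : ∀ g : G, g⁻¹ * σ g ∈ Cfsg.fittingSubgroup G := by
    intro g
    apply hcent
    rw [Subgroup.mem_centralizer_iff]
    intro x hx
    have h2 : g * x * g⁻¹ ∈ Cfsg.fittingSubgroup G := hFn.conj_mem x hx g
    have h3 := hσ _ h2
    rw [map_mul, map_mul, hσ x hx, map_inv] at h3
    -- σ g x σ g⁻¹ = g x g⁻¹
    have h4 : σ g * x = g * x * g⁻¹ * σ g := by rw [← h3]; group
    calc x * (g⁻¹ * σ g) = g⁻¹ * (g * x * g⁻¹ * σ g) := by group
      _ = g⁻¹ * (σ g * x) := by rw [h4]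
      _ = _ := by group
  have h2 : ∀ (n : ℕ) (g : G), (σ ^ n) g = g * (g⁻¹ * σ g) ^ n := by
    intro n g
    induction n with
    | zero => simp
    | succ n ih =>
      rw [pow_succ', MulAut.mul_apply, ih, map_mul, map_pow, hσ _ (h1 g),
        pow_succ' (g⁻¹ * σ g) n, ← mul_assoc, mul_inv_cancel_left]
  ext g
  have h3 := h2 (orderOf σ) g
  rw [pow_orderOf_eq_one, MulAut.one_apply] at h3
  have h4 : (g⁻¹ * σ g) ^ orderOf σ = 1 := by
    have : g * (g⁻¹ * σ g) ^ orderOf σ = g * 1 := by rw [← h3, mul_one]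
    exact mul_left_cancel this
  have h5 : (g⁻¹ * σ g) = 1 := by
    rw [← orderOf_eq_one_iff]
    have a1 : orderOf (g⁻¹ * σ g) ∣ orderOf σ := orderOf_dvd_of_pow_eq_one h4
    have a2 : orderOf (g⁻¹ * σ g) ∣ Nat.card G := orderOf_dvd_natCard _
    exact Nat.dvd_one.mp (hcop ▸ Nat.dvd_gcd a1 a2)
  have h6 : σ g = g := by
    have : g * (g⁻¹ * σ g) = g * 1 := by rw [h5]
    simpa using this
  exact h6

end Cfsg.Agent.S0552
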