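import Cfsg.Statements.S0553
import Cfsg.Agent.Lib.H12.FratArg
import Cfsg.Agent.Lib.H1.Hall

set_option autoImplicit false
open Cfsg

namespace Cfsg.Agent.S0553

universe u

theorem main (n : ℕ) : ∀ (G : Type u) [Group G] [Finite G] [Group.IsSolvable G] [Nontrivial G],
    Nat.card G = n → (∀ M : Subgroup G, IsCoatom M → (Nat.card M).Coprime M.index) →
    ∃ p : ℕ, p.Prime ∧ p ∣ Nat.card G ∧ ∀ P : Sylow p G, (P : Subgroup G).Normal := by
  induction n using Nat.strong_induction_on with
  | _ n ih =>
  intro G _ _ _ _ hn h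
  by_cases hΦ : frattini G = ⊥
  · obtain ⟨N, hN, hNne, -, hNmin⟩ := H12.MinNormal.exists_min (G := G) (N := ⊤) inferInstance
      (by exact top_ne_bot)
    have hNc := H12.MinNormal.comm_of_solvable hN hNne hNmin
    obtain ⟨p, hp, hpN⟩ := H12.MinNormal.exists_prime_exponent hN hNne hNmin hNc
    have hpF := Fact.mk hp
    have hNp : IsPGroup p N := H12.MinNormal.isPGroup_of_exponent hpN
    -- a maximal subgroup not containing N
    have hM : ∃ M : Subgroup G, IsCoatom M ∧ ¬ N ≤ M := by
      by_contra hcon
      push Not at hcon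
      apply hNne
      rw [eq_bot_iff, ← hΦ]
      unfold frattini Order.radical
      exact le_iInf₂ fun M hM => hcon M hM
    obtain ⟨M, hM, hNM⟩ := hM
    have htop : N ⊔ M = ⊤ := hM.2 _ (lt_of_le_of_ne le_sup_right (fun h => hNM (h ▸ le_sup_left)))
    have hinfn : (N ⊓ M).Normal := by
      constructor
      intro x hx g
      obtain ⟨a, ha, m, hm, rfl⟩ := Subgroup.mem_sup_of_normal_left.mp
        (htop ▸ Subgroup.mem_top g : g ∈ N ⊔ M)
      have h1 : m * x * m⁻¹ ∈ N := hN.conj_mem x hx.1 m
      have h2 : m * x * m⁻¹ ∈ M := M.mul_mem (M.mul_mem hm hx.2) (M.inv_mem hm)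
      have h3 : a * (m * x * m⁻¹) = (m * x * m⁻¹) * a :=
        Subgroup.mem_centralizer_iff.mp (hNc h1) a ha
      have h4 : a * m * x * (a * m)⁻¹ = m * x * m⁻¹ := by
        calc a * m * x * (a * m)⁻¹ = a * (m * x * m⁻¹) * a⁻¹ := by group
          _ = _ := by rw [h3]; group
      rw [h4]; exact ⟨h1, h2⟩
    have hinf : M ⊓ N = ⊥ := by
      rw [inf_comm]
      rcases hNmin _ hinfn inf_le_left with h | h
      · exact h
      · exact absurd (inf_eq_left.mp h) hNM
    have hc := H1.Hall.card_sup_of_disjoint_normal hinf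
    rw [sup_comm, htop, Subgroup.card_top] at hc
    have hidx : M.index = Nat.card N := by
      have := Subgroup.card_mul_index M
      rw [hc] at this
      exact Nat.eq_of_mul_eq_mul_left Nat.card_pos this
    have hidx' : N.index = Nat.card M := by
      have := Subgroup.card_mul_index N
      rw [hc, mul_comm (Nat.card M)] at this
      exact Nat.eq_of_mul_eq_mul_left Nat.card_pos this
    have hcop := h M hM
    rw [hidx] at hcop
    have hpN' : p ∣ Nat.card N := by
      obtain ⟨k, hk⟩ := IsPGroup.iff_card.mp hNp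
      rw [hk]
      apply dvd_pow_self
      rintro rfl
      rw [pow_zero] at hk
      exact hNne (Subgroup.card_eq_one.mp hk)
    have hnd : ¬ p ∣ N.index := by
      rw [hidx']
      intro hd
      exact hp.one_lt.ne' (Nat.dvd_one.mp (hcop ▸ Nat.dvd_gcd hd hpN'))
    refine ⟨p, hp, hpN'.trans (Subgroup.card_subgroup_dvd_card N), ?_⟩
    have hNS : (((hNp.toSylow hnd : Sylow p G) : Subgroup G)).Normal := hN
    intro P
    have hu := Sylow.unique_of_normal (hNp.toSylow hnd) hNS
    have : P = hNp.toSylow hnd := Subsingleton.elim _ _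
    rw [this]; exact hNS
  · -- Frattini quotient
    have hΦtop : frattini G ≠ ⊤ := by
      intro ht
      obtain ⟨M, hM⟩ := (eq_top_or_exists_le_coatom (⊥ : Subgroup G)).resolve_left bot_ne_top
      exact hM.1.1 (top_le_iff.mp (ht ▸ frattini_le_coatom hM.1))
    have hnt : Nontrivial (G ⧸ frattini G) := by
      rw [QuotientGroup.nontrivial_iff]; exact hΦtop
    have hcard : Nat.card (G ⧸ frattini G) < n := by
      rw [← hn, ← Subgroup.card_mul_index (frattini G), Subgroup.index_eq_card]
      have h1 : 1 < Nat.card (frattini G) := by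
        rwa [Subgroup.one_lt_card_iff_ne_bot]
      have h2 : 0 < Nat.card (G ⧸ frattini G) := Nat.card_pos
      nlinarith
    have hπ : Function.Surjective (QuotientGroup.mk' (frattini G)) := QuotientGroup.mk'_surjective _
    obtain ⟨p, hp, hpd, hP⟩ := ih _ hcard (G ⧸ frattini G) rfl (by
      intro M hM
      have h1 := h _ (Subgroup.isCoatom_comap_of_surjective hπ hM)
      rw [Subgroup.index_comap_of_surjective _ hπ, H1.Cores.card_comap_mk'] at h1
      exact Nat.Coprime.coprime_mul_left h1)
    have hpF := Fact.mk hp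
    refine ⟨p, hp, hpd.trans ?_, ?_⟩
    · rw [← Subgroup.index_eq_card]; exact Subgroup.index_dvd_card _
    · intro P
      -- view P inside A = ⊤
      let P2 : Sylow p (⊤ : Subgroup G) := P.subtype le_top
      have e : (P2 : Subgroup (⊤ : Subgroup G)).map (⊤ : Subgroup G).subtype = P := by
        change ((P : Subgroup G).subgroupOf ⊤).map (⊤ : Subgroup G).subtype = _
        rw [Subgroup.map_subgroupOf_eq_of_le le_top]
      have := H12.FratArg.normal_of_sup_normal (⊤ : Subgroup G) (frattini G) le_top le_rfl P2 (by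
        rw [e]
        have h1 : ((P.mapSurjective hπ : Sylow p (G ⧸ frattini G)) :
          Subgroup (G ⧸ frattini G)).Normal := hP _
        have h2 := h1.comap (QuotientGroup.mk' (frattini G))
        rw [Sylow.coe_mapSurjective, Subgroup.comap_map_eq, QuotientGroup.ker_mk'] at h2
        exact h2)
      rwa [e] at this

theorem result {G : Type*} [Group G] [Finite G] [Group.IsSolvable G] [Nontrivial G] (h : ∀ M : Subgroup G, IsCoatom M → (Nat.card M).Coprime M.index) : ∃ p : ℕ, p.Prime ∧ p ∣ Nat.card G ∧ ∀ P : Sylow p G, (P : Subgroup G).Normal :=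
  main _ G rfl h

end Cfsg.Agent.S0553
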