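import Cfsg.Statements.S0554
import Cfsg.Agent.Lib.H12.MinNormal

set_option autoImplicit false
open Cfsg

namespace Cfsg.Agent.S0554

universe u

theorem modify {G : Type u} [Group G] (N : Subgroup G) (hN : N.Normal) (t : ℕ) :
    ∀ (s : Fin t → G) (j : Fin t) (n : G), n ∈ N →
      ∃ n' ∈ N, (List.ofFn (Function.update s j (s j * n'))).prod = (List.ofFn s).prod * n := by
  induction t with
  | zero => intro s j; exact j.elim0
  | succ t ih =>
    intro s j n hn
    refine Fin.cases ?_ (fun j => ?_) j
    · refine ⟨(List.ofFn (fun i => s (Fin.succ i))).prod * n *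
        ((List.ofFn (fun i => s (Fin.succ i))).prod)⁻¹, hN.conj_mem n hn _, ?_⟩
      rw [List.ofFn_succ, List.ofFn_succ, List.prod_cons, List.prod_cons, Function.update_self]
      have : (fun i : Fin t => Function.update s 0 (s 0 * ((List.ofFn (fun i => s (Fin.succ i))).prod * n *
        ((List.ofFn (fun i => s (Fin.succ i))).prod)⁻¹)) i.succ) = fun i => s (Fin.succ i) := by
        funext i
        rw [Function.update_of_ne (Fin.succ_ne_zero i)]
      rw [this]
      group
    · obtain ⟨n', hn', e⟩ := ih (fun i => s (Fin.succ i)) j n hn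
      refine ⟨n', hn', ?_⟩
      rw [List.ofFn_succ, List.ofFn_succ, List.prod_cons, List.prod_cons,
        Function.update_of_ne (Fin.succ_ne_zero j).symm]
      have : (fun i : Fin t => Function.update s j.succ (s j.succ * n') i.succ) =
          Function.update (fun i => s (Fin.succ i)) j (s j.succ * n') := by
        funext i
        by_cases hij : i = j
        · subst hij; simp
        · rw [Function.update_of_ne (fun h => hij (Fin.succ_injective _ h)),
            Function.update_of_ne hij]
      rw [this, e, mul_assoc]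

theorem main (n : ℕ) : ∀ (G : Type u) [Group G] [Finite G] [Group.IsSolvable G],
    Nat.card G = n → ∀ (t : ℕ) (p : Fin t → ℕ) (hp : ∀ i, (p i).Prime)
    (hall : ∀ q : ℕ, q.Prime → q ∣ Nat.card G → ∃ i, p i = q)
    (S : (i : Fin t) → Sylow (p i) G),
    ∀ g : G, ∃ s : (i : Fin t) → G, (∀ i, s i ∈ (S i : Subgroup G)) ∧ g = (List.ofFn s).prod := by
  induction n using Nat.strong_induction_on with
  | _ n ih =>
  intro G _ _ _ hn t p hp hall S g
  by_cases hG : Nontrivial G
  swap
  · rw [not_nontrivial_iff_subsingleton] at hG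
    exact ⟨fun _ => 1, fun i => Subgroup.one_mem _, Subsingleton.elim _ _⟩
  obtain ⟨N, hN, hNne, -, hNmin⟩ := H12.MinNormal.exists_min (G := G) (N := ⊤) inferInstance
    (by exact top_ne_bot)
  have hNc := H12.MinNormal.comm_of_solvable hN hNne hNmin
  obtain ⟨q, hq, hqN⟩ := H12.MinNormal.exists_prime_exponent hN hNne hNmin hNc
  have hqF := Fact.mk hq
  have hNq : IsPGroup q N := H12.MinNormal.isPGroup_of_exponent hqN
  have hqd : q ∣ Nat.card G := by
    obtain ⟨k, hk⟩ := IsPGroup.iff_card.mp hNq
    refine dvd_trans ?_ (Subgroup.card_subgroup_dvd_card N)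
    rw [hk]
    apply dvd_pow_self
    rintro rfl
    rw [pow_zero] at hk
    exact hNne (Subgroup.card_eq_one.mp hk)
  obtain ⟨j, hj⟩ := hall q hq hqd
  have hcard : Nat.card (G ⧸ N) < n := by
    rw [← hn, ← Subgroup.card_mul_index N, Subgroup.index_eq_card]
    have h1 : 1 < Nat.card N := by
      rwa [Subgroup.one_lt_card_iff_ne_bot]
    have h2 : 0 < Nat.card (G ⧸ N) := Nat.card_pos
    nlinarith
  have hπ : Function.Surjective (QuotientGroup.mk' N) := QuotientGroup.mk'_surjective _
  have hpF : ∀ i, Fact (p i).Prime := fun i => ⟨hp i⟩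
  obtain ⟨s, hs, e⟩ := ih _ hcard (G ⧸ N) rfl t p hp
    (fun r hr hrd => hall r hr (hrd.trans (by
      rw [← Subgroup.index_eq_card]; exact Subgroup.index_dvd_card N)))
    (fun i => (S i).mapSurjective hπ) (QuotientGroup.mk' N g)
  have hs' : ∀ i, ∃ x ∈ (S i : Subgroup G), QuotientGroup.mk' N x = s i := by
    intro i
    have := hs i
    rw [Sylow.coe_mapSurjective] at this
    exact this
  choose x hx hxs using hs'
  have e1 : QuotientGroup.mk' N g = QuotientGroup.mk' N (List.ofFn x).prod := by
    rw [e, map_list_prod, List.map_ofFn]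
    congr 2
    funext i
    exact (hxs i).symm
  have e2 : (List.ofFn x).prod⁻¹ * g ∈ N := QuotientGroup.eq.mp e1.symm
  obtain ⟨n', hn', e3⟩ := modify N hN t x j _ e2
  refine ⟨Function.update x j (x j * n'), ?_, ?_⟩
  · intro i
    by_cases hij : i = j
    · subst hij
      rw [Function.update_self]
      refine Subgroup.mul_mem _ (hx i) ?_
      have hle : N ≤ (S i : Subgroup G) := by
        apply IsPGroup.le_sylow_of_normal
        rw [hj]; exact hNq
      exact hle hn'
    · rw [Function.update_of_ne hij]; exact hx i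
  · rw [e3]; group

theorem result {G : Type*} [Group G] [Finite G] [Group.IsSolvable G] (t : ℕ) (p : Fin t → ℕ) (hp : ∀ i, (p i).Prime) (hinj : Function.Injective p) (hall : ∀ q : ℕ, q.Prime → q ∣ Nat.card G → ∃ i, p i = q) (S : (i : Fin t) → Sylow (p i) G) : ∀ g : G, ∃ s : (i : Fin t) → G, (∀ i, s i ∈ (S i : Subgroup G)) ∧ g = (List.ofFn s).prod :=
  main _ G rfl t p hp hall S

end Cfsg.Agent.S0554
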