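import Cfsg.Statements.S0555
import Mathlib

set_option autoImplicit false
open Cfsg
open scoped commutatorElement

namespace Cfsg.Agent.S0555

theorem cyclic_cent {G : Type*} [Group G] (C : Subgroup G) (hn : C.Normal) (hc : IsCyclic C) :
    ⁅(⊤ : Subgroup G), ⊤⁆ ≤ Subgroup.centralizer (C : Set G) := by
  obtain ⟨⟨c, hcC⟩, hgen⟩ := hc.exists_generator
  have hgen' : ∀ x ∈ C, ∃ n : ℤ, c ^ n = x := by
    intro x hx
    obtain ⟨n, hn⟩ := hgen ⟨x, hx⟩
    exact ⟨n, congrArg Subtype.val hn⟩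
  have hact : ∀ g : G, ∃ m : ℤ, ∀ n : ℤ, g * c ^ n * g⁻¹ = (c ^ n) ^ m := by
    intro g
    obtain ⟨m, hm⟩ := hgen' _ (hn.conj_mem c hcC g)
    refine ⟨m, fun n => ?_⟩
    rw [← conj_zpow, ← hm, ← zpow_mul, ← zpow_mul, mul_comm]
  rw [Subgroup.commutator_le]
  intro g _ h _
  rw [Subgroup.mem_centralizer_iff]
  intro x hx
  obtain ⟨n, rfl⟩ := hgen' x hx
  obtain ⟨m, hm⟩ := hact g
  obtain ⟨k, hk⟩ := hact h
  have e2 : ⁅g, h⁆ = (g * h) * (h * g)⁻¹ := by rw [commutatorElement_def]; group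
  have e3 : c ^ n = (g * h) * ((h * g)⁻¹ * c ^ n * (h * g)) * (g * h)⁻¹ := by
    have hh : ∀ n : ℤ, (g * h) * c ^ n * (g * h)⁻¹ = (h * g) * c ^ n * (h * g)⁻¹ := by
      intro n
      have a1 : (g * h) * c ^ n * (g * h)⁻¹ = g * (h * c ^ n * h⁻¹) * g⁻¹ := by group
      have a2 : (h * g) * c ^ n * (h * g)⁻¹ = h * (g * c ^ n * g⁻¹) * h⁻¹ := by group
      rw [a1, a2, hk, hm, ← zpow_mul, ← zpow_mul, hm, hk, ← zpow_mul, ← zpow_mul]
      congr 1; ring
    have hmem : (h * g)⁻¹ * c ^ n * (h * g) ∈ C := by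
      have := hn.conj_mem _ (C.zpow_mem hcC n) (h * g)⁻¹
      simpa using this
    obtain ⟨j, hj⟩ := hgen' _ hmem
    rw [← hj, hh, hj]; group
  rw [e2]
  calc c ^ n * (g * h * (h * g)⁻¹)
      = (g * h) * ((h * g)⁻¹ * c ^ n * (h * g)) * (g * h)⁻¹ * (g * h * (h * g)⁻¹) := by rw [← e3]
    _ = _ := by group

theorem result {G : Type*} [Group G] (i : ℕ) (hi : 1 ≤ i) (h₁ : IsCyclic (↥(derivedSeries G i) ⧸ (derivedSeries G (i + 1)).subgroupOf (derivedSeries G i))) (h₂ : IsCyclic (↥(derivedSeries G (i + 1)) ⧸ (derivedSeries G (i + 2)).subgroupOf (derivedSeries G (i + 1)))) : derivedSeries G (i + 1) = derivedSeries G (i + 2) := by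
  refine le_antisymm ?_ (derivedSeries_antitone G (Nat.le_succ _))
  set N := derivedSeries G (i + 2) with hN
  have hNn : N.Normal := derivedSeries_normal G _
  set D := derivedSeries G (i + 1) with hD
  have hDn : D.Normal := derivedSeries_normal G _
  set H := derivedSeries G i with hH
  have hND : N ≤ D := derivedSeries_antitone G (Nat.le_succ _)
  have hDH : D ≤ H := derivedSeries_antitone G (Nat.le_succ _)
  have hDeq : D = ⁅H, H⁆ := derivedSeries_succ G i
  let π := QuotientGroup.mk' N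
  -- the image of D is cyclic and normal
  have hcyc : IsCyclic (D.map π) := by
    let f : D →* D.map π := π.subgroupMap D
    have hf : Function.Surjective f := π.subgroupMap_surjective D
    let g : D ⧸ N.subgroupOf D →* D.map π := QuotientGroup.lift (N.subgroupOf D) f (by
      intro x hx
      apply Subtype.ext
      change π (x : G) = 1
      exact (QuotientGroup.eq_one_iff _).mpr hx)
    have hg : Function.Surjective g := by
      intro y
      obtain ⟨x, rfl⟩ := hf y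
      exact ⟨(x : D ⧸ N.subgroupOf D), rfl⟩
    exact isCyclic_of_surjective g hg
  have hnorm : (D.map π).Normal := hDn.map π (QuotientGroup.mk'_surjective N)
  have hcent := cyclic_cent _ hnorm hcyc
  -- H maps into the centralizer
  have hHle : H ≤ ⁅(⊤ : Subgroup G), ⊤⁆ := by
    obtain ⟨j, rfl⟩ : ∃ j, i = j + 1 := ⟨i - 1, by omega⟩
    rw [hH, derivedSeries_succ]
    exact Subgroup.commutator_mono le_top le_top
  have hHcent : ∀ h ∈ H, ∀ d ∈ D, π h * π d = π d * π h := by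
    intro h hh d hd
    have h1 : π h ∈ ⁅(⊤ : Subgroup (G ⧸ N)), (⊤ : Subgroup (G ⧸ N))⁆ := by
      have := Subgroup.mem_map_of_mem π (hHle hh)
      rw [Subgroup.map_commutator] at this
      exact (Subgroup.commutator_mono le_top le_top :
        ⁅(⊤ : Subgroup G).map π, (⊤ : Subgroup G).map π⁆ ≤ ⁅(⊤ : Subgroup (G ⧸ N)), (⊤ : Subgroup (G ⧸ N))⁆) this
    exact (Subgroup.mem_centralizer_iff.mp (hcent h1) (π d) (Subgroup.mem_map_of_mem π hd)).symm
  -- H = ⟨h⟩ D
  obtain ⟨q, hq⟩ := h₁.exists_generator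
  obtain ⟨h0, rfl⟩ := QuotientGroup.mk_surjective q
  have hgen : ∀ h ∈ H, ∃ (n : ℤ) (d : G), d ∈ D ∧ h = (h0 : G) ^ n * d := by
    intro h hh
    obtain ⟨n, hn⟩ := hq ((⟨h, hh⟩ : H) : H ⧸ D.subgroupOf H)
    refine ⟨n, (h0 : G) ^ (-n) * h, ?_, by group⟩
    have hn' : ((h0 ^ n : H) : H ⧸ D.subgroupOf H) = ((⟨h, hh⟩ : H) : H ⧸ D.subgroupOf H) := hn
    rw [QuotientGroup.eq, Subgroup.mem_subgroupOf] at hn'
    have e : ((((h0 ^ n)⁻¹ * ⟨h, hh⟩ : H)) : G) = (h0 : G) ^ (-n) * h := by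
      push_cast
      rw [zpow_neg]
    rwa [e] at hn'
  rw [hDeq, Subgroup.commutator_le]
  intro x hx y hy
  obtain ⟨n, d, hd, rfl⟩ := hgen x hx
  obtain ⟨m, e, he, rfl⟩ := hgen y hy
  have key : π ⁅(h0 : G) ^ n * d, (h0 : G) ^ m * e⁆ = 1 := by
    rw [map_commutatorElement, commutatorElement_eq_one_iff_mul_comm]
    change Commute _ _
    rw [map_mul, map_mul, map_zpow, map_zpow]
    have c1 : Commute (π (h0 : G)) (π d) := hHcent _ h0.2 _ hd
    have c2 : Commute (π (h0 : G)) (π e) := hHcent _ h0.2 _ he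
    have c3 : Commute (π d) (π e) := hHcent _ (hDH hd) _ he
    refine Commute.mul_left ?_ ?_
    · exact Commute.mul_right ((Commute.refl _).zpow_zpow n m) (c2.zpow_left n)
    · exact Commute.mul_right (c1.symm.zpow_right m) c3
  exact (QuotientGroup.eq_one_iff _).mp key

end Cfsg.Agent.S0555
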