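import Cfsg.Statements.S0558
import Cfsg.Agent.Lib.H12.NilpComp

set_option autoImplicit false
open Cfsg

namespace Cfsg.Agent.S0558

open H12.Nil

/-- Let H be a subgroup of a finite group G that is not a Sylow subgroup of G for any prime, and suppose that for every prime p dividing the order of H and every Sylow p-subgroup P of H the normalizer of P in G is exactly H. Then some normal subgroup of G is a complement to H. -/
theorem result {G : Type*} [Group G] [Finite G] (H : Subgroup G) (hnot : ∀ p : ℕ, p.Prime → ∀ P : Sylow p G, (P : Subgroup G) ≠ H) (hnorm : ∀ p : ℕ, p.Prime → p ∣ Nat.card H → ∀ P : Sylow p H, Subgroup.normalizer (((P : Subgroup H).map H.subtype : Subgroup G) : Set G) = H) : ∃ N : Subgroup G, N.Normal ∧ Subgroup.IsComplement' N H := by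
  classical
  -- `H` is nilpotent
  have hH : Group.IsNilpotent H := by
    refine ((Group.isNilpotent_of_finite_tfae (G := H)).out 0 3).2 ?_
    intro p hp P
    by_cases hpd : p ∣ Nat.card H
    · have h1 := hnorm p hp.out hpd P
      constructor
      intro x hx g
      have h2 : (g : G) ∈ Subgroup.normalizer
          (((P : Subgroup H).map H.subtype : Subgroup G) : Set G) := by
        rw [h1]; exact g.2
      have h3 := (Subgroup.mem_normalizer_iff.1 h2 (x : G)).1 ⟨x, hx, rfl⟩
      obtain ⟨y, hy, e⟩ := h3
      have : y = g * x * g⁻¹ := Subtype.ext e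
      rw [← this]; exact hy
    · have : (P : Subgroup H) = ⊥ := by
        obtain ⟨k, hk⟩ := P.2.exists_card_eq
        rw [← Subgroup.card_eq_one, hk]
        rcases Nat.eq_zero_or_pos k with h | h
        · rw [h, pow_zero]
        · exfalso
          apply hpd
          exact (dvd_pow_self p h.ne').trans (hk ▸ Subgroup.card_subgroup_dvd_card _)
      rw [this]; infer_instance
  have hS : ∀ p : ℕ, p.Prime → p ∣ Nat.card H → Subgroup.normalizer (Sy H p : Set G) = H := by
    intro p hp hpd
    have hpf := Fact.mk hp
    obtain ⟨P, hP⟩ := exists_sylow_eq hH p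
    rw [← hP]
    exact hnorm p hp hpd P
  have hSi : ∀ p : ℕ, p.Prime → p ∣ Nat.card H → ¬ p ∣ (Sy H p).index := by
    intro p hp hpd
    have hpf := Fact.mk hp
    apply H12.NilpComp.not_dvd_index_of_normalizer (isPGroup_Sy H p)
    rw [hS p hp hpd]
    exact not_dvd_relIndex_Sy hH p
  have hHall : (Nat.card H).Coprime H.index := by
    rw [Nat.coprime_iff_gcd_eq_one]
    by_contra hne
    obtain ⟨p, hp, hpd⟩ := Nat.exists_prime_and_dvd hne
    exact hSi p hp (hpd.trans (Nat.gcd_dvd_left _ _))
      ((hpd.trans (Nat.gcd_dvd_right _ _)).trans (Subgroup.index_dvd_of_le (Sy_le H p)))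
  apply H12.NilpComp.main H hH hHall (fun p hp hpd => (hS p hp hpd).le)
  intro p hp hpd
  by_contra hcon
  push Not at hcon
  have hpf := Fact.mk hp
  have h1 : H ≤ Sy H p := by
    apply le_of_Sy_le hH
    intro q hq
    by_cases hqp : q = p
    · subst hqp; exact le_rfl
    · have h1 : Nat.card (Sy H q) = 1 := by
        obtain ⟨k, hk⟩ := (isPGroup_Sy H q).exists_card_eq
        rw [hk]
        rcases Nat.eq_zero_or_pos k with h | h
        · rw [h, pow_zero]
        · exfalso
          apply hcon q hq.out hqp
          exact (dvd_pow_self q h.ne').trans (hk ▸ Subgroup.card_dvd_of_le (Sy_le _ _))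
      rw [Subgroup.card_eq_one.1 h1]; exact bot_le
  have h2 : Sy H p = H := le_antisymm (Sy_le H p) h1
  exact hnot p hp ((isPGroup_Sy H p).toSylow (hSi p hp hpd)) h2

end Cfsg.Agent.S0558
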