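import Cfsg.Statements.S0559
import Mathlib

set_option autoImplicit false
open Pointwise
open Cfsg

namespace Cfsg.Agent.S0559

theorem result {G : Type*} [Group G] [Finite G] (H K A B : Subgroup G) (hHK : ∀ g : G, ∃ h ∈ H, ∃ k ∈ K, g = h * k) (hA : ∃ x : G, A = MulAut.conj x • H) (hB : ∃ y : G, B = MulAut.conj y • K) : (∀ g : G, ∃ a ∈ A, ∃ b ∈ B, g = a * b) ∧ ∃ g : G, A = MulAut.conj g • H ∧ B = MulAut.conj g • K := by
  obtain ⟨x, rfl⟩ := hA
  obtain ⟨y, rfl⟩ := hB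
  obtain ⟨h, hh, k, hk, e⟩ := hHK (x⁻¹ * y)
  have e1 : x * h = y * k⁻¹ := by
    have : y = x * (h * k) := by rw [← e]; group
    rw [this]; group
  have eA : MulAut.conj x • H = MulAut.conj (x * h) • H := by
    rw [map_mul, mul_smul, Subgroup.conj_smul_eq_self_of_mem hh]
  have eB : MulAut.conj y • K = MulAut.conj (x * h) • K := by
    rw [e1, map_mul, mul_smul, Subgroup.conj_smul_eq_self_of_mem (K.inv_mem hk)]
  refine ⟨?_, x * h, eA, eB⟩
  rw [eA, eB]
  intro g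
  obtain ⟨a, ha, b, hb, e⟩ := hHK ((x * h)⁻¹ * g * (x * h))
  refine ⟨(x * h) * a * (x * h)⁻¹, ?_, (x * h) * b * (x * h)⁻¹, ?_, ?_⟩
  · rw [Subgroup.mem_pointwise_smul_iff_inv_smul_mem]
    simpa [MulAut.smul_def, ← map_inv, mul_assoc] using ha
  · rw [Subgroup.mem_pointwise_smul_iff_inv_smul_mem]
    simpa [MulAut.smul_def, ← map_inv, mul_assoc] using hb
  · have : g = (x * h) * ((x * h)⁻¹ * g * (x * h)) * (x * h)⁻¹ := by group
    rw [this, e]; group

end Cfsg.Agent.S0559
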