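import Cfsg.Statements.S0561
import Cfsg.Agent.Lib.H12.FacHall

set_option autoImplicit false
open Pointwise
open Cfsg

namespace Cfsg.Agent.S0561

theorem result {G : Type*} [Group G] [Finite G] [Group.IsSolvable G] (H K A B : Subgroup G) (hHK : ∀ g : G, ∃ h ∈ H, ∃ k ∈ K, g = h * k) (hA : A ≤ H) (hAn : (A.subgroupOf H).Normal) (hB : B ≤ K) (hBn : (B.subgroupOf K).Normal) (hAh : (Nat.card A).Coprime A.index) (hBh : (Nat.card B).Coprime B.index) (x y : G) : ∃ S : Subgroup G, (S : Set G) = ((MulAut.conj x • A : Subgroup G) : Set G) * ((MulAut.conj y • B : Subgroup G) : Set G) := by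
  have hAn' : ∀ h ∈ H, ∀ a ∈ A, h * a * h⁻¹ ∈ A := fun h hh a ha =>
    (Subgroup.normal_subgroupOf_iff hA).mp hAn a h ha hh
  have hBn' : ∀ h ∈ K, ∀ a ∈ B, h * a * h⁻¹ ∈ B := fun h hh a ha =>
    (Subgroup.normal_subgroupOf_iff hB).mp hBn a h ha hh
  have h1 := H12.FacHall.perm_of_hall inferInstance hHK hAn' hBn' hAh hBh
  obtain ⟨g, -, -, h2⟩ := H12.FacHall.perm_conj hHK (H12.FacHall.conj_smul_eq_of_conj_mem hAn')
    (H12.FacHall.conj_smul_eq_of_conj_mem hBn') h1 x y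
  exact H12.Kegel.perm_iff.mp h2

end Cfsg.Agent.S0561
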