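import Cfsg.Statements.S0562
import Cfsg.Agent.Lib.H12.Basic

set_option autoImplicit false
open Cfsg

namespace Cfsg.Agent.S0562

theorem result {G : Type*} [Group G] [Finite G] (H K A B : Subgroup G) (hHK : ∀ g : G, ∃ h ∈ H, ∃ k ∈ K, g = h * k) (hA : A ≤ H) (hAn : (A.subgroupOf H).Normal) (hB : B ≤ K) (hBn : (B.subgroupOf K).Normal) : ∀ g ∈ Subgroup.normalizer ((A ⊔ B : Subgroup G) : Set G), ∃ h ∈ Subgroup.normalizer ((A ⊔ B : Subgroup G) : Set G) ⊓ H, ∃ k ∈ Subgroup.normalizer ((A ⊔ B : Subgroup G) : Set G) ⊓ K, g = h * k := by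
  intro g hg
  obtain ⟨h, hh, k, hk, rfl⟩ := hHK g
  have hAn' := (Subgroup.normal_subgroupOf_iff hA).mp hAn
  have hBn' := (Subgroup.normal_subgroupOf_iff hB).mp hBn
  have key : h ∈ Subgroup.normalizer ((A ⊔ B : Subgroup G) : Set G) := by
    apply H12.Basic.mem_normalizer_of_conj
    have : (A ⊔ B).map (MulAut.conj h).toMonoidHom ≤ A ⊔ B := by
      rw [Subgroup.map_sup]
      refine sup_le ?_ ?_
      · rintro _ ⟨a, ha, rfl⟩
        exact Subgroup.mem_sup_left (hAn' a h ha hh)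
      · rintro _ ⟨b, hb, rfl⟩
        have h1 : k⁻¹ * b * k ∈ B := by simpa using hBn' b k⁻¹ hb (K.inv_mem hk)
        have h2 := (Subgroup.mem_normalizer_iff.mp hg _).mp (Subgroup.mem_sup_right (S := A) h1)
        have e : h * k * (k⁻¹ * b * k) * (h * k)⁻¹ = h * b * h⁻¹ := by group
        rw [e] at h2
        exact h2
    intro x hx
    exact this ⟨x, hx, rfl⟩
  refine ⟨h, ⟨key, hh⟩, k, ⟨?_, hk⟩, rfl⟩
  have := Subgroup.mul_mem _ (Subgroup.inv_mem _ key) hg
  simpa using this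

end Cfsg.Agent.S0562
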