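import Cfsg.Statements.S0563
import Cfsg.Agent.Lib.H12.KW6

set_option autoImplicit false
open Pointwise
open Cfsg

namespace Cfsg.Agent.S0563

theorem hall {G : Type*} [Group G] [Finite G] (A B : Subgroup G) (hA : Group.IsNilpotent A) (hcop : (Nat.card A).Coprime (Nat.card B)) (hAB : ∀ g : G, ∃ a ∈ A, ∃ b ∈ B, g = a * b) (p : ℕ) [hp : Fact p.Prime] :
    (Nat.card (H12.Nil.Sy A p)).Coprime (H12.Nil.Sy A p).index := by
  have hinf : A ⊓ B = ⊥ := Subgroup.inf_eq_bot_of_coprime hcop
  have hcardG : Nat.card G = Nat.card A * Nat.card B := by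
    have h1 := H12.FacSylow.fac_card hAB
    rwa [hinf, Subgroup.card_bot, mul_one] at h1
  have hidx : A.index = Nat.card B := by
    have h1 := Subgroup.card_mul_index A
    rw [hcardG] at h1
    exact Nat.eq_of_mul_eq_mul_left Nat.card_pos h1
  obtain ⟨k, hk⟩ := (H12.Nil.isPGroup_Sy A p).exists_card_eq
  rcases Nat.eq_zero_or_pos k with h0 | h0
  · rw [hk, h0, pow_zero]; exact Nat.coprime_one_left _
  · rw [hk]
    apply Nat.Coprime.pow_left
    rw [hp.out.coprime_iff_not_dvd]
    apply H12.Nil.not_dvd_index_Sy hA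
    rw [hidx]
    intro hpB
    have hpA : p ∣ Nat.card A := by
      have h1 : p ∣ Nat.card (H12.Nil.Sy A p) := by rw [hk]; exact dvd_pow_self p h0.ne'
      exact h1.trans (Subgroup.card_dvd_of_le (H12.Nil.Sy_le A p))
    exact hp.out.one_lt.ne' (Nat.eq_one_of_dvd_coprimes hcop hpA hpB)

theorem conj_mem {G : Type*} [Group G] [Finite G] (A : Subgroup G) (hA : Group.IsNilpotent A) (p : ℕ)
    [hp : Fact p.Prime] : ∀ a ∈ A, ∀ x ∈ H12.Nil.Sy A p, a * x * a⁻¹ ∈ H12.Nil.Sy A p :=
  fun _ ha x hx => (Subgroup.mem_normalizer_iff.1 (H12.Nil.le_normalizer_Sy hA p ha) x).1 hx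

/-- If a finite group G is the product AB of two nilpotent subgroups of coprime orders, then G is solvable, and for every Sylow p-subgroup P of A and Sylow q-subgroup Q of B the product set PQ is a subgroup. -/
theorem result {G : Type*} [Group G] [Finite G] (A B : Subgroup G) (hA : Group.IsNilpotent A) (hB : Group.IsNilpotent B) (hcop : (Nat.card A).Coprime (Nat.card B)) (hAB : ∀ g : G, ∃ a ∈ A, ∃ b ∈ B, g = a * b) : Group.IsSolvable G ∧ ∀ (p q : ℕ) [Fact p.Prime] [Fact q.Prime] (P : Sylow p A) (Q : Sylow q B), ∃ S : Subgroup G, (S : Set G) = (((P : Subgroup A).map A.subtype : Subgroup G) : Set G) * (((Q : Subgroup B).map B.subtype : Subgroup G) : Set G) := by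
  have hs : Group.IsSolvable G := H12.KW.solvable_coprime _ G rfl A B hA hB hcop hAB
  refine ⟨hs, ?_⟩
  intro p q _ _ P Q
  rw [H12.Nil.map_sylow hA P, H12.Nil.map_sylow hB Q]
  apply H12.Kegel.perm_iff.1
  have hBA : ∀ g : G, ∃ b ∈ B, ∃ a ∈ A, g = b * a := fun g =>
    H12.KW.swap_fac (L := ⊤) (fun g _ => hAB g) g trivial
  exact H12.FacHall.perm_of_hall hs hAB (conj_mem A hA p) (conj_mem B hB q)
    (hall A B hA hcop hAB p) (hall B A hB hcop.symm hBA q)

end Cfsg.Agent.S0563
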