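import Cfsg.Statements.S0565
import Cfsg.Agent.Lib.H12.KW7
import Cfsg.Agent.Lib.H12.MinNormal
import Cfsg.Agent.Lib.H12.BlkB

set_option autoImplicit false
open Pointwise
open Cfsg

universe u

namespace Cfsg.Agent.S0565

open Subgroup H12.Nil H12.KW

theorem map_ne_top {G : Type u} [Group G] {A K : Subgroup G} [K.Normal] (h : A ⊔ K ≠ ⊤) :
    A.map (QuotientGroup.mk' K) ≠ ⊤ := by
  intro h1
  apply h
  have h2 : (A.map (QuotientGroup.mk' K)).comap (QuotientGroup.mk' K) = ⊤ := by
    rw [h1, Subgroup.comap_top]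
  rwa [QuotientGroup.comap_map_mk', sup_comm] at h2

theorem main (n : ℕ) : ∀ (G : Type u) [Group G] [Finite G], Nat.card G = n →
    ∀ A B : Subgroup G, Group.IsNilpotent A → Group.IsNilpotent B →
    (∀ g : G, ∃ a ∈ A, ∃ b ∈ B, g = a * b) → (A ≠ ⊤ ∨ B ≠ ⊤) →
    ∃ N : Subgroup G, N.Normal ∧ N ≠ ⊤ ∧ (A ≤ N ∨ B ≤ N) := by
  induction n using Nat.strong_induction_on with
  | _ n ih =>
    intro G _ _ hn A B hA hB hAB hne
    subst hn
    have hs : Group.IsSolvable G := H12.KW.solvable _ G rfl A B hA hB hAB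
    have hred : ∀ K : Subgroup G, K.Normal → K ≠ ⊥ → (A ⊔ K ≠ ⊤ ∨ B ⊔ K ≠ ⊤) →
        ∃ N : Subgroup G, N.Normal ∧ N ≠ ⊤ ∧ (A ≤ N ∨ B ≤ N) := by
      intro K hK hKb hor
      have hlt : Nat.card (G ⧸ K) < Nat.card G := by
        have h1 := Subgroup.card_mul_index K
        have h2 : 1 < Nat.card K := by
          rw [Finite.one_lt_card_iff_nontrivial, Subgroup.nontrivial_iff_ne_bot]
          exact hKb
        have h3 : 0 < K.index := Nat.pos_of_ne_zero Subgroup.index_ne_zero_of_finite
        have h4 : Nat.card (G ⧸ K) = K.index := rfl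
        rw [h4, ← h1]
        nlinarith
      obtain ⟨M, hM, hMt, hMle⟩ := ih _ hlt (G ⧸ K) rfl (A.map (QuotientGroup.mk' K))
        (B.map (QuotientGroup.mk' K)) (nilp_map hA _) (nilp_map hB _) (fac_quot hAB)
        (hor.imp map_ne_top map_ne_top)
      refine ⟨M.comap (QuotientGroup.mk' K), hM.comap _, ?_, ?_⟩
      · intro h1
        apply hMt
        rw [eq_top_iff]
        intro g _
        obtain ⟨g, rfl⟩ := QuotientGroup.mk'_surjective K g
        have : g ∈ M.comap (QuotientGroup.mk' K) := by rw [h1]; trivial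
        exact this
      · exact hMle.imp Subgroup.map_le_iff_le_comap.1 Subgroup.map_le_iff_le_comap.1
    by_cases hGn : Group.IsNilpotent G
    · have key : ∀ C : Subgroup G, C ≠ ⊤ → ∃ N : Subgroup G, N.Normal ∧ N ≠ ⊤ ∧ C ≤ N := by
        intro C hC
        obtain ⟨M, hM, hCM⟩ := (eq_top_or_exists_le_coatom C).resolve_left hC
        exact ⟨M, NormalizerCondition.normal_of_coatom M Group.normalizerCondition_of_isNilpotent hM,
          hM.1, hCM⟩
      rcases hne with h1 | h1
      · obtain ⟨N, h2, h3, h4⟩ := key A h1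
        exact ⟨N, h2, h3, Or.inl h4⟩
      · obtain ⟨N, h2, h3, h4⟩ := key B h1
        exact ⟨N, h2, h3, Or.inr h4⟩
    have htop : ∀ C : Subgroup G, Group.IsNilpotent C → C ≠ ⊤ := by
      intro C hC h1
      apply hGn
      rw [h1] at hC
      exact Group.nilpotent_of_mulEquiv Subgroup.topEquiv
    have hAt := htop A hA
    have hBt := htop B hB
    have htb : (⊤ : Subgroup G) ≠ ⊥ := by
      intro h1
      have h2 := hAt
      rw [h1] at h2
      exact h2 (le_bot_iff.1 (h1 ▸ le_top))
    obtain ⟨N, hN, hNb, -, hmin⟩ := H12.MinNormal.exists_min (N := (⊤ : Subgroup G)) inferInstance htb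
    by_cases hor : A ⊔ N ≠ ⊤ ∨ B ⊔ N ≠ ⊤
    · exact hred N hN hNb hor
    push Not at hor
    obtain ⟨hAN, hBN⟩ := hor
    have hNc := H12.MinNormal.comm_of_solvable hN hNb hmin
    obtain ⟨p, hp, hpe⟩ := H12.MinNormal.exists_prime_exponent hN hNb hmin hNc
    have hpf := Fact.mk hp
    have hNp : IsPGroup p N := H12.MinNormal.isPGroup_of_exponent hpe
    have e1 := sup_eq_of_cover hA hAN p
    have e2 := sup_eq_of_cover hB hBN p
    -- both `Sy A p` and `Sy B p` are normal
    have hnorm : ∀ C : Subgroup G, Group.IsNilpotent C → C ⊔ N = ⊤ → (Sy C p).Normal := by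
      intro C hC hCN
      have e1 := sup_eq_of_cover hC hCN p
      have hPn : (Sy C p ⊔ N).Normal := by
        have hn : ((Sy C p).map (QuotientGroup.mk' N)).Normal := by rw [e1]; infer_instance
        have h1 := hn.comap (QuotientGroup.mk' N)
        rwa [QuotientGroup.comap_map_mk', sup_comm] at h1
      have hPp : IsPGroup p (Sy C p ⊔ N : Subgroup G) :=
        (isPGroup_Sy C p).to_sup_of_normal_right hNp
      have h1 := H12.Blk.inf_centralizer_ne_bot hPp hN le_sup_right hNb
      have h2 : N ⊓ centralizer ((Sy C p ⊔ N : Subgroup G) : Set G) = N :=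
        (hmin _ inferInstance inf_le_left).resolve_left h1
      have h3 : N ≤ centralizer (Sy C p : Set G) := by
        rw [← h2]
        exact inf_le_right.trans (Subgroup.centralizer_le (SetLike.coe_subset_coe.2 le_sup_left))
      rw [← Subgroup.normalizer_eq_top_iff, eq_top_iff, ← hCN]
      exact sup_le (le_normalizer_Sy hC p) (h3.trans (Subgroup.centralizer_le_normalizer _))
    have hAn := hnorm A hA hAN
    have hBn := hnorm B hB hBN
    by_cases hAb : Sy A p = ⊥
    · by_cases hBb : Sy B p = ⊥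
      · exfalso
        have h1 : p ∣ Nat.card N := by
          obtain ⟨k, hk⟩ := hNp.exists_card_eq
          have hk0 : k ≠ 0 := by
            rintro rfl
            exact hNb (Subgroup.card_eq_one.1 (by simpa using hk))
          rw [hk]; exact dvd_pow_self p hk0
        have h2 : p ∣ Nat.card A * Nat.card B := by
          rw [← H12.FacSylow.fac_card hAB]
          exact Dvd.dvd.mul_right (h1.trans (Subgroup.card_subgroup_dvd_card N)) _
        rcases hp.dvd_mul.1 h2 with h3 | h3
        · exact Sy_ne_bot hA h3 hAb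
        · exact Sy_ne_bot hB h3 hBb
      · refine hred (Sy B p) hBn hBb (Or.inr ?_)
        rwa [sup_eq_left.2 (Sy_le B p)]
    · refine hred (Sy A p) hAn hAb (Or.inl ?_)
      rwa [sup_eq_left.2 (Sy_le A p)]

/-- Let the finite group G be the product AB of nilpotent subgroups A and B, not both equal to G. Then there is a proper normal subgroup of G containing A or containing B. -/
theorem result {G : Type*} [Group G] [Finite G] (A B : Subgroup G) (hA : Group.IsNilpotent A) (hB : Group.IsNilpotent B) (hAB : ∀ g : G, ∃ a ∈ A, ∃ b ∈ B, g = a * b) (hproper : A ≠ ⊤ ∨ B ≠ ⊤) : ∃ N : Subgroup G, N.Normal ∧ N ≠ ⊤ ∧ (A ≤ N ∨ B ≤ N) :=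
  main _ G rfl A B hA hB hAB hproper

end Cfsg.Agent.S0565
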