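import Cfsg.Statements.S0567
import Cfsg.Agent.Lib.H1.Coprime2

set_option autoImplicit false
open Cfsg

namespace Cfsg.Agent.S0567

open Subgroup in
theorem iter_mono {G : Type*} [Group G] {H K L M : Subgroup G} (hHK : H ≤ K) (m : ℕ) (h : L ≤ M) :
    (fun J : Subgroup G => ⁅J, H⁆)^[m] L ≤ (fun J : Subgroup G => ⁅J, K⁆)^[m] M := by
  induction m generalizing L M with
  | zero => simpa using h
  | succ m ih =>
    rw [Function.iterate_succ_apply, Function.iterate_succ_apply]
    exact ih (Subgroup.commutator_mono h hHK)

/-- A subgroup H of a group G is subnormal exactly when, for some m, the subgroup obtained from G by taking the commutator with H m times in succession is contained in H. -/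
theorem result {G : Type*} [Group G] (H : Subgroup G) : H.IsSubnormal ↔ ∃ m : ℕ, (fun K : Subgroup G => ⁅K, H⁆)^[m] ⊤ ≤ H := by
  constructor
  · intro h
    induction h with
    | top => exact ⟨0, le_top⟩
    | step H K hle hS hN ih =>
      obtain ⟨m, hm⟩ := ih
      refine ⟨m + 1, ?_⟩
      rw [Function.iterate_succ_apply']
      have h1 := (iter_mono hle m (le_refl (⊤ : Subgroup G))).trans hm
      refine (Subgroup.commutator_mono h1 le_rfl).trans ?_
      apply H1.Coprime2.commutator_le_right
      exact (Subgroup.normal_subgroupOf_iff_le_normalizer hle).1 hN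
  · rintro ⟨m, hm⟩
    set F : ℕ → Subgroup G := fun i => (fun K : Subgroup G => ⁅K, H⁆)^[i] ⊤ with hF
    have hsucc : ∀ i, F (i + 1) = ⁅F i, H⁆ := fun i => Function.iterate_succ_apply' _ _ _
    have hnorm : ∀ i, H ≤ Subgroup.normalizer ((F i : Subgroup G) : Set G) := by
      intro i
      cases i with
      | zero =>
        have : F 0 = ⊤ := rfl
        rw [this, Subgroup.normalizer_eq_top]
        exact le_top
      | succ i =>
        rw [hsucc]
        exact H1.Coprime2.le_normalizer_commutator_right _ _
    have hle : ∀ i, F (i + 1) ≤ F i := by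
      intro i
      rw [hsucc]
      exact H1.Coprime2.commutator_le_left (hnorm i)
    have key : ∀ i, (H ⊔ F i).IsSubnormal := by
      intro i
      induction i with
      | zero =>
        have : H ⊔ F 0 = ⊤ := by
          have : F 0 = ⊤ := rfl
          rw [this]; exact sup_top_eq _
        rw [this]; exact Subgroup.IsSubnormal.top
      | succ i ih =>
        have h1 : H ⊔ F (i + 1) ≤ H ⊔ F i := sup_le_sup_left (hle i) _
        refine Subgroup.IsSubnormal.step _ _ h1 ih ?_
        rw [Subgroup.normal_subgroupOf_iff_le_normalizer h1]
        apply sup_le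
        · exact H1.Coprime2.le_normalizer_sup Subgroup.le_normalizer (hnorm _)
        · have h2 : F i ≤ Subgroup.normalizer ((F (i + 1) : Subgroup G) : Set G) := by
            rw [hsucc]
            exact H1.Coprime2.le_normalizer_commutator_left _ _
          apply H1.Coprime.le_normalizer_of_conj_mem
          intro k hk x hx
          have h4 : (H ⊔ F (i + 1)).map (MulAut.conj k).toMonoidHom ≤ H ⊔ F (i + 1) := by
            rw [Subgroup.map_sup]
            apply sup_le
            · rintro _ ⟨h, hh, rfl⟩
              have h5 : k * h * k⁻¹ = (k * h * k⁻¹ * h⁻¹) * h := by group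
              change k * h * k⁻¹ ∈ _
              rw [h5]
              refine mul_mem (le_sup_right (a := H) ?_) (le_sup_left (a := H) hh)
              rw [hsucc, ← commutatorElement_def]
              exact Subgroup.commutator_mem_commutator hk hh
            · rintro _ ⟨h, hh, rfl⟩
              exact le_sup_right (a := H) (H1.Coprime.conj_mem_of_le_normalizer h2 hk hh)
          exact h4 ⟨x, hx, rfl⟩
    have h := key m
    rwa [sup_eq_left.2 hm] at h

end Cfsg.Agent.S0567
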