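import Cfsg.Statements.S0570
import Cfsg.Agent.Lib.H12.CarterSys

set_option autoImplicit false
open Cfsg

namespace Cfsg.Agent.S0570

/-- Let G be a finite group with a nilpotent normal subgroup F such that G modulo F is nilpotent (nilpotent length at most two). Then a subgroup of G is a Carter subgroup if and only if it is the system normalizer of some Hall complement system. -/
theorem result {G : Type*} [Group G] [Finite G] (F : Subgroup G) [F.Normal] (hF : Group.IsNilpotent F) (hGF : Group.IsNilpotent (G ⧸ F)) (C : Subgroup G) : Cfsg.IsCarterSubgroup C ↔ ∃ K : Nat.Primes → Subgroup G, Cfsg.IsComplementSystem K ∧ C = Cfsg.systemNormalizer K := by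
  have hs : Group.IsSolvable G := by
    refine solvable_of_ker_le_range F.subtype (QuotientGroup.mk' F) ?_
    rw [QuotientGroup.ker_mk', Subgroup.range_subtype]
  exact H12.CarterSys.carter_iff F hF hGF hs C

end Cfsg.Agent.S0570
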