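import Cfsg.Statements.S0574
import Cfsg.Agent.Lib.H12.KW7
import Cfsg.Agent.Lib.H12.AbAb
import Mathlib.NumberTheory.ArithmeticFunction.Misc

set_option autoImplicit false
open Pointwise
open Cfsg

universe u

namespace Cfsg.Agent.S0574

open Subgroup
open scoped commutatorElement

theorem lemL {G : Type u} [Group G] [hs : Group.IsSolvable G] (A B : Subgroup G)
    (hA : ∀ x ∈ A, ∀ y ∈ A, x * y = y * x) (hAB : ∀ g : G, ∃ a ∈ A, ∃ b ∈ B, g = a * b) {x : G}
    (hx : x ∈ ⁅B, B⁆) (hxB : ∀ b ∈ B, x * b = b * x) (htop : A ⊔ zpowers x = ⊤) :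
    commutator G = ⊥ := by
  set D := commutator G with hD
  set D2 : Subgroup G := ⁅D, D⁆ with hD2
  set N := Subgroup.normalClosure ({x} : Set G) with hN
  have hxN : x ∈ N := Subgroup.subset_normalClosure rfl
  have hxD : x ∈ D := Subgroup.commutator_mono le_top le_top hx
  have hND : N ≤ D := Subgroup.normalClosure_le_normal (by simpa using hxD)
  have hAN : ∀ g : G, ∃ a ∈ A, ∃ v ∈ N, g = a * v := by
    intro g
    have hg : g ∈ A ⊔ N := by
      have : (⊤ : Subgroup G) ≤ A ⊔ N := by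
        rw [← htop]
        exact sup_le_sup_left (by rw [zpowers_le]; exact hxN) A
      exact this trivial
    obtain ⟨a, ha, v, hv, e⟩ := Subgroup.mem_sup_of_normal_right.1 hg
    exact ⟨a, ha, v, hv, e.symm⟩
  have hDN : D ≤ N := by
    rw [hD, commutator_def, Subgroup.commutator_le]
    intro g _ h _
    obtain ⟨a, ha, v, hv, rfl⟩ := hAN g
    obtain ⟨b, hb, w, hw, rfl⟩ := hAN h
    have h1 : QuotientGroup.mk' N ⁅a * v, b * w⁆ = 1 := by
      have hv' : QuotientGroup.mk' N v = 1 := (QuotientGroup.eq_one_iff _).2 hv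
      have hw' : QuotientGroup.mk' N w = 1 := (QuotientGroup.eq_one_iff _).2 hw
      rw [map_commutatorElement, map_mul, map_mul, hv', hw', mul_one, mul_one,
        commutatorElement_eq_one_iff_mul_comm, ← map_mul, ← map_mul, hA a ha b hb]
    exact (QuotientGroup.eq_one_iff _).1 h1
  set f := QuotientGroup.mk' D2 with hf
  have hV : ∀ v ∈ D, ∀ w ∈ D, Commute (f v) (f w) := by
    intro v hv w hw
    have h1 : f ⁅v, w⁆ = 1 := (QuotientGroup.eq_one_iff _).2 (Subgroup.commutator_mem_commutator hv hw)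
    rw [map_commutatorElement] at h1
    exact commutatorElement_eq_one_iff_mul_comm.1 h1
  have hBx : ∀ b ∈ B, ∀ a ∈ A, Commute (f b) (f (a * x * a⁻¹)) := by
    intro b hb a _
    have h1 : Commute (f (a⁻¹ * b * a)) (f x) := by
      have h2 : a⁻¹ * b * a = b * ⁅b⁻¹, a⁻¹⁆ := by rw [commutatorElement_def]; group
      rw [h2, map_mul]
      have h3 : Commute (f b) (f x) := by
        show f b * f x = f x * f b
        rw [← map_mul, ← map_mul, hxB b hb]
      exact h3.mul_left (hV _ (Subgroup.commutator_mem_commutator trivial trivial) x hxD)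
    have h4 : f b = f a * f (a⁻¹ * b * a) * (f a)⁻¹ := by
      rw [← map_inv, ← map_mul, ← map_mul]; congr 1; group
    have h5 : f (a * x * a⁻¹) = f a * f x * (f a)⁻¹ := by simp
    rw [h4, h5]
    show _ * _ = _ * _
    have h6 := h1.eq
    calc f a * f (a⁻¹ * b * a) * (f a)⁻¹ * (f a * f x * (f a)⁻¹)
        = f a * (f (a⁻¹ * b * a) * f x) * (f a)⁻¹ := by group
      _ = f a * (f x * f (a⁻¹ * b * a)) * (f a)⁻¹ := by rw [h6]
      _ = _ := by group
  have hBV : ∀ b ∈ B, ∀ v ∈ N, Commute (f b) (f v) := by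
    intro b hb
    have h1 : N ≤ (centralizer ({f b} : Set (G ⧸ D2))).comap f := by
      rw [hN, Subgroup.normalClosure, Subgroup.closure_le]
      intro y hy
      rw [Group.mem_conjugatesOfSet_iff] at hy
      obtain ⟨x', hx', hxy⟩ := hy
      rw [Set.mem_singleton_iff] at hx'
      subst hx'
      rw [isConj_iff] at hxy
      obtain ⟨g, rfl⟩ := hxy
      obtain ⟨a, ha, b', hb', rfl⟩ := hAB g
      have h2 : a * b' * x' * (a * b')⁻¹ = a * x' * a⁻¹ := by
        have h3 : b' * x' * b'⁻¹ = x' := by rw [← hxB b' hb', mul_inv_cancel_right]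
        calc a * b' * x' * (a * b')⁻¹ = a * (b' * x' * b'⁻¹) * a⁻¹ := by group
          _ = _ := by rw [h3]
      rw [h2]
      exact mem_centralizer_singleton_iff.2 (hBx b hb a ha).symm.eq
    intro v hv
    exact (mem_centralizer_singleton_iff.1 (h1 hv) : Commute (f v) (f b)).symm
  have hBB : ∀ b1 ∈ B, ∀ b2 ∈ B, Commute (f b1) (f b2) := by
    intro b1 hb1 b2 hb2
    obtain ⟨a1, ha1, v1, hv1, e1⟩ := hAN b1
    obtain ⟨a2, ha2, v2, hv2, e2⟩ := hAN b2
    have c1 : Commute (f b1) (f v2) := hBV b1 hb1 v2 hv2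
    have c2 : Commute (f b2) (f v1) := hBV b2 hb2 v1 hv1
    have c3 : Commute (f v1) (f v2) := hV v1 (hND hv1) v2 (hND hv2)
    have c4 : Commute (f a1) (f a2) := by
      show f a1 * f a2 = f a2 * f a1
      rw [← map_mul, ← map_mul, hA a1 ha1 a2 ha2]
    have c5 : Commute (f a1) (f v2) := by
      have : f a1 = f b1 * (f v1)⁻¹ := by rw [e1, map_mul, mul_inv_cancel_right]
      rw [this]
      exact c1.mul_left c3.inv_left
    have c6 : Commute (f a2) (f v1) := by
      have : f a2 = f b2 * (f v2)⁻¹ := by rw [e2, map_mul, mul_inv_cancel_right]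
      rw [this]
      exact c2.mul_left c3.symm.inv_left
    rw [e1, e2, map_mul, map_mul]
    exact (c4.mul_right c5).mul_left (c6.symm.mul_right c3)
  have hxD2 : x ∈ D2 := by
    have h1 : ⁅B, B⁆ ≤ D2 := by
      rw [Subgroup.commutator_le]
      intro b1 hb1 b2 hb2
      have h2 : f ⁅b1, b2⁆ = 1 := by
        rw [map_commutatorElement]
        exact commutatorElement_eq_one_iff_mul_comm.2 (hBB b1 hb1 b2 hb2).eq
      exact (QuotientGroup.eq_one_iff _).1 h2
    exact h1 hx
  by_contra hne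
  have hlt : ⁅D, D⁆ < D := Group.IsSolvable.commutator_lt_of_ne_bot hne
  have hle : D ≤ ⁅D, D⁆ := hDN.trans (Subgroup.normalClosure_le_normal (by simpa using hxD2))
  exact absurd hlt (not_lt_of_ge hle)

theorem exists_x {G : Type u} [Group G] [Finite G] [hs : Group.IsSolvable G] (A B : Subgroup G)
    (hA : ∀ x ∈ A, ∀ y ∈ A, x * y = y * x) (hAB : ∀ g : G, ∃ a ∈ A, ∃ b ∈ B, g = a * b)
    (hB : ∀ x ∈ ⁅B, B⁆, ∀ b ∈ B, x * b = b * x) (hne : ⁅B, B⁆ ≠ ⊥) :
    ∃ x ∈ ⁅B, B⁆, x ≠ 1 ∧ ∀ b1 ∈ (A ⊔ zpowers x) ⊓ B, ∀ b2 ∈ (A ⊔ zpowers x) ⊓ B,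
      b1 * b2 = b2 * b1 := by
  obtain ⟨x0, hx0, hx01⟩ := (Subgroup.ne_bot_iff_exists_ne_one.1 hne) |> fun ⟨z, hz⟩ =>
    (⟨z.1, z.2, fun h => hz (Subtype.ext h)⟩ : ∃ z : G, z ∈ ⁅B, B⁆ ∧ z ≠ 1)
  obtain ⟨x, ⟨hx, hx1⟩, hmin⟩ := Set.exists_min_image {x : G | x ∈ ⁅B, B⁆ ∧ x ≠ 1}
    (fun x => Nat.card (A ⊔ zpowers x : Subgroup G)) (Set.toFinite _) ⟨x0, hx0, hx01⟩
  refine ⟨x, hx, hx1, ?_⟩
  by_contra hcon
  push Not at hcon
  obtain ⟨b1, hb1, b2, hb2, hb12⟩ := hcon
  set H := A ⊔ zpowers x with hH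
  have hAH : A ≤ H := le_sup_left
  set x' := ⁅b1, b2⁆ with hx'
  have hx'1 : x' ≠ 1 := fun h1 => hb12 (commutatorElement_eq_one_iff_mul_comm.1 h1)
  have hx'B : x' ∈ ⁅B, B⁆ := Subgroup.commutator_mem_commutator (Subgroup.mem_inf.1 hb1).2
    (Subgroup.mem_inf.1 hb2).2
  have hx'H : x' ∈ H := H.commutator_le_self (Subgroup.commutator_mem_commutator
    (Subgroup.mem_inf.1 hb1).1 (Subgroup.mem_inf.1 hb2).1)
  have hle : A ⊔ zpowers x' ≤ H := sup_le hAH (by rwa [zpowers_le])
  have heq : A ⊔ zpowers x' = H := Subgroup.eq_of_le_of_card_ge hle (hmin x' ⟨hx'B, hx'1⟩)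
  -- pass to the group H
  have hfac : ∀ g : H, ∃ a ∈ A.subgroupOf H, ∃ b ∈ (H ⊓ B).subgroupOf H, g = a * b := by
    rintro ⟨g, hg⟩
    obtain ⟨a, ha, b, hb, e⟩ := H12.KW.fac_ge hAB hAH g hg
    exact ⟨⟨a, hAH (Subgroup.mem_inf.1 ha).2⟩, Subgroup.mem_subgroupOf.2 (Subgroup.mem_inf.1 ha).2,
      ⟨b, (Subgroup.mem_inf.1 hb).1⟩, Subgroup.mem_subgroupOf.2 hb, Subtype.ext e⟩
  have h1 : commutator H = ⊥ := by
    refine lemL (A.subgroupOf H) ((H ⊓ B).subgroupOf H)
      (fun u hu v hv => Subtype.ext (hA _ (Subgroup.mem_subgroupOf.1 hu) _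
        (Subgroup.mem_subgroupOf.1 hv))) hfac (x := ⟨x', hx'H⟩) ?_ ?_ ?_
    · have := Subgroup.commutator_mem_commutator
        (H₁ := (H ⊓ B).subgroupOf H) (H₂ := (H ⊓ B).subgroupOf H)
        (g₁ := (⟨b1, (Subgroup.mem_inf.1 hb1).1⟩ : H)) (g₂ := ⟨b2, (Subgroup.mem_inf.1 hb2).1⟩)
        (Subgroup.mem_subgroupOf.2 hb1) (Subgroup.mem_subgroupOf.2 hb2)
      exact this
    · intro b hb
      exact Subtype.ext (hB x' hx'B b (Subgroup.mem_inf.1 (Subgroup.mem_subgroupOf.1 hb)).2)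
    · apply Subgroup.map_injective H.subtype_injective
      rw [Subgroup.map_sup, MonoidHom.map_zpowers, Subgroup.map_subgroupOf_eq_of_le hAH,
        ← MonoidHom.range_eq_map, Subgroup.range_subtype]
      exact heq
  have h2 : (⟨x', hx'H⟩ : H) ∈ commutator H := Subgroup.commutator_mem_commutator
    (g₁ := (⟨b1, (Subgroup.mem_inf.1 hb1).1⟩ : H)) (g₂ := ⟨b2, (Subgroup.mem_inf.1 hb2).1⟩)
    trivial trivial
  rw [h1, Subgroup.mem_bot] at h2
  exact hx'1 (congrArg Subtype.val h2)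

theorem main (k : ℕ) : ∀ (G : Type u) [Group G] [Finite G] [Group.IsSolvable G] (A B : Subgroup G),
    (∀ x ∈ A, ∀ y ∈ A, x * y = y * x) → (∀ g : G, ∃ a ∈ A, ∃ b ∈ B, g = a * b) →
    (∀ x ∈ ⁅B, B⁆, ∀ b ∈ B, x * b = b * x) →
    ArithmeticFunction.cardFactors (Nat.card ↥⁅B, B⁆) = k → derivedSeries G (2 * (1 + k)) = ⊥ := by
  induction k using Nat.strong_induction_on with
  | _ k ih =>
    intro G _ _ _ A B hA hAB hB hk
    by_cases hne : ⁅B, B⁆ = ⊥
    · have hBc : ∀ x ∈ B, ∀ y ∈ B, x * y = y * x := by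
        intro x hx y hy
        have h1 : ⁅x, y⁆ ∈ ⁅B, B⁆ := Subgroup.commutator_mem_commutator hx hy
        rw [hne, Subgroup.mem_bot] at h1
        exact commutatorElement_eq_one_iff_mul_comm.1 h1
      have h1 := H12.Ito.derivedSeries_two A B hA hBc hAB
      rw [eq_bot_iff, ← h1]
      exact derivedSeries_antitone G (by omega)
    · obtain ⟨x, hx, hx1, hcomm⟩ := exists_x A B hA hAB hB hne
      set H := A ⊔ zpowers x with hH
      have hAH : A ≤ H := le_sup_left
      have hxH : x ∈ H := (le_sup_right : zpowers x ≤ H) (mem_zpowers x)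
      set N := Subgroup.normalClosure ({x} : Set G) with hN
      have hNH : N ≤ H := by
        rw [hN, Subgroup.normalClosure, Subgroup.closure_le]
        intro y hy
        rw [Group.mem_conjugatesOfSet_iff] at hy
        obtain ⟨x', hx', hxy⟩ := hy
        rw [Set.mem_singleton_iff] at hx'
        subst hx'
        rw [isConj_iff] at hxy
        obtain ⟨g, rfl⟩ := hxy
        obtain ⟨a, ha, b', hb', rfl⟩ := hAB g
        have h2 : a * b' * x' * (a * b')⁻¹ = a * x' * a⁻¹ := by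
          have h3 : b' * x' * b'⁻¹ = x' := by rw [← hB x' hx b' hb', mul_inv_cancel_right]
          calc a * b' * x' * (a * b')⁻¹ = a * (b' * x' * b'⁻¹) * a⁻¹ := by group
            _ = _ := by rw [h3]
        rw [SetLike.mem_coe, h2]
        exact H.mul_mem (H.mul_mem (hAH ha) hxH) (H.inv_mem (hAH ha))
      have hfac : ∀ g : H, ∃ a ∈ A.subgroupOf H, ∃ b ∈ (H ⊓ B).subgroupOf H, g = a * b := by
        rintro ⟨g, hg⟩
        obtain ⟨a, ha, b, hb, e⟩ := H12.KW.fac_ge hAB hAH g hg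
        exact ⟨⟨a, hAH (Subgroup.mem_inf.1 ha).2⟩,
          Subgroup.mem_subgroupOf.2 (Subgroup.mem_inf.1 ha).2,
          ⟨b, (Subgroup.mem_inf.1 hb).1⟩, Subgroup.mem_subgroupOf.2 hb, Subtype.ext e⟩
      have hH2 := H12.Ito.derivedSeries_two (A.subgroupOf H) ((H ⊓ B).subgroupOf H)
        (fun u hu v hv => Subtype.ext (hA _ (Subgroup.mem_subgroupOf.1 hu) _
          (Subgroup.mem_subgroupOf.1 hv)))
        (fun u hu v hv => Subtype.ext (hcomm _ (Subgroup.mem_subgroupOf.1 hu) _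
          (Subgroup.mem_subgroupOf.1 hv))) hfac
      have hH2' : (⁅⁅H, H⁆, ⁅H, H⁆⁆ : Subgroup G) = ⊥ := by
        have h1 : (derivedSeries H 2).map H.subtype = ⁅⁅H, H⁆, ⁅H, H⁆⁆ := by
          rw [derivedSeries_succ, derivedSeries_succ, derivedSeries_zero, Subgroup.map_commutator,
            Subgroup.map_commutator, ← MonoidHom.range_eq_map, Subgroup.range_subtype]
        rw [← h1, hH2, Subgroup.map_bot]
      -- the quotient
      set f := QuotientGroup.mk' N with hf
      have hBf : ⁅B.map f, B.map f⁆ = (⁅B, B⁆).map f := (Subgroup.map_commutator B B f).symm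
      have hlt : ArithmeticFunction.cardFactors (Nat.card ↥⁅B.map f, B.map f⁆) < k := by
        have h1 : Nat.card ((⁅B, B⁆).map f) * Nat.card (N.subgroupOf ⁅B, B⁆) = Nat.card ↥⁅B, B⁆ := by
          have h2 := Subgroup.card_mul_index (N.subgroupOf ⁅B, B⁆)
          have h3 : (N.subgroupOf ⁅B, B⁆).index = Nat.card ((⁅B, B⁆).map f) := by
            rw [← Subgroup.relIndex, ← Subgroup.relIndex_ker]
            rw [hf, QuotientGroup.ker_mk']
          rw [← h2, h3, mul_comm]
        have h2 : Nat.card (N.subgroupOf ⁅B, B⁆) ≠ 1 := by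
          intro h3
          have h4 := Subgroup.card_eq_one.1 h3
          have h5 : (⟨x, hx⟩ : ↥⁅B, B⁆) ∈ N.subgroupOf ⁅B, B⁆ :=
            Subgroup.mem_subgroupOf.2 (Subgroup.subset_normalClosure rfl)
          rw [h4, Subgroup.mem_bot] at h5
          exact hx1 (congrArg Subtype.val h5)
        have h3 : 0 < ArithmeticFunction.cardFactors (Nat.card (N.subgroupOf ⁅B, B⁆)) := by
          rw [Nat.pos_iff_ne_zero, Ne, ArithmeticFunction.cardFactors_eq_zero_iff_eq_zero_or_one]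
          push Not
          exact ⟨Nat.card_pos.ne', h2⟩
        rw [← hk, ← h1, hBf, ArithmeticFunction.cardFactors_mul Nat.card_pos.ne' Nat.card_pos.ne']
        omega
      have h1 := ih _ hlt (G ⧸ N) (A.map f) (B.map f)
        (by
          rintro _ ⟨a, ha, rfl⟩ _ ⟨b, hb, rfl⟩
          rw [← map_mul, ← map_mul, hA a ha b hb])
        (H12.KW.fac_quot hAB)
        (by
          rw [hBf]
          rintro _ ⟨a, ha, rfl⟩ _ ⟨b, hb, rfl⟩
          rw [← map_mul, ← map_mul, hB a ha b hb]) rfl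
      have h2 : derivedSeries G (2 * k) ≤ N := by
        have h3 : derivedSeries G (2 * k) ≤
            derivedSeries G (2 * (1 + ArithmeticFunction.cardFactors (Nat.card ↥⁅B.map f, B.map f⁆))) :=
          derivedSeries_antitone G (by omega)
        refine h3.trans ?_
        have h4 := map_derivedSeries_le_derivedSeries f
          (2 * (1 + ArithmeticFunction.cardFactors (Nat.card ↥⁅B.map f, B.map f⁆)))
        rw [h1, le_bot_iff, Subgroup.map_eq_bot_iff, hf, QuotientGroup.ker_mk'] at h4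
        exact h4
      have h3 : 2 * (1 + k) = 2 * k + 1 + 1 := by ring
      rw [h3, derivedSeries_succ, derivedSeries_succ, eq_bot_iff, ← hH2']
      exact Subgroup.commutator_mono (Subgroup.commutator_mono (h2.trans hNH) (h2.trans hNH))
        (Subgroup.commutator_mono (h2.trans hNH) (h2.trans hNH))

/-- Let the finite group G be the product AB of an abelian subgroup A and a subgroup B of nilpotency class at most two, and let Ω be the number of prime factors, with multiplicity, of the order of the commutator subgroup of B. Then the term of index 2(1 + Ω) of the derived series of G is trivial. -/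
theorem result {G : Type*} [Group G] [Finite G] (A B : Subgroup G) [IsMulCommutative A] (hB : commutator ↥B ≤ Subgroup.center ↥B) (hAB : ∀ g : G, ∃ a ∈ A, ∃ b ∈ B, g = a * b) : derivedSeries G (2 * (1 + (Nat.card ↥(commutator ↥B)).primeFactorsList.length)) = ⊥ := by
  have hA' := H12.Ito.comm_of_mul_comm (A := A) inferInstance
  have hAn := H12.AbAb.isNilpotent_of_comm hA'
  have hBn : Group.IsNilpotent B := by
    rw [Subgroup.nilpotent_iff_lowerCentralSeries]
    refine ⟨2, ?_⟩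
    show ⁅(⁅(⊤ : Subgroup B), (⊤ : Subgroup B)⁆ : Subgroup B), (⊤ : Subgroup B)⁆ = ⊥
    rw [Subgroup.commutator_eq_bot_iff_le_centralizer]
    refine hB.trans ?_
    rw [← Subgroup.centralizer_univ, Subgroup.coe_top]
  have hs : Group.IsSolvable G := H12.KW.solvable _ G rfl A B hAn hBn hAB
  have hmap : (commutator ↥B).map B.subtype = ⁅B, B⁆ := Subgroup.map_subtype_commutator B
  have hcard : Nat.card ↥⁅B, B⁆ = Nat.card ↥(commutator ↥B) := by
    rw [← hmap]
    exact Subgroup.card_map_of_injective B.subtype_injective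
  rw [← ArithmeticFunction.cardFactors_apply, ← hcard]
  refine main _ G A B hA' hAB ?_ rfl
  rw [← hmap]
  rintro _ ⟨x, hx, rfl⟩ b hb
  exact (congrArg Subtype.val (Subgroup.mem_center_iff.1 (hB hx) ⟨b, hb⟩)).symm

end Cfsg.Agent.S0574
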