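import Cfsg.Statements.S0575
import Cfsg.Agent.Lib.H12.FratNormal

set_option autoImplicit false
open Cfsg

namespace Cfsg.Agent.S0575

theorem result {G : Type*} [Group G] [Finite G] (H : Subgroup G) [H.Normal] : (frattini ↥H).map H.subtype ≤ frattini G :=
  H12.FratNormal.map_frattini_le H

end Cfsg.Agent.S0575
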