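import Cfsg.Statements.S0576
import Mathlib

set_option autoImplicit false
open Cfsg

namespace Cfsg.Agent.S0576

theorem result {G : Type*} [Group G] [Finite G] (H : Subgroup G) [H.Normal] (hH : H ≤ frattini G) : (MulAut.conj : ↥H →* MulAut ↥H).range ≤ frattini (MulAut ↥H) := by
  unfold frattini Order.radical
  refine le_iInf₂ ?_
  intro M hM
  -- the conjugation homomorphism
  by_contra hcon
  have hM : IsCoatom M := hM
  have hn : ((MulAut.conj : ↥H →* MulAut ↥H).range).Normal := by
    constructor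
    rintro _ ⟨h, rfl⟩ σ
    refine ⟨σ h, ?_⟩
    ext x
    simp [MulAut.conj_apply, MulAut.mul_apply]
  have htop : (MulAut.conj : ↥H →* MulAut ↥H).range ⊔ M = ⊤ := by
    apply hM.2
    refine lt_of_le_of_ne le_sup_right ?_
    intro h
    exact hcon (h ▸ le_sup_left)
  let φ : G →* MulAut H := MulAut.conjNormal
  have hK : (M.comap φ) ⊔ frattini G = ⊤ := by
    rw [eq_top_iff]
    intro g _
    have hg : φ g ∈ (MulAut.conj : ↥H →* MulAut ↥H).range ⊔ M := htop ▸ Subgroup.mem_top _
    obtain ⟨_, ⟨h, rfl⟩, m, hm, e⟩ := Subgroup.mem_sup_of_normal_left.mp hg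
    have e1 : φ h = MulAut.conj h := by
      ext x
      simp [φ, MulAut.conjNormal_apply]
    have e2 : φ ((h : G)⁻¹ * g) = m := by
      rw [map_mul, map_inv, e1, ← e]; group
    have e3 : g = h * ((h : G)⁻¹ * g) := by group
    rw [e3]
    refine Subgroup.mul_mem _ (Subgroup.mem_sup_right (hH h.2)) (Subgroup.mem_sup_left ?_)
    rw [Subgroup.mem_comap, e2]; exact hm
  have := frattini_nongenerating hK
  apply hcon
  rintro _ ⟨h, rfl⟩
  have h1 : (h : G) ∈ M.comap φ := this ▸ Subgroup.mem_top _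
  rw [Subgroup.mem_comap] at h1
  have e1 : φ h = MulAut.conj h := by
    ext x
    simp [φ, MulAut.conjNormal_apply]
  rwa [e1] at h1

end Cfsg.Agent.S0576
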