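import Cfsg.Statements.S0577
import Cfsg.Agent.Lib.H11.MinNonNilp2
import Cfsg.Agent.Lib.H12.Frat
import Cfsg.Agent.Lib.H12.FratNormal
import Cfsg.Agent.Lib.H12.FratArg
import Cfsg.Agent.Lib.H12.Nil
import Cfsg.Agent.Lib.H1.Hall

set_option autoImplicit false
open Cfsg

namespace Cfsg.Agent.S0577

open Subgroup H12.Nil
open scoped commutatorElement

/-- a nilpotent subgroup of a group with normal abelian `q`-subgroup containing all
`q`-subgroups and with cyclic quotient is abelian -/
theorem comm_of_nilp {H : Type*} [Group H] [Finite H] (q : ℕ) [hq : Fact q.Prime] (Q : Subgroup H)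
    [Q.Normal] (hQp : IsPGroup q Q) (hQ : ∀ x ∈ Q, ∀ y ∈ Q, x * y = y * x)
    (hall : ∀ R : Subgroup H, IsPGroup q R → R ≤ Q)
    (hcyc : IsCyclic (H ⧸ Q)) (K : Subgroup H) (hK : Group.IsNilpotent K) :
    IsMulCommutative K := by
  have h1 : K ≤ Subgroup.centralizer ((K ⊓ Q : Subgroup H) : Set H) := by
    apply le_of_Sy_le hK
    intro r hr
    by_cases hrq : r = q
    · subst hrq
      have h2 := hall _ (isPGroup_Sy K r)
      intro x hx
      rw [Subgroup.mem_centralizer_iff]
      intro y hy
      exact hQ y hy.2 x (h2 hx)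
    · have h3 : K ⊓ Q ≤ Sy K q := le_Sy hK inf_le_left (hQp.to_le inf_le_right)
      exact (Sy_le_centralizer hK hrq).trans (Subgroup.centralizer_le h3)
  refine ⟨⟨?_⟩⟩
  apply commutative_of_cyclic_center_quotient ((QuotientGroup.mk' Q).comp K.subtype)
  intro x hx
  rw [Subgroup.mem_center_iff]
  intro g
  have hxQ : (x : H) ∈ Q := by
    rw [MonoidHom.mem_ker] at hx
    exact (QuotientGroup.eq_one_iff _).1 hx
  have := Subgroup.mem_centralizer_iff.1 (h1 g.2) x (Subgroup.mem_inf.2 ⟨x.2, hxQ⟩)
  exact Subtype.ext this.symm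

theorem sylow_unique {G : Type*} [Group G] [Finite G] {p : ℕ} [Fact p.Prime] (P R : Sylow p G)
    (hP : (P : Subgroup G).Normal) : (R : Subgroup G) = P := by
  obtain ⟨g, hg⟩ := MulAction.exists_smul_eq G P R
  rw [← hg]
  have e6 : Subgroup.normalizer ((P : Subgroup G) : Set G) = ⊤ :=
      Subgroup.normalizer_eq_top_iff.2 hP
  have : g • P = P := by
    rw [Sylow.smul_eq_iff_mem_normalizer]
    exact e6 ▸ Subgroup.mem_top g
  rw [this]

theorem exists_struct {G : Type*} [Group G] [Finite G] (hG : Cfsg.IsMinimalNonNilpotent G) (q : ℕ)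
    [hqf : Fact q.Prime] (hq : q ∣ Nat.card G) (Q : Sylow q G) (hQ : (Q : Subgroup G).Normal) :
    ∃ P : Subgroup G, IsCyclic P ∧ P ⊔ Q = ⊤ := by
  obtain ⟨p, q', hp, hq', hpq, hpG, hqG, P, Q', hP, hQ', hPQ⟩ :=
    H11.MinNonNilp2.structure_nonNilpotent hG.1 hG.2
  have := Fact.mk hp
  have := Fact.mk hq'
  refine ⟨P, hP, ?_⟩
  have hcard : Nat.card G ∣ Nat.card P * Nat.card Q' := by
    have h1 := H1.Hall.card_sup_mul_card_inf (P : Subgroup G) (Q' : Subgroup G)
    rw [hPQ, Subgroup.card_top] at h1
    exact ⟨_, h1.symm⟩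
  obtain ⟨a, ha⟩ := P.2.exists_card_eq
  obtain ⟨b, hb⟩ := Q'.2.exists_card_eq
  have hprime : ∀ r : ℕ, r.Prime → r ∣ Nat.card G → r = p ∨ r = q' := by
    intro r hr hrG
    have h2 := hrG.trans hcard
    have ha' : Nat.card P = p ^ a := ha
    have hb' : Nat.card Q' = q' ^ b := hb
    rw [ha', hb'] at h2
    rcases hr.dvd_mul.1 h2 with h | h
    · exact Or.inl ((Nat.prime_dvd_prime_iff_eq hr hp).1 (hr.dvd_of_dvd_pow h))
    · exact Or.inr ((Nat.prime_dvd_prime_iff_eq hr hq').1 (hr.dvd_of_dvd_pow h))
  rcases hprime q hqf.out hq with h | h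
  · exfalso
    subst h
    apply hG.1
    refine ((Group.isNilpotent_of_finite_tfae (G := G)).out 0 3).2 ?_
    intro r hr R
    by_cases hrG : r ∣ Nat.card G
    · rcases hprime r hr.out hrG with h | h
      · subst h
        rw [sylow_unique Q R hQ]; exact hQ
      · subst h
        rw [sylow_unique Q' R hQ']; exact hQ'
    · have : (R : Subgroup G) = ⊥ := by
        obtain ⟨k, hk⟩ := R.2.exists_card_eq
        rw [← Subgroup.card_eq_one, hk]
        rcases Nat.eq_zero_or_pos k with h | h
        · rw [h, pow_zero]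
        · exfalso
          apply hrG
          exact (dvd_pow_self r h.ne').trans (hk ▸ Subgroup.card_subgroup_dvd_card _)
      rw [this]; infer_instance
  · subst h
    rw [← sylow_unique Q' Q hQ'] at hPQ
    exact hPQ

/-- Let G be a finite minimal non-nilpotent group and Q a normal Sylow q-subgroup of G, and let D be the commutator subgroup of Q regarded in G (a normal subgroup). Then G modulo D is non-abelian and all its proper subgroups are abelian. -/
theorem result {G : Type*} [Group G] [Finite G] (hG : Cfsg.IsMinimalNonNilpotent G) (q : ℕ) [Fact q.Prime] (hq : q ∣ Nat.card G) (Q : Sylow q G) (hQ : (Q : Subgroup G).Normal) (D : Subgroup G) [D.Normal] (hD : D = (commutator ↥(Q : Subgroup G)).map (Q : Subgroup G).subtype) : ¬ IsMulCommutative (G ⧸ D) ∧ ∀ K : Subgroup (G ⧸ D), K ≠ ⊤ → IsMulCommutative K := by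
  have hDQ : D ≤ (Q : Subgroup G) := by
    rw [hD]; exact Subgroup.map_subtype_le _
  constructor
  · intro hcomm
    apply hG.1
    rw [Subgroup.Normal.quotient_commutative_iff_commutator_le] at hcomm
    have hnQ : Group.IsNilpotent (Q : Subgroup G) := Q.2.isNilpotent
    have hDF : D ≤ frattini G := by
      rw [hD]
      exact (Subgroup.map_mono H12.Frat.commutator_le_frattini).trans
        (H12.FratNormal.map_frattini_le (Q : Subgroup G))
    rw [← Group.isNilpotent_top]
    apply H12.FratArg.nilpotent_of_quotient (⊤ : Subgroup G) D le_top hDF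
    have : IsMulCommutative (↥(⊤ : Subgroup G) ⧸ D.subgroupOf ⊤) := by
      rw [Subgroup.Normal.quotient_commutative_iff_commutator_le]
      change _ ≤ D.comap (⊤ : Subgroup G).subtype
      rw [← Subgroup.map_le_iff_le_comap (f := (⊤ : Subgroup G).subtype)]
      refine le_trans ?_ hcomm
      rw [_root_.commutator_def, _root_.commutator_def, Subgroup.map_commutator]
      exact Subgroup.commutator_mono le_top le_top
    letI : CommGroup (↥(⊤ : Subgroup G) ⧸ D.subgroupOf ⊤) :=
      { (inferInstance : Group (↥(⊤ : Subgroup G) ⧸ D.subgroupOf ⊤)) with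
        mul_comm := this.is_comm.comm }
    exact CommGroup.isNilpotent
  · intro K hK
    obtain ⟨P, hP, hPQ⟩ := exists_struct hG q hq Q hQ
    set Qb : Subgroup (G ⧸ D) := (Q : Subgroup G).map (QuotientGroup.mk' D) with hQb
    have hQbn : Qb.Normal := hQ.map _ (QuotientGroup.mk'_surjective D)
    have hKn : Group.IsNilpotent K := by
      have h1 : K.comap (QuotientGroup.mk' D) ≠ ⊤ := by
        intro h
        apply hK
        rw [eq_top_iff]
        intro x _
        obtain ⟨x, rfl⟩ := QuotientGroup.mk'_surjective D x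
        have : x ∈ K.comap (QuotientGroup.mk' D) := h ▸ Subgroup.mem_top x
        exact this
      have h2 := hG.2 _ h1
      have h3 : Function.Surjective ((QuotientGroup.mk' D).subgroupComap K) := by
        rintro ⟨x, hx⟩
        obtain ⟨x, rfl⟩ := QuotientGroup.mk'_surjective D x
        exact ⟨⟨x, hx⟩, rfl⟩
      exact Group.nilpotent_of_surjective _ h3
    apply comm_of_nilp q Qb (Q.2.map _) ?_ ?_ ?_ K hKn
    · rintro _ ⟨x, hx, rfl⟩ _ ⟨y, hy, rfl⟩
      rw [← map_mul, ← map_mul]
      apply QuotientGroup.eq.2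
      rw [hD]
      have : ⁅(⟨y, hy⟩ : (Q : Subgroup G))⁻¹, (⟨x, hx⟩ : (Q : Subgroup G))⁻¹⁆ ∈
        commutator ↥(Q : Subgroup G) :=
        Subgroup.commutator_mem_commutator (Subgroup.mem_top _) (Subgroup.mem_top _)
      refine ⟨_, this, ?_⟩
      simp [commutatorElement_def, mul_assoc]
    · intro R hR
      have h5 : (R.comap (QuotientGroup.mk' D)) ≤ (Q : Subgroup G) := by
        have h6 : IsPGroup q (R.comap (QuotientGroup.mk' D)) := by
          apply hR.comap_of_ker_isPGroup
          rw [QuotientGroup.ker_mk']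
          exact Q.2.to_le hDQ
        obtain ⟨S, hS⟩ := h6.exists_le_sylow
        rw [← sylow_unique Q S hQ]
        exact hS
      intro x hx
      obtain ⟨x, rfl⟩ := QuotientGroup.mk'_surjective D x
      exact ⟨x, h5 hx, rfl⟩
    · have hsurj : Function.Surjective
          (((QuotientGroup.mk' Qb).comp (QuotientGroup.mk' D)).comp P.subtype) := by
        intro x
        obtain ⟨x, rfl⟩ := QuotientGroup.mk'_surjective Qb x
        obtain ⟨x, rfl⟩ := QuotientGroup.mk'_surjective D x
        obtain ⟨a, ha, b, hb, rfl⟩ := Subgroup.mem_sup_of_normal_right.1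
          (show x ∈ P ⊔ Q from hPQ ▸ Subgroup.mem_top x)
        refine ⟨⟨a, ha⟩, ?_⟩
        have h7 : (QuotientGroup.mk' Qb) ((QuotientGroup.mk' D) b) = 1 := by
          rw [← MonoidHom.mem_ker, QuotientGroup.ker_mk']
          exact ⟨b, hb, rfl⟩
        rw [map_mul, map_mul, h7, mul_one]
        rfl
      exact isCyclic_of_surjective _ hsurj

end Cfsg.Agent.S0577
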