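import Cfsg.Statements.S0578
import Cfsg.Agent.Lib.H12.MinNormal

set_option autoImplicit false
open Cfsg
open scoped commutatorElement

namespace Cfsg.Agent.S0578

universe u

/-- strong induction: minimal counterexample -/
theorem main (n : ℕ) : ∀ (G : Type u) [Group G] [Finite G], Nat.card G = n →
    (∀ A : Subgroup G, IsMulCommutative A →
      Subgroup.normalizer (A : Set G) = Subgroup.centralizer (A : Set G)) →
    ∀ x y : G, x * y = y * x := by
  induction n using Nat.strong_induction_on with
  | _ n ih =>
  intro G _ _ hn h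
  -- proper subgroups are abelian
  have hsub : ∀ H : Subgroup G, H ≠ ⊤ → ∀ x ∈ H, ∀ y ∈ H, x * y = y * x := by
    intro H hH x hx y hy
    have hlt : Nat.card H < n := by
      rw [← hn]
      exact lt_of_le_of_ne (Subgroup.card_le_card_group H)
        (fun h1 => hH (Subgroup.card_eq_iff_eq_top H |>.mp h1))
    have := ih _ hlt H rfl ?_ ⟨x, hx⟩ ⟨y, hy⟩
    · exact congrArg Subtype.val this
    · intro A hA
      ext z
      have hA' : IsMulCommutative (A.map H.subtype) := by
        apply H12.MinNormal.isMulCommutative_of_le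
        intro a ha
        rw [Subgroup.mem_centralizer_iff]
        intro b hb
        obtain ⟨a', ha', rfl⟩ := ha
        obtain ⟨b', hb', rfl⟩ := hb
        have := hA.is_comm.comm ⟨b', hb'⟩ ⟨a', ha'⟩
        have := congrArg (fun t : A => ((t : H) : G)) this
        exact this
      have hz := h (A.map H.subtype) hA'
      have hz1 : (z : G) ∈ Subgroup.normalizer ((A.map H.subtype : Subgroup G) : Set G) ↔
          (z : G) ∈ Subgroup.centralizer ((A.map H.subtype : Subgroup G) : Set G) := by rw [hz]
      have e1 : z ∈ Subgroup.normalizer (A : Set H) ↔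
          (z : G) ∈ Subgroup.normalizer ((A.map H.subtype : Subgroup G) : Set G) := by
        constructor
        · intro h1
          apply H12.Basic.mem_normalizer_of_conj
          rintro _ ⟨a, ha, rfl⟩
          exact ⟨z * a * z⁻¹, (Subgroup.mem_normalizer_iff.mp h1 a).mp ha, rfl⟩
        · intro h1
          apply H12.Basic.mem_normalizer_of_conj
          intro a ha
          obtain ⟨b, hb, e⟩ := (Subgroup.mem_normalizer_iff.mp h1 (a : G)).mp ⟨a, ha, rfl⟩
          have : b = z * a * z⁻¹ := Subtype.ext e
          rw [← this]; exact hb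
      have e2 : z ∈ Subgroup.centralizer (A : Set H) ↔
          (z : G) ∈ Subgroup.centralizer ((A.map H.subtype : Subgroup G) : Set G) := by
        rw [Subgroup.mem_centralizer_iff, Subgroup.mem_centralizer_iff]
        constructor
        · rintro h1 _ ⟨a, ha, rfl⟩
          exact congrArg Subtype.val (h1 a ha)
        · intro h1 a ha
          exact Subtype.ext (h1 a ⟨a, ha, rfl⟩)
      rw [e1, e2, hz1]
  by_contra hcon
  push Not at hcon
  obtain ⟨x0, y0, hxy⟩ := hcon
  have hGnc : ¬ ∀ x y : G, x * y = y * x := fun hh => hxy (hh x0 y0)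
  have htopn : ∀ H : Subgroup G, (∀ x ∈ H, ∀ y ∈ H, x * y = y * x) → H ≠ ⊤ := by
    intro H hc ht
    apply hGnc
    intro x y
    exact hc x (ht ▸ Subgroup.mem_top x) y (ht ▸ Subgroup.mem_top y)
  -- Sylow subgroups have a normal complement
  have hcomm_of : ∀ H : Subgroup G, (∀ x ∈ H, ∀ y ∈ H, x * y = y * x) → IsMulCommutative H :=
    fun H hc => ⟨⟨fun a b => Subtype.ext (hc a a.2 b b.2)⟩⟩
  -- normal abelian subgroups are central
  have hcentral : ∀ N : Subgroup G, N.Normal → N ≠ ⊤ → N ≤ Subgroup.center G := by
    intro N hN hNt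
    have h1 := h N (hcomm_of N (hsub N hNt))
    rw [Subgroup.normalizer_eq_top] at h1
    intro x hx
    rw [Subgroup.mem_center_iff]
    intro g
    have : g ∈ Subgroup.centralizer (N : Set G) := h1 ▸ Subgroup.mem_top g
    exact (Subgroup.mem_centralizer_iff.mp this x hx).symm
  -- if every Sylow subgroup is proper then Burnside gives normal p-complements
  by_cases hpg : ∃ p : ℕ, p.Prime ∧ IsPGroup p G
  · obtain ⟨p, hp, hpG⟩ := hpg
    have := Fact.mk hp
    have hnil : Group.IsNilpotent G := hpG.isNilpotent
    -- the normalizer condition: maximal subgroups are normal hence central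
    have hmax : ∀ x : G, x ∈ Subgroup.center G := by
      intro x
      by_cases hx : Subgroup.zpowers x = ⊤
      · exfalso
        apply hGnc
        intro a b
        have ha : a ∈ Subgroup.zpowers x := hx ▸ Subgroup.mem_top a
        have hb : b ∈ Subgroup.zpowers x := hx ▸ Subgroup.mem_top b
        obtain ⟨i, rfl⟩ := ha
        obtain ⟨j, rfl⟩ := hb
        exact (Commute.refl x).zpow_zpow i j
      · obtain ⟨M, hM, hle⟩ := (eq_top_or_exists_le_coatom (Subgroup.zpowers x)).resolve_left hx
        have hMn : M.Normal := Subgroup.NormalizerCondition.normal_of_coatom M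
          (Group.normalizerCondition_of_isNilpotent) hM
        exact hcentral M hMn hM.1 (hle (Subgroup.mem_zpowers x))
    apply hGnc
    intro x y
    exact (Subgroup.mem_center_iff.mp (hmax y) x)
  · push Not at hpg
    -- every Sylow subgroup is proper, hence abelian
    have hSyl : ∀ (p : ℕ) [Fact p.Prime] (P : Sylow p G), (P : Subgroup G) ≠ ⊤ := by
      intro p hp P ht
      apply hpg p hp.out
      have := P.2
      rw [ht] at this
      exact this.of_equiv Subgroup.topEquiv
    -- G embeds in the product of the abelian quotients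
    have hker : ∀ (p : ℕ) [Fact p.Prime] (P : Sylow p G),
        ∃ N : Subgroup G, N.Normal ∧ ¬ p ∣ Nat.card N ∧ (∀ x y : G, ⁅x, y⁆ ∈ N) := by
      intro p hp P
      have hc := hcomm_of _ (hsub _ (hSyl p P))
      have hle : Subgroup.normalizer ((P : Subgroup G) : Set G) ≤
          Subgroup.centralizer ((P : Subgroup G) : Set G) := (h _ hc).le
      refine ⟨(MonoidHom.transferSylow P hle).ker, inferInstance,
        MonoidHom.not_dvd_card_ker_transferSylow P hle, ?_⟩
      intro x y
      rw [MonoidHom.mem_ker, map_commutatorElement, commutatorElement_eq_one_iff_mul_comm]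
      exact hc.is_comm.comm (MonoidHom.transferSylow P hle x) (MonoidHom.transferSylow P hle y)
    apply hGnc
    intro x y
    rw [← commutatorElement_eq_one_iff_mul_comm]
    by_contra hne
    have : orderOf ⁅x, y⁆ ≠ 1 := by rwa [Ne, orderOf_eq_one_iff]
    obtain ⟨p, hp, hpd⟩ := Nat.exists_prime_and_dvd this
    have := Fact.mk hp
    obtain ⟨N, -, hN2, hN3⟩ := hker p default
    apply hN2
    refine hpd.trans ?_
    have := orderOf_dvd_natCard (⟨⁅x, y⁆, hN3 x y⟩ : N)
    rwa [Subgroup.orderOf_mk] at this

theorem result {G : Type*} [Group G] [Finite G] (h : ∀ A : Subgroup G, IsMulCommutative A → Subgroup.normalizer (A : Set G) = Subgroup.centralizer (A : Set G)) : IsMulCommutative G :=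
  ⟨⟨fun a b => main _ G rfl h a b⟩⟩

end Cfsg.Agent.S0578
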