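import Cfsg.Statements.S0580
import Cfsg.Agent.Lib.H12.Basic

set_option autoImplicit false
open Cfsg

namespace Cfsg.Agent.S0580

universe u

theorem main (n : ℕ) : ∀ (G : Type u) [Group G] [Finite G], Nat.card G = n →
    (∀ M : Subgroup G, IsCoatom M → M.index.Prime) → Group.IsSolvable G := by
  induction n using Nat.strong_induction_on with
  | _ n ih =>
  intro G _ _ hn h
  by_cases hG : Nontrivial G
  swap
  · rw [not_nontrivial_iff_subsingleton] at hG
    infer_instance
  -- the largest prime divisor
  have hne : (Nat.card G).primeFactors.Nonempty := by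
    rw [Nat.nonempty_primeFactors]
    exact Finite.one_lt_card
  set p := (Nat.card G).primeFactors.max' hne with hp
  have hpm : p ∈ (Nat.card G).primeFactors := Finset.max'_mem _ _
  have hpp : p.Prime := Nat.prime_of_mem_primeFactors hpm
  have hpd : p ∣ Nat.card G := Nat.dvd_of_mem_primeFactors hpm
  have hmax : ∀ q : ℕ, q.Prime → q ∣ Nat.card G → q ≤ p := by
    intro q hq hqd
    exact Finset.le_max' _ _ (Nat.mem_primeFactors.mpr ⟨hq, hqd, Nat.card_pos.ne'⟩)
  have hpF := Fact.mk hpp
  obtain ⟨P⟩ : Nonempty (Sylow p G) := inferInstance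
  have hPn : (P : Subgroup G).Normal := by
    rw [← Subgroup.normalizer_eq_top_iff]
    by_contra hN
    obtain ⟨M, hM, hle⟩ := (eq_top_or_exists_le_coatom _).resolve_left hN
    have hr := h M hM
    have hPM : (P : Subgroup G) ≤ M := Subgroup.le_normalizer.trans hle
    -- |G : M| ≡ 1 mod p
    have h1 : Nat.card (Sylow p G) ≡ 1 [MOD p] := card_sylow_modEq_one p G
    have h2 : Nat.card (Sylow p M) ≡ 1 [MOD p] := card_sylow_modEq_one p M
    have h3 : Nat.card (Sylow p G) = (Subgroup.normalizer ((P : Subgroup G) : Set G)).index :=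
      P.card_eq_index_normalizer
    have h4 : Nat.card (Sylow p M) =
        (Subgroup.normalizer (((P.subtype hPM : Sylow p M) : Subgroup M) : Set M)).index :=
      (P.subtype hPM).card_eq_index_normalizer
    have h5 : Subgroup.normalizer (((P.subtype hPM : Sylow p M) : Subgroup M) : Set M) =
        (Subgroup.normalizer ((P : Subgroup G) : Set G)).subgroupOf M := by
      ext x
      rw [Subgroup.mem_subgroupOf]
      constructor
      · intro hx
        apply H12.Basic.mem_normalizer_of_conj
        intro y hy
        have := (Subgroup.mem_normalizer_iff.mp hx ⟨y, hPM hy⟩).mp hy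
        exact this
      · intro hx
        apply H12.Basic.mem_normalizer_of_conj
        intro y hy
        exact (Subgroup.mem_normalizer_iff.mp hx (y : G)).mp hy
    have h6 : (Subgroup.normalizer ((P : Subgroup G) : Set G)).index =
        Nat.card (Sylow p M) * M.index := by
      rw [h4, h5]
      exact (Subgroup.relIndex_mul_index hle).symm
    have h7 : M.index ≡ 1 [MOD p] := by
      have : Nat.card (Sylow p M) * M.index ≡ 1 * M.index [MOD p] := h2.mul_right _
      rw [← h6, ← h3, one_mul] at this
      exact this.symm.trans h1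
    have h8 : M.index ≤ p := hmax _ hr (Subgroup.index_dvd_card M)
    rcases h8.lt_or_eq with h9 | h9
    · rw [Nat.ModEq, Nat.mod_eq_of_lt h9, Nat.mod_eq_of_lt hpp.one_lt] at h7
      exact hr.one_lt.ne' h7
    · rw [h9, Nat.ModEq, Nat.mod_self, Nat.mod_eq_of_lt hpp.one_lt] at h7
      omega
  have hcard : Nat.card (G ⧸ (P : Subgroup G)) < n := by
    rw [← hn, ← Subgroup.card_mul_index (P : Subgroup G), Subgroup.index_eq_card]
    have h1 : 1 < Nat.card (P : Subgroup G) := by
      rw [Sylow.card_eq_multiplicity]
      apply Nat.one_lt_pow _ hpp.one_lt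
      exact (hpp.factorization_pos_of_dvd Nat.card_pos.ne' hpd).ne'
    have h2 : 0 < Nat.card (G ⧸ (P : Subgroup G)) := Nat.card_pos
    nlinarith
  have hπ : Function.Surjective (QuotientGroup.mk' (P : Subgroup G)) :=
    QuotientGroup.mk'_surjective _
  have hQ : Group.IsSolvable (G ⧸ (P : Subgroup G)) := by
    apply ih _ hcard _ rfl
    intro M hM
    have := h _ (Subgroup.isCoatom_comap_of_surjective hπ hM)
    rwa [Subgroup.index_comap_of_surjective _ hπ] at this
  have hPs : Group.IsSolvable (P : Subgroup G) := by
    have := P.2.isNilpotent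
    infer_instance
  exact (Group.isSolvable_iff_subgroup_quotient (P : Subgroup G)).mpr ⟨hPs, hQ⟩

theorem result {G : Type*} [Group G] [Finite G] (h : ∀ M : Subgroup G, IsCoatom M → M.index.Prime) : Group.IsSolvable G :=
  main _ G rfl h

end Cfsg.Agent.S0580
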