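import Cfsg.Statements.S0584
import Cfsg.Agent.Lib.H12.FratArg

set_option autoImplicit false
open Cfsg

namespace Cfsg.Agent.S0584

theorem result {G : Type*} [Group G] [Finite G] (A B : Subgroup G) [A.Normal] [B.Normal] (hBA : B ≤ A) (hB : B ≤ frattini G) (h : Group.IsNilpotent (↥A ⧸ B.subgroupOf A)) : Group.IsNilpotent A :=
  H12.FratArg.nilpotent_of_quotient A B hBA hB h

end Cfsg.Agent.S0584
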