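import Cfsg.Statements.S0586
import Cfsg.Agent.Lib.H12.Frat
import Cfsg.Agent.Lib.H12.FratNormal
import Cfsg.Agent.Lib.H1.Cores

set_option autoImplicit false
open Cfsg
open scoped commutatorElement Pointwise

namespace Cfsg.Agent.S0586

theorem result {G : Type*} [Group G] [Finite G] (hΦ : frattini G = ⊥) : Cfsg.fittingSubgroup G = sSup {N : Subgroup G | N.Normal ∧ N ≠ ⊥ ∧ IsMulCommutative N ∧ ∀ K : Subgroup G, K.Normal → K ≤ N → K = ⊥ ∨ K = N} := by
  set S := sSup {N : Subgroup G | N.Normal ∧ N ≠ ⊥ ∧ IsMulCommutative N ∧ ∀ K : Subgroup G, K.Normal → K ≤ N → K = ⊥ ∨ K = N} with hS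
  have hFn : (Cfsg.fittingSubgroup G).Normal := H1.Cores.fittingSubgroup_normal
  have hFnil : Group.IsNilpotent (Cfsg.fittingSubgroup G) := H1.Cores.isNilpotent_fittingSubgroup
  have hSF : S ≤ Cfsg.fittingSubgroup G := by
    refine sSup_le ?_
    rintro N ⟨hN, -, hc, -⟩
    apply H1.Cores.le_fittingSubgroup hN
    have hcc : ∀ a b : N, a * b = b * a := fun a b => hc.is_comm.comm a b
    letI : CommGroup N := { (inferInstance : Group N) with mul_comm := hcc }
    infer_instance
  have hSn : S.Normal := by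
    constructor
    intro x hx g
    have : S.map (MulAut.conj g).toMonoidHom ≤ S := by
      rw [hS, sSup_eq_iSup', Subgroup.map_iSup]
      refine iSup_le ?_
      rintro ⟨N, hN⟩
      refine le_trans ?_ (le_iSup _ ⟨N, hN⟩)
      rintro _ ⟨n, hn, rfl⟩
      exact hN.1.conj_mem n hn g
    exact this ⟨x, hx, rfl⟩
  -- F is abelian
  have hFab : Cfsg.fittingSubgroup G ≤ Subgroup.centralizer (Cfsg.fittingSubgroup G : Set G) := by
    have h1 := (Subgroup.map_mono (f := (Cfsg.fittingSubgroup G).subtype)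
      (H12.Frat.commutator_le_frattini (G := Cfsg.fittingSubgroup G))).trans
      (H12.FratNormal.map_frattini_le (Cfsg.fittingSubgroup G))
    rw [hΦ, le_bot_iff, Subgroup.map_eq_bot_iff_of_injective _ (Subgroup.subtype_injective _)] at h1
    intro x hx
    rw [Subgroup.mem_centralizer_iff]
    intro y hy
    have h2 : ⁅(⟨y, hy⟩ : Cfsg.fittingSubgroup G), ⟨x, hx⟩⁆ ∈ commutator (Cfsg.fittingSubgroup G) :=
      Subgroup.commutator_mem_commutator (Subgroup.mem_top _) (Subgroup.mem_top _)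
    rw [h1, Subgroup.mem_bot, commutatorElement_eq_one_iff_mul_comm] at h2
    exact congrArg Subtype.val h2
  obtain ⟨H, hH⟩ := H12.Frat.exists_complement hΦ S hSn
    (hSF.trans (hFab.trans (Subgroup.centralizer_le hSF)))
  refine le_antisymm ?_ hSF
  have hmul : ∀ g : G, ∃ a ∈ S, ∃ h ∈ H, a * h = g := by
    intro g
    have : g ∈ (S : Set G) * (H : Set G) := by rw [hH.mul_eq]; exact Set.mem_univ g
    exact Set.mem_mul.mp this
  have hn : (Cfsg.fittingSubgroup G ⊓ H).Normal := by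
    constructor
    intro x hx g
    obtain ⟨a, ha, h, hh, rfl⟩ := hmul g
    have h1 : h * x * h⁻¹ ∈ Cfsg.fittingSubgroup G := hFn.conj_mem x hx.1 h
    have h2 : h * x * h⁻¹ ∈ H := H.mul_mem (H.mul_mem hh hx.2) (H.inv_mem hh)
    have h3 : a * (h * x * h⁻¹) = (h * x * h⁻¹) * a :=
      Subgroup.mem_centralizer_iff.mp (hFab h1) a (hSF ha)
    have h4 : a * h * x * (a * h)⁻¹ = h * x * h⁻¹ := by
      calc a * h * x * (a * h)⁻¹ = a * (h * x * h⁻¹) * a⁻¹ := by group
        _ = _ := by rw [h3]; group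
    rw [h4]; exact ⟨h1, h2⟩
  have hbot : Cfsg.fittingSubgroup G ⊓ H = ⊥ := by
    by_contra hne
    obtain ⟨N, hN, hNne, hNle, hNmin⟩ := H12.MinNormal.exists_min hn hne
    have hNab : IsMulCommutative N := by
      apply H12.MinNormal.isMulCommutative_of_le
      exact (hNle.trans inf_le_left).trans
        (hFab.trans (Subgroup.centralizer_le (hNle.trans inf_le_left)))
    have hNS : N ≤ S := le_sSup ⟨hN, hNne, hNab, hNmin⟩
    apply hNne
    rw [eq_bot_iff]
    intro x hx
    have := hH.disjoint.le_bot (⟨hNS hx, (hNle hx).2⟩ : x ∈ S ⊓ H)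
    exact this
  intro x hx
  obtain ⟨a, ha, h, hh, rfl⟩ := hmul x
  have : h ∈ Cfsg.fittingSubgroup G ⊓ H := by
    refine ⟨?_, hh⟩
    have := Subgroup.mul_mem _ (Subgroup.inv_mem _ (hSF ha)) hx
    simpa using this
  rw [hbot, Subgroup.mem_bot] at this
  rw [this, mul_one]; exact ha

end Cfsg.Agent.S0586
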