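import Cfsg.Statements.S0587
import Cfsg.Agent.Lib.H12.Corefree
import Cfsg.Agent.Lib.H12.MinNormal
import Cfsg.Agent.Lib.H1.Hall

set_option autoImplicit false
open Cfsg
open scoped Pointwise

namespace Cfsg.Agent.S0587

/-- the p-core of a p-group-free... `Ω₁(Z(L))` as a normal subgroup -/
theorem exists_abelian {G : Type*} [Group G] [Finite G] (p : ℕ) [hp : Fact p.Prime]
    {L : Subgroup G} (hL : L.Normal) (hLp : IsPGroup p L) (hne : L ≠ ⊥) :
    ∃ K : Subgroup G, K.Normal ∧ K ≠ ⊥ ∧ K ≤ L ∧ L ≤ Subgroup.centralizer (K : Set G) ∧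
      ∀ x ∈ K, x ^ p = 1 := by
  have hnt : Nontrivial L := (Subgroup.nontrivial_iff_ne_bot _).mpr hne
  have hZ : Nontrivial (Subgroup.center L) := hLp.center_nontrivial
  have hZp : IsPGroup p (Subgroup.center L) := hLp.to_subgroup _
  let K : Subgroup G :=
    { carrier := {x | x ∈ L ∧ (∀ y ∈ L, x * y = y * x) ∧ x ^ p = 1}
      one_mem' := ⟨L.one_mem, by simp, one_pow p⟩
      mul_mem' := by
        rintro a b ⟨ha, ha', ha''⟩ ⟨hb, hb', hb''⟩
        refine ⟨L.mul_mem ha hb, ?_, ?_⟩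
        · intro y hy
          rw [mul_assoc, hb' y hy, ← mul_assoc, ha' y hy, mul_assoc]
        · have hc : Commute a b := ha' b hb
          rw [hc.mul_pow, ha'', hb'', one_mul]
      inv_mem' := by
        rintro a ⟨ha, ha', ha''⟩
        refine ⟨L.inv_mem ha, ?_, by rw [inv_pow, ha'', inv_one]⟩
        intro y hy
        have hc : Commute a y := ha' y hy
        exact hc.inv_left.eq }
  refine ⟨K, ?_, ?_, fun x hx => hx.1, ?_, fun x hx => hx.2.2⟩
  · constructor
    rintro x ⟨hx, hx', hx''⟩ g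
    refine ⟨hL.conj_mem x hx g, ?_, by rw [conj_pow, hx'']; group⟩
    intro y hy
    have h1 : g⁻¹ * y * g ∈ L := by simpa using hL.conj_mem y hy g⁻¹
    have h2 := hx' _ h1
    calc g * x * g⁻¹ * y = g * (x * (g⁻¹ * y * g)) * g⁻¹ := by group
      _ = g * ((g⁻¹ * y * g) * x) * g⁻¹ := by rw [h2]
      _ = _ := by group
  · intro hK
    have hd : p ∣ Nat.card (Subgroup.center L) := by
      obtain ⟨n, hn, e⟩ := (IsPGroup.nontrivial_iff_card hZp).mp hZ
      rw [e]; exact dvd_pow_self p hn.ne'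
    obtain ⟨x, hx⟩ := exists_prime_orderOf_dvd_card' p hd
    have hxK : ((x : L) : G) ∈ K := by
      refine ⟨(x : L).2, ?_, ?_⟩
      · intro y hy
        have := Subgroup.mem_center_iff.mp x.2 ⟨y, hy⟩
        exact (congrArg Subtype.val this).symm
      · have h1 : x ^ p = 1 := by rw [← hx]; exact pow_orderOf_eq_one x
        have h2 := congrArg (fun t : Subgroup.center L => ((t : L) : G)) h1
        simpa using h2
    rw [hK, Subgroup.mem_bot] at hxK
    have : x = 1 := Subtype.ext (Subtype.ext hxK)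
    rw [this, orderOf_one] at hx
    exact hp.out.one_lt.ne hx
  · intro y hy
    rw [Subgroup.mem_centralizer_iff]
    intro x hx
    exact hx.2.1 y hy

theorem result {G : Type*} [Group G] [Finite G] (p : ℕ) [Fact p.Prime] (hL : Cfsg.pCore p G ≠ ⊥) (M : Subgroup G) (hM : IsCoatom M) (hcore : M.normalCore = ⊥) : Cfsg.IsElementaryAbelian p (Cfsg.pCore p G) ∧ Subgroup.IsComplement' (Cfsg.pCore p G) M ∧ (∀ K : Subgroup G, K.Normal → K ≤ Cfsg.pCore p G → K = ⊥ ∨ K = Cfsg.pCore p G) ∧ Subgroup.centralizer ((Cfsg.pCore p G : Subgroup G) : Set G) = Cfsg.pCore p G ∧ ∀ (q : ℕ) [Fact q.Prime], Cfsg.pCore q ↥M ≠ ⊥ → Nat.card (Cfsg.pCore p G) % q = 1 % q ∧ q ≠ p := by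
  have hp : p.Prime := Fact.out
  have hLn : (Cfsg.pCore p G).Normal := H1.Cores.pCore_normal p
  have hLp : IsPGroup p (Cfsg.pCore p G) := H1.Cores.isPGroup_pCore p
  set L := Cfsg.pCore p G with hLdef
  obtain ⟨K, hK, hKne, hKL, hLK, hKp⟩ := exists_abelian p hLn hLp hL
  have hKc : K ≤ Subgroup.centralizer (K : Set G) := hKL.trans hLK
  have hCK := H12.Corefree.centralizer_eq_of_comm hM hcore hK hKne hKc
  have hKeq : L = K := le_antisymm (hCK ▸ hLK) hKL
  have hLc : L ≤ Subgroup.centralizer (L : Set G) := by rw [hKeq]; exact hKc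
  have hCL : Subgroup.centralizer (L : Set G) = L := by rw [hKeq]; exact hCK
  have hinf := H12.Corefree.inf_eq_bot_of_comm hM hcore hLn hL hLc
  have hcompl := H12.Corefree.isComplement' hM hcore hLn hL hinf
  have hmin : ∀ K : Subgroup G, K.Normal → K ≤ L → K = ⊥ ∨ K = L := by
    intro K' hK' hle
    by_cases h : K' = ⊥
    · exact Or.inl h
    · exact Or.inr (le_antisymm hle (H12.Corefree.le_of_normal hM hcore hLn hL hLc hK' h))
  have hexp : ∀ x ∈ L, x ^ p = 1 := by rw [hKeq]; exact hKp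
  refine ⟨⟨H12.MinNormal.isMulCommutative_of_le hLc, hexp⟩, hcompl, hmin, hCL, ?_⟩
  intro q hq hQ
  -- Q = O_q(M) in G
  set Q := (Cfsg.pCore q ↥M).map M.subtype with hQdef
  have hQq : IsPGroup q Q := (H1.Cores.isPGroup_pCore q).map _
  have hQM : Q ≤ M := Subgroup.map_subtype_le _
  have hQne : Q ≠ ⊥ := by
    intro h
    rw [hQdef, Subgroup.map_eq_bot_iff_of_injective _ M.subtype_injective] at h
    exact hQ h
  -- C_L(Q) = 1 : it is normalized by M and centralized by L
  have hMQ : ∀ m ∈ M, ∀ x ∈ Q, m * x * m⁻¹ ∈ Q := by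
    rintro m hm _ ⟨x, hx, rfl⟩
    exact ⟨⟨m, hm⟩ * x * ⟨m, hm⟩⁻¹, (H1.Cores.pCore_normal q).conj_mem x hx _, rfl⟩
  have hCn : (L ⊓ Subgroup.centralizer (Q : Set G)).Normal := by
    constructor
    intro x hx g
    obtain ⟨l, hl, m, hm, rfl⟩ := H12.Corefree.exists_mul hM hcore hLn hL g
    have h1 : m * x * m⁻¹ ∈ L := hLn.conj_mem x hx.1 m
    have h2 : m * x * m⁻¹ ∈ Subgroup.centralizer (Q : Set G) := by
      rw [Subgroup.mem_centralizer_iff]
      intro y hy
      have h3 : m⁻¹ * y * m ∈ Q := by simpa using hMQ m⁻¹ (M.inv_mem hm) y hy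
      have h4 := Subgroup.mem_centralizer_iff.mp hx.2 _ h3
      calc y * (m * x * m⁻¹) = m * ((m⁻¹ * y * m) * x) * m⁻¹ := by group
        _ = m * (x * (m⁻¹ * y * m)) * m⁻¹ := by rw [h4]
        _ = _ := by group
    have h3 : l * (m * x * m⁻¹) = (m * x * m⁻¹) * l :=
      Subgroup.mem_centralizer_iff.mp (hLc h1) l hl
    have h4 : l * m * x * (l * m)⁻¹ = m * x * m⁻¹ := by
      calc l * m * x * (l * m)⁻¹ = l * (m * x * m⁻¹) * l⁻¹ := by group
        _ = _ := by rw [h3]; group
    rw [h4]; exact ⟨h1, h2⟩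
  have hCbot : L ⊓ Subgroup.centralizer (Q : Set G) = ⊥ := by
    rcases hmin _ hCn inf_le_left with h | h
    · exact h
    · exfalso
      have h1 : Q ≤ Subgroup.centralizer (L : Set G) := by
        rw [Subgroup.le_centralizer_iff]
        exact inf_eq_left.mp h
      rw [hCL] at h1
      apply hQne
      rw [eq_bot_iff, ← hinf]
      exact le_inf h1 hQM
  -- count fixed points of Q acting on L
  let act : MulAction Q L :=
    { smul := fun x l => ⟨(x : G) * l * (x : G)⁻¹, hLn.conj_mem l l.2 x⟩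
      one_smul := fun l => Subtype.ext (by change (1 : G) * l * (1 : G)⁻¹ = l; simp)
      mul_smul := fun a b l => Subtype.ext (by
        change ((a * b : Q) : G) * l * ((a * b : Q) : G)⁻¹ = (a : G) * ((b : G) * l * (b : G)⁻¹) * (a : G)⁻¹
        push_cast; group) }
  have hcard := hQq.card_modEq_card_fixedPoints L
  have hfix : Nat.card (MulAction.fixedPoints Q L) = 1 := by
    rw [Nat.card_eq_one_iff_unique]
    constructor
    · constructor
      have key : ∀ l : MulAction.fixedPoints Q L, (l : L) = 1 := by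
        intro l
        have h1 : ((l : L) : G) ∈ L ⊓ Subgroup.centralizer (Q : Set G) := by
          refine Subgroup.mem_inf.mpr ⟨(l : L).2, ?_⟩
          rw [Subgroup.mem_centralizer_iff]
          intro x hx
          have h2 : x * ((l : L) : G) * x⁻¹ = ((l : L) : G) := congrArg Subtype.val (l.2 ⟨x, hx⟩)
          rw [mul_inv_eq_iff_eq_mul] at h2
          exact h2
        rw [hCbot, Subgroup.mem_bot] at h1
        exact Subtype.ext h1
      intro a b
      exact Subtype.ext ((key a).trans (key b).symm)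
    · exact ⟨⟨1, fun x => Subtype.ext (by change (x : G) * 1 * (x : G)⁻¹ = 1; simp)⟩⟩
  rw [hfix] at hcard
  refine ⟨hcard, ?_⟩
  rintro rfl
  obtain ⟨n, hn⟩ := IsPGroup.iff_card.mp hLp
  rw [hn] at hcard
  have hn0 : n ≠ 0 := by
    rintro rfl
    rw [pow_zero] at hn
    exact hL (Subgroup.card_eq_one.mp hn)
  have h1 : q ^ n ≡ 0 [MOD q] := (Nat.modEq_zero_iff_dvd).mpr (dvd_pow_self q hn0)
  have h2 := (h1.symm.trans hcard)
  have h3 : q ∣ 1 := (Nat.modEq_zero_iff_dvd).mp h2.symm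
  exact hq.out.one_lt.ne' (Nat.dvd_one.mp h3)

end Cfsg.Agent.S0587
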