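import Cfsg.Statements.S0588
import Cfsg.Agent.Lib.H12.Basic

set_option autoImplicit false
open Cfsg

namespace Cfsg.Agent.S0588

theorem result {G : Type*} [Group G] [Finite G] (H : Subgroup G) (h : ∀ x ∈ H, x ≠ 1 → Subgroup.centralizer ({x} : Set G) ≤ H) : (Nat.card H).Coprime H.index := by
  rw [Nat.coprime_iff_gcd_eq_one]
  by_contra hcon
  obtain ⟨p, hp, hpd⟩ := Nat.exists_prime_and_dvd hcon
  have hpF := Fact.mk hp
  have hp1 : p ∣ Nat.card H := hpd.trans (Nat.gcd_dvd_left _ _)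
  have hp2 : p ∣ H.index := hpd.trans (Nat.gcd_dvd_right _ _)
  obtain ⟨x, hx⟩ := exists_prime_orderOf_dvd_card' p hp1
  have hx1 : orderOf (x : G) = p := by rw [Subgroup.orderOf_coe, hx]
  have hxP : IsPGroup p (Subgroup.zpowers (x : G)) := by
    apply IsPGroup.of_card (n := 1)
    rw [Nat.card_zpowers, hx1, pow_one]
  obtain ⟨S, hS⟩ := hxP.exists_le_sylow
  have hxS : (x : G) ∈ (S : Subgroup G) := hS (Subgroup.mem_zpowers _)
  have hxne : (x : G) ≠ 1 := by
    intro h1
    rw [h1, orderOf_one] at hx1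
    exact hp.one_lt.ne hx1
  have hSnt : Nontrivial (S : Subgroup G) :=
    ⟨⟨⟨x, hxS⟩, 1, fun h1 => hxne (congrArg Subtype.val h1)⟩⟩
  obtain ⟨z, hz⟩ := (Subgroup.nontrivial_iff_exists_ne_one _).mp S.2.center_nontrivial
  have hzc : ∀ s : (S : Subgroup G), s * z = z * s := fun s => Subgroup.mem_center_iff.mp hz.1 s
  have hzH : (z : G) ∈ H := by
    apply h x x.2 hxne
    rw [Subgroup.mem_centralizer_singleton_iff]
    exact (congrArg Subtype.val (hzc ⟨x, hxS⟩)).symm
  have hSH : (S : Subgroup G) ≤ H := by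
    intro s hs
    apply h z hzH (fun h1 => hz.2 (Subtype.ext h1))
    rw [Subgroup.mem_centralizer_singleton_iff]
    exact congrArg Subtype.val (hzc ⟨s, hs⟩)
  exact S.not_dvd_index (hp2.trans (Subgroup.index_dvd_of_le hSH))

end Cfsg.Agent.S0588
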