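import Cfsg.Statements.S0589
import Cfsg.Agent.Lib.H1.Frob
import Cfsg.Agent.Lib.H12.NilpHall

set_option autoImplicit false
open Pointwise
open Cfsg

namespace Cfsg.Agent.S0589

theorem isTIself_conj {G : Type*} [Group G] {H : Subgroup G} (h : H1.Frob.IsTIself H) (g : G) :
    H1.Frob.IsTIself (MulAut.conj g • H) := by
  intro x hx
  rw [eq_bot_iff]
  rintro y ⟨hy1, hy2⟩
  rw [Subgroup.mem_bot]
  by_contra hy
  apply hx
  have hy2' : y ∈ MulAut.conj (x * g) • H := by
    rw [map_mul, mul_smul]; exact hy2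
  have := h.conj_eq hy hy1 hy2'
  rw [H12.Basic.mem_conj_smul]
  have e : g⁻¹ * x * g = g⁻¹ * (x * g) := by group
  rw [e]; exact this

theorem isTIself_subgroupOf {G : Type*} [Group G] {H : Subgroup G} (h : H1.Frob.IsTIself H)
    (L : Subgroup G) : H1.Frob.IsTIself (H.subgroupOf L) := by
  intro x hx
  rw [eq_bot_iff]
  rintro y ⟨hy1, hy2⟩
  rw [Subgroup.mem_bot]
  by_contra hy
  apply hx
  rw [Subgroup.mem_subgroupOf]
  have hy2' : x⁻¹ * y * x ∈ H.subgroupOf L := H12.Basic.mem_conj_smul.mp hy2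
  exact h.mem_of_conj_mem (x := (y : G)) hy1 (fun h1 => hy (Subtype.ext h1)) hy2'

theorem result {G : Type*} [Group G] [Finite G] (H : Subgroup G) (hH : Cfsg.IsFrobeniusComplement H) (L : Subgroup G) (hL : Nat.card L ∣ Nat.card H) : ∃ x : G, L ≤ MulAut.conj x • H := by
  obtain ⟨hHb, hHt, hTI⟩ := hH
  have hTI : H1.Frob.IsTIself H := hTI
  have hHall := H1.Frob.coprime_card_index hTI
  -- every element of L lies in a conjugate of H
  have helt : ∀ x ∈ L, ∃ g : G, x ∈ MulAut.conj g • H := by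
    intro x hx
    by_cases hx1 : x = 1
    · refine ⟨1, ?_⟩
      rw [hx1]; exact Subgroup.one_mem _
    obtain ⟨p, hp, hpd⟩ := Nat.exists_prime_and_dvd (n := orderOf x)
      (fun h => hx1 (orderOf_eq_one_iff.mp h))
    have hpF := Fact.mk hp
    have hord : orderOf (x ^ (orderOf x / p)) = p := by
      rw [orderOf_pow_of_dvd (Nat.div_pos (Nat.le_of_dvd (orderOf_pos x) hpd) hp.pos).ne'
        (Nat.div_dvd_of_dvd hpd)]
      exact Nat.div_div_self hpd (orderOf_pos x).ne'
    set y := x ^ (orderOf x / p) with hy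
    have hyL : y ∈ L := L.pow_mem hx _
    have hpL : p ∣ Nat.card L := by
      rw [← hord, ← Subgroup.orderOf_mk (a := y) (ha := hyL)]
      exact orderOf_dvd_natCard _
    have hpH : p ∣ Nat.card H := hpL.trans hL
    obtain ⟨P⟩ : Nonempty (Sylow p H) := inferInstance
    have hPH : (P : Subgroup H).map H.subtype ≤ H := Subgroup.map_subtype_le _
    have hPi : ¬ p ∣ ((P : Subgroup H).map H.subtype).relIndex ⊤ := by
      rw [Subgroup.relIndex_top_right, ← Subgroup.relIndex_mul_index hPH]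
      intro hd
      rcases hp.dvd_mul.mp hd with h | h
      · apply P.not_dvd_index
        rwa [Subgroup.relIndex, Subgroup.subgroupOf,
          Subgroup.comap_map_eq_self_of_injective H.subtype_injective] at h
      · exact hp.one_lt.ne' (Nat.dvd_one.mp (hHall ▸ Nat.dvd_gcd hpH h))
    obtain ⟨g, -, hg⟩ := H12.NilpHall.exists_conj_le (P.2.map H.subtype) le_top hPi
      (Q := Subgroup.zpowers y) (IsPGroup.of_card (n := 1) (by rw [Nat.card_zpowers, hord, pow_one]))
      le_top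
    refine ⟨g, ?_⟩
    have hyH : y ∈ MulAut.conj g • H :=
      (Subgroup.pointwise_smul_le_pointwise_smul_iff.mpr hPH) (hg (Subgroup.mem_zpowers y))
    apply (isTIself_conj hTI g).centralizer_le hyH
    · intro h1
      rw [h1, orderOf_one] at hord
      exact hp.one_lt.ne hord
    · rw [Subgroup.mem_centralizer_singleton_iff]
      exact (Commute.refl x).pow_right _ |>.eq
  by_cases hLb : L = ⊥
  · exact ⟨1, hLb ▸ bot_le⟩
  obtain ⟨⟨x, hxL⟩, hx1⟩ := Subgroup.ne_bot_iff_exists_ne_one.mp hLb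
  have hx1' : x ≠ 1 := fun h => hx1 (Subtype.ext h)
  obtain ⟨g1, hg1⟩ := helt x hxL
  refine ⟨g1, ?_⟩
  set M1 := (MulAut.conj g1 • H).subgroupOf L with hM1
  have hM1TI : H1.Frob.IsTIself M1 := isTIself_subgroupOf (isTIself_conj hTI g1) L
  have hc1 := H1.Frob.card_conjUnion hM1TI
  have hhalf : ∀ M : Subgroup L, M ≠ ⊥ → Nat.card L ≤ 2 * (M.index * (Nat.card M - 1)) := by
    intro M hM
    have h1 : 1 < Nat.card M := (Subgroup.one_lt_card_iff_ne_bot _).mpr hM
    have h2 := Subgroup.card_mul_index M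
    obtain ⟨m, hm⟩ : ∃ m, Nat.card M = m + 2 := ⟨Nat.card M - 2, by omega⟩
    rw [← h2, hm]
    have : m + 2 - 1 = m + 1 := by omega
    rw [this]; nlinarith [Nat.zero_le (M.index), Nat.zero_le (m * M.index)]
  have hM1b : M1 ≠ ⊥ := by
    rw [Subgroup.ne_bot_iff_exists_ne_one]
    exact ⟨⟨⟨x, hxL⟩, hg1⟩, fun h => hx1 (congrArg Subtype.val h)⟩
  -- all nontrivial elements lie in conjUnion M1
  have hall : ∀ y : L, y ≠ 1 → y ∈ H1.Frob.conjUnion M1 := by
    intro y hy
    by_contra hcon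
    obtain ⟨g2, hg2⟩ := helt y y.2
    set M2 := (MulAut.conj g2 • H).subgroupOf L with hM2
    have hM2TI : H1.Frob.IsTIself M2 := isTIself_subgroupOf (isTIself_conj hTI g2) L
    have hc2 := H1.Frob.card_conjUnion hM2TI
    have hM2b : M2 ≠ ⊥ := by
      rw [Subgroup.ne_bot_iff_exists_ne_one]
      exact ⟨⟨y, hg2⟩, fun h => hy (congrArg Subtype.val h)⟩
    have hdisj : Disjoint (H1.Frob.conjUnion M1) (H1.Frob.conjUnion M2) := by
      rw [Set.disjoint_left]
      rintro z ⟨hz1, a, ha⟩ ⟨-, b, hb⟩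
      rw [H12.Basic.mem_conj_smul, hM1, Subgroup.mem_subgroupOf, H12.Basic.mem_conj_smul] at ha
      rw [H12.Basic.mem_conj_smul, hM2, Subgroup.mem_subgroupOf, H12.Basic.mem_conj_smul] at hb
      have ha' : (z : G) ∈ MulAut.conj (a * g1 : G) • H := by
        rw [H12.Basic.mem_conj_smul]
        have e : (a * g1 : G)⁻¹ * z * (a * g1) = g1⁻¹ * ((a⁻¹ * z * a : L) : G) * g1 := by
          push_cast; group
        rw [e]; exact ha
      have hb' : (z : G) ∈ MulAut.conj (b * g2 : G) • H := by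
        rw [H12.Basic.mem_conj_smul]
        have e : (b * g2 : G)⁻¹ * z * (b * g2) = g2⁻¹ * ((b⁻¹ * z * b : L) : G) * g2 := by
          push_cast; group
        rw [e]; exact hb
      have hm := hTI.conj_eq (fun h => hz1 (Subtype.ext h)) ha' hb'
      apply hcon
      refine ⟨hy, b⁻¹ * a, ?_⟩
      rw [H12.Basic.mem_conj_smul, hM1, Subgroup.mem_subgroupOf, H12.Basic.mem_conj_smul]
      -- y ∈ g2 H g2⁻¹, m = (a g1)⁻¹ (b g2) ∈ H
      rw [H12.Basic.mem_conj_smul] at hg2
      have e : g1⁻¹ * (((b⁻¹ * a)⁻¹ * y * (b⁻¹ * a) : L) : G) * g1 =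
          ((a * g1 : G)⁻¹ * (b * g2)) * (g2⁻¹ * y * g2) * ((a * g1 : G)⁻¹ * (b * g2))⁻¹ := by
        push_cast; group
      rw [e]
      exact H.mul_mem (H.mul_mem hm hg2) (H.inv_mem hm)
    have hle : Nat.card (H1.Frob.conjUnion M1) + Nat.card (H1.Frob.conjUnion M2) ≤ Nat.card L - 1 := by
      rw [Nat.card_coe_set_eq, Nat.card_coe_set_eq, ← Set.ncard_union_eq hdisj]
      have hsub : H1.Frob.conjUnion M1 ∪ H1.Frob.conjUnion M2 ⊆ Set.univ \ {1} := by
        rintro z (hz | hz)
        · exact ⟨Set.mem_univ _, hz.1⟩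
        · exact ⟨Set.mem_univ _, hz.1⟩
      have := Set.ncard_le_ncard hsub
      rwa [Set.ncard_sdiff_singleton_of_mem (Set.mem_univ _), Set.ncard_univ] at this
    rw [hc1, hc2] at hle
    have a1 := hhalf M1 hM1b
    have a2 := hhalf M2 hM2b
    have a3 : 0 < Nat.card L := Nat.card_pos
    omega
  -- hence index 1
  have hcard : Nat.card (H1.Frob.conjUnion M1) = Nat.card L - 1 := by
    have : H1.Frob.conjUnion M1 = Set.univ \ {1} := by
      ext z
      constructor
      · intro hz; exact ⟨Set.mem_univ _, hz.1⟩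
      · rintro ⟨-, hz⟩; exact hall z hz
    rw [this, Nat.card_coe_set_eq, Set.ncard_sdiff_singleton_of_mem (Set.mem_univ _), Set.ncard_univ]
  rw [hc1] at hcard
  have h2 := Subgroup.card_mul_index M1
  have h3 : 0 < M1.index := Nat.pos_of_ne_zero Subgroup.index_ne_zero_of_finite
  have h4 : M1.index = 1 := by
    have h5 : M1.index * (Nat.card M1 - 1) = M1.index * Nat.card M1 - M1.index := by
      rw [Nat.mul_sub, mul_one]
    rw [h5, mul_comm, h2] at hcard
    have h6 : M1.index ≤ Nat.card L := Nat.le_of_dvd Nat.card_pos (Subgroup.index_dvd_card M1)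
    have h7 : 0 < Nat.card L := Nat.card_pos
    omega
  rw [Subgroup.index_eq_one, hM1, Subgroup.subgroupOf_eq_top] at h4
  exact h4

end Cfsg.Agent.S0589
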