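import Cfsg.Statements.S0590
import Mathlib

set_option autoImplicit false
open Cfsg
open scoped commutatorElement

namespace Cfsg.Agent.S0590

theorem result {G : Type*} [Group G] [Finite G] {p : ℕ} [Fact p.Prime] (V H : Subgroup G) (hV : Cfsg.IsElementaryAbelian p V) (hHV : H ≤ Subgroup.normalizer (V : Set G)) (hq : ⁅⁅V, H⁆, H⁆ = ⊥) : ⁅H, H⁆ ≤ Subgroup.centralizer (V : Set G) ∧ ∀ a ∈ H, a ^ p ∈ Subgroup.centralizer (V : Set G) := by
  constructor
  · rw [← Subgroup.commutator_eq_bot_iff_le_centralizer]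
    apply Subgroup.commutator_commutator_eq_bot_of_rotate
    · rw [Subgroup.commutator_comm H V]; exact hq
    · exact hq
  · intro a ha
    rw [Subgroup.mem_centralizer_iff]
    intro v hv
    have hcV : ⁅a, v⁆ ∈ V := by
      rw [commutatorElement_def]
      exact V.mul_mem ((Subgroup.mem_normalizer_iff.mp (hHV ha) v).mp hv) (V.inv_mem hv)
    have hcomm : ∀ x ∈ V, ∀ y ∈ V, x * y = y * x := by
      intro x hx y hy
      have := hV.1.is_comm.comm ⟨x, hx⟩ ⟨y, hy⟩
      exact congrArg Subtype.val this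
    have hca : Commute ⁅a, v⁆ a := by
      have h1 : ⁅a, v⁆ ∈ ⁅V, H⁆ := by
        rw [Subgroup.commutator_comm]
        exact Subgroup.commutator_mem_commutator ha hv
      have h2 : ⁅⁅a, v⁆, a⁆ ∈ ⁅⁅V, H⁆, H⁆ := Subgroup.commutator_mem_commutator h1 ha
      rw [hq, Subgroup.mem_bot, commutatorElement_eq_one_iff_mul_comm] at h2
      exact h2
    have key : ∀ n : ℕ, a ^ n * v * (a ^ n)⁻¹ = ⁅a, v⁆ ^ n * v := by
      intro n
      induction n with
      | zero => simp
      | succ n ih =>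
        have e1 : a ^ (n + 1) * v * (a ^ (n + 1))⁻¹ = a * (a ^ n * v * (a ^ n)⁻¹) * a⁻¹ := by
          rw [pow_succ']; group
        have e2 : a * v * a⁻¹ = ⁅a, v⁆ * v := by rw [commutatorElement_def]; group
        rw [e1, ih]
        calc a * (⁅a, v⁆ ^ n * v) * a⁻¹ = (a * ⁅a, v⁆ ^ n) * v * a⁻¹ := by group
          _ = (⁅a, v⁆ ^ n * a) * v * a⁻¹ := by rw [(hca.pow_left n).eq]
          _ = ⁅a, v⁆ ^ n * (a * v * a⁻¹) := by group
          _ = _ := by rw [e2, pow_succ]; group
    have h3 := key p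
    rw [hV.2 _ hcV, one_mul] at h3
    rw [mul_inv_eq_iff_eq_mul] at h3
    exact h3.symm

end Cfsg.Agent.S0590
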