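import Cfsg.Statements.S0591
import Mathlib

set_option autoImplicit false
open Cfsg
open scoped commutatorElement

namespace Cfsg.Agent.S0591

theorem result {G : Type*} [Group G] [Finite G] {p : ℕ} [Fact p.Prime] (V : Subgroup G) (hV : Cfsg.IsElementaryAbelian p V) (a : G) (ha : a ∈ Subgroup.normalizer (V : Set G)) (hq : ⁅⁅V, Subgroup.zpowers a⁆, Subgroup.zpowers a⁆ = ⊥) : Nat.card V ≤ Nat.card ↥(V ⊓ Subgroup.centralizer (Subgroup.zpowers a : Set G)) ^ 2 := by
  have hcomm : ∀ x ∈ V, ∀ y ∈ V, x * y = y * x := by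
    intro x hx y hy
    have := hV.1.is_comm.comm ⟨x, hx⟩ ⟨y, hy⟩
    exact congrArg Subtype.val this
  have hcV : ∀ v ∈ V, ⁅a, v⁆ ∈ V := by
    intro v hv
    rw [commutatorElement_def]
    exact V.mul_mem ((Subgroup.mem_normalizer_iff.mp ha v).mp hv) (V.inv_mem hv)
  let φ : V →* G :=
    { toFun := fun v => ⁅a, (v : G)⁆
      map_one' := by simp
      map_mul' := by
        rintro ⟨v, hv⟩ ⟨w, hw⟩
        change ⁅a, v * w⁆ = ⁅a, v⁆ * ⁅a, w⁆
        rw [commutatorElement_def, commutatorElement_def, commutatorElement_def]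
        have h1 : a * w * a⁻¹ * w⁻¹ ∈ V := hcV w hw
        have h2 : v⁻¹ * (a * w * a⁻¹ * w⁻¹) = (a * w * a⁻¹ * w⁻¹) * v⁻¹ :=
          hcomm _ (V.inv_mem hv) _ h1
        calc a * (v * w) * a⁻¹ * (v * w)⁻¹ = a * v * a⁻¹ * ((a * w * a⁻¹ * w⁻¹) * v⁻¹) := by group
          _ = a * v * a⁻¹ * (v⁻¹ * (a * w * a⁻¹ * w⁻¹)) := by rw [h2]
          _ = _ := by group }
  have hcent : ∀ x : G, x ∈ Subgroup.centralizer (Subgroup.zpowers a : Set G) ↔ a * x = x * a := by
    intro x
    rw [Subgroup.mem_centralizer_iff]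
    constructor
    · intro h; exact h a (Subgroup.mem_zpowers a)
    · rintro h _ ⟨n, rfl⟩
      exact (Commute.zpow_left (show Commute a x from h) n).eq
  set C := V ⊓ Subgroup.centralizer (Subgroup.zpowers a : Set G) with hC
  have hker : φ.ker.map V.subtype = C := by
    ext x
    constructor
    · rintro ⟨v, hv, rfl⟩
      refine ⟨v.2, ?_⟩
      have : ⁅a, (v : G)⁆ = 1 := hv
      rw [commutatorElement_eq_one_iff_mul_comm] at this
      exact (hcent _).mpr this
    · rintro ⟨hx, hx'⟩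
      refine ⟨⟨x, hx⟩, ?_, rfl⟩
      change ⁅a, x⁆ = 1
      rw [commutatorElement_eq_one_iff_mul_comm]
      exact (hcent _).mp hx'
  have hrange : φ.range ≤ C := by
    rintro _ ⟨v, rfl⟩
    suffices hh : a * ⁅a, (v : G)⁆ = ⁅a, (v : G)⁆ * a from ⟨hcV v v.2, (hcent _).mpr hh⟩
    have h1 : ⁅a, (v : G)⁆ ∈ ⁅V, Subgroup.zpowers a⁆ := by
      rw [Subgroup.commutator_comm]
      exact Subgroup.commutator_mem_commutator (Subgroup.mem_zpowers a) v.2
    have h2 : ⁅⁅a, (v : G)⁆, a⁆ ∈ ⁅⁅V, Subgroup.zpowers a⁆, Subgroup.zpowers a⁆ :=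
      Subgroup.commutator_mem_commutator h1 (Subgroup.mem_zpowers a)
    rw [hq, Subgroup.mem_bot, commutatorElement_eq_one_iff_mul_comm] at h2
    exact h2.symm
  have h1 : Nat.card φ.ker * Nat.card φ.range = Nat.card V := by
    rw [← Subgroup.index_ker, Subgroup.card_mul_index]
  have h2 : Nat.card φ.ker = Nat.card C := by
    rw [← hker, Subgroup.card_map_of_injective V.subtype_injective]
  have h3 : Nat.card φ.range ≤ Nat.card C := Subgroup.card_le_of_le hrange
  rw [← h1, h2, pow_two]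
  exact Nat.mul_le_mul_left _ h3

end Cfsg.Agent.S0591
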