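import Cfsg.Statements.S0592
import Cfsg.Agent.Lib.H3.QuadLin

set_option autoImplicit false
set_option linter.all false
open Cfsg

namespace Cfsg.Agent.S0592

open Polynomial H3.QuadLin

/-- Two quadratically acting generators of a linear group that is not a p-group, with the p'-part of the order of their product dividing q - 1, give a homomorphism onto a subgroup of SL(2, q) that is not a p-group. -/
theorem result {K : Type*} [Field K] [Fintype K] {p : ℕ} [Fact p.Prime] [CharP K p] {W : Type*} [AddCommGroup W] [Module K W] [FiniteDimensional K W] [Finite W] [Nontrivial W] (H : Subgroup (W ≃ₗ[K] W)) (a b : W ≃ₗ[K] W) (hH : H = Subgroup.closure {a, b}) (ha : ∀ w : W, a (a w - w) = a w - w) (hb : ∀ w : W, b (b w - w) = b w - w) (hnp : ¬ IsPGroup p H) (hk : ∃ e k : ℕ, orderOf (a * b) = p ^ e * k ∧ k ∣ Fintype.card K - 1) : ∃ φ : H →* Matrix.SpecialLinearGroup (Fin 2) K, ¬ IsPGroup p φ.range := by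
  classical
  subst hH
  have haH : a ∈ Subgroup.closure {a, b} := Subgroup.subset_closure (by simp)
  have hbH : b ∈ Subgroup.closure {a, b} := Subgroup.subset_closure (by simp)
  haveI : Finite (W ≃ₗ[K] W) := Finite.of_injective (fun f : W ≃ₗ[K] W => (f : W → W)) (fun f g h => LinearEquiv.ext (congrFun h))
  have hgen : Subgroup.closure {(⟨a, haH⟩ : Subgroup.closure {a, b}), ⟨b, hbH⟩} = ⊤ := by
    have := Subgroup.closure_closure_coe_preimage (k := ({a, b} : Set (W ≃ₗ[K] W)))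
    rw [← this]
    congr 1
    ext x
    simp [Subtype.ext_iff]
  obtain ⟨e, k, hord, hk⟩ := hk
  let ρ : Subgroup.closure {a, b} →* Module.End K W :=
    { toFun := fun g => ((g : W ≃ₗ[K] W) : W →ₗ[K] W)
      map_one' := rfl
      map_mul' := fun g h => rfl }
  have hq : ∀ c : Subgroup.closure {a, b}, (∀ w : W, (c : W ≃ₗ[K] W) ((c : W ≃ₗ[K] W) w - w) = (c : W ≃ₗ[K] W) w - w) →
      (ρ c - 1) * (ρ c - 1) = 0 := by
    intro c hc
    ext w
    show (c : W ≃ₗ[K] W) ((c : W ≃ₗ[K] W) w - w) - ((c : W ≃ₗ[K] W) w - w) = 0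
    rw [hc, sub_self]
  have hk0 : k ≠ 0 := by
    rintro rfl
    rw [mul_zero] at hord
    exact (orderOf_pos (a * b)).ne' hord
  have hn0 : p ^ e * k ≠ 0 := mul_ne_zero (pow_ne_zero _ (Fact.out : p.Prime).ne_zero) hk0
  have hf0 : ((X : K[X]) ^ (p ^ e * k) - 1) ≠ 0 := by
    have := Polynomial.X_pow_sub_C_ne_zero (Nat.pos_of_ne_zero hn0) (1 : K)
    rwa [map_one] at this
  have hab : aeval (ρ (⟨a, haH⟩ * ⟨b, hbH⟩)) ((X : K[X]) ^ (p ^ e * k) - 1) = 0 := by
    rw [map_sub, map_pow, aeval_X, map_one, ← map_pow]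
    have h1 : ((⟨a, haH⟩ * ⟨b, hbH⟩ : Subgroup.closure {a, b})) ^ (p ^ e * k) = 1 := by
      apply Subtype.ext
      show (a * b) ^ (p ^ e * k) = 1
      rw [← hord]
      exact pow_orderOf_eq_one _
    rw [h1, map_one, sub_self]
  rcases main (p := p) hgen _ hf0 (splits_X_pow_sub_one (p := p) (e := e) hk) W ρ (hq _ ha) (hq _ hb) hab with h | h
  · exfalso
    apply hnp
    intro x
    obtain ⟨m, hm⟩ := h x
    refine ⟨m, ?_⟩
    apply Subtype.ext
    apply LinearEquiv.ext
    intro w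
    rw [← map_pow] at hm
    exact LinearMap.congr_fun hm w
  · obtain ⟨lam, φ, hlam, h1, h2⟩ := h
    refine ⟨φ, ?_⟩
    intro hφ
    obtain ⟨m, hm⟩ := hφ ⟨φ (⟨a, haH⟩ * ⟨b, hbH⟩), ⟨_, rfl⟩⟩
    apply up_mul_lo_pow_ne (p := p) hlam m
    rw [← h1, ← h2, ← map_mul]
    exact congrArg Subtype.val hm

end Cfsg.Agent.S0592
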