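import Cfsg.Statements.S0597
import Cfsg.Agent.Lib.H13.Quad
import Cfsg.Agent.Lib.H13.Subnormal
import Cfsg.Agent.Lib.H13.Cores

set_option autoImplicit false
open Cfsg

namespace Cfsg.Agent.S0597

/-- If two subnormal subgroups of a faithful group on an elementary abelian p-group satisfy [V, E₁, E₂] = 1, then their commutator lies in the largest normal p-subgroup. -/
theorem result {G : Type*} [Group G] [Finite G] {p : ℕ} [Fact p.Prime] (V H : Subgroup G) (hV : Cfsg.IsElementaryAbelian p V) (hHV : H ≤ Subgroup.normalizer (V : Set G)) (hf : H ⊓ Subgroup.centralizer (V : Set G) = ⊥) (E₁ E₂ : Subgroup G) (h₁ : E₁ ≤ H) (h₂ : E₂ ≤ H) (hs₁ : (E₁.subgroupOf H).IsSubnormal) (hs₂ : (E₂.subgroupOf H).IsSubnormal) (hc : ⁅⁅V, E₁⁆, E₂⁆ = ⊥) : ⁅E₁, E₂⁆ ≤ (Cfsg.pCore p H).map H.subtype := by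
  set W := ⁅V, E₁⁆ with hW
  set X := E₁ ⊔ E₂ with hX
  have hXH : X ≤ H := sup_le h₁ h₂
  have hWV : W ≤ V := H13.Act.comm_le (h₁.trans hHV) le_rfl
  have hE2W : E₂ ≤ Subgroup.centralizer (W : Set G) := by
    rw [Subgroup.le_centralizer_iff]
    exact Subgroup.commutator_eq_bot_iff_le_centralizer.1 hc
  have hXV : X ≤ Subgroup.normalizer (V : Set G) := hXH.trans hHV
  have hXW : X ≤ Subgroup.normalizer (W : Set G) :=
    sup_le (Subgroup.normalizer_commutator_ge_right V E₁)
      (hE2W.trans (Subgroup.centralizer_le_normalizer _))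
  have hXC : X ≤ Subgroup.normalizer ((Subgroup.centralizer (W : Set G) : Subgroup G) : Set G) :=
    H13.Norm.le_normalizer_centralizer hXW
  have hXT : X ≤ Subgroup.normalizer (H13.Quad.actTriv V W : Set G) :=
    H13.Quad.le_normalizer_actTriv hXV hXW
  set D := X ⊓ (H13.Quad.actTriv V W ⊓ Subgroup.centralizer (W : Set G)) with hD
  have hXD : X ≤ Subgroup.normalizer (D : Set G) :=
    H13.Norm.le_normalizer_self_inf (H13.Norm.le_normalizer_inf hXT hXC)
  have hDp : IsPGroup p D := by
    apply H13.Quad.isPGroup_of_actTriv hV hWV (inf_le_right.trans inf_le_left)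
      (inf_le_right.trans inf_le_right)
    rw [eq_bot_iff, ← hf]
    exact inf_le_inf_right _ (inf_le_left.trans hXH)
  have hE1T : E₁ ≤ H13.Quad.actTriv V W :=
    H13.Quad.le_actTriv (h₁.trans hHV) (Subgroup.normalizer_commutator_ge_right V E₁) le_rfl
  have hle : ⁅E₁, E₂⁆ ≤ D := by
    refine le_inf ?_ (le_inf ?_ ?_)
    · exact (Subgroup.commutator_le_sup _ _)
    · exact (Subgroup.commutator_mono hE1T le_sup_right).trans
        (Subgroup.le_normalizer_iff_commutator_le_left.1 hXT)
    · exact (Subgroup.commutator_mono le_sup_left hE2W).trans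
        (Subgroup.le_normalizer_iff_commutator_le_right.1 hXC)
  have hsub : (X.subgroupOf H).IsSubnormal := by
    rw [H13.Subnormal.subgroupOf_sup h₁ h₂]
    exact H13.Subnormal.isSubnormal_sup hs₁ hs₂
  have h1 : D ≤ (Cfsg.pCore p X).map X.subtype := H13.Cores.le_map_pCore inf_le_left hXD hDp
  have h2 : (Cfsg.pCore p X).map X.subtype ≤ (Cfsg.pCore p H).map H.subtype := by
    have h3 := H13.Cores.map_pCore_le_of_isSubnormal (p := p) hsub
    have h4 := Subgroup.map_mono (f := H.subtype) h3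
    rw [← H13.Cores.map_pCore_equiv (Subgroup.subgroupOfEquivOfLe hXH).symm, Subgroup.map_map,
      Subgroup.map_map] at h4
    exact h4
  exact hle.trans (h1.trans h2)

end Cfsg.Agent.S0597
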