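import Cfsg.Statements.S0600
import Cfsg.Agent.Lib.H13.Quot

set_option autoImplicit false
open Cfsg

namespace Cfsg.Agent.S0600

/-- A normal elementary abelian p-subgroup generated by the fixed points of the Sylow p-subgroups admits no nontrivial normal p-subgroup of G modulo its centralizer. -/
theorem result {G : Type*} [Group G] [Finite G] {p : ℕ} [Fact p.Prime] (V : Subgroup G) [V.Normal] (hV : Cfsg.IsElementaryAbelian p V) (hgen : V = ⨆ S : Sylow p G, V ⊓ Subgroup.centralizer ((S : Subgroup G) : Set G)) : Cfsg.pCore p (G ⧸ Subgroup.centralizer (V : Set G)) = ⊥ := by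
  rw [H13.Quot.pCore_quotient_eq_bot_iff]
  have h1 : (Cfsg.pCore p (G ⧸ Subgroup.centralizer (V : Set G))).comap
      (QuotientGroup.mk' (Subgroup.centralizer (V : Set G))) ≤
      Subgroup.centralizer ((⨆ S : Sylow p G, V ⊓ Subgroup.centralizer ((S : Subgroup G) : Set G) :
        Subgroup G) : Set G) := by
    refine H13.Quot.le_centralizer_iSup
      (Z := fun S : Sylow p G => V ⊓ Subgroup.centralizer ((S : Subgroup G) : Set G))
      (C := Subgroup.centralizer (V : Set G)) (fun S => ?_) ?_ (fun S => ?_)
    · exact Subgroup.le_centralizer_iff.1 inf_le_right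
    · rw [← hgen]
    · exact H13.Quot.comap_pCore_le_sylow_sup _ S
  rwa [← hgen] at h1

end Cfsg.Agent.S0600
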