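import Cfsg.Statements.S0608
import Cfsg.Agent.Lib.H13.Transport

set_option autoImplicit false
open Cfsg

namespace Cfsg.Agent.S0608

/-- With trivial p'-core, Thompson factorizability is equivalent to J(G) centralizing the subgroup generated by all Ω₁(Z(S)), S Sylow. -/
theorem result {G : Type*} [Group G] [Finite G] {p : ℕ} [Fact p.Prime] (hO : Cfsg.pPrimeCore p G = ⊥) : Cfsg.IsThompsonFactorizable p G ↔ Cfsg.thompsonSubgroup p G ≤ Subgroup.centralizer ((⨆ S : Sylow p G, Cfsg.omegaOne p (((S : Subgroup G)) ⊓ Subgroup.centralizer ((S : Subgroup G) : Set G)) : Subgroup G) : Set G) := by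
  have hZ : ∀ S : Sylow p G, (S : Subgroup G) ≤ Subgroup.centralizer
      (H13.Omega.omegaZ p (S : Subgroup G) : Set G) := fun S => H13.Omega.le_centralizer_omegaZ _
  constructor
  · intro hf
    change Cfsg.thompsonSubgroup p G ≤ Subgroup.centralizer ((H13.Omega.omegaClosure p G : Subgroup G) : Set G)
    rw [Subgroup.le_centralizer_iff]
    refine iSup_le fun T => ?_
    rw [Subgroup.le_centralizer_iff, H13.Thompson.thompson_eq_iSup_sylow]
    refine iSup_le fun S => ?_
    obtain ⟨g, hg⟩ := MulAction.exists_smul_eq G S T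
    -- `g⁻¹ = c * n`
    obtain ⟨x, hx, c, hc, n, hn, hgcn⟩ := hf S g⁻¹
    rw [hO, Subgroup.mem_bot] at hx
    rw [hx, one_mul] at hgcn
    have hT : (T : Subgroup G) = (S : Subgroup G).map (MulAut.conj g).toMonoidHom := by
      rw [← hg]; rfl
    have hZT : H13.Omega.omegaZ p (T : Subgroup G) =
        (H13.Omega.omegaZ p (S : Subgroup G)).map (MulAut.conj g).toMonoidHom := by
      rw [hT, H13.Omega.map_omegaZ_equiv]
    intro j hj
    change j ∈ Subgroup.centralizer (H13.Omega.omegaZ p (T : Subgroup G) : Set G)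
    rw [hZT, Subgroup.mem_centralizer_iff]
    rintro _ ⟨z, hz, rfl⟩
    have hg2 : g = n⁻¹ * c⁻¹ := by
      rw [← inv_inv g, hgcn]; group
    have hcz : c⁻¹ * z * c = z := by
      have := Subgroup.mem_centralizer_iff.1 hc z hz
      rw [mul_assoc, this]; group
    have hj2 : n * j * n⁻¹ ∈ Cfsg.thompsonSubgroupOf p (S : Subgroup G) :=
      (Subgroup.mem_normalizer_iff.1 hn j).1 hj
    have hj3 := Subgroup.mem_centralizer_iff.1 (hZ S (H13.SylowN.thompsonOf_le _ hj2)) z hz
    change g * z * g⁻¹ * j = j * (g * z * g⁻¹)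
    have e1 : g * z * g⁻¹ = n⁻¹ * z * n := by
      rw [hg2]
      calc n⁻¹ * c⁻¹ * z * (n⁻¹ * c⁻¹)⁻¹ = n⁻¹ * (c⁻¹ * z * c) * n := by group
        _ = _ := by rw [hcz]
    rw [e1]
    calc n⁻¹ * z * n * j = n⁻¹ * (z * (n * j * n⁻¹)) * n := by group
      _ = n⁻¹ * (n * j * n⁻¹ * z) * n := by rw [hj3]
      _ = j * (n⁻¹ * z * n) := by group
  · intro hJ S g
    have hN : (Subgroup.centralizer ((H13.Omega.omegaClosure p G : Subgroup G) : Set G)).Normal := by
      have : (H13.Omega.omegaClosure p G).Normal := H13.Omega.omegaClosure_normal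
      infer_instance
    obtain ⟨c, hc, n, hn, hgcn⟩ := H13.SylowN.frattini_mem S
      (Subgroup.centralizer ((H13.Omega.omegaClosure p G : Subgroup G) : Set G)) g
    refine ⟨1, one_mem _, c, ?_, n, ?_, by rw [one_mul, hgcn]⟩
    · exact Subgroup.centralizer_le (SetLike.coe_subset_coe.2 (H13.Omega.omegaZ_le_omegaClosure S)) hc
    · have h1 : Cfsg.thompsonSubgroupOf p (S : Subgroup G) ≤ Cfsg.thompsonSubgroup p G := by
        rw [H13.Thompson.thompson_eq_iSup_sylow]
        exact le_iSup (fun S : Sylow p G => Cfsg.thompsonSubgroupOf p (S : Subgroup G)) S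
      have h2 := H13.SylowN.thompsonOf_eq_of_le_of_le (p := p) (S := (S : Subgroup G))
        (T := (S : Subgroup G) ⊓
          Subgroup.centralizer ((H13.Omega.omegaClosure p G : Subgroup G) : Set G))
        inf_le_left (le_inf (H13.SylowN.thompsonOf_le _) (h1.trans hJ))
      rw [← h2]
      exact H13.SylowN.normalizer_le_normalizer_thompsonOf _ hn

end Cfsg.Agent.S0608
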