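import Cfsg.Statements.S0609
import Cfsg.Agent.Lib.H13.Transport
import Cfsg.Agent.Lib.H13.CoresQuot

set_option autoImplicit false
open Cfsg

namespace Cfsg.Agent.S0609

/-- Thompson factorizability passes to and from the quotient by the largest normal subgroup of order prime to p. -/
theorem result {G : Type*} [Group G] [Finite G] {p : ℕ} [Fact p.Prime] : Cfsg.IsThompsonFactorizable p G ↔ Cfsg.IsThompsonFactorizable p (G ⧸ Cfsg.pPrimeCore p G) := by
  set N := Cfsg.pPrimeCore p G with hN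
  have hNc : (Nat.card N).Coprime p := H13.Cores.coprime_card_pPrimeCore
  set π := QuotientGroup.mk' N with hπ
  have hπs : Function.Surjective π := QuotientGroup.mk'_surjective N
  have hker : π.ker = N := QuotientGroup.ker_mk' N
  have hbot : Cfsg.pPrimeCore p (G ⧸ N) = ⊥ := H13.CoresQuot.pPrimeCore_quotient
  have hd : ∀ S : Sylow p G, (S : Subgroup G) ⊓ π.ker = ⊥ := fun S => by
    rw [hker]
    exact H13.Transport.inf_eq_bot_of_isPGroup_of_coprime S.2 hNc
  have hZ : ∀ S : Sylow p G, H13.Omega.omegaZ p ((S.mapSurjective hπs : Sylow p (G ⧸ N)) : Subgroup (G ⧸ N)) =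
      (H13.Omega.omegaZ p (S : Subgroup G)).map π := fun S => by
    rw [H13.Transport.map_omegaZ _ _ (hd S)]; rfl
  have hJ : ∀ S : Sylow p G, Cfsg.thompsonSubgroupOf p ((S.mapSurjective hπs : Sylow p (G ⧸ N)) : Subgroup (G ⧸ N)) =
      (Cfsg.thompsonSubgroupOf p (S : Subgroup G)).map π := fun S => by
    rw [H13.Transport.map_thompsonOf _ _ (hd S)]; rfl
  constructor
  · intro hf S' g'
    obtain ⟨S, rfl⟩ := Sylow.mapSurjective_surjective hπs p S'
    obtain ⟨g, rfl⟩ := hπs g'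
    obtain ⟨x, hx, c, hc, n, hn, hg⟩ := hf S g
    refine ⟨1, one_mem _, π c, ?_, π n, ?_, ?_⟩
    · change π c ∈ Subgroup.centralizer (H13.Omega.omegaZ p ((S.mapSurjective hπs : Sylow p (G ⧸ N)) : Subgroup (G ⧸ N)) : Set (G ⧸ N))
      rw [hZ, Subgroup.mem_centralizer_iff]
      rintro _ ⟨z, hz, rfl⟩
      rw [← map_mul, ← map_mul, Subgroup.mem_centralizer_iff.1 hc z hz]
    · rw [hJ]
      exact Subgroup.le_normalizer_map _ (Subgroup.mem_map_of_mem _ hn)
    · rw [one_mul, hg, map_mul, map_mul]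
      have : π x = 1 := by
        rw [← MonoidHom.mem_ker, hker]
        exact hx
      rw [this, one_mul]
  · intro hf S g
    obtain ⟨x, hx, c', hc', n', hn', hg⟩ := hf (S.mapSurjective hπs) (π g)
    rw [hbot, Subgroup.mem_bot] at hx
    rw [hx, one_mul] at hg
    obtain ⟨c, rfl⟩ := hπs c'
    obtain ⟨n, rfl⟩ := hπs n'
    change π c ∈ Subgroup.centralizer (H13.Omega.omegaZ p ((S.mapSurjective hπs : Sylow p (G ⧸ N)) : Subgroup (G ⧸ N)) : Set (G ⧸ N)) at hc'
    rw [hZ, Subgroup.mem_centralizer_iff] at hc'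
    rw [hJ] at hn'
    have hZp : IsPGroup p (H13.Omega.omegaZ p (S : Subgroup G)) :=
      H13.ElemAb.isPGroup (H13.Omega.isElementaryAbelian_omegaZ _)
    have hJp : IsPGroup p (Cfsg.thompsonSubgroupOf p (S : Subgroup G)) :=
      S.2.to_le (H13.SylowN.thompsonOf_le _)
    obtain ⟨y, hy, c₁, hc₁, hcy⟩ := H13.Transport.exists_mul_centralizer (x := c) hZp hNc (by
      intro a ha
      have h1 := hc' (π a) (Subgroup.mem_map_of_mem _ ha)
      rw [← hker, MonoidHom.mem_ker, map_mul, map_mul, map_mul, map_inv, map_inv, ← h1]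
      group)
    obtain ⟨w, hw, n₁, hn₁, hnw⟩ := H13.Transport.exists_mul_normalizer (x := n) hJp hNc (by
      intro a ha
      have h1 := (Subgroup.mem_normalizer_iff.1 hn' (π a)).1 (Subgroup.mem_map_of_mem _ ha)
      obtain ⟨b, hb, hb2⟩ := h1
      have h2 : b⁻¹ * (n * a * n⁻¹) ∈ N := by
        rw [← hker, MonoidHom.mem_ker, map_mul, map_inv, hb2, map_mul, map_mul, map_inv]
        group
      have h3 : n * a * n⁻¹ = b * (b⁻¹ * (n * a * n⁻¹)) := by group
      rw [h3]
      exact Subgroup.mul_mem_sup hb h2)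
    have h4 : g * (c * n)⁻¹ ∈ N := by
      rw [← hker, MonoidHom.mem_ker, map_mul, map_inv, hg, map_mul]
      group
    refine ⟨(g * (c * n)⁻¹) * y * (c₁ * w * c₁⁻¹), ?_, c₁, hc₁, n₁, hn₁, ?_⟩
    · exact mul_mem (mul_mem h4 hy) (Subgroup.Normal.conj_mem inferInstance w hw c₁)
    · have e1 : (g * (c * n)⁻¹) * y * (c₁ * w * c₁⁻¹) * c₁ * n₁ =
          (g * (c * n)⁻¹) * ((y * c₁) * (w * n₁)) := by group
      rw [e1, ← hcy, ← hnw]
      group

end Cfsg.Agent.S0609
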