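import Cfsg.Statements.S0618
import Cfsg.Agent.Lib.H13.FFThom
import Cfsg.Agent.S0608

set_option autoImplicit false
open Cfsg

namespace Cfsg.Agent.S0618

/-- A p-separable group with trivial p'-core in which the Thompson factorization fails has p = 2 or 3, and J(G) induces on the normal closure of Ω₁(Z(S)) a group containing a normal SL(2, p). -/
theorem result {G : Type*} [Group G] [Finite G] {p : ℕ} [Fact p.Prime] (hsep : Cfsg.IsPSolvable p G) (hO : Cfsg.pPrimeCore p G = ⊥) (hnf : ¬ Cfsg.IsThompsonFactorizable p G) : (p = 2 ∨ p = 3) ∧ ∃ E : Subgroup G, Subgroup.centralizer ((⨆ S : Sylow p G, Cfsg.omegaOne p ((S : Subgroup G) ⊓ Subgroup.centralizer ((S : Subgroup G) : Set G))) : Set G) ≤ E ∧ E ≤ Cfsg.thompsonSubgroup p G ⊔ Subgroup.centralizer ((⨆ S : Sylow p G, Cfsg.omegaOne p ((S : Subgroup G) ⊓ Subgroup.centralizer ((S : Subgroup G) : Set G))) : Set G) ∧ Cfsg.thompsonSubgroup p G ⊔ Subgroup.centralizer ((⨆ S : Sylow p G, Cfsg.omegaOne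 p ((S : Subgroup G) ⊓ Subgroup.centralizer ((S : Subgroup G) : Set G))) : Set G) ≤ Subgroup.normalizer (E : Set G) ∧ ∃ hn : ((Subgroup.centralizer ((⨆ S : Sylow p G, Cfsg.omegaOne p ((S : Subgroup G) ⊓ Subgroup.centralizer ((S : Subgroup G) : Set G))) : Set G)).subgroupOf E).Normal, Nonempty ((↥E ⧸ (Subgroup.centralizer ((⨆ S : Sylow p G, Cfsg.omegaOne p ((S : Subgroup G) ⊓ Subgroup.centralizer ((S : Subgroup G) : Set G))) : Set G)).subgroupOf E) ≃* Matrix.SpecialLinearGroup (Fin 2) (ZMod p)) := by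
  have hnorm : (H13.Omega.omegaClosure p G).Normal := H13.Omega.omegaClosure_normal
  obtain ⟨V, hVdef⟩ : ∃ V : Subgroup G, V = H13.Omega.omegaClosure p G := ⟨_, rfl⟩
  have hVn : V.Normal := by rw [hVdef]; exact hnorm
  have hcen := H37.PSolv.centralizer_pCore_le hsep hO
  have hV : Cfsg.IsElementaryAbelian p V := by
    rw [hVdef]
    exact H13.Omega.isElementaryAbelian_omegaClosure hcen
  rw [Cfsg.Agent.S0608.result hO] at hnf
  have hgoal : (⨆ S : Sylow p G, Cfsg.omegaOne p ((S : Subgroup G) ⊓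
    Subgroup.centralizer ((S : Subgroup G) : Set G))) = V := hVdef.symm
  rw [hgoal] at hnf
  generalize hC : Subgroup.centralizer (⨆ S : Sylow p G, ((Cfsg.omegaOne p ((S : Subgroup G) ⊓
    Subgroup.centralizer ((S : Subgroup G) : Set G)) : Subgroup G) : Set G)) = C
  rw [H13.FFThom.centralizer_iSup_set, hgoal] at hC
  subst hC
  have hcore : Cfsg.pCore p (G ⧸ Subgroup.centralizer (V : Set G)) = ⊥ := by
    have h1 := H13.FFThom.pCore_omegaClosure (p := p) (G := G)
    subst hVdef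
    exact h1
  have hK : (⊤ : Subgroup G) ≤ Subgroup.normalizer (V : Set G) := by
    rw [Subgroup.normalizer_eq_top]
  have hsolK := H37.PSolv.subgroup hsep (⊤ : Subgroup G)
  have hO' := H13.FFThom.pCore_bar_top hcore
  have hff := H13.Hol2.ff_bar hV hK hsolK hO'
  have hbo : ∀ A ∈ Cfsg.maxElementaryAbelianSubgroups p G, Cfsg.IsBestOffenderOn p V A :=
    fun A hA => H13.Hol2.bo_of_max (K := ⊤) hV le_top le_top hA.1 (fun B _ hB => hA.2 B hB)
  obtain ⟨A, hA, hAV⟩ : ∃ A ∈ Cfsg.maxElementaryAbelianSubgroups p G,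
      ¬ A ≤ Subgroup.centralizer (V : Set G) := by
    by_contra hcon
    push Not at hcon
    exact hnf (sSup_le hcon)
  obtain ⟨A', hA', hmin⟩ := H13.FFThom.exists_min_bar hV hK hsolK hO' le_top (hbo A hA) hAV
  have hA'K : A' ≤ H13.Hol.bar V (⊤ : Subgroup G) := hA'.trans (H13.Hol.bar_mono le_top)
  have ht := H13.Trans.TV.of_min hff hA'K hmin
  have hc := H13.FF6.comp_of hff hA'K ht
  obtain ⟨x, hx, hxA⟩ := H13.FF4.exists_not_mem hff hA'K ht
  refine ⟨H13.FF3.prime_cases hff hA'K ht hx hxA, ?_⟩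
  set Q' := (Cfsg.pPrimeCore p (H13.Hol.bar V (⊤ : Subgroup G))).map
    (H13.Hol.bar V (⊤ : Subgroup G)).subtype with hQ'
  set E' := H13.FF6.comp Q' A' with hE'
  have hker := H13.FFThom.thG_ker V
  refine ⟨E'.comap (H13.FFThom.thG V), ?_, ?_, ?_, ?_⟩
  · rw [← hker]
    exact Subgroup.ker_le_comap _ _
  · -- `E' ≤ bar V J`
    have h1 : E' ≤ H13.Hol.bar V (Cfsg.thompsonSubgroup p G) := by
      have hJ : A' ≤ H13.Hol.bar V (Cfsg.thompsonSubgroup p G) :=
        hA'.trans (H13.Hol.bar_mono (H13.Thompson.le_thompson hA))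
      refine H13.FF6.comp_le_of ?_ hJ
      intro y hy
      have h2 : H13.Hol.bar V (⊤ : Subgroup G) ≤ Subgroup.normalizer
          ((H13.Hol.bar V (Cfsg.thompsonSubgroup p G) : Subgroup (H13.Hol.Γ V)) : Set (H13.Hol.Γ V)) := by
        refine H13.Hol2.bar_normalizer ?_
        rw [Subgroup.normalizer_eq_top]
      have hy' : y ∈ H13.Hol.bar V (⊤ : Subgroup G) := hff.hQH hy
      rw [← H13.Norm.map_conj_le_of_mem_normalizer (h2 hy')]
      exact Subgroup.map_mono hJ
    intro g hg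
    obtain ⟨j, hj, hjg⟩ := H13.FFThom.mem_bar_iff_thG.1 (h1 hg)
    have h2 : j⁻¹ * g ∈ Subgroup.centralizer (V : Set G) := by
      rw [← hker, MonoidHom.mem_ker, map_mul, map_inv, hjg, inv_mul_cancel]
    have : g = j * (j⁻¹ * g) := by group
    rw [this]
    exact Subgroup.mul_mem_sup hj h2
  · refine sup_le ?_ ?_
    · refine sSup_le (fun B hB => ?_)
      have h1 := H13.FFThom.bar_le_normalizer_comp hff hA'K ht
        (H13.Hol.bar_mono (V := V) (le_top : B ≤ ⊤)) (H13.Hol2.bo_bar (le_top.trans hK) (hbo B hB))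
      intro b hb
      have h2 := h1 (H13.FFThom.mem_bar_iff_thG.2 ⟨b, hb, rfl⟩)
      rw [Subgroup.mem_normalizer_iff]
      intro y
      have h3 := Subgroup.mem_normalizer_iff.1 h2 (H13.FFThom.thG V y)
      rw [← map_inv, ← map_mul, ← map_mul] at h3
      exact h3
    · refine le_trans ?_ Subgroup.le_normalizer
      rw [← hker]
      exact Subgroup.ker_le_comap _ _
  · have hrange : E' ≤ (H13.FFThom.thG V).range := by
      intro y hy
      obtain ⟨a, -, rfl⟩ := H13.FFThom.mem_bar_iff_thG.1 (H13.FF6.comp_le_H hff hA'K hy)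
      exact ⟨a, rfl⟩
    obtain ⟨hn, ⟨e⟩⟩ := H13.FFThom.quot_equiv (H13.FFThom.thG V) E' hrange _ hker
    obtain ⟨e'⟩ := hc.equiv
    exact ⟨hn, ⟨e.trans e'⟩⟩

end Cfsg.Agent.S0618
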