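import Cfsg.Statements.S0619
import Cfsg.Agent.Lib.H13.FFThom
import Cfsg.Agent.Lib.H13.StableNormal

set_option autoImplicit false
open Cfsg
open scoped commutatorElement

namespace Cfsg.Agent.S0619

/-- For a p-separable group and a normal elementary abelian p-subgroup V with no nontrivial normal p-subgroup modulo its centralizer C, the Thompson subgroup J(G) moves Ω₁(Z(J(C))) only inside V. -/
theorem result {G : Type*} [Group G] [Finite G] {p : ℕ} [Fact p.Prime] (hsep : Cfsg.IsPSolvable p G) (V : Subgroup G) [V.Normal] (hV : Cfsg.IsElementaryAbelian p V) (hO : Cfsg.pCore p (G ⧸ Subgroup.centralizer (V : Set G)) = ⊥) : ⁅Cfsg.omegaOne p (Cfsg.centerThompsonOf p (Subgroup.centralizer (V : Set G))), Cfsg.thompsonSubgroup p G⁆ ≤ V := by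
  have hVc := H13.ElemAb.le_centralizer hV
  set C := Subgroup.centralizer (V : Set G) with hC
  set W := Cfsg.omegaOne p (Cfsg.centerThompsonOf p C) with hW
  have hcen : Cfsg.centerThompsonOf p C ≤
      Subgroup.centralizer (Cfsg.centerThompsonOf p C : Set G) := by
    intro x hx
    rw [Subgroup.mem_centralizer_iff]
    intro y hy
    exact Subgroup.mem_centralizer_iff.1 (Subgroup.mem_inf.1 hx).2 y (Subgroup.mem_inf.1 hy).1
  have key : ∀ A ∈ Cfsg.maxElementaryAbelianSubgroups p G, ∀ w ∈ W, ∀ a ∈ A, ⁅w, a⁆ ∈ V := by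
    intro A hA w hw a' ha'
    have hbo : Cfsg.IsBestOffenderOn p V A := H13.Hol2.bo_of_max (K := ⊤) hV le_top le_top hA.1
      (fun B _ hB => hA.2 B hB)
    have hcard := H13.FFThom.card_eq_of_bo hV hsep hO hbo
    have hAc := H13.ElemAb.le_centralizer hA.1
    have h1 : Cfsg.IsElementaryAbelian p (((A ⊓ C : Subgroup G)) ⊔ V) :=
      H13.ElemAb.sup (H13.ElemAb.of_le hA.1 inf_le_left) hV inf_le_right
    have h2 := H13.Thompson.card_sup_mul_card_inf (A := A ⊓ C) (B := V)
      (inf_le_right.trans (Subgroup.centralizer_le_normalizer _))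
    have h3 : A ⊓ C ⊓ V = V ⊓ Subgroup.centralizer (A : Set G) := by
      apply le_antisymm
      · exact le_inf inf_le_right (inf_le_left.trans (inf_le_left.trans hAc))
      · intro v hv
        obtain ⟨hv1, hv2⟩ := Subgroup.mem_inf.1 hv
        have h4 : v ∈ A := H13.Thompson.mem_of_centralizes_max hA hv2 (hV.2 v hv1)
        exact Subgroup.mem_inf.2 ⟨Subgroup.mem_inf.2 ⟨h4, hVc hv1⟩, hv1⟩
    rw [h3, ← hcard] at h2
    have h4 : Nat.card ↥(A ⊓ C ⊔ V) = Nat.card A := Nat.eq_of_mul_eq_mul_right Nat.card_pos h2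
    have h5 := H13.Thompson.mem_max_of_card_le hA h1 h4.ge
    have h6 : A ⊓ C ⊔ V ≤ Cfsg.thompsonSubgroupOf p C :=
      H13.Thompson.le_thompsonOf h5 (sup_le inf_le_right hVc)
    obtain ⟨hw1, hw2⟩ := (H13.Omega.mem_omegaOne hcen).1 hw
    have h7 : w ∈ A ⊓ C ⊔ V := by
      refine H13.Thompson.mem_of_centralizes_max h5 ?_ hw2
      exact Subgroup.centralizer_le h6 (Subgroup.mem_inf.1 hw1).2
    obtain ⟨a, ha, v, hv, rfl⟩ := Subgroup.mem_sup_of_normal_right.1 h7
    have h8 : a * a' = a' * a := H13.ElemAb.comm hA.1 (Subgroup.mem_inf.1 ha).1 ha'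
    have h9 : ⁅v, a'⁆ ∈ V := by
      rw [commutatorElement_def, mul_assoc, mul_assoc]
      refine mul_mem hv ?_
      rw [← mul_assoc]
      exact (inferInstance : V.Normal).conj_mem _ (inv_mem hv) _
    have h10 : ⁅a * v, a'⁆ = a * ⁅v, a'⁆ * a⁻¹ := by
      rw [commutatorElement_def, commutatorElement_def]
      calc a * v * a' * (a * v)⁻¹ * a'⁻¹ = a * v * a' * v⁻¹ * (a' * a)⁻¹ := by group
        _ = a * v * a' * v⁻¹ * (a * a')⁻¹ := by rw [h8]
        _ = _ := by group
    rw [h10]
    exact (inferInstance : V.Normal).conj_mem _ h9 _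
  have hJ : Cfsg.thompsonSubgroup p G ≤ Cfsg.sectionKernel W V := by
    refine sSup_le ?_
    intro A hA a ha
    rw [H13.StableNormal.mem_sectionKernel]
    intro w hw
    exact key A hA w hw a ha
  rw [Subgroup.commutator_le]
  intro w hw j hj
  exact H13.StableNormal.mem_sectionKernel.1 (hJ hj) w hw

end Cfsg.Agent.S0619
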