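import Cfsg.Statements.S0620
import Cfsg.Agent.Lib.H13.FFCop
import Cfsg.Agent.S0608

set_option autoImplicit false
open Cfsg

namespace Cfsg.Agent.S0620

/-- Under coprime action of an elementary abelian q-group X on a p-separable group K with trivial p'-core, K is generated by the normalizer of J(S), the centralizer of Ω₁(Z(S)) and the fixed points of X. -/
theorem result {G : Type*} [Group G] [Finite G] {p : ℕ} [Fact p.Prime] {q : ℕ} [Fact q.Prime] (K X : Subgroup G) (hXK : X ≤ Subgroup.normalizer (K : Set G)) (hX : Cfsg.IsElementaryAbelian q X) (hq : ¬ q ∣ Nat.card K) (hsep : Cfsg.IsPSolvable p ↥K) (hO : Cfsg.pPrimeCore p ↥K = ⊥) (S : Sylow p ↥K) : (Subgroup.normalizer (Cfsg.thompsonSubgroupOf p (S : Subgroup ↥K) : Set ↥K) ⊔ Subgroup.centralizer (Cfsg.omegaOne p ((S : Subgroup ↥K) ⊓ Subgroup.centralizer ((S : Subgroup ↥K) : Set ↥K)) : Set ↥K) ⊔ (Subgroup.centralizer (X : Set G)).subgroupOf K) = ⊤ := by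
  have hset : H13.FFCop.Setting p q K X :=
    ⟨H13.ElemAb.isPGroup hX, hXK,
      ((Nat.Prime.coprime_iff_not_dvd (Fact.out : q.Prime)).2 hq).symm, hsep, hO⟩
  set R : Subgroup K := Subgroup.normalizer (Cfsg.thompsonSubgroupOf p (S : Subgroup ↥K) : Set ↥K) ⊔
    Subgroup.centralizer (Cfsg.omegaOne p ((S : Subgroup ↥K) ⊓
      Subgroup.centralizer ((S : Subgroup ↥K) : Set ↥K)) : Set ↥K) ⊔
    (Subgroup.centralizer (X : Set G)).subgroupOf K with hR
  have h1 : Subgroup.normalizer (Cfsg.thompsonSubgroupOf p (S : Subgroup ↥K) : Set ↥K) ≤ R :=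
    le_sup_left.trans le_sup_left
  have h2 : Subgroup.centralizer (Cfsg.omegaOne p ((S : Subgroup ↥K) ⊓
      Subgroup.centralizer ((S : Subgroup ↥K) : Set ↥K)) : Set ↥K) ≤ R :=
    le_sup_right.trans le_sup_left
  have h3 : (Subgroup.centralizer (X : Set G)).subgroupOf K ≤ R := le_sup_right
  have hC : Subgroup.centralizer ((H13.Omega.omegaClosure p K : Subgroup K) : Set K) ≤ R :=
    (Subgroup.centralizer_le (SetLike.coe_subset_coe.2 (H13.Omega.omegaZ_le_omegaClosure S))).trans h2
  have hS : (S : Subgroup K) ≤ R :=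
    (Subgroup.le_normalizer.trans (H13.SylowN.normalizer_le_normalizer_thompsonOf _)).trans h1
  have hJ : Cfsg.thompsonSubgroup p K ≤ R := by
    refine sSup_le (fun A₀ hA₀ => ?_)
    have h4 := hset.le_of_offender S (R := R.map K.subtype) (Subgroup.map_subtype_le _)
      (Subgroup.map_mono hS) ?_ ?_ hA₀
    · exact (Subgroup.map_le_map_iff_of_injective K.subtype_injective).1 h4
    · intro x hx
      obtain ⟨hx1, hx2⟩ := Subgroup.mem_inf.1 hx
      exact ⟨⟨x, hx1⟩, h3 hx2, rfl⟩
    · intro x hx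
      obtain ⟨hx1, hx2⟩ := Subgroup.mem_inf.1 hx
      refine ⟨⟨x, hx1⟩, hC ?_, rfl⟩
      rw [Subgroup.mem_centralizer_iff]
      intro v hv
      apply Subtype.ext
      exact Subgroup.mem_centralizer_iff.1 hx2 v ⟨v, hv, rfl⟩
  have hMn : (Cfsg.thompsonSubgroup p K ⊔
      Subgroup.centralizer ((H13.Omega.omegaClosure p K : Subgroup K) : Set K)).Normal := by
    have : (H13.Omega.omegaClosure p K).Normal := H13.Omega.omegaClosure_normal
    infer_instance
  have hfr := H13.SylowN.frattini S (Cfsg.thompsonSubgroup p K ⊔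
      Subgroup.centralizer ((H13.Omega.omegaClosure p K : Subgroup K) : Set K))
  rw [eq_top_iff, ← hfr]
  refine sup_le (le_trans ?_ h1) (sup_le hJ hC)
  have h5 : Cfsg.thompsonSubgroupOf p (S : Subgroup K) ≤ Cfsg.thompsonSubgroup p K := by
    rw [H13.Thompson.thompson_eq_iSup_sylow]
    exact le_iSup (fun S : Sylow p K => Cfsg.thompsonSubgroupOf p (S : Subgroup K)) S
  have h6 := H13.SylowN.thompsonOf_eq_of_le_of_le (p := p) (S := (S : Subgroup K))
    (T := (S : Subgroup K) ⊓ (Cfsg.thompsonSubgroup p K ⊔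
      Subgroup.centralizer ((H13.Omega.omegaClosure p K : Subgroup K) : Set K)))
    inf_le_left (le_inf (H13.SylowN.thompsonOf_le _) (h5.trans le_sup_left))
  rw [← h6]
  exact H13.SylowN.normalizer_le_normalizer_thompsonOf _

end Cfsg.Agent.S0620
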