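import Cfsg.Statements.S0629
import Cfsg.Agent.Lib.H59.PCons
import Cfsg.Agent.Lib.H13.PSolvMap
import Cfsg.Agent.Lib.H13.Transport

set_option autoImplicit false
open Cfsg

namespace Cfsg.Agent.S0629

/-- A group in which the centralizer of a Sylow p-subgroup of O_{p',p}(G) is p-solvable is p-constrained. -/
theorem result {G : Type*} [Group G] [Finite G] {p : ℕ} [Fact p.Prime] (P : Sylow p ↥(Cfsg.pPrimePCore p G)) (hsol : Cfsg.IsPSolvable p ↥(Subgroup.centralizer (((P : Subgroup ↥(Cfsg.pPrimePCore p G)).map (Cfsg.pPrimePCore p G).subtype : Subgroup G) : Set G))) : Cfsg.IsPConstrained p G := by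
  set N := Cfsg.pPrimeCore p G with hN
  set P' := ((P : Subgroup ↥(Cfsg.pPrimePCore p G)).map (Cfsg.pPrimePCore p G).subtype : Subgroup G)
    with hP'
  have hP'p : IsPGroup p P' := P.isPGroup'.map _
  have hNc : (Nat.card N).Coprime p := H13.Cores.coprime_card_pPrimeCore
  have himg : P'.map (QuotientGroup.mk' N) = Cfsg.pCore p (G ⧸ N) :=
    H59.PCons.map_sylow_pPrimePCore P
  rw [H59.PCons.isPConstrained_iff]
  apply H59.CharP.charP_of_centralizer_pCore_le
  -- the centralizer is the image of the centralizer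
  set C := Subgroup.centralizer (Cfsg.pCore p (G ⧸ N) : Set (G ⧸ N)) with hC
  have hCle : C ≤ (Subgroup.centralizer (P' : Set G)).map (QuotientGroup.mk' N) := by
    intro c hc
    obtain ⟨x, rfl⟩ := QuotientGroup.mk'_surjective N c
    obtain ⟨y, hy, n, hn, rfl⟩ := H13.Transport.exists_mul_centralizer (A := P') (N := N) hP'p hNc
      (x := x) (by
        intro a ha
        have h1 : QuotientGroup.mk' N a ∈ Cfsg.pCore p (G ⧸ N) := by
          rw [← himg]; exact ⟨a, ha, rfl⟩
        have h2 := Subgroup.mem_centralizer_iff.1 hc _ h1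
        rw [← QuotientGroup.ker_mk' N, MonoidHom.mem_ker, map_mul, map_mul, map_mul, map_inv,
          map_inv, ← h2]
        group)
    refine ⟨n, hn, ?_⟩
    have h3 : QuotientGroup.mk' N y = 1 := by
      rw [← MonoidHom.mem_ker, QuotientGroup.ker_mk']; exact hy
    rw [map_mul, h3, one_mul]
  have hCs : Cfsg.IsPSolvable p C := H13.PSolvMap.of_le (H13.PSolvMap.map hsol _) hCle
  have hCn : C.Normal := by
    rw [hC]; infer_instance
  -- the cores of `C`
  have h1 : Cfsg.pPrimeCore p C = ⊥ := by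
    have h2 := H1.Cores.map_subtype_pPrimeCore p C
    rw [H13.CoresQuot.pPrimeCore_quotient, inf_bot_eq] at h2
    exact (Subgroup.map_eq_bot_iff_of_injective _ C.subtype_injective).1 h2
  have h2 := H37.PSolv.centralizer_pCore_le hCs h1
  have h3 := H1.Cores.map_subtype_pCore p C
  have h4 : Subgroup.centralizer (Cfsg.pCore p C : Set C) = ⊤ := by
    rw [eq_top_iff]
    intro c _
    rw [Subgroup.mem_centralizer_iff]
    intro d hd
    have h5 : (d : G ⧸ N) ∈ Cfsg.pCore p (G ⧸ N) := by
      have h6 : (d : G ⧸ N) ∈ (Cfsg.pCore p C).map C.subtype := ⟨d, hd, rfl⟩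
      rw [h3] at h6
      exact h6.2
    exact Subtype.ext (Subgroup.mem_centralizer_iff.1 c.2 _ h5)
  rw [h4, top_le_iff] at h2
  intro c hc
  have h5 : c ∈ (Cfsg.pCore p C).map C.subtype := by
    rw [h2]
    exact ⟨⟨c, hc⟩, Subgroup.mem_top _, rfl⟩
  rw [h3] at h5
  exact h5.2

end Cfsg.Agent.S0629
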