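import Cfsg.Statements.S0638
import Cfsg.Agent.Lib.H13.OmegaQ
import Cfsg.Agent.Lib.H89.MetaOmega

set_option autoImplicit false
open Cfsg

namespace Cfsg.Agent.S0638

/-- For odd p, in a non-cyclic metacyclic p-group the elements of order dividing p generate an elementary abelian subgroup of order p². -/
theorem result {R : Type*} [Group R] [Finite R] {p : ℕ} [Fact p.Prime] (hp : p ≠ 2) (hR : IsPGroup p R) (hm : Cfsg.IsMetacyclic R) (hnc : ¬ IsCyclic R) : Cfsg.IsElementaryAbelian p (Cfsg.omegaOne p (⊤ : Subgroup R)) ∧ Nat.card ↥(Cfsg.omegaOne p (⊤ : Subgroup R)) = p ^ 2 := by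
  obtain ⟨W, hW, hWc⟩ := H89.MetaOmega.exists_omega hR hp hm
  obtain ⟨A, -, hA, hAc⟩ := H3.RankTwo.exists_normal_rank_two hp hR hnc
  have hAW : A ≤ W := fun a ha => (hW a).2 (hA.2 a ha)
  have hpp : p.Prime := Fact.out
  have hle : Nat.card W ≤ Nat.card A := by
    rw [hAc]
    exact Nat.le_of_dvd (pow_pos hpp.pos 2) hWc
  have hAeq : A = W := Subgroup.eq_of_le_of_card_ge hAW hle
  have hO : Cfsg.omegaOne p (⊤ : Subgroup R) = W := by
    apply le_antisymm
    · rw [Cfsg.omegaOne, Subgroup.closure_le]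
      rintro x ⟨-, hx⟩
      exact (hW x).2 hx
    · intro x hx
      exact H13.OmegaQ.mem_top_omega ((hW x).1 hx)
  rw [hO, ← hAeq]
  exact ⟨hA, hAc⟩

end Cfsg.Agent.S0638
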