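import Cfsg.Statements.S0639
import Cfsg.Agent.Lib.H13.Huppert

set_option autoImplicit false
open Cfsg

namespace Cfsg.Agent.S0639

/-- Huppert's criterion: for p greater than 3, a p-group whose elements of order dividing p generate a subgroup of order at most p² is metacyclic. -/
theorem result {R : Type*} [Group R] [Finite R] {p : ℕ} [Fact p.Prime] (hp : 3 < p) (hR : IsPGroup p R) (hO : Nat.card ↥(Cfsg.omegaOne p (⊤ : Subgroup R)) ≤ p ^ 2) : Cfsg.IsMetacyclic R := by
  have h1 := H13.OmegaQ.card_le_all hp _ R hR le_rfl hO (Cfsg.powerClosure p 1 (⊤ : Subgroup R))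
  have hpp : p.Prime := Fact.out
  refine H13.Huppert.metacyclic (by omega) _ R hR le_rfl ?_
  have h2 : Cfsg.omegaOne p (⊤ : Subgroup (R ⧸ Cfsg.powerClosure p 1 (⊤ : Subgroup R))) = ⊤ := by
    rw [eq_top_iff]
    rintro x' -
    obtain ⟨x, rfl⟩ := QuotientGroup.mk'_surjective _ x'
    apply H13.OmegaQ.mem_top_omega
    rw [← map_pow]
    exact (QuotientGroup.eq_one_iff _).2 (H14.Regular.pow_mem_powerClosure_one (Subgroup.mem_top x))
  rw [h2, Subgroup.card_top] at h1
  exact h1

end Cfsg.Agent.S0639
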