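import Cfsg.Statements.S0640
import Cfsg.Agent.Lib.H14.AutRank2

set_option autoImplicit false
open Cfsg

namespace Cfsg.Agent.S0640

/-- For odd p, a prime q ≠ p dividing the order of the automorphism group of a p-group of rank at most 2 divides p² - 1 and is less than p. -/
theorem result {R : Type*} [Group R] [Finite R] {p : ℕ} [Fact p.Prime] (hp : p ≠ 2) (hR : IsPGroup p R) (hrk : Cfsg.PRankLE p 2 R) (q : ℕ) (hq : q.Prime) (hqp : q ≠ p) (hdvd : q ∣ Nat.card (MulAut R)) : q ∣ p ^ 2 - 1 ∧ q < p := by
  classical
  haveI : Fact q.Prime := ⟨hq⟩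
  have hpp : p.Prime := Fact.out
  have hmain : q ∣ p ^ 2 - 1 := by
    haveI : Finite (MulAut R) := inferInstance
    obtain ⟨a, ha⟩ := exists_prime_orderOf_dvd_card' (G := MulAut R) q hdvd
    -- the regular representation
    let lam : R →* Equiv.Perm R := MulAction.toPermHom R R
    have hlam : ∀ r x, lam r x = r * x := fun r x => rfl
    have hlaminj : Function.Injective lam := MulAction.toPerm_injective
    let al : MulAut R →* Equiv.Perm R := MulAut.toPerm R
    have halinj : Function.Injective al := fun x y h => by
      apply MulEquiv.ext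
      intro z
      exact congrArg (fun f : Equiv.Perm R => f z) h
    have hconj : ∀ (b : MulAut R) (r : R), al b * lam r * (al b)⁻¹ = lam (b r) := by
      intro b r
      rw [mul_inv_eq_iff_eq_mul]
      apply Equiv.ext
      intro x
      change b (r * x) = b r * b x
      exact map_mul b r x
    apply H14.AutRank2.main (G := Equiv.Perm R) (D := lam.range) (g := al a) hp hqp
    · exact hR.of_surjective lam.rangeRestrict lam.rangeRestrict_surjective
    · intro A hA hAc hAe
      have h1 : A = (A.comap lam).map lam := (Subgroup.map_comap_eq_self hA).symm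
      have h2 := hrk (A.comap lam) ⟨⟨fun x y => by
          apply Subtype.ext
          apply hlaminj
          have h3 := setLike_mul_comm (s := A) (a := lam x) (b := lam y) x.2 y.2
          rw [← map_mul, ← map_mul] at h3
          exact h3⟩⟩ (fun x hx => by
          apply hlaminj
          rw [map_pow, map_one]
          exact hAe _ hx)
      rw [h1, Subgroup.card_map_of_injective hlaminj]
      exact h2
    · rw [Subgroup.mem_normalizer_iff]
      intro h
      change h ∈ lam.range ↔ al a * h * (al a)⁻¹ ∈ lam.range
      constructor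
      · rintro ⟨r, rfl⟩
        exact ⟨a r, (hconj a r).symm⟩
      · rintro ⟨r, hr⟩
        refine ⟨a⁻¹ r, ?_⟩
        rw [← hconj a⁻¹ r, hr, map_inv]
        group
    · rw [orderOf_injective al halinj, ha]
    · intro hc
      have h1 : a = 1 := by
        apply MulEquiv.ext
        intro r
        apply hlaminj
        rw [← hconj a r, mul_inv_eq_iff_eq_mul]
        exact (Subgroup.mem_centralizer_iff.mp hc (lam r) ⟨r, rfl⟩).symm
      rw [h1, orderOf_one] at ha
      exact hq.one_lt.ne ha
  refine ⟨hmain, ?_⟩
  have h2 : p ^ 2 - 1 = (p + 1) * (p - 1) := by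
    have := Nat.sq_sub_sq p 1
    rwa [one_pow] at this
  rw [h2] at hmain
  have hp3 : 3 ≤ p := by
    have := hpp.two_le
    omega
  rcases (hq.dvd_mul).mp hmain with h3 | h3
  · have hle := Nat.le_of_dvd (by omega) h3
    by_contra hlt
    push Not at hlt
    have h4 : q = p + 1 := by
      rcases Nat.lt_or_ge q (p + 1) with h | h
      · exact absurd (by omega : q = p) hqp
      · omega
    have hodd : Odd p := hpp.odd_of_ne_two hp
    have h5 : 2 ∣ q := by
      rw [h4]
      exact even_iff_two_dvd.mp hodd.add_one
    have h6 := (Nat.prime_dvd_prime_iff_eq Nat.prime_two hq).mp h5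
    omega
  · have hle := Nat.le_of_dvd (by omega) h3
    omega

end Cfsg.Agent.S0640
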