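import Cfsg.Statements.S0642
import Cfsg.Agent.Lib.H14.Regular

set_option autoImplicit false
open Cfsg

namespace Cfsg.Agent.S0642

open H14.Regular in
/-- Among finite 2-groups the regular ones are exactly the abelian ones. -/
theorem result {G : Type*} [Group G] [Finite G] (hG : IsPGroup 2 G) : Cfsg.IsRegularPGroup 2 G ↔ ∀ a b : G, a * b = b * a := by
  haveI : Fact (Nat.Prime 2) := ⟨Nat.prime_two⟩
  constructor
  · intro h
    have hR : RegW 2 G := regW_of_isRegular h
    set D := commutator G with hD
    set N := powerClosure 2 1 D with hN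
    have hRQ : RegW 2 (G ⧸ N) := hR.of_surjective _ (QuotientGroup.mk'_surjective N)
    have hQ : IsPGroup 2 (G ⧸ N) := hG.to_quotient N
    -- the quotient is abelian
    have hcomm : ∀ a b : G ⧸ N, a * b = b * a := by
      intro a b
      obtain ⟨c, hc, he⟩ := hRQ a b
      have hexp : ∀ x ∈ ⁅Subgroup.closure ({a, b} : Set (G ⧸ N)), Subgroup.closure ({a, b} : Set (G ⧸ N))⁆, x ^ 2 = 1 := by
        intro x hx
        have h1 : x ∈ ⁅(⊤ : Subgroup (G ⧸ N)), (⊤ : Subgroup (G ⧸ N))⁆ :=
          Subgroup.commutator_mono le_top le_top hx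
        have h2 : (⊤ : Subgroup (G ⧸ N)) = (⊤ : Subgroup G).map (QuotientGroup.mk' N) := by
          rw [← MonoidHom.range_eq_map, eq_comm, MonoidHom.range_eq_top]
          exact QuotientGroup.mk'_surjective N
        rw [h2, ← Subgroup.map_commutator] at h1
        obtain ⟨y, hy, rfl⟩ := h1
        rw [← map_pow]
        exact (QuotientGroup.eq_one_iff _).mpr (pow_mem_powerClosure_one hy)
      rw [powerClosure_eq_bot_of_exp hexp, Subgroup.mem_bot] at hc
      rw [hc, mul_one, pow_two, pow_two, pow_two] at he
      have h3 : b * a = a * b := by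
        have h4 : a * (b * a) * b = a * (a * b) * b := by
          simpa [mul_assoc] using he
        exact mul_left_cancel (mul_right_cancel h4)
      exact h3.symm
    have hle : D ≤ N := Subgroup.Normal.quotient_commutative_iff_commutator_le.mp ⟨⟨hcomm⟩⟩
    have hD1 : D = ⊥ := by
      by_contra hne
      have hsurj : Function.Surjective (fun x : D => x ^ 2) := by
        rintro ⟨y, hy⟩
        obtain ⟨z, hz, rfl⟩ := (mem_powerClosure_one_iff hG hR).mp (hle hy)
        exact ⟨⟨z, hz⟩, Subtype.ext rfl⟩
      have hinj := Finite.injective_iff_surjective.mpr hsurj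
      have hnt : Nontrivial D := (Subgroup.nontrivial_iff_ne_bot D).mpr hne
      obtain ⟨x, hx⟩ := exists_prime_orderOf_dvd_card' (G := D) 2 (by
        obtain ⟨n, hn, hc⟩ := (hG.to_subgroup D).nontrivial_iff_card.mp hnt
        rw [hc]
        exact dvd_pow_self 2 hn.ne')
      have h1 : x ^ 2 = 1 ^ 2 := by rw [← hx, pow_orderOf_eq_one, one_pow]
      have h2 := hinj h1
      rw [h2, orderOf_one] at hx
      omega
    have h5 : IsMulCommutative G := (commutator_eq_bot_iff G).mp hD1
    exact fun a b => mul_comm' a b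
  · intro h
    refine ⟨hG, fun a b n => ⟨1, one_mem _, ?_⟩⟩
    rw [mul_one]
    exact (show Commute a b from h a b).mul_pow _

end Cfsg.Agent.S0642
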