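import Cfsg.Statements.S0656
import Cfsg.Agent.Lib.H51.QdStab3

set_option autoImplicit false
open Cfsg

namespace Cfsg.Agent.S0656

/-- For odd p, a faithful group on an elementary abelian p-group with no nontrivial normal p-subgroup in which some nontrivial p-element acts quadratically has a section isomorphic to SL(2, p). -/
theorem result {G : Type*} [Group G] [Finite G] {p : ℕ} [Fact p.Prime] (hp : p ≠ 2) (V H : Subgroup G) (hV : Cfsg.IsElementaryAbelian p V) (hHV : H ≤ Subgroup.normalizer (V : Set G)) (hf : H ⊓ Subgroup.centralizer (V : Set G) = ⊥) (hO : Cfsg.pCore p ↥H = ⊥) (x : G) (hxH : x ∈ H) (hx1 : x ≠ 1) (hxp : ∃ k : ℕ, orderOf x = p ^ k) (hq : ⁅⁅V, Subgroup.zpowers x⁆, Subgroup.zpowers x⁆ = ⊥) : ∃ (K L : Subgroup G) (hL : (L.subgroupOf K).Normal), K ≤ H ∧ Nonempty ((K ⧸ L.subgroupOf K) ≃* Matrix.SpecialLinearGroup (Fin 2) (ZMod p)) := by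

  have hVp : IsPGroup p V := fun v => ⟨1, by rw [pow_one]; exact Subtype.ext (hV.2 v v.2)⟩
  have hqx := H51.QdStab.quad_of_commutator hq
  have hxN := hHV hxH
  by_contra hcon
  have key : ∀ h : H, IsPGroup p (Subgroup.closure ({(⟨x, hxH⟩ : H), h * ⟨x, hxH⟩ * h⁻¹} : Set H)) := by
    intro h
    by_contra hnp
    apply hcon
    have hyN : (h : G) * x * (h : G)⁻¹ ∈ Subgroup.normalizer (V : Set G) :=
      mul_mem (mul_mem (hHV h.2) hxN) (inv_mem (hHV h.2))
    have hyH : (h : G) * x * (h : G)⁻¹ ∈ H := H.mul_mem (H.mul_mem h.2 hxH) (H.inv_mem h.2)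
    have hcl : Subgroup.closure {x, (h : G) * x * (h : G)⁻¹} ≤ H := by
      rw [Subgroup.closure_le]
      rintro z (rfl | rfl)
      · exact hxH
      · exact hyH
    have h1 := H51.QdStab3.sl2_of_quadratic hp V x (h * x * (h : G)⁻¹) hVp hxN hyN hqx (hqx.conj (hHV h.2)) (by
      intro hall
      apply hnp
      have h3 : (Subgroup.closure {x, (h : G) * x * (h : G)⁻¹}).subgroupOf H =
          Subgroup.closure {(⟨x, hxH⟩ : H), h * ⟨x, hxH⟩ * h⁻¹} := by
        apply Subgroup.map_injective H.subtype_injective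
        rw [MonoidHom.map_closure, Set.image_pair, Subgroup.map_subgroupOf_eq_of_le hcl]
        rfl
      rw [← h3]
      rintro ⟨z, hz⟩
      obtain ⟨j, hj⟩ := hall (z : G) hz
      refine ⟨j, Subtype.ext (Subtype.ext ?_)⟩
      have h4 : (z : G) ^ p ^ j ∈ H ⊓ Subgroup.centralizer (V : Set G) :=
        Subgroup.mem_inf.2 ⟨H.pow_mem z.2 _, hj⟩
      rw [hf, Subgroup.mem_bot] at h4
      exact h4)
    obtain ⟨K, L, hL, hK, he⟩ := H51.QdStab3.exists_ambient h1
    exact ⟨K, L, hL, hK.trans hcl, he⟩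
  obtain ⟨N, hN, hNp, hxN'⟩ := H55.BaerSuzuki.exists_normal (p := p) (⟨x, hxH⟩ : H) key
  have h1 := H13.Cores.le_pCore hN hNp hxN'
  rw [hO, Subgroup.mem_bot] at h1
  exact hx1 (congrArg Subtype.val h1)

end Cfsg.Agent.S0656
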