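import Cfsg.Statements.S0660
import Mathlib.GroupTheory.Complement
import Mathlib.GroupTheory.OrderOfElement
import Mathlib.Algebra.BigOperators.Group.Finset.Basic

set_option autoImplicit false
open Cfsg

namespace Cfsg.Agent.S0660

/-- Averaging over a finite group of automorphisms. -/
theorem exists_invariant_complement {V A : Type*} [CommGroup V] [Finite V] [Group A] [Finite A]
    (φ : A →* MulAut V) (hcop : (Nat.card A).Coprime (Nat.card V)) (U W : Subgroup V)
    (hU : ∀ a : A, ∀ u ∈ U, φ a u ∈ U) (hUW : U ⊓ W = ⊥) (hUWV : U ⊔ W = ⊤) :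
    ∃ W' : Subgroup V, (∀ a : A, ∀ w ∈ W', φ a w ∈ W') ∧ U ⊓ W' = ⊥ ∧ U ⊔ W' = ⊤ := by
  classical
  haveI := Fintype.ofFinite A
  -- projection onto U along W
  obtain ⟨π, hπU, hπ⟩ : ∃ π : V →* V, (∀ v, π v ∈ U) ∧ ∀ u ∈ U, π u = u := by
    let f : U × W →* V := U.subtype.coprod W.subtype
    have hf : Function.Bijective f := by
      constructor
      · rw [injective_iff_map_eq_one]
        rintro ⟨⟨u, hu⟩, ⟨w, hw⟩⟩ h
        have h1 : u * w = 1 := h
        have h2 : u = w⁻¹ := eq_inv_of_mul_eq_one_left h1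
        have h3 : u ∈ U ⊓ W := ⟨hu, h2 ▸ W.inv_mem hw⟩
        rw [hUW, Subgroup.mem_bot] at h3
        subst h3
        rw [one_mul] at h1
        subst h1
        rfl
      · intro v
        have hv : v ∈ U ⊔ W := by rw [hUWV]; exact Subgroup.mem_top v
        obtain ⟨u, hu, w, hw, rfl⟩ := Subgroup.mem_sup.mp hv
        exact ⟨(⟨u, hu⟩, ⟨w, hw⟩), rfl⟩
    let e : U × W ≃* V := MulEquiv.ofBijective f hf
    refine ⟨(U.subtype.comp (MonoidHom.fst U W)).comp e.symm.toMonoidHom, fun v => ?_, fun u hu => ?_⟩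
    · exact (e.symm v).1.2
    · have h1 : e.symm u = (⟨u, hu⟩, 1) := by
        rw [MulEquiv.symm_apply_eq]
        change u = f (⟨u, hu⟩, 1)
        simp [f]
      change ((e.symm u).1 : V) = u
      rw [h1]
  let T : V →* V := ∏ a : A, ((φ a).toMonoidHom.comp π).comp (φ a⁻¹).toMonoidHom
  have hT : ∀ v, T v = ∏ a : A, φ a (π (φ a⁻¹ v)) := by
    intro v
    simp only [T]
    rw [MonoidHom.finset_prod_apply]
    rfl
  have hTU : ∀ v, T v ∈ U := by
    intro v
    rw [hT]
    exact Subgroup.prod_mem _ fun a _ => hU a _ (hπU _)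
  have hTu : ∀ u ∈ U, T u = u ^ Nat.card A := by
    intro u hu
    rw [hT]
    have : ∀ a ∈ (Finset.univ : Finset A), φ a (π (φ a⁻¹ u)) = u := by
      intro a _
      rw [hπ _ (hU _ u hu), ← MulAut.mul_apply, ← map_mul, mul_inv_cancel, map_one, MulAut.one_apply]
    rw [Finset.prod_congr rfl this, Finset.prod_const, Finset.card_univ, Nat.card_eq_fintype_card]
  have hTc : ∀ (b : A) (v : V), T (φ b v) = φ b (T v) := by
    intro b v
    rw [hT, hT, map_prod]
    refine Fintype.prod_equiv (Equiv.mulLeft b⁻¹) _ _ fun a => ?_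
    simp only [Equiv.coe_mulLeft]
    rw [← MulAut.mul_apply V (φ b), ← map_mul, mul_inv_cancel_left, mul_inv_rev, inv_inv, map_mul,
      MulAut.mul_apply]
  have hcopU : (Nat.card U).Coprime (Nat.card A) :=
    (hcop.coprime_dvd_right (Subgroup.card_subgroup_dvd_card U)).symm
  refine ⟨T.ker, fun a w hw => ?_, ?_, ?_⟩
  · rw [MonoidHom.mem_ker] at hw ⊢
    rw [hTc, hw, map_one]
  · rw [eq_bot_iff]
    rintro u ⟨hu, hk⟩
    have h1 : u ^ Nat.card A = 1 := by rw [← hTu u hu]; exact hk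
    have h2 := (powCoprime hcopU).injective (a₁ := ⟨u, hu⟩) (a₂ := 1) (Subtype.ext (by
      simpa using h1))
    rw [Subgroup.mem_bot]
    exact congrArg Subtype.val h2
  · rw [eq_top_iff]
    intro v _
    obtain ⟨⟨u, hu⟩, hu2⟩ := (powCoprime hcopU).surjective ⟨T v, hTU v⟩
    have hu3 : u ^ Nat.card A = T v := congrArg Subtype.val hu2
    refine Subgroup.mem_sup.mpr ⟨u, hu, u⁻¹ * v, ?_, mul_inv_cancel_left u v⟩
    rw [MonoidHom.mem_ker, map_mul, map_inv, hTu u hu, hu3, inv_mul_cancel]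

/-- Under a coprime action on an abelian group, an invariant subgroup that is complemented admits an invariant complement. -/
theorem result {G : Type*} [Group G] [Finite G] (V A U : Subgroup G) (hVab : IsMulCommutative V) (hAV : A ≤ Subgroup.normalizer (V : Set G)) (hcop : (Nat.card A).Coprime (Nat.card V)) (hUV : U ≤ V) (hAU : A ≤ Subgroup.normalizer (U : Set G)) (W : Subgroup G) (hWV : W ≤ V) (hUW : U ⊓ W = ⊥) (hUWV : U ⊔ W = V) : ∃ W' : Subgroup G, W' ≤ V ∧ A ≤ Subgroup.normalizer (W' : Set G) ∧ U ⊓ W' = ⊥ ∧ U ⊔ W' = V := by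
  letI : CommGroup V := { (inferInstance : Group V) with mul_comm := fun a b => mul_comm' a b }
  let φ : A →* MulAut V := (Subgroup.normalizerMonoidHom V).comp (Subgroup.inclusion hAV)
  have hφ : ∀ (a : A) (v : V), ((φ a v : V) : G) = a * v * (a : G)⁻¹ := fun a v => rfl
  obtain ⟨W', hW', h1, h2⟩ := exists_invariant_complement φ hcop (U.subgroupOf V) (W.subgroupOf V)
    (by
      intro a u hu
      rw [Subgroup.mem_subgroupOf] at hu ⊢
      rw [hφ]
      exact (Subgroup.mem_normalizer_iff.mp (hAU a.2) _).mp hu)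
    (by
      rw [eq_bot_iff]
      rintro v ⟨hv1, hv2⟩
      have h3 : (v : G) ∈ U ⊓ W := ⟨hv1, hv2⟩
      rw [hUW, Subgroup.mem_bot] at h3
      rw [Subgroup.mem_bot]
      exact Subtype.ext h3)
    (by
      apply Subgroup.map_injective V.subtype_injective
      rw [Subgroup.map_sup, Subgroup.map_subgroupOf_eq_of_le hUV, Subgroup.map_subgroupOf_eq_of_le hWV, hUWV,
        ← MonoidHom.range_eq_map, Subgroup.range_subtype])
  refine ⟨W'.map V.subtype, Subgroup.map_subtype_le W', ?_, ?_, ?_⟩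
  · rw [Subgroup.le_normalizer_iff]
    rintro a ha _ ⟨w, hw, rfl⟩
    exact ⟨φ ⟨a, ha⟩ w, hW' ⟨a, ha⟩ w hw, hφ _ _⟩
  · rw [eq_bot_iff]
    rintro _ ⟨hu, ⟨w, hw, rfl⟩⟩
    have h3 : w ∈ U.subgroupOf V ⊓ W' := ⟨hu, hw⟩
    rw [h1, Subgroup.mem_bot] at h3
    rw [h3]
    exact one_mem _
  · have h3 := congrArg (Subgroup.map V.subtype) h2
    rw [Subgroup.map_sup, Subgroup.map_subgroupOf_eq_of_le hUV, ← MonoidHom.range_eq_map,
      Subgroup.range_subtype] at h3
    exact h3

end Cfsg.Agent.S0660
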