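import Cfsg.Statements.S0661
import Cfsg.Agent.Lib.H26.SolvBal
import Cfsg.Agent.Lib.H1.Cores

set_option autoImplicit false
open Cfsg

namespace Cfsg.Agent.S0661

/-- If, modulo the largest normal subgroup of order prime to p, the largest normal p-subgroup contains its centralizer, then for every p-subgroup P the p'-core of N_G(P) is just O_p'(G) ∩ N_G(P). -/
theorem result {G : Type*} [Group G] [Finite G] {p : ℕ} [Fact p.Prime] (hc : Subgroup.centralizer (Cfsg.pCore p (G ⧸ Cfsg.pPrimeCore p G) : Set (G ⧸ Cfsg.pPrimeCore p G)) ≤ Cfsg.pCore p (G ⧸ Cfsg.pPrimeCore p G)) (P : Subgroup G) (hP : IsPGroup p P) : (Cfsg.pPrimeCore p ↥(Subgroup.normalizer (P : Set G))).map (Subgroup.normalizer (P : Set G)).subtype = Cfsg.pPrimeCore p G ⊓ Subgroup.normalizer (P : Set G) := by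
  set N := Subgroup.normalizer (P : Set G) with hN
  haveI := H1.Cores.pPrimeCore_normal (G := G) p
  haveI := H1.Cores.pPrimeCore_normal (G := N) p
  have hXc : (Nat.card ((Cfsg.pPrimeCore p N).map N.subtype : Subgroup G)).Coprime p := by
    rw [Subgroup.card_map_of_injective N.subtype_injective]
    exact H1.Cores.coprime_card_pPrimeCore p
  have hNX : N ≤ Subgroup.normalizer (((Cfsg.pPrimeCore p N).map N.subtype : Subgroup G) : Set G) := by
    intro x hx
    apply Subgroup.le_normalizer_map (H := Cfsg.pPrimeCore p N) N.subtype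
    refine ⟨⟨x, hx⟩, ?_, rfl⟩
    rw [Subgroup.normalizer_eq_top (Cfsg.pPrimeCore p N)]; trivial
  set X := (Cfsg.pPrimeCore p N).map N.subtype with hX
  have hXN : X ≤ N := Subgroup.map_subtype_le _
  have hPX : P ⊓ X = ⊥ := H1.Cores.disjoint_of_isPGroup hP hXc
  have hXC : X ≤ Subgroup.centralizer (P : Set G) := by
    intro x hx
    rw [Subgroup.mem_centralizer_iff]
    intro y hy
    have h1 : y * x * y⁻¹ * x⁻¹ ∈ P ⊓ X := by
      refine Subgroup.mem_inf.mpr ⟨?_, ?_⟩
      · have h2 : y * x * y⁻¹ * x⁻¹ = y * (x * y⁻¹ * x⁻¹) := by group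
        rw [h2]
        exact mul_mem hy ((Subgroup.mem_normalizer_iff.mp (hXN hx) _).mp (inv_mem hy))
      · exact mul_mem ((Subgroup.mem_normalizer_iff.mp (hNX (Subgroup.le_normalizer hy)) _).mp hx)
          (inv_mem hx)
    rw [hPX, Subgroup.mem_bot] at h1
    calc y * x = (y * x * y⁻¹ * x⁻¹) * (x * y) := by group
      _ = x * y := by rw [h1, one_mul]
  apply le_antisymm
  · exact le_inf (H26.SolvBal.le_pPrimeCore_of_normal_in_centralizer hc hP hXc hXC
      ((Subgroup.centralizer_le_normalizer _).trans hNX)) hXN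
  · have h1 : (Cfsg.pPrimeCore p G ⊓ N).subgroupOf N ≤ Cfsg.pPrimeCore p N := by
      apply H1.Cores.le_pPrimeCore
      · rw [Subgroup.inf_subgroupOf_right]; infer_instance
      · have h2 : Nat.card ((Cfsg.pPrimeCore p G ⊓ N).subgroupOf N) = Nat.card (Cfsg.pPrimeCore p G ⊓ N : Subgroup G) :=
          Nat.card_congr (Subgroup.subgroupOfEquivOfLe inf_le_right).toEquiv
        rw [h2]
        exact Nat.Coprime.coprime_dvd_left (Subgroup.card_dvd_of_le inf_le_left)
          (H1.Cores.coprime_card_pPrimeCore p)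
    have h3 := Subgroup.map_mono (f := N.subtype) h1
    rwa [Subgroup.subgroupOf_map_subtype, inf_assoc, inf_idem] at h3

end Cfsg.Agent.S0661
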