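import Cfsg.Statements.S0663
import Cfsg.Agent.Lib.H14.Uniserial

set_option autoImplicit false
open Cfsg

namespace Cfsg.Agent.S0663

open H14.Uniserial in
/-- A p-group acts uniserially on a p-group N of order p^n exactly when the iterated commutator chain from N has length n; in that case the chain terms are all the invariant subgroups of N and they are normal in N. -/
theorem result {L : Type*} [Group L] [Finite L] {p : ℕ} [Fact p.Prime] (N G : Subgroup L) (hN : IsPGroup p N) (hG : IsPGroup p G) (hGN : G ≤ Subgroup.normalizer (N : Set L)) (n : ℕ) (hn : Nat.card N = p ^ n) : ((∀ H : Subgroup L, H ≤ N → G ≤ Subgroup.normalizer (H : Set L) → H ≠ ⊥ → (⁅H, G⁆).relIndex H = p) ↔ Cfsg.iterCommutator N G (n - 1) ≠ ⊥ ∨ n = 0) ∧ ((∀ H : Subgroup L, H ≤ N → G ≤ Subgroup.normalizer (H : Set L) → H ≠ ⊥ → (⁅H, G⁆).relIndex H = p) → ∀ H : Subgroup L, H ≤ N → G ≤ Subgroup.normalizer (H : Set L) → (∃ i ≤ n, H = Cfsg.iterCommutator N G i) ∧ N ≤ Subgroup.normalizer (H : Set L)) := by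
  have hp : p.Prime := Fact.out
  have hfwd : (∀ H : Subgroup L, H ≤ N → G ≤ Subgroup.normalizer (H : Set L) → H ≠ ⊥ → (⁅H, G⁆).relIndex H = p) → Cfsg.iterCommutator N G (n - 1) ≠ ⊥ ∨ n = 0 := by
    intro hU
    have hcard : ∀ i ≤ n, Nat.card (iterCommutator N G i) = p ^ (n - i) := by
      intro i
      induction i with
      | zero => intro _; exact hn
      | succ i ih =>
        intro hi
        have ih' := ih (by omega)
        have hne : iterCommutator N G i ≠ ⊥ := by
          intro hb
          rw [hb, Subgroup.card_bot] at ih'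
          have h2 : 1 < p ^ (n - i) := Nat.one_lt_pow (by omega) hp.one_lt
          omega
        have h1 := hU _ (iter_le N G hGN i) (le_normalizer_iter N G hGN i) hne
        have h2 := card_mul_relIndex (iter_succ_le N G hGN i)
        rw [iter_succ, h1, ih'] at h2
        have h3 : n - i = (n - (i + 1)) + 1 := by omega
        rw [h3, pow_succ] at h2
        exact Nat.eq_of_mul_eq_mul_right hp.pos h2
    rcases Nat.eq_zero_or_pos n with h0 | h0
    · exact Or.inr h0
    · left
      intro hb
      have h1 := hcard (n - 1) (by omega)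
      rw [hb, Subgroup.card_bot] at h1
      have h2 : 1 < p ^ (n - (n - 1)) := Nat.one_lt_pow (by omega) hp.one_lt
      omega
  refine ⟨⟨hfwd, ?_⟩, ?_⟩
  · intro hne H hHN hGH hH
    have hcard := card_iter hN hG hGN hn hne
    obtain ⟨i, hi, rfl⟩ := exists_eq_iter hN hG hGN hcard hHN hGH
    have hin : i < n := by
      rcases Nat.lt_or_ge i n with h | h
      · exact h
      · exfalso
        have : i = n := le_antisymm hi h
        subst this
        apply hH
        rw [← Subgroup.card_eq_one, hcard i le_rfl, Nat.sub_self, pow_zero]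
    have h2 := card_mul_relIndex (iter_succ_le N G hGN i)
    rw [hcard i hi, hcard (i + 1) (by omega), iter_succ] at h2
    have h3 : n - i = (n - (i + 1)) + 1 := by omega
    rw [h3, pow_succ] at h2
    exact Nat.eq_of_mul_eq_mul_left (pow_pos hp.pos _) h2
  · intro hU H hHN hGH
    have hcard := card_iter hN hG hGN hn (hfwd hU)
    obtain ⟨i, hi, rfl⟩ := exists_eq_iter hN hG hGN hcard hHN hGH
    exact ⟨⟨i, hi, rfl⟩, le_sup_left.trans (le_normalizer_iter' hN hG hGN hcard i hi)⟩

end Cfsg.Agent.S0663
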