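import Cfsg.Statements.S0666
import Cfsg.Agent.Lib.H14.FrobSum
import Cfsg.Agent.Lib.H1.FrobConj
import Cfsg.Agent.Lib.H1.FrobThm

set_option autoImplicit false
open Cfsg

namespace Cfsg.Agent.S0666

/-- A Frobenius group acting on a nontrivial abelian group of order prime to that of its kernel, with the kernel acting without nontrivial fixed points, has a complement with a nontrivial fixed point. -/
theorem result {G : Type*} [Group G] [Finite G] (V F : Subgroup G) (hVab : IsMulCommutative V) (hV1 : V ≠ ⊥) (hFV : F ≤ Subgroup.normalizer (V : Set G)) (H : Subgroup ↥F) (hH : Cfsg.IsFrobeniusComplement H) (hcop : (Nat.card V).Coprime (Nat.card (Cfsg.frobeniusKernel H))) (hCK : V ⊓ Subgroup.centralizer (Subtype.val '' Cfsg.frobeniusKernel H : Set G) = ⊥) : V ⊓ Subgroup.centralizer ((H.map F.subtype : Subgroup G) : Set G) ≠ ⊥ := by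
  classical
  obtain ⟨hH1, hHt, hTI⟩ := hH
  obtain ⟨N, hNeq, hNn, hNc⟩ := H1.FrobThm.frobenius_kernel (H := H) hTI
  have hfpf := H1.FrobConj.fpf_of_TI hTI hNeq
  intro hbot
  letI : CommGroup V := { (inferInstance : Group V) with mul_comm := mul_comm' }
  let φ : F →* MulAut V := V.normalizerMonoidHom.comp (Subgroup.inclusion hFV)
  have hφ : ∀ (f : F) (v : V), ((φ f v : V) : G) = f * v * (f : G)⁻¹ := fun f v => rfl
  have hNcard : Nat.card N = Nat.card (Cfsg.frobeniusKernel H) := by
    rw [← hNeq]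
    rfl
  apply hV1
  rw [eq_bot_iff]
  intro v hv
  have hpow := H14.FrobSum.pow_card_eq_one φ N H hNn
    (fun h hh h1 n hn hnh => by
      have h2 : n ∈ N ⊓ Subgroup.centralizer {h} :=
        ⟨hn, Subgroup.mem_centralizer_singleton_iff.mpr hnh⟩
      rw [hfpf h hh h1] at h2
      exact Subgroup.mem_bot.mp h2)
    (fun w hw => by
      have h2 : (w : G) ∈ V ⊓ Subgroup.centralizer (Subtype.val '' Cfsg.frobeniusKernel H : Set G) := by
        refine ⟨w.2, Subgroup.mem_centralizer_iff.mpr ?_⟩
        rintro _ ⟨n, hn, rfl⟩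
        rw [← hNeq] at hn
        have h3 := congrArg Subtype.val (hw n hn)
        rw [hφ, mul_inv_eq_iff_eq_mul] at h3
        exact h3
      rw [hCK] at h2
      exact Subtype.ext (Subgroup.mem_bot.mp h2))
    (fun w hw => by
      have h2 : (w : G) ∈ V ⊓ Subgroup.centralizer ((H.map F.subtype : Subgroup G) : Set G) := by
        refine ⟨w.2, Subgroup.mem_centralizer_iff.mpr ?_⟩
        rintro _ ⟨n, hn, rfl⟩
        have h3 := congrArg Subtype.val (hw n hn)
        rw [hφ, mul_inv_eq_iff_eq_mul] at h3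
        exact h3
      rw [hbot] at h2
      exact Subtype.ext (Subgroup.mem_bot.mp h2))
    ⟨v, hv⟩
  have h1 : orderOf (⟨v, hv⟩ : V) ∣ 1 := by
    rw [← hcop]
    apply Nat.dvd_gcd
    · exact orderOf_dvd_natCard _
    · rw [← hNcard]
      exact orderOf_dvd_of_pow_eq_one hpow
  have h2 : (⟨v, hv⟩ : V) = 1 := orderOf_eq_one_iff.mp (Nat.dvd_one.mp h1)
  exact congrArg Subtype.val h2

end Cfsg.Agent.S0666
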