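import Cfsg.Statements.S0668
import Mathlib.LinearAlgebra.Matrix.ToLin
import Mathlib.LinearAlgebra.Dimension.Constructions

set_option autoImplicit false
open Cfsg

namespace Cfsg.Agent.S0668

/-- The equivariant linear maps between the permutation modules of two finite `G`-sets form a space whose dimension is the number of `G`-orbits on the product of the two sets. -/
theorem result {G : Type*} [Group G] {K : Type*} [Field K] {Ω₁ Ω₂ : Type*} [Fintype Ω₁] [Fintype Ω₂] [MulAction G Ω₁] [MulAction G Ω₂] : Module.finrank K ((Cfsg.permRep K G Ω₁).linHom (Cfsg.permRep K G Ω₂)).invariants = Nat.card (MulAction.orbitRel.Quotient G (Ω₁ × Ω₂)) := by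
  classical
  haveI : Finite (MulAction.orbitRel.Quotient G (Ω₁ × Ω₂)) :=
    Finite.of_surjective (Quotient.mk (MulAction.orbitRel G (Ω₁ × Ω₂))) Quotient.mk_surjective
  haveI := Fintype.ofFinite (MulAction.orbitRel.Quotient G (Ω₁ × Ω₂))
  let S : (MulAction.orbitRel.Quotient G (Ω₁ × Ω₂) → K) →ₗ[K] Matrix Ω₂ Ω₁ K :=
    { toFun := fun c => Matrix.of fun y x => c (Quotient.mk (MulAction.orbitRel G (Ω₁ × Ω₂)) (x, y))
      map_add' := fun _ _ => rfl
      map_smul' := fun _ _ => rfl }
  have hS : Function.Injective S := by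
    intro c d h
    funext q
    induction q using Quotient.inductionOn with | _ z
    exact congrFun (congrFun h z.2) z.1
  let T : (MulAction.orbitRel.Quotient G (Ω₁ × Ω₂) → K) →ₗ[K] ((Ω₁ → K) →ₗ[K] (Ω₂ → K)) :=
    (Matrix.toLin' (R := K) (n := Ω₁) (m := Ω₂)).toLinearMap.comp S
  have hT : Function.Injective T := (Matrix.toLin' (R := K) (n := Ω₁) (m := Ω₂)).injective.comp hS
  have hrange : LinearMap.range T = ((Cfsg.permRep K G Ω₁).linHom (Cfsg.permRep K G Ω₂)).invariants := by
    ext f
    rw [LinearMap.mem_range, Representation.mem_invariants]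
    constructor
    · rintro ⟨c, rfl⟩ g
      apply LinearMap.ext
      intro v
      funext y
      change (T c (fun x => v ((g⁻¹)⁻¹ • x))) (g⁻¹ • y) = T c v y
      change (Matrix.toLin' (S c) (fun x => v ((g⁻¹)⁻¹ • x))) (g⁻¹ • y) = Matrix.toLin' (S c) v y
      rw [Matrix.toLin'_apply, Matrix.toLin'_apply, Matrix.mulVec, Matrix.mulVec, dotProduct, dotProduct]
      refine Fintype.sum_equiv (MulAction.toPerm g) _ _ fun x => ?_
      rw [inv_inv]
      congr 1
      change c _ = c _
      congr 1
      apply Quotient.sound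
      refine ⟨g⁻¹, ?_⟩
      change g⁻¹ • (g • x, y) = (x, g⁻¹ • y)
      rw [Prod.smul_mk, inv_smul_smul]
    · intro hf
      let c : MulAction.orbitRel.Quotient G (Ω₁ × Ω₂) → K :=
        fun q => Quotient.liftOn' q (fun z => f (Pi.single z.1 1) z.2) (by
          rintro ⟨x, y⟩ ⟨x', y'⟩ ⟨g, hg⟩
          change g • (x', y') = (x, y) at hg
          rw [Prod.smul_mk, Prod.mk.injEq] at hg
          obtain ⟨rfl, rfl⟩ := hg
          change f (Pi.single (g • x') 1) (g • y') = f (Pi.single x' 1) y'
          have h1 := hf g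
          have h2 := congrFun (LinearMap.congr_fun h1 (Pi.single (g • x') 1)) (g • y')
          change f (fun x => (Pi.single (g • x') (1 : K) : Ω₁ → K) ((g⁻¹)⁻¹ • x)) (g⁻¹ • g • y') = f (Pi.single (g • x') 1) (g • y') at h2
          rw [inv_smul_smul] at h2
          rw [← h2]
          have h3 : (fun x => (Pi.single (g • x') (1 : K) : Ω₁ → K) ((g⁻¹)⁻¹ • x)) = Pi.single x' 1 := by
            funext x
            rw [inv_inv]
            by_cases hx : x = x'
            · subst hx; simp
            · rw [Pi.single_eq_of_ne, Pi.single_eq_of_ne hx]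
              exact fun h => hx (MulAction.injective g h)
          rw [h3])
      refine ⟨c, ?_⟩
      apply (LinearMap.toMatrix' (R := K) (n := Ω₁) (m := Ω₂)).injective
      change LinearMap.toMatrix' (Matrix.toLin' (S c)) = LinearMap.toMatrix' f
      rw [LinearMap.toMatrix'_toLin']
      ext y x
      rw [LinearMap.toMatrix'_apply]
      rfl
  rw [← hrange, LinearMap.finrank_range_of_inj hT, Module.finrank_pi, Nat.card_eq_fintype_card]

end Cfsg.Agent.S0668
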