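import Cfsg.Statements.S0669

set_option autoImplicit false
open Cfsg

namespace Cfsg.Agent.S0669

/-- The rank of a transitive action: orbits on ordered pairs correspond to orbits of a point stabiliser. -/
theorem result {G : Type*} [Group G] {Ω : Type*} [Finite Ω] [MulAction G Ω] [MulAction.IsPretransitive G Ω] (a : Ω) : Nat.card (MulAction.orbitRel.Quotient G (Ω × Ω)) = Nat.card (MulAction.orbitRel.Quotient (MulAction.stabilizer G a) Ω) := by
  have hmap : ∀ y z : Ω, (MulAction.orbitRel (MulAction.stabilizer G a) Ω) y z →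
      (MulAction.orbitRel G (Ω × Ω)) (a, y) (a, z) := by
    rintro y z ⟨g, hg⟩
    refine ⟨(g : G), ?_⟩
    have hga : (g : G) • a = a := g.2
    have hgz : (g : G) • z = y := hg
    change (g : G) • (a, z) = (a, y)
    rw [Prod.smul_mk, hga, hgz]
  symm
  apply Nat.card_eq_of_bijective
    (f := Quotient.map (sa := MulAction.orbitRel (MulAction.stabilizer G a) Ω)
      (sb := MulAction.orbitRel G (Ω × Ω)) (fun y => (a, y)) hmap)
  constructor
  · intro q r
    induction q using Quotient.inductionOn with | _ y
    induction r using Quotient.inductionOn with | _ z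
    intro h
    obtain ⟨g, hg⟩ := Quotient.exact h
    change g • (a, z) = (a, y) at hg
    rw [Prod.smul_mk, Prod.mk.injEq] at hg
    exact Quotient.sound ⟨⟨g, hg.1⟩, hg.2⟩
  · intro q
    induction q using Quotient.inductionOn with | _ yz
    obtain ⟨y, z⟩ := yz
    obtain ⟨g, hg⟩ := MulAction.exists_smul_eq G y a
    refine ⟨Quotient.mk _ (g • z), ?_⟩
    refine Quotient.sound ⟨g, ?_⟩
    change g • (y, z) = (a, g • z)
    rw [Prod.smul_mk, hg]

end Cfsg.Agent.S0669
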