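import Cfsg.Statements.S0671
import Cfsg.Agent.Lib.H14.PermMod2

set_option autoImplicit false
open Cfsg

namespace Cfsg.Agent.S0671

/-- If the heart of the permutation module in characteristic `p` of a transitive action of degree `p ^ f` has no trivial composition factor, the action is doubly transitive. The hypothesis is phrased without composition series: no invariant subspaces `W < W'` between the constants and the sum-zero functions with trivial action on the quotient. -/
theorem result {G : Type*} [Group G] [Finite G] {K : Type*} [Field K] {p f : ℕ} [Fact p.Prime] [CharP K p] {Ω : Type*} [Fintype Ω] [MulAction G Ω] [MulAction.IsPretransitive G Ω] (hf : 1 ≤ f) (hcard : Fintype.card Ω = p ^ f) (h : ∀ W W' : Subrepresentation (Cfsg.permRep K G Ω), (Cfsg.permConstants K G Ω).toSubmodule ≤ W.toSubmodule → W.toSubmodule < W'.toSubmodule → W'.toSubmodule ≤ (Cfsg.permSumZero K G Ω).toSubmodule → ∃ g : G, ∃ v ∈ W'.toSubmodule, Cfsg.permRep K G Ω g v - v ∉ W.toSubmodule) : MulAction.IsMultiplyPretransitive G Ω 2 := by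
  classical
  by_contra hnot
  rw [MulAction.is_two_pretransitive_iff] at hnot
  push Not at hnot
  obtain ⟨a, b, c, d, hab, hcd, hg⟩ := hnot
  obtain ⟨g0, hg0⟩ := MulAction.exists_smul_eq G a c
  set b' := g0 • b with hb'
  have hb'c : b' ≠ c := by
    intro h1
    rw [← hg0, hb'] at h1
    exact hab (MulAction.injective g0 h1).symm
  have hbd : ∀ g : G, g • c = c → g • b' ≠ d := by
    intro g hgc hgd
    apply hg (g * g0)
    · rw [mul_smul, hg0, hgc]
    · rw [mul_smul, ← hb', hgd]
  let O : Set (Ω × Ω) := MulAction.orbit G (c, b')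
  have hO : ∀ (g : G) x y, (g • x, g • y) ∈ O ↔ (x, y) ∈ O := by
    intro g x y
    have : (g • x, g • y) = g • (x, y) := rfl
    rw [this]
    simp only [O]
    rw [← MulAction.orbit_eq_iff, MulAction.orbit_smul, MulAction.orbit_eq_iff]
  let k : K := ∑ y, if (c, y) ∈ O then 1 else 0
  let A : Ω → Ω → K := fun x y => (if (x, y) ∈ O then 1 else 0) - (if x = y then k else 0)
  refine H14.PermMod2.false_of_kernel (G := G) (K := K) (p := p) hcard h A ?_ c ?_ ⟨b', d, ?_⟩
  · intro g x y
    simp only [A, hO, MulAction.injective g |>.eq_iff]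
  · simp only [A, Finset.sum_sub_distrib, k]
    rw [Finset.sum_ite_eq]
    simp
  · have h1 : (c, b') ∈ O := MulAction.mem_orbit_self _
    have h2 : (c, d) ∉ O := by
      rintro ⟨g, hg⟩
      change g • (c, b') = (c, d) at hg
      rw [Prod.smul_mk, Prod.mk.injEq] at hg
      exact hbd g hg.1 hg.2
    simp only [A, h1, h2, if_true, if_false, if_neg hb'c.symm, if_neg hcd]
    simp

end Cfsg.Agent.S0671
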