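import Cfsg.Statements.S0681
import Cfsg.Agent.Lib.H14.NearFieldBasic

set_option autoImplicit false
open Cfsg

namespace Cfsg.Agent.S0681

open H14.NearFieldBasic in
/-- The affine maps `x ↦ x * a + b`, `a ≠ 0`, of a near-field form a sharply doubly transitive permutation group. -/
theorem result {F : Type*} [Cfsg.NearField F] : ∃ H : Subgroup (Equiv.Perm F), (∀ σ : Equiv.Perm F, σ ∈ H ↔ ∃ a b : F, a ≠ 0 ∧ ∀ x : F, σ x = x * a + b) ∧ MulAction.IsMultiplyPretransitive H F 2 ∧ ∀ x : Fin 2 ↪ F, MulAction.stabilizer H x = ⊥ := by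
  let H : Subgroup (Equiv.Perm F) :=
    { carrier := {σ | ∃ a b : F, a ≠ 0 ∧ ∀ x : F, σ x = x * a + b}
      one_mem' := ⟨1, 0, NearField.zero_ne_one.symm, fun x => by simp⟩
      mul_mem' := by
        rintro σ τ ⟨a, b, ha, hσ⟩ ⟨c, d, hc, hτ⟩
        refine ⟨c * a, d * a + b, nf_mul_ne_zero hc ha, fun x => ?_⟩
        rw [Equiv.Perm.mul_apply, hτ, hσ, NearField.right_distrib, mul_assoc, add_assoc]
      inv_mem' := by
        rintro σ ⟨a, b, ha, hσ⟩
        obtain ⟨c, hac, hca⟩ := NearField.exists_inv a ha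
        have hc : c ≠ 0 := by
          rintro rfl
          rw [NearField.mul_zero] at hac
          exact NearField.zero_ne_one hac
        refine ⟨c, -(b * c), hc, fun x => ?_⟩
        apply σ.injective
        rw [Equiv.Perm.inv_def, Equiv.apply_symm_apply, hσ, ← sub_eq_add_neg, nf_sub_mul,
          mul_assoc, hca, mul_assoc, hca, mul_one, mul_one, sub_add_cancel] }
  have hmem : ∀ σ : Equiv.Perm F, σ ∈ H ↔ ∃ a b : F, a ≠ 0 ∧ ∀ x : F, σ x = x * a + b :=
    fun σ => Iff.rfl
  -- a permutation of each affine form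
  have hex : ∀ a b : F, a ≠ 0 → ∃ σ : H, ∀ x : F, (σ : Equiv.Perm F) x = x * a + b := by
    intro a b ha
    obtain ⟨c, hac, hca⟩ := NearField.exists_inv a ha
    refine ⟨⟨⟨fun x => x * a + b, fun x => (x - b) * c, fun x => ?_, fun x => ?_⟩, a, b, ha, fun x => rfl⟩, fun x => rfl⟩
    · simp only [add_sub_cancel_right]
      rw [mul_assoc, hac, mul_one]
    · simp only []
      rw [mul_assoc, hca, mul_one, sub_add_cancel]
  refine ⟨H, hmem, ?_, ?_⟩
  · rw [MulAction.is_two_pretransitive_iff]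
    intro x y u v hxy huv
    have h1 : y - x ≠ 0 := sub_ne_zero.mpr (Ne.symm hxy)
    obtain ⟨a, ha⟩ := nf_exists_mul_eq h1 (v - u)
    have ha0 : a ≠ 0 := by
      rintro rfl
      rw [NearField.mul_zero] at ha
      exact huv (sub_eq_zero.mp ha.symm).symm
    obtain ⟨σ, hσ⟩ := hex a (-(x * a) + u) ha0
    refine ⟨σ, ?_, ?_⟩
    · rw [Subgroup.smul_def, Equiv.Perm.smul_def, hσ, add_neg_cancel_left]
    · rw [Subgroup.smul_def, Equiv.Perm.smul_def, hσ, ← add_assoc, ← sub_eq_add_neg, ← nf_sub_mul,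
        ha, sub_add_cancel]
  · intro x
    rw [eq_bot_iff]
    intro σ hσ
    rw [MulAction.mem_stabilizer_iff] at hσ
    obtain ⟨a, b, ha, hab⟩ := (hmem _).mp σ.2
    have h0 : (σ : Equiv.Perm F) (x 0) = x 0 := by
      have := DFunLike.congr_fun hσ 0
      exact this
    have h1 : (σ : Equiv.Perm F) (x 1) = x 1 := by
      have := DFunLike.congr_fun hσ 1
      exact this
    have hne : x 0 - x 1 ≠ 0 := sub_ne_zero.mpr (x.injective.ne (by decide))
    rw [hab] at h0 h1
    have h2 : (x 0 - x 1) * a = (x 0 - x 1) * 1 := by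
      rw [nf_sub_mul, mul_one]
      conv_rhs => rw [← h0, ← h1]
      rw [add_sub_add_right_eq_sub]
    have ha1 := nf_mul_right_inj hne h2
    subst ha1
    rw [mul_one] at h0
    have hb : b = 0 := by simpa using h0
    rw [Subgroup.mem_bot]
    apply Subtype.ext
    ext z
    rw [hab, hb]
    simp

end Cfsg.Agent.S0681
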