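import Cfsg.Statements.S0682
import Cfsg.Agent.Lib.H14.NearFieldBasic

set_option autoImplicit false
open Cfsg

namespace Cfsg.Agent.S0682

open H14.NearFieldBasic in
/-- A finite near-field has prime-power order; its additive group is commutative of prime exponent. -/
theorem result {F : Type*} [Cfsg.NearField F] [Finite F] : ∃ p j : ℕ, p.Prime ∧ 1 ≤ j ∧ Nat.card F = p ^ j ∧ (∀ x y : F, x + y = y + x) ∧ ∀ x : F, p • x = 0 := by
  have hnt : Nontrivial F := ⟨⟨0, 1, NearField.zero_ne_one⟩⟩
  have hcard : Nat.card F ≠ 1 := by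
    intro h
    rw [Nat.card_eq_one_iff_unique] at h
    exact not_subsingleton F h.1
  obtain ⟨p, hp, hdvd⟩ := Nat.exists_prime_and_dvd hcard
  haveI : Fact p.Prime := ⟨hp⟩
  obtain ⟨x, hx⟩ := exists_prime_addOrderOf_dvd_card' (G := F) p hdvd
  have hx0 : x ≠ 0 := by
    rintro rfl
    rw [addOrderOf_zero] at hx
    exact hp.one_lt.ne hx
  have hnsmul : ∀ (n : ℕ) (a b : F), (n • a) * b = n • (a * b) := by
    intro n a b
    induction n with
    | zero => rw [zero_nsmul, zero_nsmul, nf_zero_mul]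
    | succ n ih => rw [succ_nsmul, succ_nsmul, NearField.right_distrib, ih]
  have hpx : p • x = 0 := by rw [← hx]; exact addOrderOf_nsmul_eq_zero x
  have hp0 : ∀ y : F, p • y = 0 := by
    intro y
    obtain ⟨a, rfl⟩ := nf_exists_mul_eq hx0 y
    rw [← hnsmul, hpx, nf_zero_mul]
  have hpg : IsPGroup p (Multiplicative F) := fun g => ⟨1, by
    rw [pow_one]
    exact hp0 (Multiplicative.toAdd g)⟩
  obtain ⟨j, hj⟩ := (IsPGroup.iff_card (G := Multiplicative F)).mp hpg
  have hj' : Nat.card F = p ^ j := hj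
  haveI := hpg.center_nontrivial
  obtain ⟨⟨z, hz⟩, hz1⟩ := exists_ne (1 : Subgroup.center (Multiplicative F))
  have hz0 : (Multiplicative.toAdd z : F) ≠ 0 := fun h => hz1 (Subtype.ext h)
  have hzc : ∀ y : F, y + Multiplicative.toAdd z = Multiplicative.toAdd z + y := fun y =>
    Subgroup.mem_center_iff.mp hz (Multiplicative.ofAdd y)
  refine ⟨p, j, hp, ?_, hj', ?_, hp0⟩
  · rcases Nat.eq_zero_or_pos j with h | h
    · rw [h, pow_zero] at hj'
      exact absurd hj' hcard
    · exact h
  · intro x y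
    by_cases hx : x = 0
    · rw [hx, zero_add, add_zero]
    obtain ⟨a, rfl⟩ := nf_exists_mul_eq hz0 x
    have ha : a ≠ 0 := by
      rintro rfl
      exact hx (NearField.mul_zero _)
    obtain ⟨c, hac, hca⟩ := NearField.exists_inv a ha
    have : y = (y * c) * a := by rw [mul_assoc, hca, mul_one]
    rw [this, ← NearField.right_distrib, ← NearField.right_distrib, hzc]

end Cfsg.Agent.S0682
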