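import Cfsg.Statements.S0686
import Cfsg.Agent.Lib.H74.Reg

set_option autoImplicit false
open Cfsg

namespace Cfsg.Agent.S0686

open H74.FrobC H74.FC H74.Zass H74.Perf H74.NonSolv H74.NonSolv2 H74.NonSolv3

/-- a generalized quaternion group of class at most two is the quaternion group of order eight -/
theorem quat_class_two (n : ℕ) (h : ∀ x y z : QuaternionGroup (2 ^ n), z * (x * y * x⁻¹ * y⁻¹) = x * y * x⁻¹ * y⁻¹ * z) : n ≤ 1 := by
  have h1 := h (QuaternionGroup.xa 0) (QuaternionGroup.a 1) (QuaternionGroup.xa 0)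
  have h2 : ∀ (x y : QuaternionGroup (2 ^ n)), x * y * x⁻¹ * y⁻¹ = x * y * x⁻¹ * y⁻¹ := fun _ _ => rfl
  by_contra hn
  push Not at hn
  have e1 : (QuaternionGroup.xa 0 : QuaternionGroup (2 ^ n)) * QuaternionGroup.a 1 * (QuaternionGroup.xa 0)⁻¹ * (QuaternionGroup.a 1)⁻¹ =
      QuaternionGroup.a (-2) := by
    have e2 : (QuaternionGroup.xa 0 : QuaternionGroup (2 ^ n))⁻¹ = QuaternionGroup.xa ((2 ^ n : ℕ) + 0 : ZMod (2 * 2 ^ n)) := rfl
    have e3 : (QuaternionGroup.a 1 : QuaternionGroup (2 ^ n))⁻¹ = QuaternionGroup.a (-1) := rfl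
    rw [e2, e3, QuaternionGroup.xa_mul_a, QuaternionGroup.xa_mul_xa, QuaternionGroup.a_mul_a]
    congr 1
    have h0 : ((2 ^ n : ℕ) : ZMod (2 * 2 ^ n)) + ((2 ^ n : ℕ) : ZMod (2 * 2 ^ n)) = 0 := by
      have : ((2 * 2 ^ n : ℕ) : ZMod (2 * 2 ^ n)) = 0 := ZMod.natCast_self _
      rw [← Nat.cast_add, ← two_mul]; exact this
    linear_combination h0
  rw [e1, QuaternionGroup.xa_mul_a, QuaternionGroup.a_mul_xa] at h1
  have h3 : (0 + -2 : ZMod (2 * 2 ^ n)) = 0 - -2 := by
    injection h1
  have h4 : ((4 : ℕ) : ZMod (2 * 2 ^ n)) = 0 := by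
    push_cast
    linear_combination -h3
  rw [ZMod.natCast_eq_zero_iff] at h4
  have h5 := Nat.le_of_dvd (by norm_num) h4
  have h6 : 2 ^ 2 ≤ 2 ^ n := Nat.pow_le_pow_right (by norm_num) hn
  omega

theorem main {G : Type*} [Group G] [Finite G] (h : IsFC G) (A : Subgroup G) (hAn : A.Normal)
    (hAc : IsMulCommutative A) (hAmax : ∀ B : Subgroup G, B.Normal → IsMulCommutative B → A ≤ B → B = A)
    (N : Subgroup G) (hNn : N.Normal) (hNle : N ≤ Subgroup.centralizer (A : Set G)) (hNna : ¬ IsMulCommutative N)
    (hNmin : ∀ M : Subgroup G, M.Normal → M ≤ N → ¬ IsMulCommutative M → M = N) :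
    Nonempty (N ≃* QuaternionGroup 2) ∨ Nonempty (N ≃* Matrix.SpecialLinearGroup (Fin 2) (ZMod 5)) := by
  have hNbot : N ≠ ⊥ := by
    rintro rfl
    apply hNna
    exact ⟨⟨fun a b => Subsingleton.elim _ _⟩⟩
  have hNnt : Nontrivial N := (Subgroup.nontrivial_iff_ne_bot N).mpr hNbot
  have hNFC := isFC_subgroup h N hNbot
  -- characteristic subgroups of `N`
  have hchar : ∀ M : Subgroup N, M.Characteristic → ¬ IsMulCommutative M → M = ⊤ := by
    intro M hM hMc
    have h1 : (M.map N.subtype) = N := by
      apply hNmin _ inferInstance (Subgroup.map_subtype_le _)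
      intro hc
      apply hMc
      refine ⟨⟨fun a b => ?_⟩⟩
      apply Subtype.ext
      apply Subtype.ext
      have := hc.is_comm.comm ⟨((a : N) : G), ⟨a, a.2, rfl⟩⟩ ⟨((b : N) : G), ⟨b, b.2, rfl⟩⟩
      have h3 := congrArg Subtype.val this
      change ((a : N) : G) * ((b : N) : G) = ((b : N) : G) * ((a : N) : G)
      exact h3
    rw [eq_top_iff]
    intro x _
    have h2 : (x : G) ∈ M.map N.subtype := by rw [h1]; exact x.2
    obtain ⟨y, hy, hyx⟩ := h2
    have : y = x := Subtype.ext hyx
    rwa [← this]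
  by_cases hs : Group.IsSolvable N
  · left
    -- the commutator subgroup of `N` is central in `N`
    have hcomm : ∀ x y z : N, z * (x * y * x⁻¹ * y⁻¹) = x * y * x⁻¹ * y⁻¹ * z := by
      have h1 : IsMulCommutative (commutator N) := by
        by_contra hc
        exact (Group.IsSolvable.commutator_lt_top_of_nontrivial N).ne (hchar _ inferInstance hc)
      let B : Subgroup G := (commutator N).map N.subtype
      have hBn : B.Normal := inferInstance
      have hBc : ∀ a ∈ B, ∀ b ∈ B, a * b = b * a := by
        rintro _ ⟨a, ha, rfl⟩ _ ⟨b, hb, rfl⟩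
        exact congrArg (fun t : commutator N => ((t : N) : G)) (h1.is_comm.comm ⟨a, ha⟩ ⟨b, hb⟩)
      have hBN : B ≤ N := Subgroup.map_subtype_le _
      have hAB : A ⊔ B = A := by
        apply hAmax _ inferInstance _ le_sup_left
        refine ⟨⟨fun x y => ?_⟩⟩
        obtain ⟨a, ha, b, hb, hab⟩ := Subgroup.mem_sup_of_normal_left.mp x.2
        obtain ⟨c, hc, d, hd, hcd⟩ := Subgroup.mem_sup_of_normal_left.mp y.2
        apply Subtype.ext
        change (x : G) * y = y * x
        rw [← hab, ← hcd]
        have e1 : a * c = c * a := congrArg Subtype.val (hAc.is_comm.comm ⟨a, ha⟩ ⟨c, hc⟩)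
        have e2 : c * b = b * c := Subgroup.mem_centralizer_iff.mp (hNle (hBN hb)) c hc
        have e3 : a * d = d * a := Subgroup.mem_centralizer_iff.mp (hNle (hBN hd)) a ha
        have e4 : b * d = d * b := hBc b hb d hd
        calc a * b * (c * d) = a * (b * c) * d := by group
          _ = a * (c * b) * d := by rw [e2]
          _ = (a * c) * (b * d) := by group
          _ = (c * a) * (d * b) := by rw [e1, e4]
          _ = c * (a * d) * b := by group
          _ = c * (d * a) * b := by rw [e3]
          _ = c * d * (a * b) := by group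
      have hBA : B ≤ A := by rw [← hAB]; exact le_sup_right
      intro x y z
      have h2 : x * y * x⁻¹ * y⁻¹ ∈ commutator N := Subgroup.commutator_mem_commutator (Subgroup.mem_top x) (Subgroup.mem_top y)
      have h3 : ((x * y * x⁻¹ * y⁻¹ : N) : G) ∈ A := hBA ⟨_, h2, rfl⟩
      apply Subtype.ext
      exact ((Subgroup.mem_centralizer_iff.mp (hNle z.2)) _ h3).symm
    have hnil : Group.IsNilpotent N := by
      have h1 : (Abelianization.of : N →* Abelianization N).ker ≤ Subgroup.center N := by
        rw [Abelianization.ker_of, commutator_def, Subgroup.commutator_le]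
        intro x _ y _
        rw [Subgroup.mem_center_iff]
        intro z
        exact hcomm x y z
      exact Subgroup.isNilpotent_of_ker_le_center _ h1
    have hnz : ¬ IsZGroup N := by
      intro hz
      apply hNna
      have : IsCyclic N := inferInstance
      infer_instance
    have h2 : ∃ (p : ℕ) (_ : Fact p.Prime) (P : Sylow p N), ¬ IsCyclic P := by
      by_contra hc
      push Not at hc
      apply hnz
      exact ⟨fun p hp P => hc p ⟨hp⟩ P⟩
    obtain ⟨p, hp, P, hP⟩ := h2
    rcases pgroup hNFC p P P.isPGroup' with h3 | ⟨-, n, ⟨f⟩⟩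
    · exact absurd h3 hP
    have hn0 : n ≠ 0 := by
      rintro rfl
      apply hP
      have : IsCyclic (QuaternionGroup (2 ^ 0)) := by
        rw [pow_zero]
        exact QuaternionGroup.quaternionGroup_one_isCyclic
      exact isCyclic_of_surjective f.symm f.symm.surjective
    have hPc : ¬ IsMulCommutative (P : Subgroup N) := by
      intro hc
      apply hP
      apply isCyclic_of_comm hNFC
      intro x hx y hy
      exact congrArg Subtype.val (hc.is_comm.comm ⟨x, hx⟩ ⟨y, hy⟩)
    have hPtop : (P : Subgroup N) = ⊤ := hchar P (P.characteristic_of_normal inferInstance) hPc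
    have e : N ≃* QuaternionGroup (2 ^ n) := (Subgroup.topEquiv.symm.trans (MulEquiv.subgroupCongr hPtop.symm)).trans f
    have hn1 : n ≤ 1 := by
      apply quat_class_two
      intro x y z
      have := congrArg e (hcomm (e.symm x) (e.symm y) (e.symm z))
      simpa using this
    have hn : n = 1 := by omega
    subst hn
    exact ⟨e⟩
  · right
    obtain ⟨e⟩ := closure_iso hNFC hs
    have hch : (Subgroup.closure {x : N | orderOf x = 3}).Characteristic := by
      rw [Subgroup.characteristic_iff_map_le]
      intro f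
      rw [MonoidHom.map_closure, Subgroup.closure_le]
      rintro _ ⟨x, hx, rfl⟩
      apply Subgroup.subset_closure
      change orderOf (f x) = 3
      rw [MulEquiv.orderOf_eq]; exact hx
    have htop := hchar _ hch (by
      intro hc
      have h1 : Group.IsSolvable (Subgroup.closure {x : N | orderOf x = 3}) := Group.isSolvable_of_comm hc.is_comm.comm
      have : Nontrivial (Subgroup.closure {x : N | orderOf x = 3}) := by
        have : Nontrivial SL5 := by
          refine ⟨⟨1, mk 1 1 0 1 (by decide), ?_⟩⟩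
          intro h
          have := congrFun (congrFun (congrArg Subtype.val h) 0) 1
          exact absurd this (by decide)
        exact e.toEquiv.nontrivial
      exact not_solvable (perfect_of_equiv e) h1)
    exact ⟨(Subgroup.topEquiv.symm.trans (MulEquiv.subgroupCongr htop.symm)).trans e⟩

/-- In a linear group over the prime field that is regular on non-zero vectors and has no irreducible cyclic normal subgroup, let `A` be a maximal normal abelian subgroup and `N` a normal subgroup centralising `A` that is minimal among non-abelian normal subgroups centralising `A`. Then `N` is quaternion of order 8 or isomorphic to `SL(2,5)`. -/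
theorem result {p : ℕ} [Fact p.Prime] {V : Type*} [AddCommGroup V] [Module (ZMod p) V] [Finite V] (H : Subgroup (V ≃ₗ[ZMod p] V)) (hreg : ∀ v w : V, v ≠ 0 → w ≠ 0 → ∃! h : H, (h : V ≃ₗ[ZMod p] V) v = w) (hI : ∀ A : Subgroup H, A.Normal → IsCyclic A → ∃ W : Submodule (ZMod p) V, W ≠ ⊥ ∧ W ≠ ⊤ ∧ ∀ a ∈ A, ∀ v ∈ W, ((a : H) : V ≃ₗ[ZMod p] V) v ∈ W) (A : Subgroup H) (hAn : A.Normal) (hAc : IsMulCommutative A) (hAmax : ∀ B : Subgroup H, B.Normal → IsMulCommutative B → A ≤ B → B = A) (N : Subgroup H) (hNn : N.Normal) (hNle : N ≤ Subgroup.centralizer (A : Set H)) (hNna : ¬ IsMulCommutative N) (hNmin : ∀ M : Subgroup H, M.Normal → M ≤ N → ¬ IsMulCommutative M → M = N) : Nonempty (N ≃* QuaternionGroup 2) ∨ Nonempty (N ≃* Matrix.SpecialLinearGroup (Fin 2) (ZMod 5)) := by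
  have hfin : Finite (V ≃ₗ[ZMod p] V) :=
    Finite.of_injective (fun f : V ≃ₗ[ZMod p] V => (f : V → V)) (fun f g h => LinearEquiv.ext (congrFun h))
  have hnt : Nontrivial H := by
    by_contra h
    rw [not_nontrivial_iff_subsingleton] at h
    apply hNna
    exact ⟨⟨fun a b => Subsingleton.elim _ _⟩⟩
  exact main (H74.Reg.isFC hreg) A hAn hAc hAmax N hNn hNle hNna hNmin

end Cfsg.Agent.S0686
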