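import Cfsg.Statements.S0689
import Cfsg.Agent.Lib.H74.Reg4

set_option autoImplicit false
open Cfsg

namespace Cfsg.Agent.S0689

open H74.FrobC H74.FC H74.Zass H74.Perf H74.NonSolv H74.NonSolv2 H74.NonSolv3

/-- the arithmetic -/
theorem arith (p n q m j : ℕ) (hp : p.Prime) (hq : 1 < q) (hpn : p ^ n = q ^ 2) (hj : j = 1 ∨ j = 2) (hm : m.Coprime 30)
    (hmq : m ∣ q - 1) (h : q ^ 2 - 1 = 120 * m * j) :
    j = 1 ∧ ((q = 11 ∧ m = 1) ∨ (q = 29 ∧ m = 7) ∨ (q = 59 ∧ m = 29)) := by
  have h2 : ¬ 2 ∣ m := by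
    intro hd
    have := Nat.dvd_gcd hd (by norm_num : 2 ∣ 30)
    rw [hm] at this
    omega
  have h3 : ¬ 3 ∣ m := by
    intro hd
    have := Nat.dvd_gcd hd (by norm_num : 3 ∣ 30)
    rw [hm] at this
    omega
  have hm0 : 0 < m := by
    rcases Nat.eq_zero_or_pos m with h | h
    · rw [h] at h2; exact absurd (dvd_zero 2) h2
    · exact h
  obtain ⟨t, ht⟩ := hmq
  have hfac : q ^ 2 - 1 = (q + 1) * (q - 1) := by
    have := Nat.sq_sub_sq q 1
    simpa using this
  have h4 : (q + 1) * t = 120 * j := by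
    rw [hfac, ht] at h
    have : m * ((q + 1) * t) = m * (120 * j) := by linarith
    exact Nat.eq_of_mul_eq_mul_left hm0 this
  have h5 : q + 1 ∣ 240 := by
    rcases hj with rfl | rfl
    · exact (Dvd.intro _ h4).trans (by norm_num)
    · exact (Dvd.intro _ h4).trans (by norm_num)
  have h119 : q ≠ 119 := by
    rintro rfl
    have h7 : 7 ∣ p := by
      apply (Nat.prime_iff.mp (by norm_num : Nat.Prime 7)).dvd_of_dvd_pow (n := n)
      rw [hpn]; norm_num
    have h17 : 17 ∣ p := by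
      apply (Nat.prime_iff.mp (by norm_num : Nat.Prime 17)).dvd_of_dvd_pow (n := n)
      rw [hpn]; norm_num
    have e1 := (Nat.prime_dvd_prime_iff_eq (by norm_num) hp).mp h7
    have e2 := (Nat.prime_dvd_prime_iff_eq (by norm_num) hp).mp h17
    omega
  have hle : q + 1 ≤ 240 := Nat.le_of_dvd (by norm_num) h5
  have h6 : q + 1 ∈ Nat.divisors 240 := by rw [Nat.mem_divisors]; exact ⟨h5, by norm_num⟩
  have h7 : Nat.divisors 240 = {1, 2, 3, 4, 5, 6, 8, 10, 12, 15, 16, 20, 24, 30, 40, 48, 60, 80, 120, 240} := by decide +kernel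
  rw [h7] at h6
  simp only [Finset.mem_insert, Finset.mem_singleton] at h6
  rcases h6 with h6 | h6 | h6 | h6 | h6 | h6 | h6 | h6 | h6 | h6 | h6 | h6 | h6 | h6 | h6 | h6 | h6 | h6 | h6 | h6
  all_goals
    first
    | omega
    | (obtain rfl : q = _ := by
        first
        | exact Nat.succ_injective h6
       norm_num at h
       rcases hj with rfl | rfl <;> omega)

theorem fin_equiv {G : Type*} [Group G] (L M : Subgroup G) (h2 : L ⊓ M = ⊥) (h3 : M ≤ Subgroup.centralizer (L : Set G)) :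
    Nonempty ((L ⊔ M : Subgroup G) ≃* L × M) := by
  let f : L × M →* G :=
    { toFun := fun x => (x.1 : G) * x.2
      map_one' := by simp
      map_mul' := by
        intro x y
        have h4 : (y.1 : G) * x.2 = x.2 * y.1 := Subgroup.mem_centralizer_iff.mp (h3 x.2.2) _ y.1.2
        simp only [Prod.fst_mul, Prod.snd_mul, Subgroup.coe_mul]
        calc (x.1 : G) * y.1 * (x.2 * y.2) = x.1 * (y.1 * x.2) * y.2 := by group
          _ = x.1 * (x.2 * y.1) * y.2 := by rw [h4]
          _ = _ := by group }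
  have hi : Function.Injective f := by
    rw [injective_iff_map_eq_one]
    rintro ⟨l, m⟩ hlm
    have h4 : (l : G) * m = 1 := hlm
    have h5 : (m : G) ∈ L ⊓ M := by
      refine Subgroup.mem_inf.mpr ⟨?_, m.2⟩
      rw [← inv_eq_of_mul_eq_one_right h4]
      exact L.inv_mem l.2
    rw [h2, Subgroup.mem_bot] at h5
    rw [h5, mul_one] at h4
    exact Prod.ext (Subtype.ext h4) (Subtype.ext h5)
  have hs : f.range = L ⊔ M := by
    apply le_antisymm
    · rintro _ ⟨x, rfl⟩
      exact Subgroup.mul_mem _ (Subgroup.mem_sup_left x.1.2) (Subgroup.mem_sup_right x.2.2)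
    · apply sup_le
      · intro l hl
        exact ⟨(⟨l, hl⟩, 1), mul_one _⟩
      · intro m hm
        exact ⟨(1, ⟨m, hm⟩), one_mul _⟩
  exact ⟨((MonoidHom.ofInjective hi).trans (MulEquiv.subgroupCongr hs)).symm⟩

theorem card_sl5 : Nat.card SL5 = 120 := by
  have h := H6.SLCard.card_sl (F := ZMod 5) (n := 2) (by norm_num)
  rw [Fin.prod_univ_two, ZMod.card] at h
  have h2 : (5 - 1) * Nat.card (Matrix.SpecialLinearGroup (Fin 2) (ZMod 5)) = 480 := by
    rw [h]; rfl
  have h3 : 4 * Nat.card SL5 = 4 * 120 := h2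
  exact Nat.eq_of_mul_eq_mul_left (by norm_num) h3

/-- The insoluble sharply doubly transitive groups: a non-solvable linear group over the prime field that is regular on the non-zero vectors of `V` occurs only for `|V| = 11², 29², 59²`, and is `SL(2,5) × C_m` with `m = 1, 7, 29` respectively. -/
theorem result {p : ℕ} [Fact p.Prime] {V : Type*} [AddCommGroup V] [Module (ZMod p) V] [Finite V] (H : Subgroup (V ≃ₗ[ZMod p] V)) (hreg : ∀ v w : V, v ≠ 0 → w ≠ 0 → ∃! h : H, (h : V ≃ₗ[ZMod p] V) v = w) (hsolv : ¬ Group.IsSolvable H) : (Nat.card V = 121 ∧ Nonempty (H ≃* Matrix.SpecialLinearGroup (Fin 2) (ZMod 5))) ∨ (Nat.card V = 841 ∧ Nonempty (H ≃* Matrix.SpecialLinearGroup (Fin 2) (ZMod 5) × Multiplicative (ZMod 7))) ∨ (Nat.card V = 3481 ∧ Nonempty (H ≃* Matrix.SpecialLinearGroup (Fin 2) (ZMod 5) × Multiplicative (ZMod 29))) := by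
  have hfin : Finite (V ≃ₗ[ZMod p] V) :=
    Finite.of_injective (fun f : V ≃ₗ[ZMod p] V => (f : V → V)) (fun f g h => LinearEquiv.ext (congrFun h))
  have hnt : Nontrivial H := by
    by_contra h
    rw [not_nontrivial_iff_subsingleton] at h
    exact hsolv inferInstance
  have hV : Nontrivial V := by
    by_contra h
    rw [not_nontrivial_iff_subsingleton] at h
    obtain ⟨g, hg⟩ := exists_ne (1 : H)
    apply hg
    apply Subtype.ext
    apply LinearEquiv.ext
    intro v
    exact Subsingleton.elim _ _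
  have hFC := H74.Reg.isFC hreg
  obtain ⟨e⟩ := closure_iso hFC hsolv
  have hn := closure_normal H 3
  obtain ⟨M, h1, h2, h3, h4, h5⟩ := H74.NonSolv2.main hFC _ e
  have h6 := index_sup _ e
  set L : Subgroup H := Subgroup.closure {x : H | orderOf x = 3} with hL
  let j : H →* AddMonoid.End V :=
    { toFun := fun h => ((h : V ≃ₗ[ZMod p] V) : V →ₗ[ZMod p] V).toAddMonoidHom
      map_one' := rfl
      map_mul' := fun _ _ => rfl }
  obtain ⟨q, hq1, hq2, hq3⟩ := H74.Reg4.core j (fun v w hv hw => (hreg v w hv hw).exists)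
    (fun h v hv hh => H74.Reg.fixed_eq_one hreg h v hv hh) L e
  have hMq := hq3 M h3
  -- the order of `H`
  obtain ⟨v₀, hv₀⟩ := exists_ne (0 : V)
  have hcardH : Nat.card H = Nat.card V - 1 := by
    let f : H → {v : V // v ≠ 0} := fun h => ⟨(h : V ≃ₗ[ZMod p] V) v₀, (LinearEquiv.map_ne_zero_iff _).mpr hv₀⟩
    have hf : Function.Bijective f := by
      constructor
      · intro a b hab
        have h7 : (a : V ≃ₗ[ZMod p] V) v₀ = (b : V ≃ₗ[ZMod p] V) v₀ := congrArg Subtype.val hab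
        exact (hreg v₀ _ hv₀ ((LinearEquiv.map_ne_zero_iff _).mpr hv₀)).unique h7 rfl
      · rintro ⟨w, hw⟩
        obtain ⟨h, hh, -⟩ := hreg v₀ w hv₀ hw
        exact ⟨h, Subtype.ext hh⟩
    rw [Nat.card_congr (Equiv.ofBijective f hf)]
    classical
    have : Fintype V := Fintype.ofFinite V
    rw [Nat.card_eq_fintype_card, Nat.card_eq_fintype_card, Fintype.card_subtype_compl, Fintype.card_subtype_eq]
  have hcardL : Nat.card L = 120 := by rw [Nat.card_congr e.toEquiv, card_sl5]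
  have hLM : Nat.card (L ⊔ M : Subgroup H) = 120 * Nat.card M := by
    obtain ⟨e1⟩ := fin_equiv L M h2 h3
    rw [Nat.card_congr e1.toEquiv, Nat.card_prod, hcardL]
  rw [← h1] at h6
  have hj := (Nat.dvd_prime Nat.prime_two).mp h6
  have hcard := (L ⊔ M).card_mul_index
  rw [hLM, hcardH, hq2] at hcard
  have hpn : p ^ (Module.finrank (ZMod p) V) = q ^ 2 := by
    have : Nat.card V = Nat.card (ZMod p) ^ Module.finrank (ZMod p) V := Module.natCard_eq_pow_finrank
    rw [← hq2, this, Nat.card_zmod]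
  obtain ⟨hj1, hc⟩ := arith p _ q (Nat.card M) (L ⊔ M).index (Fact.out) hq1 hpn hj h5 hMq hcard.symm
  have htop : L ⊔ M = ⊤ := Subgroup.index_eq_one.mp hj1
  obtain ⟨e1⟩ := fin_equiv L M h2 h3
  have e2 : H ≃* L × M := (Subgroup.topEquiv.symm.trans (MulEquiv.subgroupCongr htop.symm)).trans e1
  rcases hc with ⟨rfl, hm⟩ | ⟨rfl, hm⟩ | ⟨rfl, hm⟩
  · left
    refine ⟨by rw [hq2]; norm_num, ?_⟩
    have hMb : M = ⊥ := Subgroup.card_eq_one.mp hm
    rw [hMb, sup_bot_eq] at htop
    exact ⟨(Subgroup.topEquiv.symm.trans (MulEquiv.subgroupCongr htop.symm)).trans e⟩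
  · right; left
    refine ⟨by rw [hq2]; norm_num, ?_⟩
    have h7 : Fact (Nat.Prime 7) := ⟨by norm_num⟩
    have e3 : M ≃* Multiplicative (ZMod 7) := mulEquivOfPrimeCardEq (p := 7) hm (by rw [Nat.card_congr Multiplicative.toAdd, Nat.card_zmod])
    exact ⟨e2.trans (MulEquiv.prodCongr e e3)⟩
  · right; right
    refine ⟨by rw [hq2]; norm_num, ?_⟩
    have h7 : Fact (Nat.Prime 29) := ⟨by norm_num⟩
    have e3 : M ≃* Multiplicative (ZMod 29) := mulEquivOfPrimeCardEq (p := 29) hm (by rw [Nat.card_congr Multiplicative.toAdd, Nat.card_zmod])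
    exact ⟨e2.trans (MulEquiv.prodCongr e e3)⟩

end Cfsg.Agent.S0689
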