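import Cfsg.Statements.S0690
import Cfsg.Agent.Lib.H74.NonSolv3

set_option autoImplicit false
open Cfsg

namespace Cfsg.Agent.S0690

/-- Zassenhaus: a perfect non-trivial group of fixed-point-free automorphisms of a finite group is isomorphic to `SL(2,5)`. -/
theorem result {K : Type*} [Group K] [Finite K] (G : Subgroup (MulAut K)) (hfpf : ∀ φ ∈ G, φ ≠ 1 → ∀ k : K, φ k = k → k = 1) (hperf : commutator G = ⊤) (hne : G ≠ ⊥) : Nonempty (G ≃* Matrix.SpecialLinearGroup (Fin 2) (ZMod 5)) := by
  have hG : Nontrivial G := (Subgroup.nontrivial_iff_ne_bot G).mpr hne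
  have hK : Nontrivial K := by
    by_contra h
    rw [not_nontrivial_iff_subsingleton] at h
    obtain ⟨g, hg⟩ := exists_ne (1 : G)
    apply hg
    apply Subtype.ext
    apply MulEquiv.ext
    intro k
    exact Subsingleton.elim _ _
  have hfin : Finite (MulAut K) := Finite.of_injective (fun f : MulAut K => (f : K → K)) (fun f g h => MulEquiv.ext (congrFun h))
  have h : H74.FrobC.IsFC G := by
    apply H74.FrobC.FC_of_fpf G.subtype
    intro g hg k hk
    exact hfpf g g.2 (fun h => hg (Subtype.ext h)) k hk
  have hns := H74.Perf.not_solvable hperf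
  obtain ⟨e⟩ := H74.NonSolv3.closure_iso h hns
  have hn := H74.NonSolv3.closure_normal G 3
  have htop := H74.NonSolv3.eq_top_of_perfect h hperf _ e
  exact ⟨(Subgroup.topEquiv.symm.trans (MulEquiv.subgroupCongr htop.symm)).trans e⟩

end Cfsg.Agent.S0690
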