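import Cfsg.Statements.S0691
import Cfsg.Agent.Lib.H15.Mat2

set_option autoImplicit false
open Cfsg

namespace Cfsg.Agent.S0691

def gens : List ℕ := [253, 105, 183]

def data : List (ℕ × ℕ) := [(183, 491), (183, 223), (183, 411), (183, 597), (183, 557), (253, 557), (183, 369), (183, 90), 
   (183, 289), (105, 289), (183, 504), (105, 504), (253, 504), (183, 183), (105, 183), 
   (183, 105), (253, 105), (183, 253), (105, 253), (253, 253), (183, 126), (105, 126), (253, 126)]

def lst : List ℕ := [537, 617, 349, 309, 163, 491, 431, 223, 243, 411, 597, 45, 377, 471, 557, 369, 90, 289, 60, 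
   504, 183, 105, 253, 126]

theorem chk1 : H15.Mat2.build 5 gens data = lst := by decide +kernel

theorem chk2 : H15.Mat2.closedB 5 gens lst = true := by decide +kernel

theorem chk3 : lst.Nodup := by decide +kernel

theorem chk4 : (lst.all fun x => (x == H15.Mat2.enc 5 1 0 0 1) || H15.Mat2.detB 5 1 x) = true := by
  decide +kernel

instance prime_inst : Fact (Nat.Prime 5) := ⟨by norm_num⟩

/-- An exceptional sharply doubly transitive group of degree 5^2: the listed matrices generate a subgroup of GL(2,5) of order 24 acting regularly on the non-zero vectors. -/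
theorem result (A : Matrix.GeneralLinearGroup (Fin 2) (ZMod 5)) (B : Matrix.GeneralLinearGroup (Fin 2) (ZMod 5)) (C : Matrix.GeneralLinearGroup (Fin 2) (ZMod 5)) (hA : (A : Matrix (Fin 2) (Fin 2) (ZMod 5)) = !![2, 0; 0, -2]) (hB : (B : Matrix (Fin 2) (Fin 2) (ZMod 5)) = !![0, -1; 1, 0]) (hC : (C : Matrix (Fin 2) (Fin 2) (ZMod 5)) = !![1, 2; 1, -2]) : Nat.card (Subgroup.closure ({A, B, C} : Set (Matrix.GeneralLinearGroup (Fin 2) (ZMod 5)))) = 24 ∧ ∀ v w : Fin 2 → ZMod 5, v ≠ 0 → w ≠ 0 → ∃! h : Subgroup.closure ({A, B, C} : Set (Matrix.GeneralLinearGroup (Fin 2) (ZMod 5))), Matrix.mulVec ((h : Matrix.GeneralLinearGroup (Fin 2) (ZMod 5)) : Matrix (Fin 2) (Fin 2) (ZMod 5)) v = w := by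
  have hg : ∀ g ∈ ({A, B, C} : Set (Matrix.GeneralLinearGroup (Fin 2) (ZMod 5))),
      H15.Mat2.gcode g ∈ gens := by
    rintro g (rfl | rfl | rfl)
    · rw [H15.Mat2.gcode, hA]; decide +kernel
    · rw [H15.Mat2.gcode, hB]; decide +kernel
    · rw [H15.Mat2.gcode, hC]; decide +kernel
  have hg' : ∀ k ∈ gens, ∃ g ∈ ({A, B, C} : Set (Matrix.GeneralLinearGroup (Fin 2) (ZMod 5))),
      H15.Mat2.gcode g = k := by
    intro k hk
    simp only [gens, List.mem_cons, List.not_mem_nil, or_false] at hk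
    rcases hk with rfl | rfl | rfl
    · exact ⟨A, by simp, by rw [H15.Mat2.gcode, hA]; decide +kernel⟩
    · exact ⟨B, by simp, by rw [H15.Mat2.gcode, hB]; decide +kernel⟩
    · exact ⟨C, by simp, by rw [H15.Mat2.gcode, hC]; decide +kernel⟩
  have hcard := H15.Mat2.card_closure hg hg' data lst chk1 chk2 chk3
  have hlen : lst.length = 24 := by decide +kernel
  rw [hlen] at hcard
  refine ⟨hcard, ?_⟩
  apply H15.Mat2.regular_of_card _ hcard
  intro h hh hne v hv
  have hm := (H15.Mat2.mem_closure_iff hg hg' data lst chk1 chk2 h).1 hh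
  have h4 := chk4
  rw [List.all_eq_true] at h4
  have h5 := h4 _ hm
  rw [Bool.or_eq_true] at h5
  rcases h5 with h5 | h5
  · exfalso
    apply hne
    apply H15.Mat2.gcode_injective
    rw [beq_iff_eq] at h5
    rw [h5, H15.Mat2.gcode_one]
  · apply H15.Mat2.det_ne (by norm_num) h h5 v
    rw [hv, Nat.cast_one, one_smul]

end Cfsg.Agent.S0691
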