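import Cfsg.Statements.S0692
import Cfsg.Agent.Lib.H15.Mat2

set_option autoImplicit false
open Cfsg

namespace Cfsg.Agent.S0692

def gens : List ℕ := [1221, 3165]

def data : List (ℕ × ℕ) := [(3165, 7193), (1221, 10245), (1221, 8391), (3165, 5145), (3165, 9937), (1221, 11399), 
   (3165, 11058), (3165, 3738), (1221, 3738), (3165, 3063), (3165, 8911), (3165, 5207), 
   (1221, 7713), (1221, 1865), (3165, 1771), (3165, 11708), (3165, 4266), (1221, 4266), 
   (3165, 5448), (3165, 3453), (1221, 4705), (1221, 9497), (3165, 3848), (3165, 10776), 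
   (3165, 5046), (3165, 12366), (1221, 12366), (1221, 9435), (3165, 13882), (3165, 6913), 
   (3165, 2121), (3165, 450), (1221, 450), (1221, 7969), (3165, 14322), (3165, 4396), 
   (3165, 11838), (1221, 11838), (1221, 890), (3165, 10535), (3165, 12651), (3165, 6803), 
   (3165, 10666), (1221, 10666), (1221, 2011), (3165, 13531), (3165, 7420), (3165, 5951), 
   (1221, 5338), (3165, 2211), (3165, 9191), (3165, 13983), (3165, 1013), (1221, 1013), 
   (1221, 8135), (3165, 14639), (3165, 7318), (3165, 8472), (3165, 12121), (1221, 12121), 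
   (1221, 4790), (3165, 3515), (3165, 9301), (3165, 4107), (1221, 4107), (1221, 14093), 
   (3165, 2573), (3165, 8684), (3165, 10142), (3165, 14411), (1221, 14411), (1221, 7090), 
   (3165, 5621), (3165, 2835), (3165, 829), (1221, 829), (3165, 1465), (3165, 8786), 
   (3165, 7511), (3165, 3983), (1221, 3983), (1221, 11314), (3165, 12468), (3165, 13589), 
   (3165, 6741), (1221, 6741), (1221, 6401), (3165, 11937), (3165, 1693), (1221, 1693), 
   (1221, 9014), (3165, 10472), (3165, 13269), (3165, 634), (1221, 634), (1221, 4497), 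
   (3165, 2405), (3165, 9593), (1221, 9593), (3165, 2515), (3165, 8032), (1221, 8032), 
   (1221, 9703), (3165, 4167), (3165, 12939), (1221, 12939), (3165, 231), (1221, 11607), 
   (3165, 13699), (3165, 6511), (1221, 6511), (3165, 13320), (1221, 13320), (3165, 3165), 
   (1221, 3165), (3165, 1221), (1221, 1221), (3165, 1332), (1221, 1332)]

def lst : List ℕ := [5859, 6255, 10959, 6167, 9849, 13041, 14239, 10376, 2934, 7193, 10245, 8391, 5145, 9937, 
   11399, 6607, 4936, 12256, 11058, 3738, 3063, 8911, 5207, 7713, 1865, 5728, 13170, 1771, 11708, 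
   4266, 573, 8245, 5448, 3453, 4705, 9497, 11168, 3848, 10776, 5046, 12366, 9435, 12761, 13882, 
   6913, 2121, 450, 7969, 14322, 4396, 11838, 890, 7859, 10535, 12651, 6803, 10666, 2011, 1159, 
   13531, 7420, 5951, 5338, 3343, 2211, 9191, 13983, 1013, 8135, 2745, 14639, 7318, 8472, 12121, 
   4790, 3515, 9301, 4107, 14093, 304, 2573, 8684, 10142, 14411, 7090, 5621, 2835, 829, 12028, 
   1465, 8786, 7511, 3983, 11314, 12468, 13589, 6741, 6401, 11937, 1693, 9014, 10472, 13269, 634, 
   4497, 2405, 9593, 2515, 8032, 9703, 4167, 12939, 231, 11607, 13699, 6511, 13320, 3165, 1221, 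
   1332]

theorem chk1 : H15.Mat2.build 11 gens data = lst := by decide +kernel

theorem chk2 : H15.Mat2.closedB 11 gens lst = true := by decide +kernel

theorem chk3 : lst.Nodup := by decide +kernel

theorem chk4 : (lst.all fun x => (x == H15.Mat2.enc 11 1 0 0 1) || H15.Mat2.detB 11 1 x) = true := by
  decide +kernel

instance prime_inst : Fact (Nat.Prime 11) := ⟨by norm_num⟩

/-- An exceptional sharply doubly transitive group of degree 11^2: the listed matrices generate a subgroup of GL(2,11) of order 120 acting regularly on the non-zero vectors. -/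
theorem result (A : Matrix.GeneralLinearGroup (Fin 2) (ZMod 11)) (B : Matrix.GeneralLinearGroup (Fin 2) (ZMod 11)) (hA : (A : Matrix (Fin 2) (Fin 2) (ZMod 11)) = !![0, -1; 1, 0]) (hB : (B : Matrix (Fin 2) (Fin 2) (ZMod 11)) = !![2, 4; 1, -3]) : Nat.card (Subgroup.closure ({A, B} : Set (Matrix.GeneralLinearGroup (Fin 2) (ZMod 11)))) = 120 ∧ ∀ v w : Fin 2 → ZMod 11, v ≠ 0 → w ≠ 0 → ∃! h : Subgroup.closure ({A, B} : Set (Matrix.GeneralLinearGroup (Fin 2) (ZMod 11))), Matrix.mulVec ((h : Matrix.GeneralLinearGroup (Fin 2) (ZMod 11)) : Matrix (Fin 2) (Fin 2) (ZMod 11)) v = w := by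
  have hg : ∀ g ∈ ({A, B} : Set (Matrix.GeneralLinearGroup (Fin 2) (ZMod 11))),
      H15.Mat2.gcode g ∈ gens := by
    rintro g (rfl | rfl)
    · rw [H15.Mat2.gcode, hA]; decide +kernel
    · rw [H15.Mat2.gcode, hB]; decide +kernel
  have hg' : ∀ k ∈ gens, ∃ g ∈ ({A, B} : Set (Matrix.GeneralLinearGroup (Fin 2) (ZMod 11))),
      H15.Mat2.gcode g = k := by
    intro k hk
    simp only [gens, List.mem_cons, List.not_mem_nil, or_false] at hk
    rcases hk with rfl | rfl
    · exact ⟨A, by simp, by rw [H15.Mat2.gcode, hA]; decide +kernel⟩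
    · exact ⟨B, by simp, by rw [H15.Mat2.gcode, hB]; decide +kernel⟩
  have hcard := H15.Mat2.card_closure hg hg' data lst chk1 chk2 chk3
  have hlen : lst.length = 120 := by decide +kernel
  rw [hlen] at hcard
  refine ⟨hcard, ?_⟩
  apply H15.Mat2.regular_of_card _ hcard
  intro h hh hne v hv
  have hm := (H15.Mat2.mem_closure_iff hg hg' data lst chk1 chk2 h).1 hh
  have h4 := chk4
  rw [List.all_eq_true] at h4
  have h5 := h4 _ hm
  rw [Bool.or_eq_true] at h5
  rcases h5 with h5 | h5
  · exfalso
    apply hne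
    apply H15.Mat2.gcode_injective
    rw [beq_iff_eq] at h5
    rw [h5, H15.Mat2.gcode_one]
  · apply H15.Mat2.det_ne (by norm_num) h h5 v
    rw [hv, Nat.cast_one, one_smul]

end Cfsg.Agent.S0692
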