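import Cfsg.Statements.S0693
import Cfsg.Agent.Lib.H15.Mat2

set_option autoImplicit false
open Cfsg

namespace Cfsg.Agent.S0693

def gens : List ℕ := [201957, 1903566]

def data : List (ℕ × ℕ) := [(1903566, 8746321), (201957, 11685307), (201957, 8278925), (1903566, 3854629), 
   (1903566, 5281655), (201957, 8560623), (1903566, 4330756), (1903566, 8250638), 
   (201957, 8250638), (1903566, 2939045), (1903566, 3579959), (1903566, 7910715), 
   (201957, 4047355), (201957, 3406441), (1903566, 6088595), (1903566, 11164812), 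
   (1903566, 10205182), (201957, 10205182), (1903566, 11193105), (1903566, 5233571), 
   (201957, 3765657), (201957, 5192683), (1903566, 8254060), (1903566, 4415565), 
   (1903566, 7995524), (1903566, 4075642), (201957, 4075642), (201957, 1136597), 
   (1903566, 6350611), (1903566, 6455217), (1903566, 5028191), (1903566, 5883215), 
   (201957, 5883215), (201957, 5669105), (1903566, 6237685), (1903566, 1161468), 
   (1903566, 2121098), (201957, 2121098), (201957, 5770289), (1903566, 1133175), 
   (1903566, 7092709), (1903566, 6451795), (1903566, 4412143), (201957, 4412143), 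
   (201957, 5024769), (1903566, 947536), (1903566, 12105208), (1903566, 9488419), 
   (201957, 11189683), (1903566, 5975669), (1903566, 5871063), (1903566, 7298089), 
   (1903566, 6443065), (201957, 6443065), (201957, 6657175), (1903566, 4737888), 
   (1903566, 1026866), (1903566, 10019543), (1903566, 2453892), (201957, 2453892), 
   (201957, 6164914), (1903566, 9289657), (1903566, 5874485), (1903566, 7914137), 
   (201957, 7914137), (201957, 7301511), (1903566, 11378744), (1903566, 221072), 
   (1903566, 2837861), (1903566, 861986), (201957, 861986), (201957, 12019658), 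
   (1903566, 9604767), (1903566, 2019914), (1903566, 8177741), (201957, 8177741), 
   (1903566, 7588392), (1903566, 11299414), (1903566, 2306737), (1903566, 9872388), 
   (201957, 9872388), (201957, 6161366), (1903566, 3036623), (1903566, 2085724), 
   (1903566, 2395709), (201957, 2395709), (201957, 3254214), (1903566, 10100986), 
   (1903566, 11464294), (201957, 11464294), (201957, 306622), (1903566, 2721513), 
   (1903566, 10306366), (1903566, 4148539), (201957, 4148539), (201957, 2108946), 
   (1903566, 10237134), (1903566, 9068644), (201957, 9068644), (1903566, 10240556), 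
   (1903566, 9930571), (201957, 9930571), (201957, 9072066), (1903566, 2225294), 
   (1903566, 10422714), (201957, 10422714), (1903566, 6903), (201957, 10217334), 
   (1903566, 2089146), (1903566, 3257636), (201957, 3257636), (1903566, 11912040), 
   (201957, 11912040), (1903566, 1903566), (201957, 1903566), (1903566, 201957), 
   (201957, 201957), (1903566, 205380), (201957, 205380)]

def lst : List ℕ := [640973, 1635945, 8471651, 7044625, 10690335, 9387235, 8919839, 10959432, 9999802, 8746321, 
   11685307, 8278925, 3854629, 5281655, 8560623, 7133597, 7992102, 4072220, 4330756, 8250638, 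
   2939045, 3579959, 7910715, 4047355, 3406441, 1366848, 2326478, 6088595, 11164812, 10205182, 
   6555991, 6660597, 11193105, 5233571, 3765657, 5192683, 4334178, 8254060, 4415565, 7995524, 
   4075642, 1136597, 7096131, 6350611, 6455217, 5028191, 5883215, 5669105, 6237685, 1161468, 
   2121098, 5770289, 5665683, 1133175, 7092709, 6451795, 4412143, 5024769, 8061393, 947536, 
   12105208, 9488419, 11189683, 5230149, 5975669, 5871063, 7298089, 6443065, 6657175, 9378629, 
   4737888, 1026866, 10019543, 2453892, 6164914, 9289657, 5874485, 7914137, 7301511, 4264887, 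
   11378744, 221072, 2837861, 861986, 12019658, 9604767, 2019914, 8177741, 2947651, 7588392, 
   11299414, 2306737, 9872388, 6161366, 3036623, 2085724, 2395709, 3254214, 10100986, 11464294, 
   306622, 2721513, 10306366, 4148539, 2108946, 10237134, 9068644, 10240556, 9930571, 9072066, 
   2225294, 10422714, 6903, 10217334, 2089146, 3257636, 11912040, 1903566, 201957, 205380]

theorem chk1 : H15.Mat2.build 59 gens data = lst := by decide +kernel

theorem chk2 : H15.Mat2.closedB 59 gens lst = true := by decide +kernel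

theorem chk3 : lst.Nodup := by decide +kernel

theorem chk4 : ((List.range 29).all fun k => lst.all fun x =>
    ((x == H15.Mat2.enc 59 1 0 0 1) && (k == 0)) || H15.Mat2.detB 59 (4 ^ k % 59) x) = true := by
  decide +kernel

instance prime_inst : Fact (Nat.Prime 59) := ⟨by norm_num⟩

/-- An exceptional sharply doubly transitive group of degree 59^2: the listed matrices generate a subgroup of GL(2,59) of order 3480 acting regularly on the non-zero vectors. -/
theorem result (A : Matrix.GeneralLinearGroup (Fin 2) (ZMod 59)) (B : Matrix.GeneralLinearGroup (Fin 2) (ZMod 59)) (C : Matrix.GeneralLinearGroup (Fin 2) (ZMod 59)) (hA : (A : Matrix (Fin 2) (Fin 2) (ZMod 59)) = !![0, -1; 1, 0]) (hB : (B : Matrix (Fin 2) (Fin 2) (ZMod 59)) = !![9, 15; -10, -10]) (hC : (C : Matrix (Fin 2) (Fin 2) (ZMod 59)) = !![4, 0; 0, 4]) : Nat.card (Subgroup.closure ({A, B, C} : Set (Matrix.GeneralLinearGroup (Fin 2) (ZMod 59)))) = 3480 ∧ ∀ v w : Fin 2 → ZMod 59, v ≠ 0 → w ≠ 0 → ∃! h : Subgroup.closure ({A, B, C} : Set (Matrix.GeneralLinearGroup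 (Fin 2) (ZMod 59))), Matrix.mulVec ((h : Matrix.GeneralLinearGroup (Fin 2) (ZMod 59)) : Matrix (Fin 2) (Fin 2) (ZMod 59)) v = w := by
  classical
  have hg : ∀ g ∈ ({A, B} : Set (Matrix.GeneralLinearGroup (Fin 2) (ZMod 59))),
      H15.Mat2.gcode g ∈ gens := by
    rintro g (rfl | rfl)
    · rw [H15.Mat2.gcode, hA]; decide +kernel
    · rw [H15.Mat2.gcode, hB]; decide +kernel
  have hg' : ∀ k ∈ gens, ∃ g ∈ ({A, B} : Set (Matrix.GeneralLinearGroup (Fin 2) (ZMod 59))),
      H15.Mat2.gcode g = k := by
    intro k hk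
    simp only [gens, List.mem_cons, List.not_mem_nil, or_false] at hk
    rcases hk with rfl | rfl
    · exact ⟨A, by simp, by rw [H15.Mat2.gcode, hA]; decide +kernel⟩
    · exact ⟨B, by simp, by rw [H15.Mat2.gcode, hB]; decide +kernel⟩
  have hcard := H15.Mat2.card_closure hg hg' data lst chk1 chk2 chk3
  have hlen : lst.length = 120 := by decide +kernel
  rw [hlen] at hcard
  set H1 := Subgroup.closure ({A, B} : Set (Matrix.GeneralLinearGroup (Fin 2) (ZMod 59))) with hH1
  have hCmat : (C : Matrix (Fin 2) (Fin 2) (ZMod 59)) = (4 : ZMod 59) • (1 : Matrix (Fin 2) (Fin 2) (ZMod 59)) := by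
    rw [hC]
    ext i j
    fin_cases i <;> fin_cases j <;> simp
  have hCpow : ∀ k : ℕ, ((C ^ k : Matrix.GeneralLinearGroup (Fin 2) (ZMod 59)) :
      Matrix (Fin 2) (Fin 2) (ZMod 59)) = ((4 : ZMod 59) ^ k) • (1 : Matrix (Fin 2) (Fin 2) (ZMod 59)) := by
    intro k
    rw [Units.val_pow_eq_pow_val, hCmat, smul_pow, one_pow]
  have h429 : (4 : ZMod 59) ^ 29 = 1 := by decide +kernel
  have hC29 : C ^ 29 = 1 := by
    apply Units.ext
    rw [hCpow, h429, one_smul, Units.val_one]
  have hC1 : C ≠ 1 := by
    intro h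
    have h1 := congrArg (fun g : Matrix.GeneralLinearGroup (Fin 2) (ZMod 59) =>
      (g : Matrix (Fin 2) (Fin 2) (ZMod 59)) 0 0) h
    simp only [hC, Units.val_one, Matrix.one_apply_eq] at h1
    exact absurd h1 (by decide +kernel)
  have h29 : Fact (Nat.Prime 29) := ⟨by norm_num⟩
  have hord : orderOf C = 29 := orderOf_eq_prime hC29 hC1
  -- the key freeness statement
  have key : ∀ s ∈ H1, ∀ k : ℕ, ∀ v : Fin 2 → ZMod 59, v ≠ 0 →
      Matrix.mulVec (s : Matrix (Fin 2) (Fin 2) (ZMod 59)) v = ((4 : ZMod 59) ^ k) • v →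
      s = 1 ∧ k % 29 = 0 := by
    intro s hs k v hv0 hv
    have hm := (H15.Mat2.mem_closure_iff hg hg' data lst chk1 chk2 s).1 hs
    have hk : (4 : ZMod 59) ^ k = 4 ^ (k % 29) := by
      conv_lhs => rw [← Nat.div_add_mod k 29]
      rw [pow_add, pow_mul, h429, one_pow, one_mul]
    have h4 := chk4
    rw [List.all_eq_true] at h4
    have h5 := h4 (k % 29) (by rw [List.mem_range]; exact Nat.mod_lt _ (by norm_num))
    rw [List.all_eq_true] at h5
    have h6 := h5 _ hm
    rw [Bool.or_eq_true, Bool.and_eq_true, beq_iff_eq, beq_iff_eq] at h6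
    rcases h6 with h6 | h6
    · refine ⟨H15.Mat2.gcode_injective ?_, h6.2⟩
      rw [h6.1, H15.Mat2.gcode_one]
    · exfalso
      apply hv0
      apply H15.Mat2.det_ne (Nat.mod_lt _ (by norm_num)).le s h6 v
      rw [hv, hk]
      congr 1
      rw [ZMod.natCast_mod]
      push_cast
      rfl
  have hcomm : ∀ (m : H1) (n : Subgroup.zpowers C), Commute (H1.subtype m)
      ((Subgroup.zpowers C).subtype n) := by
    rintro m ⟨n, hn⟩
    obtain ⟨z, rfl⟩ := hn
    apply Commute.zpow_right
    apply Units.ext
    change (((m : Matrix.GeneralLinearGroup (Fin 2) (ZMod 59)) : Matrix (Fin 2) (Fin 2) (ZMod 59)) *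
      (C : Matrix (Fin 2) (Fin 2) (ZMod 59))) = (C : Matrix (Fin 2) (Fin 2) (ZMod 59)) *
      ((m : Matrix.GeneralLinearGroup (Fin 2) (ZMod 59)) : Matrix (Fin 2) (Fin 2) (ZMod 59))
    rw [hCmat]
    simp
  let φ := MonoidHom.noncommCoprod H1.subtype (Subgroup.zpowers C).subtype hcomm
  have hrange : φ.range = Subgroup.closure ({A, B, C} : Set (Matrix.GeneralLinearGroup (Fin 2) (ZMod 59))) := by
    rw [MonoidHom.noncommCoprod_range, Subgroup.range_subtype, Subgroup.range_subtype, hH1,
      Subgroup.zpowers_eq_closure, ← Subgroup.closure_union]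
    congr 1
    ext x
    simp only [Set.mem_union, Set.mem_insert_iff, Set.mem_singleton_iff]
    tauto
  have hpowk : ∀ c ∈ Subgroup.zpowers C, ∃ k : ℕ, c = C ^ k := by
    intro c hc
    rw [mem_zpowers_iff_mem_range_orderOf, Finset.mem_image] at hc
    obtain ⟨k, _, hk⟩ := hc
    exact ⟨k, hk.symm⟩
  obtain ⟨v0, hv0⟩ : ∃ v : Fin 2 → ZMod 59, v ≠ 0 := ⟨![1, 0], by
    intro h
    have := congrFun h 0
    simp at this⟩
  have hinj : Function.Injective φ := by
    rw [MonoidHom.noncommCoprod_injective]
    refine ⟨Subtype.val_injective, Subtype.val_injective, ?_⟩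
    rw [Subgroup.range_subtype, Subgroup.range_subtype, Subgroup.disjoint_def]
    intro x hx hxC
    obtain ⟨k, rfl⟩ := hpowk x hxC
    exact (key _ hx k v0 hv0 (by rw [hCpow, Matrix.smul_mulVec, Matrix.one_mulVec])).1
  have hcardH : Nat.card (Subgroup.closure ({A, B, C} : Set (Matrix.GeneralLinearGroup (Fin 2) (ZMod 59)))) = 3480 := by
    rw [← hrange, Nat.card_congr (MonoidHom.ofInjective hinj).symm.toEquiv, Nat.card_prod, hcard,
      Nat.card_zpowers, hord]
  refine ⟨hcardH, ?_⟩
  apply H15.Mat2.regular_of_card _ (by rw [hcardH]; norm_num)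
  intro h hh hne v hv
  by_contra hv0
  rw [← hrange] at hh
  obtain ⟨⟨s, c⟩, rfl⟩ := hh
  obtain ⟨k, hk⟩ := hpowk c.1 c.2
  apply hne
  have e : φ (s, c) = (s : Matrix.GeneralLinearGroup (Fin 2) (ZMod 59)) * C ^ k := by
    change (s : Matrix.GeneralLinearGroup (Fin 2) (ZMod 59)) * c.1 = _
    rw [hk]
  rw [e] at hv ⊢
  have h1 : Matrix.mulVec ((s : Matrix.GeneralLinearGroup (Fin 2) (ZMod 59)) : Matrix (Fin 2) (Fin 2) (ZMod 59)) v =
      ((4 : ZMod 59) ^ (28 * k)) • v := by
    have h2 : ((4 : ZMod 59) ^ (28 * k)) * 4 ^ k = 1 := by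
      rw [← pow_add]
      have : 28 * k + k = 29 * k := by ring
      rw [this, pow_mul, h429, one_pow]
    rw [Units.val_mul, hCpow] at hv
    have h3 := congrArg (fun w => ((4 : ZMod 59) ^ (28 * k)) • w) hv
    simp only [Matrix.mul_smul, Matrix.mul_one, Matrix.smul_mulVec, smul_smul] at h3
    rw [h2, one_smul] at h3
    exact h3
  obtain ⟨h2, h3⟩ := key s s.2 _ v hv0 h1
  have h4 : C ^ k = 1 := by
    have : 29 ∣ k := by omega
    obtain ⟨m, rfl⟩ := this
    rw [pow_mul, hC29, one_pow]
  rw [h2, h4, one_mul]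

end Cfsg.Agent.S0693
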