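import Cfsg.Statements.S0694
import Mathlib

set_option autoImplicit false
open Cfsg

namespace Cfsg.Agent.S0694

theorem val_eq {q r i : ℕ} (hq : 2 ≤ q) (hr : r.Prime) (hrq : r ∣ q - 1) (h4 : r = 2 → 4 ∣ q - 1)
    (hi : i ≠ 0) : padicValNat r (q ^ i - 1) = padicValNat r (q - 1) + padicValNat r i := by
  have hfact : Fact r.Prime := ⟨hr⟩
  have hrq' : ¬ r ∣ q := by
    intro h
    have h1 : r ∣ q - (q - 1) := Nat.dvd_sub h hrq
    have h2 : q - (q - 1) = 1 := by omega
    rw [h2] at h1
    exact hr.one_lt.ne' (Nat.dvd_one.1 h1)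
  rcases hr.eq_two_or_odd' with rfl | hodd
  · have h5 := Int.two_pow_sub_pow' (x := (q : ℤ)) (y := 1) i (by
      have := h4 rfl
      have h6 : ((4 : ℕ) : ℤ) ∣ ((q - 1 : ℕ) : ℤ) := Int.natCast_dvd_natCast.2 this
      rw [Nat.cast_sub (by omega)] at h6
      exact_mod_cast h6) (by exact_mod_cast hrq')
    rw [one_pow] at h5
    have e1 : ((q : ℤ) ^ i - 1) = ((q ^ i - 1 : ℕ) : ℤ) := by
      rw [Nat.cast_sub (Nat.one_le_pow _ _ (by omega))]; push_cast; ring
    have e2 : ((q : ℤ) - 1) = ((q - 1 : ℕ) : ℤ) := by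
      rw [Nat.cast_sub (by omega)]; push_cast; ring
    rw [e1, e2] at h5
    have e3 : ∀ m : ℕ, emultiplicity (2 : ℤ) (m : ℤ) = emultiplicity 2 m := fun m => by
      have := Int.natCast_emultiplicity 2 m
      exact_mod_cast this
    rw [e3, e3, e3] at h5
    have hq1 : q ^ i - 1 ≠ 0 := by
      have : 1 < q ^ i := Nat.one_lt_pow hi (by omega)
      omega
    rw [← padicValNat_eq_emultiplicity hq1, ← padicValNat_eq_emultiplicity (by omega),
      ← padicValNat_eq_emultiplicity hi] at h5
    exact_mod_cast h5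
  · have := padicValNat.pow_sub_pow (x := q) (y := 1) hodd (by omega) hrq hrq' hi
    rwa [one_pow] at this

theorem key {x M n r : ℕ} (hx : 1 ≤ x) (hr : r.Prime) (hn : n ≠ 0) (hrn : r ∣ n)
    (h : M ∣ x ^ n - 1)
    (hl : ∀ l b : ℕ, l.Prime → l ^ b ∣ M → ∃ t : ℕ, l ^ b ∣ x ^ t - 1 ∧
      ¬ r ^ (n.factorization r) ∣ t) : M ∣ x ^ (n / r) - 1 := by
  rw [Nat.dvd_iff_prime_pow_dvd_dvd]
  intro l b hlp hlb
  obtain ⟨t, ht1, ht2⟩ := hl l b hlp hlb
  have h1 : l ^ b ∣ x ^ (Nat.gcd t n) - 1 := by
    rw [← Nat.pow_sub_one_gcd_pow_sub_one]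
    exact Nat.dvd_gcd ht1 (hlb.trans h)
  have h2 : Nat.gcd t n ∣ n / r := by
    obtain ⟨m, hm⟩ := Nat.gcd_dvd_right t n
    have hrm : r ∣ m := by
      by_contra hcon
      apply ht2
      have h3 : r ^ (n.factorization r) ∣ Nat.gcd t n * m := by
        rw [← hm]; exact Nat.ordProj_dvd n r
      have h4 : Nat.Coprime (r ^ (n.factorization r)) m :=
        Nat.Coprime.pow_left _ ((Nat.Prime.coprime_iff_not_dvd hr).2 hcon)
      exact (h4.dvd_of_dvd_mul_right h3).trans (Nat.gcd_dvd_left t n)
    obtain ⟨m', rfl⟩ := hrm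
    refine ⟨m', ?_⟩
    apply Nat.div_eq_of_eq_mul_right hr.pos
    rw [hm]
    calc t.gcd n * (r * m') = r * (t.gcd n * m') := by ring
      _ = _ := by rw [← hm]
  obtain ⟨c, hc⟩ := h2
  rw [hc, pow_mul]
  refine h1.trans ?_
  have := Nat.sub_dvd_pow_sub_pow (x ^ Nat.gcd t n) 1 c
  rwa [one_pow] at this

/-- The Dickson pair condition: for a prime power `q` and `n > 1`, (every prime factor of `n` divides `q - 1`, and `4 ∣ n → 4 ∣ q - 1`) holds exactly when `q ^ n ≡ 1` modulo `n * (q - 1)` but `q ^ i` is not, for `0 < i < n`. -/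
theorem result (q n : ℕ) (hq : IsPrimePow q) (hn : 1 < n) : ((∀ r : ℕ, r.Prime → r ∣ n → r ∣ q - 1) ∧ (4 ∣ n → 4 ∣ q - 1)) ↔ (q ^ n ≡ 1 [MOD n * (q - 1)] ∧ ∀ i : ℕ, 0 < i → i < n → ¬ q ^ i ≡ 1 [MOD n * (q - 1)]) := by
  have hq2 : 2 ≤ q := hq.one_lt
  have hq1 : q - 1 ≠ 0 := by omega
  have hn0 : n ≠ 0 := by omega
  have hmod : ∀ i, q ^ i ≡ 1 [MOD n * (q - 1)] ↔ n * (q - 1) ∣ q ^ i - 1 := by
    intro i
    rw [Nat.ModEq.comm, Nat.modEq_iff_dvd' (Nat.one_le_pow _ _ (by omega))]
  simp only [hmod]
  have hsub : ∀ i, q - 1 ∣ q ^ i - 1 := by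
    intro i
    have := Nat.sub_dvd_pow_sub_pow q 1 i
    rwa [one_pow] at this
  constructor
  · rintro ⟨hD1, hD2⟩
    refine ⟨?_, ?_⟩
    · rw [Nat.dvd_iff_prime_pow_dvd_dvd]
      intro r k hr hk
      have hfact : Fact r.Prime := ⟨hr⟩
      by_cases hrn : r ∣ n
      swap
      · have h1 : Nat.Coprime (r ^ k) n :=
          Nat.Coprime.pow_left _ ((Nat.Prime.coprime_iff_not_dvd hr).2 hrn)
        exact (h1.dvd_of_dvd_mul_left hk).trans (hsub n)
      have hqn : q ^ n - 1 ≠ 0 := by
        have : 1 < q ^ n := Nat.one_lt_pow hn0 (by omega)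
        omega
      by_cases h4 : r = 2 → 4 ∣ q - 1
      · have h1 := val_eq hq2 hr (hD1 r hr hrn) h4 hn0
        rw [padicValNat_dvd_iff_le hqn, h1]
        rw [padicValNat_dvd_iff_le (Nat.mul_ne_zero hn0 hq1), padicValNat.mul hn0 hq1] at hk
        omega
      · push Not at h4
        obtain ⟨rfl, h4⟩ := h4
        have h5 : ¬ 4 ∣ n := fun h => h4 (hD2 h)
        obtain ⟨m, rfl⟩ := hrn
        have hm : ¬ 2 ∣ m := by
          rintro ⟨c, rfl⟩
          apply h5
          exact ⟨c, by ring⟩
        have h6 : Nat.Coprime (2 ^ k) m :=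
          Nat.Coprime.pow_left _ ((Nat.Prime.coprime_iff_not_dvd hr).2 hm)
        have h7 : 2 ^ k ∣ 2 * (q - 1) := by
          apply h6.dvd_of_dvd_mul_left
          have : m * (2 * (q - 1)) = 2 * m * (q - 1) := by ring
          rw [this]; exact hk
        have h8 : 2 * (q - 1) ∣ q ^ 2 - 1 := by
          have h9 : q ^ 2 - 1 = (q + 1) * (q - 1) := by
            obtain ⟨u, rfl⟩ : ∃ u, q = u + 2 := ⟨q - 2, by omega⟩
            have : (u + 2) ^ 2 - 1 = u ^ 2 + 4 * u + 3 := by
              have : (u + 2) ^ 2 = u ^ 2 + 4 * u + 3 + 1 := by ring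
              omega
            rw [this]
            have : u + 2 - 1 = u + 1 := by omega
            rw [this]; ring
          rw [h9]
          have h10 : 2 ∣ q - 1 := hD1 2 hr ⟨m, rfl⟩
          apply Nat.mul_dvd_mul_right
          omega
        refine h7.trans (h8.trans ?_)
        rw [pow_mul]
        have := Nat.sub_dvd_pow_sub_pow (q ^ 2) 1 m
        rwa [one_pow] at this
    · intro i hi0 hin hdvd
      have hi : i ≠ 0 := by omega
      have hqi : q ^ i - 1 ≠ 0 := by
        have : 1 < q ^ i := Nat.one_lt_pow hi (by omega)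
        omega
      have : n ∣ i := by
        rw [Nat.dvd_iff_prime_pow_dvd_dvd]
        intro r k hr hk
        have hfact : Fact r.Prime := ⟨hr⟩
        rcases Nat.eq_zero_or_pos k with rfl | hkpos
        · simp
        have hrn : r ∣ n := (dvd_pow_self r (by omega)).trans hk
        by_cases h4 : r = 2 → 4 ∣ q - 1
        · have h1 := val_eq hq2 hr (hD1 r hr hrn) h4 hi
          rw [padicValNat_dvd_iff_le hi]
          rw [padicValNat_dvd_iff_le hn0] at hk
          have h2 : r ^ (padicValNat r (n * (q - 1))) ∣ q ^ i - 1 :=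
            pow_padicValNat_dvd.trans hdvd
          rw [padicValNat_dvd_iff_le hqi, padicValNat.mul hn0 hq1, h1] at h2
          omega
        · push Not at h4
          obtain ⟨rfl, h4⟩ := h4
          have h5 : ¬ 4 ∣ n := fun h => h4 (hD2 h)
          have hk1 : k = 1 := by
            by_contra hne
            apply h5
            have : 2 ^ 2 ∣ 2 ^ k := pow_dvd_pow 2 (by omega)
            exact (by norm_num : (4:ℕ) = 2 ^ 2) ▸ this.trans hk
          subst hk1
          rw [pow_one]
          have h10 : 2 ∣ q - 1 := hD1 2 hr hrn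
          -- parity of the geometric sum
          have h11 : (∑ j ∈ Finset.range i, q ^ j) * (q - 1) = q ^ i - 1 := by
            have := geom_sum_mul (q : ℤ) i
            have e1 : ((q ^ i - 1 : ℕ) : ℤ) = (q : ℤ) ^ i - 1 := by
              rw [Nat.cast_sub (Nat.one_le_pow _ _ (by omega))]; push_cast; ring
            have e2 : ((q - 1 : ℕ) : ℤ) = (q : ℤ) - 1 := by
              rw [Nat.cast_sub (by omega)]; push_cast; ring
            have : (((∑ j ∈ Finset.range i, q ^ j) * (q - 1) : ℕ) : ℤ) = ((q ^ i - 1 : ℕ) : ℤ) := by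
              push_cast
              rw [e1, e2]
              exact this
            exact_mod_cast this
          have h12 : 2 ∣ ∑ j ∈ Finset.range i, q ^ j := by
            rw [← h11] at hdvd
            have h13 := Nat.dvd_of_mul_dvd_mul_right (by omega) hdvd
            exact hrn.trans h13
          have h14 : ((∑ j ∈ Finset.range i, q ^ j : ℕ) : ZMod 2) = (i : ZMod 2) := by
            have hq' : (q : ZMod 2) = 1 := by
              have : ((q - 1 : ℕ) : ZMod 2) = 0 := (ZMod.natCast_eq_zero_iff _ _).2 h10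
              rw [Nat.cast_sub (by omega), sub_eq_zero] at this
              simpa using this
            push_cast
            rw [hq']
            simp
          rw [← ZMod.natCast_eq_zero_iff, h14, ZMod.natCast_eq_zero_iff] at h12
          exact h12
      exact absurd (Nat.le_of_dvd hi0 this) (by omega)
  · rintro ⟨hE1, hE2⟩
    have hcop : ∀ l, l.Prime → l ∣ n → Nat.Coprime q l := by
      intro l hl hln
      rw [Nat.coprime_comm, Nat.Prime.coprime_iff_not_dvd hl]
      intro h
      have h1 : l ∣ q ^ n - 1 := (hln.trans (dvd_mul_right n (q - 1))).trans hE1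
      have h2 : l ∣ q ^ n := dvd_pow h hn0
      have h3 : l ∣ q ^ n - (q ^ n - 1) := Nat.dvd_sub h2 h1
      have h4 : q ^ n - (q ^ n - 1) = 1 := by
        have : 1 ≤ q ^ n := Nat.one_le_pow _ _ (by omega)
        omega
      rw [h4] at h3
      exact hl.one_lt.ne' (Nat.dvd_one.1 h3)
    have hdiv : ∀ r, r.Prime → r ∣ n → 0 < n / r ∧ n / r < n := by
      intro r hr hrn
      refine ⟨Nat.div_pos (Nat.le_of_dvd (by omega) hrn) hr.pos, Nat.div_lt_self (by omega) hr.one_lt⟩
    -- power of l when l divides q - 1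
    have hlpow : ∀ l b : ℕ, l ∣ q - 1 → l ^ b ∣ q ^ (l ^ b) - 1 := by
      intro l b hl
      induction b with
      | zero => simp
      | succ b ih =>
        have h1 : q ^ l ^ (b + 1) = (q ^ l ^ b) ^ l := by rw [pow_succ, pow_mul]
        have h2 : q ^ l ^ b ≡ 1 [MOD l ^ b] :=
          ((Nat.modEq_iff_dvd' (Nat.one_le_pow _ _ (by omega))).2 ih).symm
        have h3 : q ^ l ^ b ≡ 1 [MOD l] := by
          have : q ≡ 1 [MOD l] := ((Nat.modEq_iff_dvd' (by omega)).2 hl).symm
          simpa using this.pow (l ^ b)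
        have h4 : (∑ j ∈ Finset.range l, (q ^ l ^ b) ^ j) * (q ^ l ^ b - 1) = (q ^ l ^ b) ^ l - 1 := by
          have := geom_sum_mul ((q ^ l ^ b : ℕ) : ℤ) l
          have e1 : (((q ^ l ^ b) ^ l - 1 : ℕ) : ℤ) = ((q ^ l ^ b : ℕ) : ℤ) ^ l - 1 := by
            rw [Nat.cast_sub (Nat.one_le_pow _ _ (Nat.pow_pos (by omega)))]; push_cast; ring
          have e2 : ((q ^ l ^ b - 1 : ℕ) : ℤ) = ((q ^ l ^ b : ℕ) : ℤ) - 1 := by
            rw [Nat.cast_sub (Nat.one_le_pow _ _ (by omega))]; push_cast; ring
          have : (((∑ j ∈ Finset.range l, (q ^ l ^ b) ^ j) * (q ^ l ^ b - 1) : ℕ) : ℤ) =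
              (((q ^ l ^ b) ^ l - 1 : ℕ) : ℤ) := by
            rw [Nat.cast_mul, e1, e2, ← this]
            push_cast
            ring
          exact_mod_cast this
        rw [h1, ← h4, pow_succ, mul_comm]
        apply Nat.mul_dvd_mul _ ih
        rw [← ZMod.natCast_eq_zero_iff]
        have h5 : ((q ^ l ^ b : ℕ) : ZMod l) = 1 := by
          have := (ZMod.natCast_eq_natCast_iff _ _ _).2 h3
          simpa using this
        push_cast at h5 ⊢
        rw [h5]
        simp
    have hD1 : ∀ r : ℕ, r.Prime → r ∣ n → r ∣ q - 1 := by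
      by_contra hcon
      push Not at hcon
      -- the largest bad prime
      let S : Finset ℕ := n.primeFactors.filter (fun r => ¬ r ∣ q - 1)
      have hS : S.Nonempty := by
        obtain ⟨r, h1, h2, h3⟩ := hcon
        exact ⟨r, by simp [S, h1, h2, h3, hn0]⟩
      set r := S.max' hS with hrdef
      have hrS : r ∈ S := S.max'_mem hS
      have hr : r.Prime ∧ r ∣ n ∧ ¬ r ∣ q - 1 := by
        simp only [S, Finset.mem_filter, Nat.mem_primeFactors] at hrS
        exact ⟨hrS.1.1, hrS.1.2.1, hrS.2⟩
      have hmax : ∀ l, l.Prime → l ∣ n → ¬ l ∣ q - 1 → l ≤ r := by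
        intro l h1 h2 h3
        apply S.le_max'
        simp [S, h1, h2, h3, hn0]
      have hfr : 0 < n.factorization r := hr.1.factorization_pos_of_dvd hn0 hr.2.1
      have h1 := key (by omega) hr.1 hn0 hr.2.1 hE1 (by
        intro l b hl hlb
        by_cases hlq : l ∣ q - 1
        · refine ⟨l ^ b, hlpow l b hlq, ?_⟩
          intro h2
          have h3 : r ∣ l ^ b := (dvd_pow_self r (by omega)).trans h2
          have h4 := (Nat.prime_dvd_prime_iff_eq hr.1 hl).1 (hr.1.dvd_of_dvd_pow h3)
          rw [← h4] at hlq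
          exact hr.2.2 hlq
        · have h2 : Nat.Coprime (l ^ b) (q - 1) :=
            Nat.Coprime.pow_left _ ((Nat.Prime.coprime_iff_not_dvd hl).2 hlq)
          have h3 : l ^ b ∣ n := h2.dvd_of_dvd_mul_right hlb
          rcases Nat.eq_zero_or_pos b with rfl | hb
          · refine ⟨1, by simp, ?_⟩
            intro h4
            have h5 : r ∣ 1 := (dvd_pow_self r (by omega)).trans h4
            exact hr.1.one_lt.ne' (Nat.dvd_one.1 h5)
          · have hln : l ∣ n := (dvd_pow_self l (by omega)).trans h3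
            refine ⟨Nat.totient (l ^ b), ?_, ?_⟩
            · have := Nat.ModEq.pow_totient ((hcop l hl hln).pow_right b)
              exact (Nat.modEq_iff_dvd' (Nat.one_le_pow _ _ (by omega))).1 this.symm
            · rw [Nat.totient_prime_pow hl hb]
              intro h4
              have hle := hmax l hl hln hlq
              rcases Nat.lt_or_ge l r with hlt | hge
              · have h5 : r ∣ l ^ (b - 1) * (l - 1) := (dvd_pow_self r (by omega)).trans h4
                rcases (Nat.Prime.dvd_mul hr.1).1 h5 with h6 | h6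
                · have := (Nat.prime_dvd_prime_iff_eq hr.1 hl).1 (hr.1.dvd_of_dvd_pow h6)
                  omega
                · have := Nat.le_of_dvd (by have := hl.two_le; omega) h6
                  omega
              · have hlr : l = r := le_antisymm hle hge
                rw [hlr] at h4 h3 hl
                have h5 : Nat.Coprime (r ^ n.factorization r) (r - 1) := by
                  apply Nat.Coprime.pow_left
                  rw [Nat.Prime.coprime_iff_not_dvd hl]
                  intro h6
                  have hl2 := hl.two_le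
                  have := Nat.le_of_dvd (by omega) h6
                  omega
                have h6 := h5.dvd_of_dvd_mul_right h4
                have h7 : n.factorization r ≤ b - 1 :=
                  (Nat.pow_dvd_pow_iff_le_right hl.one_lt).1 h6
                have h8 : b ≤ n.factorization r :=
                  (hl.pow_dvd_iff_le_factorization hn0).1 h3
                have h9 := h8.trans h7
                clear_value r
                omega)
      exact hE2 _ (hdiv r hr.1 hr.2.1).1 (hdiv r hr.1 hr.2.1).2 h1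
    refine ⟨hD1, ?_⟩
    intro h4n
    by_contra h4
    have h2n : 2 ∣ n := Dvd.dvd.trans (by norm_num) h4n
    have h2q : 2 ∣ q - 1 := hD1 2 Nat.prime_two h2n
    have hf2 : 2 ≤ n.factorization 2 := by
      rw [← Nat.prime_two.pow_dvd_iff_le_factorization hn0]
      exact h4n
    -- squares
    have hsq : ∀ j : ℕ, 1 ≤ j → 2 ^ (j + 2) ∣ q ^ (2 ^ j) - 1 := by
      intro j hj
      induction j, hj using Nat.le_induction with
      | base =>
        obtain ⟨c, hc⟩ := h2q
        have : q = 2 * c + 1 := by omega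
        subst this
        have h1 : (2 * c + 1) ^ 2 ^ 1 - 1 = 4 * (c * (c + 1)) := by
          have : (2 * c + 1) ^ 2 ^ 1 = 4 * (c * (c + 1)) + 1 := by ring
          omega
        rw [h1]
        have h2 : 2 ∣ c * (c + 1) := (Nat.even_mul_succ_self c).two_dvd
        obtain ⟨d, hd⟩ := h2
        rw [hd]
        exact ⟨d, by ring⟩
      | succ j hj ih =>
        have h1 : q ^ 2 ^ (j + 1) = (q ^ 2 ^ j) ^ 2 := by rw [pow_succ 2 j, pow_mul]
        have h2 : (q ^ 2 ^ j) ^ 2 - 1 = (q ^ 2 ^ j + 1) * (q ^ 2 ^ j - 1) := by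
          rw [← one_pow 2, Nat.sq_sub_sq]; simp
        rw [h1, h2, show j + 1 + 2 = 1 + (j + 2) by ring, pow_add, pow_one]
        apply Nat.mul_dvd_mul _ ih
        have h3 : 2 ∣ q ^ 2 ^ j - 1 := (dvd_pow_self 2 (by omega)).trans ih
        have h4 : 1 ≤ q ^ 2 ^ j := Nat.one_le_pow _ _ (by omega)
        omega
    have h1 := key (by omega) Nat.prime_two hn0 h2n hE1 (by
      intro l b hl hlb
      rcases Nat.eq_zero_or_pos b with rfl | hb
      · refine ⟨1, by simp, ?_⟩
        intro h4
        have h5 : 2 ∣ 1 := (dvd_pow_self 2 (by omega)).trans h4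
        omega
      have hlq : l ∣ q - 1 := by
        have h5 : l ∣ n * (q - 1) := (dvd_pow_self l (by omega)).trans hlb
        rcases (Nat.Prime.dvd_mul hl).1 h5 with h6 | h6
        · exact hD1 l hl h6
        · exact h6
      by_cases hl2 : l = 2
      · subst hl2
        refine ⟨2 ^ (n.factorization 2 - 1), ?_, ?_⟩
        · have h5 := hsq (n.factorization 2 - 1) (by omega)
          refine Dvd.dvd.trans ?_ h5
          apply pow_dvd_pow
          have h6 := (hl.pow_dvd_iff_le_factorization (Nat.mul_ne_zero hn0 hq1)).1 hlb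
          rw [Nat.factorization_mul hn0 hq1, Finsupp.add_apply] at h6
          have h7 : (q - 1).factorization 2 < 2 := by
            by_contra hcon
            push Not at hcon
            rw [← hl.pow_dvd_iff_le_factorization hq1] at hcon
            exact h4 hcon
          omega
        · intro h5
          have h7 := (Nat.pow_dvd_pow_iff_le_right (by norm_num : 1 < 2)).1 h5
          omega
      · refine ⟨l ^ b, hlpow l b hlq, ?_⟩
        intro h5
        have h6 : 2 ∣ l ^ b := (dvd_pow_self 2 (by omega)).trans h5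
        exact hl2 ((Nat.prime_dvd_prime_iff_eq Nat.prime_two hl).1
          (Nat.prime_two.dvd_of_dvd_pow h6)).symm)
    exact hE2 _ (hdiv 2 Nat.prime_two h2n).1 (hdiv 2 Nat.prime_two h2n).2 h1

end Cfsg.Agent.S0694
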