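import Cfsg.Statements.S0695
import Cfsg.Agent.Lib.H15.RegNormal

set_option autoImplicit false
open Cfsg

namespace Cfsg.Agent.S0695

/-- A regular normal subgroup of a doubly primitive group of finite degree at least 2 is an elementary abelian 2-group (and the degree is a power of 2), unless the degree is 3. -/
theorem result {G : Type*} [Group G] {X : Type*} [Fintype X] [MulAction G X] (hX : 2 ≤ Fintype.card X) (h2 : MulAction.IsMultiplyPreprimitive G X 2) (N : Subgroup G) [N.Normal] (htrans : MulAction.IsPretransitive N X) (hreg : ∀ x : X, MulAction.stabilizer N x = ⊥) : Fintype.card X = 3 ∨ (IsMulCommutative N ∧ (∀ n ∈ N, n ^ 2 = 1) ∧ ∃ m : ℕ, Fintype.card X = 2 ^ m) := by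
  classical
  have hne : Nonempty X := by
    rw [← Fintype.card_pos_iff]; omega
  have hcard := H15.RegNormal.card_eq N htrans hreg
  rw [Nat.card_eq_fintype_card (α := X)] at hcard
  have hfin : Finite N := Nat.finite_of_card_ne_zero (by omega)
  have main : (∀ n ∈ N, n ^ 2 = 1) → (IsMulCommutative N ∧ (∀ n ∈ N, n ^ 2 = 1) ∧
      ∃ m : ℕ, Fintype.card X = 2 ^ m) := by
    intro h
    have h' : ∀ n : N, n ^ 2 = 1 := fun n => Subtype.ext (h n n.2)
    refine ⟨⟨⟨fun a b => H15.RegNormal.comm_of_sq h' a b⟩⟩, h, ?_⟩
    rw [← hcard]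
    exact H15.RegNormal.card_eq_two_pow h'
  rcases H15.RegNormal.two_primitive h2 N htrans hreg with h | h
  · rw [Nat.card_eq_fintype_card] at h
    by_cases h3 : Fintype.card X = 3
    · exact Or.inl h3
    right
    apply main
    intro n hn
    have hc : Nat.card N = 2 := by omega
    have := pow_card_eq_one' (x := (⟨n, hn⟩ : N))
    rw [hc] at this
    exact congrArg Subtype.val this
  · exact Or.inr (main h)

end Cfsg.Agent.S0695
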