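import Cfsg.Statements.S0705
import Mathlib

set_option autoImplicit false
open scoped Pointwise
open Cfsg

namespace Cfsg.Agent.S0705

/-- A generously `k`-transitive permutation group (every `(k+1)`-subset has its full symmetric group induced by the setwise stabiliser) of degree greater than `k` is `k`-transitive, and for a `k`-subset the setwise and pointwise stabilisers have the same orbits outside it. -/
theorem result {α : Type*} [Fintype α] [DecidableEq α] (G : Subgroup (Equiv.Perm α)) {k : ℕ} (hk : k < Fintype.card α) (hgen : ∀ s : Finset α, s.card = k + 1 → ∀ σ : Equiv.Perm ↥s, ∃ g ∈ G, ∀ x : ↥s, g (x : α) = σ x) : MulAction.IsMultiplyPretransitive G α k ∧ ∀ s : Finset α, s.card = k → ∀ a b : α, a ∉ s → b ∉ s → (∃ g ∈ G, g • s = s ∧ g a = b) → ∃ g ∈ G, (∀ x ∈ s, g x = x) ∧ g a = b := by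
  have ext_set : ∀ t : Finset α, t.card ≤ k + 1 → ∃ s : Finset α, t ⊆ s ∧ s.card = k + 1 := by
    intro t ht
    obtain ⟨s, h1, h2⟩ := Finset.exists_superset_card_eq ht hk
    exact ⟨s, h1, h2⟩
  -- a permutation preserving a (k+1)-set is realised on it
  have real : ∀ s : Finset α, s.card = k + 1 → ∀ π : Equiv.Perm α, (∀ x, x ∈ s → π x ∈ s) →
      ∃ g ∈ G, ∀ x ∈ s, g x = π x := by
    intro s hs π hπ
    obtain ⟨g, hg, hgx⟩ := hgen s hs (Equiv.Perm.subtypePerm π (fun x => by
      refine ⟨fun h => ?_, fun h => hπ x h⟩
      -- finite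
      have himg : s.image π = s := by
        apply Finset.eq_of_subset_of_card_le
        · intro y hy
          rw [Finset.mem_image] at hy
          obtain ⟨z, hz, rfl⟩ := hy
          exact hπ z hz
        · rw [Finset.card_image_of_injective _ π.injective]
      rw [← himg, Finset.mem_image] at h
      obtain ⟨z, hz, hzx⟩ := h
      rwa [← π.injective hzx]))
    exact ⟨g, hg, fun x hx => hgx ⟨x, hx⟩⟩
  refine ⟨?_, ?_⟩
  · rw [MulAction.isMultiplyPretransitive_iff]
    -- the swap step
    have step : ∀ (c d : α) (z : Fin k ↪ α), ∃ g ∈ G, ∀ i, g (z i) = Equiv.swap c d (z i) := by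
      intro c d z
      have key : ∀ c d : α, c ∈ Finset.univ.map z → ∃ g ∈ G, ∀ i,
          g (z i) = Equiv.swap c d (z i) := by
        intro c d hc
        obtain ⟨s, hs1, hs2⟩ := ext_set (insert d (Finset.univ.map z)) (by
          refine (Finset.card_insert_le _ _).trans ?_
          rw [Finset.card_map, Finset.card_univ, Fintype.card_fin])
        have hd : d ∈ s := hs1 (Finset.mem_insert_self _ _)
        have hc' : c ∈ s := hs1 (Finset.mem_insert_of_mem hc)
        obtain ⟨g, hg, hgx⟩ := real s hs2 (Equiv.swap c d) (by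
          intro x hx
          rw [Equiv.swap_apply_def]
          split_ifs <;> assumption)
        refine ⟨g, hg, fun i => ?_⟩
        exact hgx (z i) (hs1 (Finset.mem_insert_of_mem (Finset.mem_map_of_mem _ (Finset.mem_univ i))))
      by_cases hc : c ∈ Finset.univ.map z
      · exact key c d hc
      by_cases hd : d ∈ Finset.univ.map z
      · rw [Equiv.swap_comm]; exact key d c hd
      · refine ⟨1, G.one_mem, fun i => ?_⟩
        have hi : z i ∈ Finset.univ.map z := Finset.mem_map_of_mem _ (Finset.mem_univ i)
        rw [Equiv.Perm.one_apply, Equiv.swap_apply_of_ne_of_ne]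
        · rintro rfl; exact hc hi
        · rintro rfl; exact hd hi
    have all : ∀ (π : Equiv.Perm α) (z : Fin k ↪ α), ∃ g ∈ G, ∀ i, g (z i) = π (z i) := by
      intro π
      induction π using Equiv.Perm.swap_induction_on with
      | one => intro z; exact ⟨1, G.one_mem, fun i => rfl⟩
      | swap_mul f x y hxy ih =>
        intro z
        obtain ⟨g, hg, hgi⟩ := ih z
        obtain ⟨g', hg', hgi'⟩ := step x y (z.trans f.toEmbedding)
        refine ⟨g' * g, G.mul_mem hg' hg, fun i => ?_⟩
        rw [Equiv.Perm.mul_apply, hgi, Equiv.Perm.mul_apply]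
        exact hgi' i
    intro x y
    have := Equiv.Perm.isMultiplyPretransitive (α := α) k
    obtain ⟨π, hπ⟩ := MulAction.exists_smul_eq (Equiv.Perm α) x y
    obtain ⟨g, hg, hgi⟩ := all π x
    refine ⟨⟨g, hg⟩, ?_⟩
    ext i
    rw [← hπ]
    exact hgi i
  · rintro s hs a b ha hb ⟨g, hg, hgs, hgab⟩
    have hcard : (insert b s).card = k + 1 := by
      rw [Finset.card_insert_of_notMem hb, hs]
    have hgs' : ∀ x, x ∈ s → g⁻¹ x ∈ s := by
      intro x hx
      rw [← hgs] at hx
      rw [Finset.mem_smul_finset] at hx
      obtain ⟨y, hy, rfl⟩ := hx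
      simpa using hy
    -- the permutation acting as g⁻¹ on s and fixing b
    have hinj : Set.InjOn (fun x => if x = b then b else g⁻¹ x) (insert b s : Finset α) := by
      intro x hx y hy hxy
      simp only [Finset.coe_insert, Set.mem_insert_iff, Finset.mem_coe] at hx hy
      simp only at hxy
      by_cases h1 : x = b <;> by_cases h2 : y = b
      · rw [h1, h2]
      · rw [if_pos h1, if_neg h2] at hxy
        exfalso
        have : g⁻¹ y ∈ s := hgs' y (hy.resolve_left h2)
        rw [← hxy] at this
        exact hb this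
      · rw [if_neg h1, if_pos h2] at hxy
        exfalso
        have : g⁻¹ x ∈ s := hgs' x (hx.resolve_left h1)
        rw [hxy] at this
        exact hb this
      · rw [if_neg h1, if_neg h2] at hxy
        exact (g⁻¹).injective hxy
    have hmaps : ∀ x : ↥(insert b s), (if (x : α) = b then b else g⁻¹ x) ∈ insert b s := by
      intro x
      split_ifs with h
      · exact Finset.mem_insert_self _ _
      · exact Finset.mem_insert_of_mem (hgs' _ ((Finset.mem_insert.1 x.2).resolve_left h))
    let f : ↥(insert b s) → ↥(insert b s) := fun x => ⟨_, hmaps x⟩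
    have hfinj : Function.Injective f := by
      intro x y hxy
      apply Subtype.ext
      exact hinj x.2 y.2 (congrArg Subtype.val hxy)
    have hfb : Function.Bijective f := Finite.injective_iff_bijective.1 hfinj
    obtain ⟨h, hh, hhx⟩ := hgen (insert b s) hcard (Equiv.ofBijective f hfb)
    refine ⟨h * g, G.mul_mem hh hg, ?_, ?_⟩
    · intro x hx
      have hgx : g x ∈ s := by
        rw [← hgs]; exact Finset.smul_mem_smul_finset hx
      have h1 := hhx ⟨g x, Finset.mem_insert_of_mem hgx⟩
      rw [Equiv.Perm.mul_apply, h1]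
      change (if g x = b then b else g⁻¹ (g x)) = x
      rw [if_neg (fun e => hb (by rw [← e]; exact hgx))]
      simp
    · rw [Equiv.Perm.mul_apply, hgab]
      have h1 := hhx ⟨b, Finset.mem_insert_self _ _⟩
      rw [h1]
      change (if b = b then b else g⁻¹ b) = b
      rw [if_pos rfl]

end Cfsg.Agent.S0705
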