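import Cfsg.Statements.S0706
import Cfsg.Agent.S0705

set_option autoImplicit false
open Cfsg

namespace Cfsg.Agent.S0706

/-- a permutation preserving a (k+1)-set is realised on it -/
theorem realise {α : Type*} [Fintype α] [DecidableEq α] (G : Subgroup (Equiv.Perm α)) {k : ℕ}
    (hgen : ∀ s : Finset α, s.card = k + 1 → ∀ σ : Equiv.Perm ↥s, ∃ g ∈ G, ∀ x : ↥s,
      g (x : α) = σ x) (s : Finset α) (hs : s.card = k + 1) (π : Equiv.Perm α)
    (hπ : ∀ x, x ∈ s → π x ∈ s) : ∃ g ∈ G, ∀ x ∈ s, g x = π x := by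
  obtain ⟨g, hg, hgx⟩ := hgen s hs (Equiv.Perm.subtypePerm π (fun x => by
    refine ⟨fun h => ?_, fun h => hπ x h⟩
    have himg : s.image π = s := by
      apply Finset.eq_of_subset_of_card_le
      · intro y hy
        rw [Finset.mem_image] at hy
        obtain ⟨z, hz, rfl⟩ := hy
        exact hπ z hz
      · rw [Finset.card_image_of_injective _ π.injective]
    rw [← himg, Finset.mem_image] at h
    obtain ⟨z, hz, hzx⟩ := h
    rwa [← π.injective hzx]))
  exact ⟨g, hg, fun x hx => hgx ⟨x, hx⟩⟩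
section
open scoped Pointwise
theorem aux {α : Type*} [Fintype α] [DecidableEq α] (G : Subgroup (Equiv.Perm α)) {k : ℕ} (hk : k < Fintype.card α) (hgen : ∀ s : Finset α, s.card = k + 1 → ∀ σ : Equiv.Perm ↥s, ∃ g ∈ G, ∀ x : ↥s, g (x : α) = σ x) {p : ℕ} (hp : p.Prime) (hpk : p ≤ k) (Γ : Finset α) (hΓ : Γ.card = k) (f : Fin p → α) (hf : ∀ i, f i ∉ Γ) (hdist : ∀ i j, i ≠ j → f j ∉ MulAction.orbit (fixingSubgroup G (Γ : Set α)) (f i)) : ∃ i, p ∣ Nat.card (MulAction.orbit (fixingSubgroup G (Γ : Set α)) (f i)) := by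
  classical
  by_contra hcon
  push Not at hcon
  obtain ⟨hktr, hsame⟩ := Cfsg.Agent.S0705.result G hk hgen
  have hpF : Fact p.Prime := ⟨hp⟩
  have : NeZero p := ⟨hp.ne_zero⟩
  -- p points of Γ
  obtain ⟨e⟩ : Nonempty (ZMod p ↪ Γ) := Function.Embedding.nonempty_of_card_le (by
    rw [ZMod.card, Fintype.card_coe, hΓ]; exact hpk)
  let γ : ZMod p ↪ α := e.trans (Function.Embedding.subtype _)
  have hγ : ∀ i, γ i ∈ Γ := fun i => (e i).2
  set H := fixingSubgroup G (Γ : Set α) with hH
  have hHm : ∀ g : G, g ∈ H ↔ ∀ x ∈ Γ, g • x = x := by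
    intro g
    rw [hH, mem_fixingSubgroup_iff]
    exact Iff.rfl
  let L : Subgroup G :=
    { carrier := {g | ∃ j : ZMod p, (∀ i, g • (γ i) = γ (i + j)) ∧
        ∀ x ∈ Γ, x ∉ Set.range γ → g • x = x}
      one_mem' := ⟨0, fun i => by simp, fun x _ _ => one_smul _ _⟩
      mul_mem' := by
        rintro a b ⟨j, h1, h2⟩ ⟨j', h1', h2'⟩
        refine ⟨j' + j, fun i => ?_, fun x hx hx' => ?_⟩
        · rw [mul_smul, h1', h1, add_assoc]
        · rw [mul_smul, h2' x hx hx', h2 x hx hx']
      inv_mem' := by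
        rintro a ⟨j, h1, h2⟩
        refine ⟨-j, fun i => ?_, fun x hx hx' => ?_⟩
        · rw [inv_smul_eq_iff, h1, neg_add_cancel_right]
        · rw [inv_smul_eq_iff, h2 x hx hx'] }
  have hLm : ∀ g : G, g ∈ L ↔ ∃ j : ZMod p, (∀ i, g • (γ i) = γ (i + j)) ∧
        ∀ x ∈ Γ, x ∉ Set.range γ → g • x = x := fun g => Iff.rfl
  have hHL : H ≤ L := by
    intro g hg
    rw [hHm] at hg
    rw [hLm]
    exact ⟨0, fun i => by rw [add_zero]; exact hg _ (hγ i), fun x hx _ => hg x hx⟩
  -- elements of L preserve Γ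
  have hLΓ : ∀ g : G, g ∈ L → (g : Equiv.Perm α) • Γ = Γ := by
    intro g hg
    rw [hLm] at hg
    obtain ⟨j, h1, h2⟩ := hg
    apply Finset.eq_of_subset_of_card_le
    · intro y hy
      rw [Finset.mem_smul_finset] at hy
      obtain ⟨x, hx, rfl⟩ := hy
      by_cases hxr : x ∈ Set.range γ
      · obtain ⟨i, rfl⟩ := hxr
        have : (g : Equiv.Perm α) • γ i = γ (i + j) := h1 i
        rw [this]; exact hγ _
      · have : (g : Equiv.Perm α) • x = x := h2 x hx hxr
        rw [this]; exact hx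
    · rw [Finset.card_smul_finset]
  have hp0 : 0 < p := hp.pos
  -- cardinality of L
  have horb : MulAction.orbit L (γ 0) = Set.range γ := by
    ext y
    constructor
    · rintro ⟨⟨g, hg⟩, rfl⟩
      obtain ⟨j, h1, h2⟩ := (hLm g).1 hg
      exact ⟨0 + j, (h1 0).symm⟩
    · rintro ⟨j, rfl⟩
      have hs : (insert (f ⟨0, hp0⟩) Γ).card = k + 1 := by
        rw [Finset.card_insert_of_notMem (hf _), hΓ]
      obtain ⟨g, hg, hgx⟩ := realise G hgen _ hs ((Equiv.addRight j : Equiv.Perm (ZMod p)).viaEmbedding γ)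
        (by
          intro x hx
          by_cases hxr : x ∈ Set.range γ
          · obtain ⟨i, rfl⟩ := hxr
            rw [Equiv.Perm.viaEmbedding_apply]
            exact Finset.mem_insert_of_mem (hγ _)
          · rw [Equiv.Perm.viaEmbedding_apply_of_notMem _ _ _ hxr]; exact hx)
      have hgL : (⟨g, hg⟩ : G) ∈ L := by
        rw [hLm]
        refine ⟨j, fun i => ?_, fun x hx hxr => ?_⟩
        · have := hgx (γ i) (Finset.mem_insert_of_mem (hγ i))
          rw [Equiv.Perm.viaEmbedding_apply] at this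
          exact this
        · have := hgx x (Finset.mem_insert_of_mem hx)
          rw [Equiv.Perm.viaEmbedding_apply_of_notMem _ _ _ hxr] at this
          exact this
      refine ⟨⟨_, hgL⟩, ?_⟩
      have := hgx (γ 0) (Finset.mem_insert_of_mem (hγ 0))
      rw [Equiv.Perm.viaEmbedding_apply] at this
      change g (γ 0) = γ j
      rw [this]
      simp
  have hstab : (MulAction.stabilizer L (γ 0)).map L.subtype = H := by
    ext g
    constructor
    · rintro ⟨⟨g, hg⟩, hg0, rfl⟩
      obtain ⟨j, h1, h2⟩ := (hLm g).1 hg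
      have h3 : g • γ 0 = γ 0 := hg0
      rw [h1 0] at h3
      have h4 : (0 : ZMod p) + j = 0 := γ.injective h3
      rw [zero_add] at h4
      change g ∈ H
      rw [hHm]
      intro x hx
      by_cases hxr : x ∈ Set.range γ
      · obtain ⟨i, rfl⟩ := hxr
        rw [h1 i, h4, add_zero]
      · exact h2 x hx hxr
    · intro hg
      refine ⟨⟨g, hHL hg⟩, ?_, rfl⟩
      exact (hHm g).1 hg _ (hγ 0)
  have hcardL : Nat.card L = p * Nat.card H := by
    rw [← Nat.card_congr (MulAction.orbitProdStabilizerEquivGroup L (γ 0)), Nat.card_prod]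
    congr 1
    · rw [horb, Nat.card_range_of_injective γ.injective, Nat.card_zmod]
    · rw [← hstab, Subgroup.card_map_of_injective L.subtype_injective]
  -- Sylow subgroup of L
  obtain ⟨Q⟩ : Nonempty (Sylow p L) := inferInstance
  have horbL : ∀ i, ∀ x ∈ MulAction.orbit L (f i), x ∈ MulAction.orbit H (f i) := by
    rintro i _ ⟨⟨g, hg⟩, rfl⟩
    have h1 := hLΓ g hg
    have hx : g • f i ∉ Γ := by
      intro hx
      rw [← h1, Finset.mem_smul_finset] at hx
      obtain ⟨y, hy, hyx⟩ := hx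
      have : y = f i := (g : Equiv.Perm α).injective hyx
      exact hf i (this ▸ hy)
    obtain ⟨h, hh, hhf, hhx⟩ := hsame Γ hΓ (f i) (g • f i) (hf i) hx ⟨g, g.2, h1, rfl⟩
    refine ⟨⟨⟨h, hh⟩, ?_⟩, hhx⟩
    rw [hHm]
    exact hhf
  have horbeq : ∀ i, MulAction.orbit L (f i) = MulAction.orbit H (f i) := by
    intro i
    apply Set.Subset.antisymm (horbL i)
    rintro _ ⟨⟨g, hg⟩, rfl⟩
    exact ⟨⟨g, hHL hg⟩, rfl⟩
  have hfix : ∀ i, ∃ y ∈ MulAction.orbit H (f i), ∀ q : L, q ∈ (Q : Subgroup L) → q • y = y := by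
    intro i
    have h1 : ¬ p ∣ Nat.card (MulAction.orbit L (f i)) := by
      rw [horbeq]; exact hcon i
    obtain ⟨y, hy⟩ := Q.isPGroup'.nonempty_fixed_point_of_prime_not_dvd_card
      (MulAction.orbit L (f i)) h1
    refine ⟨y, horbL i _ y.2, fun q hq => ?_⟩
    have := hy ⟨q, hq⟩
    exact congrArg Subtype.val this
  choose f' hf'1 hf'2 using hfix
  have hf'Γ : ∀ i, f' i ∉ Γ := by
    intro i hi
    obtain ⟨⟨g, hg⟩, hgx⟩ := hf'1 i
    have h1 : g • f i = f' i := hgx
    have h2 : g⁻¹ ∈ H := H.inv_mem hg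
    have h3 := (hHm _).1 h2 _ hi
    rw [← h1, inv_smul_smul] at h3
    rw [← h1, ← h3] at hi
    exact hf i hi
  have hf'inj : Function.Injective f' := by
    intro i j hij
    by_contra hne
    apply hdist i j hne
    have h1 := hf'1 i
    have h2 := hf'1 j
    rw [hij] at h1
    rw [← MulAction.orbit_eq_iff] at h1 h2
    rw [← MulAction.orbit_eq_iff, ← h2, h1]
  -- the new set
  let T : Finset α := (Γ \ Finset.univ.map γ) ∪ Finset.univ.image f'
  have hγsub : Finset.univ.map γ ⊆ Γ := by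
    intro x hx
    rw [Finset.mem_map] at hx
    obtain ⟨i, _, rfl⟩ := hx
    exact hγ i
  have hT : T.card = k := by
    rw [Finset.card_union_of_disjoint, Finset.card_sdiff_of_subset hγsub,
      Finset.card_image_of_injective _ hf'inj, Finset.card_map, hΓ, Finset.card_univ,
      Finset.card_univ, Fintype.card_fin, ZMod.card]
    · omega
    · rw [Finset.disjoint_left]
      intro x hx hx'
      rw [Finset.mem_image] at hx'
      obtain ⟨i, _, rfl⟩ := hx'
      exact hf'Γ i (Finset.mem_sdiff.1 hx).1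
  have hQT : ((Q : Subgroup L).map L.subtype) ≤ fixingSubgroup G (T : Set α) := by
    rintro _ ⟨q, hq, rfl⟩
    rw [mem_fixingSubgroup_iff]
    intro x hx
    rw [Finset.mem_coe, Finset.mem_union] at hx
    rcases hx with hx | hx
    · rw [Finset.mem_sdiff] at hx
      obtain ⟨j, h1, h2⟩ := (hLm _).1 q.2
      apply h2 x hx.1
      rintro ⟨i, rfl⟩
      exact hx.2 (Finset.mem_map_of_mem _ (Finset.mem_univ i))
    · rw [Finset.mem_image] at hx
      obtain ⟨i, _, rfl⟩ := hx
      exact hf'2 i q hq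
  have hidx : ∀ S : Finset α, S.card = k → (fixingSubgroup G (S : Set α)).index =
      Nat.choose (Nat.card α) k * k.factorial := by
    intro S hS
    have h1 : (S : Set α).ncard = k := by rw [Set.ncard_coe_finset, hS]
    have h2 := MulAction.IsMultiplyPretransitive.index_of_fixingSubgroup_eq (G := G) (S : Set α)
      (by rw [h1]; exact hktr)
    rw [h1] at h2
    exact h2
  have hcardT : Nat.card (fixingSubgroup G (T : Set α)) = Nat.card H := by
    have h1 := Subgroup.card_mul_index (fixingSubgroup G (T : Set α))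
    have h2 := Subgroup.card_mul_index H
    rw [hidx T hT] at h1
    rw [hH, hidx Γ hΓ, ← h1] at h2
    have h3 : 0 < Nat.choose (Nat.card α) k * k.factorial := by
      apply Nat.mul_pos
      · apply Nat.choose_pos
        rw [Nat.card_eq_fintype_card]; exact hk.le
      · exact Nat.factorial_pos k
    exact (Nat.eq_of_mul_eq_mul_right h3 h2).symm
  have hdvd : Nat.card Q ∣ Nat.card H := by
    rw [← hcardT]
    have h1 := Subgroup.card_dvd_of_le hQT
    rwa [Subgroup.card_map_of_injective L.subtype_injective] at h1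
  rw [Sylow.card_eq_multiplicity, hcardL, Nat.factorization_mul hp.ne_zero Nat.card_pos.ne',
    Finsupp.add_apply, hp.factorization_self, add_comm 1] at hdvd
  exact Nat.pow_succ_factorization_not_dvd Nat.card_pos.ne' hp hdvd
end

/-- In a generously `k`-transitive permutation group, for a prime `p ≤ k` and a `k`-set `Γ`, there are no `p` points outside `Γ` lying in distinct orbits of the pointwise stabiliser of `Γ` all of length prime to `p` (at most `p - 1` such orbits). -/
theorem result {α : Type*} [Fintype α] [DecidableEq α] (G : Subgroup (Equiv.Perm α)) {k : ℕ} (hk : k < Fintype.card α) (hgen : ∀ s : Finset α, s.card = k + 1 → ∀ σ : Equiv.Perm ↥s, ∃ g ∈ G, ∀ x : ↥s, g (x : α) = σ x) {p : ℕ} (hp : p.Prime) (hpk : p ≤ k) (Γ : Finset α) (hΓ : Γ.card = k) (f : Fin p → α) (hf : ∀ i, f i ∉ Γ) (hdist : ∀ i j, i ≠ j → f j ∉ MulAction.orbit (fixingSubgroup G (Γ : Set α)) (f i)) : ∃ i, p ∣ Nat.card (MulAction.orbit (fixingSubgroup G (Γ : Set α)) (f i)) := by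
  exact aux G hk hgen hp hpk Γ hΓ f hf hdist

end Cfsg.Agent.S0706
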