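import Cfsg.Statements.S0699
import Cfsg.Agent.Lib.H15.Jordan
import Cfsg.Agent.Lib.H15.Stage
import Cfsg.Agent.Lib.H15.Stage2
import Cfsg.Agent.S0706

set_option autoImplicit false
open Cfsg

namespace Cfsg.Agent.S0699

open MulAction SubMulAction

/-- a 2-transitive group of odd degree contains an element interchanging two given points and fixing
a third -/
theorem exists_swap {α : Type*} [Finite α] {N : Subgroup (Equiv.Perm α)}
    (hodd : Odd (Nat.card α)) (h2 : ∀ x y : α, x ≠ y → ∃ t ∈ N, t x = y ∧ t y = x) (x y : α)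
    (hxy : x ≠ y) : ∃ t ∈ N, t x = y ∧ t y = x ∧ ∃ c, c ≠ x ∧ c ≠ y ∧ t c = c := by
  classical
  obtain ⟨t0, ht0, htx, hty⟩ := h2 x y hxy
  obtain ⟨k, m, hm, hkm⟩ := Nat.exists_eq_two_pow_mul_odd (n := orderOf t0) (orderOf_pos t0).ne'
  obtain ⟨j, hj⟩ := hm
  have hsq : ∀ i : ℕ, (t0 ^ (2 * i)) x = x ∧ (t0 ^ (2 * i)) y = y := by
    intro i
    induction i with
    | zero => simp
    | succ i ih =>
      have : t0 ^ (2 * (i + 1)) = t0 ^ (2 * i) * (t0 * t0) := by
        rw [← pow_two, ← pow_add]; ring_nf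
      rw [this]
      simp only [Equiv.Perm.mul_apply]
      rw [htx, hty, htx]
      exact ih
  have hpow : t0 ^ m = t0 * t0 ^ (2 * j) := by
    rw [hj, pow_succ']
  have htmx : (t0 ^ m) x = y := by
    rw [hpow, Equiv.Perm.mul_apply, (hsq j).1, htx]
  have htmy : (t0 ^ m) y = x := by
    rw [hpow, Equiv.Perm.mul_apply, (hsq j).2, hty]
  refine ⟨t0 ^ m, N.pow_mem ht0 m, htmx, htmy, ?_⟩
  have hF : Fact (Nat.Prime 2) := ⟨Nat.prime_two⟩
  have hord : (t0 ^ m) ^ (2 ^ k) = 1 := by
    rw [← pow_mul, mul_comm, ← hkm, pow_orderOf_eq_one]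
  have hpg : IsPGroup 2 (Subgroup.zpowers (t0 ^ m)) := by
    rintro ⟨g, hg⟩
    obtain ⟨i, rfl⟩ := hg
    refine ⟨k, Subtype.ext ?_⟩
    change ((t0 ^ m) ^ i) ^ 2 ^ k = 1
    rw [← zpow_natCast, ← zpow_mul, mul_comm, zpow_mul, zpow_natCast, hord, one_zpow]
  obtain ⟨c, hc⟩ := hpg.nonempty_fixed_point_of_prime_not_dvd_card α
    (by rw [Nat.two_dvd_ne_zero]; exact Nat.odd_iff.1 hodd)
  have hc' : (t0 ^ m) c = c := hc ⟨t0 ^ m, Subgroup.mem_zpowers _⟩
  refine ⟨c, ?_, ?_, hc'⟩
  · rintro rfl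
    rw [htmx] at hc'
    exact hxy hc'.symm
  · rintro rfl
    rw [htmy] at hc'
    exact hxy hc'

/-- swaps with fixed third points give generous 2-transitivity -/
theorem generous {α : Type*} [DecidableEq α] {N : Subgroup (Equiv.Perm α)}
    (h : ∀ x y z : α, x ≠ y → z ≠ x → z ≠ y → ∃ t ∈ N, t x = y ∧ t y = x ∧ t z = z)
    (s : Finset α) (hs : s.card = 3) (σ : Equiv.Perm ↥s) : ∃ g ∈ N, ∀ x : ↥s, g (x : α) = σ x := by
  induction σ using Equiv.Perm.swap_induction_on with
  | one => exact ⟨1, N.one_mem, fun x => rfl⟩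
  | swap_mul f x y hxy ih =>
    obtain ⟨g, hg, hgs⟩ := ih
    have hxy' : (x : α) ≠ y := fun h => hxy (Subtype.ext h)
    obtain ⟨z, hz⟩ : ∃ z : α, (s.erase (x : α)).erase (y : α) = {z} := by
      rw [← Finset.card_eq_one, Finset.card_erase_of_mem (Finset.mem_erase.2 ⟨hxy'.symm, y.2⟩),
        Finset.card_erase_of_mem x.2, hs]
    have hz' : z ∈ (s.erase (x : α)).erase (y : α) := by rw [hz]; exact Finset.mem_singleton_self z
    rw [Finset.mem_erase, Finset.mem_erase] at hz'
    obtain ⟨t, ht, htx, hty, htz⟩ := h x y z hxy' hz'.2.1 hz'.1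
    refine ⟨t * g, N.mul_mem ht hg, ?_⟩
    intro w
    rw [Equiv.Perm.mul_apply, hgs, Equiv.Perm.mul_apply]
    generalize f w = u
    by_cases hux : u = x
    · rw [hux, htx, Equiv.swap_apply_left]
    by_cases huy : u = y
    · rw [huy, hty, Equiv.swap_apply_right]
    rw [Equiv.swap_apply_of_ne_of_ne hux huy]
    have : (u : α) ∈ (s.erase (x : α)).erase (y : α) := by
      rw [Finset.mem_erase, Finset.mem_erase]
      exact ⟨fun h => huy (Subtype.ext h), fun h => hux (Subtype.ext h), u.2⟩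
    rw [hz, Finset.mem_singleton] at this
    rw [this, htz]

/-- Wagner's Theorem: a non-trivial normal subgroup of a triply transitive permutation group of odd degree at least 5 is triply transitive. -/
theorem result {α : Type*} [Fintype α] [DecidableEq α] (G : Subgroup (Equiv.Perm α)) (hodd : Odd (Fintype.card α)) (h5 : 5 ≤ Fintype.card α) (hG : MulAction.IsMultiplyPretransitive G α 3) (N : Subgroup G) [N.Normal] (hN : N ≠ ⊥) : MulAction.IsMultiplyPretransitive N α 3 := by
  classical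
  have hcard : Nat.card α = Fintype.card α := Nat.card_eq_fintype_card
  have hNt : IsMultiplyPretransitive N α 2 := by
    rcases H15.Jordan.jordan 1 G α hG (by rw [hcard]; omega) N hN with h | ⟨-, h2, h3, h4⟩
    · exact h
    · exfalso
      have hne : Nonempty α := Fintype.card_pos_iff.1 (by omega)
      obtain ⟨m, hm⟩ := H15.RegNormal.card_eq_two_pow (N := N) (fun n => Subtype.ext (h2 n n.2))
      have h5 := H15.RegNormal.card_eq N h3 h4
      rw [hm, hcard] at h5
      rcases Nat.eq_zero_or_pos m with h0 | h0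
      · rw [h0, pow_zero] at h5
        omega
      · rw [← h5, Nat.odd_pow_iff h0.ne'] at hodd
        exact absurd hodd (by decide)
  have hN2 : ∀ x y z w : α, x ≠ y → z ≠ w → ∃ t : N, (t : Equiv.Perm α) x = z ∧ (t : Equiv.Perm α) y = w := by
    intro x y z w hxy hzw
    obtain ⟨g, h1, h2⟩ := is_two_pretransitive_iff.1 hNt hxy hzw
    exact ⟨g, h1, h2⟩
  let N' : Subgroup (Equiv.Perm α) := N.map G.subtype
  have hG3 : ∀ (a b c d : α), c ≠ a → c ≠ b → d ≠ a → d ≠ b →
      ∃ g : G, g • a = a ∧ g • b = b ∧ g • c = d := by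
    intro a b c d h1 h2 h3 h4
    by_cases hab : a = b
    · obtain ⟨g, hg1, hg2⟩ := H15.Stage2.exists_fix_move hG (by rw [hcard]; omega) {a} (by simp) c d
        (by simpa using h1) (by simpa using h3)
      refine ⟨g, hg1 a (by simp), ?_, hg2⟩
      rw [← hab]
      exact hg1 a (by simp)
    · obtain ⟨g, hg1, hg2⟩ := H15.Stage2.exists_fix_move hG (by rw [hcard]; omega) {a, b}
        (by rw [Finset.card_pair hab]) c d (by simp [h1, h2]) (by simp [h3, h4])
      exact ⟨g, hg1 a (by simp), hg1 b (by simp), hg2⟩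
  -- swaps
  have hsw : ∀ x y z : α, x ≠ y → z ≠ x → z ≠ y → ∃ t ∈ N', t x = y ∧ t y = x ∧ t z = z := by
    intro x y z hxy hzx hzy
    obtain ⟨t, ht, htx, hty, c, hcx, hcy, htc⟩ := exists_swap (N := N') (by rw [hcard]; exact hodd)
      (by
        intro x y hxy
        obtain ⟨t, ht1, ht2⟩ := hN2 x y y x hxy (Ne.symm hxy)
        exact ⟨t, ⟨t, t.2, rfl⟩, ht1, ht2⟩) x y hxy
    obtain ⟨t', ht', rfl⟩ := ht
    obtain ⟨g, hgx, hgy, hgc⟩ := hG3 x y c z hcx hcy hzx hzy
    have hgx' : g⁻¹ • x = x := by rw [inv_smul_eq_iff, hgx]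
    have hgy' : g⁻¹ • y = y := by rw [inv_smul_eq_iff, hgy]
    have hgz' : g⁻¹ • z = c := by rw [inv_smul_eq_iff, hgc]
    refine ⟨_, ⟨g * t' * g⁻¹, ‹N.Normal›.conj_mem t' ht' g, rfl⟩, ?_, ?_, ?_⟩
    · change (g * t' * g⁻¹) • x = y
      rw [mul_smul, mul_smul, hgx']
      have : t' • x = y := htx
      rw [this, hgy]
    · change (g * t' * g⁻¹) • y = x
      rw [mul_smul, mul_smul, hgy']
      have : t' • y = x := hty
      rw [this, hgx]
    · change (g * t' * g⁻¹) • z = z
      rw [mul_smul, mul_smul, hgz']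
      have : t' • c = c := htc
      rw [this, hgc]
  have hgen := fun s hs σ => generous hsw s hs σ
  -- choose two points
  have : Nontrivial α := Fintype.one_lt_card_iff_nontrivial.1 (by omega)
  obtain ⟨a, b, hab⟩ := exists_pair_ne α
  let Γ : Finset α := {a, b}
  have hΓ : Γ.card = 2 := Finset.card_pair hab
  -- orbits of N'_Γ have odd length
  have horb : ∀ c, c ∉ Γ → ¬ 2 ∣ Nat.card (orbit (fixingSubgroup N' (Γ : Set α)) c) := by
    intro c hc
    have hc' : c ∈ ofFixingSubgroup G (Γ : Set α) := by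
      rw [mem_ofFixingSubgroup_iff]
      exact hc
    have htr : IsPretransitive (fixingSubgroup G (Γ : Set α)) (ofFixingSubgroup G (Γ : Set α)) := by
      constructor
      rintro ⟨x, hx⟩ ⟨y, hy⟩
      rw [mem_ofFixingSubgroup_iff] at hx hy
      have hx' : x ≠ a ∧ x ≠ b := by simpa [Γ] using hx
      have hy' : y ≠ a ∧ y ≠ b := by simpa [Γ] using hy
      obtain ⟨g, hga, hgb, hgx⟩ := hG3 a b x y hx'.1 hx'.2 hy'.1 hy'.2
      refine ⟨⟨g, ?_⟩, Subtype.ext hgx⟩
      rw [mem_fixingSubgroup_iff]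
      intro z hz
      have hz' : z = a ∨ z = b := by simpa [Γ] using hz
      rcases hz' with rfl | rfl
      · exact hga
      · exact hgb
    have hbl := IsBlock.orbit_of_normal (G := fixingSubgroup G (Γ : Set α))
      (N := N.subgroupOf (fixingSubgroup G (Γ : Set α))) (⟨c, hc'⟩ : ofFixingSubgroup G (Γ : Set α))
    have hdvd := hbl.ncard_dvd_card ⟨_, mem_orbit_self _⟩
    have hcY : Nat.card (ofFixingSubgroup G (Γ : Set α)) = Fintype.card α - 2 := by
      have h1 : Nat.card (ofFixingSubgroup G (Γ : Set α)) = ((Γ : Set α)ᶜ).ncard := by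
        rw [← Nat.card_coe_set_eq]
        apply Nat.card_congr
        apply Equiv.subtypeEquivRight
        intro x
        rw [mem_ofFixingSubgroup_iff]
        rfl
      rw [h1, Set.ncard_compl, Set.ncard_coe_finset, hΓ, hcard]
    rw [hcY] at hdvd
    have himg : (orbit (fixingSubgroup N' (Γ : Set α)) c) = Subtype.val ''
        (orbit (N.subgroupOf (fixingSubgroup G (Γ : Set α))) (⟨c, hc'⟩ : ofFixingSubgroup G (Γ : Set α))) := by
      ext x
      constructor
      · rintro ⟨⟨⟨g, hg⟩, hgf⟩, rfl⟩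
        obtain ⟨n, hn, rfl⟩ := hg
        rw [mem_fixingSubgroup_iff] at hgf
        refine ⟨_, ⟨⟨⟨n, ?_⟩, hn⟩, rfl⟩, rfl⟩
        rw [mem_fixingSubgroup_iff]
        exact hgf
      · rintro ⟨_, ⟨⟨⟨n, hnf⟩, hn⟩, rfl⟩, rfl⟩
        rw [mem_fixingSubgroup_iff] at hnf
        refine ⟨⟨⟨n, ⟨n, hn, rfl⟩⟩, ?_⟩, rfl⟩
        rw [mem_fixingSubgroup_iff]
        exact hnf
    rw [himg, Nat.card_coe_set_eq, Set.ncard_image_of_injective _ Subtype.val_injective]
    intro h2
    have h3 := h2.trans hdvd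
    rw [Nat.odd_iff] at hodd
    omega
  -- transitivity of N'_Γ
  have htrans : ∀ c d, c ∉ Γ → d ∉ Γ → d ∈ orbit (fixingSubgroup N' (Γ : Set α)) c := by
    intro c d hc hd
    by_contra hcd
    obtain ⟨i, hi⟩ := Cfsg.Agent.S0706.result N' (k := 2) (by omega) hgen Nat.prime_two le_rfl Γ hΓ
      ![c, d] (by
        intro i
        fin_cases i
        · exact hc
        · exact hd) (by
        intro i j hij
        fin_cases i <;> fin_cases j
        · exact absurd rfl hij
        · exact hcd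
        · intro h
          exact hcd (orbit_eq_iff.1 (orbit_eq_iff.2 h).symm)
        · exact absurd rfl hij)
    fin_cases i
    · exact horb c hc hi
    · exact horb d hd hi
  -- conclusion
  let e : Fin 2 ↪ α := ⟨![a, b], by
    intro i j hij
    fin_cases i <;> fin_cases j
    · rfl
    · exact absurd hij hab
    · exact absurd hij (Ne.symm hab)
    · rfl⟩
  have hrange : Set.range e = (Γ : Set α) := by
    ext x
    simp only [Set.mem_range, Finset.coe_insert, Finset.coe_singleton, Set.mem_insert_iff,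
      Set.mem_singleton_iff, Γ]
    constructor
    · rintro ⟨i, rfl⟩
      fin_cases i
      · exact Or.inl rfl
      · exact Or.inr rfl
    · rintro (rfl | rfl)
      · exact ⟨0, rfl⟩
      · exact ⟨1, rfl⟩
  have hstage := H15.Stage.stage (G := N) (m := 2) (k := 1) hNt e (by
    rw [hrange, is_one_pretransitive_iff]
    constructor
    rintro ⟨x, hx⟩ ⟨y, hy⟩
    rw [mem_ofFixingSubgroup_iff] at hx hy
    obtain ⟨⟨⟨g, hg⟩, hgf⟩, hgx⟩ := htrans x y hx hy
    obtain ⟨n, hn, rfl⟩ := hg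
    rw [mem_fixingSubgroup_iff] at hgf
    refine ⟨⟨⟨n, hn⟩, ?_⟩, Subtype.ext hgx⟩
    rw [mem_fixingSubgroup_iff]
    exact hgf)
  exact hstage

end Cfsg.Agent.S0699
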