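import Cfsg.Statements.S0700
import Cfsg.Agent.Lib.H15.Burnside

set_option autoImplicit false
open Cfsg

namespace Cfsg.Agent.S0700

/-- Burnside's Theorem on doubly transitive groups: a minimal normal subgroup of a finite doubly transitive permutation group is elementary abelian and regular, or simple and primitive. -/
theorem result {α : Type*} [Fintype α] [DecidableEq α] (G : Subgroup (Equiv.Perm α)) (hG : MulAction.IsMultiplyPretransitive G α 2) (N : Subgroup G) [N.Normal] (hN : N ≠ ⊥) (hmin : ∀ M : Subgroup G, M.Normal → M ≤ N → M = ⊥ ∨ M = N) : (IsMulCommutative N ∧ (∃ p : ℕ, p.Prime ∧ ∀ n ∈ N, n ^ p = 1) ∧ ∀ a : α, MulAction.stabilizer N a = ⊥) ∨ (IsSimpleGroup N ∧ MulAction.IsPreprimitive N α) := by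
  classical
  have hnt : Nontrivial α := by
    by_contra hcon
    rw [not_nontrivial_iff_subsingleton] at hcon
    apply hN
    rw [Subgroup.eq_bot_iff_forall]
    intro x _
    exact Subtype.ext (Subsingleton.elim _ _)
  have h2 : ∀ x y u v : α, x ≠ y → u ≠ v → ∃ g : G, g • x = u ∧ g • y = v := by
    intro x y u v hxy huv
    exact MulAction.is_two_pretransitive_iff.1 hG hxy huv
  by_cases hc : ∀ a ∈ N, ∀ b ∈ N, a * b = b * a
  · left
    have hcomm : IsMulCommutative N := ⟨⟨fun a b => Subtype.ext (hc a a.2 b b.2)⟩⟩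
    have htr := H15.Jordan.transitive_of_normal (H15.Burnside.primitive h2) N hN
    refine ⟨hcomm, ?_, ?_⟩
    · have hntN : Nontrivial N := (Subgroup.nontrivial_iff_ne_bot N).2 hN
      obtain ⟨p, hp, hpN⟩ := Nat.exists_prime_and_dvd (Finite.one_lt_card (α := N)).ne'
      have hF : Fact p.Prime := ⟨hp⟩
      refine ⟨p, hp, ?_⟩
      let M : Subgroup G :=
        { carrier := {x | x ∈ N ∧ x ^ p = 1}
          mul_mem' := by
            rintro x y ⟨hx, hx1⟩ ⟨hy, hy1⟩
            exact ⟨N.mul_mem hx hy, by rw [(show Commute x y from hc x hx y hy).mul_pow, hx1, hy1, one_mul]⟩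
          one_mem' := ⟨N.one_mem, one_pow p⟩
          inv_mem' := by
            rintro x ⟨hx, hx1⟩
            exact ⟨N.inv_mem hx, by rw [inv_pow, hx1, inv_one]⟩ }
      have hM : M.Normal := by
        constructor
        rintro x ⟨hx, hx1⟩ g
        exact ⟨‹N.Normal›.conj_mem x hx g, by rw [conj_pow, hx1]; simp⟩
      rcases hmin M hM (fun x hx => hx.1) with h | h
      · exfalso
        obtain ⟨x, hx⟩ := exists_prime_orderOf_dvd_card' p hpN
        have h1 : (x : G) ∈ M := ⟨x.2, by
          rw [← Subgroup.coe_pow, ← hx, pow_orderOf_eq_one, Subgroup.coe_one]⟩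
        rw [h, Subgroup.mem_bot] at h1
        have h2 : x = 1 := Subtype.ext h1
        rw [h2, orderOf_one] at hx
        exact hp.one_lt.ne hx
      · intro n hn
        rw [← h] at hn
        exact hn.2
    · intro a
      rw [Subgroup.eq_bot_iff_forall]
      intro x hx
      have h3 := H15.Burnside.eq_one_of_comm (M := N) (X := α) (fun x y => by
        obtain ⟨m, hm⟩ := MulAction.exists_smul_eq N x y
        exact ⟨m, m.2, hm⟩) (c := (x : G)) (fun m hm => hc x x.2 m hm) (a := a) hx
      exact Subtype.ext h3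
  · right
    exact ⟨H15.Burnside.simple_of_nonabelian N h2 hmin hN hc,
      H15.Burnside.primitive_of_nonabelian N h2 hmin hN hc⟩

end Cfsg.Agent.S0700
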