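import Cfsg.Statements.S0701
import Cfsg.Agent.Lib.H15.Cent

set_option autoImplicit false
open Cfsg

namespace Cfsg.Agent.S0701

/-- The centraliser in the full symmetric group of a transitive permutation group `G` is semiregular, and it is transitive if and only if `G` is regular. -/
theorem result {α : Type*} (G : Subgroup (Equiv.Perm α)) [MulAction.IsPretransitive G α] : (∀ c ∈ Subgroup.centralizer (G : Set (Equiv.Perm α)), ∀ a : α, c a = a → c = 1) ∧ (MulAction.IsPretransitive (Subgroup.centralizer (G : Set (Equiv.Perm α))) α ↔ ∀ a : α, MulAction.stabilizer G a = ⊥) := by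
  refine ⟨fun c hc a h => H15.Cent.eq_one_of_fix G inferInstance hc h, ?_, ?_⟩
  · intro ht a
    rw [eq_bot_iff]
    intro g hg
    rw [MulAction.mem_stabilizer_iff] at hg
    rw [Subgroup.mem_bot]
    ext b
    obtain ⟨c, rfl⟩ := MulAction.exists_smul_eq
      (Subgroup.centralizer (G : Set (Equiv.Perm α))) a b
    have h := H15.Cent.commute_apply c.2 g a
    rw [hg] at h
    exact h.symm
  · intro h
    refine ⟨fun a b => ?_⟩
    have h1 : ∀ g : G, g • a = a ↔ g • b = b := by
      intro g
      rw [← MulAction.mem_stabilizer_iff, ← MulAction.mem_stabilizer_iff, h a, h b]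
    obtain ⟨c, hc, hcb⟩ := H15.Cent.exists_map G inferInstance h1
    exact ⟨⟨c, hc⟩, hcb⟩

end Cfsg.Agent.S0701
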