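import Cfsg.Statements.S0702
import Cfsg.Agent.Lib.H15.Cent

set_option autoImplicit false
open Cfsg

namespace Cfsg.Agent.S0702

/-- For a transitive permutation group `G` on a finite set, the centraliser of `G` in the symmetric group is isomorphic to `N_G(G_ω)/G_ω`, and its orbit of `ω` is the set of fixed points of `G_ω`. -/
theorem result {α : Type*} [Finite α] (G : Subgroup (Equiv.Perm α)) [MulAction.IsPretransitive G α] (a : α) : Nonempty (Subgroup.centralizer (G : Set (Equiv.Perm α)) ≃* Subgroup.normalizer ((MulAction.stabilizer G a : Subgroup G) : Set G) ⧸ (MulAction.stabilizer G a).subgroupOf (Subgroup.normalizer ((MulAction.stabilizer G a : Subgroup G) : Set G))) ∧ MulAction.orbit (Subgroup.centralizer (G : Set (Equiv.Perm α))) a = MulAction.fixedPoints (MulAction.stabilizer G a) α := by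
  classical
  have hC := fun (c : Equiv.Perm α) (hc : c ∈ Subgroup.centralizer (G : Set (Equiv.Perm α))) (x : α)
    (h : c x = x) => H15.Cent.eq_one_of_fix G inferInstance hc h
  have hstab : ∀ c ∈ Subgroup.centralizer (G : Set (Equiv.Perm α)), ∀ (x : α) (g : G),
      g • x = x ↔ g • (c x) = c x := by
    intro c hc x g
    rw [← H15.Cent.commute_apply hc g x]
    exact (Equiv.apply_eq_iff_eq c).symm
  refine ⟨?_, ?_⟩
  · set C := Subgroup.centralizer (G : Set (Equiv.Perm α)) with hCdef
    set N := Subgroup.normalizer ((MulAction.stabilizer G a : Subgroup G) : Set G) with hN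
    choose θ hθ using fun c : C => MulAction.exists_smul_eq G ((c : Equiv.Perm α) a) a
    have hθN : ∀ c : C, θ c ∈ N := by
      intro c
      rw [hN, Subgroup.mem_normalizer_iff]
      intro g
      simp only [MulAction.mem_stabilizer_iff]
      rw [hstab c.1 c.2 a g]
      have h1 : (c : Equiv.Perm α) a = (θ c)⁻¹ • a := by
        rw [eq_inv_smul_iff]; exact hθ c
      rw [h1, smul_smul, eq_inv_smul_iff, smul_smul, mul_assoc]
    have hmem : ∀ (x y : N), (x : G) • a = (y : G) • a →
        (QuotientGroup.mk x : N ⧸ (MulAction.stabilizer G a).subgroupOf N) = QuotientGroup.mk y := by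
      intro x y h
      rw [QuotientGroup.eq, Subgroup.mem_subgroupOf, MulAction.mem_stabilizer_iff]
      simp only [Subgroup.coe_mul, Subgroup.coe_inv]
      rw [mul_smul, ← h, inv_smul_smul]
    have hmem' : ∀ (x y : N), (QuotientGroup.mk x : N ⧸ (MulAction.stabilizer G a).subgroupOf N) =
        QuotientGroup.mk y → (x : G) • a = (y : G) • a := by
      intro x y h
      rw [QuotientGroup.eq, Subgroup.mem_subgroupOf, MulAction.mem_stabilizer_iff] at h
      simp only [Subgroup.coe_mul, Subgroup.coe_inv] at h
      rw [mul_smul, inv_smul_eq_iff] at h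
      exact h.symm
    have hnorm : ∀ (x y : N), (x : G)⁻¹ • a = (y : G)⁻¹ • a →
        (QuotientGroup.mk x : N ⧸ (MulAction.stabilizer G a).subgroupOf N) = QuotientGroup.mk y := by
      intro x y h
      have h2 := hmem x⁻¹ y⁻¹ (by simpa using h)
      rw [QuotientGroup.mk_inv, QuotientGroup.mk_inv] at h2
      exact inv_injective h2
    have hinv : ∀ c : C, (θ c)⁻¹ • a = (c : Equiv.Perm α) a := by
      intro c
      rw [inv_smul_eq_iff]; exact (hθ c).symm
    let f : C →* N ⧸ (MulAction.stabilizer G a).subgroupOf N :=
      { toFun := fun c => QuotientGroup.mk ⟨θ c, hθN c⟩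
        map_one' := by
          rw [← QuotientGroup.mk_one]
          apply hnorm
          simp only [Subgroup.coe_one, inv_one, one_smul]
          rw [hinv]; rfl
        map_mul' := by
          intro c d
          rw [← QuotientGroup.mk_mul]
          apply hnorm
          simp only [Subgroup.coe_mul, mul_inv_rev]
          rw [hinv, mul_smul, hinv, ← H15.Cent.commute_apply c.2, hinv]
          have : (θ d)⁻¹ • (c : Equiv.Perm α) a = (c : Equiv.Perm α) ((θ d)⁻¹ • a) :=
            (H15.Cent.commute_apply c.2 _ _).symm
          rw [Subgroup.coe_mul, Equiv.Perm.mul_apply] }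
    have hf : ∀ c, f c = QuotientGroup.mk ⟨θ c, hθN c⟩ := fun c => rfl
    refine ⟨MulEquiv.ofBijective f ⟨?_, ?_⟩⟩
    · rw [injective_iff_map_eq_one]
      intro c hc
      rw [hf, QuotientGroup.eq_one_iff, Subgroup.mem_subgroupOf, MulAction.mem_stabilizer_iff] at hc
      have h1 : (c : Equiv.Perm α) a = a := by
        rw [← hinv, inv_smul_eq_iff]; exact hc.symm
      exact Subtype.ext (hC _ c.2 a h1)
    · intro y
      obtain ⟨n, rfl⟩ := QuotientGroup.mk_surjective y
      have hn := n.2
      rw [Subgroup.mem_normalizer_iff] at hn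
      have h1 : ∀ g : G, g • a = a ↔ g • ((n : G)⁻¹ • a) = (n : G)⁻¹ • a := by
        intro g
        have h2 := hn g
        simp only [MulAction.mem_stabilizer_iff] at h2
        rw [h2, smul_smul, eq_inv_smul_iff, smul_smul, mul_assoc]
      obtain ⟨c, hc, hcb⟩ := H15.Cent.exists_map G inferInstance h1
      refine ⟨⟨c, hc⟩, ?_⟩
      rw [hf]
      apply hnorm
      rw [hinv]
      exact hcb
  · ext b
    rw [MulAction.mem_fixedPoints]
    constructor
    · rintro ⟨c, rfl⟩ g
      exact (hstab c.1 c.2 a g).1 g.2
    · intro hb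
      have hle : MulAction.stabilizer G a ≤ MulAction.stabilizer G b := by
        intro g hg
        exact hb ⟨g, hg⟩
      have heq : MulAction.stabilizer G a = MulAction.stabilizer G b := by
        apply Subgroup.eq_of_le_of_card_ge hle
        obtain ⟨g, rfl⟩ := MulAction.exists_smul_eq G a b
        rw [MulAction.stabilizer_smul_eq_stabilizer_map_conj]
        rw [Subgroup.card_map_of_injective]
        exact (MulAut.conj g).injective
      have h1 : ∀ g : G, g • a = a ↔ g • b = b := by
        intro g
        rw [← MulAction.mem_stabilizer_iff, ← MulAction.mem_stabilizer_iff, heq]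
      obtain ⟨c, hc, hcb⟩ := H15.Cent.exists_map G inferInstance h1
      exact ⟨⟨c, hc⟩, hcb⟩

end Cfsg.Agent.S0702
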