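import Cfsg.Statements.S0703
import Cfsg.Agent.Lib.H15.Cent

set_option autoImplicit false
open Cfsg

namespace Cfsg.Agent.S0703

/-- An abelian transitive minimal normal subgroup `M` of a permutation group on a finite set is self-centralising in the symmetric group, regular, elementary abelian, and is the unique minimal normal subgroup. -/
theorem result {α : Type*} [Finite α] (G : Subgroup (Equiv.Perm α)) (M : Subgroup G) [M.Normal] (hM : M ≠ ⊥) (hmin : ∀ L : Subgroup G, L.Normal → L ≤ M → L = ⊥ ∨ L = M) (hab : IsMulCommutative M) (htrans : MulAction.IsPretransitive M α) : Subgroup.centralizer ((M.map G.subtype : Subgroup (Equiv.Perm α)) : Set (Equiv.Perm α)) = M.map G.subtype ∧ (∀ a : α, MulAction.stabilizer M a = ⊥) ∧ (∃ p : ℕ, p.Prime ∧ ∀ m ∈ M, m ^ p = 1) ∧ ∀ L : Subgroup G, L.Normal → L ≠ ⊥ → (∀ L' : Subgroup G, L'.Normal → L' ≤ L → L' = ⊥ ∨ L' = L) → L = M := by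
  classical
  set M' : Subgroup (Equiv.Perm α) := M.map G.subtype with hM'
  have ht' : MulAction.IsPretransitive M' α := by
    refine ⟨fun x y => ?_⟩
    obtain ⟨m, hm⟩ := MulAction.exists_smul_eq M x y
    exact ⟨⟨(m : G), Subgroup.mem_map_of_mem G.subtype m.2⟩, hm⟩
  have hne : Nonempty α := by
    by_contra hcon
    rw [not_nonempty_iff] at hcon
    apply hM
    rw [eq_bot_iff]
    intro m _
    rw [Subgroup.mem_bot]
    apply Subtype.ext
    exact Subsingleton.elim _ _
  have hcomm : ∀ x ∈ M, ∀ y ∈ M, x * y = y * x := by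
    intro x hx y hy
    have := hab.is_comm.comm ⟨x, hx⟩ ⟨y, hy⟩
    exact congrArg Subtype.val this
  have hle : M' ≤ Subgroup.centralizer (M' : Set (Equiv.Perm α)) := by
    rintro _ ⟨m, hm, rfl⟩
    rw [Subgroup.mem_centralizer_iff]
    rintro _ ⟨n, hn, rfl⟩
    have := hcomm n hn m hm
    exact congrArg G.subtype this
  have hcent : Subgroup.centralizer (M' : Set (Equiv.Perm α)) = M' :=
    (H15.Cent.eq_of_le_of_transitive hle ht'
      (fun c hc a h => H15.Cent.eq_one_of_fix M' ht' hc h)).symm
  refine ⟨hcent, ?_, ?_, ?_⟩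
  · intro a
    rw [eq_bot_iff]
    intro m hm
    rw [Subgroup.mem_bot]
    have h1 : G.subtype (m : G) ∈ M' := Subgroup.mem_map_of_mem G.subtype m.2
    have h2 := H15.Cent.eq_one_of_fix M' ht' (hle h1) (a := a) hm
    apply Subtype.ext
    apply Subtype.ext
    exact h2
  · have hcard : Nat.card M ≠ 1 := by
      intro h
      exact hM (Subgroup.card_eq_one.1 h)
    obtain ⟨p, hp, hdvd⟩ := Nat.exists_prime_and_dvd hcard
    haveI := Fact.mk hp
    refine ⟨p, hp, ?_⟩
    let L : Subgroup G :=
      { carrier := {m | m ∈ M ∧ m ^ p = 1}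
        one_mem' := ⟨M.one_mem, one_pow p⟩
        mul_mem' := by
          rintro x y ⟨hx, hx'⟩ ⟨hy, hy'⟩
          refine ⟨M.mul_mem hx hy, ?_⟩
          have hc : Commute x y := hcomm x hx y hy
          rw [hc.mul_pow, hx', hy', one_mul]
        inv_mem' := by
          rintro x ⟨hx, hx'⟩
          exact ⟨M.inv_mem hx, by rw [inv_pow, hx', inv_one]⟩ }
    have hL : ∀ x, x ∈ L ↔ x ∈ M ∧ x ^ p = 1 := fun x => Iff.rfl
    have hLn : L.Normal := by
      refine ⟨fun x hx g => ?_⟩
      rw [hL] at hx ⊢
      refine ⟨Subgroup.Normal.conj_mem inferInstance _ hx.1 _, ?_⟩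
      rw [conj_pow, hx.2, mul_one, mul_inv_cancel]
    obtain ⟨x, hx⟩ := exists_prime_orderOf_dvd_card' p hdvd
    rcases hmin L hLn (fun x hx => hx.1) with h | h
    · exfalso
      have hxL : (x : G) ∈ L := by
        rw [hL]
        refine ⟨x.2, ?_⟩
        have := pow_orderOf_eq_one x
        rw [hx] at this
        exact congrArg Subtype.val this
      rw [h, Subgroup.mem_bot] at hxL
      have : x = 1 := Subtype.ext hxL
      rw [this, orderOf_one] at hx
      exact hp.one_lt.ne hx
    · intro m hm
      rw [← h] at hm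
      exact hm.2
  · intro L hLn hL hLmin
    by_contra hne'
    have h1 : (L ⊓ M).Normal := inferInstance
    rcases hmin (L ⊓ M) h1 inf_le_right with h | h
    · have hle' : L.map G.subtype ≤ Subgroup.centralizer (M' : Set (Equiv.Perm α)) := by
        rintro _ ⟨l, hl, rfl⟩
        rw [Subgroup.mem_centralizer_iff]
        rintro _ ⟨m, hm, rfl⟩
        have := Subgroup.commute_of_normal_of_disjoint M L inferInstance hLn
          (by rw [disjoint_iff, inf_comm]; exact h) m l hm hl
        exact congrArg G.subtype this.eq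
      rw [hcent] at hle'
      have hle2 : L ≤ M := by
        intro l hl
        obtain ⟨m, hm, hml⟩ := hle' (Subgroup.mem_map_of_mem G.subtype hl)
        rw [← G.subtype_injective hml]
        exact hm
      rw [inf_eq_left.2 hle2] at h
      exact hL h
    · have hle2 : M ≤ L := by rw [← h]; exact inf_le_left
      rcases hLmin M inferInstance hle2 with h2 | h2
      · exact hM h2
      · exact hne' h2.symm

end Cfsg.Agent.S0703
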