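import Cfsg.Statements.S0704
import Cfsg.Agent.Lib.H15.Cent

set_option autoImplicit false
open Cfsg

namespace Cfsg.Agent.S0704

/-- Two distinct transitive minimal normal subgroups `M`, `N` of a permutation group are regular, non-abelian, isomorphic, each other's centraliser in the symmetric group, and the only minimal normal subgroups. -/
theorem result {α : Type*} (G : Subgroup (Equiv.Perm α)) (M N : Subgroup G) [M.Normal] [N.Normal] (hM : M ≠ ⊥) (hN : N ≠ ⊥) (hMmin : ∀ L : Subgroup G, L.Normal → L ≤ M → L = ⊥ ∨ L = M) (hNmin : ∀ L : Subgroup G, L.Normal → L ≤ N → L = ⊥ ∨ L = N) (hMN : M ≠ N) (hMt : MulAction.IsPretransitive M α) (hNt : MulAction.IsPretransitive N α) : (∀ a : α, MulAction.stabilizer M a = ⊥) ∧ (∀ a : α, MulAction.stabilizer N a = ⊥) ∧ ¬ IsMulCommutative M ∧ Nonempty (M ≃* N) ∧ Subgroup.centralizer ((M.map G.subtype : Subgroup (Equiv.Perm α)) : Set (Equiv.Perm α)) = N.map G.subtype ∧ Subgroup.centralizer ((N.map G.subtype : Subgroup (Equiv.Perm α)) : Set (Equiv.Perm α)) = M.map G.subtype ∧ ∀ L : Subgroup G, L.Normal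 → L ≠ ⊥ → (∀ L' : Subgroup G, L'.Normal → L' ≤ L → L' = ⊥ ∨ L' = L) → L = M ∨ L = N := by
  classical
  have hne : Nonempty α := by
    by_contra hcon
    rw [not_nonempty_iff] at hcon
    apply hM
    rw [eq_bot_iff]
    intro m _
    rw [Subgroup.mem_bot]
    apply Subtype.ext
    exact Subsingleton.elim _ _
  have tr : ∀ K : Subgroup G, MulAction.IsPretransitive K α →
      MulAction.IsPretransitive (K.map G.subtype) α := by
    intro K hK
    refine ⟨fun x y => ?_⟩
    obtain ⟨m, hm⟩ := MulAction.exists_smul_eq K x y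
    exact ⟨⟨(m : G), Subgroup.mem_map_of_mem G.subtype m.2⟩, hm⟩
  have hMt' := tr M hMt
  have hNt' := tr N hNt
  -- disjoint normal subgroups commute
  have comm : ∀ K L : Subgroup G, K.Normal → L.Normal → K ⊓ L = ⊥ →
      L.map G.subtype ≤ Subgroup.centralizer ((K.map G.subtype : Subgroup (Equiv.Perm α)) :
        Set (Equiv.Perm α)) := by
    intro K L hK hL h
    rintro _ ⟨l, hl, rfl⟩
    rw [Subgroup.mem_centralizer_iff]
    rintro _ ⟨m, hm, rfl⟩
    have := Subgroup.commute_of_normal_of_disjoint K L hK hL
      (by rw [disjoint_iff]; exact h) m l hm hl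
    exact congrArg G.subtype this.eq
  have hMN0 : M ⊓ N = ⊥ := by
    rcases hMmin (M ⊓ N) inferInstance inf_le_left with h | h
    · exact h
    · exfalso
      have h1 : M ≤ N := by rw [← h]; exact inf_le_right
      rcases hNmin M inferInstance h1 with h2 | h2
      · exact hM h2
      · exact hMN h2
  have hNM0 : N ⊓ M = ⊥ := by rw [inf_comm]; exact hMN0
  have semi : ∀ K : Subgroup G, MulAction.IsPretransitive K α →
      ∀ c ∈ Subgroup.centralizer ((K.map G.subtype : Subgroup (Equiv.Perm α)) :
        Set (Equiv.Perm α)), ∀ a : α, c a = a → c = 1 := by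
    intro K hK c hc a h
    exact H15.Cent.eq_one_of_fix _ (tr K hK) hc h
  have hcN : Subgroup.centralizer ((M.map G.subtype : Subgroup (Equiv.Perm α)) :
      Set (Equiv.Perm α)) = N.map G.subtype :=
    (H15.Cent.eq_of_le_of_transitive (comm M N inferInstance inferInstance hMN0) hNt'
      (semi M hMt)).symm
  have hcM : Subgroup.centralizer ((N.map G.subtype : Subgroup (Equiv.Perm α)) :
      Set (Equiv.Perm α)) = M.map G.subtype :=
    (H15.Cent.eq_of_le_of_transitive (comm N M inferInstance inferInstance hNM0) hMt'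
      (semi N hNt)).symm
  have hregM : ∀ m ∈ M, ∀ a : α, (m : Equiv.Perm α) a = a → m = 1 := by
    intro m hm a h
    have h1 : G.subtype m ∈ M.map G.subtype := Subgroup.mem_map_of_mem G.subtype hm
    rw [← hcM] at h1
    exact Subtype.ext (semi N hNt _ h1 a h)
  have hregN : ∀ m ∈ N, ∀ a : α, (m : Equiv.Perm α) a = a → m = 1 := by
    intro m hm a h
    have h1 : G.subtype m ∈ N.map G.subtype := Subgroup.mem_map_of_mem G.subtype hm
    rw [← hcN] at h1
    exact Subtype.ext (semi M hMt _ h1 a h)
  refine ⟨?_, ?_, ?_, ?_, hcN, hcM, ?_⟩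
  · intro a
    rw [eq_bot_iff]
    intro m hm
    exact Subtype.ext (hregM m m.2 a hm)
  · intro a
    rw [eq_bot_iff]
    intro m hm
    exact Subtype.ext (hregN m m.2 a hm)
  · intro hab
    have hle : M ≤ N := by
      intro m hm
      have h1 : G.subtype m ∈ Subgroup.centralizer ((M.map G.subtype : Subgroup (Equiv.Perm α)) :
          Set (Equiv.Perm α)) := by
        rw [Subgroup.mem_centralizer_iff]
        rintro _ ⟨n, hn, rfl⟩
        have := congrArg Subtype.val (hab.is_comm.comm ⟨n, hn⟩ ⟨m, hm⟩)
        exact congrArg G.subtype this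
      rw [hcN] at h1
      obtain ⟨n, hn, hnm⟩ := h1
      rw [← G.subtype_injective hnm]; exact hn
    rw [inf_eq_left.2 hle] at hMN0
    exact hM hMN0
  · obtain ⟨a⟩ := hne
    -- for `m : M` there is a unique `n : N` with `n • (m • a) = a`
    choose θ hθ using fun m : M => MulAction.exists_smul_eq N (m • a) a
    have hcomm : ∀ (m : M) (n : N) (x : α), m • (n • x) = n • (m • x) := by
      intro m n x
      have h1 := comm M N inferInstance inferInstance hMN0
        (Subgroup.mem_map_of_mem G.subtype n.2)
      rw [Subgroup.mem_centralizer_iff] at h1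
      have h2 := h1 _ (Subgroup.mem_map_of_mem G.subtype m.2)
      exact congrArg (fun f : Equiv.Perm α => f x) h2
    have hNuniq : ∀ n n' : N, ∀ x : α, n • x = n' • x → n = n' := by
      intro n n' x h
      have h1 : (n'⁻¹ * n) • x = x := by rw [mul_smul, h, inv_smul_smul]
      have h2 := hregN _ (n'⁻¹ * n).2 x h1
      have h3 : n'⁻¹ * n = 1 := Subtype.ext h2
      exact (inv_mul_eq_one.1 h3).symm
    have hMuniq : ∀ n n' : M, ∀ x : α, n • x = n' • x → n = n' := by
      intro n n' x h
      have h1 : (n'⁻¹ * n) • x = x := by rw [mul_smul, h, inv_smul_smul]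
      have h2 := hregM _ (n'⁻¹ * n).2 x h1
      have h3 : n'⁻¹ * n = 1 := Subtype.ext h2
      exact (inv_mul_eq_one.1 h3).symm
    let f : M →* N :=
      { toFun := θ
        map_one' := by
          apply hNuniq _ _ a
          have := hθ 1
          rw [one_smul] at this
          rw [this, one_smul]
        map_mul' := by
          intro m m'
          apply hNuniq _ _ ((m * m') • a)
          rw [hθ, mul_smul, mul_smul, ← hcomm m (θ m'), hθ, hθ] }
    refine ⟨MulEquiv.ofBijective f ⟨?_, ?_⟩⟩
    · intro m m' h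
      have h' : θ m = θ m' := h
      apply hMuniq _ _ a
      have h1 := (hθ m).trans (hθ m').symm
      rw [h'] at h1
      exact smul_left_cancel _ h1
    · intro n
      obtain ⟨m, hm⟩ := MulAction.exists_smul_eq M a (n⁻¹ • a)
      refine ⟨m, ?_⟩
      change θ m = n
      apply hNuniq _ _ (m • a)
      rw [hθ, hm, smul_inv_smul]
  · intro L hLn hL hLmin
    by_cases hLM : L = M
    · exact Or.inl hLM
    right
    have h0 : M ⊓ L = ⊥ := by
      rcases hMmin (M ⊓ L) inferInstance inf_le_left with h | h
      · exact h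
      · exfalso
        have h1 : M ≤ L := by rw [← h]; exact inf_le_right
        rcases hLmin M inferInstance h1 with h2 | h2
        · exact hM h2
        · exact hLM h2.symm
    have h1 := comm M L inferInstance hLn h0
    rw [hcN] at h1
    have h2 : L ≤ N := by
      intro l hl
      obtain ⟨m, hm, hml⟩ := h1 (Subgroup.mem_map_of_mem G.subtype hl)
      rw [← G.subtype_injective hml]
      exact hm
    rcases hNmin L hLn h2 with h | h
    · exact absurd h hL
    · exact h

end Cfsg.Agent.S0704
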