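import Cfsg.Statements.S0707
import Mathlib

set_option autoImplicit false
open Cfsg

namespace Cfsg.Agent.S0707

/-- In a primitive permutation group, distinct points have distinct stabilisers unless the group is regular of prime degree. -/
theorem result {α : Type*} (G : Subgroup (Equiv.Perm α)) [MulAction.IsPreprimitive G α] (h : ¬ (Nat.card α).Prime ∨ ∃ a : α, MulAction.stabilizer G a ≠ ⊥) {a b : α} (hab : a ≠ b) : MulAction.stabilizer G a ≠ MulAction.stabilizer G b := by
  intro heq
  -- the set of points with the same stabiliser
  have hblock : MulAction.IsBlock G {x : α | MulAction.stabilizer G x = MulAction.stabilizer G a} := by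
    rw [MulAction.isBlock_iff_smul_eq_of_nonempty]
    rintro g ⟨y, hy1, hy2⟩
    obtain ⟨x, hx, rfl⟩ := hy1
    simp only [Set.mem_ofPred_eq] at hx hy2
    have hgen : ∀ z : α, MulAction.stabilizer G (g • z) = (MulAction.stabilizer G z).map
      (MulAut.conj g).toMonoidHom := fun z => MulAction.stabilizer_smul_eq_stabilizer_map_conj g z
    ext z
    constructor
    · rintro ⟨w, hw, rfl⟩
      simp only [Set.mem_ofPred_eq] at hw ⊢
      change MulAction.stabilizer G (g • w) = _
      calc MulAction.stabilizer G (g • w)
          = (MulAction.stabilizer G a).map (MulAut.conj g).toMonoidHom := by rw [hgen, hw]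
        _ = MulAction.stabilizer G (g • x) := by rw [hgen, hx]
        _ = _ := hy2
    · intro hz
      simp only [Set.mem_ofPred_eq] at hz
      refine ⟨g⁻¹ • z, ?_, by simp⟩
      simp only [Set.mem_ofPred_eq]
      have h1 : (MulAction.stabilizer G (g⁻¹ • z)).map (MulAut.conj g).toMonoidHom =
          (MulAction.stabilizer G a).map (MulAut.conj g).toMonoidHom := by
        have e := hgen x
        rw [hy2, hx] at e
        rw [← hgen, smul_inv_smul, hz]
        exact e
      exact Subgroup.map_injective (MulAut.conj g).injective h1
  have htriv := MulAction.IsPreprimitive.isTrivialBlock_of_isBlock hblock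
  have hall : ∀ x : α, MulAction.stabilizer G x = MulAction.stabilizer G a := by
    rcases htriv with h | h
    · exfalso
      have h1 : a ∈ {x : α | MulAction.stabilizer G x = MulAction.stabilizer G a} := rfl
      have h2 : b ∈ {x : α | MulAction.stabilizer G x = MulAction.stabilizer G a} := heq.symm
      exact hab (h h1 h2)
    · intro x
      have : x ∈ {x : α | MulAction.stabilizer G x = MulAction.stabilizer G a} := by
        rw [h]; trivial
      exact this
  have hbot : ∀ x : α, MulAction.stabilizer G x = ⊥ := by
    intro x
    rw [eq_bot_iff]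
    intro g hg
    rw [Subgroup.mem_bot]
    apply Subtype.ext
    ext y
    rw [hall x, ← hall y] at hg
    exact hg
  rcases h with h | ⟨x, hx⟩
  swap
  · exact hx (hbot x)
  -- regular and primitive
  apply h
  have hnt : Nontrivial α := ⟨a, b, hab⟩
  have hcoatom : IsCoatom (MulAction.stabilizer G a) :=
    (MulAction.isCoatom_stabilizer_iff_preprimitive G a).2 inferInstance
  rw [hbot a] at hcoatom
  -- no proper subgroups
  have hsub : ∀ K : Subgroup G, K = ⊥ ∨ K = ⊤ := by
    intro K
    by_cases hK : K = ⊥
    · exact Or.inl hK
    · exact Or.inr (hcoatom.2 K (bot_lt_iff_ne_bot.2 hK))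
  have hGnt : Nontrivial G := by
    rw [← Subgroup.nontrivial_iff]
    exact ⟨⊥, ⊤, hcoatom.1⟩
  obtain ⟨g, hg⟩ := exists_ne (1 : G)
  have hz : Subgroup.zpowers g = ⊤ := by
    rcases hsub (Subgroup.zpowers g) with h1 | h1
    · rw [Subgroup.zpowers_eq_bot] at h1; exact absurd h1 hg
    · exact h1
  have hcyc : IsCyclic G := ⟨g, fun x => by
    have : x ∈ Subgroup.zpowers g := by rw [hz]; trivial
    exact this⟩
  letI : CommGroup G := IsCyclic.commGroup
  have hsimple : IsSimpleGroup G := ⟨fun K _ => hsub K⟩
  have hp := IsSimpleGroup.prime_card (α := G)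
  have hcard : Nat.card G = Nat.card α := by
    apply Nat.card_congr
    refine Equiv.ofBijective (fun g : G => g • a) ⟨?_, ?_⟩
    · intro x y hxy
      have h1 : y⁻¹ * x ∈ MulAction.stabilizer G a := by
        rw [MulAction.mem_stabilizer_iff, mul_smul]
        simp only at hxy
        rw [hxy, inv_smul_smul]
      rw [hbot a, Subgroup.mem_bot] at h1
      exact (inv_mul_eq_one.1 h1).symm
    · intro y
      exact MulAction.exists_smul_eq G a y
  rw [← hcard]
  exact hp

end Cfsg.Agent.S0707
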