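import Cfsg.Statements.S0708
import Mathlib

set_option autoImplicit false
open Cfsg

namespace Cfsg.Agent.S0708

/-- four distinct points -/
def D4 {Ω : Type*} (a b c d : Ω) : Prop := a ≠ b ∧ a ≠ c ∧ a ≠ d ∧ b ≠ c ∧ b ≠ d ∧ c ≠ d

section tits

variable {G : Type*} [Group G] {Ω : Type*} [MulAction G Ω]

/-- the embedding given by four distinct points -/
def emb {a b c d : Ω} (h : D4 a b c d) : Fin 4 ↪ Ω :=
  ⟨![a, b, c, d], by
    obtain ⟨h1, h2, h3, h4, h5, h6⟩ := h
    intro i j hij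
    fin_cases i <;> fin_cases j <;> first | rfl | (exfalso; first
      | exact h1 hij | exact h2 hij | exact h3 hij | exact h4 hij | exact h5 hij | exact h6 hij
      | exact h1 hij.symm | exact h2 hij.symm | exact h3 hij.symm | exact h4 hij.symm
      | exact h5 hij.symm | exact h6 hij.symm)⟩

theorem ex4 (h4 : MulAction.IsMultiplyPretransitive G Ω 4) {a b c d a' b' c' d' : Ω}
    (h : D4 a b c d) (h' : D4 a' b' c' d') :
    ∃ g : G, g • a = a' ∧ g • b = b' ∧ g • c = c' ∧ g • d = d' := by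
  obtain ⟨g, hg⟩ := MulAction.exists_smul_eq G (emb h) (emb h')
  have key : ∀ i : Fin 4, g • (emb h i) = emb h' i := fun i =>
    congrArg (fun f : Fin 4 ↪ Ω => f i) hg
  exact ⟨g, key 0, key 1, key 2, key 3⟩

theorem un4 (hsharp : ∀ x : Fin 4 ↪ Ω, MulAction.stabilizer G x = ⊥) {g h : G} {a b c d : Ω}
    (hd : D4 a b c d) (ha : g • a = h • a) (hb : g • b = h • b) (hc : g • c = h • c)
    (hdd : g • d = h • d) : g = h := by
  have h1 : h⁻¹ * g ∈ MulAction.stabilizer G (emb hd) := by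
    rw [MulAction.mem_stabilizer_iff]
    ext i
    change (h⁻¹ * g) • (emb hd i) = emb hd i
    rw [mul_smul, inv_smul_eq_iff]
    fin_cases i
    · exact ha
    · exact hb
    · exact hc
    · exact hdd
  rw [hsharp, Subgroup.mem_bot, inv_mul_eq_one] at h1
  exact h1.symm

/-- the configuration: commuting involutions `x`, `t` -/
structure Conf (G : Type*) [Group G] (Ω : Type*) [MulAction G Ω] where
  h4 : MulAction.IsMultiplyPretransitive G Ω 4
  hs : ∀ x : Fin 4 ↪ Ω, MulAction.stabilizer G x = ⊥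
  p1 : Ω
  p2 : Ω
  p3 : Ω
  p4 : Ω
  hd : D4 p1 p2 p3 p4
  x : G
  t : G
  x1 : x • p1 = p2
  x2 : x • p2 = p1
  x3 : x • p3 = p4
  x4 : x • p4 = p3
  t1 : t • p1 = p2
  t2 : t • p2 = p1
  t3 : t • p3 = p3
  t4 : t • p4 = p4

namespace Conf

variable (C : Conf G Ω)

theorem one_of_fix {g : G} {a b c d : Ω} (h : D4 a b c d) (ha : g • a = a) (hb : g • b = b)
    (hc : g • c = c) (hd : g • d = d) (C : Conf G Ω) : g = 1 :=
  un4 C.hs h (by rw [ha, one_smul]) (by rw [hb, one_smul]) (by rw [hc, one_smul]) (by rw [hd, one_smul])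

theorem xx : C.x * C.x = 1 :=
  one_of_fix C.hd (by rw [mul_smul, C.x1, C.x2]) (by rw [mul_smul, C.x2, C.x1])
    (by rw [mul_smul, C.x3, C.x4]) (by rw [mul_smul, C.x4, C.x3]) C

theorem tt : C.t * C.t = 1 :=
  one_of_fix C.hd (by rw [mul_smul, C.t1, C.t2]) (by rw [mul_smul, C.t2, C.t1])
    (by rw [mul_smul, C.t3, C.t3]) (by rw [mul_smul, C.t4, C.t4]) C

theorem tx : C.t * C.x = C.x * C.t :=
  un4 C.hs C.hd (by simp only [mul_smul, C.x1, C.x2, C.t1, C.t2])
    (by simp only [mul_smul, C.x1, C.x2, C.t1, C.t2])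
    (by simp only [mul_smul, C.x3, C.x4, C.t3, C.t4])
    (by simp only [mul_smul, C.x3, C.x4, C.t3, C.t4])

theorem xne : C.x ≠ 1 := by
  intro h
  have := C.x1
  rw [h, one_smul] at this
  exact C.hd.1 this

theorem tne : C.t ≠ 1 := by
  intro h
  have := C.t1
  rw [h, one_smul] at this
  exact C.hd.1 this

/-- fixed points of `t` -/
theorem F1 {z : Ω} (hz : C.t • z = z) (h3 : z ≠ C.p3) (h4 : z ≠ C.p4) : C.x • z = z := by
  by_contra hcon
  apply C.tne
  refine one_of_fix (a := C.p3) (b := C.p4) (c := z) (d := C.x • z) ⟨C.hd.2.2.2.2.2, Ne.symm h3, ?_,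
    Ne.symm h4, ?_, Ne.symm hcon⟩ C.t3 C.t4 hz ?_ C
  · intro h
    apply h4
    rw [← C.x3, h, smul_smul, C.xx, one_smul]
  · intro h
    apply h3
    rw [← C.x4, h, smul_smul, C.xx, one_smul]
  · rw [smul_smul, C.tx, mul_smul, hz]

/-- fixed points of `t * x` -/
theorem F2 {z : Ω} (hz : (C.t * C.x) • z = z) (h1 : z ≠ C.p1) (h2 : z ≠ C.p2) : C.x • z = z := by
  by_contra hcon
  have hne : C.t * C.x ≠ 1 := by
    intro h
    have h3 : (C.t * C.x) • C.p3 = C.p3 := by rw [h, one_smul]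
    rw [mul_smul, C.x3, C.t4] at h3
    exact C.hd.2.2.2.2.2 h3.symm
  apply hne
  refine one_of_fix (a := C.p1) (b := C.p2) (c := z) (d := C.x • z) ⟨C.hd.1, Ne.symm h1, ?_,
    Ne.symm h2, ?_, Ne.symm hcon⟩ (by rw [mul_smul, C.x1, C.t2]) (by rw [mul_smul, C.x2, C.t1]) hz ?_ C
  · intro h
    apply h2
    rw [← C.x1, h, smul_smul, C.xx, one_smul]
  · intro h
    apply h1
    rw [← C.x2, h, smul_smul, C.xx, one_smul]
  · have h5 : (C.t * C.x) * C.x = C.x * (C.t * C.x) := by rw [← mul_assoc, ← C.tx]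
    rw [smul_smul, h5, mul_smul, hz]

/-- the centraliser of `⟨x, t⟩` -/
theorem centr {c : G} (hx : c * C.x = C.x * c) (ht : c * C.t = C.t * c) :
    c = 1 ∨ c = C.x ∨ c = C.t ∨ c = C.t * C.x := by
  have hx' : ∀ z : Ω, c • (C.x • z) = C.x • (c • z) := fun z => by rw [smul_smul, hx, mul_smul]
  have ht' : ∀ z : Ω, c • (C.t • z) = C.t • (c • z) := fun z => by rw [smul_smul, ht, mul_smul]
  have e3 : c • C.p3 = C.p3 ∨ c • C.p3 = C.p4 := by
    by_contra hcon
    push Not at hcon
    have h1 : C.t • (c • C.p3) = c • C.p3 := by rw [← ht', C.t3]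
    have h2 := C.F1 h1 hcon.1 hcon.2
    rw [← hx', C.x3] at h2
    exact C.hd.2.2.2.2.2 (smul_left_cancel c h2).symm
  have e1 : c • C.p1 = C.p1 ∨ c • C.p1 = C.p2 := by
    by_contra hcon
    push Not at hcon
    have h1 : (C.t * C.x) • (c • C.p1) = c • C.p1 := by
      rw [mul_smul, ← hx', ← ht', C.x1, C.t2]
    have h2 := C.F2 h1 hcon.1 hcon.2
    rw [← hx', C.x1] at h2
    exact C.hd.1 (smul_left_cancel c h2).symm
  have e4 : c • C.p4 = C.x • (c • C.p3) := by rw [← hx', C.x3]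
  have e2 : c • C.p2 = C.x • (c • C.p1) := by rw [← hx', C.x1]
  rcases e1 with e1 | e1 <;> rcases e3 with e3 | e3
  · left
    rw [e1, C.x1] at e2
    rw [e3, C.x3] at e4
    exact one_of_fix C.hd e1 e2 e3 e4 C
  · right; right; right
    rw [e1, C.x1] at e2
    rw [e3, C.x4] at e4
    exact un4 C.hs C.hd (by rw [e1, mul_smul, C.x1, C.t2]) (by rw [e2, mul_smul, C.x2, C.t1])
      (by rw [e3, mul_smul, C.x3, C.t4]) (by rw [e4, mul_smul, C.x4, C.t3])
  · right; right; left
    rw [e1, C.x2] at e2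
    rw [e3, C.x3] at e4
    exact un4 C.hs C.hd (by rw [e1, C.t1]) (by rw [e2, C.t2]) (by rw [e3, C.t3]) (by rw [e4, C.t4])
  · right; left
    rw [e1, C.x2] at e2
    rw [e3, C.x4] at e4
    exact un4 C.hs C.hd (by rw [e1, C.x1]) (by rw [e2, C.x2]) (by rw [e3, C.x3]) (by rw [e4, C.x4])

/-- regular points -/
def Reg (a : Ω) : Prop := C.x • a ≠ a ∧ C.t • a ≠ a ∧ (C.t * C.x) • a ≠ a

theorem xxs (z : Ω) : C.x • (C.x • z) = z := by rw [smul_smul, C.xx, one_smul]
theorem tts (z : Ω) : C.t • (C.t • z) = z := by rw [smul_smul, C.tt, one_smul]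
theorem xts (z : Ω) : C.x • (C.t • z) = C.t • (C.x • z) := by rw [smul_smul, ← C.tx, mul_smul]

theorem reg4 {a : Ω} (ha : C.Reg a) : D4 a (C.x • a) (C.t • a) (C.t • (C.x • a)) := by
  obtain ⟨h1, h2, h3⟩ := ha
  rw [mul_smul] at h3
  refine ⟨Ne.symm h1, Ne.symm h2, Ne.symm h3, ?_, ?_, ?_⟩
  · intro h
    apply h3
    rw [h, C.tts]
  · intro h
    apply h2
    have := congrArg (fun z => C.x • z) h
    simp only [C.xts, C.xxs] at this
    exact this.symm
  · intro h
    exact h1 (smul_left_cancel _ h).symm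

/-- the transposition attached to a regular point -/
theorem exists_v {a : Ω} (ha : C.Reg a) : ∃ v : G, v • a = a ∧ v • (C.x • a) = C.x • a ∧
    v • (C.t • a) = C.t • (C.x • a) ∧ v • (C.t • (C.x • a)) = C.t • a ∧
    v * v = 1 ∧ v * C.x = C.x * v ∧ v * C.t = C.t * C.x * v := by
  have hd := C.reg4 ha
  have hd' : D4 a (C.x • a) (C.t • (C.x • a)) (C.t • a) :=
    ⟨hd.1, hd.2.2.1, hd.2.1, hd.2.2.2.2.1, hd.2.2.2.1, Ne.symm hd.2.2.2.2.2⟩
  obtain ⟨v, h1, h2, h3, h4⟩ := ex4 C.h4 hd hd'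
  refine ⟨v, h1, h2, h3, h4, ?_, ?_, ?_⟩
  · exact one_of_fix hd (by rw [mul_smul, h1, h1]) (by rw [mul_smul, h2, h2])
      (by rw [mul_smul, h3, h4]) (by rw [mul_smul, h4, h3]) C
  · refine un4 C.hs hd ?_ ?_ ?_ ?_
    · rw [mul_smul, mul_smul, h1, h2]
    · rw [mul_smul, mul_smul, h2, C.xxs, h1]
    · rw [mul_smul, mul_smul, h3, C.xts, C.xts, C.xxs, h4]
    · rw [mul_smul, mul_smul, h4, C.xts, C.xts, C.xxs, h3]
  · refine un4 C.hs hd ?_ ?_ ?_ ?_
    · rw [mul_smul, mul_smul, mul_smul, h1, h3]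
    · rw [mul_smul, mul_smul, mul_smul, h2, C.xxs, h4]
    · rw [mul_smul, mul_smul, mul_smul, h3, C.tts, h1, C.xts, C.xxs, C.tts]
    · rw [mul_smul, mul_smul, mul_smul, h4, C.tts, h2, C.xts, C.tts]

/-- any two regular points lie in one orbit of `⟨x, t⟩` -/
theorem one_orbit {a b : Ω} (ha : C.Reg a) (hb : C.Reg b) :
    b = a ∨ b = C.x • a ∨ b = C.t • a ∨ b = C.t • (C.x • a) := by
  obtain ⟨v, v1, v2, v3, v4, vv, vx, vt⟩ := C.exists_v ha
  obtain ⟨s, s1, s2, s3, s4, ss, sx, st⟩ := C.exists_v hb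
  have hvne : v ≠ 1 := by
    intro h
    rw [h, one_smul] at v3
    exact (C.reg4 ha).2.2.2.2.2 v3
  have hdb := C.reg4 hb
  have hcx : s * v * C.x = C.x * (s * v) := by
    rw [mul_assoc, vx, ← mul_assoc, sx, mul_assoc]
  have hct : s * v * C.t = C.t * (s * v) := by
    calc s * v * C.t = s * C.t * C.x * v := by rw [mul_assoc, vt]; group
      _ = C.t * C.x * (s * C.x) * v := by rw [st]; group
      _ = C.t * (C.x * C.x) * s * v := by rw [sx]; group
      _ = C.t * (s * v) := by rw [C.xx]; group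
  have hs : ∀ e, s * v = e → s = e * v := by
    intro e he
    rw [← he, mul_assoc, vv, mul_one]
  rcases C.centr hcx hct with h | h | h | h
  · have hsv : s = v := by rw [hs _ h, one_mul]
    by_contra hcon
    push Not at hcon
    apply hvne
    rw [hsv] at s1 s2
    refine one_of_fix (a := a) (b := C.x • a) (c := b) (d := C.x • b)
      ⟨(C.reg4 ha).1, Ne.symm hcon.1, ?_, Ne.symm hcon.2.1, ?_, hdb.1⟩ v1 v2 s1 s2 C
    · intro h'
      apply hcon.2.1
      rw [h', C.xxs]
    · intro h'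
      exact hcon.1 (smul_left_cancel _ h').symm
  · have hsv : s = C.x * v := hs _ h
    have hvs : v = C.x * s := by rw [hsv, ← mul_assoc, C.xx, one_mul]
    by_contra hcon
    push Not at hcon
    apply hvne
    refine one_of_fix (a := a) (b := C.x • a) (c := C.t • b) (d := C.t • (C.x • b))
      ⟨(C.reg4 ha).1, ?_, ?_, ?_, ?_, hdb.2.2.2.2.2⟩ v1 v2 ?_ ?_ C
    · intro h'
      apply hcon.2.2.1
      rw [h', C.tts]
    · intro h'
      apply hcon.2.2.2
      rw [h', C.xts, C.xxs, C.tts]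
    · intro h'
      apply hcon.2.2.2
      rw [h', C.tts]
    · intro h'
      apply hcon.2.2.1
      have := congrArg (fun z => C.x • z) h'
      simp only [C.xts, C.xxs] at this
      rw [this, C.tts]
    · rw [hvs, mul_smul, s3, C.xts, C.xxs]
    · rw [hvs, mul_smul, s4, C.xts]
  · exfalso
    have hsv : s = C.t * v := hs _ h
    have h5 : C.t * v * (C.t * v) = 1 := by rw [← hsv, ss]
    have h6 : C.t * v * (C.t * v) = C.x := by
      calc C.t * v * (C.t * v) = C.t * (v * C.t) * v := by group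
        _ = C.t * C.t * C.x * (v * v) := by rw [vt]; group
        _ = C.x := by rw [C.tt, vv]; group
    exact C.xne (h6.symm.trans h5)
  · exfalso
    have hsv : s = C.t * C.x * v := hs _ h
    have h5 : C.t * C.x * v * (C.t * C.x * v) = 1 := by rw [← hsv, ss]
    have h6 : C.t * C.x * v * (C.t * C.x * v) = C.x := by
      calc C.t * C.x * v * (C.t * C.x * v) = C.t * C.x * (v * C.t) * C.x * v := by group
        _ = C.t * C.x * C.t * C.x * (v * C.x) * v := by rw [vt]; group
        _ = C.t * C.x * (C.t * C.x) * C.x * (v * v) := by rw [vx]; group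
        _ = C.t * (C.x * C.t) * (C.x * C.x) := by rw [vv]; group
        _ = (C.t * C.t) * C.x := by rw [← C.tx, C.xx]; group
        _ = C.x := by rw [C.tt, one_mul]
    exact C.xne (h6.symm.trans h5)

/-- `Ω` is the union of the special points and one regular orbit -/
theorem cover (z : Ω) : C.x • z = z ∨ z = C.p1 ∨ z = C.p2 ∨ z = C.p3 ∨ z = C.p4 ∨ C.Reg z := by
  by_cases h1 : C.x • z = z
  · exact Or.inl h1
  by_cases h2 : C.t • z = z
  · by_cases h3 : z = C.p3
    · exact Or.inr (Or.inr (Or.inr (Or.inl h3)))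
    by_cases h4 : z = C.p4
    · exact Or.inr (Or.inr (Or.inr (Or.inr (Or.inl h4))))
    exact absurd (C.F1 h2 h3 h4) h1
  by_cases h5 : (C.t * C.x) • z = z
  · by_cases h3 : z = C.p1
    · exact Or.inr (Or.inl h3)
    by_cases h4 : z = C.p2
    · exact Or.inr (Or.inr (Or.inl h4))
    exact absurd (C.F2 h5 h3 h4) h1
  exact Or.inr (Or.inr (Or.inr (Or.inr (Or.inr ⟨h1, h2, h5⟩))))

theorem fix_le_three : ∃ S : Finset Ω, S.card ≤ 3 ∧ ∀ z, C.x • z = z → z ∈ S := by
  classical
  by_contra hcon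
  push Not at hcon
  have step : ∀ n ≤ 4, ∃ S : Finset Ω, S.card = n ∧ ∀ z ∈ S, C.x • z = z := by
    intro n
    induction n with
    | zero => intro _; exact ⟨∅, rfl, by simp⟩
    | succ n ih =>
      intro hn
      obtain ⟨S, hS, hSf⟩ := ih (by omega)
      obtain ⟨z, hz, hzS⟩ := hcon S (by omega)
      refine ⟨insert z S, by rw [Finset.card_insert_of_notMem hzS, hS], ?_⟩
      intro w hw
      rw [Finset.mem_insert] at hw
      rcases hw with rfl | hw
      · exact hz
      · exact hSf w hw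
  obtain ⟨S, hS, hSf⟩ := step 4 le_rfl
  let e := (S.equivFinOfCardEq hS).symm
  have hinj : ∀ i j : Fin 4, i ≠ j → ((e i : S) : Ω) ≠ e j := fun i j hij h =>
    hij (e.injective (Subtype.ext h))
  apply C.xne
  exact one_of_fix (a := ((e 0 : S) : Ω)) (b := ((e 1 : S) : Ω)) (c := ((e 2 : S) : Ω)) (d := ((e 3 : S) : Ω))
    ⟨hinj _ _ (by decide), hinj _ _ (by decide), hinj _ _ (by decide), hinj _ _ (by decide),
      hinj _ _ (by decide), hinj _ _ (by decide)⟩ (hSf _ (e 0).2) (hSf _ (e 1).2) (hSf _ (e 2).2)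
      (hSf _ (e 3).2) C

theorem exists_cover : ∃ S : Finset Ω, S.card ≤ 11 ∧ (∀ z, z ∈ S) ∧
    ((∀ a, ¬ C.Reg a) → S.card ≤ 7) := by
  classical
  obtain ⟨F, hF, hFm⟩ := C.fix_le_three
  by_cases hreg : ∃ a, C.Reg a
  · obtain ⟨a, ha⟩ := hreg
    refine ⟨F ∪ ({C.p1, C.p2, C.p3, C.p4} ∪ {a, C.x • a, C.t • a, C.t • (C.x • a)}), ?_, ?_, ?_⟩
    · have h1 := Finset.card_union_le F ({C.p1, C.p2, C.p3, C.p4} ∪ {a, C.x • a, C.t • a, C.t • (C.x • a)})
      have h2 := Finset.card_union_le ({C.p1, C.p2, C.p3, C.p4} : Finset Ω) {a, C.x • a, C.t • a, C.t • (C.x • a)}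
      have h3 := Finset.card_le_four (a := C.p1) (b := C.p2) (c := C.p3) (d := C.p4)
      have h4 := Finset.card_le_four (a := a) (b := C.x • a) (c := C.t • a) (d := C.t • (C.x • a))
      omega
    · intro z
      simp only [Finset.mem_union, Finset.mem_insert, Finset.mem_singleton]
      rcases C.cover z with h | h | h | h | h | h
      · exact Or.inl (hFm z h)
      · right; left; left; exact h
      · right; left; right; left; exact h
      · right; left; right; right; left; exact h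
      · right; left; right; right; right; exact h
      · right; right; exact C.one_orbit ha h
    · intro h
      exact absurd ha (h a)
  · push Not at hreg
    refine ⟨F ∪ {C.p1, C.p2, C.p3, C.p4}, ?_, ?_, fun _ => ?_⟩
    · have h1 := Finset.card_union_le F {C.p1, C.p2, C.p3, C.p4}
      have h3 := Finset.card_le_four (a := C.p1) (b := C.p2) (c := C.p3) (d := C.p4)
      omega
    · intro z
      simp only [Finset.mem_union, Finset.mem_insert, Finset.mem_singleton]
      rcases C.cover z with h | h | h | h | h | h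
      · exact Or.inl (hFm z h)
      · right; left; exact h
      · right; right; left; exact h
      · right; right; right; left; exact h
      · right; right; right; right; exact h
      · exact absurd h (hreg z)
    · have h1 := Finset.card_union_le F {C.p1, C.p2, C.p3, C.p4}
      have h3 := Finset.card_le_four (a := C.p1) (b := C.p2) (c := C.p3) (d := C.p4)
      omega

/-- even degree: an element of order two with three fixed points is the identity -/
theorem parity (C : Conf G Ω) [Finite Ω] (hev : Even (Nat.card Ω)) {g : G} (hg : g * g = 1) {p q s : Ω}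
    (hpq : p ≠ q) (hps : p ≠ s) (hqs : q ≠ s) (hp : g • p = p) (hq : g • q = q) (hs : g • s = s) :
    g = 1 := by
  classical
  have := Fintype.ofFinite Ω
  let σ : Equiv.Perm Ω := MulAction.toPerm g
  have hσ : ∀ z, σ z = g • z := fun z => rfl
  have h2 : σ ^ 2 = 1 := by
    ext z
    rw [pow_two, Equiv.Perm.mul_apply, hσ, hσ, smul_smul, hg, one_smul, Equiv.Perm.one_apply]
  have h3 := Equiv.Perm.two_dvd_card_support h2
  obtain ⟨w, hw, hwf⟩ : ∃ w, w ∉ ({p, q, s} : Finset Ω) ∧ g • w = w := by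
    by_contra hcon
    push Not at hcon
    have h4 : σ.support = ({p, q, s} : Finset Ω)ᶜ := by
      ext z
      rw [Equiv.Perm.mem_support, Finset.mem_compl, hσ]
      constructor
      · intro h h'
        simp only [Finset.mem_insert, Finset.mem_singleton] at h'
        rcases h' with rfl | rfl | rfl
        · exact h hp
        · exact h hq
        · exact h hs
      · intro h
        exact hcon z h
    have h5 : ({p, q, s} : Finset Ω).card = 3 := by
      rw [Finset.card_eq_three]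
      exact ⟨p, q, s, hpq, hps, hqs, rfl⟩
    have h6 : ({p, q, s} : Finset Ω).card ≤ Fintype.card Ω := Finset.card_le_univ _
    rw [h4, Finset.card_compl, h5] at h3
    rw [Nat.card_eq_fintype_card] at hev
    obtain ⟨k, hk⟩ := hev
    omega
  simp only [Finset.mem_insert, Finset.mem_singleton, not_or] at hw
  exact one_of_fix ⟨hpq, hps, Ne.symm hw.1, hqs, Ne.symm hw.2.1, Ne.symm hw.2.2⟩ hp hq hs hwf C

/-- in even degree there are no regular points -/
theorem even_no_reg [Finite Ω] (hev : Even (Nat.card Ω)) (a : Ω) : ¬ C.Reg a := by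
  classical
  intro ha
  have hda := C.reg4 ha
  obtain ⟨hd1, hd2, hd3, hd4, hd5, hd6⟩ := C.hd
  -- x and t are conjugate
  have ha1 : a ≠ C.p1 := by
    rintro rfl
    apply ha.2.2
    rw [mul_smul, C.x1, C.t2]
  have ha2 : a ≠ C.p2 := by
    rintro rfl
    apply ha.2.2
    rw [mul_smul, C.x2, C.t1]
  have hta1 : C.t • a ≠ C.p1 := by
    intro h
    apply ha2
    rw [← C.t1, ← h, C.tts]
  have hta2 : C.t • a ≠ C.p2 := by
    intro h
    apply ha1
    rw [← C.t2, ← h, C.tts]
  obtain ⟨g, g1, g2, g3, g4⟩ := ex4 C.h4 C.hd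
    (⟨hd1, Ne.symm ha1, Ne.symm hta1, Ne.symm ha2, Ne.symm hta2, hda.2.1⟩ :
      D4 C.p1 C.p2 a (C.t • a))
  have hconj : g * C.x = C.t * g := by
    refine un4 C.hs C.hd ?_ ?_ ?_ ?_
    · rw [mul_smul, mul_smul, C.x1, g1, g2, C.t1]
    · rw [mul_smul, mul_smul, C.x2, g1, g2, C.t2]
    · rw [mul_smul, mul_smul, C.x3, g3, g4]
    · rw [mul_smul, mul_smul, C.x4, g3, g4, C.tts]
  have hfixt : ∀ z, C.t • z = z → z = C.p3 ∨ z = C.p4 := by
    intro z hz
    by_contra hcon
    push Not at hcon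
    exact C.tne (parity C hev C.tt hd6 (Ne.symm hcon.1) (Ne.symm hcon.2) C.t3 C.t4 hz)
  obtain ⟨p, hp⟩ : ∃ p, g • p = C.p3 := ⟨g⁻¹ • C.p3, smul_inv_smul g _⟩
  obtain ⟨q, hq⟩ : ∃ q, g • q = C.p4 := ⟨g⁻¹ • C.p4, smul_inv_smul g _⟩
  have hpq : p ≠ q := by
    rintro rfl
    exact hd6 (hp.symm.trans hq)
  have hconjs : ∀ z : Ω, g • (C.x • z) = C.t • (g • z) := fun z => by
    rw [smul_smul, hconj, mul_smul]
  have hfixx : ∀ z, C.x • z = z ↔ z = p ∨ z = q := by
    intro z
    constructor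
    · intro hz
      have h1 := hconjs z
      rw [hz] at h1
      rcases hfixt _ h1.symm with h | h
      · left; apply smul_left_cancel g; rw [h, hp]
      · right; apply smul_left_cancel g; rw [h, hq]
    · rintro (rfl | rfl)
      · apply smul_left_cancel g
        rw [hconjs, hp, C.t3]
      · apply smul_left_cancel g
        rw [hconjs, hq, C.t4]
  have hxp : C.x • p = p := (hfixx p).2 (Or.inl rfl)
  have hxq : C.x • q = q := (hfixx q).2 (Or.inr rfl)
  -- t interchanges p and q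
  have htp : C.t • p = q := by
    have h1 : C.x • (C.t • p) = C.t • p := by rw [C.xts, hxp]
    rcases (hfixx _).1 h1 with h | h
    · exfalso
      rcases hfixt p h with h' | h'
      · rw [h', C.x3] at hxp; exact hd6 hxp.symm
      · rw [h', C.x4] at hxp; exact hd6 hxp
    · exact h
  have htq : C.t • q = p := by rw [← htp, C.tts]
  -- the element of order four
  obtain ⟨hr1, hr2, hr3, hr4, hr5, hr6⟩ := hda
  obtain ⟨c, c1, c2, c3, c4⟩ := ex4 C.h4 (⟨hr2, hr1, hr3, Ne.symm hr4, hr6, hr5⟩ :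
      D4 a (C.t • a) (C.x • a) (C.t • (C.x • a)))
    (⟨Ne.symm hr4, hr6, Ne.symm hr2, hr5, Ne.symm hr1, Ne.symm hr3⟩ :
      D4 (C.t • a) (C.x • a) (C.t • (C.x • a)) a)
  have hcc : c * c = C.x := by
    refine un4 C.hs ⟨hr1, hr2, hr3, hr4, hr5, hr6⟩ ?_ ?_ ?_ ?_
    · rw [mul_smul, c1, c2]
    · rw [mul_smul, c3, c4, C.xxs]
    · rw [mul_smul, c2, c3, C.xts]
    · rw [mul_smul, c4, c1, C.xts, C.xxs]
  have hcx : ∀ z : Ω, c • (C.x • z) = C.x • (c • z) := by
    intro z
    rw [← hcc, smul_smul, smul_smul, mul_assoc]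
  have hcp : c • p = p ∧ c • q = q := by
    have h1 : C.x • (c • p) = c • p := by rw [← hcx, hxp]
    have h2 : C.x • (c • q) = c • q := by rw [← hcx, hxq]
    rcases (hfixx _).1 h1 with h | h
    · refine ⟨h, ?_⟩
      rcases (hfixx _).1 h2 with h' | h'
      · exact absurd (smul_left_cancel c (h.trans h'.symm)) hpq
      · exact h'
    · exfalso
      have h' : c • q = p := by
        rcases (hfixx _).1 h2 with h' | h'
        · exact h'
        · exact absurd (smul_left_cancel c (h.trans h'.symm)) hpq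
      have hne : c * C.t ≠ 1 := by
        intro h3
        have h5 : (c * C.t) • a = a := by rw [h3, one_smul]
        rw [mul_smul, c2] at h5
        exact hr1 h5.symm
      apply hne
      have hxta : C.x • (C.t • a) ≠ C.t • a := by
        rw [C.xts]
        exact Ne.symm hr6
      have hxtxa : C.x • (C.t • (C.x • a)) ≠ C.t • (C.x • a) := by
        rw [C.xts, C.xxs]
        exact hr6
      refine one_of_fix (a := C.t • a) (b := C.t • (C.x • a)) (c := p) (d := q)
        ⟨hr6, ?_, ?_, ?_, ?_, hpq⟩ ?_ ?_ ?_ ?_ C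
      · rintro h3; rw [h3] at hxta; exact hxta hxp
      · rintro h3; rw [h3] at hxta; exact hxta hxq
      · rintro h3; rw [h3] at hxtxa; exact hxtxa hxp
      · rintro h3; rw [h3] at hxtxa; exact hxtxa hxq
      · rw [mul_smul, C.tts, c1]
      · rw [mul_smul, C.tts, c3]
      · rw [mul_smul, htp, h']
      · rw [mul_smul, htq, h]
  obtain ⟨hcp, hcq⟩ := hcp
  -- pigeonhole
  let b := C.t • a
  have hap : a ≠ p := by rintro rfl; exact ha.1 hxp
  have haq : a ≠ q := by rintro rfl; exact ha.1 hxq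
  have hxb : C.x • b ≠ b := by
    change C.x • (C.t • a) ≠ C.t • a
    rw [C.xts]
    exact Ne.symm hr6
  have hbp : b ≠ p := by intro h; rw [h] at hxb; exact hxb hxp
  have hbq : b ≠ q := by intro h; rw [h] at hxb; exact hxb hxq
  let S := {s : Ω // s ≠ p ∧ s ≠ q ∧ s ≠ a ∧ s ≠ b}
  have hg : ∀ s : S, ∃ g : G, g • p = p ∧ g • q = q ∧ g • a = b ∧ g • s.1 = s.1 := by
    rintro ⟨s, hsp, hsq, hsa, hsb⟩
    exact ex4 C.h4 ⟨hpq, Ne.symm hap, Ne.symm hsp, Ne.symm haq, Ne.symm hsq, Ne.symm hsa⟩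
      ⟨hpq, Ne.symm hbp, Ne.symm hsp, Ne.symm hbq, Ne.symm hsq, Ne.symm hsb⟩
  choose γ γp γq γa γs using hg
  let β : S → S := fun s => ⟨γ s • b, by
    refine ⟨?_, ?_, ?_, ?_⟩
    · intro h
      exact hbp (smul_left_cancel (γ s) (h.trans (γp s).symm))
    · intro h
      exact hbq (smul_left_cancel (γ s) (h.trans (γq s).symm))
    · intro h
      have hsq : γ s * γ s = 1 := one_of_fix (a := p) (b := q) (c := a) (d := b)
        ⟨hpq, Ne.symm hap, Ne.symm hbp, Ne.symm haq, Ne.symm hbq, hr2⟩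
        (by rw [mul_smul, γp, γp]) (by rw [mul_smul, γq, γq])
        (by rw [mul_smul, γa, h]) (by rw [mul_smul, h, γa]) C
      have h1 := parity C hev hsq hpq (Ne.symm s.2.1) (Ne.symm s.2.2.1) (γp s) (γq s) (γs s)
      have h2 := γa s
      rw [h1, one_smul] at h2
      exact hr2 h2
    · intro h
      have h1 := smul_left_cancel (γ s) (h.trans (γa s).symm)
      exact hr2 h1.symm⟩
  have hβ : Function.Injective β := by
    intro s s' hss
    have h1 : γ s • b = γ s' • b := congrArg Subtype.val hss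
    have h2 : γ s = γ s' := un4 C.hs (a := p) (b := q) (c := a) (d := b)
      ⟨hpq, Ne.symm hap, Ne.symm hbp, Ne.symm haq, Ne.symm hbq, hr2⟩
      (by rw [γp, γp]) (by rw [γq, γq]) (by rw [γa, γa]) h1
    by_contra hne
    have h3 : γ s = 1 := one_of_fix (a := p) (b := q) (c := s.1) (d := s'.1)
      ⟨hpq, Ne.symm s.2.1, Ne.symm s'.2.1, Ne.symm s.2.2.1, Ne.symm s'.2.2.1,
        fun h => hne (Subtype.ext h)⟩ (γp s) (γq s) (γs s) (by rw [h2]; exact γs s') C
    have h4 := γa s
    rw [h3, one_smul] at h4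
    exact hr2 h4
  have hβs : Function.Surjective β := Finite.surjective_of_injective hβ
  -- c • b
  have hcb : c • b = C.x • a := c2
  obtain ⟨s, hs⟩ := hβs ⟨C.x • a, by
    refine ⟨?_, ?_, Ne.symm hr1, hr4⟩
    · intro h
      apply hap
      rw [← C.xxs a, h, hxp]
    · intro h
      apply haq
      rw [← C.xxs a, h, hxq]⟩
  have hs' : γ s • b = C.x • a := congrArg Subtype.val hs
  have h2 : c = γ s := un4 C.hs (a := p) (b := q) (c := a) (d := b)
      ⟨hpq, Ne.symm hap, Ne.symm hbp, Ne.symm haq, Ne.symm hbq, hr2⟩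
      (by rw [γp, hcp]) (by rw [γq, hcq]) (by rw [γa, c1]) (by rw [hs', hcb])
  have h3 : C.x • s.1 = s.1 := by
    rw [← hcc, mul_smul, h2, γs, γs]
  rcases (hfixx _).1 h3 with h | h
  · exact s.2.1 h
  · exact s.2.2.1 h

end Conf

end tits

/-- Tits' argument: a sharply 4-transitive group (no finiteness assumed) has finite degree at most 11, and at most 6 when the degree is even. -/
theorem result {G : Type*} [Group G] {Ω : Type*} [MulAction G Ω] (h4 : MulAction.IsMultiplyPretransitive G Ω 4) (hsharp : ∀ x : Fin 4 ↪ Ω, MulAction.stabilizer G x = ⊥) (hne : Nonempty (Fin 4 ↪ Ω)) : Finite Ω ∧ Nat.card Ω ≤ 11 ∧ (Even (Nat.card Ω) → Nat.card Ω ≤ 6) := by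
  classical
  obtain ⟨e⟩ := hne
  have hinj : ∀ i j : Fin 4, i ≠ j → e i ≠ e j := fun i j hij h => hij (e.injective h)
  have hd : D4 (e 0) (e 1) (e 2) (e 3) := ⟨hinj _ _ (by decide), hinj _ _ (by decide),
    hinj _ _ (by decide), hinj _ _ (by decide), hinj _ _ (by decide), hinj _ _ (by decide)⟩
  obtain ⟨x, x1, x2, x3, x4⟩ := ex4 h4 hd (⟨hinj _ _ (by decide), hinj _ _ (by decide),
    hinj _ _ (by decide), hinj _ _ (by decide), hinj _ _ (by decide), hinj _ _ (by decide)⟩ :
    D4 (e 1) (e 0) (e 3) (e 2))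
  obtain ⟨t, t1, t2, t3, t4⟩ := ex4 h4 hd (⟨hinj _ _ (by decide), hinj _ _ (by decide),
    hinj _ _ (by decide), hinj _ _ (by decide), hinj _ _ (by decide), hinj _ _ (by decide)⟩ :
    D4 (e 1) (e 0) (e 2) (e 3))
  let C : Conf G Ω := ⟨h4, hsharp, e 0, e 1, e 2, e 3, hd, x, t, x1, x2, x3, x4, t1, t2, t3, t4⟩
  obtain ⟨S, hS, hSm, hS7⟩ := C.exists_cover
  have hfin : Finite Ω := Set.finite_univ_iff.1 ((Finset.finite_toSet S).subset (fun z _ => hSm z))
  have := Fintype.ofFinite Ω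
  have hcard : Nat.card Ω = S.card := by
    rw [Nat.card_eq_fintype_card, ← Finset.card_univ]
    congr 1
    exact (Finset.eq_univ_iff_forall.2 hSm).symm
  refine ⟨hfin, by omega, ?_⟩
  intro hev
  have h7 := hS7 (C.even_no_reg hev)
  obtain ⟨k, hk⟩ := hev
  omega

end Cfsg.Agent.S0708
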