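import Cfsg.Statements.S0709
import Mathlib

set_option autoImplicit false
open Cfsg

namespace Cfsg.Agent.S0709

section witt

variable {P : Type*} [Group P]

/-- the chain of groups -/
def K (B : Subgroup P) (s : ℕ → P) : ℕ → Subgroup P
  | 0 => B
  | n + 1 => Subgroup.closure ((K B s n : Set P) ∪ {s (n + 1)})

theorem K_le_succ (B : Subgroup P) (s : ℕ → P) (n : ℕ) : K B s n ≤ K B s (n + 1) := by
  intro x hx
  exact Subgroup.subset_closure (Or.inl hx)

theorem K_mono (B : Subgroup P) (s : ℕ → P) {m n : ℕ} (h : m ≤ n) : K B s m ≤ K B s n := by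
  induction h with
  | refl => exact le_rfl
  | step _ ih => exact ih.trans (K_le_succ B s _)

theorem s_mem (B : Subgroup P) (s : ℕ → P) (n : ℕ) : s (n + 1) ∈ K B s (n + 1) :=
  Subgroup.subset_closure (Or.inr rfl)

/-- the double coset criterion -/
theorem double_coset (L : Subgroup P) (s : P) (hs2 : s ^ 2 ∈ L)
    (h : ∀ g ∈ L, s * g * s ∈ L ∨ ∃ a ∈ L, ∃ b ∈ L, s * g * s = a * s * b) {x : P}
    (hx : x ∈ Subgroup.closure ((L : Set P) ∪ {s})) : x ∈ L ∨ ∃ a ∈ L, ∃ b ∈ L, x = a * s * b := by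
  let D : Subgroup P :=
    { carrier := {x | x ∈ L ∨ ∃ a ∈ L, ∃ b ∈ L, x = a * s * b}
      mul_mem' := by
        rintro x y (hx | ⟨a, ha, b, hb, rfl⟩) (hy | ⟨c, hc, d, hd, rfl⟩)
        · exact Or.inl (L.mul_mem hx hy)
        · exact Or.inr ⟨x * c, L.mul_mem hx hc, d, hd, by group⟩
        · exact Or.inr ⟨a, ha, b * y, L.mul_mem hb hy, by group⟩
        · rcases h (b * c) (L.mul_mem hb hc) with h1 | ⟨u, hu, v, hv, h1⟩
          · left
            have : a * s * b * (c * s * d) = a * (s * (b * c) * s) * d := by group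
            rw [this]
            exact L.mul_mem (L.mul_mem ha h1) hd
          · right
            refine ⟨a * u, L.mul_mem ha hu, v * d, L.mul_mem hv hd, ?_⟩
            have : a * s * b * (c * s * d) = a * (s * (b * c) * s) * d := by group
            rw [this, h1]
            group
      one_mem' := Or.inl L.one_mem
      inv_mem' := by
        rintro x (hx | ⟨a, ha, b, hb, rfl⟩)
        · exact Or.inl (L.inv_mem hx)
        · right
          refine ⟨b⁻¹, L.inv_mem hb, (s ^ 2)⁻¹ * a⁻¹, L.mul_mem (L.inv_mem hs2) (L.inv_mem ha), ?_⟩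
          group }
  have hle : Subgroup.closure ((L : Set P) ∪ {s}) ≤ D := by
    rw [Subgroup.closure_le]
    rintro x (hx | hx)
    · exact Or.inl hx
    · rw [Set.mem_singleton_iff] at hx
      subst hx
      exact Or.inr ⟨1, L.one_mem, 1, L.one_mem, by group⟩
  exact hle hx

variable (t : ℕ) (B H : Subgroup P) (s : ℕ → P) (hHB : H ≤ B)
    (hsq2 : ∀ i : ℕ, 1 ≤ i → i + 1 ≤ t → s i ^ 2 ∈ H)
    (hbraid : ∀ i : ℕ, 1 ≤ i → i + 2 ≤ t → (s i * s (i + 1)) ^ 3 ∈ H)
    (hcomm : ∀ i j : ℕ, 1 ≤ i → i + 2 ≤ j → j + 1 ≤ t → (s i * s j) ^ 2 ∈ H ∧ (s j * s i) ^ 2 ∈ H)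
    (hnorm : ∀ i : ℕ, 2 ≤ i → i + 1 ≤ t → ∀ g ∈ B, s i * g * (s i)⁻¹ ∈ B)
include hHB hsq2 hcomm hnorm

/-- later generators normalise the earlier groups -/
theorem K_norm (n : ℕ) : ∀ j, n + 2 ≤ j → j + 1 ≤ t → ∀ x ∈ K B s n, s j * x * (s j)⁻¹ ∈ K B s n := by
  induction n with
  | zero =>
    intro j hj hjt x hx
    exact hnorm j hj hjt x hx
  | succ n ih =>
    intro j hj hjt
    have hle : K B s (n + 1) ≤ (K B s (n + 1)).comap (MulAut.conj (s j)).toMonoidHom := by
      change Subgroup.closure _ ≤ _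
      rw [Subgroup.closure_le]
      rintro x (hx | hx)
      · exact K_le_succ B s n (ih j (by omega) hjt x hx)
      · rw [Set.mem_singleton_iff] at hx
        subst hx
        change s j * s (n + 1) * (s j)⁻¹ ∈ K B s (n + 1)
        have h1 := (hcomm (n + 1) j (by omega) (by omega) hjt).2
        have h2 := hsq2 j (by omega) hjt
        have hH : H ≤ K B s (n + 1) := hHB.trans (K_mono B s (Nat.zero_le _))
        have h3 : s j * s (n + 1) * (s j)⁻¹ = (s j * s (n + 1)) ^ 2 * (s (n + 1))⁻¹ * (s j ^ 2)⁻¹ := by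
          rw [pow_two, pow_two]
          group
        rw [h3]
        exact (K B s (n + 1)).mul_mem ((K B s (n + 1)).mul_mem (hH h1)
          ((K B s (n + 1)).inv_mem (s_mem B s n))) ((K B s (n + 1)).inv_mem (hH h2))
    intro x hx
    exact hle hx

theorem K_norm' (n : ℕ) (j : ℕ) (hj : n + 2 ≤ j) (hjt : j + 1 ≤ t) (x : P) (hx : x ∈ K B s n) :
    (s j)⁻¹ * x * s j ∈ K B s n := by
  have h1 := K_norm t B H s hHB hsq2 hcomm hnorm n j hj hjt x hx
  have hH : H ≤ K B s n := hHB.trans (K_mono B s (Nat.zero_le _))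
  have h2 := hH (hsq2 j (by omega) hjt)
  have h3 : (s j)⁻¹ * x * s j = (s j ^ 2)⁻¹ * (s j * x * (s j)⁻¹) * (s j ^ 2) := by
    rw [pow_two]; group
  rw [h3]
  exact (K B s n).mul_mem ((K B s n).mul_mem ((K B s n).inv_mem h2) h1) h2

include hbraid in
theorem K_decomp (h0 : ∀ x ∈ K B s 1, x ∈ B ∨ ∃ a ∈ B, ∃ b ∈ B, x = a * s 1 * b) (n : ℕ)
    (hn : n + 2 ≤ t) : ∀ x ∈ K B s (n + 1), x ∈ K B s n ∨ ∃ a ∈ K B s n, ∃ b ∈ K B s n,
      x = a * s (n + 1) * b := by
  induction n with
  | zero => exact h0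
  | succ n ih =>
    have hH : H ≤ K B s (n + 1) := hHB.trans (K_mono B s (Nat.zero_le _))
    have hs2 := hH (hsq2 (n + 2) (by omega) (by omega))
    intro x hx
    refine double_coset (K B s (n + 1)) (s (n + 2)) hs2 ?_ hx
    intro g hg
    rcases ih (by omega) g hg with h1 | ⟨a, ha, b, hb, rfl⟩
    · left
      have h2 := K_le_succ B s n (K_norm t B H s hHB hsq2 hcomm hnorm n (n + 2) le_rfl (by omega) g h1)
      have h3 : s (n + 2) * g * s (n + 2) = (s (n + 2) * g * (s (n + 2))⁻¹) * s (n + 2) ^ 2 := by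
        rw [pow_two]; group
      rw [h3]
      exact (K B s (n + 1)).mul_mem h2 hs2
    · right
      have ha' := K_le_succ B s n (K_norm t B H s hHB hsq2 hcomm hnorm n (n + 2) le_rfl (by omega) a ha)
      have hb' := K_le_succ B s n (K_norm' t B H s hHB hsq2 hcomm hnorm n (n + 2) le_rfl (by omega) b hb)
      have hbr := hH (hbraid (n + 1) (by omega) (by omega))
      have hsm := s_mem B s n
      refine ⟨(s (n + 2) * a * (s (n + 2))⁻¹) * ((s (n + 1))⁻¹ * (s (n + 1) * s (n + 2)) ^ 3),
        (K B s (n + 1)).mul_mem ha' ((K B s (n + 1)).mul_mem ((K B s (n + 1)).inv_mem hsm) hbr),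
        (s (n + 2) ^ 2)⁻¹ * (s (n + 1))⁻¹ * ((s (n + 2))⁻¹ * b * s (n + 2)),
        (K B s (n + 1)).mul_mem ((K B s (n + 1)).mul_mem ((K B s (n + 1)).inv_mem hs2)
          ((K B s (n + 1)).inv_mem hsm)) hb', ?_⟩
      have h3 : (s (n + 1) * s (n + 2)) ^ 3 = s (n + 1) * s (n + 2) * (s (n + 1) * s (n + 2)) *
          (s (n + 1) * s (n + 2)) := by rw [pow_succ, pow_two]
      rw [h3, pow_two]
      group

end witt

/-- Witt's Lemma for constructing transitive extensions. Points `q 1, …, q t` (`t ≥ 2`) of a finite set are given; `G` fixes `q i` for `i ≥ 3` and is doubly transitive on the remaining points; `s 1 ∈ G` swaps `q 1, q 2`; for `2 ≤ i ≤ t-1`, `s i` swaps `q i, q (i+1)` and fixes the other `q j`; with `H` the stabiliser of `q 1, q 2` in `G`: `s i ^ 2 ∈ H`, `(s i * s (i+1)) ^ 3 ∈ H`, `(s i * s j) ^ 2 ∈ H` for `j ≥ i + 2`, and `s i` (`i ≥ 2`) normalises the stabiliser of `q 2` in `G`. Then `G` and the `s i` generate a `t`-transitive group whose pointwise stabiliser of the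 `q`'s is `H`. -/
theorem result {α : Type*} [Fintype α] [DecidableEq α] (t : ℕ) (ht : 2 ≤ t) (q : ℕ → α) (hq : ∀ i j : ℕ, 1 ≤ i → i ≤ t → 1 ≤ j → j ≤ t → q i = q j → i = j) (G : Subgroup (Equiv.Perm α)) (hfix : ∀ g ∈ G, ∀ i : ℕ, 3 ≤ i → i ≤ t → g (q i) = q i) (h2 : ∀ a b c d : α, (∀ i, 3 ≤ i → i ≤ t → a ≠ q i ∧ b ≠ q i ∧ c ≠ q i ∧ d ≠ q i) → a ≠ b → c ≠ d → ∃ g ∈ G, g a = c ∧ g b = d) (s : ℕ → Equiv.Perm α) (hs1 : s 1 ∈ G) (hs1q : s 1 (q 1) = q 2 ∧ s 1 (q 2) = q 1) (hsq : ∀ i : ℕ, 2 ≤ i → i + 1 ≤ t → s i (q i) = q (i + 1) ∧ s i (q (i + 1)) = q i ∧ ∀ j : ℕ, 1 ≤ j → j ≤ t → j ≠ i → j ≠ i + 1 → s i (q j) = q j) (H : Subgroup (Equiv.Perm α)) (hH : H = G ⊓ MulAction.stabilizer (Equiv.Perm α) (q 1) ⊓ MulAction.stabilizer (Equiv.Perm α) (q 2)) (hsq2 : ∀ i : ℕ, 1 ≤ i → i + 1 ≤ t → s i ^ 2 ∈ H) (hbraid : ∀ i : ℕ, 1 ≤ i → i + 2 ≤ t → (s i * s (i + 1)) ^ 3 ∈ H) (hcomm : ∀ i j : ℕ, 1 ≤ i → i + 2 ≤ j → j + 1 ≤ t → (s i * s j) ^ 2 ∈ H ∧ (s j * s i) ^ 2 ∈ H) (hnorm : ∀ i : ℕ, 2 ≤ i → i + 1 ≤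 t → ∀ g ∈ G ⊓ MulAction.stabilizer (Equiv.Perm α) (q 2), s i * g * (s i)⁻¹ ∈ G ⊓ MulAction.stabilizer (Equiv.Perm α) (q 2)) : MulAction.IsMultiplyPretransitive ↥(Subgroup.closure ((G : Set (Equiv.Perm α)) ∪ {x | ∃ i : ℕ, 2 ≤ i ∧ i + 1 ≤ t ∧ x = s i})) α t ∧ Subgroup.closure ((G : Set (Equiv.Perm α)) ∪ {x | ∃ i : ℕ, 2 ≤ i ∧ i + 1 ≤ t ∧ x = s i}) ⊓ fixingSubgroup (Equiv.Perm α) {x | ∃ i : ℕ, 1 ≤ i ∧ i ≤ t ∧ x = q i} = H := by
  classical
  set B : Subgroup (Equiv.Perm α) := G ⊓ MulAction.stabilizer (Equiv.Perm α) (q 2) with hB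
  have hBmem : ∀ x, x ∈ B ↔ x ∈ G ∧ x (q 2) = q 2 := by
    intro x
    rw [hB, Subgroup.mem_inf, MulAction.mem_stabilizer_iff]
    rfl
  have hHmem : ∀ x, x ∈ H ↔ x ∈ G ∧ x (q 1) = q 1 ∧ x (q 2) = q 2 := by
    intro x
    rw [hH, Subgroup.mem_inf, Subgroup.mem_inf, MulAction.mem_stabilizer_iff,
      MulAction.mem_stabilizer_iff, and_assoc]
    rfl
  have hHB : H ≤ B := fun x hx => (hBmem x).2 ⟨((hHmem x).1 hx).1, ((hHmem x).1 hx).2.2⟩
  have hne : ∀ i j : ℕ, 1 ≤ i → i ≤ t → 1 ≤ j → j ≤ t → i ≠ j → q i ≠ q j :=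
    fun i j h1 h2 h3 h4 hij h => hij (hq i j h1 h2 h3 h4 h)
  have hK1 : K B s 1 = G := by
    apply le_antisymm
    · change Subgroup.closure _ ≤ _
      rw [Subgroup.closure_le]
      rintro x (hx | hx)
      · exact ((hBmem x).1 hx).1
      · rw [Set.mem_singleton_iff] at hx
        rw [hx]
        exact hs1
    · intro g hg
      by_cases hg2 : g (q 2) = q 2
      · exact K_le_succ B s 0 ((hBmem g).2 ⟨hg, hg2⟩)
      · obtain ⟨b, hb, hb1, hb2⟩ := h2 (q 1) (q 2) (g (q 2)) (q 2) (by
          intro i hi hit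
          have h3 : q 2 ≠ q i := hne 2 i (by omega) ht (by omega) hit (by omega)
          refine ⟨hne 1 i (by omega) (by omega) (by omega) hit (by omega), h3, ?_, h3⟩
          intro h4
          rw [← hfix g hg i hi hit] at h4
          exact h3 (g.injective h4)) (hne 1 2 (by omega) (by omega) (by omega) ht (by omega)) hg2
        have hbB : b ∈ B := (hBmem b).2 ⟨hb, hb2⟩
        have h4 : (b * s 1)⁻¹ * g ∈ B := by
          rw [hBmem]
          refine ⟨G.mul_mem (G.inv_mem (G.mul_mem hb hs1)) hg, ?_⟩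
          rw [Equiv.Perm.mul_apply, Equiv.Perm.inv_eq_iff_eq, Equiv.Perm.mul_apply, hs1q.2, hb1]
        have h5 : g = b * s 1 * ((b * s 1)⁻¹ * g) := by group
        rw [h5]
        exact (K B s 1).mul_mem ((K B s 1).mul_mem (K_le_succ B s 0 hbB) (s_mem B s 0))
          (K_le_succ B s 0 h4)
  have h0 : ∀ x ∈ K B s 1, x ∈ B ∨ ∃ a ∈ B, ∃ b ∈ B, x = a * s 1 * b := by
    intro g hg
    rw [hK1] at hg
    by_cases hg2 : g (q 2) = q 2
    · exact Or.inl ((hBmem g).2 ⟨hg, hg2⟩)
    · right
      obtain ⟨b, hb, hb1, hb2⟩ := h2 (q 1) (q 2) (g (q 2)) (q 2) (by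
        intro i hi hit
        have h3 : q 2 ≠ q i := hne 2 i (by omega) ht (by omega) hit (by omega)
        refine ⟨hne 1 i (by omega) (by omega) (by omega) hit (by omega), h3, ?_, h3⟩
        intro h4
        rw [← hfix g hg i hi hit] at h4
        exact h3 (g.injective h4)) (hne 1 2 (by omega) (by omega) (by omega) ht (by omega)) hg2
      have hbB : b ∈ B := (hBmem b).2 ⟨hb, hb2⟩
      have h4 : (b * s 1)⁻¹ * g ∈ B := by
        rw [hBmem]
        refine ⟨G.mul_mem (G.inv_mem (G.mul_mem hb hs1)) hg, ?_⟩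
        rw [Equiv.Perm.mul_apply, Equiv.Perm.inv_eq_iff_eq, Equiv.Perm.mul_apply, hs1q.2, hb1]
      exact ⟨b, hbB, _, h4, by group⟩
  have hdec := K_decomp t B H s hHB hsq2 hbraid hcomm hnorm h0
  -- fixed points
  have hKfix : ∀ n, ∀ x ∈ K B s n, ∀ j, n + 2 ≤ j → j ≤ t → x (q j) = q j := by
    intro n
    induction n with
    | zero =>
      intro x hx j hj hjt
      have hx' := (hBmem x).1 hx
      rcases Nat.eq_or_lt_of_le hj with h | h
      · rw [← h]; exact hx'.2
      · exact hfix x hx'.1 j (by omega) hjt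
    | succ n ih =>
      intro x hx j hj hjt
      have hle : K B s (n + 1) ≤ MulAction.stabilizer (Equiv.Perm α) (q j) := by
        change Subgroup.closure _ ≤ _
        rw [Subgroup.closure_le]
        rintro x (hx | hx)
        · exact ih x hx j (by omega) hjt
        · rw [Set.mem_singleton_iff] at hx
          subst hx
          rcases Nat.eq_zero_or_pos n with h | h
          · subst h
            exact hfix _ hs1 j (by omega) hjt
          · exact (hsq (n + 1) (by omega) (by omega)).2.2 j (by omega) hjt (by omega) (by omega)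
      exact hle hx
  -- action of the generators on consecutive points
  have hsn : ∀ n, n + 2 ≤ t → s (n + 1) (q (n + 2)) = q (n + 1) := by
    intro n hn
    rcases Nat.eq_zero_or_pos n with h | h
    · subst h
      exact hs1q.2
    · exact (hsq (n + 1) (by omega) (by omega)).2.1
  have hstab : ∀ n, n + 2 ≤ t → ∀ x ∈ K B s (n + 1), x (q (n + 2)) = q (n + 2) → x ∈ K B s n := by
    intro n hn x hx hxq
    rcases hdec n hn x hx with h | ⟨a, ha, b, hb, rfl⟩
    · exact h
    · exfalso
      rw [Equiv.Perm.mul_apply, Equiv.Perm.mul_apply, hKfix n b hb (n + 2) le_rfl hn, hsn n hn] at hxq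
      have h3 := hKfix n a ha (n + 2) le_rfl hn
      rw [← h3] at hxq
      exact hne (n + 1) (n + 2) (by omega) (by omega) (by omega) hn (by omega) (a.injective hxq)
  -- multiple transitivity
  have htrans : ∀ n, n + 1 ≤ t → ∀ x y : Fin (n + 1) → α, Function.Injective x → Function.Injective y →
      (∀ k j, n + 2 ≤ j → j ≤ t → x k ≠ q j) → (∀ k j, n + 2 ≤ j → j ≤ t → y k ≠ q j) →
      ∃ g ∈ K B s n, ∀ k, g (x k) = y k := by
    intro n
    induction n with
    | zero =>
      intro hn x y hx hy hxq hyq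
      obtain ⟨b, hb, hb1, hb2⟩ := h2 (x 0) (q 2) (y 0) (q 2) (by
        intro i hi hit
        have h3 : q 2 ≠ q i := hne 2 i (by omega) ht (by omega) hit (by omega)
        exact ⟨hxq 0 i (by omega) hit, h3, hyq 0 i (by omega) hit, h3⟩)
        (hxq 0 2 le_rfl ht) (hyq 0 2 le_rfl ht)
      refine ⟨b, (hBmem b).2 ⟨hb, hb2⟩, ?_⟩
      intro k
      have : k = 0 := by
        apply Fin.ext
        have := k.2
        omega
      rw [this, hb1]
    | succ n ih =>
      intro hn x y hx hy hxq hyq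
      -- transitivity of K (n+1)
      have htr : ∀ z, (∀ j, n + 3 ≤ j → j ≤ t → z ≠ q j) → ∃ g ∈ K B s (n + 1), g z = q (n + 2) := by
        intro z hz
        by_cases hz2 : z = q (n + 2)
        · exact ⟨1, (K B s (n + 1)).one_mem, hz2⟩
        · obtain ⟨g, hg, hgz⟩ : ∃ g ∈ K B s n, g z = q (n + 1) := by
            rcases Nat.eq_zero_or_pos n with h | h
            · subst h
              obtain ⟨b, hb, hb1, hb2⟩ := h2 z (q 2) (q 1) (q 2) (by
                intro i hi hit
                have h3 : q 2 ≠ q i := hne 2 i (by omega) ht (by omega) hit (by omega)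
                exact ⟨hz i (by omega) hit, h3, hne 1 i (by omega) (by omega) (by omega) hit (by omega), h3⟩)
                hz2 (hne 1 2 (by omega) (by omega) (by omega) ht (by omega))
              exact ⟨b, (hBmem b).2 ⟨hb, hb2⟩, hb1⟩
            · -- use multiple transitivity of K n on suitable tuples
              let u : Fin (n + 1) → α := fun k => q (k + 1)
              have huinj : Function.Injective u := by
                intro k l hkl
                have := hq (k + 1) (l + 1) (by omega) (by have := k.2; omega) (by omega)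
                  (by have := l.2; omega) hkl
                exact Fin.ext (by omega)
              let v : Fin (n + 1) → α := fun k => Equiv.swap z (q (n + 1)) (q (k + 1))
              have hvinj : Function.Injective v := by
                intro k l hkl
                exact huinj ((Equiv.swap z (q (n + 1))).injective hkl)
              obtain ⟨g, hg, hgv⟩ := ih (by omega) v u hvinj huinj (by
                intro k j hj hjt
                have hkj : q (k + 1) ≠ q j := hne (k + 1) j (by omega) (by have := k.2; omega) (by omega) hjt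
                  (by have := k.2; omega)
                have hzj : z ≠ q j := by
                  rcases Nat.eq_or_lt_of_le hj with h5 | h5
                  · rw [← h5]; exact hz2
                  · exact hz j (by omega) hjt
                have hn1j : q (n + 1) ≠ q j := hne (n + 1) j (by omega) (by omega) (by omega) hjt (by omega)
                change Equiv.swap z (q (n + 1)) (q (k + 1)) ≠ q j
                rw [Equiv.swap_apply_def]
                split_ifs
                · exact hn1j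
                · exact hzj
                · exact hkj) (by
                intro k j hj hjt
                exact hne (k + 1) j (by omega) (by have := k.2; omega) (by omega) hjt
                  (by have := k.2; omega))
              refine ⟨g, hg, ?_⟩
              have h6 := hgv (Fin.last n)
              change g (Equiv.swap z (q (n + 1)) (q (n + 1))) = q (n + 1) at h6
              rwa [Equiv.swap_apply_right] at h6
          refine ⟨(s (n + 1))⁻¹ * g, (K B s (n + 1)).mul_mem ((K B s (n + 1)).inv_mem (s_mem B s n))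
            (K_le_succ B s n hg), ?_⟩
          rw [Equiv.Perm.mul_apply, hgz, Equiv.Perm.inv_eq_iff_eq, hsn n (by omega)]
      obtain ⟨g1, hg1, hg1x⟩ := htr (x (Fin.last (n + 1))) (hxq _)
      obtain ⟨g2, hg2, hg2y⟩ := htr (y (Fin.last (n + 1))) (hyq _)
      have hpres : ∀ (g : Equiv.Perm α) (x : Fin (n + 1 + 1) → α), g ∈ K B s (n + 1) →
          Function.Injective x → (∀ k j, n + 1 + 2 ≤ j → j ≤ t → x k ≠ q j) →
          g (x (Fin.last (n + 1))) = q (n + 2) → ∀ (k : Fin (n + 1)) (j : ℕ), n + 2 ≤ j → j ≤ t →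
          g (x k.castSucc) ≠ q j := by
        intro g x hg hx hxq hgx k j hj hjt h
        rcases Nat.eq_or_lt_of_le hj with h5 | h5
        · rw [← h5, ← hgx] at h
          have h6 := hx (g.injective h)
          exact (Fin.castSucc_lt_last k).ne h6
        · rw [← hKfix (n + 1) g hg j (by omega) hjt] at h
          exact hxq _ j (by omega) hjt (g.injective h)
      obtain ⟨g, hg, hgg⟩ := ih (by omega) (fun k => g1 (x k.castSucc)) (fun k => g2 (y k.castSucc))
        (fun a b hab => Fin.castSucc_injective _ (hx (g1.injective hab)))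
        (fun a b hab => Fin.castSucc_injective _ (hy (g2.injective hab)))
        (hpres g1 x hg1 hx hxq hg1x) (hpres g2 y hg2 hy hyq hg2y)
      refine ⟨g2⁻¹ * (g * g1), (K B s (n + 1)).mul_mem ((K B s (n + 1)).inv_mem hg2)
        ((K B s (n + 1)).mul_mem (K_le_succ B s n hg) hg1), ?_⟩
      intro k
      rw [Equiv.Perm.mul_apply, Equiv.Perm.inv_eq_iff_eq, Equiv.Perm.mul_apply]
      refine Fin.lastCases ?_ (fun k => ?_) k
      · rw [hg1x, hg2y, hKfix n g hg (n + 2) le_rfl (by omega)]
      · exact hgg k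
  -- identification of the closure
  have hclos : ∀ n, n + 2 ≤ t → K B s (n + 1) = Subgroup.closure ((G : Set (Equiv.Perm α)) ∪
      {x | ∃ i : ℕ, 2 ≤ i ∧ i + 1 ≤ n + 2 ∧ x = s i}) := by
    intro n
    induction n with
    | zero =>
      intro _
      rw [hK1]
      apply le_antisymm
      · intro x hx
        exact Subgroup.subset_closure (Or.inl hx)
      · rw [Subgroup.closure_le]
        rintro x (hx | ⟨i, hi, hi2, -⟩)
        · exact hx
        · omega
    | succ n ih =>
      intro hn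
      apply le_antisymm
      · change Subgroup.closure _ ≤ _
        rw [Subgroup.closure_le]
        rintro x (hx | hx)
        · have hx' : x ∈ K B s (n + 1) := hx
          rw [ih (by omega)] at hx'
          refine Subgroup.closure_mono ?_ hx'
          rintro y (hy | ⟨i, hi, hi2, rfl⟩)
          · exact Or.inl hy
          · exact Or.inr ⟨i, hi, by omega, rfl⟩
        · rw [Set.mem_singleton_iff] at hx
          subst hx
          exact Subgroup.subset_closure (Or.inr ⟨n + 1 + 1, by omega, by omega, rfl⟩)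
      · rw [Subgroup.closure_le]
        rintro x (hx | ⟨i, hi, hi2, rfl⟩)
        · rw [← hK1] at hx
          exact K_mono B s (by omega) hx
        · obtain ⟨m, rfl⟩ : ∃ m, i = m + 1 := ⟨i - 1, by omega⟩
          exact K_mono B s (by omega) (s_mem B s m)
  obtain ⟨n, rfl⟩ : ∃ n, t = n + 2 := ⟨t - 2, by omega⟩
  rw [← hclos n le_rfl]
  constructor
  · rw [MulAction.isMultiplyPretransitive_iff]
    intro x y
    obtain ⟨g, hg, hgx⟩ := htrans (n + 1) le_rfl x y x.injective y.injective
      (fun k j hj hjt => by omega) (fun k j hj hjt => by omega)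
    refine ⟨⟨g, hg⟩, ?_⟩
    ext k
    exact hgx k
  · apply le_antisymm
    · rintro x ⟨hx, hxf⟩
      have hxf' : ∀ i, 1 ≤ i → i ≤ n + 2 → x (q i) = q i := by
        intro i hi hit
        exact (mem_fixingSubgroup_iff (Equiv.Perm α)).1 hxf (q i) ⟨i, hi, hit, rfl⟩
      have hdown : ∀ m, m ≤ n + 1 → x ∈ K B s (n + 1 - m) := by
        intro m
        induction m with
        | zero => intro _; exact hx
        | succ m ih =>
          intro hm
          have h5 := ih (by omega)
          have h6 : n + 1 - m = (n + 1 - (m + 1)) + 1 := by omega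
          rw [h6] at h5
          exact hstab _ (by omega) x h5 (hxf' _ (by omega) (by omega))
      have h7 := hdown (n + 1) le_rfl
      rw [Nat.sub_self] at h7
      have h8 := (hBmem x).1 h7
      exact (hHmem x).2 ⟨h8.1, hxf' 1 le_rfl (by omega), h8.2⟩
    · intro x hx
      have hx' := (hHmem x).1 hx
      refine ⟨K_mono B s (Nat.zero_le _) (hHB hx), ?_⟩
      refine (mem_fixingSubgroup_iff (Equiv.Perm α)).2 ?_
      rintro _ ⟨i, hi, hit, rfl⟩
      change x (q i) = q i
      rcases Nat.lt_or_ge i 3 with h | h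
      · have h9 : i = 1 ∨ i = 2 := by omega
        rcases h9 with rfl | rfl
        · exact hx'.2.1
        · exact hx'.2.2
      · exact hfix x hx'.1 i h hit

end Cfsg.Agent.S0709
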