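import Cfsg.Statements.S0710
import Cfsg.Agent.Lib.H15.Cent

set_option autoImplicit false
open Cfsg

namespace Cfsg.Agent.S0710

/-- No transitive permutation group on 13 points has order `13 * 12 * 11 * 10 * 9 * 8`. -/
theorem result {α : Type*} [Fintype α] [DecidableEq α] (hα : Fintype.card α = 13) (G : Subgroup (Equiv.Perm α)) [MulAction.IsPretransitive G α] : Nat.card G ≠ 13 * 12 * 11 * 10 * 9 * 8 := by
  classical
  intro hcard
  have hp : Fact (Nat.Prime 13) := ⟨by norm_num⟩
  obtain ⟨P⟩ : Nonempty (Sylow 13 G) := inferInstance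
  have hPcard : Nat.card P = 13 := by
    rw [Sylow.card_eq_multiplicity, hcard]
    have : (13 * 12 * 11 * 10 * 9 * 8).factorization 13 = 1 := by
      have h1 : 13 * 12 * 11 * 10 * 9 * 8 = 13 ^ 1 * 95040 := by norm_num
      rw [h1, Nat.factorization_mul (by norm_num) (by norm_num), Finsupp.add_apply,
        Nat.Prime.factorization_pow (by norm_num), Finsupp.single_eq_same,
        Nat.factorization_eq_zero_of_not_dvd (by norm_num)]
    rw [this, pow_one]
  -- P is transitive
  have hPtr : MulAction.IsPretransitive (P : Subgroup G) α := by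
    have hne : ∃ a : α, ∃ g : (P : Subgroup G), g • a ≠ a := by
      by_contra hcon
      push Not at hcon
      have h1 : (P : Subgroup G) = ⊥ := by
        rw [eq_bot_iff]
        intro g hg
        rw [Subgroup.mem_bot]
        apply Subtype.ext
        ext a
        exact hcon a ⟨g, hg⟩
      have h2 : Nat.card (P : Subgroup G) = 13 := hPcard
      rw [h1, Subgroup.card_bot] at h2
      omega
    obtain ⟨a, g, hga⟩ := hne
    have horb : Nat.card (MulAction.orbit (P : Subgroup G) a) = 13 := by
      have h1 := Nat.card_congr (MulAction.orbitProdStabilizerEquivGroup (P : Subgroup G) a)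
      rw [Nat.card_prod] at h1
      have h2 : Nat.card (P : Subgroup G) = 13 := hPcard
      rw [h2] at h1
      have h3 : Nat.card (MulAction.orbit (P : Subgroup G) a) ∣ 13 := ⟨_, h1.symm⟩
      rcases (Nat.dvd_prime (by norm_num)).1 h3 with h4 | h4
      · exfalso
        rw [Nat.card_eq_one_iff_unique] at h4
        have := h4.1.elim ⟨g • a, ⟨g, rfl⟩⟩ ⟨a, MulAction.mem_orbit_self a⟩
        exact hga (congrArg Subtype.val this)
      · exact h4
    have huniv : MulAction.orbit (P : Subgroup G) a = Set.univ := by
      apply Set.eq_of_subset_of_ncard_le (Set.subset_univ _)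
      rw [Set.ncard_univ, Nat.card_eq_fintype_card, hα, ← Nat.card_coe_set_eq, horb]
    refine ⟨fun x y => ?_⟩
    have hx : x ∈ MulAction.orbit (P : Subgroup G) a := by rw [huniv]; trivial
    have hy : y ∈ MulAction.orbit (P : Subgroup G) a := by rw [huniv]; trivial
    obtain ⟨g, rfl⟩ := hx
    obtain ⟨h, rfl⟩ := hy
    exact ⟨h * g⁻¹, by simp only; rw [mul_smul, inv_smul_smul]⟩
  -- the centraliser of P has order dividing 13
  set N := Subgroup.normalizer ((P : Subgroup G) : Set G) with hN
  let φ : N →* MulAut (P : Subgroup G) := Subgroup.normalizerMonoidHom (P : Subgroup G)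
  have hker : Nat.card φ.ker ≤ 13 := by
    have hne : Nonempty α := by rw [← Fintype.card_pos_iff, hα]; norm_num
    obtain ⟨a⟩ := hne
    have hinj : Function.Injective (fun c : φ.ker => ((c : N) : G) • a) := by
      intro c d hcd
      simp only at hcd
      have hc : ∀ c : φ.ker, ((((c : N) : G) : Equiv.Perm α)) ∈ Subgroup.centralizer
          (((P : Subgroup G).map G.subtype : Subgroup (Equiv.Perm α)) : Set (Equiv.Perm α)) := by
        intro c
        rw [Subgroup.mem_centralizer_iff]
        rintro _ ⟨x, hx, rfl⟩
        have h1 := c.2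
        rw [MonoidHom.mem_ker] at h1
        have h2 := congrArg (fun f : MulAut (P : Subgroup G) => ((f ⟨x, hx⟩ : (P : Subgroup G)) : G)) h1
        have h3 : ((c : N) : G) * x * ((c : N) : G)⁻¹ = x := h2
        rw [mul_inv_eq_iff_eq_mul] at h3
        exact congrArg G.subtype h3.symm
      have ht : MulAction.IsPretransitive ((P : Subgroup G).map G.subtype) α := by
        refine ⟨fun x y => ?_⟩
        obtain ⟨m, hm⟩ := MulAction.exists_smul_eq (P : Subgroup G) x y
        exact ⟨⟨(m : G), Subgroup.mem_map_of_mem G.subtype m.2⟩, hm⟩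
      have h1 := H15.Cent.eq_one_of_fix _ ht (hc (d⁻¹ * c)) (a := a) (by
        change (((d : N) : G)⁻¹ * ((c : N) : G)) • a = a
        rw [mul_smul, hcd, inv_smul_smul])
      have h2 : d⁻¹ * c = 1 := by
        apply Subtype.ext
        apply Subtype.ext
        apply Subtype.ext
        exact h1
      exact (inv_mul_eq_one.1 h2).symm
    have := Nat.card_le_card_of_injective _ hinj
    rwa [Nat.card_eq_fintype_card (α := α), hα] at this
  have hPle : 13 ∣ Nat.card N := by
    have h1 := Subgroup.card_dvd_of_le (Subgroup.le_normalizer (H := (P : Subgroup G)))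
    have h2 : Nat.card (P : Subgroup G) = 13 := hPcard
    rwa [h2] at h1
  have hrange : Nat.card φ.range ∣ 12 := by
    have h1 : Nat.card (MulAut (P : Subgroup G)) = 12 := by
      have hc : IsCyclic (P : Subgroup G) := isCyclic_of_prime_card (p := 13) hPcard
      rw [IsCyclic.card_mulAut]
      have h2 : Nat.card (P : Subgroup G) = 13 := hPcard
      rw [h2]; decide
    rw [← h1]
    exact Subgroup.card_subgroup_dvd_card _
  have hNcard : Nat.card N = Nat.card φ.range * Nat.card φ.ker := by
    rw [← Subgroup.index_ker φ, mul_comm, Subgroup.card_mul_index]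
  have hmod := card_sylow_modEq_one 13 G
  have hidx := P.card_eq_index_normalizer
  have hmul := Subgroup.card_mul_index N
  rw [hcard] at hmul
  have hidx' : Nat.card (Sylow 13 G) = N.index := hidx
  rw [hidx'] at hmod
  -- arithmetic
  have hr : Nat.card φ.range ∈ Nat.divisors 12 := by
    rw [Nat.mem_divisors]; exact ⟨hrange, by norm_num⟩
  have hr' : Nat.card φ.range ∈ ({1, 2, 3, 4, 6, 12} : Finset ℕ) := by
    have : Nat.divisors 12 = {1, 2, 3, 4, 6, 12} := by decide
    rwa [this] at hr
  generalize hrr : Nat.card φ.range = r at *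
  generalize hkk : Nat.card φ.ker = k at *
  have hk13 : k = 13 := by
    have h1 : 13 ∣ r * k := by rw [← hNcard]; exact hPle
    have h2 : ¬ 13 ∣ r := by
      simp only [Finset.mem_insert, Finset.mem_singleton] at hr'
      rcases hr' with h | h | h | h | h | h <;> rw [h] <;> norm_num
    have h3 : 13 ∣ k := ((Nat.Prime.dvd_mul (by norm_num)).1 h1).resolve_left h2
    have h4 : 0 < k := by rw [← hkk]; exact Nat.card_pos
    exact le_antisymm hker (Nat.le_of_dvd h4 h3)
  rw [hNcard, hk13] at hmul
  generalize N.index = i at *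
  unfold Nat.ModEq at hmod
  simp only [Finset.mem_insert, Finset.mem_singleton] at hr'
  rcases hr' with h | h | h | h | h | h <;> rw [h] at hmul <;> omega

end Cfsg.Agent.S0710
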