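import Cfsg.Statements.S0714
import Mathlib

set_option autoImplicit false
open Cfsg

namespace Cfsg.Agent.S0714

theorem core {α : Type*} [Fintype α] [DecidableEq α] (hα : 5 ≤ Fintype.card α) {K : Type*} [Field K]
    (W : Submodule K (α → K))
    (hW : ∀ g : Equiv.Perm α, Equiv.Perm.sign g = 1 → ∀ f ∈ W, (fun x => f (g⁻¹ x)) ∈ W)
    (f : α → K) (hf : f ∈ W) (a b : α) (hab : f a ≠ f b) (v : α → K) (hv : ∑ x, v x = 0) :
    v ∈ W := by
  have hne : a ≠ b := fun h => hab (by rw [h])
  have hex : ∀ s : Finset α, s.card ≤ 4 → ∃ x, x ∉ s := by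
    intro s hs
    by_contra hcon
    push Not at hcon
    have : s = Finset.univ := Finset.eq_univ_iff_forall.2 hcon
    rw [this, Finset.card_univ] at hs
    omega
  obtain ⟨c, hc⟩ := hex {a, b} (Finset.card_le_two.trans (by norm_num))
  obtain ⟨d, hd⟩ := hex {a, b, c} (Finset.card_le_three.trans (by norm_num))
  obtain ⟨e, he⟩ := hex {a, b, c, d} Finset.card_le_four
  simp only [Finset.mem_insert, Finset.mem_singleton, not_or] at hc hd he
  obtain ⟨hca, hcb⟩ := hc
  obtain ⟨hda, hdb, hdc⟩ := hd
  obtain ⟨hea, heb, hec, hed⟩ := he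
  -- step 1
  set u : α → K := fun x => f x - f ((Equiv.swap a b * Equiv.swap b c)⁻¹ x) with hu
  have huW : u ∈ W := W.sub_mem hf (hW _ (by
    rw [Equiv.Perm.sign_mul, Equiv.Perm.sign_swap hne, Equiv.Perm.sign_swap (Ne.symm hcb)]; simp) f hf)
  have hub : u b ≠ 0 := by
    have : (Equiv.swap a b * Equiv.swap b c)⁻¹ b = a := by
      rw [Equiv.Perm.inv_eq_iff_eq, Equiv.Perm.mul_apply, Equiv.swap_apply_of_ne_of_ne hne (Ne.symm hca),
        Equiv.swap_apply_left]
    simp only [hu, this]
    exact sub_ne_zero.2 (Ne.symm hab)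
  have hux : ∀ x, x ≠ a → x ≠ b → x ≠ c → u x = 0 := by
    intro x h1 h2 h3
    have : (Equiv.swap a b * Equiv.swap b c)⁻¹ x = x := by
      rw [Equiv.Perm.inv_eq_iff_eq, Equiv.Perm.mul_apply, Equiv.swap_apply_of_ne_of_ne h2 h3,
        Equiv.swap_apply_of_ne_of_ne h1 h2]
    simp only [hu, this, sub_self]
  -- step 2
  have hbd : (Pi.single b 1 - Pi.single d 1 : α → K) ∈ W := by
    have h1 : (fun x => u x - u ((Equiv.swap b d * Equiv.swap d e)⁻¹ x)) ∈ W :=
      W.sub_mem huW (hW _ (by
        rw [Equiv.Perm.sign_mul, Equiv.Perm.sign_swap (Ne.symm hdb), Equiv.Perm.sign_swap (Ne.symm hed)]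
        simp) u huW)
    have h2 := W.smul_mem (u b)⁻¹ h1
    convert h2 using 1
    funext x
    simp only [Pi.sub_apply, Pi.smul_apply, smul_eq_mul]
    have hinv : ∀ y, (Equiv.swap b d * Equiv.swap d e)⁻¹ y =
        Equiv.swap d e (Equiv.swap b d y) := by
      intro y
      rw [mul_inv_rev, Equiv.Perm.mul_apply, Equiv.swap_inv, Equiv.swap_inv]
    rw [hinv]
    by_cases hxb : x = b
    · subst hxb
      rw [Equiv.swap_apply_left, Equiv.swap_apply_left, hux e hea heb hec, sub_zero,
        inv_mul_cancel₀ hub, Pi.single_eq_same, Pi.single_eq_of_ne (Ne.symm hdb), sub_zero]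
    by_cases hxd : x = d
    · subst hxd
      rw [Equiv.swap_apply_right, Equiv.swap_apply_of_ne_of_ne (Ne.symm hdb) (Ne.symm heb),
        hux x hda hdb hdc, Pi.single_eq_same, Pi.single_eq_of_ne hdb]
      field_simp
      ring
    by_cases hxe : x = e
    · subst hxe
      rw [Equiv.swap_apply_of_ne_of_ne heb hed, Equiv.swap_apply_right,
        hux x hea heb hec, hux d hda hdb hdc, Pi.single_eq_of_ne heb, Pi.single_eq_of_ne hed]
      simp
    · rw [Equiv.swap_apply_of_ne_of_ne hxb hxd, Equiv.swap_apply_of_ne_of_ne hxd hxe,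
        Pi.single_eq_of_ne hxb, Pi.single_eq_of_ne hxd]
      simp
  -- step 3
  have hsing : ∀ (g : Equiv.Perm α) (x : α), (fun y => (Pi.single x 1 : α → K) (g⁻¹ y)) =
      Pi.single (g x) 1 := by
    intro g x
    funext y
    by_cases h : y = g x
    · subst h
      simp
    · rw [Pi.single_eq_of_ne h, Pi.single_eq_of_ne]
      intro h'
      exact h (by rw [← h']; simp)
  have hall : ∀ x, x ≠ b → (Pi.single x 1 - Pi.single b 1 : α → K) ∈ W := by
    intro x hxb
    -- a permutation with b ↦ b, d ↦ x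
    have hex2 : ∃ g : Equiv.Perm α, Equiv.Perm.sign g = 1 ∧ g b = b ∧ g d = x := by
      by_cases hxd : x = d
      · exact ⟨1, by simp, by simp, by simp [hxd]⟩
      obtain ⟨y, hy⟩ := hex {b, d, x} (Finset.card_le_three.trans (by norm_num))
      simp only [Finset.mem_insert, Finset.mem_singleton, not_or] at hy
      obtain ⟨hyb, hyd, hyx⟩ := hy
      refine ⟨Equiv.swap d x * Equiv.swap x y, ?_, ?_, ?_⟩
      · rw [Equiv.Perm.sign_mul, Equiv.Perm.sign_swap (Ne.symm hxd), Equiv.Perm.sign_swap (Ne.symm hyx)]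
        simp
      · rw [Equiv.Perm.mul_apply, Equiv.swap_apply_of_ne_of_ne (Ne.symm hxb) (Ne.symm hyb),
          Equiv.swap_apply_of_ne_of_ne (Ne.symm hdb) (Ne.symm hxb)]
      · rw [Equiv.Perm.mul_apply, Equiv.swap_apply_of_ne_of_ne (Ne.symm hxd) (Ne.symm hyd),
          Equiv.swap_apply_left]
    obtain ⟨g, hg1, hgb, hgd⟩ := hex2
    have h1 := W.neg_mem (hW g hg1 _ hbd)
    convert h1 using 1
    have h2 := hsing g b
    have h3 := hsing g d
    rw [hgb] at h2
    rw [hgd] at h3
    funext y
    have e2 := congrFun h2 y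
    have e3 := congrFun h3 y
    simp only [Pi.sub_apply, Pi.neg_apply] at e2 e3 ⊢
    rw [← e2, ← e3]
    ring
  have hv2 : v = ∑ x, v x • (Pi.single x 1 - Pi.single b 1 : α → K) := by
    simp only [smul_sub, Finset.sum_sub_distrib, ← Finset.sum_smul, hv, zero_smul, sub_zero]
    funext y
    rw [Finset.sum_apply, Finset.sum_eq_single y]
    · simp
    · intro z _ hz
      simp [Pi.single_eq_of_ne (Ne.symm hz)]
    · simp
  rw [hv2]
  refine W.sum_mem fun x _ => W.smul_mem _ ?_
  by_cases hxb : x = b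
  · rw [hxb, sub_self]
    exact W.zero_mem
  · exact hall x hxb

/-- Over any field, the permutation module of the alternating group of degree at least 5 has exactly four invariant subspaces: zero, the constant functions, the functions with coordinate sum zero, and everything. -/
theorem result {α : Type*} [Fintype α] [DecidableEq α] (hα : 5 ≤ Fintype.card α) {K : Type*} [Field K] (W : Subrepresentation (Cfsg.permRep K (alternatingGroup α) α)) : W.toSubmodule = ⊥ ∨ W = Cfsg.permConstants K (alternatingGroup α) α ∨ W = Cfsg.permSumZero K (alternatingGroup α) α ∨ W.toSubmodule = ⊤ := by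
  classical
  have hW : ∀ g : Equiv.Perm α, Equiv.Perm.sign g = 1 → ∀ f ∈ W.toSubmodule,
      (fun x => f (g⁻¹ x)) ∈ W.toSubmodule := by
    intro g hg f hf
    exact W.apply_mem_toSubmodule (⟨g, Equiv.Perm.mem_alternatingGroup.2 hg⟩ : alternatingGroup α) hf
  by_cases hc : ∃ f ∈ W.toSubmodule, ∃ a b, f a ≠ f b
  · obtain ⟨f, hf, a, b, hab⟩ := hc
    have key := core hα W.toSubmodule hW f hf a b hab
    right; right
    by_cases hs : ∀ w ∈ W.toSubmodule, ∑ x, w x = 0
    · left
      apply Subrepresentation.toSubmodule_injective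
      apply le_antisymm
      · intro w hw
        exact hs w hw
      · intro w hw
        exact key w hw
    · right
      push Not at hs
      obtain ⟨w, hw, hws⟩ := hs
      rw [eq_top_iff]
      intro v _
      have h1 : v = (v - ((∑ x, v x) / ∑ x, w x) • w) + ((∑ x, v x) / ∑ x, w x) • w := by
        rw [sub_add_cancel]
      rw [h1]
      refine W.toSubmodule.add_mem (key _ ?_) (W.toSubmodule.smul_mem _ hw)
      simp only [Pi.sub_apply, Pi.smul_apply, smul_eq_mul, Finset.sum_sub_distrib, ← Finset.mul_sum]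
      field_simp
      ring
  · push Not at hc
    by_cases h0 : W.toSubmodule = ⊥
    · exact Or.inl h0
    right; left
    apply Subrepresentation.toSubmodule_injective
    have hne : Nonempty α := Fintype.card_pos_iff.1 (by omega)
    obtain ⟨a⟩ := hne
    have hform : ∀ f ∈ W.toSubmodule, f = f a • (fun _ => (1 : K)) := by
      intro f hf
      funext x
      rw [Pi.smul_apply, smul_eq_mul, mul_one]
      exact hc f hf x a
    apply le_antisymm
    · intro f hf
      exact Submodule.mem_span_singleton.2 ⟨f a, (hform f hf).symm⟩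
    · obtain ⟨f, hf, hf0⟩ := (Submodule.ne_bot_iff _).1 h0
      have hfa : f a ≠ 0 := by
        intro h
        apply hf0
        rw [hform f hf, h, zero_smul]
      intro w hw
      obtain ⟨c, rfl⟩ := Submodule.mem_span_singleton.1 hw
      have h1 : (fun _ => (1 : K)) ∈ W.toSubmodule := by
        have h2 := W.toSubmodule.smul_mem (f a)⁻¹ hf
        rwa [hform f hf, Pi.smul_apply, smul_smul, smul_eq_mul, mul_one, inv_mul_cancel₀ hfa, one_smul] at h2
      exact W.toSubmodule.smul_mem c h1

end Cfsg.Agent.S0714
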