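import Cfsg.Statements.S0715
import Cfsg.Agent.Lib.H15.Orbital

set_option autoImplicit false
open Cfsg

namespace Cfsg.Agent.S0715

open H18.CharBasic H18.CharOrtho

theorem deg_split {G : Type*} [Group G] [Fintype G] (f : ℕ) (s : Multiset (G → ℂ))
    (hs : ∀ χ ∈ s, Cfsg.IsIrrCharacter G χ)
    (hf : ∀ χ ∈ s, χ ≠ (fun _ => 1) → ∃ m : ℕ, χ 1 = (f : ℂ) * m) :
    ∃ n : ℕ, s.sum 1 = Cfsg.classInner s.sum (fun _ => 1) + f * n := by
  induction s using Multiset.induction_on with
  | empty => exact ⟨0, by simp⟩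
  | cons χ s ih =>
    obtain ⟨n, hn⟩ := ih (fun ψ h => hs ψ (Multiset.mem_cons_of_mem h))
      (fun ψ h => hf ψ (Multiset.mem_cons_of_mem h))
    rw [Multiset.sum_cons, Pi.add_apply, hn, H18.CharOrtho.inner_add_left]
    by_cases h1 : χ = fun _ => 1
    · refine ⟨n, ?_⟩
      rw [h1, inner_irr_self isIrrCharacter_one]
      ring
    · obtain ⟨m, hm⟩ := hf χ (Multiset.mem_cons_self χ s) h1
      refine ⟨m + n, ?_⟩
      rw [hm, inner_irr_ne (hs χ (Multiset.mem_cons_self χ s)) isIrrCharacter_one h1]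
      push_cast
      ring

theorem inner_mem_ne {G : Type*} [Group G] [Fintype G] (s : Multiset (G → ℂ))
    (hs : ∀ χ ∈ s, Cfsg.IsIrrCharacter G χ) {χ : G → ℂ} (hχ : χ ∈ s) :
    Cfsg.classInner s.sum χ ≠ 0 := by
  obtain ⟨t, rfl⟩ := Multiset.exists_cons_of_mem hχ
  rw [Multiset.sum_cons, H18.CharOrtho.inner_add_left, inner_irr_self (hs χ hχ)]
  obtain ⟨n, hn⟩ := inner_char_natCast (isCharacter_multiset_sum t (fun ψ hψ =>
    isCharacter_of_isIrr (hs ψ (Multiset.mem_cons_of_mem hψ)))) (isCharacter_of_isIrr (hs χ hχ))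
  rw [hn]
  have : ((1 + n : ℕ) : ℂ) ≠ 0 := by
    rw [Nat.cast_ne_zero]
    omega
  push_cast at this
  exact this

/-- If a natural number `f` divides the degree of every non-principal irreducible constituent of the permutation character of a transitive group, then `f` divides every non-trivial subdegree. -/
theorem result {G : Type*} [Group G] [Fintype G] {Ω : Type*} [Fintype Ω] [MulAction G Ω] [MulAction.IsPretransitive G Ω] (f : ℕ) (hf : ∀ χ : G → ℂ, Cfsg.IsIrrCharacter G χ → χ ≠ (fun _ => 1) → Cfsg.classInner (fun g : G => (Nat.card (MulAction.fixedBy Ω g) : ℂ)) χ ≠ 0 → ∃ m : ℕ, χ 1 = (f : ℂ) * m) (a b : Ω) (hab : b ≠ a) : f ∣ Nat.card (MulAction.orbit (MulAction.stabilizer G a) b) := by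
  classical
  have hne : Nonempty Ω := ⟨a⟩
  rw [← H15.Commutant.permRep_char' (G := G) Ω] at hf
  set A := H15.PermMod.relOp (H15.PermMod.orbital G a b) with hA'
  have hA := H15.PermMod.relOp_comm (G := G) (H15.PermMod.orbital_inv (G := G) a b)
  set d := Nat.card (MulAction.orbit (MulAction.stabilizer G a) b) with hd
  have hone : (fun _ => 1 : Ω → ℂ) ≠ 0 := by
    intro h
    exact one_ne_zero (congrFun h a)
  have hds : (d : ℂ) ∈ H15.Spectral.spec A := by
    rw [H15.Spectral.mem_spec]
    intro h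
    have hmem : (fun _ => 1 : Ω → ℂ) ∈ Module.End.maxGenEigenspace A (d : ℂ) := by
      apply Module.End.eigenspace_le_maxGenEigenspace
      rw [Module.End.mem_eigenspace_iff]
      exact H15.Orbital.relOp_one a b
    rw [h, Submodule.mem_bot] at hmem
    exact hone hmem
  -- dimensions
  have hdim : ∀ l, ∃ n : ℕ, l ∈ H15.Spectral.spec A →
      (Module.finrank ℂ (Module.End.maxGenEigenspace A l) : ℂ) =
      (if l = (d : ℂ) then 1 else 0) + f * n := by
    intro l
    by_cases hl : l ∈ H15.Spectral.spec A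
    swap
    · exact ⟨0, fun h => absurd h hl⟩
    have h1 := H15.Orbital.inner_W_one (G := G) a b l hl
    obtain ⟨s, hs, hsum⟩ := exists_multiset_of_rep _
      (H15.Spectral.W (permRep ℂ G Ω) hA l).toRepresentation rfl
    obtain ⟨n, hn⟩ := deg_split f s hs (by
      intro χ hχ hne1
      apply hf χ (hs χ hχ) hne1
      intro h0
      rw [H15.Orbital.inner_eq_sum (permRep ℂ G Ω) hA χ] at h0
      have hnat : ∀ l, ∃ m : ℕ, classInner (H15.Spectral.W (permRep ℂ G Ω) hA l).toRepresentation.character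
        χ = m := fun l => inner_char_natCast (isCharacter_of_rep _) (isCharacter_of_isIrr (hs χ hχ))
      choose m hm using hnat
      have h3 : ∑ l ∈ H15.Spectral.spec A, m l = 0 := by
        have h4 : ((∑ l ∈ H15.Spectral.spec A, m l : ℕ) : ℂ) = 0 := by
          rw [← h0]
          push_cast
          exact Finset.sum_congr rfl fun l _ => (hm l).symm
        exact_mod_cast h4
      have h5 := (Finset.sum_eq_zero_iff.1 h3) l hl
      have h6 := hm l
      rw [h5, hsum, Nat.cast_zero] at h6
      exact inner_mem_ne s hs hχ h6)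
    refine ⟨n, fun _ => ?_⟩
    rw [← hsum, Representation.char_one, h1] at hn
    exact hn
  choose n hn using hdim
  have htr := H15.Spectral.trace_pow A 1
  rw [pow_one, H15.Orbital.trace_orbital hab] at htr
  have h2 : ∑ l ∈ H15.Spectral.spec A, l ^ 1 * (Module.finrank ℂ (Module.End.maxGenEigenspace A l) : ℂ) =
      d + f * ∑ l ∈ H15.Spectral.spec A, l * n l := by
    have h3 : ∀ l ∈ H15.Spectral.spec A, l ^ 1 * (Module.finrank ℂ (Module.End.maxGenEigenspace A l) : ℂ) =
        (if l = (d : ℂ) then (d : ℂ) else 0) + f * (l * n l) := by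
      intro l hl
      rw [hn l hl]
      split_ifs with h
      · rw [h]; ring
      · ring
    rw [Finset.sum_congr rfl h3, Finset.sum_add_distrib, Finset.sum_ite_eq' _ (d : ℂ), if_pos hds,
      Finset.mul_sum]
  rw [h2] at htr
  by_cases hf0 : f = 0
  · subst hf0
    rw [Nat.cast_zero, zero_mul, add_zero] at htr
    have : d = 0 := by exact_mod_cast htr.symm
    rw [this]
  · apply H4.Integral.dvd_of_isIntegral_div hf0
    have hf0' : (f : ℂ) ≠ 0 := by exact_mod_cast hf0
    have h3 : (d : ℂ) / f = - ∑ l ∈ H15.Spectral.spec A, l * n l := by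
      rw [div_eq_iff hf0']
      linear_combination -htr
    rw [h3]
    apply IsIntegral.neg
    refine IsIntegral.sum _ fun l hl => ?_
    refine IsIntegral.mul (H15.Orbital.isIntegral_spec _ hl) ?_
    exact isIntegral_algebraMap (R := ℤ) (A := ℂ) (x := (n l : ℤ)) |> fun h => by simpa using h

end Cfsg.Agent.S0715
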