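import Cfsg.Statements.S0716
import Cfsg.Agent.Lib.H15.Orbital
import Cfsg.Agent.S0715

set_option autoImplicit false
open Cfsg

namespace Cfsg.Agent.S0716

open H18.CharBasic H18.CharOrtho H15.Commutant

/-- the rank -/
theorem card_orbits {G : Type*} [Group G] {Ω : Type*} [MulAction G Ω] [MulAction.IsPretransitive G Ω]
    (a : Ω) : Nat.card (MulAction.orbitRel.Quotient (MulAction.stabilizer G a) Ω) =
      Nat.card (MulAction.orbitRel.Quotient G (Ω × Ω)) := by
  let φ : MulAction.orbitRel.Quotient (MulAction.stabilizer G a) Ω →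
      MulAction.orbitRel.Quotient G (Ω × Ω) :=
    Quotient.map' (fun b => (a, b)) (by
      rintro x y ⟨⟨g, hg⟩, h⟩
      refine ⟨g, ?_⟩
      have h' : g • y = x := h
      change (g • a, g • y) = (a, x)
      rw [h', MulAction.mem_stabilizer_iff.1 hg])
  have hφ : Function.Bijective φ := by
    constructor
    · intro x y
      induction x using Quotient.inductionOn' with
      | h x =>
        induction y using Quotient.inductionOn' with
        | h y =>
          intro h
          obtain ⟨g, hg⟩ := Quotient.exact' h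
          have h1 : g • a = a := congrArg Prod.fst hg
          have h2 : g • y = x := congrArg Prod.snd hg
          exact Quotient.sound' ⟨⟨g, h1⟩, h2⟩
    · intro z
      induction z using Quotient.inductionOn' with
      | h z =>
        obtain ⟨x, y⟩ := z
        obtain ⟨g, hg⟩ := MulAction.exists_smul_eq G x a
        refine ⟨Quotient.mk'' (g • y), ?_⟩
        apply Quotient.sound'
        refine ⟨g, ?_⟩
        change (g • x, g • y) = (a, g • y)
        rw [hg]
  exact Nat.card_congr (Equiv.ofBijective φ hφ)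

/-- the numerical data: degrees and multiplicities -/
theorem exists_data {G : Type*} [Group G] [Fintype G] {Ω : Type*} [Fintype Ω] [MulAction G Ω]
    [MulAction.IsPretransitive G Ω] [Fintype (IrrCharacter G)] (a : Ω) :
    ∃ (m d : IrrCharacter G → ℕ) (e : IrrCharacter G), (e : G → ℂ) = (fun _ => 1) ∧
      (∀ χ : IrrCharacter G, classInner (fun g : G => (Nat.card (MulAction.fixedBy Ω g) : ℂ)) (χ : G → ℂ) = m χ) ∧
      (∀ χ : IrrCharacter G, (χ : G → ℂ) 1 = d χ) ∧ (∀ χ, 0 < d χ) ∧ m e = 1 ∧ d e = 1 ∧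
      ∑ χ, m χ * d χ = Nat.card Ω ∧
      ∑ χ, m χ ^ 2 = Nat.card (MulAction.orbitRel.Quotient (MulAction.stabilizer G a) Ω) := by
  classical
  have hne : Nonempty Ω := ⟨a⟩
  rw [← permRep_char' (G := G) Ω]
  choose m hm using fun χ : IrrCharacter G => mult_nat (permRep ℂ G Ω) χ.2
  choose d hd using fun χ : IrrCharacter G => exists_degree_pos χ.2
  let e : IrrCharacter G := ⟨fun _ => 1, isIrrCharacter_one⟩
  refine ⟨m, d, e, rfl, hm, fun χ => (hd χ).2, fun χ => (hd χ).1, ?_, ?_, ?_, ?_⟩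
  · have h1 := H15.Orbital.inner_one (G := G) (Ω := Ω)
    have h2 := hm e
    rw [h1] at h2
    exact_mod_cast h2.symm
  · have h1 := (hd e).2
    have h2 : (e : G → ℂ) 1 = 1 := rfl
    rw [h2] at h1
    exact_mod_cast h1.symm
  · have h1 := mem_classFun_expand (isClassFunction_of_isCharacter (isCharacter_of_rep (permRep ℂ G Ω)))
    have h2 := congrFun h1 1
    rw [Representation.char_one, Finset.sum_apply, Module.finrank_fintype_fun_eq_card] at h2
    have h3 : (Nat.card Ω : ℂ) = ((∑ χ, m χ * d χ : ℕ) : ℂ) := by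
      rw [Nat.card_eq_fintype_card, h2]
      push_cast
      refine Finset.sum_congr rfl fun χ _ => ?_
      rw [Pi.smul_apply, smul_eq_mul, hm, (hd χ).2]
    exact_mod_cast h3.symm
  · rw [card_orbits a]
    have h1 := H4.TwoTrans.inner_permChar_self (G := G) Ω
    have h2 := inner_self_sum (permRep ℂ G Ω)
    rw [permRep_char'] at h2
    have h3 : ((∑ χ, m χ ^ 2 : ℕ) : ℂ) = (Nat.card (MulAction.orbitRel.Quotient G (Ω × Ω)) : ℂ) := by
      rw [← h1]
      refine Eq.trans ?_ h2.symm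
      push_cast
      refine Finset.sum_congr rfl fun χ _ => ?_
      have h4 := hm χ
      rw [permRep_char'] at h4
      rw [h4, pow_two]
    exact_mod_cast h3

theorem part_a {G : Type*} [Group G] [Fintype G] {Ω : Type*} [Fintype Ω] [MulAction G Ω]
    [MulAction.IsPretransitive G Ω] (a : Ω) (f : ℕ)
    (hf : ∀ χ : G → ℂ, Cfsg.IsIrrCharacter G χ → χ ≠ (fun _ => 1) →
      Cfsg.classInner (fun g : G => (Nat.card (MulAction.fixedBy Ω g) : ℂ)) χ ≠ 0 → χ 1 = f) :
    (∀ χ : G → ℂ, Cfsg.IsIrrCharacter G χ →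
      Cfsg.classInner (fun g : G => (Nat.card (MulAction.fixedBy Ω g) : ℂ)) χ = 0 ∨
      Cfsg.classInner (fun g : G => (Nat.card (MulAction.fixedBy Ω g) : ℂ)) χ = 1) ∧
    ∀ b : Ω, b ≠ a → Nat.card (MulAction.orbit (MulAction.stabilizer G a) b) = f := by
  classical
  have := Fintype.ofFinite (IrrCharacter G)
  obtain ⟨m, d, e, he, hm, hd, hdpos, hme, hde, hsum1, hsum2⟩ := exists_data (G := G) a
  have hdf : ∀ χ, χ ≠ e → m χ ≠ 0 → d χ = f := by
    intro χ hχ h0
    have h1 := hf χ χ.2 (fun h => hχ (Subtype.ext (h.trans he.symm))) (by rw [hm]; exact_mod_cast h0)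
    rw [hd] at h1
    exact_mod_cast h1
  have hdvd : ∀ b : Ω, b ≠ a → f ∣ Nat.card (MulAction.orbit (MulAction.stabilizer G a) b) :=
    fun b hb => Cfsg.Agent.S0715.result f (fun χ h1 h2 h3 => ⟨1, by rw [hf χ h1 h2 h3]; simp⟩) a b hb
  -- orbit decomposition
  let Q := MulAction.orbitRel.Quotient (MulAction.stabilizer G a) Ω
  have hQfin : Finite Q := Quotient.finite _
  have hsum2' : ∑ χ, m χ ^ 2 = Nat.card Q := hsum2
  have := Fintype.ofFinite Q
  let g : Q → ℕ := fun ω => Nat.card ω.orbit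
  have hgb : ∀ b : Ω, g (Quotient.mk'' b) = Nat.card (MulAction.orbit (MulAction.stabilizer G a) b) := by
    intro b
    change Nat.card (MulAction.orbitRel.Quotient.orbit (Quotient.mk'' b)) = _
    rw [MulAction.orbitRel.Quotient.orbit_mk]
  have hsumg : ∑ ω : Q, g ω = Nat.card Ω := by
    rw [Nat.card_congr (MulAction.selfEquivSigmaOrbits' (MulAction.stabilizer G a) Ω), Nat.card_sigma]
  let qa : Q := Quotient.mk'' a
  have hga : g qa = 1 := by
    rw [hgb, Nat.card_eq_one_iff_unique]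
    refine ⟨⟨?_⟩, ⟨⟨a, MulAction.mem_orbit_self a⟩⟩⟩
    rintro ⟨_, ⟨⟨x, hx⟩, rfl⟩⟩ ⟨_, ⟨⟨y, hy⟩, rfl⟩⟩
    apply Subtype.ext
    exact (MulAction.mem_stabilizer_iff.1 hx).trans (MulAction.mem_stabilizer_iff.1 hy).symm
  have hgf : ∀ ω, ω ≠ qa → f ∣ g ω ∧ 0 < g ω := by
    intro ω hω
    induction ω using Quotient.inductionOn' with
    | h b =>
      rw [hgb]
      refine ⟨hdvd b (fun h => hω (by rw [h])), ?_⟩
      have : Nonempty (MulAction.orbit (MulAction.stabilizer G a) b) := ⟨⟨b, MulAction.mem_orbit_self b⟩⟩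
      exact Nat.card_pos
  have e1 : ∑ χ ∈ Finset.univ.erase e, m χ * d χ = ∑ ω ∈ Finset.univ.erase qa, g ω := by
    have h1 := Finset.add_sum_erase Finset.univ (fun χ => m χ * d χ) (Finset.mem_univ e)
    have h2 := Finset.add_sum_erase Finset.univ g (Finset.mem_univ qa)
    rw [hsum1] at h1
    rw [hsumg] at h2
    rw [hme, hde] at h1
    rw [hga] at h2
    omega
  have e2 : ∑ χ ∈ Finset.univ.erase e, m χ ^ 2 = (Finset.univ.erase qa).card := by
    have h1 := Finset.add_sum_erase Finset.univ (fun χ => m χ ^ 2) (Finset.mem_univ e)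
    rw [hsum2', hme, Nat.card_eq_fintype_card] at h1
    rw [Finset.card_erase_of_mem (Finset.mem_univ _), Finset.card_univ]
    omega
  have e3 : ∑ χ ∈ Finset.univ.erase e, m χ * d χ = f * ∑ χ ∈ Finset.univ.erase e, m χ := by
    rw [Finset.mul_sum]
    refine Finset.sum_congr rfl fun χ hχ => ?_
    by_cases h0 : m χ = 0
    · rw [h0]; ring
    · rw [hdf χ (Finset.ne_of_mem_erase hχ) h0, mul_comm]
  have e4 : f * (Finset.univ.erase qa).card ≤ ∑ ω ∈ Finset.univ.erase qa, g ω := by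
    rw [mul_comm, ← smul_eq_mul, ← Finset.sum_const]
    refine Finset.sum_le_sum fun ω hω => ?_
    obtain ⟨h1, h2⟩ := hgf ω (Finset.ne_of_mem_erase hω)
    exact Nat.le_of_dvd h2 h1
  have e5 : ∑ χ ∈ Finset.univ.erase e, m χ ≤ ∑ χ ∈ Finset.univ.erase e, m χ ^ 2 :=
    Finset.sum_le_sum fun χ _ => Nat.le_self_pow (by norm_num) _
  rw [e3] at e1
  rw [← e2] at e4
  by_cases hf0 : f = 0
  · -- no non-principal constituents
    have h1 : ∀ χ, χ ≠ e → m χ = 0 := by
      intro χ hχ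
      by_contra h0
      have h2 := hdf χ hχ h0
      have h3 := hdpos χ
      omega
    rw [hf0, zero_mul] at e1
    constructor
    · intro χ hχ
      by_cases h2 : (⟨χ, hχ⟩ : IrrCharacter G) = e
      · right
        have h3 := hm ⟨χ, hχ⟩
        rw [h2, hme, ← h2] at h3
        simpa using h3
      · left
        have h3 := hm ⟨χ, hχ⟩
        rw [h1 _ h2] at h3
        simpa using h3
    · intro b hb
      exfalso
      have h2 := (Finset.sum_eq_zero_iff.1 e1.symm) (Quotient.mk'' b : Q) (by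
        rw [Finset.mem_erase]
        refine ⟨?_, Finset.mem_univ _⟩
        intro h
        obtain ⟨⟨x, hx⟩, hxb⟩ := Quotient.exact' h
        exact hb (hxb.symm.trans hx))
      rw [hgb] at h2
      have : Nonempty (MulAction.orbit (MulAction.stabilizer G a) b) := ⟨⟨b, MulAction.mem_orbit_self b⟩⟩
      have : 0 < Nat.card (MulAction.orbit (MulAction.stabilizer G a) b) := Nat.card_pos
      omega
  · have hfpos : 0 < f := Nat.pos_of_ne_zero hf0
    have h1 : ∑ χ ∈ Finset.univ.erase e, m χ ^ 2 ≤ ∑ χ ∈ Finset.univ.erase e, m χ := by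
      rw [← e1] at e4
      exact Nat.le_of_mul_le_mul_left e4 hfpos
    have h2 := le_antisymm e5 h1
    have h3 := (Finset.sum_eq_sum_iff_of_le (fun χ _ => Nat.le_self_pow (n := 2) (by norm_num) (m χ))).1 h2
    constructor
    · intro χ hχ
      have h4 := hm ⟨χ, hχ⟩
      have h4' : classInner (fun g : G => (Nat.card (MulAction.fixedBy Ω g) : ℂ)) χ =
        (m ⟨χ, hχ⟩ : ℂ) := h4
      rw [h4']
      by_cases h5 : (⟨χ, hχ⟩ : IrrCharacter G) = e
      · right; rw [h5, hme, Nat.cast_one]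
      · have h6 := h3 ⟨χ, hχ⟩ (Finset.mem_erase.2 ⟨h5, Finset.mem_univ _⟩)
        generalize m ⟨χ, hχ⟩ = k at h6
        have h7 : k = 0 ∨ k = 1 := by
          rcases Nat.lt_or_ge k 2 with h | h
          · omega
          · nlinarith
        rcases h7 with h7 | h7
        · left; rw [h7, Nat.cast_zero]
        · right; rw [h7, Nat.cast_one]
    · intro b hb
      have h4 : ∑ ω ∈ Finset.univ.erase qa, f = ∑ ω ∈ Finset.univ.erase qa, g ω := by
        rw [Finset.sum_const, smul_eq_mul, ← e1, ← e2, ← h2, mul_comm]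
      have h5 := (Finset.sum_eq_sum_iff_of_le (fun ω hω => by
        obtain ⟨h1, h2⟩ := hgf ω (Finset.ne_of_mem_erase hω)
        exact Nat.le_of_dvd h2 h1)).1 h4 (Quotient.mk'' b : Q) (by
        rw [Finset.mem_erase]
        refine ⟨?_, Finset.mem_univ _⟩
        intro h
        obtain ⟨⟨x, hx⟩, hxb⟩ := Quotient.exact' h
        exact hb (hxb.symm.trans hx))
      rw [hgb] at h5
      exact h5.symm

/-- (a) If all non-principal irreducible constituents of the permutation character of a transitive group have the same degree `f`, the character is multiplicity-free and all non-trivial subdegrees equal `f`. (b) A transitive group of rank at most 5 has multiplicity-free permutation character. -/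
theorem result {G : Type*} [Group G] [Fintype G] {Ω : Type*} [Fintype Ω] [MulAction G Ω] [MulAction.IsPretransitive G Ω] (a : Ω) : ((f : ℕ) → (∀ χ : G → ℂ, Cfsg.IsIrrCharacter G χ → χ ≠ (fun _ => 1) → Cfsg.classInner (fun g : G => (Nat.card (MulAction.fixedBy Ω g) : ℂ)) χ ≠ 0 → χ 1 = f) → (∀ χ : G → ℂ, Cfsg.IsIrrCharacter G χ → Cfsg.classInner (fun g : G => (Nat.card (MulAction.fixedBy Ω g) : ℂ)) χ = 0 ∨ Cfsg.classInner (fun g : G => (Nat.card (MulAction.fixedBy Ω g) : ℂ)) χ = 1) ∧ ∀ b : Ω, b ≠ a → Nat.card (MulAction.orbit (MulAction.stabilizer G a) b) = f) ∧ (Nat.card (MulAction.orbitRel.Quotient (MulAction.stabilizer G a) Ω) ≤ 5 → ∀ χ : G → ℂ, Cfsg.IsIrrCharacter G χ → Cfsg.classInner (fun g : G => (Nat.card (MulAction.fixedBy Ω g) : ℂ)) χ = 0 ∨ Cfsg.classInner (fun g : G => (Nat.card (MulAction.fixedBy Ω g) : ℂ)) χ = 1) := by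
  classical
  refine ⟨fun f hf => part_a a f hf, ?_⟩
  intro hr
  by_contra hcon
  push Not at hcon
  obtain ⟨χ, hχ, h0, h1⟩ := hcon
  have := Fintype.ofFinite (IrrCharacter G)
  obtain ⟨m, d, e, he, hm, hd, hdpos, hme, hde, hsum1, hsum2⟩ := exists_data (G := G) a
  have hmχ := hm ⟨χ, hχ⟩
  have hmχ' : classInner (fun g : G => (Nat.card (MulAction.fixedBy Ω g) : ℂ)) χ =
        (m ⟨χ, hχ⟩ : ℂ) := hmχ
  rw [hmχ'] at h0 h1
  have h0' : m ⟨χ, hχ⟩ ≠ 0 := fun h => h0 (by rw [h, Nat.cast_zero])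
  have h1' : m ⟨χ, hχ⟩ ≠ 1 := fun h => h1 (by rw [h, Nat.cast_one])
  have hne : (⟨χ, hχ⟩ : IrrCharacter G) ≠ e := by
    intro h
    rw [h] at h1'
    exact h1' hme
  have hother : ∀ ψ : IrrCharacter G, ψ ≠ e → ψ ≠ ⟨χ, hχ⟩ → m ψ = 0 := by
    intro ψ hψe hψχ
    by_contra h2
    have h3 := Finset.add_sum_erase Finset.univ (fun χ => m χ ^ 2) (Finset.mem_univ e)
    have h4 := Finset.add_sum_erase (Finset.univ.erase e) (fun χ => m χ ^ 2)
      (Finset.mem_erase.2 ⟨hne, Finset.mem_univ _⟩)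
    have h5 := Finset.single_le_sum (f := fun χ => m χ ^ 2) (s := (Finset.univ.erase e).erase ⟨χ, hχ⟩)
      (fun i _ => Nat.zero_le _) (Finset.mem_erase.2 ⟨hψχ, Finset.mem_erase.2 ⟨hψe, Finset.mem_univ _⟩⟩)
    have h6 : 4 ≤ m ⟨χ, hχ⟩ ^ 2 := by
      have : 2 ≤ m ⟨χ, hχ⟩ := by omega
      nlinarith
    have h7 : 1 ≤ m ψ ^ 2 := Nat.one_le_pow _ _ (Nat.pos_of_ne_zero h2)
    rw [hme] at h3
    omega
  obtain ⟨h2, -⟩ := part_a (G := G) a (d ⟨χ, hχ⟩) (by
    intro ψ hψ hψ1 hψ0
    have h3 := hm ⟨ψ, hψ⟩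
    have h3' : classInner (fun g : G => (Nat.card (MulAction.fixedBy Ω g) : ℂ)) ψ =
        (m ⟨ψ, hψ⟩ : ℂ) := h3
    rw [h3'] at hψ0
    have h4 : (⟨ψ, hψ⟩ : IrrCharacter G) = ⟨χ, hχ⟩ := by
      by_contra h5
      apply hψ0
      rw [hother _ (fun h => hψ1 (by rw [← he, ← h])) h5, Nat.cast_zero]
    have h5 := hd ⟨ψ, hψ⟩
    rw [← h4]
    exact h5)
  rcases h2 χ hχ with h3 | h3
  · rw [hmχ'] at h3
    exact h0 h3
  · rw [hmχ'] at h3
    exact h1 h3

end Cfsg.Agent.S0716
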