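import Cfsg.Statements.S0717
import Cfsg.Agent.Lib.H15.PermMod

set_option autoImplicit false
open Cfsg

namespace Cfsg.Agent.S0717

/-- All suborbits of a transitive group are self-paired (every pair of points is interchanged by some group element) if and only if the permutation character is multiplicity-free and each of its irreducible constituents is real-valued. -/
theorem result {G : Type*} [Group G] [Fintype G] {Ω : Type*} [Fintype Ω] [MulAction G Ω] [MulAction.IsPretransitive G Ω] : (∀ a b : Ω, ∃ g : G, g • a = b ∧ g • b = a) ↔ ∀ χ : G → ℂ, Cfsg.IsIrrCharacter G χ → Cfsg.classInner (fun g : G => (Nat.card (MulAction.fixedBy Ω g) : ℂ)) χ ≠ 0 → Cfsg.classInner (fun g : G => (Nat.card (MulAction.fixedBy Ω g) : ℂ)) χ = 1 ∧ ∀ g : G, (starRingEnd ℂ) (χ g) = χ g := by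
  classical
  rw [← H15.Commutant.permRep_char' (G := G) Ω]
  constructor
  · intro hsp
    have hsym : ∀ T : (Ω → ℂ) →ₗ[ℂ] (Ω → ℂ),
        (∀ (g : G) v, T (permRep ℂ G Ω g v) = permRep ℂ G Ω g (T v)) →
        ∀ x y, H15.PermMod.ent T x y = H15.PermMod.ent T y x := by
      intro T hT x y
      obtain ⟨g, h1, h2⟩ := hsp x y
      have h3 := H15.PermMod.ent_smul hT g x y
      rw [h1, h2] at h3
      exact h3.symm
    have hcomm : ∀ S T : (Ω → ℂ) →ₗ[ℂ] (Ω → ℂ),
        (∀ (g : G) v, S (permRep ℂ G Ω g v) = permRep ℂ G Ω g (S v)) →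
        (∀ (g : G) v, T (permRep ℂ G Ω g v) = permRep ℂ G Ω g (T v)) → S ∘ₗ T = T ∘ₗ S := by
      intro S T hS hT
      apply H15.PermMod.ext_ent
      intro x y
      have hTS : ∀ (g : G) v, (T ∘ₗ S) (permRep ℂ G Ω g v) = permRep ℂ G Ω g ((T ∘ₗ S) v) := by
        intro g v
        rw [LinearMap.comp_apply, LinearMap.comp_apply, hS, hT]
      rw [hsym _ hTS x y, H15.PermMod.ent_comp, H15.PermMod.ent_comp]
      refine Finset.sum_congr rfl fun z _ => ?_
      rw [hsym S hS x z, hsym T hT z y, mul_comm]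
    intro χ hχ hne
    refine ⟨(H15.Commutant.mf_of_comm _ hcomm hχ).resolve_left hne, ?_⟩
    by_contra hcon
    have hχ' := H18.CharQuot.isIrrCharacter_conj hχ
    have hneq : (fun g => (starRingEnd ℂ) (χ g)) ≠ χ := by
      intro h
      exact hcon fun g => congrFun h g
    apply hne
    have hcl := H18.CharBasic.isClassFunction_of_isIrr hχ
    have hcl' := H18.CharBasic.isClassFunction_of_isIrr hχ'
    apply H15.Commutant.inner_eq_zero_of_avgOp (permRep ℂ G Ω) hχ
      (c := χ - fun g => (starRingEnd ℂ) (χ g)) (H18.CharOrtho.isClassFunction_sub hcl hcl')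
    · apply H15.PermMod.ext_ent
      intro x y
      have h0 : H15.PermMod.ent (0 : (Ω → ℂ) →ₗ[ℂ] (Ω → ℂ)) x y = 0 := rfl
      rw [h0]
      have h1 := H15.PermMod.ent_avgOp_symm (G := G) χ x y
      have h2 : (fun g : G => χ g⁻¹) = fun g => (starRingEnd ℂ) (χ g) := by
        funext g
        exact H18.CharBasic.char_inv (H18.CharBasic.isCharacter_of_isIrr hχ) g
      rw [h2, hsym _ (H18.CharOrtho.avgOp_comm hcl' _) y x] at h1
      rw [H15.PermMod.ent_avgOp]
      rw [H15.PermMod.ent_avgOp, H15.PermMod.ent_avgOp] at h1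
      rw [← sub_eq_zero, ← Finset.sum_sub_distrib] at h1
      refine Eq.trans (Finset.sum_congr rfl fun g _ => ?_) h1
      simp only [Pi.sub_apply]
      split_ifs <;> simp
    · rw [H18.CharOrtho.inner_sub_left, H18.CharOrtho.inner_irr_self hχ,
        H18.CharOrtho.inner_irr_ne hχ' hχ hneq, sub_zero]
      exact one_ne_zero
  · intro hmf a b
    have := Fintype.ofFinite (IrrCharacter G)
    have hT := H15.PermMod.relOp_comm (G := G) (H15.PermMod.orbital_inv (G := G) a b)
    obtain ⟨c, hc, hc0, hTc⟩ := H15.Commutant.exists_avgOp (permRep ℂ G Ω) (fun χ hχ => by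
      by_cases h : classInner (permRep ℂ G Ω).character χ = 0
      · exact Or.inl h
      · exact Or.inr (hmf χ hχ h).1) hT
    have hcinv : (fun g : G => c g⁻¹) = c := by
      funext g
      have h1 := H18.CharOrtho.mem_classFun_expand hc
      rw [congrFun h1 g⁻¹, congrFun h1 g, Finset.sum_apply, Finset.sum_apply]
      refine Finset.sum_congr rfl fun χ _ => ?_
      rw [Pi.smul_apply, Pi.smul_apply]
      by_cases h : classInner (permRep ℂ G Ω).character (χ : G → ℂ) = 0
      · rw [hc0 _ χ.2 h, zero_smul, zero_smul]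
      · rw [H18.CharBasic.char_inv (H18.CharBasic.isCharacter_of_isIrr χ.2), (hmf _ χ.2 h).2 g]
    have h1 := H15.PermMod.ent_avgOp_symm (G := G) c a b
    rw [hcinv, ← hTc, H15.PermMod.ent_relOp, H15.PermMod.ent_relOp, if_pos ⟨1, one_smul _ _, one_smul _ _⟩] at h1
    by_contra hcon
    have hcon' : ¬ H15.PermMod.orbital G a b b a := hcon
    rw [if_neg hcon'] at h1
    exact one_ne_zero h1

end Cfsg.Agent.S0717
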