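import Cfsg.Statements.S0719
import Cfsg.Agent.Lib.H15.Orbital
import Cfsg.Agent.Lib.H15.Blk
import Cfsg.Agent.S0717

set_option autoImplicit false
open Cfsg

namespace Cfsg.Agent.S0719

open H18.CharBasic H18.CharOrtho H15.Commutant H15.PermMod H15.Spectral

/-- a sum of naturals equal to one is concentrated at one place -/
theorem exists_single {s : Finset ℂ} (u : ℂ → ℕ) (h : ∑ l ∈ s, u l = 1) :
    ∃ r ∈ s, ∀ F : ℂ → ℂ, ∑ l ∈ s, F l * u l = F r := by
  classical
  obtain ⟨r, hr, hr1⟩ : ∃ r ∈ s, u r ≠ 0 := by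
    by_contra hcon
    push Not at hcon
    rw [Finset.sum_eq_zero hcon] at h
    exact one_ne_zero h.symm
  have h1 := Finset.add_sum_erase s u hr
  have h2 : ∑ l ∈ s.erase r, u l = 0 := by omega
  have h3 : u r = 1 := by omega
  have h4 := Finset.sum_eq_zero_iff.1 h2
  refine ⟨r, hr, fun F => ?_⟩
  rw [← Finset.add_sum_erase s _ hr, h3, Nat.cast_one, mul_one, Finset.sum_eq_zero, add_zero]
  intro l hl
  rw [h4 l hl, Nat.cast_zero, mul_zero]

/-- the arithmetic -/
theorem arith {m k : ℕ} {c : ℤ} (hk1 : 1 ≤ k) (hkm : k + 1 ≤ m) (hk : k ≠ 1 ∨ c ≠ 0)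
    (h : ((m : ℤ) - 1) * (2 * m - 1) * c ^ 2 + 4 * (m - 1) * k * c + 2 * k * (k - 1) = 0) :
    ∃ a : ℕ, 0 < a ∧ m = 2 * a ^ 2 + 2 * a + 1 ∧ k = a * (2 * a + 1) ∧
      2 * m - 1 - k = (a + 1) * (2 * a + 1) := by
  have hk1' : (1 : ℤ) ≤ k := by exact_mod_cast hk1
  have hkm' : (k : ℤ) + 1 ≤ m := by exact_mod_cast hkm
  have hc : c = -1 := by
    rcases lt_trichotomy c 0 with hc | hc | hc
    · obtain ⟨e, rfl⟩ : ∃ e, c = -e := ⟨-c, by ring⟩
      have he : 1 ≤ e := by omega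
      by_contra hne
      have he2 : 2 ≤ e := by omega
      have h1 : ((m : ℤ) - 1) * ((2 * m - 1) * e ^ 2 - 4 * k * e) + 2 * k * (k - 1) = 0 := by
        linarith [h, (by ring : ((m : ℤ) - 1) * (2 * m - 1) * (-e) ^ 2 + 4 * (m - 1) * k * (-e) +
          2 * k * (k - 1) = ((m : ℤ) - 1) * ((2 * m - 1) * e ^ 2 - 4 * k * e) + 2 * k * (k - 1))]
      have h2 : (0 : ℤ) < (2 * m - 1) * e ^ 2 - 4 * k * e := by
        have h3 : (2 * (m : ℤ) - 1) * e ^ 2 - 4 * k * e = e * ((2 * m - 1) * e - 4 * k) := by ring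
        rw [h3]
        apply mul_pos (by omega)
        nlinarith
      have h4 : 0 < ((m : ℤ) - 1) * ((2 * m - 1) * e ^ 2 - 4 * k * e) := mul_pos (by omega) h2
      have h5 : 0 ≤ 2 * (k : ℤ) * (k - 1) := by
        apply mul_nonneg <;> omega
      omega
    · exfalso
      subst hc
      have h1 : 2 * (k : ℤ) * (k - 1) = 0 := by linarith
      rcases mul_eq_zero.1 h1 with h2 | h2
      · omega
      · rcases hk with h3 | h3
        · apply h3; omega
        · exact h3 rfl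
    · exfalso
      have h4 : 0 < ((m : ℤ) - 1) * (2 * m - 1) * c ^ 2 := by
        apply mul_pos (mul_pos (by omega) (by omega))
        positivity
      have h5 : 0 ≤ 2 * (k : ℤ) * (k - 1) := by
        apply mul_nonneg <;> omega
      have h6 : 0 ≤ 4 * ((m : ℤ) - 1) * k * c := by
        apply mul_nonneg (mul_nonneg (by omega) (by omega)) hc.le
      omega
  subst hc
  -- 2m-1 is a square
  obtain ⟨D, hD⟩ : ∃ D : ℕ, D + 2 * k = 2 * m - 1 := ⟨2 * m - 1 - 2 * k, by omega⟩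
  have hD' : (D : ℤ) = 2 * m - 1 - 2 * k := by omega
  have hsq : (D : ℤ) ^ 2 = 2 * m - 1 := by
    rw [hD']
    nlinarith
  obtain ⟨a, ha⟩ : ∃ a, D = 2 * a + 1 := ⟨m - 1 - k, by omega⟩
  have hm : (m : ℤ) = 2 * a ^ 2 + 2 * a + 1 := by
    rw [ha] at hsq
    push_cast at hsq
    nlinarith
  have hmn : m = 2 * a ^ 2 + 2 * a + 1 := by exact_mod_cast hm
  have hkk : k = a * (2 * a + 1) := by
    have : (k : ℤ) = a * (2 * a + 1) := by
      rw [ha] at hD'
      push_cast at hD'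
      nlinarith
    exact_mod_cast this
  refine ⟨a, ?_, hmn, hkk, ?_⟩
  · rcases Nat.eq_zero_or_pos a with h0 | h0
    · rw [h0] at hkk
      omega
    · exact h0
  · have h1 : 2 * m = k + (a + 1) * (2 * a + 1) + 1 := by
      rw [hmn, hkk]; ring
    omega


section key
variable {G : Type*} [Group G] [Fintype G] {Ω : Type*} [Fintype Ω] [MulAction G Ω]
  [MulAction.IsPretransitive G Ω] {m : ℕ} (hm : Fintype.card Ω = 2 * m) (a₀ : Ω)
  (χ₁ χ₂ : G → ℂ) (h₁ : Cfsg.IsIrrCharacter G χ₁) (h₂ : Cfsg.IsIrrCharacter G χ₂)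
  (hπ : (permRep ℂ G Ω).character = fun g => 1 + χ₁ g + χ₂ g) (hd₁ : χ₁ 1 = (m : ℂ) - 1)
  (hd₂ : χ₂ 1 = m)
include a₀ h₁ h₂ hπ

theorem inner_pi (ψ : G → ℂ) : classInner (permRep ℂ G Ω).character ψ =
    classInner (fun _ => 1) ψ + classInner χ₁ ψ + classInner χ₂ ψ := by
  have h : (permRep ℂ G Ω).character = (fun _ => 1) + χ₁ + χ₂ := by
    rw [hπ]; rfl
  rw [h, H18.CharOrtho.inner_add_left, H18.CharOrtho.inner_add_left]

theorem ne_one₁ : χ₁ ≠ fun _ => 1 := by
  classical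
  have hne : Nonempty Ω := ⟨a₀⟩
  intro h
  have h1 := H15.Orbital.inner_one (G := G) (Ω := Ω)
  rw [inner_pi a₀ χ₁ χ₂ h₁ h₂ hπ, h, inner_irr_self isIrrCharacter_one] at h1
  obtain ⟨n, hn⟩ := inner_char_natCast (isCharacter_of_isIrr h₂) (isCharacter_of_isIrr (isIrrCharacter_one (G := G)))
  rw [hn] at h1
  have h2 : ((1 + 1 + n : ℕ) : ℂ) = ((1 : ℕ) : ℂ) := by push_cast; linear_combination h1
  have h3 : 1 + 1 + n = 1 := by exact_mod_cast h2
  omega

theorem ne_one₂ : χ₂ ≠ fun _ => 1 := by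
  classical
  have hne : Nonempty Ω := ⟨a₀⟩
  intro h
  have h1 := H15.Orbital.inner_one (G := G) (Ω := Ω)
  rw [inner_pi a₀ χ₁ χ₂ h₁ h₂ hπ, h, inner_irr_self isIrrCharacter_one] at h1
  obtain ⟨n, hn⟩ := inner_char_natCast (isCharacter_of_isIrr h₁) (isCharacter_of_isIrr (isIrrCharacter_one (G := G)))
  rw [hn] at h1
  have h2 : ((1 + n + 1 : ℕ) : ℂ) = ((1 : ℕ) : ℂ) := by push_cast; linear_combination h1
  have h3 : 1 + n + 1 = 1 := by exact_mod_cast h2
  omega

include hd₁ hd₂ in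
omit [MulAction.IsPretransitive G Ω] h₁ h₂ hπ in
theorem ne_12 : χ₁ ≠ χ₂ := by
  intro h
  rw [h, hd₂] at hd₁
  have : (1 : ℂ) = 0 := by linear_combination hd₁
  exact one_ne_zero this

include hd₁ hd₂ in
theorem selfpaired (x y : Ω) : ∃ g : G, g • x = y ∧ g • y = x := by
  classical
  have hn1 := ne_one₁ a₀ χ₁ χ₂ h₁ h₂ hπ
  have hn2 := ne_one₂ a₀ χ₁ χ₂ h₁ h₂ hπ
  have h12 := ne_12 a₀ χ₁ χ₂ hd₁ hd₂
  have hone := isIrrCharacter_one (G := G)
  have key := (Cfsg.Agent.S0717.result (G := G) (Ω := Ω)).2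
  apply key
  intro χ hχ h0
  rw [← permRep_char' (G := G) Ω] at h0 ⊢
  have hreal : ∀ g, (starRingEnd ℂ) ((permRep ℂ G Ω).character g) = (permRep ℂ G Ω).character g := by
    intro g
    rw [permRep_char, Complex.conj_natCast]
  have hmem : ∀ ψ, Cfsg.IsIrrCharacter G ψ → classInner (permRep ℂ G Ω).character ψ ≠ 0 →
      ψ = (fun _ => 1) ∨ ψ = χ₁ ∨ ψ = χ₂ := by
    intro ψ hψ hne
    by_contra hcon
    push Not at hcon
    apply hne
    rw [inner_pi a₀ χ₁ χ₂ h₁ h₂ hπ, inner_irr_ne hone hψ (Ne.symm hcon.1), inner_irr_ne h₁ hψ (Ne.symm hcon.2.1),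
      inner_irr_ne h₂ hψ (Ne.symm hcon.2.2)]
    ring
  have hconj := H18.CharQuot.isIrrCharacter_conj hχ
  have h0' : classInner (permRep ℂ G Ω).character (fun g => (starRingEnd ℂ) (χ g)) ≠ 0 := by
    intro h
    apply h0
    have h3 : (starRingEnd ℂ) (classInner (permRep ℂ G Ω).character (fun g => (starRingEnd ℂ) (χ g))) =
        classInner (permRep ℂ G Ω).character χ := by
      simp only [classInner, map_mul, map_sum, map_inv₀, Complex.conj_natCast, Complex.conj_conj]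
      congr 1
      refine Finset.sum_congr rfl fun g _ => ?_
      rw [hreal]
    rw [← h3, h, map_zero]
  rcases hmem χ hχ h0 with rfl | rfl | rfl
  · have hne : Nonempty Ω := ⟨a₀⟩
    exact ⟨H15.Orbital.inner_one, fun g => map_one _⟩
  · refine ⟨?_, ?_⟩
    · rw [inner_pi a₀ χ χ₂ h₁ h₂ hπ, inner_irr_ne hone h₁ (Ne.symm hn1), inner_irr_self h₁,
        inner_irr_ne h₂ h₁ (Ne.symm h12)]
      ring
    · rcases hmem _ hconj h0' with h | h | h
      · exfalso
        apply hn1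
        funext g
        have := congrFun h g
        rw [← Complex.conj_conj (χ g), this, map_one]
      · exact fun g => congrFun h g
      · exfalso
        have := congrFun h 1
        rw [hd₁, hd₂] at this
        simp only [map_sub, Complex.conj_natCast, map_one] at this
        have h5 : (1 : ℂ) = 0 := by linear_combination -this
        exact one_ne_zero h5
  · refine ⟨?_, ?_⟩
    · rw [inner_pi a₀ χ₁ χ h₁ h₂ hπ, inner_irr_ne hone h₂ (Ne.symm hn2), inner_irr_self h₂,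
        inner_irr_ne h₁ h₂ h12]
      ring
    · rcases hmem _ hconj h0' with h | h | h
      · exfalso
        apply hn2
        funext g
        have := congrFun h g
        rw [← Complex.conj_conj (χ g), this, map_one]
      · exfalso
        have := congrFun h 1
        rw [hd₁, hd₂] at this
        simp only [Complex.conj_natCast] at this
        have h5 : (1 : ℂ) = 0 := by linear_combination this
        exact one_ne_zero h5
      · exact fun g => congrFun h g

include hd₁ hd₂ in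
theorem traces (b : Ω) : ∃ r s : ℂ, IsIntegral ℤ r ∧ IsIntegral ℤ s ∧ ∀ j : ℕ,
    LinearMap.trace ℂ (Ω → ℂ) ((relOp (orbital G a₀ b) : Module.End ℂ (Ω → ℂ)) ^ j) =
      (Nat.card (MulAction.orbit (MulAction.stabilizer G a₀) b) : ℂ) ^ j + ((m : ℂ) - 1) * r ^ j +
        m * s ^ j := by
  classical
  have hne : Nonempty Ω := ⟨a₀⟩
  have hn1 := ne_one₁ a₀ χ₁ χ₂ h₁ h₂ hπ
  have hn2 := ne_one₂ a₀ χ₁ χ₂ h₁ h₂ hπ
  have h12 := ne_12 a₀ χ₁ χ₂ hd₁ hd₂
  have hone := isIrrCharacter_one (G := G)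
  set A := relOp (orbital G a₀ b) with hA'
  have hA := relOp_comm (G := G) (orbital_inv (G := G) a₀ b)
  set k := Nat.card (MulAction.orbit (MulAction.stabilizer G a₀) b) with hk
  have hkspec : (k : ℂ) ∈ spec A := by
    have hmem : (fun _ => 1 : Ω → ℂ) ∈ Module.End.maxGenEigenspace A (k : ℂ) := by
      apply Module.End.eigenspace_le_maxGenEigenspace
      rw [Module.End.mem_eigenspace_iff]
      exact H15.Orbital.relOp_one a₀ b
    rw [mem_spec]
    intro h
    rw [h, Submodule.mem_bot] at hmem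
    exact one_ne_zero (congrFun hmem a₀)
  choose t ht using fun l => inner_char_natCast
    (isCharacter_of_rep (W (permRep ℂ G Ω) hA l).toRepresentation) (isCharacter_of_isIrr hone)
  choose u hu using fun l => inner_char_natCast
    (isCharacter_of_rep (W (permRep ℂ G Ω) hA l).toRepresentation) (isCharacter_of_isIrr h₁)
  choose v hv using fun l => inner_char_natCast
    (isCharacter_of_rep (W (permRep ℂ G Ω) hA l).toRepresentation) (isCharacter_of_isIrr h₂)
  have hsu : ∑ l ∈ spec A, u l = 1 := by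
    have h3 := H15.Orbital.inner_eq_sum (permRep ℂ G Ω) hA χ₁
    rw [inner_pi a₀ χ₁ χ₂ h₁ h₂ hπ, inner_irr_ne hone h₁ (Ne.symm hn1), inner_irr_self h₁,
        inner_irr_ne h₂ h₁ (Ne.symm h12)] at h3
    have h4 : ((∑ l ∈ spec A, u l : ℕ) : ℂ) = ((1 : ℕ) : ℂ) := by
      rw [Nat.cast_sum, Finset.sum_congr rfl (fun l _ => (hu l).symm), ← h3]
      push_cast; ring
    exact_mod_cast h4
  have hsv : ∑ l ∈ spec A, v l = 1 := by
    have h3 := H15.Orbital.inner_eq_sum (permRep ℂ G Ω) hA χ₂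
    rw [inner_pi a₀ χ₁ χ₂ h₁ h₂ hπ, inner_irr_ne hone h₂ (Ne.symm hn2), inner_irr_self h₂,
        inner_irr_ne h₁ h₂ h12] at h3
    have h4 : ((∑ l ∈ spec A, v l : ℕ) : ℂ) = ((1 : ℕ) : ℂ) := by
      rw [Nat.cast_sum, Finset.sum_congr rfl (fun l _ => (hv l).symm), ← h3]
      push_cast; ring
    exact_mod_cast h4
  obtain ⟨r, hr, hrF⟩ := exists_single u hsu
  obtain ⟨s, hs, hsF⟩ := exists_single v hsv
  have hmem : ∀ ψ, Cfsg.IsIrrCharacter G ψ → classInner (permRep ℂ G Ω).character ψ ≠ 0 →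
      ψ = (fun _ => 1) ∨ ψ = χ₁ ∨ ψ = χ₂ := by
    intro ψ hψ hne
    by_contra hcon
    push Not at hcon
    apply hne
    rw [inner_pi a₀ χ₁ χ₂ h₁ h₂ hπ, inner_irr_ne hone hψ (Ne.symm hcon.1), inner_irr_ne h₁ hψ (Ne.symm hcon.2.1),
      inner_irr_ne h₂ hψ (Ne.symm hcon.2.2)]
    ring
  have hdim : ∀ l ∈ spec A, (Module.finrank ℂ (Module.End.maxGenEigenspace A l) : ℂ) =
      t l + (m - 1) * u l + m * v l := by
    intro l hl
    have h3 : (W (permRep ℂ G Ω) hA l).toRepresentation.character =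
        (t l : ℂ) • (fun _ => 1) + (u l : ℂ) • χ₁ + (v l : ℂ) • χ₂ := by
      apply classFun_ext
      · exact isClassFunction_of_isCharacter (isCharacter_of_rep _)
      · exact isClassFunction_add (isClassFunction_add (isClassFunction_smul _ (isClassFunction_of_isIrr hone))
          (isClassFunction_smul _ (isClassFunction_of_isIrr h₁)))
          (isClassFunction_smul _ (isClassFunction_of_isIrr h₂))
      · intro ψ hψ
        rw [H18.CharOrtho.inner_add_left, H18.CharOrtho.inner_add_left,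
          H18.CharOrtho.inner_smul_left, H18.CharOrtho.inner_smul_left, H18.CharOrtho.inner_smul_left]
        by_cases h0 : classInner (permRep ℂ G Ω).character ψ = 0
        · have h4 : classInner (W (permRep ℂ G Ω) hA l).toRepresentation.character ψ = 0 := by
            rw [H15.Orbital.inner_eq_sum (permRep ℂ G Ω) hA ψ] at h0
            choose w hw using fun l => inner_char_natCast
              (isCharacter_of_rep (W (permRep ℂ G Ω) hA l).toRepresentation) (isCharacter_of_isIrr hψ)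
            have h5 : ((∑ l ∈ spec A, w l : ℕ) : ℂ) = ((0 : ℕ) : ℂ) := by
              rw [Nat.cast_sum, Finset.sum_congr rfl (fun l _ => (hw l).symm), h0, Nat.cast_zero]
            have h6 : ∑ l ∈ spec A, w l = 0 := by exact_mod_cast h5
            rw [hw, (Finset.sum_eq_zero_iff.1 h6) l hl, Nat.cast_zero]
          have h5 : ψ ≠ (fun _ => 1) ∧ ψ ≠ χ₁ ∧ ψ ≠ χ₂ := by
            rw [inner_pi a₀ χ₁ χ₂ h₁ h₂ hπ] at h0
            refine ⟨?_, ?_, ?_⟩
            · rintro rfl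
              rw [inner_irr_self hone, inner_irr_ne h₁ hone hn1, inner_irr_ne h₂ hone hn2] at h0
              norm_num at h0
            · rintro rfl
              rw [inner_irr_self h₁, inner_irr_ne hone h₁ (Ne.symm hn1), inner_irr_ne h₂ h₁ (Ne.symm h12)] at h0
              norm_num at h0
            · rintro rfl
              rw [inner_irr_self h₂, inner_irr_ne hone h₂ (Ne.symm hn2), inner_irr_ne h₁ h₂ h12] at h0
              norm_num at h0
          rw [h4, inner_irr_ne hone hψ (Ne.symm h5.1), inner_irr_ne h₁ hψ (Ne.symm h5.2.1),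
            inner_irr_ne h₂ hψ (Ne.symm h5.2.2)]
          ring
        · rcases hmem ψ hψ h0 with rfl | rfl | rfl
          · rw [ht, inner_irr_self hone, inner_irr_ne h₁ hone hn1, inner_irr_ne h₂ hone hn2]
            ring
          · rw [hu, inner_irr_self h₁, inner_irr_ne hone h₁ (Ne.symm hn1), inner_irr_ne h₂ h₁ (Ne.symm h12)]
            ring
          · rw [hv, inner_irr_self h₂, inner_irr_ne hone h₂ (Ne.symm hn2), inner_irr_ne h₁ h₂ h12]
            ring
    have h4 := congrFun h3 1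
    rw [Representation.char_one] at h4
    simp only [Pi.add_apply, Pi.smul_apply, smul_eq_mul, hd₁, hd₂, mul_one] at h4
    have h5 : (Module.finrank ℂ (Module.End.maxGenEigenspace A l) : ℂ) = _ := h4
    rw [h5]
    ring
  refine ⟨r, s, H15.Orbital.isIntegral_spec _ hr, H15.Orbital.isIntegral_spec _ hs, fun j => ?_⟩
  rw [trace_pow]
  have h3 : ∀ l ∈ spec A, l ^ j * (Module.finrank ℂ (Module.End.maxGenEigenspace A l) : ℂ) =
      (if l = (k : ℂ) then (k : ℂ) ^ j else 0) + ((m - 1) * (l ^ j * u l) + m * (l ^ j * v l)) := by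
    intro l hl
    rw [hdim l hl]
    have h4 := H15.Orbital.inner_W_one (G := G) a₀ b l hl
    rw [ht] at h4
    rw [h4]
    by_cases h : l = (k : ℂ)
    · rw [if_pos h, if_pos h, h]; ring
    · rw [if_neg h, if_neg h]; ring
  rw [Finset.sum_congr rfl h3, Finset.sum_add_distrib, Finset.sum_ite_eq' _ (k : ℂ), if_pos hkspec,
    Finset.sum_add_distrib, ← Finset.mul_sum, ← Finset.mul_sum, hrF (fun l => l ^ j), hsF (fun l => l ^ j)]
  ring

include hd₁ hd₂ hm in
theorem key {b : Ω} (hb : b ≠ a₀) (k : ℕ)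
    (hk : Nat.card (MulAction.orbit (MulAction.stabilizer G a₀) b) = k) (hkm : k + 1 ≤ m) :
    ∃ c : ℤ, ((m : ℤ) - 1) * (2 * m - 1) * c ^ 2 + 4 * (m - 1) * k * c + 2 * k * (k - 1) = 0 := by
  classical
  obtain ⟨r, s, hr, hs, htr⟩ := traces a₀ χ₁ χ₂ h₁ h₂ hπ hd₁ hd₂ b
  rw [hk] at htr
  set A := relOp (orbital G a₀ b) with hA'
  have hm1 : (m : ℂ) ≠ 0 := by
    have : m ≠ 0 := by omega
    exact_mod_cast this
  have hsym : ∀ x y, orbital G a₀ b x y → orbital G a₀ b y x := by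
    rintro x y ⟨g, hg1, hg2⟩
    obtain ⟨h, hx, hy⟩ := selfpaired a₀ χ₁ χ₂ h₁ h₂ hπ hd₁ hd₂ x y
    exact ⟨h * g, by rw [mul_smul, hg1, hx], by rw [mul_smul, hg2, hy]⟩
  have hval : ∀ x, ∑ y, (if orbital G a₀ b x y then (1 : ℂ) else 0) = k := by
    intro x
    have h3 := congrFun (H15.Orbital.relOp_one (G := G) a₀ b) x
    rw [hk, Pi.smul_apply, smul_eq_mul, mul_one] at h3
    exact h3
  have T1 := htr 1
  have T2 := htr 2
  have T3 := htr 3
  rw [pow_one, H15.Orbital.trace_orbital hb] at T1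
  have hT2 : LinearMap.trace ℂ (Ω → ℂ) ((A : Module.End ℂ (Ω → ℂ)) ^ 2) = 2 * m * k := by
    rw [pow_two, Module.End.mul_eq_comp, H15.Orbital.trace_eq]
    have h3 : ∀ x : Ω, ent (A ∘ₗ A) x x = k := by
      intro x
      rw [ent_comp, ← hval x]
      refine Finset.sum_congr rfl fun y _ => ?_
      rw [ent_relOp, ent_relOp]
      by_cases h : orbital G a₀ b x y
      · rw [if_pos h, if_pos (hsym x y h), mul_one]
      · rw [if_neg h, zero_mul]
    rw [Finset.sum_congr rfl (fun x _ => h3 x), Finset.sum_const, Finset.card_univ, hm, nsmul_eq_mul]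
    push_cast
    ring
  have hT3 : ∃ z : ℤ, LinearMap.trace ℂ (Ω → ℂ) ((A : Module.End ℂ (Ω → ℂ)) ^ 3) = z := by
    refine ⟨∑ x : Ω, ∑ y : Ω, (∑ z : Ω, (if orbital G a₀ b x z then 1 else 0) *
      (if orbital G a₀ b z y then 1 else 0)) * (if orbital G a₀ b y x then 1 else 0), ?_⟩
    rw [pow_succ, pow_two, Module.End.mul_eq_comp, Module.End.mul_eq_comp, H15.Orbital.trace_eq]
    push_cast
    refine Finset.sum_congr rfl fun x _ => ?_
    rw [ent_comp]
    refine Finset.sum_congr rfl fun y _ => ?_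
    rw [ent_comp, ent_relOp]
    congr 1
    refine Finset.sum_congr rfl fun z _ => ?_
    rw [ent_relOp, ent_relOp]
  obtain ⟨z, hz⟩ := hT3
  rw [hT2] at T2
  rw [hz] at T3
  -- c = r + s is rational
  have hc : ∃ c : ℚ, r + s = c := by
    by_cases hrs : r = s
    · refine ⟨-2 * k / (2 * m - 1), ?_⟩
      have h5 : (2 * (m : ℂ) - 1) ≠ 0 := by
        intro h
        have h6 : ((2 * m : ℕ) : ℂ) = ((1 : ℕ) : ℂ) := by push_cast; linear_combination h
        have h7 : 2 * m = 1 := by exact_mod_cast h6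
        omega
      push_cast
      rw [eq_div_iff h5, hrs]
      rw [hrs] at T1
      linear_combination -2 * T1
    · have h5 : ((m : ℂ) * (m - 1)) * (r - s) ^ 2 ≠ 0 := by
        refine mul_ne_zero (mul_ne_zero hm1 ?_) (pow_ne_zero _ (sub_ne_zero.2 hrs))
        intro h
        have h6 : ((m : ℕ) : ℂ) = ((1 : ℕ) : ℂ) := by push_cast; linear_combination h
        have h7 : m = 1 := by exact_mod_cast h6
        have hk0 : k = 0 := by omega
        rw [hk0, Nat.card_eq_zero] at hk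
        rcases hk with h8 | h8
        · exact h8.false ⟨b, MulAction.mem_orbit_self b⟩
        · exact not_finite (MulAction.orbit (MulAction.stabilizer G a₀) b)
      let t0 : ℚ := 2 * m - 1
      let t1 : ℚ := -k
      let t2 : ℚ := 2 * m * k - k ^ 2
      let t3 : ℚ := z - k ^ 3
      have e0 : ((t0 : ℚ) : ℂ) = (m - 1) + m := by simp only [t0]; push_cast; ring
      have e1 : ((t1 : ℚ) : ℂ) = (m - 1) * r + m * s := by
        simp only [t1]; push_cast; linear_combination T1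
      have e2 : ((t2 : ℚ) : ℂ) = (m - 1) * r ^ 2 + m * s ^ 2 := by
        simp only [t2]; push_cast; linear_combination T2
      have e3 : ((t3 : ℚ) : ℂ) = (m - 1) * r ^ 3 + m * s ^ 3 := by
        simp only [t3]; push_cast; linear_combination T3
      refine ⟨(t0 * t3 - t1 * t2) / (t0 * t2 - t1 ^ 2), ?_⟩
      push_cast
      have h6 : (t0 : ℂ) * t2 - t1 ^ 2 = ((m : ℂ) * (m - 1)) * (r - s) ^ 2 := by
        rw [e0, e1, e2]; ring
      rw [h6, eq_div_iff h5, e0, e1, e2, e3]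
      ring
  obtain ⟨c, hc⟩ := hc
  obtain ⟨c', hc'⟩ := H4.Integral.exists_int_of_isIntegral_rat (q := c) (by
    rw [← hc]
    exact hr.add hs)
  refine ⟨c', ?_⟩
  have hcc : r + s = (c' : ℂ) := by rw [hc, hc']; push_cast; ring
  have e1 : s = c' - r := by linear_combination hcc
  have e2 : r = k + m * c' := by
    rw [e1] at T1
    linear_combination T1
  have h7 : (((m : ℤ) - 1) * (2 * m - 1) * c' ^ 2 + 4 * (m - 1) * k * c' + 2 * k * (k - 1) : ℂ) = 0 := by
    rw [e1, e2] at T2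
    have h8 : (m : ℂ) * (((m : ℤ) - 1) * (2 * m - 1) * c' ^ 2 + 4 * (m - 1) * k * c' + 2 * k * (k - 1) : ℂ) = 0 := by
      push_cast
      linear_combination -T2
    exact (mul_eq_zero.1 h8).resolve_left hm1
  exact_mod_cast h7

include hd₁ hd₂ hm in
theorem ne_one (hprim : MulAction.IsPreprimitive G Ω) {b : Ω} (hb : b ≠ a₀) {k : ℕ}
    (hk : Nat.card (MulAction.orbit (MulAction.stabilizer G a₀) b) = k) (hkm : k + 1 ≤ m) :
    k ≠ 1 := by
  classical
  rintro rfl
  have hsym : ∀ x y, orbital G a₀ b x y → orbital G a₀ b y x := by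
    rintro x y ⟨g, hg1, hg2⟩
    obtain ⟨h, hx, hy⟩ := selfpaired a₀ χ₁ χ₂ h₁ h₂ hπ hd₁ hd₂ x y
    exact ⟨h * g, by rw [mul_smul, hg1, hx], by rw [mul_smul, hg2, hy]⟩
  have huniq : ∀ x, ∃ y, orbital G a₀ b x y ∧ ∀ z, orbital G a₀ b x z → z = y := by
    intro x
    have h3 := H15.Orbital.card_orbital_left (G := G) a₀ b x
    rw [hk, Nat.card_eq_one_iff_unique] at h3
    obtain ⟨h4, ⟨⟨y, hy⟩⟩⟩ := h3
    refine ⟨y, hy, fun z hz => ?_⟩
    exact congrArg Subtype.val (h4.elim ⟨z, hz⟩ ⟨y, hy⟩)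
  choose f hf hfu using huniq
  have hinv : Function.Involutive f := fun x => (hfu (f x) x (hsym x _ (hf x))).symm
  have heq : ∀ (g : G) (x : Ω), f (g • x) = g • f x := by
    intro g x
    refine (hfu (g • x) (g • f x) ?_).symm
    rw [orbital_inv]
    exact hf x
  have hfa : f a₀ = b := (hfu a₀ b ⟨1, one_smul _ _, one_smul _ _⟩).symm
  rcases H15.Blk.involutive_dichotomy f hinv heq a₀ with h3 | h3
  · rw [hfa] at h3
    exact hb h3
  · rw [hfa] at h3
    have h4 : (Finset.univ : Finset Ω) ⊆ {a₀, b} := by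
      intro y _
      rw [Finset.mem_insert, Finset.mem_singleton]
      exact h3 y
    have h5 := Finset.card_le_card h4
    rw [Finset.card_univ, hm] at h5
    have h6 : ({a₀, b} : Finset Ω).card ≤ 2 := Finset.card_le_two
    omega

end key

/-- Groups of Wielandt type: if a primitive group of degree `2m` has rank 3 and permutation character `1 + χ₁ + χ₂` with irreducible `χ₁, χ₂` of degrees `m - 1` and `m`, then `m = 2a² + 2a + 1` for some positive integer `a` and the two non-trivial subdegrees are `a(2a+1)` and `(a+1)(2a+1)`. -/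
theorem result {G : Type*} [Group G] [Fintype G] {Ω : Type*} [Fintype Ω] [MulAction G Ω] (hprim : MulAction.IsPreprimitive G Ω) {m : ℕ} (hm : Fintype.card Ω = 2 * m) (a₀ : Ω) (hrank : Nat.card (MulAction.orbitRel.Quotient (MulAction.stabilizer G a₀) Ω) = 3) (χ₁ χ₂ : G → ℂ) (h₁ : Cfsg.IsIrrCharacter G χ₁) (h₂ : Cfsg.IsIrrCharacter G χ₂) (hπ : (fun g : G => (Nat.card (MulAction.fixedBy Ω g) : ℂ)) = fun g => 1 + χ₁ g + χ₂ g) (hd₁ : χ₁ 1 = (m : ℂ) - 1) (hd₂ : χ₂ 1 = m) : ∃ a : ℕ, 0 < a ∧ m = 2 * a ^ 2 + 2 * a + 1 ∧ ∀ b : Ω, b ≠ a₀ → Nat.card (MulAction.orbit (MulAction.stabilizer G a₀) b) = a * (2 * a + 1) ∨ Nat.card (MulAction.orbit (MulAction.stabilizer G a₀) b) = (a + 1) * (2 * a + 1) := by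
  classical
  rw [← permRep_char' (G := G) Ω] at hπ
  -- orbit decomposition
  let Q := MulAction.orbitRel.Quotient (MulAction.stabilizer G a₀) Ω
  have hQfin : Finite Q := Quotient.finite _
  have := Fintype.ofFinite Q
  have hrank' : Fintype.card Q = 3 := by rw [← Nat.card_eq_fintype_card]; exact hrank
  let g : Q → ℕ := fun ω => Nat.card ω.orbit
  have hgb : ∀ b : Ω, g (Quotient.mk'' b) = Nat.card (MulAction.orbit (MulAction.stabilizer G a₀) b) := by
    intro b
    change Nat.card (MulAction.orbitRel.Quotient.orbit (Quotient.mk'' b)) = _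
    rw [MulAction.orbitRel.Quotient.orbit_mk]
  have hsumg : ∑ ω : Q, g ω = 2 * m := by
    rw [← hm, ← Nat.card_eq_fintype_card,
      Nat.card_congr (MulAction.selfEquivSigmaOrbits' (MulAction.stabilizer G a₀) Ω), Nat.card_sigma]
  let qa : Q := Quotient.mk'' a₀
  have hga : g qa = 1 := by
    rw [hgb, Nat.card_eq_one_iff_unique]
    refine ⟨⟨?_⟩, ⟨⟨a₀, MulAction.mem_orbit_self a₀⟩⟩⟩
    rintro ⟨_, ⟨⟨x, hx⟩, rfl⟩⟩ ⟨_, ⟨⟨y, hy⟩, rfl⟩⟩
    apply Subtype.ext
    exact (MulAction.mem_stabilizer_iff.1 hx).trans (MulAction.mem_stabilizer_iff.1 hy).symm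
  have hqne : ∀ b : Ω, b ≠ a₀ → (Quotient.mk'' b : Q) ≠ qa := by
    intro b hb h
    obtain ⟨⟨x, hx⟩, hxb⟩ := Quotient.exact' h
    exact hb (hxb.symm.trans hx)
  obtain ⟨q1, q2, h12, hq⟩ : ∃ q1 q2 : Q, q1 ≠ q2 ∧ (Finset.univ.erase qa) = {q1, q2} := by
    rw [← Finset.card_eq_two, Finset.card_erase_of_mem (Finset.mem_univ _), Finset.card_univ, hrank']
  have hsum2 : g q1 + g q2 + 1 = 2 * m := by
    have h3 := Finset.add_sum_erase Finset.univ g (Finset.mem_univ qa)
    rw [hq, Finset.sum_pair h12, hsumg, hga] at h3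
    omega
  have hmain : ∀ q1 q2 : Q, g q1 + g q2 + 1 = 2 * m → q1 ≠ qa → g q1 + 1 ≤ m →
      ∃ a : ℕ, 0 < a ∧ m = 2 * a ^ 2 + 2 * a + 1 ∧ g q1 = a * (2 * a + 1) ∧
        g q2 = (a + 1) * (2 * a + 1) := by
    intro q1 q2 hs hq1 hle
    induction q1 using Quotient.inductionOn' with
    | h b =>
      have hb : b ≠ a₀ := fun h => hq1 (by rw [h])
      obtain ⟨c, hc⟩ := key hm a₀ χ₁ χ₂ h₁ h₂ hπ hd₁ hd₂ hb (g (Quotient.mk'' b)) (hgb b).symm hle
      have hne1 := ne_one hm a₀ χ₁ χ₂ h₁ h₂ hπ hd₁ hd₂ hprim hb (hgb b).symm hle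
      have hpos : 1 ≤ g (Quotient.mk'' b) := by
        rw [hgb]
        have : Nonempty (MulAction.orbit (MulAction.stabilizer G a₀) b) := ⟨⟨b, MulAction.mem_orbit_self b⟩⟩
        exact Nat.card_pos
      obtain ⟨a, ha, ha1, ha2, ha3⟩ := arith hpos hle (Or.inl hne1) hc
      exact ⟨a, ha, ha1, ha2, by omega⟩
  have hmemq : ∀ b : Ω, b ≠ a₀ → (Quotient.mk'' b : Q) = q1 ∨ (Quotient.mk'' b : Q) = q2 := by
    intro b hb
    have h3 : (Quotient.mk'' b : Q) ∈ Finset.univ.erase qa :=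
      Finset.mem_erase.2 ⟨hqne b hb, Finset.mem_univ _⟩
    rw [hq, Finset.mem_insert, Finset.mem_singleton] at h3
    exact h3
  have hq1 : q1 ≠ qa := by
    have : q1 ∈ Finset.univ.erase qa := by rw [hq]; exact Finset.mem_insert_self _ _
    exact Finset.ne_of_mem_erase this
  have hq2 : q2 ≠ qa := by
    have : q2 ∈ Finset.univ.erase qa := by
      rw [hq]; exact Finset.mem_insert_of_mem (Finset.mem_singleton_self _)
    exact Finset.ne_of_mem_erase this
  rcases Nat.lt_or_ge (g q1) m with hlt | hge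
  · obtain ⟨a, ha, ha1, ha2, ha3⟩ := hmain q1 q2 hsum2 hq1 hlt
    refine ⟨a, ha, ha1, fun b hb => ?_⟩
    rw [← hgb]
    rcases hmemq b hb with h | h
    · left; rw [h, ha2]
    · right; rw [h, ha3]
  · obtain ⟨a, ha, ha1, ha2, ha3⟩ := hmain q2 q1 (by omega) hq2 (by omega)
    refine ⟨a, ha, ha1, fun b hb => ?_⟩
    rw [← hgb]
    rcases hmemq b hb with h | h
    · right; rw [h, ha3]
    · left; rw [h, ha2]

end Cfsg.Agent.S0719
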