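import Cfsg.Statements.S0722
import Mathlib

set_option autoImplicit false
open Cfsg

namespace Cfsg.Agent.S0722

/-- In a primitive group `H`, with `N` a minimal normal subgroup and `K` a point stabiliser, `K ⊓ N` is maximal among proper `K`-invariant subgroups of `N`. -/
theorem result {α : Type*} [Finite α] (H : Subgroup (Equiv.Perm α)) [MulAction.IsPreprimitive H α] (N : Subgroup H) [N.Normal] (hN : N ≠ ⊥) (hmin : ∀ M : Subgroup H, M.Normal → M ≤ N → M = ⊥ ∨ M = N) (a : α) (X : Subgroup H) (hX : X ≤ N) (hKX : MulAction.stabilizer H a ⊓ N ≤ X) (hinv : MulAction.stabilizer H a ≤ Subgroup.normalizer (X : Set H)) : X = MulAction.stabilizer H a ⊓ N ∨ X = N := by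
  classical
  rcases subsingleton_or_nontrivial α with hα | hα
  · exfalso
    apply hN
    rw [eq_bot_iff]
    intro m _
    rw [Subgroup.mem_bot]
    apply Subtype.ext
    exact Subsingleton.elim _ _
  set K := MulAction.stabilizer H a with hK
  have hcoatom : IsCoatom K := MulAction.IsPreprimitive.isCoatom_stabilizer_of_isPreprimitive H a
  have hKX' : K ≤ K ⊔ X := le_sup_left
  rcases eq_or_lt_of_le hKX' with h | h
  · left
    apply le_antisymm
    · refine le_inf ?_ hX
      have : X ≤ K ⊔ X := le_sup_right
      rw [← h] at this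
      exact this
    · exact hKX
  · right
    have htop := hcoatom.2 _ h
    apply le_antisymm hX
    intro n hn
    have hn' : n ∈ K ⊔ X := by rw [htop]; trivial
    rw [← SetLike.mem_coe, Subgroup.coe_mul_of_left_le_normalizer_right K X hinv] at hn'
    obtain ⟨k, hk, x, hx, rfl⟩ := hn'
    have hkN : k ∈ N := by
      have : k = (k * x) * x⁻¹ := by group
      rw [this]
      exact N.mul_mem hn (N.inv_mem (hX hx))
    exact X.mul_mem (hKX ⟨hk, hkN⟩) hx

end Cfsg.Agent.S0722
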