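import Cfsg.Statements.S0724
import Mathlib

set_option autoImplicit false
open Cfsg

namespace Cfsg.Agent.S0724

/-- Blichfeldt's Theorem: if a finite set `L` of natural numbers contains the number of fixed points of every non-identity element of a permutation group `G` of degree `n`, then the order of `G` divides `∏ (n - l)` over `l ∈ L`. -/
theorem result {α : Type*} [Fintype α] [DecidableEq α] (G : Subgroup (Equiv.Perm α)) (L : Finset ℕ) (hL : ∀ g ∈ G, g ≠ 1 → Nat.card (MulAction.fixedBy α g) ∈ L) : Nat.card G ∣ ∏ l ∈ L, (Fintype.card α - l) := by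
  classical
  by_cases hbig : ∃ l ∈ L, Fintype.card α ≤ l
  · obtain ⟨l, hl, hle⟩ := hbig
    rw [Finset.prod_eq_zero hl (Nat.sub_eq_zero_of_le hle)]
    exact dvd_zero _
  push Not at hbig
  -- power sums of the fixed point numbers
  set π : G → ℕ := fun g => Nat.card (MulAction.fixedBy α g) with hπ
  have hpow : ∀ j : ℕ, (Nat.card G : ℤ) ∣ ∑ g : G, (π g : ℤ) ^ j := by
    intro j
    have h1 := MulAction.sum_card_fixedBy_eq_card_orbits_mul_card_group G (Fin j → α)
    have h2 : ∀ g : G, Fintype.card (MulAction.fixedBy (Fin j → α) g) = π g ^ j := by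
      intro g
      have e : MulAction.fixedBy (Fin j → α) g ≃ (Fin j → MulAction.fixedBy α g) :=
        { toFun := fun x i => ⟨x.1 i, congrFun x.2 i⟩
          invFun := fun x => ⟨fun i => (x i : α), funext fun i => (x i).2⟩
          left_inv := fun x => rfl
          right_inv := fun x => rfl }
      rw [Fintype.card_congr e, Fintype.card_fun, Fintype.card_fin, hπ]
      simp only [Nat.card_eq_fintype_card]
    have h3 : (∑ g : G, (π g : ℤ) ^ j) = ((∑ g : G, Fintype.card (MulAction.fixedBy (Fin j → α) g) : ℕ) : ℤ) := by
      push_cast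
      apply Finset.sum_congr rfl
      intro g _
      rw [h2]; push_cast; rfl
    rw [h3, h1]
    refine ⟨Fintype.card (Quotient (MulAction.orbitRel G (Fin j → α))), ?_⟩
    rw [Nat.card_eq_fintype_card]
    push_cast
    ring
  have hpoly : ∀ F : Polynomial ℤ, (Nat.card G : ℤ) ∣ ∑ g : G, F.eval (π g : ℤ) := by
    intro F
    induction F using Polynomial.induction_on' with
    | add p q hp hq =>
      simp only [Polynomial.eval_add, Finset.sum_add_distrib]
      exact dvd_add hp hq
    | monomial n a =>
      simp only [Polynomial.eval_monomial, ← Finset.mul_sum]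
      exact Dvd.dvd.mul_left (hpow n) a
  have h1 := hpoly (∏ l ∈ L, (Polynomial.X - Polynomial.C (l : ℤ)))
  have h2 : ∀ g : G, (∏ l ∈ L, (Polynomial.X - Polynomial.C (l : ℤ))).eval (π g : ℤ) =
      if g = 1 then ((∏ l ∈ L, (Fintype.card α - l) : ℕ) : ℤ) else 0 := by
    intro g
    rw [Polynomial.eval_prod]
    simp only [Polynomial.eval_sub, Polynomial.eval_X, Polynomial.eval_C]
    split_ifs with hg
    · subst hg
      have hπ1 : π 1 = Fintype.card α := by
        simp [hπ]
      rw [hπ1]
      push_cast
      apply Finset.prod_congr rfl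
      intro l hl
      rw [Nat.cast_sub (hbig l hl).le]
    · have hmem : π g ∈ L := hL g g.2 (fun h => hg (Subtype.ext h))
      exact Finset.prod_eq_zero hmem (sub_self _)
  simp only [h2] at h1
  rw [Finset.sum_ite_eq' Finset.univ (1 : G)] at h1
  simp only [Finset.mem_univ, if_true] at h1
  exact_mod_cast h1

end Cfsg.Agent.S0724
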