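import Cfsg.Statements.S0726
import Cfsg.Agent.Lib.H15.Cent

set_option autoImplicit false
open Cfsg

namespace Cfsg.Agent.S0726

/-- The left and right regular permutation representations of a group are each other's centralisers in the symmetric group: the centraliser of the left regular image is the right regular image, and a transitive subgroup centralising the left regular image is the whole right regular image. -/
theorem result {G : Type*} [Group G] : Subgroup.centralizer ((MulAction.toPermHom G G).range : Set (Equiv.Perm G)) = (MulAction.toPermHom Gᵐᵒᵖ G).range ∧ ∀ H : Subgroup (Equiv.Perm G), H ≤ Subgroup.centralizer ((MulAction.toPermHom G G).range : Set (Equiv.Perm G)) → MulAction.IsPretransitive H G → H = (MulAction.toPermHom Gᵐᵒᵖ G).range := by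
  have hR : (MulAction.toPermHom Gᵐᵒᵖ G).range ≤
      Subgroup.centralizer ((MulAction.toPermHom G G).range : Set (Equiv.Perm G)) := by
    rintro _ ⟨g, rfl⟩
    rw [Subgroup.mem_centralizer_iff]
    rintro _ ⟨h, rfl⟩
    ext x
    simp [mul_assoc]
  have ht : MulAction.IsPretransitive (MulAction.toPermHom G G).range G := by
    refine ⟨fun x y => ⟨⟨_, ⟨y * x⁻¹, rfl⟩⟩, ?_⟩⟩
    change (MulAction.toPermHom G G (y * x⁻¹)) x = y
    simp
  have ht2 : MulAction.IsPretransitive (MulAction.toPermHom Gᵐᵒᵖ G).range G := by
    refine ⟨fun x y => ⟨⟨_, ⟨MulOpposite.op (x⁻¹ * y), rfl⟩⟩, ?_⟩⟩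
    change (MulAction.toPermHom Gᵐᵒᵖ G (MulOpposite.op (x⁻¹ * y))) x = y
    simp
  have h1 := H15.Cent.eq_of_le_of_transitive hR ht2
    (fun c hc a h => H15.Cent.eq_one_of_fix _ ht hc h)
  refine ⟨h1.symm, ?_⟩
  intro H hH htH
  rw [h1]
  exact H15.Cent.eq_of_le_of_transitive hH htH
    (fun c hc a h => H15.Cent.eq_one_of_fix _ ht hc h)

end Cfsg.Agent.S0726
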