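import Cfsg.Statements.S0727
import Cfsg.Agent.Lib.H15.SharpPGL

set_option autoImplicit false
open Cfsg

namespace Cfsg.Agent.S0727

/-- A sharply triply transitive permutation group of degree `2^f + 1` is isomorphic to the projective general linear group of degree 2 over the field with `2^f` elements. -/
theorem result {α : Type*} [Fintype α] [DecidableEq α] {f : ℕ} (hf : 1 ≤ f) (hα : Fintype.card α = 2 ^ f + 1) (G : Subgroup (Equiv.Perm α)) (h3 : MulAction.IsMultiplyPretransitive G α 3) (hsharp : ∀ x : Fin 3 ↪ α, MulAction.stabilizer G x = ⊥) : ∃ (F : Type) (_ : Field F) (_ : Fintype F), Fintype.card F = 2 ^ f ∧ Nonempty (G ≃* Matrix.ProjGenLinGroup (Fin 2) F) := by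
  classical
  have h := H15.Sharp3.sharp_of h3 hsharp
  have hfin : Finite G := inferInstance
  have hpf : 2 ≤ 2 ^ f := by
    calc 2 = 2 ^ 1 := rfl
      _ ≤ 2 ^ f := Nat.pow_le_pow_right (by norm_num) hf
  obtain ⟨i, o, u, hio, hiu, hou⟩ := Fintype.two_lt_card_iff.1 (show 2 < Fintype.card α by omega)
  obtain ⟨s, hsi, hso, hsu⟩ := h.ex i o u o i u hio hiu hou (Ne.symm hio) hou hiu
  have hs2 : s * s = 1 := by
    apply h.fix _ i o u hio hiu hou
    · rw [mul_smul, hsi, hso]
    · rw [mul_smul, hso, hsi]
    · rw [mul_smul, hsu, hsu]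
  have hsi' : s⁻¹ = s := inv_eq_of_mul_eq_one_left hs2
  have hs1 : s ≠ 1 := by
    rintro rfl
    rw [one_smul] at hsi
    exact hio hsi
  -- `s` has just one fixed point
  have hone : ∀ v : α, s • v = v → v = u := by
    intro v hv
    by_contra hvu
    have hf2 : Fact (Nat.Prime 2) := ⟨Nat.prime_two⟩
    have hp : IsPGroup 2 (Subgroup.zpowers s) := by
      apply IsPGroup.of_card (n := 1)
      rw [Nat.card_zpowers, pow_one]
      exact orderOf_eq_prime (by rw [pow_two, hs2]) hs1
    have h1 := hp.card_modEq_card_fixedPoints α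
    have h2 : MulAction.fixedPoints (Subgroup.zpowers s) α = {u, v} := by
      ext x
      rw [MulAction.mem_fixedPoints]
      constructor
      · intro hx
        by_contra hcon
        rw [Set.mem_insert_iff, Set.mem_singleton_iff, not_or] at hcon
        exact hs1 (h.fix s u v x (Ne.symm hvu) (Ne.symm hcon.1) (Ne.symm hcon.2) hsu hv
          (hx ⟨s, Subgroup.mem_zpowers s⟩))
      · intro hx g
        have key : ∀ y : α, s • y = y → (g : G) • y = y := by
          intro y hy
          have h3 : s ∈ MulAction.stabilizer G y := hy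
          have h4 : Subgroup.zpowers s ≤ MulAction.stabilizer G y := Subgroup.zpowers_le.2 h3
          exact h4 g.2
        rcases hx with rfl | hx
        · exact key _ hsu
        · rw [Set.mem_singleton_iff.1 hx]
          exact key _ hv
    have h5 : Nat.card (MulAction.fixedPoints (Subgroup.zpowers s) α) = 2 := by
      rw [h2, Nat.card_coe_set_eq, Set.ncard_pair (Ne.symm hvu)]
    rw [h5, Nat.card_eq_fintype_card, hα] at h1
    have h6 : 2 ∣ 2 ^ f := dvd_pow_self 2 (by omega)
    have h7 : (2 ^ f + 1) % 2 = 2 % 2 := h1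
    omega
  set H := (MulAction.stabilizer G i ⊓ MulAction.stabilizer G o : Subgroup G) with hH
  have hsH : ∀ g ∈ H, s * g * s⁻¹ ∈ H := by
    intro g hg
    refine ⟨?_, ?_⟩
    · change (s * g * s⁻¹) • i = i
      rw [hsi', mul_smul, mul_smul, hsi]
      have : g • o = o := hg.2
      rw [this, hso]
    · change (s * g * s⁻¹) • o = o
      rw [hsi', mul_smul, mul_smul, hso]
      have : g • i = i := hg.1
      rw [this, hsi]
  let φ : H →* H :=
    { toFun := fun h => ⟨s * h * s⁻¹, hsH h h.2⟩
      map_one' := by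
        apply Subtype.ext
        change s * 1 * s⁻¹ = 1
        group
      map_mul' := by
        intro a b
        apply Subtype.ext
        change s * (a * b) * s⁻¹ = (s * a * s⁻¹) * (s * b * s⁻¹)
        group }
  have hφ : MonoidHom.FixedPointFree φ := by
    intro g hg
    have h1 : s * (g : G) * s⁻¹ = g := congrArg Subtype.val hg
    have h2 : s • ((g : G) • u) = (g : G) • u := by
      rw [mul_inv_eq_iff_eq_mul] at h1
      rw [← mul_smul, h1, mul_smul, hsu]
    have h3 := hone _ h2
    apply Subtype.ext
    exact h.fix _ i o u hio hiu hou g.2.1 g.2.2 h3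
  have hφ2 : Function.Involutive φ := by
    intro g
    apply Subtype.ext
    change s * (s * g * s⁻¹) * s⁻¹ = g
    have : s * (s * g * s⁻¹) * s⁻¹ = (s * s) * g * (s * s)⁻¹ := by group
    rw [this, hs2]; group
  have hinv := MonoidHom.FixedPointFree.coe_eq_inv_of_involutive hφ hφ2
  obtain ⟨F, _, _, hF, e⟩ := H15.SharpPGL.main h i o u hio hiu hou s hsi hso hsu (by
    intro g hg1 hg2
    have h1 := congrFun hinv ⟨g, hg1, hg2⟩
    exact congrArg Subtype.val h1)
  exact ⟨F, inferInstance, inferInstance, by omega, e⟩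

end Cfsg.Agent.S0727
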