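import Cfsg.Statements.S0731
import Cfsg.Agent.Lib.H15.ZassAb

set_option autoImplicit false
open Cfsg

namespace Cfsg.Agent.S0731

/-- A finite Zassenhaus group whose point stabiliser has an abelian regular normal subgroup on the remaining points is sharply triply transitive or isomorphic to `PSL(2, F)` for a finite field `F` of odd characteristic. -/
theorem result {G Ω : Type*} [Group G] [Finite G] [MulAction G Ω] [Finite Ω] (hZ : Cfsg.IsZassenhausGroup G Ω) (x : Ω) (F : Subgroup G) (hFle : F ≤ MulAction.stabilizer G x) (hFn : (F.subgroupOf (MulAction.stabilizer G x)).Normal) (hFab : IsMulCommutative F) (hreg : ∀ y z : Ω, y ≠ x → z ≠ x → ∃! u : F, (u : G) • y = z) : (MulAction.IsMultiplyPretransitive G Ω 3 ∧ ∀ t : Fin 3 ↪ Ω, MulAction.stabilizer G t = ⊥) ∨ ∃ (K : Type) (_ : Field K) (_ : Fintype K), ringChar K ≠ 2 ∧ Nonempty (G ≃* Matrix.ProjectiveSpecialLinearGroup (Fin 2) K) := by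
  classical
  have : Fintype Ω := Fintype.ofFinite Ω
  obtain ⟨b, hxb⟩ := H8.Zass.exists_ne_point hZ x
  have hfix : ∀ u ∈ F, u ≠ 1 → ∀ c : Ω, u • c = c → c = x := by
    intro u hu hu1 c hc
    by_contra hcx
    obtain ⟨w, -, hw⟩ := hreg c c hcx hcx
    have h1 := hw ⟨u, hu⟩ hc
    have h2 := hw 1 (show ((1 : F) : G) • c = c by rw [Subgroup.coe_one, one_smul])
    exact hu1 (congrArg Subtype.val (h1.trans h2.symm))
  have hinv : ∀ u : F, (u : G) • b ≠ x := by
    intro u h
    have h1 : (u : G) • x = x := hFle u.2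
    exact hxb (smul_left_cancel (u : G) (h1.trans h.symm))
  have hcard : Nat.card F + 1 = Fintype.card Ω := by
    have h1 : Function.Bijective (fun u : F => (⟨(u : G) • b, hinv u⟩ : {z : Ω // z ≠ x})) := by
      constructor
      · intro u v huv
        have h2 : (u : G) • b = (v : G) • b := congrArg Subtype.val huv
        obtain ⟨w, -, hw⟩ := hreg b ((v : G) • b) hxb.symm (hinv v)
        exact (hw u h2).trans (hw v rfl).symm
      · rintro ⟨z, hz⟩
        obtain ⟨w, hw, -⟩ := hreg b z hxb.symm hz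
        exact ⟨w, Subtype.ext hw⟩
    rw [Nat.card_eq_of_bijective _ h1, Nat.card_eq_fintype_card, Fintype.card_subtype_compl, Fintype.card_subtype_eq]
    have : 0 < Fintype.card Ω := Fintype.card_pos_iff.2 ⟨x⟩
    omega
  have hK : H8.Zass.IsKer x F := H8.Zass.isKer_of hZ hxb hFle hcard hfix
  rcases H15.ZassAb.main hZ hxb hK hFab with h | ⟨-, -, K, iK, iKf, h2, -, hiso⟩
  · left
    exact ⟨H8.ZassSharp.three_trans hZ hxb h, fun t => H8.ZassSharp.sharp hZ hxb t⟩
  · right
    exact ⟨K, iK, iKf, h2, hiso⟩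

end Cfsg.Agent.S0731
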