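import Cfsg.Statements.S0732
import Cfsg.Agent.Lib.H15.DegP2
import Cfsg.Agent.Lib.H15.ZassAb
import Cfsg.Agent.S0727
import Cfsg.Agent.S0730
import Cfsg.Agent.Lib.H98.Dickson
import Cfsg.Agent.Lib.H21.PSLTransport

set_option autoImplicit false
open Cfsg

namespace Cfsg.Agent.S0732

/-- A transitive permutation group on `p + 1` points (`p` prime) of order `(p+1) p d` with `d < p` is isomorphic to `PGL(2,p)` with `d = p - 1`, or to `PSL(2,p)` with `2d = p - 1`, or else `p + 1 = 2^q` for a prime `q`, `d = 1` or `d = q`, and the group is permutation-isomorphic to a group of semi-affine maps `x ↦ a φ(x) + b` of the field with `2^q` elements. -/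
theorem result {α : Type*} [Fintype α] [DecidableEq α] {p d : ℕ} (hp : p.Prime) (hα : Fintype.card α = p + 1) (G : Subgroup (Equiv.Perm α)) [MulAction.IsPretransitive G α] (hG : Nat.card G = (p + 1) * p * d) (hd : d < p) : (d = p - 1 ∧ Nonempty (G ≃* Matrix.ProjGenLinGroup (Fin 2) (ZMod p))) ∨ (2 * d = p - 1 ∧ Nonempty (G ≃* Matrix.ProjectiveSpecialLinearGroup (Fin 2) (ZMod p))) ∨ (∃ q : ℕ, q.Prime ∧ p + 1 = 2 ^ q ∧ (d = 1 ∨ d = q) ∧ ∃ e : α ≃ GaloisField 2 q, ∀ g : G, (e.symm.trans (((g : Equiv.Perm α)).trans e)) ∈ Cfsg.semiaffineGroup (GaloisField 2 q)) := by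
  classical
  have hfp : Fact p.Prime := ⟨hp⟩
  obtain ⟨a⟩ : Nonempty α := Fintype.card_pos_iff.1 (by rw [hα]; omega)
  obtain ⟨P, h⟩ := H15.DegP1.exists_P (G := G) hp hα hG hd a
  have hcZ : Fintype.card (ZMod p) = p := ZMod.card p
  obtain ⟨b, hb⟩ : ∃ b : α, b ≠ a := by
    have h1 : 1 < Fintype.card α := by rw [hα]; have := hp.pos; omega
    exact Fintype.exists_ne_of_one_lt_card h1 a
  have hE := h.card_E hG hb
  have hd0 : 0 < d := by rw [← hE]; exact Nat.card_pos
  have h3p : ∀ (g : G) (x y z : α), x ≠ y → y ≠ z → x ≠ z → g • x = x → g • y = y → g • z = z → g = 1 :=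
    fun g x y z hxy hyz hxz hx hy hz => h.three g x y z hxy hyz hxz hx hy hz
  by_cases hd1 : d = p - 1
  · left
    refine ⟨hd1, ?_⟩
    have hcard3 : Fintype.card (Fin 3 ↪ α) = (p + 1) * p * (p - 1) := by
      rw [Fintype.card_embedding_eq, Fintype.card_fin, hα]
      simp only [Nat.descFactorial]
      have h1 : p + 1 - 2 = p - 1 := by omega
      have h2 : p + 1 - 1 = p := by omega
      rw [h1, h2]
      simp only [Nat.sub_zero, mul_one]
      ring
    have hsharp : ∀ t : Fin 3 ↪ α, MulAction.stabilizer G t = ⊥ := by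
      intro t
      rw [eq_bot_iff]
      intro g hg
      rw [MulAction.mem_stabilizer_iff] at hg
      rw [Subgroup.mem_bot]
      have key : ∀ i, g • t i = t i := fun i => by
        have h1 := congrArg (fun f : Fin 3 ↪ α => f i) hg
        exact h1
      exact h3p g (t 0) (t 1) (t 2) (fun h1 => absurd (t.injective h1) (by decide))
        (fun h1 => absurd (t.injective h1) (by decide)) (fun h1 => absurd (t.injective h1) (by decide))
        (key 0) (key 1) (key 2)
    have h3 : MulAction.IsMultiplyPretransitive G α 3 := by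
      refine ⟨fun x y => ?_⟩
      have hinj : Function.Injective (fun g : G => g • x) := by
        intro g k hgk
        have h1 : k⁻¹ * g ∈ MulAction.stabilizer G x := by
          rw [MulAction.mem_stabilizer_iff, mul_smul, inv_smul_eq_iff]
          exact hgk
        rw [hsharp x, Subgroup.mem_bot] at h1
        exact (inv_mul_eq_one.1 h1).symm
      have hbij : Function.Bijective (fun g : G => g • x) := by
        rw [Fintype.bijective_iff_injective_and_card]
        refine ⟨hinj, ?_⟩
        rw [hcard3, ← Nat.card_eq_fintype_card, hG, hd1]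
      exact hbij.2 y
    have hF : ∃ (F : Type) (_ : Field F) (_ : Fintype F), Fintype.card F = p ∧
        Nonempty (G ≃* Matrix.ProjGenLinGroup (Fin 2) F) := by
      by_cases hp2 : p = 2
      · subst hp2
        obtain ⟨F, iF, iFf, hc, hiso⟩ := Cfsg.Agent.S0727.result (f := 1) le_rfl (by rw [hα]; norm_num) G h3 hsharp
        exact ⟨F, iF, iFf, by rw [hc, pow_one], hiso⟩
      · obtain ⟨F, iF, iFf, hc, hiso⟩ := Cfsg.Agent.S0730.result (f := 1) hp hp2 (by decide) (by rw [hα, pow_one]) G h3 hsharp
        exact ⟨F, iF, iFf, by rw [hc, pow_one], hiso⟩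
    obtain ⟨F, iF, iFf, hc, ⟨e⟩⟩ := hF
    exact ⟨e.trans (H98.Dickson.pglCongr (FiniteField.ringEquivOfCardEq (hc.trans hcZ.symm)))⟩
  right
  have hp2 : p ≠ 2 := by
    rintro rfl
    apply hd1
    omega
  by_cases hreg : ∃ N : Subgroup G, N.Normal ∧ MulAction.IsPretransitive N α ∧ ∀ x : α, MulAction.stabilizer N x = ⊥
  · right
    obtain ⟨N, hN, hNt, hNr⟩ := hreg
    obtain ⟨q, hq, hpq⟩ := h.exists_q hNt hNr hp2
    obtain ⟨h1, e, he⟩ := h.semi hNt hNr hq hpq hG
    refine ⟨q, hq, hpq, h1, e, ?_⟩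
    intro g
    obtain ⟨c, t, φ, hφ⟩ := he g
    exact ⟨c, t, φ, fun x => hφ x⟩
  · left
    have hne : Nonempty α := ⟨a⟩
    have hdne : d ≠ 1 := by
      intro hd2
      apply hreg
      have htr : MulAction.IsPretransitive G α := inferInstance
      obtain ⟨M, hM1, hM2, hM3⟩ := H8.Zass.exists_regular htr (by
        intro g hg x y hx hy
        by_contra hxy
        apply hg
        obtain ⟨k, hkx, hky⟩ := h.two_trans hxy (Ne.symm hb)
        have h1 : k * g * k⁻¹ ∈ (MulAction.stabilizer G a ⊓ MulAction.stabilizer G b : Subgroup G) := by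
          constructor
          · change (k * g * k⁻¹) • a = a
            rw [mul_smul, mul_smul, ← hkx, inv_smul_smul, hx]
          · change (k * g * k⁻¹) • b = b
            rw [mul_smul, mul_smul, ← hky, inv_smul_smul, hy]
        rw [hd2] at hE
        rw [Subgroup.card_eq_one.1 hE, Subgroup.mem_bot, mul_inv_eq_one, mul_eq_left] at h1
        exact h1)
      refine ⟨M, ⟨fun n hn g => ?_⟩, hM2, hM3⟩
      rw [hM1] at hn ⊢
      rcases hn with rfl | hn
      · left; group
      · right
        intro x hx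
        apply hn (g⁻¹ • x)
        rw [mul_smul, mul_smul] at hx
        rw [eq_inv_smul_iff]
        exact hx
    have hZ : Cfsg.IsZassenhausGroup G α := by
      refine ⟨inferInstance, h.is2, fun g x y z hxy hyz hxz hx hy hz => h3p g x y z hxy hyz hxz hx hy hz, ?_, ?_⟩
      · have hnt : Nontrivial (MulAction.stabilizer G a ⊓ MulAction.stabilizer G b : Subgroup G) :=
          Finite.one_lt_card_iff_nontrivial.1 (by rw [hE]; omega)
        obtain ⟨g, hg⟩ := exists_ne (1 : (MulAction.stabilizer G a ⊓ MulAction.stabilizer G b : Subgroup G))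
        exact ⟨g, fun h1 => hg (Subtype.ext h1), a, b, Ne.symm hb, g.2.1, g.2.2⟩
      · intro N hN hNt
        by_contra hcon
        push Not at hcon
        exact hreg ⟨N, hN, hNt, hcon⟩
    have hK : H8.Zass.IsKer a P := by
      apply H8.Zass.isKer_of hZ (Ne.symm hb) (fun u hu => h.fix u hu) (by rw [h.card, hα])
      intro u hu hu1 c hc
      by_contra hca
      exact hu1 (h.free u hu c hca hc)
    have hKc : IsMulCommutative P := ⟨⟨fun x y => Subtype.ext (h.comm x y x.2 y.2)⟩⟩
    have hE' : Nat.card (H8.Zass.E2 G a b) = d := hE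
    rcases H15.ZassAb.main hZ (Ne.symm hb) hK hKc with h1 | ⟨-, h1, F, iF, iFf, -, hc, ⟨e⟩⟩
    · exfalso
      apply hd1
      rw [hE', hα] at h1
      omega
    · rw [hE', hα] at h1
      refine ⟨by omega, ?_⟩
      obtain ⟨e'⟩ := H21.PSLTransport.psl_congr_card (K := F) (L := ZMod p) (by omega) (Fin 2)
      exact ⟨e.trans e'⟩

end Cfsg.Agent.S0732
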