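import Cfsg.Statements.S0733
import Cfsg.Agent.Lib.H15.Blk

set_option autoImplicit false
open Cfsg

namespace Cfsg.Agent.S0733

/-- A permutation group of affine type — generated by the translations of a finite vector space `V` over `ZMod p` together with a group `G₀` of linear automorphisms — is primitive on `V` if and only if `G₀` is irreducible on `V`. -/
theorem result {p : ℕ} [Fact p.Prime] {V : Type*} [AddCommGroup V] [Module (ZMod p) V] [Finite V] [Nontrivial V] (G₀ : Subgroup (V ≃ₗ[ZMod p] V)) (G : Subgroup (Equiv.Perm V)) (hG : ∀ σ : Equiv.Perm V, σ ∈ G ↔ ∃ g ∈ G₀, ∃ b : V, ∀ x : V, σ x = (g : V ≃ₗ[ZMod p] V) x + b) : MulAction.IsPreprimitive G V ↔ ∀ W : Submodule (ZMod p) V, (∀ g ∈ G₀, ∀ v ∈ W, (g : V ≃ₗ[ZMod p] V) v ∈ W) → W = ⊥ ∨ W = ⊤ := by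
  classical
  have htransl : ∀ b : V, Equiv.addRight b ∈ G := by
    intro b
    rw [hG]
    exact ⟨1, G₀.one_mem, b, fun x => rfl⟩
  have hlin : ∀ g ∈ G₀, (g : V ≃ₗ[ZMod p] V).toEquiv ∈ G := by
    intro g hg
    rw [hG]
    exact ⟨g, hg, 0, fun x => by simp⟩
  have hpt : MulAction.IsPretransitive G V := by
    refine ⟨fun x y => ⟨⟨_, htransl (y - x)⟩, ?_⟩⟩
    change x + (y - x) = y
    abel
  constructor
  · intro hprim W hW
    -- `W` is a block
    have hB : MulAction.IsBlock G (W : Set V) := by
      rw [H15.Blk.isBlock_iff]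
      rintro ⟨σ, hσ⟩ x hx hgx y hy
      obtain ⟨g, hg, b, hgb⟩ := (hG σ).1 hσ
      have hgx' : σ x ∈ W := hgx
      rw [hgb] at hgx'
      have hb : b ∈ W := by
        have h2 : b = ((g : V ≃ₗ[ZMod p] V) x + b) - (g : V ≃ₗ[ZMod p] V) x := by abel
        rw [h2]
        exact W.sub_mem hgx' (hW g hg x hx)
      change σ y ∈ W
      rw [hgb]
      exact W.add_mem (hW g hg y hy) hb
    rcases MulAction.IsPreprimitive.isTrivialBlock_of_isBlock hB with h | h
    · left
      rw [eq_bot_iff]
      intro w hw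
      rw [Submodule.mem_bot]
      exact h hw W.zero_mem
    · right
      rw [eq_top_iff]
      intro w _
      have : w ∈ (W : Set V) := by rw [h]; trivial
      exact this
  · intro hirr
    refine MulAction.IsPreprimitive.of_isTrivialBlock_base (0 : V) (fun {B} h0 hB => ?_)
    have hadd : ∀ b ∈ B, ∀ x, x + b ∈ B ↔ x ∈ B := by
      intro b hb x
      exact H15.Blk.mem_iff hB (g := (⟨_, htransl b⟩ : G)) h0
        (by change (0 : V) + b ∈ B; rwa [zero_add]) x
    let A : AddSubgroup V :=
      { carrier := B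
        zero_mem' := h0
        add_mem' := by
          intro a b ha hb
          exact (hadd b hb a).2 ha
        neg_mem' := by
          intro b hb
          have := (hadd b hb (-b))
          rw [neg_add_cancel] at this
          exact this.1 h0 }
    let W : Submodule (ZMod p) V := AddSubgroup.toZModSubmodule p A
    have hWB : (W : Set V) = B := rfl
    have hinv : ∀ g ∈ G₀, ∀ v ∈ W, (g : V ≃ₗ[ZMod p] V) v ∈ W := by
      intro g hg v hv
      have h1 := H15.Blk.mem_iff hB (g := (⟨_, hlin g hg⟩ : G)) h0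
        (by change (g : V ≃ₗ[ZMod p] V) 0 ∈ B; rwa [map_zero]) v
      exact h1.2 hv
    rcases hirr W hinv with h | h
    · left
      rw [← hWB, h]
      simp
    · right
      rw [← hWB, h]; rfl

end Cfsg.Agent.S0733
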