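import Cfsg.Statements.S0734
import Cfsg.Agent.Lib.H15.Blk

set_option autoImplicit false
open Cfsg

namespace Cfsg.Agent.S0734

/-- Higman's criterion for primitivity: a transitive action on a finite set is primitive if and only if every non-trivial orbital graph (edges = images of a fixed pair of distinct points) is connected. -/
theorem result {G : Type*} [Group G] {Ω : Type*} [Finite Ω] [MulAction G Ω] [MulAction.IsPretransitive G Ω] [Nontrivial Ω] : MulAction.IsPreprimitive G Ω ↔ ∀ a b : Ω, a ≠ b → (SimpleGraph.fromRel fun x y : Ω => ∃ g : G, g • a = x ∧ g • b = y).Connected := by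
  classical
  constructor
  · intro hprim a b hab
    set Γ := SimpleGraph.fromRel fun x y : Ω => ∃ g : G, g • a = x ∧ g • b = y with hΓ
    have hadj : ∀ x y, Γ.Adj x y ↔ x ≠ y ∧ ((∃ g : G, g • a = x ∧ g • b = y) ∨
        (∃ g : G, g • a = y ∧ g • b = x)) := fun x y => by
      rw [hΓ, SimpleGraph.fromRel_adj]
    have hGadj : ∀ (h : G) x y, Γ.Adj x y → Γ.Adj (h • x) (h • y) := by
      intro h x y hxy
      rw [hadj] at hxy ⊢
      refine ⟨fun e => hxy.1 (smul_left_cancel _ e), ?_⟩
      rcases hxy.2 with ⟨g, h1, h2⟩ | ⟨g, h1, h2⟩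
      · left; exact ⟨h * g, by rw [mul_smul, h1], by rw [mul_smul, h2]⟩
      · right; exact ⟨h * g, by rw [mul_smul, h1], by rw [mul_smul, h2]⟩
    have hGre : ∀ (h : G) x y, Γ.Reachable x y → Γ.Reachable (h • x) (h • y) := by
      intro h x y hxy
      let φ : Γ →g Γ := ⟨fun z => h • z, fun {x y} hxy => hGadj h x y hxy⟩
      exact hxy.map φ
    have hB : MulAction.IsBlock G {x : Ω | Γ.Reachable a x} := by
      rw [MulAction.isBlock_iff_smul_eq_of_nonempty]
      rintro g ⟨y, ⟨x, hx, rfl⟩, hy2⟩
      have hx' : Γ.Reachable a x := hx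
      have hy' : Γ.Reachable a (g • x) := hy2
      have hga : Γ.Reachable a (g • a) := hy'.trans (hGre g _ _ hx').symm
      ext z
      constructor
      · rintro ⟨w, hw, rfl⟩
        exact hga.trans (hGre g _ _ hw)
      · intro hz
        refine ⟨g⁻¹ • z, ?_, by simp⟩
        have h1 : Γ.Reachable (g • a) z := hga.symm.trans hz
        have h2 := hGre g⁻¹ _ _ h1
        rwa [inv_smul_smul] at h2
    have hab' : Γ.Adj a b := by
      rw [hadj]
      exact ⟨hab, Or.inl ⟨1, by simp, by simp⟩⟩
    rcases MulAction.IsPreprimitive.isTrivialBlock_of_isBlock hB with h | h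
    · exfalso
      exact hab (h (SimpleGraph.Reachable.refl a) hab'.reachable)
    · rw [SimpleGraph.connected_iff]
      have hall : ∀ x, Γ.Reachable a x := by
        intro x
        have : x ∈ {x : Ω | Γ.Reachable a x} := by rw [h]; trivial
        exact this
      exact ⟨fun x y => (hall x).symm.trans (hall y), inferInstance⟩
  · intro hcon
    refine { isTrivialBlock_of_isBlock := fun {B} hB => ?_ }
    by_cases hs : B.Subsingleton
    · exact Or.inl hs
    right
    rw [Set.not_subsingleton_iff] at hs
    obtain ⟨a, ha, b, hb, hab⟩ := hs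
    have hc := hcon a b hab
    rw [H15.Blk.isBlock_iff] at hB
    set Γ := SimpleGraph.fromRel fun x y : Ω => ∃ g : G, g • a = x ∧ g • b = y with hΓ
    have hstep : ∀ x y, Γ.Adj x y → x ∈ B → y ∈ B := by
      intro x y hxy hx
      rw [hΓ, SimpleGraph.fromRel_adj] at hxy
      rcases hxy.2 with ⟨g, h1, h2⟩ | ⟨g, h1, h2⟩
      · rw [← h2]
        exact hB g a ha (by rw [h1]; exact hx) b hb
      · rw [← h1]
        exact hB g b hb (by rw [h2]; exact hx) a ha
    rw [Set.eq_univ_iff_forall]
    intro y
    have hr : Γ.Reachable a y := hc.preconnected a y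
    obtain ⟨w⟩ := hr
    have : ∀ {x y : Ω} (w : Γ.Walk x y), x ∈ B → y ∈ B := by
      intro x y w
      induction w with
      | nil => exact id
      | cons h _ ih => intro hx; exact ih (hstep _ _ h hx)
    exact this w ha

end Cfsg.Agent.S0734
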