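import Cfsg.Statements.S0736
import Cfsg.Agent.Lib.H16.PermBasic

set_option autoImplicit false
open Cfsg

namespace Cfsg.Agent.S0736

/-- A `k`-homogeneous permutation group of degree `n`, `k ≥ 2`, with `k + q - 1 ≤ n` for every prime power `q` dividing `k`, is `(k-1)`-homogeneous. -/
theorem result {α : Type*} [Fintype α] [DecidableEq α] (G : Subgroup (Equiv.Perm α)) {k : ℕ} (hk : 2 ≤ k) (hG : MulAction.IsPretransitive G (Set.powersetCard α k)) (hq : ∀ q : ℕ, IsPrimePow q → q ∣ k → k + q - 1 ≤ Fintype.card α) : MulAction.IsPretransitive G (Set.powersetCard α (k - 1)) := by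
  classical
  -- arithmetic: Lucas
  have lucas : ∀ (p a r : ℕ), p.Prime → ¬ p ∣ (p ^ a * r + (p ^ a - 1)).choose (p ^ a - 1) := by
    intro p a r hp
    have := Fact.mk hp
    induction a with
    | zero => simpa using hp.one_lt.ne'
    | succ a ih =>
      have h1 := Choose.choose_modEq_choose_mod_mul_choose_div_nat (p := p) (n := p ^ (a + 1) * r + (p ^ (a + 1) - 1))
        (k := p ^ (a + 1) - 1)
      have hpa : 0 < p ^ a := pow_pos hp.pos a
      have e0 : p ^ (a + 1) - 1 = p * (p ^ a - 1) + (p - 1) := by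
        rw [pow_succ, Nat.mul_sub]
        have h2 : p * 1 ≤ p * p ^ a := Nat.mul_le_mul_left _ hpa
        have h3 : 1 ≤ p := hp.one_lt.le
        have h4 : p ^ a * p = p * p ^ a := mul_comm _ _
        omega
      have e1 : p ^ (a + 1) * r + (p ^ (a + 1) - 1) = p * (p ^ a * r + (p ^ a - 1)) + (p - 1) := by
        rw [e0, pow_succ]
        ring
      have hlt : p - 1 < p := Nat.sub_lt hp.pos one_pos
      rw [e1, e0] at h1
      rw [Nat.mul_add_mod, Nat.mul_add_mod, Nat.mod_eq_of_lt hlt, Nat.mul_add_div hp.pos, Nat.mul_add_div hp.pos,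
        Nat.div_eq_of_lt hlt, add_zero, add_zero, Nat.choose_self, one_mul] at h1
      rw [e1, e0]
      intro hdvd
      apply ih
      exact (Nat.modEq_zero_iff_dvd).mp (h1.symm.trans ((Nat.modEq_zero_iff_dvd).mpr hdvd))
  have hhom := H16.PermBasic.homog_iff.mp hG
  have hkn : k ≤ Fintype.card α := by
    obtain ⟨p, hp, hpk⟩ := Nat.exists_prime_and_dvd (n := k) (by omega)
    have h1 := hq p hp.isPrimePow hpk
    have h2 := hp.two_le
    omega
  rw [H16.PermBasic.homog_iff]
  intro s t hs ht
  let Δ : Finset (Finset α) := (Finset.univ.powersetCard (k - 1)).filter (fun u => ∃ g ∈ G, s.image g = u)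
  have hΔ : ∀ u, u ∈ Δ ↔ u.card = k - 1 ∧ ∃ g ∈ G, s.image g = u := by
    intro u
    simp [Δ, Finset.mem_powersetCard]
  have hΔG : ∀ g ∈ G, ∀ u ∈ Δ, u.image g ∈ Δ := by
    intro g hg u hu
    rw [hΔ] at hu ⊢
    obtain ⟨h1, g', hg', h2⟩ := hu
    refine ⟨by rw [Finset.card_image_of_injective _ g.injective, h1], g * g', G.mul_mem hg hg', ?_⟩
    rw [← h2, Finset.image_image]
    rfl
  have hsΔ : s ∈ Δ := by
    rw [hΔ]
    exact ⟨hs, 1, G.one_mem, by simp⟩
  -- constant count
  obtain ⟨K0, -, hK0⟩ := Finset.exists_subset_card_eq (s := (Finset.univ : Finset α)) (n := k) (by simpa using hkn)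
  obtain ⟨c, hc⟩ : ∃ c, (Δ.filter (fun u => u ⊆ K0)).card = c := ⟨_, rfl⟩
  have hconst : ∀ K : Finset α, K.card = k → (Δ.filter (fun u => u ⊆ K)).card = c := by
    intro K hK
    obtain ⟨g, hg, hgK⟩ := hhom K K0 hK hK0
    rw [← hc]
    apply Finset.card_bij (fun u _ => u.image g)
    · intro u hu
      rw [Finset.mem_filter] at hu ⊢
      exact ⟨hΔG g hg u hu.1, hgK ▸ Finset.image_subset_image hu.2⟩
    · intro u _ v _ huv
      exact Finset.image_injective g.injective huv
    · intro v hv
      rw [Finset.mem_filter] at hv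
      refine ⟨v.image (g⁻¹ : Equiv.Perm α), ?_, ?_⟩
      · rw [Finset.mem_filter]
        refine ⟨hΔG _ (G.inv_mem hg) v hv.1, ?_⟩
        have h1 : v.image (g⁻¹ : Equiv.Perm α) ⊆ K0.image (g⁻¹ : Equiv.Perm α) := Finset.image_subset_image hv.2
        rw [← hgK, Finset.image_image] at h1
        simpa using h1
      · rw [Finset.image_image]
        ext x
        simp
  -- divisibility
  have hdiv : ∀ q : ℕ, IsPrimePow q → q ∣ k → q ∣ c := by
    intro q hqp hqk
    have hM := hq q hqp hqk
    obtain ⟨p, a, hp, ha, rfl⟩ := (isPrimePow_nat_iff q).mp hqp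
    have hqpos : 0 < p ^ a := pow_pos hp.pos a
    obtain ⟨M, -, hMc⟩ := Finset.exists_subset_card_eq (s := (Finset.univ : Finset α)) (n := k + p ^ a - 1)
      (by simpa using hM)
    have hdc := Finset.card_mul_eq_card_mul (r := fun (K u : Finset α) => u ⊆ K)
      (s := M.powersetCard k) (t := Δ.filter (fun u => u ⊆ M)) (m := c) (n := p ^ a)
      (by
        intro K hK
        rw [Finset.mem_powersetCard] at hK
        rw [← hconst K hK.2]
        congr 1
        ext u
        simp only [Finset.mem_bipartiteAbove, Finset.mem_filter]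
        constructor
        · rintro ⟨⟨h1, _⟩, h2⟩
          exact ⟨h1, h2⟩
        · rintro ⟨h1, h2⟩
          exact ⟨⟨h1, h2.trans hK.1⟩, h2⟩)
      (by
        intro u hu
        rw [Finset.mem_filter] at hu
        have huc : u.card = k - 1 := ((hΔ u).mp hu.1).1
        -- K = insert x u, x ∈ M \ u
        have h1 : (M \ u).card = p ^ a := by
          rw [Finset.card_sdiff_of_subset hu.2, hMc, huc]
          omega
        rw [← h1]
        symm
        apply Finset.card_bij (fun x _ => insert x u)
        · intro x hx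
          rw [Finset.mem_sdiff] at hx
          rw [Finset.mem_bipartiteBelow, Finset.mem_powersetCard]
          refine ⟨⟨Finset.insert_subset hx.1 hu.2, ?_⟩, Finset.subset_insert _ _⟩
          rw [Finset.card_insert_of_notMem hx.2, huc]
          omega
        · intro x hx y hy hxy
          rw [Finset.mem_sdiff] at hx hy
          have : x ∈ insert y u := by rw [← hxy]; exact Finset.mem_insert_self _ _
          rcases Finset.mem_insert.mp this with h | h
          · exact h
          · exact absurd h hx.2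
        · intro K hK
          rw [Finset.mem_bipartiteBelow, Finset.mem_powersetCard] at hK
          obtain ⟨⟨hKM, hKc⟩, huK⟩ := hK
          have h2 : (K \ u).card = 1 := by
            rw [Finset.card_sdiff_of_subset huK, hKc, huc]
            omega
          obtain ⟨x, hx⟩ := Finset.card_eq_one.mp h2
          have hxK : x ∈ K \ u := by rw [hx]; exact Finset.mem_singleton_self x
          rw [Finset.mem_sdiff] at hxK
          refine ⟨x, Finset.mem_sdiff.mpr ⟨hKM hxK.1, hxK.2⟩, ?_⟩
          rw [Finset.insert_eq, ← hx, Finset.sdiff_union_of_subset huK])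
    rw [Finset.card_powersetCard, hMc] at hdc
    obtain ⟨r, hr⟩ := hqk
    have h5 : ¬ p ∣ (k + p ^ a - 1).choose k := by
      have h6 := lucas p a r hp
      have h7 : k + p ^ a - 1 = p ^ a * r + (p ^ a - 1) := by rw [← hr]; omega
      rw [h7]
      rw [← Nat.choose_symm_of_eq_add (a := k) (b := p ^ a - 1)] at h6
      · exact h6
      · rw [hr]
    have h8 : Nat.Coprime (p ^ a) ((k + p ^ a - 1).choose k) :=
      Nat.Coprime.pow_left a ((Nat.Prime.coprime_iff_not_dvd hp).mpr h5)
    exact h8.dvd_of_dvd_mul_left (Dvd.intro_left _ hdc.symm)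
  have hkc : k ∣ c := by
    rw [Nat.dvd_iff_prime_pow_dvd_dvd]
    intro p j hp hj
    rcases Nat.eq_zero_or_pos j with h | h
    · subst h; simp
    · exact hdiv _ ((isPrimePow_nat_iff _).mpr ⟨p, j, hp, h, rfl⟩) hj
  -- c ≥ 1
  have hcpos : 0 < c := by
    obtain ⟨K, hsK, -, hK⟩ := Finset.exists_subsuperset_card_eq (s := s) (t := Finset.univ) (n := k)
      (Finset.subset_univ _) (by omega) (by simpa using hkn)
    rw [← hconst K hK]
    exact Finset.card_pos.mpr ⟨s, Finset.mem_filter.mpr ⟨hsΔ, hsK⟩⟩
  have hck : k ≤ c := Nat.le_of_dvd hcpos hkc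
  obtain ⟨K, htK, -, hK⟩ := Finset.exists_subsuperset_card_eq (s := t) (t := Finset.univ) (n := k)
      (Finset.subset_univ _) (by omega) (by simpa using hkn)
  have hsub : Δ.filter (fun u => u ⊆ K) ⊆ K.powersetCard (k - 1) := by
    intro u hu
    rw [Finset.mem_filter] at hu
    rw [Finset.mem_powersetCard]
    exact ⟨hu.2, ((hΔ u).mp hu.1).1⟩
  have heq : Δ.filter (fun u => u ⊆ K) = K.powersetCard (k - 1) := by
    apply Finset.eq_of_subset_of_card_le hsub
    rw [Finset.card_powersetCard, hK, hconst K hK]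
    have : k.choose (k - 1) = k := by
      obtain ⟨j, rfl⟩ : ∃ j, k = j + 1 := ⟨k - 1, by omega⟩
      rw [Nat.add_sub_cancel, Nat.choose_succ_self_right]
    rw [this]
    exact hck
  have htΔ : t ∈ Δ.filter (fun u => u ⊆ K) := by
    rw [heq, Finset.mem_powersetCard]
    exact ⟨htK, ht⟩
  exact ((hΔ t).mp (Finset.mem_filter.mp htΔ).1).2

end Cfsg.Agent.S0736
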