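import Cfsg.Statements.S0737
import Cfsg.Agent.Lib.H16.Kantor
import Cfsg.Agent.S0205

set_option autoImplicit false
open Cfsg

namespace Cfsg.Agent.S0737

/-- A non-trivial 2-homogeneous permutation group that is not doubly transitive has odd order and degree `p^f ≡ 3 (mod 4)`, and is permutation-isomorphic to a group of semi-affine transformations `x ↦ a φ(x) + b` of the field with `p^f` elements containing all translations. -/
theorem result {α : Type*} [Fintype α] [DecidableEq α] (G : Subgroup (Equiv.Perm α)) (hne : G ≠ ⊥) (h2 : MulAction.IsPretransitive G (Set.powersetCard α 2)) (hn2 : ¬ MulAction.IsMultiplyPretransitive G α 2) : Odd (Nat.card G) ∧ ∃ (p f : ℕ) (_ : Fact p.Prime), p ≠ 2 ∧ Fintype.card α = p ^ f ∧ p ^ f % 4 = 3 ∧ ∃ e : α ≃ GaloisField p f, (∀ g : G, e.symm.trans (((g : Equiv.Perm α)).trans e) ∈ Cfsg.semiaffineGroup (GaloisField p f)) ∧ ∀ b : GaloisField p f, ∃ g : G, ∀ x : α, e ((g : Equiv.Perm α) x) = e x + b := by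
  exact H16.Kantor.main G hne h2 hn2 (fun h => Cfsg.Agent.S0205.result h)

end Cfsg.Agent.S0737
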