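import Cfsg.Statements.S0738
import Cfsg.Agent.Lib.H16.Zass
import Cfsg.Agent.Lib.H16.ZassKer

set_option autoImplicit false
open Cfsg

namespace Cfsg.Agent.S0738

/-- Let a finite Zassenhaus group of degree `n + 1` have two-point stabilisers of order `d` with `2d ≥ n - 1`. Then a normal subgroup of a point stabiliser acting regularly on the remaining points is elementary abelian, and the degree is a prime power plus one. -/
theorem result {G Ω : Type*} [Group G] [Finite G] [MulAction G Ω] [Fintype Ω] (hZ : Cfsg.IsZassenhausGroup G Ω) {a b : Ω} (hab : a ≠ b) (hd : Fintype.card Ω - 2 ≤ 2 * Nat.card ↥(MulAction.stabilizer G a ⊓ MulAction.stabilizer G b)) (F : Subgroup G) (hFle : F ≤ MulAction.stabilizer G a) (hFn : (F.subgroupOf (MulAction.stabilizer G a)).Normal) (hreg : ∀ y z : Ω, y ≠ a → z ≠ a → ∃! u : F, (u : G) • y = z) : IsMulCommutative F ∧ ∃ p f : ℕ, p.Prime ∧ (∀ u ∈ F, u ^ p = 1) ∧ Fintype.card Ω = p ^ f + 1 := by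
  open MulAction in
  classical
  set H : Subgroup G := stabilizer G a ⊓ stabilizer G b with hH
  have hHa : ∀ h ∈ H, h • a = a := fun h hh => hh.1
  have hHb : ∀ h ∈ H, h • b = b := fun h hh => hh.2
  have hFa : ∀ u ∈ F, u • a = a := fun u hu => hFle hu
  have hHF : ∀ h ∈ H, ∀ u ∈ F, h * u * h⁻¹ ∈ F := by
    intro h hh u hu
    have h1 := hFn.conj_mem ⟨u, hFle hu⟩ (Subgroup.mem_subgroupOf.mpr hu) ⟨h, hh.1⟩
    exact Subgroup.mem_subgroupOf.mp h1
  have hreg1 : ∀ u ∈ F, u • b = b → u = 1 := by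
    intro u hu hub
    obtain ⟨v, hv, hv'⟩ := hreg b b (Ne.symm hab) (Ne.symm hab)
    have h1 := hv' ⟨u, hu⟩ hub
    have h2 := hv' 1 (one_smul G b)
    rw [← h2] at h1
    exact congrArg Subtype.val h1
  have hfree : ∀ h ∈ H, ∀ u ∈ F, u ≠ 1 → h * u = u * h → h = 1 := by
    intro h hh u hu hu1 hcomm
    have hub : u • b ≠ b := fun h => hu1 (hreg1 u hu h)
    have hua : u • b ≠ a := by
      intro h3
      rw [← hFa u hu] at h3
      exact hab (smul_left_cancel u h3).symm
    apply H16.Zass.eq_one hZ hab (Ne.symm hub) (Ne.symm hua) (hHa h hh) (hHb h hh)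
    rw [← mul_smul, hcomm, mul_smul, hHb h hh]
  have hcardF : Nat.card F + 1 = Fintype.card Ω := by
    have e : Nat.card F = Nat.card {z : Ω // z ≠ a} := by
      refine Nat.card_congr (Equiv.ofBijective (fun u => ⟨(u : G) • b, ?_⟩) ⟨?_, ?_⟩)
      · intro h3
        rw [← hFa u u.2] at h3
        exact hab (smul_left_cancel (u : G) h3).symm
      · intro u v huv
        have h3 : (u : G) • b = (v : G) • b := congrArg Subtype.val huv
        have hne : (v : G) • b ≠ a := by
          intro h3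
          rw [← hFa v v.2] at h3
          exact hab (smul_left_cancel (v : G) h3).symm
        exact (hreg b _ (Ne.symm hab) hne).unique h3 rfl
      · rintro ⟨z, hz⟩
        obtain ⟨u, hu, -⟩ := hreg b z (Ne.symm hab) hz
        exact ⟨u, Subtype.ext hu⟩
    rw [e, Nat.card_eq_fintype_card, Fintype.card_subtype_compl, Fintype.card_subtype_eq]
    exact Nat.sub_add_cancel (Fintype.card_pos_iff.mpr ⟨a⟩)
  have h3 : 3 ≤ Fintype.card Ω := by
    obtain ⟨g, hg1, hga, hgb⟩ := H16.Zass.exists_stab hZ hab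
    obtain ⟨x, hx⟩ := H16.Zass.exists_move hZ hg1
    have hxa : x ≠ a := by rintro rfl; exact hx hga
    have hxb : x ≠ b := by rintro rfl; exact hx hgb
    have : ({a, b, x} : Finset Ω).card = 3 := by
      rw [Finset.card_eq_three]
      exact ⟨a, b, x, hab, Ne.symm hxa, Ne.symm hxb, rfl⟩
    rw [← this]
    exact Finset.card_le_univ _
  have hF1 : F ≠ ⊥ := by
    intro h
    rw [h, Subgroup.card_bot] at hcardF
    omega
  obtain ⟨hcomm, p, f, hp, hexp, hpf⟩ := H16.ZassKer.elementary F H hHF hfree hF1 (by omega)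
  refine ⟨⟨⟨fun u v => Subtype.ext (hcomm u u.2 v v.2)⟩⟩, p, f, hp, hexp, ?_⟩
  rw [← hpf, hcardF]

end Cfsg.Agent.S0738
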