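import Cfsg.Statements.S0740
import Cfsg.Agent.Lib.H16.Zass

set_option autoImplicit false
open Cfsg

namespace Cfsg.Agent.S0740

/-- In a finite Zassenhaus group any two points `a ≠ b` are swapped by an involution; every such involution has exactly one fixed point when the degree is odd and 0 or 2 fixed points when the degree is even; and if the two-point stabiliser has even order, some such involution has exactly 2 fixed points. -/
theorem result {G Ω : Type*} [Group G] [Finite G] [MulAction G Ω] [Fintype Ω] (hZ : Cfsg.IsZassenhausGroup G Ω) {a b : Ω} (hab : a ≠ b) : (∃ s : G, orderOf s = 2 ∧ s • a = b ∧ s • b = a) ∧ (∀ s : G, orderOf s = 2 → s • a = b → s • b = a → (Odd (Fintype.card Ω) → Nat.card (MulAction.fixedBy Ω s) = 1) ∧ (Even (Fintype.card Ω) → Nat.card (MulAction.fixedBy Ω s) = 0 ∨ Nat.card (MulAction.fixedBy Ω s) = 2)) ∧ (Even (Fintype.card Ω) → Even (Nat.card ↥(MulAction.stabilizer G a ⊓ MulAction.stabilizer G b)) → ∃ s : G, orderOf s = 2 ∧ s • a = b ∧ s • b = a ∧ Nat.card (MulAction.fixedBy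 Ω s) = 2) := by
  open MulAction in
  classical
  have hne : ∀ t : G, orderOf t = 2 → t ≠ 1 := by
    intro t ht h
    rw [h, orderOf_one] at ht
    omega
  refine ⟨?_, ?_, ?_⟩
  · obtain ⟨t, ht⟩ := H16.Zass.exists_involution hZ hab
    obtain ⟨x, hx⟩ := H16.Zass.exists_move hZ (hne t ht)
    obtain ⟨g, h1, h2⟩ := H16.Zass.exists_conj_swap hZ ht hx hab
    exact ⟨g * t * g⁻¹, by rw [H16.Zass.conj_orderOf, ht], h1, h2⟩
  · intro s hs _ _
    have h1 := H16.Zass.card_fixedBy_mod (Ω := Ω) hs
    have h2 := H16.Zass.card_fixedBy_le hZ (hne s hs)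
    refine ⟨?_, ?_⟩
    · intro ho
      rw [Nat.odd_iff] at ho
      unfold Nat.ModEq at h1
      rw [ho] at h1
      omega
    · intro he
      rw [Nat.even_iff] at he
      unfold Nat.ModEq at h1
      rw [he] at h1
      omega
  · intro _ heven
    have hp : Fact (Nat.Prime 2) := ⟨Nat.prime_two⟩
    obtain ⟨t, ht⟩ := exists_prime_orderOf_dvd_card' (G := ↥(stabilizer G a ⊓ stabilizer G b)) 2
      (even_iff_two_dvd.mp heven)
    have ht' : orderOf (t : G) = 2 := by rw [Subgroup.orderOf_coe]; exact ht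
    have hta : (t : G) • a = a := t.2.1
    have htb : (t : G) • b = b := t.2.2
    obtain ⟨x, hx⟩ := H16.Zass.exists_move hZ (hne t ht')
    obtain ⟨g, h1, h2⟩ := H16.Zass.exists_conj_swap hZ ht' hx hab
    refine ⟨g * t * g⁻¹, by rw [H16.Zass.conj_orderOf, ht'], h1, h2, ?_⟩
    rw [H16.Zass.card_fixedBy_conj]
    exact H16.Zass.card_fixedBy_eq_two hZ (hne t ht') hab hta htb

end Cfsg.Agent.S0740
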