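import Cfsg.Statements.S0745
import Cfsg.Agent.Lib.H16.LW8

set_option autoImplicit false
open Cfsg

namespace Cfsg.Agent.S0745

/-- Let `G` have degree `n` and `3 ≤ k ≤ n`; suppose `G` is `(k-2)`-transitive but not `(k-1)`-transitive, and is `(k-1)`-homogeneous and `k`-homogeneous. Then `k = n` and `G` is the alternating group, or `n = 5, k = 4, |G| = 20`, or `n = 6, k = 5, |G| = 120`, or `n = 9, k = 5, |G| ∈ {504, 1512}`. -/
theorem result {α : Type*} [Fintype α] [DecidableEq α] (G : Subgroup (Equiv.Perm α)) {k : ℕ} (hk : 3 ≤ k) (hkn : k ≤ Fintype.card α) (ht : MulAction.IsMultiplyPretransitive G α (k - 2)) (hnt : ¬ MulAction.IsMultiplyPretransitive G α (k - 1)) (hh1 : MulAction.IsPretransitive G (Set.powersetCard α (k - 1))) (hh : MulAction.IsPretransitive G (Set.powersetCard α k)) : (k = Fintype.card α ∧ G = alternatingGroup α) ∨ (Fintype.card α = 5 ∧ k = 4 ∧ Nat.card G = 20) ∨ (Fintype.card α = 6 ∧ k = 5 ∧ Nat.card G = 120) ∨ (Fintype.card α = 9 ∧ k = 5 ∧ (Nat.card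 G = 504 ∨ Nat.card G = 1512)) := by
  classical
  obtain ⟨K, rfl⟩ : ∃ K, k = K + 2 := ⟨k - 2, by omega⟩
  have hs : H16.LW.Setup G K := H16.LW.setup_of hkn ht hnt hh1 hh
  rcases Nat.eq_or_lt_of_le hkn with hn | hn
  · left
    exact ⟨hn, hs.full hn.symm⟩
  · right
    rcases Nat.lt_or_ge K 4 with hK | hK
    · have hK' : K = 1 ∨ K = 2 ∨ K = 3 := by omega
      rcases hK' with rfl | rfl | rfl
      · exact (hs.case1 (by omega)).elim
      · left
        obtain ⟨h1, h2⟩ := hs.case2 (by omega)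
        exact ⟨h1, rfl, h2⟩
      · right
        rcases hs.case3 (by omega) with ⟨h1, h2⟩ | ⟨h1, h2⟩
        · left; exact ⟨h1, rfl, h2⟩
        · right; exact ⟨h1, rfl, h2⟩
    · exfalso
      rcases Nat.eq_or_lt_of_le hK with hK' | hK'
      · subst hK'
        exact hs.case4 (by omega)
      · exact hs.case5 hK' (by omega)

end Cfsg.Agent.S0745
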