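import Cfsg.Statements.S0746
import Cfsg.Agent.S0745
import Cfsg.Agent.S0736

set_option autoImplicit false
open Cfsg

namespace Cfsg.Agent.S0746

/-- The Livingstone–Wagner Theorem, first form: a `k`-homogeneous group of degree `n` with `4 ≤ 2k ≤ n` is `(k-1)`-transitive. -/
theorem result {α : Type*} [Fintype α] [DecidableEq α] (G : Subgroup (Equiv.Perm α)) {k : ℕ} (hk : 2 ≤ k) (hkn : 2 * k ≤ Fintype.card α) (hh : MulAction.IsPretransitive G (Set.powersetCard α k)) : MulAction.IsMultiplyPretransitive G α (k - 1) := by
  classical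
  -- homogeneity downwards
  have hhom : ∀ j, 1 ≤ j → j ≤ k → MulAction.IsPretransitive G (Set.powersetCard α j) := by
    intro j hj hjk
    obtain ⟨d, hd⟩ : ∃ d, k = j + d := ⟨k - j, by omega⟩
    induction d generalizing j with
    | zero =>
      rw [add_zero] at hd
      rw [← hd]
      exact hh
    | succ d ih =>
      have h1 := ih (j + 1) (by omega) (by omega) (by omega)
      have h2 := Cfsg.Agent.S0736.result G (k := j + 1) (by omega) h1 (by
        intro q _ hqd
        have := Nat.le_of_dvd (by omega) hqd
        omega)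
      exact h2
  have htr : ∀ i, 1 ≤ i → i ≤ k - 1 → MulAction.IsMultiplyPretransitive G α i := by
    intro i hi
    induction i, hi using Nat.le_induction with
    | base =>
      intro _
      apply H16.LW.multi_of_tr
      intro X hX σ
      obtain ⟨x, rfl⟩ := Finset.card_eq_one.mp hX
      obtain ⟨g, hg, hgx⟩ := H16.PermBasic.homog_iff.mp (hhom 1 le_rfl (by omega)) {x} {σ x} (by simp) (by simp)
      refine ⟨g, hg, fun y hy => ?_⟩
      rw [Finset.mem_singleton] at hy
      subst hy
      rw [Finset.image_singleton] at hgx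
      exact Finset.singleton_injective hgx
    | succ i hi ih =>
      intro hik
      by_contra hcon
      have h1 := Cfsg.Agent.S0745.result G (k := i + 2) (by omega) (by omega) (ih (by omega)) hcon
        (hhom (i + 1) (by omega) (by omega)) (hhom (i + 2) (by omega) (by omega))
      rcases h1 with ⟨h1, -⟩ | ⟨h1, h2, -⟩ | ⟨h1, h2, -⟩ | ⟨h1, h2, -⟩ <;> omega
  exact htr (k - 1) (by omega) le_rfl

end Cfsg.Agent.S0746
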