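import Cfsg.Statements.S0748
import Cfsg.Agent.S0746
import Cfsg.Agent.S0747
import Cfsg.Agent.Lib.H16.LW11

set_option autoImplicit false
open Cfsg

namespace Cfsg.Agent.S0748

/-- The Livingstone–Wagner Theorem: a `k`-homogeneous permutation group of degree `n` with `10 ≤ 2k ≤ n` is `k`-transitive. -/
theorem result {α : Type*} [Fintype α] [DecidableEq α] (G : Subgroup (Equiv.Perm α)) {k : ℕ} (hk : 5 ≤ k) (hkn : 2 * k ≤ Fintype.card α) (hh : MulAction.IsPretransitive G (Set.powersetCard α k)) : MulAction.IsMultiplyPretransitive G α k := by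
  classical
  obtain ⟨K, rfl⟩ : ∃ K, k = K + 1 := ⟨k - 1, by omega⟩
  have h1 := Cfsg.Agent.S0746.result G (k := K + 1) (by omega) hkn hh
  rw [Nat.add_sub_cancel] at h1
  obtain ⟨Δ, hΔ, hΔa⟩ := Cfsg.Agent.S0747.result G (k := K) (by omega) (by omega) h1
  have hT := H16.LW.tr_of_multi h1
  have hAlt : ∀ S : Finset α, S.card = K + 1 → alternatingGroup ↥S ≤ H16.LW.ind (H16.LW.stS G S) S :=
    fun S hS => H16.LW.alt_all hh hΔ hΔa hS
  apply H16.LW.multi_of_tr
  by_contra hcon
  have hA : ∀ S : Finset α, S.card = K + 1 → H16.LW.ind (H16.LW.stS G S) S ≤ alternatingGroup ↥S := by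
    intro S hS
    by_contra h2
    exact hcon (H16.LW.tr_of_odd hh hAlt hS h2)
  rcases Nat.eq_or_lt_of_le (show 4 ≤ K by omega) with hK | hK
  · subst hK
    exact H16.LW.case_five hh hAlt hA hT (by omega)
  · obtain ⟨X, hX⟩ := Finset.exists_subset_card_eq (s := (Finset.univ : Finset α)) (n := K) (by rw [Finset.card_univ]; omega)
    obtain ⟨a, ha, b, hb, hab⟩ := Finset.one_lt_card.mp (show 1 < X.card by rw [hX.2]; omega)
    obtain ⟨t, ht, ht2, htx⟩ := H16.LW.exists_invol_swap hT hA (by omega) hX.2 ha hb hab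
    exact H16.LW.no_invol hA (by omega) (by omega) hX.2 ha hb hab ht ht2 htx

end Cfsg.Agent.S0748
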