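import Cfsg.Statements.S0753

set_option autoImplicit false
open Cfsg

namespace Cfsg.Agent.S0753

/-- If σ is a ring endomorphism of the field F other than the identity and B is a σ-sesquilinear conjugate-symmetric form with B v v = 0 for every v, then B = 0. -/
theorem result {F V : Type*} [Field F] [AddCommGroup V] [Module F V] (σ : F →+* F) (hσ : σ ≠ RingHom.id F) (B : V →ₛₗ[σ] V →ₗ[F] F) (hS : B.IsSymm) (h0 : ∀ v : V, B v v = 0) : B = 0 := by
  obtain ⟨c, hc⟩ : ∃ c, σ c ≠ c := by
    by_contra h
    push Not at h
    exact hσ (RingHom.ext h)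
  have hanti : ∀ x y, B x y = - B y x := by
    intro x y
    have := h0 (x + y)
    simp only [map_add, LinearMap.add_apply, h0, zero_add, add_zero] at this
    exact eq_neg_of_add_eq_zero_left (by linear_combination this)
  ext x y
  have h3 := hanti y x
  have h4 := hanti (c • y) x
  simp only [map_smul, smul_eq_mul, LinearMap.map_smulₛₗ, LinearMap.smul_apply] at h3 h4
  have : (σ c - c) * B x y = 0 := by
    linear_combination σ c * h3 - h4
  rcases mul_eq_zero.mp this with h | h
  · exact absurd (sub_eq_zero.mp h) hc
  · simpa using h

end Cfsg.Agent.S0753
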