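import Cfsg.Statements.S0754

set_option autoImplicit false
open Cfsg

namespace Cfsg.Agent.S0754

/-- In a field F with q^2 elements, every non-zero μ with μ^q = μ (that is, μ in the subfield of order q) has exactly q + 1 solutions λ of λ^(q+1) = μ. -/
theorem result {F : Type*} [Field F] [Fintype F] {q : ℕ} (hF : Fintype.card F = q ^ 2) (μ : F) (hμ : μ ≠ 0) (hμq : μ ^ q = μ) : Nat.card {x : F // x ^ (q + 1) = μ} = q + 1 := by
  classical
  have hq1 : 1 < q := by
    have h1 : 1 < Fintype.card F := Fintype.one_lt_card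
    rw [hF] at h1
    by_contra h
    interval_cases q <;> simp at h1
  have hcard : Nat.card Fˣ = (q - 1) * (q + 1) := by
    rw [Nat.card_eq_fintype_card, Fintype.card_units, hF]
    obtain ⟨r, rfl⟩ : ∃ r, q = r + 1 := ⟨q - 1, by omega⟩
    simp only [Nat.add_sub_cancel]
    rw [Nat.sub_eq_iff_eq_add (by nlinarith)]
    ring
  set f : Fˣ →* Fˣ := powMonoidHom (q + 1) with hf
  have hker : Nat.card f.ker = q + 1 := by
    rw [hf, IsCyclic.card_powMonoidHom_ker, hcard]
    exact Nat.gcd_eq_right (Dvd.intro_left _ rfl)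
  have hrange : Nat.card f.range = q - 1 := by
    rw [hf, IsCyclic.card_powMonoidHom_range, hcard]
    rw [Nat.gcd_eq_right (Dvd.intro_left _ rfl)]
    exact Nat.mul_div_cancel _ (by omega)
  -- range is exactly the kernel of powMonoidHom (q-1)
  have hrk : f.range = (powMonoidHom (q - 1) : Fˣ →* Fˣ).ker := by
    apply Subgroup.eq_of_le_of_card_ge
    · rintro _ ⟨x, rfl⟩
      rw [MonoidHom.mem_ker, hf, powMonoidHom_apply, powMonoidHom_apply, ← pow_mul, mul_comm, ← hcard]
      exact pow_card_eq_one'
    · rw [hrange, IsCyclic.card_powMonoidHom_ker, hcard, Nat.gcd_eq_right (Dvd.intro _ rfl)]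
  obtain ⟨x0, hx0⟩ : ∃ x0 : Fˣ, f x0 = Units.mk0 μ hμ := by
    have : Units.mk0 μ hμ ∈ f.range := by
      rw [hrk, MonoidHom.mem_ker, powMonoidHom_apply]
      ext
      rw [Units.val_pow_eq_pow_val, Units.val_mk0, Units.val_one]
      have h : μ * μ ^ (q - 1) = μ * 1 := by
        rw [← pow_succ', Nat.sub_add_cancel (by omega), hμq, mul_one]
      exact mul_left_cancel₀ hμ h
    exact this
  have hx0' : (x0 : F) ^ (q + 1) = μ := by
    have := congrArg Units.val hx0
    simpa [hf] using this
  refine (Nat.card_congr ?_).trans hker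
  refine
    { toFun := fun x => ⟨Units.mk0 x.1 (by
        intro h; have := x.2; rw [h, zero_pow (by omega)] at this; exact hμ this.symm) * x0⁻¹, ?_⟩
      invFun := fun y => ⟨(y.1 : F) * x0, ?_⟩
      left_inv := ?_
      right_inv := ?_ }
  · rw [MonoidHom.mem_ker, map_mul, map_inv, hx0]
    ext
    have := x.2
    simp [hf, this, hμ]
  · have h1 := y.2
    rw [MonoidHom.mem_ker] at h1
    have h2 := congrArg Units.val h1
    simp only [hf, powMonoidHom_apply, Units.val_pow_eq_pow_val, Units.val_one] at h2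
    rw [mul_pow, h2, hx0', one_mul]
  · intro x
    ext
    simp
  · intro y
    ext
    simp

end Cfsg.Agent.S0754
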