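import Cfsg.Statements.S0757

set_option autoImplicit false
open Cfsg

namespace Cfsg.Agent.S0757

/-- The two diagonal forms Σ x_i^2 and Σ_(i<n) x_i^2 + α x_n^2 on F^(n+1), with α a non-square and 2 ≠ 0 in F, are inequivalent quadratic forms (so over a finite field of odd order there are exactly two classes of non-singular symmetric bilinear forms in each dimension). -/
theorem result {F : Type*} [Field F] (h2 : (2 : F) ≠ 0) (n : ℕ) (α : F) (hα : ¬ IsSquare α) : ¬ (QuadraticMap.weightedSumSquares F (fun _ : Fin (n + 1) => (1 : F))).Equivalent (QuadraticMap.weightedSumSquares F (fun i : Fin (n + 1) => if i = Fin.last n then α else (1 : F))) := by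
  classical
  rintro ⟨e⟩
  set w : Fin (n + 1) → F := fun i => if i = Fin.last n then α else (1 : F) with hw
  have hQ : ∀ x : Fin (n + 1) → F, ∑ i, w i * (e x i * e x i) = ∑ i, x i * x i := by
    intro x
    have := e.map_app x
    rw [QuadraticMap.weightedSumSquares_apply, QuadraticMap.weightedSumSquares_apply] at this
    simpa using this
  have hB : ∀ x y : Fin (n + 1) → F, ∑ i, w i * (e x i * e y i) = ∑ i, x i * y i := by
    intro x y
    have h1 := hQ (x + y)
    have h2 := hQ x
    have h3 := hQ y
    have he : e (x + y) = e x + e y := e.toLinearEquiv.map_add x y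
    rw [he] at h1
    have e1 : ∑ i, w i * ((e x + e y) i * (e x + e y) i) =
        ∑ i, w i * (e x i * e x i) + ∑ i, w i * (e y i * e y i) + 2 * ∑ i, w i * (e x i * e y i) := by
      rw [Finset.mul_sum, ← Finset.sum_add_distrib, ← Finset.sum_add_distrib]
      refine Finset.sum_congr rfl fun i _ => ?_
      simp only [Pi.add_apply]
      ring
    have e2 : ∑ i, (x + y) i * (x + y) i = ∑ i, x i * x i + ∑ i, y i * y i + 2 * ∑ i, x i * y i := by
      rw [Finset.mul_sum, ← Finset.sum_add_distrib, ← Finset.sum_add_distrib]
      refine Finset.sum_congr rfl fun i _ => ?_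
      simp only [Pi.add_apply]
      ring
    rw [e1, e2, h2, h3] at h1
    have h4 : 2 * ∑ i, w i * (e x i * e y i) = 2 * ∑ i, x i * y i := by linear_combination h1
    exact mul_left_cancel₀ ‹(2 : F) ≠ 0› h4
  set M : Matrix (Fin (n + 1)) (Fin (n + 1)) F := Matrix.of fun i j => e (Pi.single j 1) i with hM
  have hmat : M.transpose * Matrix.diagonal w * M = 1 := by
    ext j k
    rw [Matrix.mul_apply]
    have := hB (Pi.single j 1) (Pi.single k 1)
    rw [Matrix.one_apply]
    have e3 : ∑ i, (Pi.single j 1 : Fin (n + 1) → F) i * (Pi.single k 1 : Fin (n + 1) → F) i = if j = k then 1 else 0 := by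
      simp [Pi.single_apply, eq_comm]
    rw [← e3, ← this]
    refine Finset.sum_congr rfl fun i _ => ?_
    rw [Matrix.mul_diagonal, Matrix.transpose_apply, hM]
    simp only [Matrix.of_apply]
    ring
  have hdet := congrArg Matrix.det hmat
  rw [Matrix.det_mul, Matrix.det_mul, Matrix.det_transpose, Matrix.det_diagonal, Matrix.det_one] at hdet
  have hprod : ∏ i, w i = α := by
    rw [Fin.prod_univ_castSucc]
    have : ∀ i : Fin n, w (Fin.castSucc i) = 1 := by
      intro i
      simp [hw, Fin.castSucc_ne_last]
    simp [this, hw]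
  rw [hprod] at hdet
  apply hα
  have hd0 : M.det ≠ 0 := by
    intro h
    rw [h] at hdet
    simp at hdet
  refine ⟨M.det⁻¹, ?_⟩
  field_simp
  linear_combination hdet

end Cfsg.Agent.S0757
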