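import Cfsg.Statements.S0758

set_option autoImplicit false
open Cfsg

namespace Cfsg.Agent.S0758

/-- For a finite field F of odd order q and a non-square α: the form x² + y² is isotropic iff q ≡ 1 mod 4, and the form x² + α y² is isotropic iff q ≡ 3 mod 4. -/
theorem result {F : Type*} [Field F] [Fintype F] (h2 : (2 : F) ≠ 0) (α : F) (hα : ¬ IsSquare α) : ((∃ x y : F, (x ≠ 0 ∨ y ≠ 0) ∧ x ^ 2 + y ^ 2 = 0) ↔ Fintype.card F % 4 = 1) ∧ ((∃ x y : F, (x ≠ 0 ∨ y ≠ 0) ∧ x ^ 2 + α * y ^ 2 = 0) ↔ Fintype.card F % 4 = 3) := by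
  classical
  have hchar : ringChar F ≠ 2 := by
    intro h
    apply h2
    have := ringChar.Nat.cast_ringChar (R := F)
    rw [h] at this
    exact_mod_cast this
  have hodd : Fintype.card F % 2 = 1 := FiniteField.odd_card_of_char_ne_two hchar
  have hsq : IsSquare (-1 : F) ↔ Fintype.card F % 4 ≠ 3 := FiniteField.isSquare_neg_one_iff
  have key1 : (∃ x y : F, (x ≠ 0 ∨ y ≠ 0) ∧ x ^ 2 + y ^ 2 = 0) ↔ IsSquare (-1 : F) := by
    constructor
    · rintro ⟨x, y, hxy, h⟩
      have hy : y ≠ 0 := by
        rintro rfl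
        simp at h hxy
        exact hxy h
      refine ⟨x / y, ?_⟩
      field_simp
      linear_combination -h
    · rintro ⟨r, hr⟩
      exact ⟨r, 1, Or.inr one_ne_zero, by linear_combination -hr⟩
  have key2 : (∃ x y : F, (x ≠ 0 ∨ y ≠ 0) ∧ x ^ 2 + α * y ^ 2 = 0) ↔ IsSquare (-α : F) := by
    constructor
    · rintro ⟨x, y, hxy, h⟩
      have hy : y ≠ 0 := by
        rintro rfl
        simp at h hxy
        exact hxy h
      refine ⟨x / y, ?_⟩
      field_simp
      linear_combination -h
    · rintro ⟨r, hr⟩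
      exact ⟨r, 1, Or.inr one_ne_zero, by linear_combination -hr⟩
  have hα0 : α ≠ 0 := by
    rintro rfl
    exact hα ⟨0, by simp⟩
  have key3 : IsSquare (-α : F) ↔ ¬ IsSquare (-1 : F) := by
    constructor
    · rintro ⟨r, hr⟩ ⟨s, hs⟩
      have hs0 : s ≠ 0 := by rintro rfl; simp at hs
      apply hα
      refine ⟨r / s, ?_⟩
      field_simp
      rw [sq, sq, ← hs, ← hr]
      ring
    · intro h
      by_contra h'
      have h1 : quadraticChar F (-α) = -1 := quadraticChar_neg_one_iff_not_isSquare.mpr h'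
      have h2 : quadraticChar F (-1) = -1 := quadraticChar_neg_one_iff_not_isSquare.mpr h
      have h3 : quadraticChar F α = -1 := quadraticChar_neg_one_iff_not_isSquare.mpr hα
      have h4 : quadraticChar F (-α) = quadraticChar F (-1) * quadraticChar F α := by
        rw [← map_mul]; congr 1; ring
      rw [h1, h2, h3] at h4
      norm_num at h4
  rw [key1, key2, key3, hsq]
  omega

end Cfsg.Agent.S0758
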