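import Cfsg.Statements.S0759
import Cfsg.Agent.Lib.H16.Forms

set_option autoImplicit false
open Cfsg

namespace Cfsg.Agent.S0759

/-- Type of the orthonormal form: over a finite field of odd order q and for m ≥ 1, the quadratic form Σ_(i<2m) x_i² on F^(2m) admits an m-dimensional subspace on which it vanishes identically if and only if it is not the case that q ≡ 3 (mod 4) and m is odd. -/
theorem result {F : Type*} [Field F] [Fintype F] (h2 : (2 : F) ≠ 0) (m : ℕ) (hm : 1 ≤ m) : (∃ W : Submodule F (Fin (2 * m) → F), Module.finrank F W = m ∧ ∀ w ∈ W, ∑ i, w i ^ 2 = 0) ↔ ¬ (Fintype.card F % 4 = 3 ∧ Odd m) := by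
  classical
  have hchar : ringChar F ≠ 2 := by
    intro h
    apply h2
    have := ringChar.Nat.cast_ringChar (R := F)
    rw [h] at this
    exact_mod_cast this
  have hsq : IsSquare (-1 : F) ↔ Fintype.card F % 4 ≠ 3 := FiniteField.isSquare_neg_one_iff
  let e : Fin (2 * m) ≃ Fin m ⊕ Fin m := (finCongr (two_mul m)).trans finSumFinEquiv.symm
  -- construction from an anti-isometry
  have build : ∀ T : (Fin m → F) →ₗ[F] (Fin m → F), (∀ c, ∑ j, (T c j) ^ 2 = - ∑ j, (c j) ^ 2) →
      ∃ W : Submodule F (Fin (2 * m) → F), Module.finrank F W = m ∧ ∀ w ∈ W, ∑ i, w i ^ 2 = 0 := by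
    intro T hT
    let L : (Fin m → F) →ₗ[F] (Fin (2 * m) → F) :=
      (LinearMap.funLeft F F e).comp ((LinearEquiv.sumArrowLequivProdArrow (Fin m) (Fin m) F F).symm.toLinearMap.comp
        (LinearMap.prod LinearMap.id T))
    have hL : ∀ c i, L c i = Sum.elim c (T c) (e i) := by
      intro c i
      simp only [L, LinearMap.comp_apply, LinearMap.funLeft_apply, LinearMap.prod_apply, LinearEquiv.coe_coe]
      rcases e i with j | j
      · rfl
      · rfl
    refine ⟨LinearMap.range L, ?_, ?_⟩
    · rw [LinearMap.finrank_range_of_inj]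
      · simp
      · intro c c' h
        ext j
        have := congrFun h (e.symm (Sum.inl j))
        rw [hL, hL, Equiv.apply_symm_apply] at this
        exact this
    · rintro _ ⟨c, rfl⟩
      have : ∑ i, L c i ^ 2 = ∑ s : Fin m ⊕ Fin m, (Sum.elim c (T c) s) ^ 2 := by
        rw [← Equiv.sum_comp e]
        exact Finset.sum_congr rfl fun i _ => by rw [hL]
      rw [this, Fintype.sum_sum_type]
      simp only [Sum.elim_inl, Sum.elim_inr]
      rw [hT]
      ring
  constructor
  · rintro ⟨W, hWm, hW⟩ ⟨h3, hodd⟩
    have hW2 : ∀ w ∈ W, ∀ w' ∈ W, ∑ i, w i * w' i = 0 := by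
      intro w hw w' hw'
      have h1 := hW (w + w') (W.add_mem hw hw')
      have e1 : ∑ i, (w + w') i ^ 2 = ∑ i, w i ^ 2 + ∑ i, w' i ^ 2 + 2 * ∑ i, w i * w' i := by
        rw [Finset.mul_sum, ← Finset.sum_add_distrib, ← Finset.sum_add_distrib]
        refine Finset.sum_congr rfl fun i _ => ?_
        simp only [Pi.add_apply]
        ring
      rw [e1, hW w hw, hW w' hw'] at h1
      have h4 : 2 * ∑ i, w i * w' i = 0 := by linear_combination h1
      exact (mul_eq_zero.mp h4).resolve_left h2
    -- a basis adapted to W
    obtain ⟨b, hb⟩ : ∃ b : Module.Basis (Fin m ⊕ Fin m) F (Fin (2 * m) → F), ∀ i, b (Sum.inl i) ∈ W := by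
      obtain ⟨W', hW'⟩ := Submodule.exists_isCompl W
      have hf : Module.finrank F W' = m := by
        have := Submodule.finrank_add_eq_of_isCompl hW'
        rw [hWm] at this
        simp at this
        omega
      let b1 : Module.Basis (Fin m) F W := (Module.finBasis F W).reindex (finCongr hWm)
      let b2 : Module.Basis (Fin m) F W' := (Module.finBasis F W').reindex (finCongr hf)
      refine ⟨(b1.prod b2).map (Submodule.prodEquivOfIsCompl W W' hW'), ?_⟩
      intro i
      rw [Module.Basis.map_apply, Module.Basis.prod_apply]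
      simp
    let P : Matrix (Fin m ⊕ Fin m) (Fin m ⊕ Fin m) F := Matrix.of fun i j => b j (e.symm i)
    have hP : IsUnit P.det := by
      rw [← Matrix.isUnit_iff_isUnit_det, ← Matrix.linearIndependent_cols_iff_isUnit]
      have hl := b.linearIndependent
      have : P.col = fun j => (LinearMap.funLeft F F e.symm) (b j) := by
        ext j i
        rfl
      rw [this]
      apply hl.map' (LinearMap.funLeft F F e.symm)
      rw [LinearMap.ker_eq_bot]
      exact LinearMap.funLeft_injective_of_surjective F F _ e.symm.surjective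
    have hgram : P.transpose * P = Matrix.of fun i j => ∑ k, b i k * b j k := by
      ext i j
      rw [Matrix.mul_apply, Matrix.of_apply, ← Equiv.sum_comp e.symm]
      rfl
    set G : Matrix (Fin m ⊕ Fin m) (Fin m ⊕ Fin m) F := Matrix.of fun i j => ∑ k, b i k * b j k with hG
    have hGblock : G = Matrix.fromBlocks 0 G.toBlocks₁₂ G.toBlocks₁₂.transpose G.toBlocks₂₂ := by
      conv_lhs => rw [← Matrix.fromBlocks_toBlocks G]
      congr 1
      · ext i j
        simp only [Matrix.toBlocks₁₁, Matrix.of_apply, Matrix.zero_apply, hG]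
        exact hW2 _ (hb i) _ (hb j)
      · ext i j
        simp only [Matrix.toBlocks₂₁, Matrix.toBlocks₁₂, Matrix.of_apply, Matrix.transpose_apply, hG]
        exact Finset.sum_congr rfl fun k _ => mul_comm _ _
    have hJ : (Matrix.J (Fin m) F).det = 1 := SymplecticGroup.det_eq_one (SymplecticGroup.J_mem (Fin m) F)
    have hGJ : G.det = (-1) ^ m * G.toBlocks₁₂.det ^ 2 := by
      calc G.det = (G * Matrix.J (Fin m) F).det := by rw [Matrix.det_mul, hJ, mul_one]
        _ = (Matrix.fromBlocks G.toBlocks₁₂ 0 G.toBlocks₂₂ (-G.toBlocks₁₂.transpose)).det := by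
            congr 1
            conv_lhs => rw [hGblock]
            rw [Matrix.J, Matrix.fromBlocks_multiply]
            simp
        _ = _ := by
            rw [Matrix.det_fromBlocks_zero₁₂, Matrix.det_neg, Matrix.det_transpose, Fintype.card_fin]
            ring
    have hdet : P.det ^ 2 = - G.toBlocks₁₂.det ^ 2 := by
      have h5 := congrArg Matrix.det hgram
      rw [Matrix.det_mul, Matrix.det_transpose, hGJ, hodd.neg_one_pow] at h5
      linear_combination h5
    have hd0 : G.toBlocks₁₂.det ≠ 0 := by
      intro h
      rw [h] at hdet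
      have : P.det ^ 2 = 0 := by rw [hdet]; ring
      exact hP.ne_zero (pow_eq_zero_iff (two_ne_zero) |>.mp this)
    have : IsSquare (-1 : F) := by
      refine ⟨P.det / G.toBlocks₁₂.det, ?_⟩
      field_simp
      linear_combination -hdet
    exact hsq.mp this h3
  · intro h
    by_cases hs : IsSquare (-1 : F)
    · obtain ⟨i, hi⟩ := hs
      apply build (i • LinearMap.id)
      intro c
      simp only [LinearMap.smul_apply, LinearMap.id_apply, Pi.smul_apply, smul_eq_mul, mul_pow]
      rw [← Finset.mul_sum]
      linear_combination (-∑ j, c j ^ 2) * hi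
    · have h3 : Fintype.card F % 4 = 3 := by
        by_contra hcon
        exact hs (hsq.mpr hcon)
      have heven : Even m := by
        rw [← Nat.not_odd_iff_even]
        intro ho
        exact h ⟨h3, ho⟩
      obtain ⟨t, ht⟩ := heven
      obtain ⟨a, b, hab⟩ := H16.Forms.exists_binary h2 (one_ne_zero (α := F)) (one_ne_zero (α := F)) (-1)
      let e' : Fin m ≃ Fin t ⊕ Fin t := (finCongr ht).trans finSumFinEquiv.symm
      let T : (Fin m → F) →ₗ[F] (Fin m → F) :=
        { toFun := fun c j => Sum.elim (fun k => a * c (e'.symm (Sum.inl k)) - b * c (e'.symm (Sum.inr k)))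
            (fun k => b * c (e'.symm (Sum.inl k)) + a * c (e'.symm (Sum.inr k))) (e' j)
          map_add' := by
            intro c c'
            ext j
            simp only [Pi.add_apply]
            rcases e' j with k | k
            · simp only [Sum.elim_inl]; ring
            · simp only [Sum.elim_inr]; ring
          map_smul' := by
            intro s c
            ext j
            simp only [Pi.smul_apply, smul_eq_mul, RingHom.id_apply]
            rcases e' j with k | k
            · simp only [Sum.elim_inl]; ring
            · simp only [Sum.elim_inr]; ring }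
      apply build T
      intro c
      rw [← Equiv.sum_comp e'.symm, ← Equiv.sum_comp e'.symm, Fintype.sum_sum_type, Fintype.sum_sum_type]
      have hT1 : ∀ k, T c (e'.symm (Sum.inl k)) = a * c (e'.symm (Sum.inl k)) - b * c (e'.symm (Sum.inr k)) := by
        intro k
        simp [T]
      have hT2 : ∀ k, T c (e'.symm (Sum.inr k)) = b * c (e'.symm (Sum.inl k)) + a * c (e'.symm (Sum.inr k)) := by
        intro k
        simp [T]
      simp only [hT1, hT2]
      rw [← Finset.sum_add_distrib, ← Finset.sum_add_distrib, ← Finset.sum_neg_distrib]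
      refine Finset.sum_congr rfl fun k _ => ?_
      linear_combination (c (e'.symm (Sum.inl k)) ^ 2 + c (e'.symm (Sum.inr k)) ^ 2) * hab

end Cfsg.Agent.S0759
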