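import Cfsg.Statements.S0760
import Cfsg.Agent.Lib.H16.Witt

set_option autoImplicit false
open Cfsg

namespace Cfsg.Agent.S0760

/-- Witt index is well defined: if Q is a quadratic form on a finite-dimensional space V over a finite field with non-degenerate polar form, and W₁, W₂ are subspaces on which Q vanishes that are maximal with this property, then W₁ and W₂ have the same dimension, and twice this dimension is at most dim V. -/
theorem result {F V : Type*} [Field F] [Finite F] [AddCommGroup V] [Module F V] [FiniteDimensional F V] (Q : QuadraticForm F V) (hQ : (QuadraticMap.polarBilin Q).Nondegenerate) (W₁ W₂ : Submodule F V) (h₁ : ∀ w ∈ W₁, Q w = 0) (h₂ : ∀ w ∈ W₂, Q w = 0) (hmax₁ : ∀ W : Submodule F V, W₁ ≤ W → (∀ w ∈ W, Q w = 0) → W = W₁) (hmax₂ : ∀ W : Submodule F V, W₂ ≤ W → (∀ w ∈ W, Q w = 0) → W = W₂) : Module.finrank F W₁ = Module.finrank F W₂ ∧ 2 * Module.finrank F W₁ ≤ Module.finrank F V := by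
  classical
  have hfin : ∀ W : Submodule F V, (∀ w ∈ W, Q w = 0) → 2 * Module.finrank F W ≤ Module.finrank F V := by
    intro W hW
    have h1 := LinearMap.BilinForm.finrank_orthogonal hQ W
    have h2 : W ≤ LinearMap.BilinForm.orthogonal (QuadraticMap.polarBilin Q) W := by
      intro w hw
      rw [LinearMap.BilinForm.mem_orthogonal_iff]
      intro x hx
      change QuadraticMap.polar Q x w = 0
      rw [QuadraticMap.polar, hW _ (W.add_mem hx hw), hW x hx, hW w hw]
      ring
    have h3 := Submodule.finrank_mono h2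
    have h4 := Submodule.finrank_le W
    omega
  have key : ∀ W₁ W₂ : Submodule F V, (∀ w ∈ W₁, Q w = 0) → (∀ w ∈ W₂, Q w = 0) →
      (∀ W : Submodule F V, W₁ ≤ W → (∀ w ∈ W, Q w = 0) → W = W₁) →
      Module.finrank F W₁ ≤ Module.finrank F W₂ → Module.finrank F W₁ = Module.finrank F W₂ := by
    intro W₁ W₂ h₁ h₂ hmax hle
    obtain ⟨f, hf⟩ := finrank_le_iff_exists_linearMap.mp hle
    set g : W₁ →ₗ[F] V := W₂.subtype.comp f with hg
    have hginj : Function.Injective g := Subtype.val_injective.comp hf
    obtain ⟨e, he, heφ⟩ := H16.Witt.witt_quad Q hQ W₁ (LinearMap.range g) (LinearEquiv.ofInjective g hginj) (by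
      intro x
      rw [LinearEquiv.ofInjective_apply, h₁ _ x.2]
      exact h₂ _ (f x).2)
    have hW := hmax (W₂.map e.symm.toLinearMap) (by
      intro x hx
      refine ⟨e x, ?_, by simp⟩
      have h1 := heφ ⟨x, hx⟩
      rw [LinearEquiv.ofInjective_apply] at h1
      change e x ∈ W₂
      rw [h1]
      exact (f _).2) (by
      rintro _ ⟨w, hw, rfl⟩
      have h1 := he (e.symm w)
      rw [LinearEquiv.apply_symm_apply] at h1
      change Q (e.symm w) = 0
      rw [← h1]
      exact h₂ w hw)
    rw [← hW]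
    exact LinearEquiv.finrank_map_eq e.symm W₂
  refine ⟨?_, hfin W₁ h₁⟩
  rcases le_total (Module.finrank F W₁) (Module.finrank F W₂) with h | h
  · exact key W₁ W₂ h₁ h₂ hmax₁ h
  · exact (key W₂ W₁ h₂ h₁ hmax₂ h).symm

end Cfsg.Agent.S0760
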