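import Cfsg.Statements.S0761

set_option autoImplicit false
open Cfsg

namespace Cfsg.Agent.S0761

/-- Hyperbolic partners: let B be a non-degenerate bilinear form on a finite-dimensional space, either alternating, or symmetric with 2 ≠ 0. If Z is a subspace on which B vanishes, x ∉ Z is isotropic and orthogonal to Z, then there is an isotropic y with B x y = 1 which is orthogonal to Z. -/
theorem result {F V : Type*} [Field F] [AddCommGroup V] [Module F V] [FiniteDimensional F V] (B : LinearMap.BilinForm F V) (hB : B.Nondegenerate) (hform : B.IsAlt ∨ (B.IsSymm ∧ (2 : F) ≠ 0)) (x : V) (Z : Submodule F V) (hxZ : x ∉ Z) (hx : B x x = 0) (hxz : ∀ z ∈ Z, B x z = 0) (hZ : ∀ z ∈ Z, ∀ z' ∈ Z, B z z' = 0) : ∃ y : V, B y y = 0 ∧ B x y = 1 ∧ ∀ z ∈ Z, B z y = 0 := by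
  obtain ⟨φ, hφx, hφZ⟩ := Submodule.exists_le_ker_of_notMem hxZ
  -- represent φ = B (·) y0
  obtain ⟨y0, hy0⟩ : ∃ y0 : V, ∀ v, B v y0 = (φ x)⁻¹ * φ v := by
    refine ⟨(B.flip.toDual (LinearMap.BilinForm.Nondegenerate.flip hB)).symm ((φ x)⁻¹ • φ), ?_⟩
    intro v
    have := LinearMap.BilinForm.toDual_def (LinearMap.BilinForm.Nondegenerate.flip hB)
      (m := (B.flip.toDual (LinearMap.BilinForm.Nondegenerate.flip hB)).symm ((φ x)⁻¹ • φ)) (n := v)
    rw [LinearEquiv.apply_symm_apply] at this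
    rw [← LinearMap.BilinForm.flip_apply B, ← this]
    rfl
  have h1 : B x y0 = 1 := by rw [hy0, inv_mul_cancel₀ hφx]
  have h2 : ∀ z ∈ Z, B z y0 = 0 := by
    intro z hz
    rw [hy0, LinearMap.mem_ker.mp (hφZ hz), mul_zero]
  rcases hform with halt | ⟨hsymm, h2F⟩
  · exact ⟨y0, halt y0, h1, h2⟩
  · refine ⟨y0 + (-(B y0 y0) / 2) • x, ?_, ?_, ?_⟩
    · simp only [map_add, map_smul, LinearMap.add_apply, LinearMap.smul_apply, smul_eq_mul, hx, h1]
      have : B y0 x = 1 := by rw [← hsymm.eq x y0] at *; simpa using h1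
      rw [this]
      field_simp
      ring
    · simp only [map_add, map_smul, smul_eq_mul, hx, h1]
      ring
    · intro z hz
      have : B z x = 0 := by
        have := hsymm.eq x z
        rw [← this]
        simpa using hxz z hz
      simp only [map_add, map_smul, smul_eq_mul, this, h2 z hz]
      ring

end Cfsg.Agent.S0761
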