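import Cfsg.Statements.S0762

set_option autoImplicit false
open Cfsg

namespace Cfsg.Agent.S0762

/-- In characteristic two over a finite field, a quadratic form on a space of dimension at least 3 vanishes on some non-zero vector. -/
theorem result {F V : Type*} [Field F] [Finite F] [CharP F 2] [AddCommGroup V] [Module F V] [FiniteDimensional F V] (Q : QuadraticForm F V) (h3 : 3 ≤ Module.finrank F V) : ∃ v : V, v ≠ 0 ∧ Q v = 0 := by
  classical
  have hpos : 0 < Module.finrank F V := by omega
  obtain ⟨v, hv⟩ : ∃ v : V, v ≠ 0 := by
    have : Nontrivial V := Module.nontrivial_of_finrank_pos hpos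
    exact exists_ne 0
  by_cases hQv : Q v = 0
  · exact ⟨v, hv, hQv⟩
  set f : V →ₗ[F] F := QuadraticMap.polarBilin Q v with hf
  have hker : 2 ≤ Module.finrank F (LinearMap.ker f) := by
    have h1 := LinearMap.finrank_range_add_finrank_ker f
    have h2 : Module.finrank F (LinearMap.range f) ≤ 1 := by
      calc _ ≤ Module.finrank F F := Submodule.finrank_le _
        _ = 1 := Module.finrank_self F
    omega
  obtain ⟨w, hw, hwv⟩ : ∃ w ∈ LinearMap.ker f, w ∉ Submodule.span F {v} := by
    by_contra h
    push Not at h
    have h1 : LinearMap.ker f ≤ Submodule.span F {v} := h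
    have h2 := Submodule.finrank_mono h1
    rw [finrank_span_singleton hv] at h2
    omega
  have hw' : QuadraticMap.polar Q v w = 0 := by
    rw [LinearMap.mem_ker, hf] at hw
    exact hw
  obtain ⟨a, ha⟩ : IsSquare (-(Q w / Q v)) :=
    FiniteField.isSquare_of_char_two (ringChar.eq_iff.mpr inferInstance) _
  refine ⟨a • v + w, ?_, ?_⟩
  · intro h
    apply hwv
    rw [Submodule.mem_span_singleton]
    exact ⟨-a, by rw [neg_smul]; exact (eq_neg_of_add_eq_zero_right h).symm⟩
  · have h1 : QuadraticMap.polar Q (a • v) w = 0 := by
      rw [QuadraticMap.polar_smul_left, hw', smul_zero]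
    unfold QuadraticMap.polar at h1
    rw [QuadraticMap.map_smul] at h1
    have h2 : Q (a • v + w) = (a * a) • Q v + Q w := by linear_combination h1
    rw [h2, smul_eq_mul, ← ha]
    field_simp
    ring

end Cfsg.Agent.S0762
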