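import Cfsg.Statements.S0763

set_option autoImplicit false
open Cfsg

namespace Cfsg.Agent.S0763

/-- Binary quadratic forms in characteristic two over a finite field: if Q is a quadratic form on a 2-dimensional space whose polar form is non-degenerate, then either there are vectors v, w with Q v = Q w = 0 and polar value 1 (Q is xy in these coordinates), or there are v, w and μ with Q v = 1, Q w = μ, polar value 1 and x² + x + μ without roots in F (Q is x² + xy + μy²). -/
theorem result {F V : Type*} [Field F] [Finite F] [CharP F 2] [AddCommGroup V] [Module F V] (Q : QuadraticForm F V) (h2 : Module.finrank F V = 2) (hQ : (QuadraticMap.polarBilin Q).Nondegenerate) : (∃ v w : V, LinearIndependent F ![v, w] ∧ Q v = 0 ∧ Q w = 0 ∧ QuadraticMap.polar Q v w = 1) ∨ (∃ (v w : V) (μ : F), LinearIndependent F ![v, w] ∧ (∀ x : F, x ^ 2 + x + μ ≠ 0) ∧ Q v = 1 ∧ Q w = μ ∧ QuadraticMap.polar Q v w = 1) := by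
  classical
  set B : LinearMap.BilinForm F V := QuadraticMap.polarBilin Q with hBdef
  have hBp : ∀ x y, B x y = QuadraticMap.polar Q x y := fun x y => rfl
  have hadd : ∀ x y, Q (x + y) = Q x + Q y + B x y := by
    intro x y
    rw [hBp, QuadraticMap.polar]
    ring
  have hsm : ∀ (c : F) x, Q (c • x) = c * c * Q x := by
    intro c x
    rw [QuadraticMap.map_smul, smul_eq_mul]
  have hself : ∀ x, B x x = 0 := by
    intro x
    rw [hBp, QuadraticMap.polar_self, two_smul]
    exact CharTwo.add_self_eq_zero _
  have hB1 : ∀ v, v ≠ 0 → ∃ w, B v w = 1 := by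
    intro v hv
    have h1 : ∃ w, B v w ≠ 0 := by
      by_contra h
      push Not at h
      exact hv (hQ.1 v h)
    obtain ⟨w, hw⟩ := h1
    exact ⟨(B v w)⁻¹ • w, by rw [map_smul, smul_eq_mul, inv_mul_cancel₀ hw]⟩
  have hli : ∀ v w, B v w = 1 → LinearIndependent F ![v, w] := by
    intro v w hvw
    rw [LinearIndependent.pair_iff]
    intro s t hst
    have h1 : t = 0 := by
      have := congrArg (B v) hst
      rw [map_add, map_smul, map_smul, hself, hvw, map_zero] at this
      simpa using this
    rw [h1, zero_smul, add_zero] at hst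
    refine ⟨?_, h1⟩
    rcases smul_eq_zero.mp hst with h | h
    · exact h
    · rw [h, map_zero, LinearMap.zero_apply] at hvw
      exact absurd hvw zero_ne_one
  by_cases hsing : ∃ v, v ≠ 0 ∧ Q v = 0
  · left
    obtain ⟨v, hv, hQv⟩ := hsing
    obtain ⟨w, hw⟩ := hB1 v hv
    have hw' : B v (w + Q w • v) = 1 := by rw [map_add, map_smul, hself, smul_zero, add_zero, hw]
    refine ⟨v, w + Q w • v, hli _ _ hw', hQv, ?_, hw'⟩
    rw [hadd, hsm, hQv, map_smul, smul_eq_mul]
    have : B w v = 1 := by
      rw [hBp, QuadraticMap.polar_comm, ← hBp, hw]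
    rw [this, mul_zero, add_zero, mul_one]
    exact CharTwo.add_self_eq_zero _
  · right
    push Not at hsing
    obtain ⟨v0, hv0⟩ : ∃ v : V, v ≠ 0 := by
      have : Nontrivial V := Module.nontrivial_of_finrank_pos (R := F) (by omega)
      exact exists_ne 0
    have hQv0 := hsing v0 hv0
    obtain ⟨a, ha⟩ : IsSquare (Q v0)⁻¹ :=
      FiniteField.isSquare_of_char_two (ringChar.eq_iff.mpr inferInstance) _
    have ha0 : a ≠ 0 := by
      rintro rfl
      rw [mul_zero] at ha
      exact inv_ne_zero hQv0 ha
    set v := a • v0 with hv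
    have hvne : v ≠ 0 := smul_ne_zero ha0 hv0
    have hQv : Q v = 1 := by rw [hv, hsm, ← ha, inv_mul_cancel₀ hQv0]
    obtain ⟨w, hw⟩ := hB1 v hvne
    refine ⟨v, w, Q w, hli v w hw, ?_, hQv, rfl, hw⟩
    intro x hx
    have hne : x • v + w ≠ 0 := by
      intro h
      have := congrArg (B v) h
      rw [map_add, map_smul, hself, smul_zero, zero_add, hw, map_zero] at this
      exact one_ne_zero this
    apply hsing _ hne
    rw [hadd, hsm, hQv, map_smul, LinearMap.smul_apply, hw, smul_eq_mul]
    linear_combination hx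

end Cfsg.Agent.S0763
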