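import Cfsg.Statements.S0783
import Cfsg.Agent.Lib.H17.GUCenter

set_option autoImplicit false
open Cfsg

namespace Cfsg.Agent.S0783

/-- PGU_n(q)/PSU_n(q) is cyclic of order (n, q+1): for n ≥ 2 and |F| = q² there is a surjective homomorphism from GU_n(q) onto the cyclic group of order gcd(n, q + 1) whose kernel is generated by the determinant-one elements together with the centre. -/
theorem result {F : Type*} [Field F] [Fintype F] {q : ℕ} (hF : Fintype.card F = q ^ 2) (n : ℕ) (hn : 2 ≤ n) : ∃ φ : ↥(Cfsg.GU n F q) →* Multiplicative (ZMod (Nat.gcd n (q + 1))), Function.Surjective φ ∧ φ.ker = (Matrix.GeneralLinearGroup.det : Matrix.GeneralLinearGroup (Fin n) F →* Fˣ).ker.subgroupOf (Cfsg.GU n F q) ⊔ Subgroup.center ↥(Cfsg.GU n F q) := by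
  classical
  set C : Subgroup Fˣ := (powMonoidHom (q + 1) : Fˣ →* Fˣ).ker with hC
  have hCm : ∀ u : Fˣ, u ∈ C ↔ u ^ (q + 1) = 1 := fun u => by
    rw [hC, MonoidHom.mem_ker, powMonoidHom_apply]
  have hq1 : 1 < q := by
    by_contra h
    have h1 : 1 < Fintype.card F := Fintype.one_lt_card
    interval_cases q <;> simp_all
  have hCcard : Nat.card C = q + 1 := by
    obtain ⟨r, hr, hr2⟩ := H7.QuadExt.exists_gen_norm_one hF
    have : C = Subgroup.zpowers r := by
      ext u; rw [hCm, hr2]
    rw [this, Nat.card_zpowers, hr]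
  let δ : ↥(Cfsg.GU n F q) →* C :=
    ((Matrix.GeneralLinearGroup.det : Matrix.GeneralLinearGroup (Fin n) F →* Fˣ).comp
      (Cfsg.GU n F q).subtype).codRestrict C (fun g => by
        rw [hCm]; exact H7.UnitSU.det_GU hF g.2)
  have hδ : ∀ g, ((δ g : C) : Fˣ) = Matrix.GeneralLinearGroup.det
    (g : Matrix.GeneralLinearGroup (Fin n) F) := fun g => rfl
  have hδs : Function.Surjective δ := by
    rintro ⟨u, hu⟩
    rw [hCm] at hu
    obtain ⟨g, hg, hgd⟩ := H17.GUCenter.exists_diagGU (n := n) (q := q)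
      (Function.update 1 (⟨0, by omega⟩ : Fin n) u) (by
      intro k
      by_cases hk : k = ⟨0, by omega⟩
      · subst hk; simpa using hu
      · simp [Function.update_of_ne hk])
    refine ⟨⟨g, hg⟩, Subtype.ext (Units.ext ?_)⟩
    rw [hδ]
    change (g : Matrix (Fin n) (Fin n) F).det = _
    rw [hgd, Matrix.det_diagonal, Finset.prod_eq_single (⟨0, by omega⟩ : Fin n)]
    · simp
    · intro b _ hb
      simp [Function.update_of_ne hb]
    · intro h; exact absurd (Finset.mem_univ _) h
  have hidx : (powMonoidHom n : C →* C).range.index = Nat.gcd n (q + 1) := by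
    rw [IsCyclic.index_powMonoidHom_range, hCcard, Nat.gcd_comm]
  have hcyc : IsCyclic (C ⧸ (powMonoidHom n : C →* C).range) :=
    isCyclic_of_surjective (QuotientGroup.mk' _) (QuotientGroup.mk'_surjective _)
  have hcard : Nat.card (C ⧸ (powMonoidHom n : C →* C).range) = Nat.gcd n (q + 1) := hidx
  let e : (C ⧸ (powMonoidHom n : C →* C).range) ≃* Multiplicative (ZMod (Nat.gcd n (q + 1))) :=
    (zmodCyclicMulEquiv hcyc).symm.trans
      (AddEquiv.toMultiplicative ((ZMod.ringEquivCongr hcard).toAddEquiv))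
  refine ⟨e.toMonoidHom.comp ((QuotientGroup.mk' _).comp δ), ?_, ?_⟩
  · rw [MonoidHom.coe_comp, MonoidHom.coe_comp]
    exact e.surjective.comp ((QuotientGroup.mk'_surjective _).comp hδs)
  · have hker : ∀ g, g ∈ (e.toMonoidHom.comp ((QuotientGroup.mk' _).comp δ)).ker ↔
        δ g ∈ (powMonoidHom n : C →* C).range := by
      intro g
      rw [MonoidHom.mem_ker]
      change e (QuotientGroup.mk (δ g)) = 1 ↔ _
      rw [map_eq_one_iff e e.injective, QuotientGroup.eq_one_iff]
    have hscal : ∀ (c : Fˣ), c ^ (q + 1) = 1 → ∃ z : ↥(Cfsg.GU n F q),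
        z ∈ Subgroup.center ↥(Cfsg.GU n F q) ∧ ((δ z : C) : Fˣ) = c ^ n := by
      intro c hc
      obtain ⟨g, hg, hgd⟩ := H17.GUCenter.exists_diagGU (n := n) (q := q) (fun _ => c)
        (fun _ => hc)
      refine ⟨⟨g, hg⟩, H17.GUCenter.scalar_mem_center (c : F) hgd, ?_⟩
      rw [hδ]
      apply Units.ext
      change (g : Matrix (Fin n) (Fin n) F).det = _
      rw [hgd, Matrix.det_diagonal]
      simp
    apply le_antisymm
    · intro g hg
      rw [hker] at hg
      obtain ⟨⟨c, hc⟩, hcg⟩ := hg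
      rw [hCm] at hc
      obtain ⟨z, hz, hzd⟩ := hscal c hc
      have h1 : g = (g * z⁻¹) * z := by group
      rw [h1]
      apply Subgroup.mul_mem_sup _ hz
      rw [Subgroup.mem_subgroupOf, MonoidHom.mem_ker, ← hδ, map_mul, map_inv, ← hcg]
      simp only [powMonoidHom_apply, Subgroup.coe_mul, Subgroup.coe_pow, Subgroup.coe_inv]
      rw [hzd, mul_inv_cancel]
    · apply sup_le
      · intro g hg
        rw [Subgroup.mem_subgroupOf, MonoidHom.mem_ker, ← hδ] at hg
        rw [hker]
        have : δ g = 1 := Subtype.ext hg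
        rw [this]
        exact one_mem _
      · intro z hz
        rw [hker]
        obtain ⟨c, hc, hcz⟩ := H17.GUCenter.center_scalar hF hz (by omega)
        refine ⟨⟨c, (hCm c).mpr hc⟩, ?_⟩
        apply Subtype.ext
        apply Units.ext
        rw [hδ]
        change _ = ((z : Matrix.GeneralLinearGroup (Fin n) F) : Matrix (Fin n) (Fin n) F).det
        rw [hcz, Matrix.det_diagonal]
        simp

end Cfsg.Agent.S0783
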