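import Cfsg.Statements.S0787
import Cfsg.Agent.Lib.H17.DicksonInv

set_option autoImplicit false
open Cfsg

namespace Cfsg.Agent.S0787

/-- Existence and uniqueness of Ω: if F is finite, n ≥ 2, Q is a quadratic form on F^n with non-degenerate polar form and (|F|, n) ≠ (2, 4), then the group of isometries of determinant one has a unique subgroup of index 2. -/
theorem result {F : Type*} [Field F] [Fintype F] {n : ℕ} (hn : 2 ≤ n) (Q : QuadraticForm F (Fin n → F)) (hQ : (QuadraticMap.polarBilin Q).Nondegenerate) (h : Fintype.card F ≠ 2 ∨ n ≠ 4) : ∃! H : Subgroup ↥(Cfsg.specialIsometryGroup F ⇑Q), H.index = 2 := by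
  have h' : Fintype.card F ≠ 2 ∨ Fintype.card (Fin n) ≠ 4 := by simpa using h
  by_cases h2 : (2 : F) = 0
  · have hc : ringChar F = 2 := by
      apply CharP.ringChar_of_prime_eq_zero Nat.prime_two
      exact_mod_cast h2
    have : CharP F 2 := by rw [← hc]; exact ringChar.charP F
    exact H17.DicksonInv.unique_even hQ (by simp; omega) h'
  · exact H17.OrthSO2.unique_index_two_odd h2 (by simpa using hn) Q hQ

end Cfsg.Agent.S0787
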