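import Cfsg.Statements.S0794
import Cfsg.Agent.Lib.H17.OrthSiegel2

set_option autoImplicit false
open Cfsg

namespace Cfsg.Agent.S0794

/-- For q odd, n ≥ 5 and Q with non-degenerate polar form: an isometry whose matrix is a Siegel transformation T_(u,v)(c) (u, v singular and orthogonal) is a commutator in the isometry group, so lies in Ω. -/
theorem result {F : Type*} [Field F] [Fintype F] (h2 : (2 : F) ≠ 0) {n : ℕ} (hn : 5 ≤ n) (Q : QuadraticForm F (Fin n → F)) (hQ : (QuadraticMap.polarBilin Q).Nondegenerate) (u v : Fin n → F) (hu : Q u = 0) (hv : Q v = 0) (huv : QuadraticMap.polar ⇑Q u v = 0) (c : F) (g : ↥(Cfsg.isometryGroup F ⇑Q)) (hg : ((g : Matrix.GeneralLinearGroup (Fin n) F) : Matrix (Fin n) (Fin n) F) = Cfsg.siegelMatrix ⇑Q u v c) : g ∈ commutatorSet ↥(Cfsg.isometryGroup F ⇑Q) ∧ g ∈ Cfsg.Omega F ⇑Q := by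
  classical
  have hcv : QuadraticMap.polar (⇑Q) u (c • v) = 0 := by
    rw [QuadraticMap.polar_smul_right, huv, smul_zero]
  have hcv0 : Q (c • v) = 0 := by rw [QuadraticMap.map_smul, hv, smul_zero]
  have h1 : H17.OrthTrans.equiv Q g = H17.OrthSiegel.sg Q u (c • v) hu hcv :=
    (H17.OrthSiegel.equiv_siegel Q u v c hu hv huv hcv g).mp hg
  have h3 : H17.OrthTrans.equiv Q g ∈ commutatorSet ↥(H17.OrthAbs.O Q) := by
    rw [h1]
    exact H17.OrthSiegel.long_mem_commutatorSet h2 Q hQ (by simpa using hn) u (c • v) hu hcv0 hcv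
  obtain ⟨a, b, hab⟩ := h3
  have h5 : g ∈ commutatorSet ↥(Cfsg.isometryGroup F ⇑Q) := by
    refine ⟨(H17.OrthTrans.equiv Q).symm a, (H17.OrthTrans.equiv Q).symm b, ?_⟩
    apply (H17.OrthTrans.equiv Q).injective
    rw [map_commutatorElement, MulEquiv.apply_symm_apply, MulEquiv.apply_symm_apply, hab]
  refine ⟨h5, ?_⟩
  change g ∈ commutator _
  rw [commutator_eq_closure]
  exact Subgroup.subset_closure h5

end Cfsg.Agent.S0794
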