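import Cfsg.Statements.S0795
import Cfsg.Agent.Lib.H17.OrthSiegel2

set_option autoImplicit false
open Cfsg

namespace Cfsg.Agent.S0795

/-- Generation of Ω by root elements: for q odd, n ≥ 5 and Q with non-degenerate polar form on F^n, the commutator subgroup of the isometry group equals the subgroup generated by the isometries whose matrices are Siegel transformations T_(u,v)(c) with u, v singular and orthogonal. -/
theorem result {F : Type*} [Field F] [Fintype F] (h2 : (2 : F) ≠ 0) {n : ℕ} (hn : 5 ≤ n) (Q : QuadraticForm F (Fin n → F)) (hQ : (QuadraticMap.polarBilin Q).Nondegenerate) : Cfsg.Omega F ⇑Q = Subgroup.closure {g : ↥(Cfsg.isometryGroup F ⇑Q) | ∃ (u v : Fin n → F) (c : F), Q u = 0 ∧ Q v = 0 ∧ QuadraticMap.polar ⇑Q u v = 0 ∧ ((g : Matrix.GeneralLinearGroup (Fin n) F) : Matrix (Fin n) (Fin n) F) = Cfsg.siegelMatrix ⇑Q u v c} := by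
  classical
  have hd : 5 ≤ Module.finrank F (Fin n → F) := by simpa using hn
  change commutator _ = _
  apply le_antisymm
  · have h1 : ∀ g : ↥(H17.OrthAbs.O Q), g ∈ H17.OrthSiegel.longRoot Q →
        (H17.OrthTrans.equiv Q).symm g ∈ Subgroup.closure {g : ↥(Cfsg.isometryGroup F ⇑Q) |
          ∃ (u v : Fin n → F) (c : F), Q u = 0 ∧ Q v = 0 ∧ QuadraticMap.polar ⇑Q u v = 0 ∧
          ((g : Matrix.GeneralLinearGroup (Fin n) F) : Matrix (Fin n) (Fin n) F) =
            Cfsg.siegelMatrix ⇑Q u v c} := by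
      intro g hg
      induction hg using Subgroup.closure_induction with
      | mem x hx =>
        obtain ⟨u, v, hu, hv, huv, rfl⟩ := hx
        apply Subgroup.subset_closure
        refine ⟨u, v, 1, hu, hv, huv, ?_⟩
        rw [H17.OrthSiegel.equiv_siegel Q u v 1 hu hv huv (by rw [one_smul]; exact huv),
          MulEquiv.apply_symm_apply]
        exact H17.OrthSiegel.sg_congr Q _ _ _ _ rfl (one_smul _ _).symm
      | one => rw [map_one]; exact one_mem _
      | mul x y _ _ hx hy => rw [map_mul]; exact mul_mem hx hy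
      | inv x _ hx => rw [map_inv]; exact inv_mem hx
    intro g hg
    have h2' : H17.OrthTrans.equiv Q g ∈ commutator ↥(H17.OrthAbs.O Q) :=
      (H17.OrthTrans2.mem_commutator_equiv _ g).mpr hg
    rw [← H17.OrthSiegel.longRoot_eq h2 Q hQ hd] at h2'
    have h3 := h1 _ h2'
    rwa [MulEquiv.symm_apply_apply] at h3
  · rw [Subgroup.closure_le]
    rintro g ⟨u, v, c, hu, hv, huv, hg⟩
    have hcv : QuadraticMap.polar (⇑Q) u (c • v) = 0 := by
      rw [QuadraticMap.polar_smul_right, huv, smul_zero]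
    have hcv0 : Q (c • v) = 0 := by rw [QuadraticMap.map_smul, hv, smul_zero]
    have h1 : H17.OrthTrans.equiv Q g = H17.OrthSiegel.sg Q u (c • v) hu hcv :=
      (H17.OrthSiegel.equiv_siegel Q u v c hu hv huv hcv g).mp hg
    rw [SetLike.mem_coe, ← H17.OrthTrans2.mem_commutator_equiv (H17.OrthTrans.equiv Q), h1,
      ← H17.OrthSiegel.longRoot_eq h2 Q hQ hd]
    exact Subgroup.subset_closure ⟨u, c • v, hu, hcv0, hcv, rfl⟩

end Cfsg.Agent.S0795
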