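import Cfsg.Statements.S0796


set_option autoImplicit false
open Cfsg

namespace Cfsg.Agent.S0796

/-- If G is finite and acts faithfully and primitively on X, H is the stabiliser of a point, A is a normal subgroup of H whose normal closure in G is G, then for every non-trivial normal subgroup K of G the quotient G ⧸ K is isomorphic to A ⧸ B for some normal subgroup B of A. -/
theorem result {G X : Type*} [Group G] [Finite G] [MulAction G X] [FaithfulSMul G X] (hprim : MulAction.IsPreprimitive G X) (x : X) (A : Subgroup G) (hA : A ≤ MulAction.stabilizer G x) (hAn : (A.subgroupOf (MulAction.stabilizer G x)).Normal) (hgen : Subgroup.normalClosure (A : Set G) = ⊤) (K : Subgroup G) [K.Normal] (hK : K ≠ ⊥) : ∃ (B : Subgroup A) (_ : B.Normal), Nonempty (G ⧸ K ≃* A ⧸ B) := by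
  -- K is transitive on X
  have hK_trans : MulAction.IsPretransitive K X := by
    have hqp : MulAction.IsQuasiPreprimitive G X := inferInstance
    apply hqp.isPretransitive_of_normal
    intro h
    apply hK
    rw [Subgroup.eq_bot_iff_forall]
    intro k hk
    apply FaithfulSMul.eq_of_smul_eq_smul (α := X)
    intro y
    have : y ∈ MulAction.fixedPoints K X := by rw [h]; trivial
    simpa using this ⟨k, hk⟩
  -- G = H K
  have hG : ∀ g : G, ∃ k ∈ K, ∃ h ∈ MulAction.stabilizer G x, g = k * h := by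
    intro g
    obtain ⟨k, hk⟩ := MulAction.exists_smul_eq K x (g • x)
    refine ⟨k, k.2, (k : G)⁻¹ * g, ?_, by group⟩
    rw [MulAction.mem_stabilizer_iff, mul_smul, ← hk]
    simp [Subgroup.smul_def]
  -- A K = G
  have hAK : A ⊔ K = ⊤ := by
    rw [eq_top_iff, ← hgen]
    apply Subgroup.closure_le _ |>.mpr
    intro y hy
    rw [Group.mem_conjugatesOfSet_iff] at hy
    obtain ⟨a, ha, hc⟩ := hy
    obtain ⟨g, rfl⟩ := isConj_iff.mp hc
    obtain ⟨k, hk, h, hh, rfl⟩ := hG g
    have h1 : h * a * h⁻¹ ∈ A := by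
      have := hAn.conj_mem ⟨a, hA ha⟩ (by simpa [Subgroup.mem_subgroupOf] using ha) ⟨h, hh⟩
      simpa [Subgroup.mem_subgroupOf] using this
    have h2 : k * h * a * (k * h)⁻¹ = k * (h * a * h⁻¹) * k⁻¹ := by group
    rw [h2]
    have hk' : k ∈ A ⊔ K := Subgroup.mem_sup_right hk
    exact (A ⊔ K).mul_mem ((A ⊔ K).mul_mem hk' (Subgroup.mem_sup_left h1)) ((A ⊔ K).inv_mem hk')
  -- the map A → G ⧸ K
  let f : A →* G ⧸ K := (QuotientGroup.mk' K).comp A.subtype
  have hf : Function.Surjective f := by
    intro y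
    obtain ⟨g, rfl⟩ := QuotientGroup.mk_surjective y
    have hg : g ∈ A ⊔ K := by rw [hAK]; trivial
    obtain ⟨a, ha, k, hk, rfl⟩ := Subgroup.mem_sup_of_normal_right.mp hg
    refine ⟨⟨a, ha⟩, ?_⟩
    simp only [f, MonoidHom.comp_apply, QuotientGroup.mk'_apply, Subgroup.subtype_apply]
    rw [QuotientGroup.eq]
    simpa using hk
  exact ⟨f.ker, inferInstance, ⟨(QuotientGroup.quotientKerEquivOfSurjective f hf).symm⟩⟩

end Cfsg.Agent.S0796
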