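import Cfsg.Statements.S0798
import Cfsg.Agent.Lib.H17.OrthIdx

set_option autoImplicit false
open Cfsg

namespace Cfsg.Agent.S0798

/-- For q odd, n ≥ 2 even, Q with non-degenerate polar form (n, |F|) ≠ (4, 3), and a fixed c ≠ 0: the subgroup of the isometry group generated by the reflections r_v with Q(v) ∈ c·(F^×)² has index 2. -/
theorem result {F : Type*} [Field F] [Fintype F] (h2 : (2 : F) ≠ 0) {n : ℕ} (hn : 2 ≤ n) (heven : Even n) (Q : QuadraticForm F (Fin n → F)) (hQ : (QuadraticMap.polarBilin Q).Nondegenerate) (h43 : ¬ (n = 4 ∧ Fintype.card F = 3)) (c : F) (hc : c ≠ 0) : (Subgroup.closure {g : ↥(Cfsg.isometryGroup F ⇑Q) | ∃ (v : Fin n → F) (t : F), t ≠ 0 ∧ Q v = c * t ^ 2 ∧ ((g : Matrix.GeneralLinearGroup (Fin n) F) : Matrix (Fin n) (Fin n) F) = Cfsg.reflectionMatrix ⇑Q v}).index = 2 := by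
  obtain ⟨R, hR⟩ := H17.OrthOmega.exists_reps (F := F) h2 c hc
  have hfr : Module.finrank F (Fin n → F) = n := by simp
  have h1 := H17.OrthIdx.D_index h2 Q R hQ (by rw [hfr]; exact heven) (by rw [hfr]; exact hn)
    (by rw [hfr, Nat.card_eq_fintype_card]; exact h43)
  rw [hR] at h1
  have h3 : (Subgroup.closure {g : ↥(Cfsg.isometryGroup F ⇑Q) | ∃ (v : Fin n → F) (t : F), t ≠ 0 ∧ Q v = c * t ^ 2 ∧
      ((g : Matrix.GeneralLinearGroup (Fin n) F) : Matrix (Fin n) (Fin n) F) = Cfsg.reflectionMatrix ⇑Q v}).map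
      (H17.OrthTrans.equiv Q).toMonoidHom = H17.OrthIdx.D Q c := by
    rw [MonoidHom.map_closure, H17.OrthIdx.D]
    congr 1
    ext g
    constructor
    · rintro ⟨x, ⟨v, t, ht0, ht, hx⟩, rfl⟩
      have hv : Q v ≠ 0 := by rw [ht]; exact mul_ne_zero hc (pow_ne_zero 2 ht0)
      refine ⟨v, hv, ⟨t, ht0, ht⟩, ?_⟩
      rw [H17.OrthTrans.eq_refl_of_coe Q v hv x hx]
      exact H17.OrthTrans.equiv_refl Q v hv
    · rintro ⟨v, hv, ⟨t, ht0, ht⟩, rfl⟩
      exact ⟨H17.OrthDet.refl Q v hv, ⟨v, t, ht0, ht, H17.OrthDet.refl_coe Q v hv⟩, H17.OrthTrans.equiv_refl Q v hv⟩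
  rw [← h3] at h1
  exact (Subgroup.index_map_equiv _ (H17.OrthTrans.equiv Q)).symm.trans h1

end Cfsg.Agent.S0798
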