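import Cfsg.Statements.S0801
import Cfsg.Agent.Lib.H98.TwoTransv

set_option autoImplicit false
open Cfsg

namespace Cfsg.Agent.S0801

/-- Let F be a finite field of odd characteristic and λ ≠ 0 an element generating F as a field. Then the lower and upper unitriangular matrices with off-diagonal entries 1 and λ generate SL_2(F), unless |F| = 9 and λ² = −1, in which case they generate a subgroup of order 120. -/
theorem result {F : Type*} [Field F] [Fintype F] (h2 : (2 : F) ≠ 0) (lam : F) (hlam : lam ≠ 0) (hgen : Subfield.closure ({lam} : Set F) = ⊤) : (Subgroup.closure {g : Matrix.SpecialLinearGroup (Fin 2) F | (g : Matrix (Fin 2) (Fin 2) F) = !![1, 0; 1, 1] ∨ (g : Matrix (Fin 2) (Fin 2) F) = !![1, lam; 0, 1]} = ⊤ ∧ ¬ (Fintype.card F = 9 ∧ lam ^ 2 = -1)) ∨ (Fintype.card F = 9 ∧ lam ^ 2 = -1 ∧ Nat.card ↥(Subgroup.closure {g : Matrix.SpecialLinearGroup (Fin 2) F | (g : Matrix (Fin 2) (Fin 2) F) = !![1, 0; 1, 1] ∨ (g : Matrix (Fin 2) (Fin 2) F) = !![1, lam; 0, 1]}) = 120) := by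
  classical
  haveI hfG : Finite (Matrix.ProjectiveSpecialLinearGroup (Fin 2) F) := inferInstanceAs (Finite (_ ⧸ _))
  set N := Subgroup.closure {g : Matrix.SpecialLinearGroup (Fin 2) F | (g : Matrix (Fin 2) (Fin 2) F) = !![1, 0; 1, 1] ∨
    (g : Matrix (Fin 2) (Fin 2) F) = !![1, lam; 0, 1]} with hN
  have hFc : Nat.card F = Fintype.card F := Nat.card_eq_fintype_card
  obtain ⟨p, hpc⟩ := CharP.exists F
  haveI hpp : Fact p.Prime := ⟨CharP.char_is_prime F p⟩
  have hp2 : p ≠ 2 := by
    rintro rfl
    apply h2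
    have := CharP.cast_eq_zero F 2
    exact_mod_cast this
  have hodd := H98.DicksonIdx.odd_of_ne_two (F := F) p hp2
  have hX : H98.DicksonField.lo (1 : F) ∈ N := Subgroup.subset_closure (Or.inl rfl)
  have hY : H98.DicksonField.up lam ∈ N := Subgroup.subset_closure (Or.inr rfl)
  have hNle : ∀ S : Subgroup (Matrix.SpecialLinearGroup (Fin 2) F), H98.DicksonField.lo (1 : F) ∈ S →
      H98.DicksonField.up lam ∈ S → N ≤ S := by
    intro S h1 h3
    rw [hN, Subgroup.closure_le]
    rintro g (hg | hg)
    · have : g = H98.DicksonField.lo (1 : F) := H98.DicksonField.sl_ext hg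
      rw [this]; exact h1
    · have : g = H98.DicksonField.up lam := H98.DicksonField.sl_ext hg
      rw [this]; exact h3
  -- in the exceptional case the group is proper
  have hexc : Fintype.card F = 9 → lam ^ 2 = -1 → N ≠ ⊤ := by
    intro h9 hsq htop
    have hp3 : p = 3 := by
      obtain ⟨n, hn1, hn⟩ := H98.DicksonIdx.char_dvd (F := F) p
      rw [hFc, h9] at hn
      have : p ∣ 3 ^ 2 := by rw [show 3 ^ 2 = 9 by norm_num, hn]; exact dvd_pow_self p (by omega)
      exact (Nat.prime_dvd_prime_iff_eq hpp.out Nat.prime_three).mp (hpp.out.dvd_of_dvd_pow this)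
    subst hp3
    have hneg1 : H98.TwoTransv.π' F (-1) = 1 := by
      rw [H98.TwoTransv.mk_eq_one_iff hodd]; simp
    set x := H98.TwoTransv.π' F (H98.DicksonField.lo 1) with hx
    set y := (H98.TwoTransv.π' F (H98.DicksonField.lo 1 * H98.DicksonField.up lam)) ^ 2 with hy
    have hx3 : x ^ 3 = 1 := by
      rw [hx, ← map_pow, H98.TwoTransv.lo_pow, CharP.cast_eq_zero, zero_mul, H98.TwoTransv.lo_zero, map_one]
    have hm5 : (H98.TwoTransv.π' F (H98.DicksonField.lo 1 * H98.DicksonField.up lam)) ^ 5 = 1 := by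
      rw [← map_pow, H98.TwoTransv.five_pow lam hsq, hneg1]
    have hy5 : y ^ 5 = 1 := by
      rw [hy, ← pow_mul, mul_comm, pow_mul, hm5, one_pow]
    have hxy : (x * y) ^ 2 = 1 := by
      rw [hx, hy, ← map_pow, ← map_mul, ← map_pow, H98.TwoTransv.two_pow lam hsq, hneg1]
    have hclos : Subgroup.closure {x, y} = ⊤ := by
      have hxm : x ∈ Subgroup.closure {x, y} := Subgroup.subset_closure (Set.mem_insert _ _)
      have hym : y ∈ Subgroup.closure {x, y} := Subgroup.subset_closure (Set.mem_insert_of_mem _ rfl)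
      have hmm : H98.TwoTransv.π' F (H98.DicksonField.lo 1 * H98.DicksonField.up lam) ∈ Subgroup.closure {x, y} := by
        have : H98.TwoTransv.π' F (H98.DicksonField.lo 1 * H98.DicksonField.up lam) = y ^ 3 := by
          rw [hy, ← pow_mul]
          show _ = _ ^ (5 + 1)
          rw [pow_succ, hm5, one_mul]
        rw [this]; exact Subgroup.pow_mem _ hym 3
      have hle : N ≤ (Subgroup.closure {x, y}).comap (H98.TwoTransv.π' F) := by
        apply hNle
        · exact hxm
        · have h3 := Subgroup.mul_mem _ (Subgroup.inv_mem _ hxm) hmm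
          rw [map_mul, ← hx, inv_mul_cancel_left] at h3
          exact h3
      rw [htop] at hle
      rw [eq_top_iff]
      intro g _
      obtain ⟨s, rfl⟩ := QuotientGroup.mk_surjective g
      exact hle (Subgroup.mem_top s)
    have h60 := (H60.Tri235.card_closure_le x y 1 hx3 hy5 hxy (one_pow 2) (by simp) (by simp) hclos).2
    rw [orderOf_one, H98.DicksonIdx.card_G, hFc, h9, show Nat.gcd 2 (9 - 1) = 2 from rfl] at h60
    norm_num at h60
  rcases H98.TwoTransv.alternative p lam hp2 hlam hgen N hX hY with h | ⟨hp3, h60, e⟩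
  · left
    exact ⟨h, fun ⟨h9, hsq⟩ => hexc h9 hsq h⟩
  · right
    subst hp3
    obtain ⟨h9, hsq⟩ := H98.TwoTransv.a5_case lam hlam hgen N hX hY h60 e
    refine ⟨by rw [← hFc]; exact h9, hsq, ?_⟩
    -- the order of N
    have hm1 : (-1 : Matrix.SpecialLinearGroup (Fin 2) F) ∈ N := by
      rw [← H98.TwoTransv.five_pow lam hsq]
      exact N.pow_mem (N.mul_mem hX hY) 5
    let φ : N →* N.map (H98.TwoTransv.π' F) := (H98.TwoTransv.π' F).subgroupMap N
    have hφ : Function.Surjective φ := (H98.TwoTransv.π' F).subgroupMap_surjective N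
    have hker : Nat.card φ.ker = 2 := by
      have hne : (-1 : Matrix.SpecialLinearGroup (Fin 2) F) ≠ 1 := by
        intro h
        have h3 := congrArg (fun x : Matrix.SpecialLinearGroup (Fin 2) F => (x : Matrix (Fin 2) (Fin 2) F) 0 0) h
        have h4 : (-1 : F) = 1 := by simpa using h3
        apply h2
        have : (2 : F) = 1 - (-1) := by ring
        rw [this, h4, sub_self]
      have hset : (φ.ker : Set N) = {1, ⟨-1, hm1⟩} := by
        ext n
        rw [SetLike.mem_coe, MonoidHom.mem_ker]
        constructor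
        · intro h
          have h3 : H98.TwoTransv.π' F n.1 = 1 := congrArg Subtype.val h
          rw [H98.TwoTransv.mk_eq_one_iff hodd] at h3
          rcases H40.SL2Tori.sq_one_scalar h2 h3 with h4 | h4
          · left; exact Subtype.ext h4
          · right; exact Subtype.ext h4
        · rintro (rfl | h)
          · exact map_one _
          · rw [Set.mem_singleton_iff.mp h]
            apply Subtype.ext
            show H98.TwoTransv.π' F (-1) = 1
            rw [H98.TwoTransv.mk_eq_one_iff hodd]; simp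
      have h3 : Nat.card φ.ker = (φ.ker : Set N).ncard := rfl
      rw [h3, hset, Set.ncard_pair]
      intro h
      exact hne (congrArg Subtype.val h).symm
    have h3 := φ.ker.card_mul_index
    rw [hker, Subgroup.index_ker, MonoidHom.range_eq_top.mpr hφ, Subgroup.card_top, h60] at h3
    exact h3.symm

end Cfsg.Agent.S0801
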