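import Cfsg.Statements.S0805
import Cfsg.Agent.Lib.H17.SubfieldPSL

set_option autoImplicit false
open Cfsg

namespace Cfsg.Agent.S0805

/-- Subfield subgroups: let F be a finite field of odd order q and K a finite field with |K|^m = q, m ≥ 1. Then PSL_2(F) has a subgroup isomorphic to PSL_2(K), and has a subgroup isomorphic to PGL_2(K) if and only if m is even. -/
theorem result {F K : Type*} [Field F] [Fintype F] [Field K] [Fintype K] {q : ℕ} (hF : Fintype.card F = q) (hodd : Odd q) (m : ℕ) (hm : 1 ≤ m) (hK : Fintype.card K ^ m = q) : (∃ H : Subgroup (Matrix.ProjectiveSpecialLinearGroup (Fin 2) F), Nonempty (H ≃* Matrix.ProjectiveSpecialLinearGroup (Fin 2) K)) ∧ ((∃ H : Subgroup (Matrix.ProjectiveSpecialLinearGroup (Fin 2) F), Nonempty (H ≃* Matrix.ProjGenLinGroup (Fin 2) K)) ↔ Even m) := by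
  classical
  have hcard : Nat.card K ^ m = Nat.card F := by
    rw [Nat.card_eq_fintype_card, Nat.card_eq_fintype_card, hK, hF]
  obtain ⟨f⟩ := H17.SubfieldPSL.exists_ringHom m hcard
  constructor
  · obtain ⟨φ, hφ⟩ := H17.SubfieldPSL.exists_pslHom f
    exact H17.SubfieldPSL.exists_subgroup φ hφ
  constructor
  · rintro ⟨H, ⟨e⟩⟩
    by_contra hm2
    rw [Nat.not_even_iff_odd] at hm2
    have h1 := H98.DicksonPGL.card_pgl_eq K
    have h2 := H98.DicksonPGL.card_psl_eq F
    have h3 : Nat.card (Matrix.ProjGenLinGroup (Fin 2) K) ∣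
        Nat.card (Matrix.ProjectiveSpecialLinearGroup (Fin 2) F) := by
      rw [← Nat.card_congr e.toEquiv]
      exact Subgroup.card_subgroup_dvd_card H
    rw [Nat.card_eq_fintype_card (α := F), hF] at h2
    obtain ⟨t, ht⟩ := hodd
    have hgcd : Nat.gcd 2 (q - 1) = 2 := by
      apply Nat.gcd_eq_left
      rw [ht]
      exact ⟨t, by omega⟩
    rw [hgcd] at h2
    set r := Nat.card K with hr
    have hq : r ^ m = q := by rw [hcard, Nat.card_eq_fintype_card, hF]
    have hr1 : 1 < r := Finite.one_lt_card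
    have hq1 : 1 < q := by rw [← hF]; exact Fintype.one_lt_card
    -- `r` is odd
    have hrodd : Odd r := by
      rw [← Nat.not_even_iff_odd]
      intro he
      have h4 : Even (r ^ m) := he.pow_of_ne_zero (by omega)
      rw [hq, ht] at h4
      exact (Nat.not_even_iff_odd.mpr ⟨t, rfl⟩) h4
    -- `q² - 1 = (r² - 1) S` with `S` odd
    have hgeom : (r ^ 2 - 1) * (∑ i ∈ Finset.range m, (r ^ 2) ^ i) = q ^ 2 - 1 := by
      have h4 : 1 ≤ r ^ 2 := Nat.one_le_pow _ _ (by omega)
      have h5 : 1 ≤ q ^ 2 := Nat.one_le_pow _ _ (by omega)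
      have h6 := Nat.geomSum_eq (m := r ^ 2) (by nlinarith) m
      have h7 : q ^ 2 = (r ^ 2) ^ m := by rw [← hq, ← pow_mul, ← pow_mul, mul_comm]
      rw [h7]
      have h8 := mul_geom_sum (r ^ 2 : ℤ) m
      zify [h4, Nat.one_le_pow m (r ^ 2) (by positivity)]
      linear_combination h8
    have hS : Odd (∑ i ∈ Finset.range m, (r ^ 2) ^ i) := by
      have h4 : ∀ k : ℕ, (∑ i ∈ Finset.range k, (r ^ 2) ^ i) % 2 = k % 2 := by
        intro k
        induction k with
        | zero => simp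
        | succ k ih =>
          rw [Finset.sum_range_succ, Nat.add_mod, ih]
          have h5 : ((r ^ 2) ^ k) % 2 = 1 := Nat.odd_iff.mp (hrodd.pow.pow)
          rw [h5]
          omega
      rw [Nat.odd_iff, h4, ← Nat.odd_iff]
      exact hm2
    obtain ⟨u, hu⟩ := h3
    rw [hu, h1] at h2
    have e1 : (r + 1) * (r * (r - 1)) = r * (r ^ 2 - 1) := by
      have h4 : 1 ≤ r ^ 2 := Nat.one_le_pow _ _ (by omega)
      have h5 : 1 ≤ r := by omega
      zify [h4, h5]; ring
    have e2 : (q + 1) * (q * (q - 1)) = q * (q ^ 2 - 1) := by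
      have h4 : 1 ≤ q ^ 2 := Nat.one_le_pow _ _ (by omega)
      have h5 : 1 ≤ q := by omega
      zify [h4, h5]; ring
    rw [e1, e2, ← hgeom] at h2
    have h4 : 0 < r ^ 2 - 1 := by
      have : 1 < r ^ 2 := by nlinarith
      omega
    have h5 : 2 * (r * u) = q * ∑ i ∈ Finset.range m, (r ^ 2) ^ i := by
      apply Nat.eq_of_mul_eq_mul_left h4
      calc (r ^ 2 - 1) * (2 * (r * u)) = 2 * (r * (r ^ 2 - 1) * u) := by ring
        _ = q * ((r ^ 2 - 1) * ∑ i ∈ Finset.range m, (r ^ 2) ^ i) := h2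
        _ = (r ^ 2 - 1) * (q * ∑ i ∈ Finset.range m, (r ^ 2) ^ i) := by ring
    have h6 : Odd (q * ∑ i ∈ Finset.range m, (r ^ 2) ^ i) := by
      apply Odd.mul _ hS
      exact ⟨t, ht⟩
    rw [← h5] at h6
    exact (Nat.not_odd_iff_even.mpr ⟨r * u, by ring⟩) h6
  · intro hm2
    exact H17.SubfieldPSL.exists_pglHom f (fun a ha =>
      H17.SubfieldPSL.isSquare_of_even f m hm2 (by rw [hF]; exact hodd)
        (by rw [hcard, Nat.card_eq_fintype_card]) a ha)

end Cfsg.Agent.S0805
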