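import Cfsg.Statements.S0807
import Cfsg.Agent.Lib.H17.QuatPair2

set_option autoImplicit false
open Cfsg

namespace Cfsg.Agent.S0807

/-- For q odd, twelve times the number of Klein four-subgroups of PSL_2(q) equals the order of PSL_2(q). -/
theorem result {F : Type*} [Field F] [Fintype F] {q : ℕ} (hF : Fintype.card F = q) (hodd : Odd q) : 12 * Nat.card {V : Subgroup (Matrix.ProjectiveSpecialLinearGroup (Fin 2) F) // IsKleinFour V} = Nat.card (Matrix.ProjectiveSpecialLinearGroup (Fin 2) F) := by
  classical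
  have h2 : (2 : F) ≠ 0 := H45.SL2.two_ne_zero_of_odd (by rw [hF]; exact hodd)
  have h1 := H17.QuatPair.card_qp (F := F) h2
  rw [H17.QuatPair.card_qp_four h2, H17.FourGrp.card_pairs] at h1
  have h3 : Nat.card (Matrix.SpecialLinearGroup (Fin 2) F) =
      Nat.card (Matrix.ProjectiveSpecialLinearGroup (Fin 2) F) * 2 := by
    refine H17.LineCount.card_fib H17.QuatPair.pr 2 ?_
    intro a
    obtain ⟨x, rfl⟩ := H17.QuatPair.exists_pr a
    exact H17.QuatPair.negneg_card h2 x
  omega

end Cfsg.Agent.S0807
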