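import Cfsg.Statements.S0810
import Cfsg.Agent.Lib.H98.DicksonSolv
import Cfsg.Agent.S0804

set_option autoImplicit false
open Cfsg

namespace Cfsg.Agent.S0810

/-- PSL_2(q) is minimal simple iff q is 2^r (r prime), 3^r (r an odd prime), a prime greater than 5 congruent to 2 or 3 mod 5, or 5. -/
theorem result {F : Type*} [Field F] [Fintype F] {q : ℕ} (hF : Fintype.card F = q) : Cfsg.IsMinimalSimple (Matrix.ProjectiveSpecialLinearGroup (Fin 2) F) ↔ ((∃ r : ℕ, r.Prime ∧ q = 2 ^ r) ∨ (∃ r : ℕ, r.Prime ∧ r ≠ 2 ∧ q = 3 ^ r) ∨ (q.Prime ∧ 5 < q ∧ (q % 5 = 2 ∨ q % 5 = 3)) ∨ q = 5) := by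
  classical
  haveI hfG : Finite (Matrix.ProjectiveSpecialLinearGroup (Fin 2) F) := inferInstanceAs (Finite (_ ⧸ _))
  have hF' : Nat.card F = q := by rw [Nat.card_eq_fintype_card, hF]
  have hF1 : 1 < Nat.card F := Finite.one_lt_card
  obtain ⟨p, hpc⟩ := CharP.exists F
  haveI hpp : Fact p.Prime := ⟨CharP.char_is_prime F p⟩
  have hp2 := hpp.out.two_le
  obtain ⟨n, hn1, hn⟩ := H98.DicksonIdx.char_dvd (F := F) p
  rw [hF'] at hF1 hn
  have hcardG := H98.DicksonPGL.card_psl_eq F
  rw [hF'] at hcardG
  have hpq : p ∣ q := by rw [hn]; exact dvd_pow_self p (by omega)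
  constructor
  · rintro ⟨hsimp, hnc, hsolv⟩
    have hGns : ¬ Group.IsSolvable (Matrix.ProjectiveSpecialLinearGroup (Fin 2) F) := by
      intro h
      rw [← IsSimpleGroup.comm_iff_isSolvable] at h
      exact hnc ⟨⟨h⟩⟩
    have hq4 : 4 ≤ q := by
      by_contra hlt
      apply hGns
      rcases (by omega : q = 2 ∨ q = 3) with h | h
      · rw [h, show Nat.gcd 2 (2 - 1) = 1 from rfl, one_mul] at hcardG
        exact H98.DicksonSolv.solvable_of_card 1 1 (by rw [hcardG]; norm_num)
      · rw [h, show Nat.gcd 2 (3 - 1) = 2 from rfl] at hcardG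
        exact H98.DicksonSolv.solvable_of_card 2 1 (by omega)
    have hA5ns : ¬ Group.IsSolvable (alternatingGroup (Fin 5)) := by
      intro h
      haveI : IsSimpleGroup (alternatingGroup (Fin 5)) := alternatingGroup.isSimpleGroup (by simp)
      rw [← IsSimpleGroup.comm_iff_isSolvable] at h
      obtain ⟨⟨x, y, hxy⟩, -⟩ := H98.DicksonSmall.A5_elts
      exact hxy (h _ _)
    by_cases h5 : 5 ∣ q * (q ^ 2 - 1)
    · obtain ⟨H, ⟨e⟩⟩ := (Cfsg.Agent.S0804.result (F := F) hF).mpr h5
      have hHt : H = ⊤ := by
        by_contra hne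
        exact hA5ns (H98.DicksonSolv.solvable_of_equiv e.symm (hsolv H hne))
      have h60 := H98.DicksonIdx.card_A5 ⟨e⟩
      rw [hHt, Subgroup.card_top] at h60
      rw [h60] at hcardG
      have hlt : q < 6 := by
        by_contra hge
        have h1 : 7 * (6 * 5) ≤ (q + 1) * (q * (q - 1)) := Nat.mul_le_mul (by omega) (Nat.mul_le_mul (by omega) (by omega))
        have h2 : Nat.gcd 2 (q - 1) ≤ 2 := Nat.le_of_dvd (by norm_num) (Nat.gcd_dvd_left _ _)
        have h3 : Nat.gcd 2 (q - 1) * 60 ≤ 2 * 60 := Nat.mul_le_mul_right _ h2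
        omega
      rcases (by omega : q = 4 ∨ q = 5) with h | h
      · left; exact ⟨2, Nat.prime_two, by rw [h]; norm_num⟩
      · right; right; right; exact h
    · -- no element of order 5
      have h5q : ¬ 5 ∣ q := fun h => h5 (Dvd.dvd.mul_right h _)
      have h5q2 : ¬ 5 ∣ q ^ 2 - 1 := fun h => h5 (Dvd.dvd.mul_left h _)
      by_cases hn2 : n = 1
      · right; right; left
        rw [hn2, pow_one] at hn
        refine ⟨by rw [hn]; exact hpp.out, by
          by_contra hle
          have h5' : q ≠ 5 := by rintro rfl; exact h5q (dvd_refl 5)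
          have h4 : q = 4 := by omega
          have : Nat.Prime 4 := by rw [← h4, hn]; exact hpp.out
          exact absurd this (by norm_num), ?_⟩
        have hmod : q % 5 = 0 ∨ q % 5 = 1 ∨ q % 5 = 2 ∨ q % 5 = 3 ∨ q % 5 = 4 := by omega
        rcases hmod with h | h | h | h | h
        · exact absurd (Nat.dvd_of_mod_eq_zero h) h5q
        · exfalso; apply h5q2
          obtain ⟨s, hs⟩ : ∃ s, q = 5 * s + 1 := ⟨q / 5, by omega⟩
          have : q ^ 2 = 5 * (5 * s * s + 2 * s) + 1 := by rw [hs]; ring
          rw [this]; simp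
        · exact Or.inl h
        · exact Or.inr h
        · exfalso; apply h5q2
          obtain ⟨s, hs⟩ : ∃ s, q = 5 * s + 4 := ⟨q / 5, by omega⟩
          have : q ^ 2 = 5 * (5 * s * s + 8 * s + 3) + 1 := by rw [hs]; ring
          rw [this]; simp
      · -- n ≥ 2: take a prime divisor
        obtain ⟨r, hr, hrn⟩ := Nat.exists_prime_and_dvd hn2
        obtain ⟨c, hc⟩ := hrn
        have hc0 : 1 ≤ c := by
          rcases Nat.eq_zero_or_pos c with h | h
          · rw [h] at hc; omega
          · exact h
        -- the subfield of order p^c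
        let K := GaloisField p c
        have hKc : Nat.card K = p ^ c := GaloisField.card p c (by omega)
        haveI : Finite K := Nat.finite_of_card_ne_zero (by rw [hKc]; exact (pow_pos (by omega) _).ne')
        have hFK : Nat.card F = Nat.card K ^ r := by rw [hF', hKc, hn, hc, ← pow_mul, mul_comm]
        obtain ⟨f⟩ := H98.DicksonSub.exists_ringHom K F r hFK
        let ψ := H98.DicksonSub.pslMap f
        have hψ : Function.Injective ψ := H98.DicksonSub.pslMap_injective f
        have hK1 : 1 < Nat.card K := Finite.one_lt_card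
        have hψt : ψ.range ≠ ⊤ := by
          intro h
          have h1 := Nat.card_congr (MonoidHom.ofInjective hψ).toEquiv
          rw [h, Subgroup.card_top] at h1
          have h2 := H98.DicksonPGL.card_psl_eq K
          rw [h1] at h2
          have hlt : Nat.card K < q := by
            rw [← hF', hFK]
            calc Nat.card K = Nat.card K ^ 1 := (pow_one _).symm
              _ < Nat.card K ^ r := Nat.pow_lt_pow_right hK1 hr.one_lt
          have h3 : 2 * ((Nat.card K + 1) * (Nat.card K * (Nat.card K - 1))) < (q + 1) * (q * (q - 1)) := by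
            have h4 : 2 * Nat.card K ≤ q := by
              rw [← hF', hFK]
              calc 2 * Nat.card K ≤ Nat.card K * Nat.card K := Nat.mul_le_mul_right _ hK1
                _ = Nat.card K ^ 2 := (pow_two _).symm
                _ ≤ Nat.card K ^ r := Nat.pow_le_pow_right (by omega) hr.two_le
            calc 2 * ((Nat.card K + 1) * (Nat.card K * (Nat.card K - 1))) = (Nat.card K + 1) * ((2 * Nat.card K) * (Nat.card K - 1)) := by ring
              _ < (q + 1) * (q * (q - 1)) := Nat.mul_lt_mul_of_lt_of_le (by omega) (Nat.mul_le_mul h4 (by omega)) (Nat.mul_pos (by omega) (by omega))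
          have h5 : Nat.gcd 2 (q - 1) ≤ 2 := Nat.le_of_dvd (by norm_num) (Nat.gcd_dvd_left _ _)
          have h6 : 1 ≤ Nat.gcd 2 (Nat.card K - 1) := Nat.gcd_pos_of_pos_left _ (by norm_num)
          have h7 : 0 < Nat.card (Matrix.ProjectiveSpecialLinearGroup (Fin 2) F) := Nat.card_pos
          have h8 : Nat.card (Matrix.ProjectiveSpecialLinearGroup (Fin 2) F) ≤ (Nat.card K + 1) * (Nat.card K * (Nat.card K - 1)) := by
            rw [← h2]; exact Nat.le_mul_of_pos_left _ h6
          have h9 : (q + 1) * (q * (q - 1)) ≤ 2 * Nat.card (Matrix.ProjectiveSpecialLinearGroup (Fin 2) F) := by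
            rw [← hcardG]; exact Nat.mul_le_mul_right _ h5
          omega
        have hK3 : Nat.card K < 4 := by
          by_contra hge
          exact H98.DicksonSolv.psl_not_solvable K (by omega)
            (H98.DicksonSolv.solvable_of_equiv (MonoidHom.ofInjective hψ) (hsolv _ hψt))
        have hp3 : p ≤ 3 := by
          have : p ^ 1 ≤ p ^ c := Nat.pow_le_pow_right (by omega) hc0
          rw [pow_one] at this
          omega
        have hc1 : c = 1 := by
          by_contra hne
          have : p ^ 2 ≤ p ^ c := Nat.pow_le_pow_right (by omega) (by omega)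
          have h4 : 2 ^ 2 ≤ p ^ 2 := Nat.pow_le_pow_left hp2 2
          omega
        rw [hc1, mul_one] at hc
        rw [hc] at hn
        rcases (by omega : p = 2 ∨ p = 3) with h | h
        · left; exact ⟨r, hr, by rw [hn, h]⟩
        · right; left
          refine ⟨r, hr, ?_, by rw [hn, h]⟩
          rintro rfl
          apply h5q2
          rw [hn, h]; norm_num
  · intro hq
    have hq4 : 4 ≤ q := by
      rcases hq with ⟨r, hr, h⟩ | ⟨r, hr, hr2, h⟩ | ⟨-, h, -⟩ | h
      · have := Nat.pow_le_pow_right (show 0 < 2 by norm_num) hr.two_le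
        omega
      · have := Nat.pow_le_pow_right (show 0 < 3 by norm_num) hr.two_le
        omega
      · omega
      · omega
    have hGs := Matrix.ProjectiveSpecialLinearGroup.rank_two_simple (F := F) (by rw [hF']; exact hq4)
    refine ⟨hGs, ?_, ?_⟩
    · intro h
      obtain ⟨u, v, -, -, huv⟩ := H98.DicksonSub.exists_noncomm p F
      exact huv (h.is_comm.comm u v)
    · intro M hM
      by_contra hs
      -- the characteristic
      have hchar : ∀ l r : ℕ, l.Prime → 1 ≤ r → q = l ^ r → p = l := by
        intro l r hl hr h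
        have h1 : p ∣ l ^ r := by rw [← h]; exact hpq
        exact (Nat.prime_dvd_prime_iff_eq hpp.out hl).mp (hpp.out.dvd_of_dvd_pow h1)
      -- no proper subfield of order at least four
      have hsubf : ∀ (K : Subfield F) (m : ℕ), 2 ≤ m → Nat.card K ^ m = Nat.card F → Nat.card K < 4 := by
        intro K m hm hK
        obtain ⟨b, hb1, hb⟩ := H98.DicksonIdx.char_dvd (F := K) p
        have key : ∀ l r : ℕ, l.Prime → r.Prime → q = l ^ r → Nat.card K = l := by
          intro l r hl hr h
          have hpl := hchar l r hl hr.one_lt.le h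
          rw [hpl] at hb
          rw [hb, hF', h, ← pow_mul] at hK
          have h2 : b * m = r := Nat.pow_right_injective hl.two_le hK
          have h3 : m ∣ r := ⟨b, by rw [mul_comm]; exact h2.symm⟩
          have h4 : m = r := by
            rcases (Nat.dvd_prime hr).mp h3 with h | h
            · omega
            · exact h
          have h5 : b = 1 := by
            rw [h4] at h2
            exact Nat.eq_of_mul_eq_mul_right hr.pos (by rw [one_mul]; exact h2)
          rw [hb, h5, pow_one]
        have keyp : q.Prime → False := by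
          intro hqp
          rw [← hF', ← hK] at hqp
          exact Nat.Prime.not_prime_pow hm hqp
        rcases hq with ⟨r, hr, h⟩ | ⟨r, hr, hr2, h⟩ | ⟨h, -⟩ | h
        · rw [key 2 r Nat.prime_two hr h]; norm_num
        · rw [key 3 r Nat.prime_three hr h]; norm_num
        · exact (keyp h).elim
        · exact (keyp (by rw [h]; norm_num)).elim
      rcases H98.DicksonSolv.nonsolvable_list p M hM hs with ⟨h2, h5, e⟩ | ⟨K, m, hm, hK, h4, -⟩ | ⟨K, m, hm, hK, h4, -, -⟩
      · have h60 := H98.DicksonIdx.card_A5 e
        have hdG : 60 ∣ Nat.card (Matrix.ProjectiveSpecialLinearGroup (Fin 2) F) := by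
          rw [← h60]; exact Subgroup.card_subgroup_dvd_card M
        have h5G : 5 ∣ (q + 1) * (q * (q - 1)) := by
          rw [← hcardG]; exact Dvd.dvd.mul_left ((by norm_num : 5 ∣ 60).trans hdG) _
        rcases hq with ⟨r, hr, h⟩ | ⟨r, hr, hr2, h⟩ | ⟨hqp, h, hmod⟩ | h
        · exact h2 (hchar 2 r Nat.prime_two hr.one_lt.le h)
        · have h8 : ∀ s : ℕ, (3 ^ (2 * s + 1)) % 5 = 3 ∨ (3 ^ (2 * s + 1)) % 5 = 2 := by
            intro s
            induction s with
            | zero => norm_num
            | succ s ih =>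
              have : 3 ^ (2 * (s + 1) + 1) = 9 * 3 ^ (2 * s + 1) := by ring
              rw [this]; omega
          obtain ⟨s, hs'⟩ := hr.odd_of_ne_two hr2
          have h9 := h8 s
          rw [← hs', ← h] at h9
          rcases (Nat.Prime.dvd_mul Nat.prime_five).mp h5G with h6 | h6
          · omega
          · rcases (Nat.Prime.dvd_mul Nat.prime_five).mp h6 with h7 | h7 <;> omega
        · rcases (Nat.Prime.dvd_mul Nat.prime_five).mp h5G with h6 | h6
          · omega
          · rcases (Nat.Prime.dvd_mul Nat.prime_five).mp h6 with h7 | h7 <;> omega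
        · exact h5 (hchar 5 1 Nat.prime_five le_rfl (by rw [h]; norm_num))
      · have := hsubf K m hm hK; omega
      · have := hsubf K m hm hK; omega

end Cfsg.Agent.S0810
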