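import Cfsg.Statements.S0811
import Cfsg.Agent.Lib.H98.DicksonMax

set_option autoImplicit false
open Cfsg

namespace Cfsg.Agent.S0811

/-- For q ∉ {2, 7, 9}, PSL_2(q) has a maximal subgroup isomorphic to the dihedral group of order 2(q + 1)/d, d = gcd(2, q − 1). -/
theorem result {F : Type*} [Field F] [Fintype F] {q : ℕ} (hF : Fintype.card F = q) (hq : q ∉ ({2, 7, 9} : Finset ℕ)) : ∃ H : Subgroup (Matrix.ProjectiveSpecialLinearGroup (Fin 2) F), IsCoatom H ∧ Nonempty (H ≃* DihedralGroup ((q + 1) / Nat.gcd 2 (q - 1))) := by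
  classical
  haveI hfG : Finite (Matrix.ProjectiveSpecialLinearGroup (Fin 2) F) := inferInstanceAs (Finite (_ ⧸ _))
  have hF' : Nat.card F = q := by rw [Nat.card_eq_fintype_card, hF]
  have h1F : 1 < Nat.card F := Finite.one_lt_card
  obtain ⟨H, hHe⟩ := H98.DicksonDih.exists_dih_plus (F := F)
  rw [hF'] at hHe
  refine ⟨H, ?_, hHe⟩
  simp only [Finset.mem_insert, Finset.mem_singleton, not_or] at hq
  obtain ⟨hq2, hq7, hq9⟩ := hq
  obtain ⟨p, hpc⟩ := CharP.exists F
  haveI hpp : Fact p.Prime := ⟨CharP.char_is_prime F p⟩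
  have hcardG := H98.DicksonIdx.card_G (F := F)
  rw [hF'] at hcardG h1F
  -- arithmetic data
  have hdata : ∃ n B : ℕ, (q + 1) / Nat.gcd 2 (q - 1) = n ∧ (q - 1) / Nat.gcd 2 (q - 1) = B ∧ 1 ≤ B ∧ 2 ≤ n ∧ B < n ∧
      ((p ≠ 2 ∧ q + 1 = 2 * n ∧ q - 1 = 2 * B) ∨ (p = 2 ∧ q + 1 = n ∧ q - 1 = B ∧ 3 ≤ B)) := by
    by_cases hp2 : p = 2
    · subst hp2
      have he := H98.DicksonIdx.even_of_two (F := F)
      rw [hF'] at he
      rw [H98.DicksonIdx.gcd_even he (by omega)]
      obtain ⟨r, hr⟩ := he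
      exact ⟨q + 1, q - 1, Nat.div_one _, Nat.div_one _, by omega, by omega, by omega, Or.inr ⟨rfl, rfl, rfl, by omega⟩⟩
    · have ho := H98.DicksonIdx.odd_of_ne_two (F := F) p hp2
      rw [hF'] at ho
      rw [H98.DicksonIdx.gcd_odd ho]
      obtain ⟨r, hr⟩ := ho
      exact ⟨r + 1, r, by omega, by omega, by omega, by omega, by omega, Or.inl ⟨hp2, by omega, by omega⟩⟩
  obtain ⟨n, B, hn, hB, hB1, hn2, hBn, hcase⟩ := hdata
  rw [hn] at hHe
  rw [hB] at hcardG
  obtain ⟨hcH, c, t, hc, ht, hoc, htc⟩ := H98.DicksonMax.dihedral_data (by omega) hHe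
  have hHt : H ≠ ⊤ := by
    rintro rfl
    rw [Subgroup.card_top, hcardG] at hcH
    have h1 : (q + 1) * (q * 1) ≤ (q + 1) * (q * B) := Nat.mul_le_mul_left _ (Nat.mul_le_mul_left _ hB1)
    have h2 : n ≤ q + 1 := by rcases hcase with ⟨-, h, -⟩ | ⟨-, h, -⟩ <;> omega
    have h3 : (q + 1) * 3 ≤ (q + 1) * (q * 1) := Nat.mul_le_mul_left _ (by omega)
    omega
  -- q + 1 does not divide q0 (q0^2-1)
  have hq0 : ∀ (q0 m : ℕ), 2 ≤ q0 → 2 ≤ m → q0 ^ m = q → ¬ (q + 1) ∣ (q0 + 1) * (q0 * (q0 - 1)) := by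
    intro q0 m hq0 hm hpow hdvd
    have hcop : Nat.Coprime (q + 1) q0 := by
      have h1 : Nat.Coprime (q + 1) q := by simp
      exact Nat.Coprime.coprime_dvd_right (by rw [← hpow]; exact dvd_pow_self _ (by omega)) h1
    have e1 : (q0 + 1) * (q0 * (q0 - 1)) = q0 * ((q0 + 1) * (q0 - 1)) := by ring
    rw [e1] at hdvd
    have h2 := hcop.dvd_of_dvd_mul_left hdvd
    have h3 := Nat.le_of_dvd (Nat.mul_pos (by omega) (by omega)) h2
    have h4 : q0 ^ 2 ≤ q := by rw [← hpow]; exact Nat.pow_le_pow_right (by omega) hm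
    obtain ⟨s, rfl⟩ : ∃ s, q0 = s + 2 := ⟨q0 - 2, by omega⟩
    rw [show s + 2 - 1 = s + 1 by omega] at h3
    nlinarith
  apply H98.DicksonMax.coatom_of H hHt
  intro M hHM hM
  have hdvdM : Nat.card H ∣ Nat.card M := Subgroup.card_dvd_of_le hHM
  have hposM : 0 < Nat.card M := Nat.card_pos
  have hleM := Nat.le_of_dvd hposM hdvdM
  have hcM : c ∈ M := hHM hc
  have hlist := H98.DicksonPSL.psl_list p M hM
  rw [hF', hB, hn] at hlist
  rcases hlist with ⟨-, h⟩ | ⟨k, hk2, hk, e⟩ | ⟨h, -⟩ | ⟨h2, h3, e⟩ | ⟨h2, h3, e⟩ | ⟨h2, h5, e⟩ | ⟨K, m, hm, hK, e⟩ | ⟨K, m, hm, hK, ho, e⟩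
  · exfalso
    rcases h with h | h
    · have := Nat.le_of_dvd (by omega) h; omega
    · have := Nat.le_of_dvd (by omega) h; omega
  · rw [H98.DicksonIdx.card_dihedral_le hk2 e] at hleM ⊢
    rcases hk with h | h
    · have := Nat.le_of_dvd (by omega) h; omega
    · have := Nat.le_of_dvd (by omega) h; omega
  · exfalso
    rw [hcH] at hdvdM
    have h1 : n ∣ q * B := (Dvd.intro_left 2 rfl).trans (hdvdM.trans h)
    have h2 : Nat.Coprime n q := by
      rcases hcase with ⟨-, h2, -⟩ | ⟨-, h2, -⟩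
      · have : Nat.Coprime (q + 1) q := by simp
        exact Nat.Coprime.coprime_dvd_left (by rw [h2]; exact Dvd.intro_left 2 rfl) this
      · rw [← h2]; simp
    have h3 := h2.dvd_of_dvd_mul_left h1
    have := Nat.le_of_dvd (by omega) h3
    omega
  · exfalso
    rcases hcase with ⟨-, hc1, hc2⟩ | ⟨h4, -⟩
    · have h4 := H98.DicksonMax.order_A4 e hcM
      rw [hoc] at h4
      have hn3 : n = 2 ∨ n = 3 := by
        rcases h4 with h4 | h4
        · have := Nat.le_of_dvd (by norm_num) h4; omega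
        · have := Nat.le_of_dvd (by norm_num) h4; omega
      rcases hn3 with hn3 | hn3
      · -- q = 3
        have hq3 : q = 3 := by omega
        obtain ⟨j, -, hj⟩ := H98.DicksonIdx.char_dvd (F := F) p
        rw [hF', hq3] at hj
        have : p ∣ 3 := by
          rw [hj]; exact dvd_pow_self p (by rintro rfl; simp at hj)
        exact h3 ((Nat.prime_dvd_prime_iff_eq hpp.out Nat.prime_three).mp this)
      · exact H98.DicksonMax.A4_no_six e hHM (by rw [hcH, hn3])
    · exact h2 h4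
  · exfalso
    rcases hcase with ⟨-, hc1, hc2⟩ | ⟨h4, -⟩
    · have h4 := H98.DicksonMax.order_S4 e hcM
      rw [hoc] at h4
      have hn3 : n = 2 ∨ n = 3 ∨ n = 4 := by
        rcases h4 with h4 | h4 | h4
        · have := Nat.le_of_dvd (by norm_num) h4; omega
        · have := Nat.le_of_dvd (by norm_num) h4; omega
        · have := Nat.le_of_dvd (by norm_num) h4; omega
      have h24 := H98.DicksonIdx.card_S4 e
      have hdG := Subgroup.card_subgroup_dvd_card M
      rw [h24, hcardG] at hdG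
      rcases hn3 with hn3 | hn3 | hn3
      · have hq3 : q = 3 := by omega
        have hB' : B = 1 := by omega
        rw [hq3, hB'] at hdG
        have := Nat.le_of_dvd (by norm_num) hdG
        omega
      · have hq3 : q = 5 := by omega
        have hB' : B = 2 := by omega
        rw [hq3, hB'] at hdG
        norm_num at hdG
      · omega
    · exact h2 h4
  · exfalso
    rcases hcase with ⟨-, hc1, hc2⟩ | ⟨h4, -⟩
    · have h4 := H98.DicksonMax.order_A5 e hcM
      rw [hoc] at h4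
      have hn3 : n = 2 ∨ n = 3 ∨ n = 5 := by
        rcases h4 with h4 | h4 | h4
        · rcases (Nat.dvd_prime Nat.prime_two).mp h4 with h6 | h6 <;> omega
        · rcases (Nat.dvd_prime Nat.prime_three).mp h4 with h6 | h6 <;> omega
        · rcases (Nat.dvd_prime Nat.prime_five).mp h4 with h6 | h6 <;> omega
      have h60 := H98.DicksonIdx.card_A5 e
      have hdG := Subgroup.card_subgroup_dvd_card M
      rw [h60, hcardG] at hdG
      rcases hn3 with hn3 | hn3 | hn3
      · have hq3 : q = 3 := by omega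
        have hB' : B = 1 := by omega
        rw [hq3, hB'] at hdG
        have := Nat.le_of_dvd (by norm_num) hdG
        omega
      · have hq3 : q = 5 := by omega
        obtain ⟨j, -, hj⟩ := H98.DicksonIdx.char_dvd (F := F) p
        rw [hF', hq3] at hj
        have : p ∣ 5 := by
          rw [hj]; exact dvd_pow_self p (by rintro rfl; simp at hj)
        exact h5 ((Nat.prime_dvd_prime_iff_eq hpp.out Nat.prime_five).mp this)
      · omega
    · exact h2 h4
  · exfalso
    have hK1 : 1 < Nat.card K := Finite.one_lt_card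
    have h1 := H98.DicksonIdx.card_pgl' K e
    apply hq0 (Nat.card K) m (by omega) hm hK
    rw [← h1]
    refine dvd_trans ?_ hdvdM
    rw [hcH]
    rcases hcase with ⟨-, h2, -⟩ | ⟨-, h2, -⟩
    · rw [h2]
    · rw [h2]; exact Dvd.intro_left 2 rfl
  · exfalso
    have hK1 : 1 < Nat.card K := Finite.one_lt_card
    have h1 := H98.DicksonIdx.card_psl' K ho e
    apply hq0 (Nat.card K) m (by omega) hm hK
    rw [← h1]
    refine dvd_trans ?_ (hdvdM.trans (Dvd.intro_left 2 rfl))
    rw [hcH]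
    rcases hcase with ⟨-, h2, -⟩ | ⟨-, h2, -⟩
    · rw [h2]
    · rw [h2]; exact Dvd.intro_left 2 rfl

end Cfsg.Agent.S0811
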