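import Cfsg.Statements.S0812
import Cfsg.Agent.Lib.H98.DicksonMax

set_option autoImplicit false
open Cfsg
open scoped commutatorElement

namespace Cfsg.Agent.S0812

/-- For q ∉ {2, 3, 5, 7, 9, 11}, PSL_2(q) has a maximal subgroup isomorphic to the dihedral group of order 2(q − 1)/d, d = gcd(2, q − 1). -/
theorem result {F : Type*} [Field F] [Fintype F] {q : ℕ} (hF : Fintype.card F = q) (hq : q ∉ ({2, 3, 5, 7, 9, 11} : Finset ℕ)) : ∃ H : Subgroup (Matrix.ProjectiveSpecialLinearGroup (Fin 2) F), IsCoatom H ∧ Nonempty (H ≃* DihedralGroup ((q - 1) / Nat.gcd 2 (q - 1))) := by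
  classical
  haveI hfG : Finite (Matrix.ProjectiveSpecialLinearGroup (Fin 2) F) := inferInstanceAs (Finite (_ ⧸ _))
  have hF' : Nat.card F = q := by rw [Nat.card_eq_fintype_card, hF]
  have h1F : 1 < Nat.card F := Finite.one_lt_card
  simp only [Finset.mem_insert, Finset.mem_singleton, not_or] at hq
  obtain ⟨hq2, hq3, hq5, hq7, hq9, hq11⟩ := hq
  obtain ⟨H, hHe⟩ := H98.DicksonDih.exists_dih_minus (F := F) (by omega)
  rw [hF'] at hHe
  refine ⟨H, ?_, hHe⟩
  obtain ⟨p, hpc⟩ := CharP.exists F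
  haveI hpp : Fact p.Prime := ⟨CharP.char_is_prime F p⟩
  have hcardG := H98.DicksonIdx.card_G (F := F)
  rw [hF'] at hcardG h1F
  -- arithmetic data
  have hdata : ∃ n A : ℕ, (q - 1) / Nat.gcd 2 (q - 1) = n ∧ (q + 1) / Nat.gcd 2 (q - 1) = A ∧ 3 ≤ n ∧
      ((p ≠ 2 ∧ q = 2 * n + 1 ∧ A = n + 1 ∧ 6 ≤ n) ∨ (p = 2 ∧ q = n + 1 ∧ A = n + 2)) := by
    by_cases hp2 : p = 2
    · subst hp2
      have he := H98.DicksonIdx.even_of_two (F := F)
      rw [hF'] at he
      rw [H98.DicksonIdx.gcd_even he (by omega)]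
      obtain ⟨r, hr⟩ := he
      exact ⟨q - 1, q + 1, Nat.div_one _, Nat.div_one _, by omega, Or.inr ⟨rfl, by omega, by omega⟩⟩
    · have ho := H98.DicksonIdx.odd_of_ne_two (F := F) p hp2
      rw [hF'] at ho
      rw [H98.DicksonIdx.gcd_odd ho]
      obtain ⟨r, hr⟩ := ho
      exact ⟨r, r + 1, by omega, by omega, by omega, Or.inl ⟨hp2, by omega, by omega, by omega⟩⟩
  obtain ⟨n, A, hn, hA, hn3, hcase⟩ := hdata
  rw [hn] at hHe
  rw [hn] at hcardG
  obtain ⟨hcH, c, t, hc, ht, hoc, htc⟩ := H98.DicksonMax.dihedral_data (by omega) hHe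
  have hHt : H ≠ ⊤ := by
    rintro rfl
    rw [Subgroup.card_top, hcardG] at hcH
    have h1 : 3 * (1 * n) ≤ (q + 1) * (q * n) := Nat.mul_le_mul (by omega) (Nat.mul_le_mul_right _ (by omega))
    omega
  -- coprimality of p with n
  obtain ⟨j, hj1, hj⟩ := H98.DicksonIdx.char_dvd (F := F) p
  rw [hF'] at hj
  have hpq : p ∣ q := by rw [hj]; exact dvd_pow_self p (by omega)
  have hnq : n ∣ q - 1 := by
    rcases hcase with ⟨-, h1, -⟩ | ⟨-, h1, -⟩
    · exact ⟨2, by omega⟩
    · exact ⟨1, by omega⟩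
  have hcopq : Nat.Coprime (q - 1) q := by
    have : Nat.Coprime (q - 1) (q - 1 + 1) := by simp
    rwa [Nat.sub_add_cancel (by omega)] at this
  have hpn : Nat.Coprime n p := Nat.Coprime.coprime_dvd_right hpq (Nat.Coprime.coprime_dvd_left hnq hcopq)
  have hpn' : ¬ p ∣ n := by
    intro h
    have h1 := Nat.dvd_gcd h (dvd_refl p)
    rw [hpn] at h1
    exact hpp.out.one_lt.ne' (Nat.dvd_one.mp h1)
  -- noncommutativity
  have htc' : t * c ≠ c * t := by
    intro h
    have h1 : c = c⁻¹ := by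
      rw [← htc, h, mul_inv_cancel_right]
    have h2 : orderOf c ∣ 2 := orderOf_dvd_of_pow_eq_one (by
      rw [pow_two]; nth_rewrite 1 [h1]; exact inv_mul_cancel c)
    rw [hoc] at h2
    have := Nat.le_of_dvd (by norm_num) h2
    omega
  -- q - 1 divides q0 (q0^2-1) only if q = q0^2
  have hq0 : ∀ (q0 m : ℕ), 2 ≤ q0 → 2 ≤ m → q0 ^ m = q → (q - 1) ∣ (q0 + 1) * (q0 * (q0 - 1)) → q = q0 ^ 2 := by
    intro q0 m hq0 hm hpow hdvd
    have hcop : Nat.Coprime (q - 1) q0 :=
      Nat.Coprime.coprime_dvd_right (by rw [← hpow]; exact dvd_pow_self _ (by omega)) hcopq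
    have e1 : (q0 + 1) * (q0 * (q0 - 1)) = q0 * ((q0 + 1) * (q0 - 1)) := by ring
    rw [e1] at hdvd
    have h2 := hcop.dvd_of_dvd_mul_left hdvd
    have h3 := Nat.le_of_dvd (Nat.mul_pos (by omega) (by omega)) h2
    have h4 : q0 ^ 2 ≤ q := by rw [← hpow]; exact Nat.pow_le_pow_right (by omega) hm
    have h5 : (q0 + 1) * (q0 - 1) + 1 = q0 ^ 2 := by
      obtain ⟨s, rfl⟩ : ∃ s, q0 = s + 2 := ⟨q0 - 2, by omega⟩
      rw [show s + 2 - 1 = s + 1 by omega]; ring
    omega
  apply H98.DicksonMax.coatom_of H hHt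
  intro M hHM hM
  have hdvdM : Nat.card H ∣ Nat.card M := Subgroup.card_dvd_of_le hHM
  have hposM : 0 < Nat.card M := Nat.card_pos
  have hleM := Nat.le_of_dvd hposM hdvdM
  have hcM : c ∈ M := hHM hc
  have htM : t ∈ M := hHM ht
  have hocM : orderOf (⟨c, hcM⟩ : M) = n := by rw [Subgroup.orderOf_mk]; exact hoc
  have hlist := H98.DicksonPSL.psl_list p M hM
  rw [hF', hA, hn] at hlist
  rcases hlist with ⟨hcyc, h⟩ | ⟨k, hk2, hk, e⟩ | ⟨-, h, -⟩ | ⟨h2, h3, e⟩ | ⟨h2, h3, e⟩ | ⟨h2, h5, e⟩ | ⟨K, m, hm, hK, e⟩ | ⟨K, m, hm, hK, ho, e⟩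
  · exfalso
    apply htc'
    letI := hcyc.commGroup
    have := mul_comm (⟨t, htM⟩ : M) ⟨c, hcM⟩
    exact congrArg Subtype.val this
  · rw [hcH, H98.DicksonIdx.card_dihedral_le hk2 e] at hdvdM
    rw [hcH, H98.DicksonIdx.card_dihedral_le hk2 e]
    have hnk : n ∣ k := Nat.dvd_of_mul_dvd_mul_left (by norm_num) hdvdM
    rcases hk with h | h
    · have := Nat.le_of_dvd (by omega) h; omega
    · exfalso
      have h1 : n ∣ A := hnk.trans h
      rcases hcase with ⟨-, -, h2, h3⟩ | ⟨-, -, h2⟩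
      · rw [h2] at h1
        have := Nat.le_of_dvd (by norm_num) ((Nat.dvd_add_right (dvd_refl n)).mp h1)
        omega
      · rw [h2] at h1
        have := Nat.le_of_dvd (by norm_num) ((Nat.dvd_add_right (dvd_refl n)).mp h1)
        omega
  · exfalso
    -- [t, c] = c⁻²
    have h1 : ⁅(⟨t, htM⟩ : M), (⟨c, hcM⟩ : M)⁆ ∈ commutator M :=
      Subgroup.commutator_mem_commutator (Subgroup.mem_top _) (Subgroup.mem_top _)
    have h2 := h _ h1
    have h3 : ⁅(⟨t, htM⟩ : M), (⟨c, hcM⟩ : M)⁆ = (⟨c, hcM⟩ : M)⁻¹ * (⟨c, hcM⟩ : M)⁻¹ := by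
      rw [commutatorElement_def]
      have : (⟨t, htM⟩ : M) * ⟨c, hcM⟩ * (⟨t, htM⟩ : M)⁻¹ = (⟨c, hcM⟩ : M)⁻¹ := Subtype.ext htc
      rw [this]
    rw [h3, ← pow_two, ← pow_mul, inv_pow, inv_eq_one] at h2
    have h4 := orderOf_dvd_of_pow_eq_one h2
    rw [hocM] at h4
    have h5 := hpn.dvd_of_dvd_mul_right h4
    have := Nat.le_of_dvd (by norm_num) h5
    omega
  · exfalso
    rcases hcase with ⟨-, -, -, h6⟩ | ⟨h4, -⟩
    · have h4 := H98.DicksonMax.order_A4 e hcM
      rw [hoc] at h4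
      rcases h4 with h4 | h4
      · have := Nat.le_of_dvd (by norm_num) h4; omega
      · have := Nat.le_of_dvd (by norm_num) h4; omega
    · exact h2 h4
  · exfalso
    rcases hcase with ⟨-, -, -, h6⟩ | ⟨h4, -⟩
    · have h4 := H98.DicksonMax.order_S4 e hcM
      rw [hoc] at h4
      rcases h4 with h4 | h4 | h4
      · have := Nat.le_of_dvd (by norm_num) h4; omega
      · have := Nat.le_of_dvd (by norm_num) h4; omega
      · have := Nat.le_of_dvd (by norm_num) h4; omega
    · exact h2 h4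
  · exfalso
    rcases hcase with ⟨-, -, -, h6⟩ | ⟨h4, -⟩
    · have h4 := H98.DicksonMax.order_A5 e hcM
      rw [hoc] at h4
      rcases h4 with h4 | h4 | h4
      · have := Nat.le_of_dvd (by norm_num) h4; omega
      · have := Nat.le_of_dvd (by norm_num) h4; omega
      · have := Nat.le_of_dvd (by norm_num) h4; omega
    · exact h2 h4
  · have hK1 : 1 < Nat.card K := Finite.one_lt_card
    have h1 := H98.DicksonIdx.card_pgl' K e
    have hqq : q = Nat.card K ^ 2 := by
      apply hq0 (Nat.card K) m (by omega) hm hK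
      rw [← h1]
      refine dvd_trans ?_ hdvdM
      rw [hcH]
      rcases hcase with ⟨-, h2, -⟩ | ⟨-, h2, -⟩
      · exact ⟨1, by omega⟩
      · exact ⟨2, by omega⟩
    haveI : CharP K p := inferInstance
    obtain ⟨e'⟩ := e
    have ho := H98.DicksonMax.order_pgl p (e' ⟨c, hcM⟩) (by rw [e'.orderOf_eq, hocM]; exact hpn')
    rw [e'.orderOf_eq, hocM] at ho
    have hle : n ≤ Nat.card K + 1 := by
      rcases ho with ho | ho
      · have := Nat.le_of_dvd (by omega) ho; omega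
      · exact Nat.le_of_dvd (by omega) ho
    rcases hcase with ⟨-, h2, -, h6⟩ | ⟨hp2, h2, -⟩
    · exfalso
      have h7 : Nat.card K ≤ 3 := by nlinarith
      interval_cases (Nat.card K) <;> omega
    · have h7 : Nat.card K ≤ 2 := by nlinarith
      have h8 : Nat.card K = 2 := by omega
      rw [h1, h8, hcH]
      rw [h8] at hqq
      omega
  · exfalso
    have hK1 : 1 < Nat.card K := Finite.one_lt_card
    have h1 := H98.DicksonIdx.card_psl' K ho e
    have hqq : q = Nat.card K ^ 2 := by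
      apply hq0 (Nat.card K) m (by omega) hm hK
      rw [← h1]
      refine dvd_trans ?_ (hdvdM.trans (Dvd.intro_left 2 rfl))
      rw [hcH]
      rcases hcase with ⟨-, h2, -⟩ | ⟨-, h2, -⟩
      · exact ⟨1, by omega⟩
      · exact ⟨2, by omega⟩
    haveI : CharP K p := inferInstance
    obtain ⟨e'⟩ := e
    have hinj := Matrix.ProjectiveSpecialLinearGroup.toPGL_injective (n := Fin 2) (R := K)
    have hor : orderOf (Matrix.ProjectiveSpecialLinearGroup.toPGL (e' ⟨c, hcM⟩)) = n := by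
      rw [orderOf_injective _ hinj, e'.orderOf_eq, hocM]
    have ho := H98.DicksonMax.order_pgl p (Matrix.ProjectiveSpecialLinearGroup.toPGL (e' ⟨c, hcM⟩)) (by rw [hor]; exact hpn')
    rw [hor] at ho
    have hle : n ≤ Nat.card K + 1 := by
      rcases ho with ho | ho
      · have := Nat.le_of_dvd (by omega) ho; omega
      · exact Nat.le_of_dvd (by omega) ho
    rcases hcase with ⟨-, h2, -, h6⟩ | ⟨hp2, h2, -⟩
    · have h7 : Nat.card K ≤ 3 := by nlinarith
      interval_cases (Nat.card K) <;> omega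
    · subst hp2
      have he := H98.DicksonIdx.even_of_two (F := F)
      rw [hF', hqq] at he
      have : Even (Nat.card K) := by
        rcases Nat.even_or_odd (Nat.card K) with h | h
        · exact h
        · exact absurd he (Nat.not_even_iff_odd.mpr h.pow)
      exact absurd this (Nat.not_even_iff_odd.mpr ‹Odd (Nat.card K)›)

end Cfsg.Agent.S0812
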