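import Cfsg.Statements.S0813
import Cfsg.Agent.Lib.H50.PSLUniq
import Cfsg.Agent.Lib.H50.AutPSL2
import Cfsg.Agent.Lib.H50.FieldAut

set_option autoImplicit false
open Cfsg

namespace Cfsg.Agent.S0813

/-- |Aut(PSL_n(q))|, q = p^f: for n ≥ 3 it is 2 f |PGL_n(q)|, and for n = 2 (q ≥ 4) it is f |PGL_2(q)|. -/
theorem result {F : Type*} [Field F] [Fintype F] (p f : ℕ) [Fact p.Prime] (hf : 1 ≤ f) (hF : Fintype.card F = p ^ f) (n : ℕ) (hn : 2 ≤ n) (h2 : n = 2 → 4 ≤ p ^ f) : Nat.card (MulAut (Matrix.ProjectiveSpecialLinearGroup (Fin n) F)) = (if n = 2 then 1 else 2) * f * Nat.card (Matrix.ProjGenLinGroup (Fin n) F) := by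
  classical
  have : CharP F p := H50.FieldAut.charP_of_card p (f := f) (by rw [Nat.card_eq_fintype_card, hF])
  have hnt : Nontrivial (Fin n) := Fin.nontrivial_iff_two_le.mpr hn
  have hcardσ : Nat.card (F ≃+* F) = f :=
    H50.FieldAut.card_ringAut p (by rw [Nat.card_eq_fintype_card, hF])
  -- representatives
  let r : Matrix.ProjGenLinGroup (Fin n) F → Matrix.GeneralLinearGroup (Fin n) F :=
    Function.surjInv Matrix.ProjGenLinGroup.mk_surjective
  have hr : ∀ x, Matrix.ProjGenLinGroup.mk (r x) = x :=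
    Function.surjInv_eq Matrix.ProjGenLinGroup.mk_surjective
  have hrep : ∀ g : Matrix.GeneralLinearGroup (Fin n) F, ∀ σ : F ≃+* F,
      H50.PSLBasic.psi (r (Matrix.ProjGenLinGroup.mk g)) σ = H50.PSLBasic.psi g σ := by
    intro g σ
    obtain ⟨u, hu⟩ := Matrix.ProjGenLinGroup.mk_eq_mk_iff.mp (hr (Matrix.ProjGenLinGroup.mk g)).symm
    have h : ((r (Matrix.ProjGenLinGroup.mk g) : Matrix.GeneralLinearGroup (Fin n) F) :
        Matrix (Fin n) (Fin n) F) = (u : F) • (g : Matrix (Fin n) (Fin n) F) := by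
      rw [← hu]
      simp [Matrix.smul_eq_mul_diagonal, Matrix.scalar_apply]
    exact H50.PSLUniq.psi_eq_of_smul h
  have hinj : ∀ (g h : Matrix.GeneralLinearGroup (Fin n) F) (c : F),
      (g : Matrix (Fin n) (Fin n) F) = c • (h : Matrix (Fin n) (Fin n) F) →
      Matrix.ProjGenLinGroup.mk g = Matrix.ProjGenLinGroup.mk h := by
    intro g h c hc
    have hc0 : c ≠ 0 := by
      rintro rfl
      rw [zero_smul] at hc
      obtain ⟨i⟩ := (inferInstance : Nonempty (Fin n))
      exact g.ne_zero hc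
    symm
    rw [Matrix.ProjGenLinGroup.mk_eq_mk_iff]
    refine ⟨Units.mk0 c hc0, ?_⟩
    apply Units.ext
    rw [hc]
    simp [Matrix.smul_eq_mul_diagonal, Matrix.scalar_apply]
  by_cases hn2 : n = 2
  · rw [if_pos hn2, one_mul, mul_comm]
    rw [← hcardσ, ← Nat.card_prod]
    symm
    apply Nat.card_eq_of_bijective (fun x : Matrix.ProjGenLinGroup (Fin n) F × (F ≃+* F) =>
      H50.PSLBasic.psi (r x.1) x.2)
    constructor
    · rintro ⟨x, σ⟩ ⟨y, τ⟩ hxy
      obtain ⟨h1, c, hc⟩ := H50.PSLUniq.psi_eq_psi_iff.mp hxy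
      have h3 := hinj _ _ c hc
      rw [hr, hr] at h3
      exact Prod.ext h3 h1
    · intro α
      obtain ⟨g, σ, h | ⟨h, -⟩⟩ := H50.AutPSL2.aut_psl (p := p) hn α
      · exact ⟨(Matrix.ProjGenLinGroup.mk g, σ), by rw [h]; exact hrep g σ⟩
      · omega
  · rw [if_neg hn2]
    have hn3 : 3 ≤ n := by omega
    have e1 : 2 * f * Nat.card (Matrix.ProjGenLinGroup (Fin n) F) =
        Nat.card (Bool × (Matrix.ProjGenLinGroup (Fin n) F × (F ≃+* F))) := by
      rw [Nat.card_prod, Nat.card_prod, hcardσ]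
      simp
      ring
    rw [e1]
    symm
    apply Nat.card_eq_of_bijective
      (fun x : Bool × (Matrix.ProjGenLinGroup (Fin n) F × (F ≃+* F)) =>
        if x.1 then H50.PSLBasic.psi (r x.2.1) x.2.2 * H50.PSLBasic.iota
        else H50.PSLBasic.psi (r x.2.1) x.2.2)
    constructor
    · rintro ⟨b, x, σ⟩ ⟨b', y, τ⟩ hxy
      have key : H50.PSLBasic.psi (r x) σ = H50.PSLBasic.psi (r y) τ → x = y ∧ σ = τ := by
        intro hxy
        obtain ⟨h1, c, hc⟩ := H50.PSLUniq.psi_eq_psi_iff.mp hxy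
        have h3 := hinj _ _ c hc
        rw [hr, hr] at h3
        exact ⟨h3, h1⟩
      cases b <;> cases b'
      · simp only [Bool.false_eq_true, if_false] at hxy
        obtain ⟨h1, h3⟩ := key hxy
        rw [h1, h3]
      · simp only [Bool.false_eq_true, if_false, if_true] at hxy
        exact absurd hxy (H50.PSLUniq.psi_ne_psi_iota (by simpa using hn3) _ _ _ _)
      · simp only [Bool.false_eq_true, if_false, if_true] at hxy
        exact absurd hxy.symm (H50.PSLUniq.psi_ne_psi_iota (by simpa using hn3) _ _ _ _)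
      · simp only [if_true] at hxy
        obtain ⟨h1, h3⟩ := key (mul_right_cancel hxy)
        rw [h1, h3]
    · intro α
      obtain ⟨g, σ, h | ⟨-, h⟩⟩ := H50.AutPSL2.aut_psl (p := p) hn α
      · exact ⟨(false, Matrix.ProjGenLinGroup.mk g, σ), by
          simp only [Bool.false_eq_true, if_false]; rw [h]; exact hrep g σ⟩
      · exact ⟨(true, Matrix.ProjGenLinGroup.mk g, σ), by
          simp only [if_true]; rw [h, hrep g σ]⟩

end Cfsg.Agent.S0813
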