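import Cfsg.Statements.S0816
import Cfsg.Agent.Lib.H48.OutO9
import Cfsg.Agent.S2694

set_option autoImplicit false
open Cfsg

namespace Cfsg.Agent.S0816


theorem result {F : Type*} [Field F] [Fintype F] (p f : ℕ) [Fact p.Prime] (hf : 1 ≤ f) (hF : Fintype.card F = p ^ f) (hodd : Odd p) (m : ℕ) (hm : 3 ≤ m) : Nat.card (MulAut (Cfsg.POmega F (Cfsg.quadFormOdd m F))) = 2 * f * Nat.card (Cfsg.POmega F (Cfsg.quadFormOdd m F)) := by

  exact H48.OutO.fin_S0816 hf hF hodd hm (Cfsg.Agent.S2694.result (by rw [hF]; exact hodd.pow) hm)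


end Cfsg.Agent.S0816
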