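import Cfsg.Statements.S0817
import Cfsg.Agent.Lib.H48.OutO9
import Cfsg.Agent.Lib.H48.Oct5
import Cfsg.Agent.S2695

set_option autoImplicit false
open Cfsg

namespace Cfsg.Agent.S0817


theorem card_perm_prod (n f : ℕ) [NeZero f] :
    Nat.card (Equiv.Perm (Fin n) × Multiplicative (ZMod f)) = n.factorial * f := by
  rw [Nat.card_prod, Nat.card_perm, Nat.card_eq_fintype_card, Fintype.card_fin]
  congr 1
  exact Nat.card_zmod f


theorem result {F : Type*} [Field F] [Fintype F] (p f : ℕ) [Fact p.Prime] (hf : 1 ≤ f) (hF : Fintype.card F = p ^ f) (m : ℕ) (hm : 4 ≤ m) : Nat.card (MulAut (Cfsg.POmega F (Cfsg.quadFormPlus m F))) = (if m = 4 then 3 else 1) * (if p = 2 then 2 else (if Even (m * (p ^ f - 1) / 2) then 8 else 4)) * f * Nat.card (Cfsg.POmega F (Cfsg.quadFormPlus m F)) := by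
  haveI : NeZero f := ⟨by omega⟩
  by_cases h : m = 4
  · rw [if_pos h]
    subst h
    have hF' : Nat.card F = p ^ f := by rw [Nat.card_eq_fintype_card, hF]
    have hc : Subgroup.center (Cfsg.POmega F (Cfsg.quadFormPlus 4 F)) = ⊥ := by
      rw [← H48.QuadStd.coe_qPlus]
      exact H48.OutO.center_POmega (H48.OutO.nd_plus 4) (by rw [H48.OutO.card_plus]; omega)
    rw [H48.OutO.card_aut hc]
    congr 1
    by_cases hp : p = 2
    · haveI : CharP F 2 := by
        subst hp
        exact H50.FieldAut.charP_of_card 2 hF'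
      have h1 := H48.Oct.iso_two hF' (by omega)
      rw [H48.QuadStd.coe_qPlus] at h1
      obtain ⟨e⟩ := h1
      rw [Nat.card_congr e.toEquiv, card_perm_prod, if_pos hp]
      rfl
    · have h1 := H48.Oct.iso_odd hF' (by omega) (H48.OutO.two_ne_of_card hF' hp)
      rw [H48.QuadStd.coe_qPlus] at h1
      obtain ⟨e⟩ := h1
      have hev : Even (4 * (p ^ f - 1) / 2) := by
        rw [show 4 * (p ^ f - 1) / 2 = 2 * (p ^ f - 1) by omega]
        exact even_two_mul _
      rw [Nat.card_congr e.toEquiv, card_perm_prod, if_neg hp, if_pos hev]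
      rfl
  · rw [if_neg h, H48.OutO.fin_plus_card hf hF hm (Cfsg.Agent.S2695.result (by omega))]
    ring


end Cfsg.Agent.S0817
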