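import Cfsg.Statements.S0819
import Cfsg.Agent.Lib.H17.PSL34

set_option autoImplicit false
open Cfsg

namespace Cfsg.Agent.S0819

/-- No element of PSL_3(4) has order 15. -/
theorem result {F : Type*} [Field F] [Fintype F] (hF : Fintype.card F = 4) (g : Matrix.ProjectiveSpecialLinearGroup (Fin 3) F) : orderOf g ≠ 15 := by
  intro h15
  obtain ⟨X, rfl⟩ := QuotientGroup.mk_surjective g
  obtain ⟨k, hk, r, hr⟩ := H17.PSL34.exists_pow_scalar hF X.2
  have hpow : (QuotientGroup.mk X : Matrix.ProjectiveSpecialLinearGroup (Fin 3) F) ^ k = 1 := by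
    have h1 : (QuotientGroup.mk X : Matrix.ProjectiveSpecialLinearGroup (Fin 3) F) ^ k =
        QuotientGroup.mk (X ^ k) := rfl
    have h2 : (X ^ k).1 = X.1 ^ k := Matrix.SpecialLinearGroup.coe_pow X k
    have hdet := (X ^ k).2
    rw [h2, hr, Matrix.det_smul, Matrix.det_one, mul_one] at hdet
    rw [h1, QuotientGroup.eq_one_iff, Matrix.SpecialLinearGroup.mem_center_iff]
    refine ⟨r, hdet, ?_⟩
    have h3 : (X ^ k).1 = Matrix.scalar (Fin 3) r := by
      rw [h2, hr, Matrix.scalar_apply, Matrix.smul_one_eq_diagonal]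
    exact h3.symm
  have hdvd := orderOf_dvd_of_pow_eq_one hpow
  rw [h15] at hdvd
  rcases hk with rfl | rfl | rfl | rfl <;> omega

end Cfsg.Agent.S0819
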