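import Cfsg.Statements.S2579
import Cfsg.Agent.Lib.H48.SLConj
import Cfsg.Agent.Lib.H48.QuadWitt

set_option autoImplicit false
open Cfsg

namespace Cfsg.Agent.S2579

theorem aux_dual {F : Type*} [Field F] {n : ℕ} (hn : 3 ≤ n) (u f : Fin n → F) (hf : f ⬝ᵥ u = 0) (d : F) :
    ∃ w g : Fin n → F, f ⬝ᵥ w = 0 ∧ g ⬝ᵥ u = 0 ∧ g ⬝ᵥ w = d := by
  classical
  -- a vector w in ker f outside span u
  let φ : (Fin n → F) →ₗ[F] F :=
    { toFun := fun x => f ⬝ᵥ x
      map_add' := fun x y => dotProduct_add _ _ _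
      map_smul' := fun c x => by simp [dotProduct_smul] }
  have hφ : ∀ x, φ x = f ⬝ᵥ x := fun x => rfl
  have h1 := φ.finrank_range_add_finrank_ker
  rw [Module.finrank_fin_fun] at h1
  have h2 : Module.finrank F (LinearMap.range φ) ≤ 1 := by
    calc _ ≤ Module.finrank F F := Submodule.finrank_le _
      _ = 1 := Module.finrank_self F
  have hlt : Module.finrank F (Submodule.span F {u}) < Module.finrank F (LinearMap.ker φ) := by
    have h3 : Module.finrank F (Submodule.span F {u}) ≤ 1 := by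
      have := finrank_span_le_card (R := F) ({u} : Set (Fin n → F))
      simpa using this
    omega
  obtain ⟨w, hw, hwu⟩ : ∃ w ∈ LinearMap.ker φ, w ∉ Submodule.span F {u} := by
    by_contra hcon
    push Not at hcon
    exact absurd (Submodule.finrank_mono (fun y hy => hcon y hy)) (not_le.2 hlt)
  obtain ⟨ψ, hψ1, hψ0⟩ := H48.QuadWitt.exists_dual _ w hwu
  have hψu : ψ u = 0 := hψ1 u (Submodule.mem_span_singleton_self u)
  have hrep : ∀ x, ψ x = (fun i => ψ (Pi.single i 1)) ⬝ᵥ x := by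
    intro x
    conv_lhs => rw [← (Pi.basisFun F (Fin n)).sum_repr x]
    simp [dotProduct, mul_comm]
  refine ⟨w, fun i => d * ψ (Pi.single i 1), hw, ?_, ?_⟩
  · have h3 : (fun i => d * ψ (Pi.single i 1)) ⬝ᵥ u = d * ((fun i => ψ (Pi.single i 1)) ⬝ᵥ u) := by
      simp only [dotProduct, Finset.mul_sum, mul_assoc]
    rw [h3, ← hrep, hψu, mul_zero]
  · have h3 : (fun i => d * ψ (Pi.single i 1)) ⬝ᵥ w = d * ((fun i => ψ (Pi.single i 1)) ⬝ᵥ w) := by
      simp only [dotProduct, Finset.mul_sum, mul_assoc]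
    rw [h3, ← hrep, hψ0, mul_one]

theorem result {F : Type*} [Field F] [Finite F] {n : ℕ} (hn : 3 ≤ n) (s t : Matrix.SpecialLinearGroup (Fin n) F) (hs : Cfsg.IsTransvection (s : Matrix (Fin n) (Fin n) F)) (ht : Cfsg.IsTransvection (t : Matrix (Fin n) (Fin n) F)) : IsConj s t := by
  have hsq : ∀ t : Matrix.SpecialLinearGroup (Fin n) F, Cfsg.IsTransvection (t : Matrix (Fin n) (Fin n) F) →
      ∀ k, 2 ≤ k → ((t : Matrix (Fin n) (Fin n) F) - 1) ^ k = 0 := by
    intro t ht k hk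
    obtain ⟨j, rfl⟩ := Nat.exists_eq_add_of_le hk
    rw [pow_add, pow_two, ht.2, zero_mul]
  refine H48.SLConj.sl_conj_of_gl (H48.Unip.isConj_of_unipotent (m := 2) (hsq s hs 2 le_rfl)
    (hsq t ht 2 le_rfl) fun k => ?_) fun d hd => ?_
  · rcases Nat.lt_or_ge k 2 with hk | hk
    · interval_cases k
      · simp
      · rw [pow_one, pow_one, hs.1, ht.1]
    · rw [hsq s hs k hk, hsq t ht k hk]
  · obtain ⟨u, f, hN, hu, hf⟩ := H48.SLConj.exists_vecMulVec_of_rank_one hs.1
    have h0 : f ⬝ᵥ u = 0 := by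
      have h1 := hs.2
      rw [hN, Matrix.vecMulVec_mul_vecMulVec] at h1
      by_contra hne
      obtain ⟨i, hi⟩ := Function.ne_iff.1 hu
      obtain ⟨j, hj⟩ := Function.ne_iff.1 hf
      have h2 := congrFun (congrFun h1 i) j
      simp [Matrix.vecMulVec_apply] at h2
      rcases h2 with h2 | h2 | h2
      · exact hi h2
      · exact hne h2
      · exact hj h2
    obtain ⟨w, g, hfw, hgu, hgw⟩ := aux_dual hn u f h0 (d - 1)
    have hs1 : (s : Matrix (Fin n) (Fin n) F) = 1 + Matrix.vecMulVec u f := by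
      rw [← hN]; abel
    refine ⟨1 + Matrix.vecMulVec w g, ?_, ?_⟩
    · have e1 : Matrix.vecMulVec w g * Matrix.vecMulVec u f = 0 := by
        rw [Matrix.vecMulVec_mul_vecMulVec, hgu]; simp
      have e2 : Matrix.vecMulVec u f * Matrix.vecMulVec w g = 0 := by
        rw [Matrix.vecMulVec_mul_vecMulVec, hfw]; simp
      rw [hs1]
      simp only [mul_add, add_mul, mul_one, one_mul, e1, e2]
      abel
    · rw [H48.SLConj.det_one_add_vecMulVec, hgw]; ring

end Cfsg.Agent.S2579
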