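import Cfsg.Statements.S0820
import Cfsg.Agent.S2579

set_option autoImplicit false
open Cfsg

namespace Cfsg.Agent.S0820

/-- Any two elements of order 2 of PSL_3(4) are conjugate. -/
theorem result {F : Type*} [Field F] [Fintype F] (hF : Fintype.card F = 4) (x y : Matrix.ProjectiveSpecialLinearGroup (Fin 3) F) (hx : orderOf x = 2) (hy : orderOf y = 2) : IsConj x y := by
  classical
  have h2 : (2 : F) = 0 := by
    have h4 : (4 : F) = 0 := by
      have h1 : ((Fintype.card F : ℕ) : F) = 0 := by simp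
      rw [hF] at h1
      exact_mod_cast h1
    have : (2 : F) * 2 = 0 := by rw [← h4]; norm_num
    rcases mul_eq_zero.mp this with h | h <;> exact h
  have key : ∀ x : Matrix.ProjectiveSpecialLinearGroup (Fin 3) F, orderOf x = 2 →
      ∃ X : Matrix.SpecialLinearGroup (Fin 3) F, QuotientGroup.mk X = x ∧
        Cfsg.IsTransvection (X : Matrix (Fin 3) (Fin 3) F) := by
    intro x hx
    obtain ⟨X, rfl⟩ := QuotientGroup.mk_surjective x
    have hx2 : (QuotientGroup.mk X : Matrix.ProjectiveSpecialLinearGroup (Fin 3) F) ^ 2 = 1 := by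
      rw [← hx]; exact pow_orderOf_eq_one _
    have hx1 : (QuotientGroup.mk X : Matrix.ProjectiveSpecialLinearGroup (Fin 3) F) ≠ 1 := by
      intro h
      rw [h, orderOf_one] at hx
      omega
    have h3 : (QuotientGroup.mk (X * X) : Matrix.ProjectiveSpecialLinearGroup (Fin 3) F) = 1 := by
      rw [← hx2, pow_two]; rfl
    rw [QuotientGroup.eq_one_iff] at h3
    -- `X * (X * X)` is an involution modulo `X ^ 6`
    have hc : (X * X) ∈ Subgroup.center (Matrix.SpecialLinearGroup (Fin 3) F) := h3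
    have hc3 : (X * X) ^ 3 = 1 := by
      rw [Matrix.SpecialLinearGroup.mem_center_iff] at hc
      obtain ⟨r, hr, hrs⟩ := hc
      apply Subtype.ext
      have h4 : ((X * X) ^ 3).1 = (X * X).1 ^ 3 := Matrix.SpecialLinearGroup.coe_pow _ _
      have h5 : (X * X).1 = Matrix.scalar (Fin 3) r := hrs.symm
      refine h4.trans ?_
      rw [h5, ← map_pow]
      rw [show r ^ 3 = 1 from hr, map_one]
      rfl
    let Y := X * (X * X)
    have hYX : (QuotientGroup.mk Y : Matrix.ProjectiveSpecialLinearGroup (Fin 3) F) =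
        QuotientGroup.mk X := by
      rw [QuotientGroup.eq]
      have : Y⁻¹ * X = (X * X)⁻¹ := by simp only [Y]; group
      rw [this]
      exact inv_mem hc
    have hY2 : Y * Y = 1 := by
      rw [← hc3]; simp only [Y, pow_succ, pow_zero, one_mul, mul_assoc]
    have hY1 : Y ≠ 1 := by
      intro h
      rw [h] at hYX
      exact hx1 hYX.symm
    refine ⟨Y, hYX, ?_⟩
    have hYY : Y.1 * Y.1 = 1 := congrArg Subtype.val hY2
    have hN2 : (Y.1 - 1) * (Y.1 - 1) = 0 := by
      have h6 : (Y.1 - 1) * (Y.1 - 1) = Y.1 * Y.1 + 1 - (2 : F) • Y.1 := by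
        rw [sub_mul, mul_sub, mul_one, one_mul, two_smul]; abel
      rw [h6, hYY, h2, zero_smul, sub_zero]
      have h7 : (1 : Matrix (Fin 3) (Fin 3) F) + 1 = (2 : F) • 1 := by rw [two_smul]
      rw [h7, h2, zero_smul]
    have hN0 : Y.1 - 1 ≠ 0 := by
      intro h
      exact hY1 (Subtype.ext (sub_eq_zero.mp h))
    refine ⟨?_, hN2⟩
    have h8 := Matrix.rank_add_rank_le_card_of_mul_eq_zero hN2
    rw [Fintype.card_fin] at h8
    have h9 : (Y.1 - 1).rank ≠ 0 := by
      intro h
      apply hN0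
      have h10 : LinearMap.range (Y.1 - 1).mulVecLin = ⊥ := Submodule.finrank_eq_zero.mp h
      apply Matrix.ext_of_mulVec_single
      intro i
      rw [Matrix.zero_mulVec]
      have h11 : (Y.1 - 1).mulVecLin (Pi.single i 1) ∈ LinearMap.range (Y.1 - 1).mulVecLin := ⟨_, rfl⟩
      rw [h10, Submodule.mem_bot] at h11
      exact h11
    change (Y.1 - 1).rank = 1
    omega
  obtain ⟨X, rfl, hX⟩ := key x hx
  obtain ⟨Y, rfl, hY⟩ := key y hy
  have := Cfsg.Agent.S2579.result (by norm_num) X Y hX hY
  exact MonoidHom.map_isConj (QuotientGroup.mk' _) this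

end Cfsg.Agent.S0820
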