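import Cfsg.Statements.S0821
import Cfsg.Agent.Lib.H17.PSpInvol
import Cfsg.Agent.Lib.H17.OrthInvol

set_option autoImplicit false
open Cfsg

namespace Cfsg.Agent.S0821

/-- PSp_2m(q) ≇ PΩ_(2m+1)(q) for q odd and m ≥ 3 (they have the same order). -/
theorem result {F : Type*} [Field F] [Fintype F] (hodd : Odd (Fintype.card F)) (m : ℕ) (hm : 3 ≤ m) : IsEmpty (Cfsg.PSp m F ≃* Cfsg.POmega F (Cfsg.quadFormOdd m F)) := by
  classical
  constructor
  intro e
  have h2 : (2 : F) ≠ 0 := by
    rw [H48.FinFieldSq.two_ne_zero_iff_odd_card, Nat.card_eq_fintype_card]; exact hodd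
  have : NeZero m := ⟨by omega⟩
  rw [← H48.QuadStd.coe_qOdd] at e
  set Q := H48.QuadStd.qOdd m F 1 with hQdef
  have hQ : (QuadraticMap.polarBilin Q).Nondegenerate :=
    H48.QuadSplit.nd_iff.mp (H48.QuadStd.nd_qOdd m h2 one_ne_zero)
  have hfr : Module.finrank F (Unit ⊕ (Fin m ⊕ Fin m) → F) = 2 * m + 1 := by
    rw [Module.finrank_fintype_fun_eq_card]
    simp only [Fintype.card_sum, Fintype.card_fin, Fintype.card_unit]
    ring
  have hex : ∀ k : Fin (m + 1), ∃ t : ↥(H17.OrthAbs.O Q), t ∈ commutator ↥(H17.OrthAbs.O Q) ∧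
      t * t = 1 ∧ Module.finrank F (H17.SpInvol.neg (H17.OrthInvol.lin t)) = 2 * (k : ℕ) :=
    fun k => H17.OrthInvol.exists_invol h2 hQ k (by have := k.2; omega)
  choose t htc htt htd using hex
  let E := H17.OrthTrans.equiv Q
  have hT : ∀ k, E.symm (t k) ∈ Cfsg.Omega F (⇑Q) := by
    intro k
    change E.symm (t k) ∈ commutator _
    rw [← H17.OrthTrans2.mem_commutator_equiv E, MulEquiv.apply_symm_apply]
    exact htc k
  let T : Fin (m + 1) → ↥(Cfsg.Omega F (⇑Q)) := fun k => ⟨E.symm (t k), hT k⟩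
  have hTT : ∀ k, T k * T k = 1 := by
    intro k
    apply Subtype.ext
    change E.symm (t k) * E.symm (t k) = 1
    rw [← map_mul, htt, map_one]
  have hle := H17.PSpInvol.card_le (m := m) h2 (m + 1)
    (fun k => e.symm (QuotientGroup.mk (T k) : Cfsg.POmega F (⇑Q))) (by
      intro k
      rw [← map_mul, ← QuotientGroup.mk_mul, hTT, QuotientGroup.mk_one, map_one]) (by
      intro i j hij
      rw [isConj_iff] at hij
      obtain ⟨c, hc⟩ := hij
      have h3 := congrArg e hc
      rw [map_mul, map_mul, map_inv, MulEquiv.apply_symm_apply, MulEquiv.apply_symm_apply] at h3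
      obtain ⟨g, hg⟩ := QuotientGroup.mk_surjective (e c)
      rw [← hg, ← QuotientGroup.mk_mul, ← QuotientGroup.mk_inv, ← QuotientGroup.mk_mul,
        eq_comm, QuotientGroup.eq, Subgroup.mem_center_iff] at h3
      set z := (T j)⁻¹ * (g * T i * g⁻¹) with hz
      have h4 : (g : ↥(Cfsg.isometryGroup F (⇑Q))) * T i * (g : ↥(Cfsg.isometryGroup F (⇑Q)))⁻¹ =
          T j * z := by
        rw [hz]
        push_cast
        group
      have h5 : E g * t i * (E g)⁻¹ = t j * E z := by
        have := congrArg E h4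
        rw [map_mul, map_mul, map_mul, map_inv] at this
        rw [show E (T i : ↥(Cfsg.isometryGroup F (⇑Q))) = t i from MulEquiv.apply_symm_apply _ _,
          show E (T j : ↥(Cfsg.isometryGroup F (⇑Q))) = t j from MulEquiv.apply_symm_apply _ _]
          at this
        exact this
      apply Fin.ext
      refine H17.OrthInvol.eq_of_conj_mod h2 hQ (by omega) ⟨m, hfr⟩ (t i) (t j) (E z) (E g) (htt i)
        (htt j) ?_ (htc j) h5 i j (htd i) (htd j)
      intro y hy
      have hy' : E.symm y ∈ Cfsg.Omega F (⇑Q) := by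
        change E.symm y ∈ commutator _
        rw [← H17.OrthTrans2.mem_commutator_equiv E, MulEquiv.apply_symm_apply]
        exact hy
      have h6 := h3 ⟨E.symm y, hy'⟩
      have h7 := congrArg (fun w : ↥(Cfsg.Omega F (⇑Q)) => E (w : ↥(Cfsg.isometryGroup F (⇑Q)))) h6
      simp only [Subgroup.coe_mul, map_mul, MulEquiv.apply_symm_apply] at h7
      exact h7.symm)
  omega

end Cfsg.Agent.S0821
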