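import Cfsg.Statements.S0822
import Cfsg.Agent.Lib.H17.PSU42
import Cfsg.Agent.S0301
import Cfsg.Agent.S0303
import Cfsg.Agent.S0270
import Cfsg.Agent.Lib.H6.SmallIsoC

set_option autoImplicit false
open Cfsg

namespace Cfsg.Agent.S0822

/-- PSU_4(2) ≅ PSp_4(3): with |F| = 4 and |K| = 3, the projective special unitary group of the standard Hermitian form on F^4 is isomorphic to PSp_4(K). -/
theorem result {F K : Type*} [Field F] [Fintype F] [Field K] [Fintype K] (hF : Fintype.card F = 4) (hK : Fintype.card K = 3) : Nonempty (Cfsg.PSU 4 F 2 ≃* Cfsg.PSp 2 K) := by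
  classical
  obtain ⟨σ⟩ := H17.SmallOrth.exists_ringEquiv_zmod 3 hK
  obtain ⟨e1⟩ := Cfsg.Agent.S0303.result (F := ZMod 2) (K := F) (q := 2) (ZMod.card 2)
    (by rw [hF]; norm_num) 1 1 (by decide)
  obtain ⟨e3⟩ := Cfsg.Agent.S0301.result (F := ZMod 3) (by rw [ZMod.card]; decide)
  have hsimple : IsSimpleGroup (Cfsg.PSp 2 (ZMod 3)) :=
    Cfsg.Agent.S0270.result 2 le_rfl (fun _ => by rw [ZMod.card])
  have hperf : commutator (Matrix.symplecticGroup (Fin 2) (ZMod 3)) = ⊤ :=
    H6.SympPerfect.commutator_eq_top (Or.inr (Or.inl ⟨by simp, by rw [ZMod.card]⟩))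
  have hcen : Subgroup.center (Cfsg.PSp 2 (ZMod 3)) = ⊥ := by
    rcases hsimple.eq_bot_or_eq_top_of_normal (Subgroup.center (Cfsg.PSp 2 (ZMod 3))) inferInstance
      with h | h
    · exact h
    · exfalso
      have h1 : commutator (Cfsg.PSp 2 (ZMod 3)) = ⊥ := by
        rw [commutator_def, Subgroup.commutator_eq_bot_iff_le_centralizer,
          Subgroup.coe_top, Subgroup.centralizer_univ, h]
      have h2 : (commutator (Matrix.symplecticGroup (Fin 2) (ZMod 3))).map
          (QuotientGroup.mk' (Subgroup.center (Matrix.symplecticGroup (Fin 2) (ZMod 3)))) =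
          commutator (Cfsg.PSp 2 (ZMod 3)) := by
        rw [commutator_def, Subgroup.map_commutator, ← MonoidHom.range_eq_map,
          MonoidHom.range_eq_top.mpr (QuotientGroup.mk'_surjective _)]
        rfl
      rw [hperf, ← MonoidHom.range_eq_map, MonoidHom.range_eq_top.mpr
        (QuotientGroup.mk'_surjective _), h1] at h2
      exact bot_ne_top h2.symm
  have hcen2 : Subgroup.center (Cfsg.POmega (ZMod 3) (Cfsg.quadFormOdd 2 (ZMod 3))) = ⊥ := by
    rw [eq_bot_iff]
    intro x hx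
    have h1 : e3 x ∈ Subgroup.center (Cfsg.PSp 2 (ZMod 3)) := by
      rw [Subgroup.mem_center_iff] at hx ⊢
      intro y
      obtain ⟨y, rfl⟩ := e3.surjective y
      rw [← map_mul, ← map_mul, hx]
    rw [hcen, Subgroup.mem_bot, map_eq_one_iff _ e3.injective] at h1
    exact h1
  obtain ⟨f, hf, hk⟩ := H17.PSU42.exists_f
  obtain ⟨e2⟩ := H17.PSU42.quot_commutator_equiv f hf hk hcen2
  have e4 : Cfsg.PSp 2 (ZMod 3) ≃* Cfsg.PSp 2 K := by
    refine QuotientGroup.congr _ _ (H6.SmallIsoC.spCongr σ) ?_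
    ext x
    rw [Subgroup.mem_map]
    constructor
    · rintro ⟨y, hy, rfl⟩
      rw [Subgroup.mem_center_iff] at hy ⊢
      intro z
      obtain ⟨z, rfl⟩ := (H6.SmallIsoC.spCongr (l := Fin 2) σ).surjective z
      exact ((map_mul _ z y).symm.trans (congrArg _ (hy z))).trans (map_mul _ y z)
    · intro hx
      refine ⟨(H6.SmallIsoC.spCongr σ).symm x, ?_, (H6.SmallIsoC.spCongr σ).apply_symm_apply x⟩
      rw [Subgroup.mem_center_iff] at hx ⊢
      intro z
      apply (H6.SmallIsoC.spCongr (l := Fin 2) σ).injective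
      rw [map_mul, map_mul, MulEquiv.apply_symm_apply]
      exact hx _
  exact ⟨e1.symm.trans (e2.symm.trans (e3.trans e4))⟩

end Cfsg.Agent.S0822
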