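import Cfsg.Statements.S0823
import Cfsg.Agent.Lib.H17.SmallOrth

set_option autoImplicit false
open Cfsg

namespace Cfsg.Agent.S0823

open Matrix H17.SmallOrth

abbrev V3 : Type := Unit ⊕ (Fin 1 ⊕ Fin 1) → ZMod 3

abbrev M3 : Type := Matrix (Unit ⊕ (Fin 1 ⊕ Fin 1)) (Unit ⊕ (Fin 1 ⊕ Fin 1)) (ZMod 3)

abbrev Q3 : V3 → ZMod 3 := Cfsg.quadFormOdd 1 (ZMod 3)

/-- The singular points, as symmetric matrices of rank one. -/
def S : Finset M3 := (Finset.univ.filter (fun v : V3 => v ≠ 0 ∧ Q3 v = 0)).image (fun v => Matrix.of fun i j => v i * v j)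

theorem card_S : S.card = 4 := by decide +kernel

theorem mem_S (M : M3) : M ∈ S ↔ ∃ v : V3, (v ≠ 0 ∧ Q3 v = 0) ∧ M = vecMulVec v v := by
  unfold S
  rw [Finset.mem_image]
  constructor
  · rintro ⟨v, hv, rfl⟩
    rw [Finset.mem_filter] at hv
    exact ⟨v, hv.2, rfl⟩
  · rintro ⟨v, hv, rfl⟩
    exact ⟨v, by rw [Finset.mem_filter]; exact ⟨Finset.mem_univ _, hv⟩, rfl⟩

theorem eq_or_neg : ∀ v w : V3, (∀ i j, w i * w j = v i * v j) → w = v ∨ w = -v := by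
  decide +kernel

def mk (a b c : ZMod 3) : V3 := Sum.elim (fun _ => a) (Sum.elim (fun _ => b) (fun _ => c))

theorem elim : ∀ e1 e2 e3 e4 : ZMod 3, e3 = e4 → e3 - e1 = -e4 + e1 → -e3 + e2 = e4 - e2 →
    e2 = e1 ∧ e3 = e1 := by
  decide

theorem cube : ∀ e : ZMod 3, e ^ 3 = 1 → e = 1 := by decide

theorem mem_SO {K : Type*} [Field K] (g : ↥(Cfsg.isometryGroup K (Cfsg.quadFormOdd 1 K))) :
    g ∈ Cfsg.specialIsometryGroup K (Cfsg.quadFormOdd 1 K) ↔ g.1.1.det = 1 := by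
  unfold Cfsg.specialIsometryGroup
  rw [MonoidHom.mem_ker]
  change GeneralLinearGroup.det g.1 = 1 ↔ _
  rw [Units.ext_iff]
  rfl

theorem three : Nonempty (↥(Cfsg.specialIsometryGroup (ZMod 3) Q3) ≃* Equiv.Perm (Fin 4)) := by
  have hmem : ∀ g : ↥(Cfsg.isometryGroup (ZMod 3) Q3), ∀ v, Q3 (g.1.1 *ᵥ v) = Q3 v :=
    fun g => (H17.OrthDet.mem_isometryGroup_iff _ _).mp g.2
  have hne : ∀ g : ↥(Cfsg.isometryGroup (ZMod 3) Q3), ∀ v, v ≠ 0 → g.1.1 *ᵥ v ≠ 0 := by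
    intro g v hv h
    apply hv
    have h1 : g.1⁻¹.1 *ᵥ (g.1.1 *ᵥ v) = v := by
      rw [mulVec_mulVec]
      have : g.1⁻¹.1 * g.1.1 = 1 := by
        rw [← Units.val_mul, inv_mul_cancel]; rfl
      rw [this, one_mulVec]
    rw [← h1, h, mulVec_zero]
  have hS : ∀ g : ↥(Cfsg.isometryGroup (ZMod 3) Q3), ∀ M ∈ S, g.1.1 * M * g.1.1ᵀ ∈ S := by
    intro g M hM
    rw [mem_S] at hM ⊢
    obtain ⟨v, hv, rfl⟩ := hM
    refine ⟨g.1.1 *ᵥ v, ⟨hne g v hv.1, by rw [hmem]; exact hv.2⟩, ?_⟩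
    rw [mul_vecMulVec, vecMulVec_mul, vecMul_transpose]
  obtain ⟨f, hf⟩ := exists_permHom (G := ↥(Cfsg.isometryGroup (ZMod 3) Q3)) (X := S)
    (fun g x => ⟨g.1.1 * x.1 * g.1.1ᵀ, hS g _ x.2⟩)
    (fun x => Subtype.ext (by
      change (1 : M3) * x.1 * (1 : M3)ᵀ = x.1
      rw [transpose_one, one_mul, mul_one])) (fun g h x => Subtype.ext (by
      change (g.1.1 * h.1.1) * x.1 * (g.1.1 * h.1.1)ᵀ = g.1.1 * (h.1.1 * x.1 * h.1.1ᵀ) * g.1.1ᵀ
      rw [transpose_mul]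
      simp only [mul_assoc]))
  have hcardO : Nat.card ↥(Cfsg.isometryGroup (ZMod 3) Q3) = 48 := by
    have h2 := H7.HypOrd.card_O_odd (F := ZMod 3) 1 (by decide) (c := 1) one_ne_zero
    rw [H48.QuadStd.coe_qOdd] at h2
    rw [H7.HypOrd.card_isometryGroup, h2, Nat.card_zmod]
    decide
  -- the kernel consists of scalars
  have hker : ∀ g : ↥(Cfsg.isometryGroup (ZMod 3) Q3), f g = 1 →
      ∃ e : ZMod 3, g.1.1 = e • (1 : M3) := by
    intro g hg
    have hfix : ∀ v : V3, v ≠ 0 → Q3 v = 0 → ∃ e : ZMod 3, g.1.1 *ᵥ v = e • v := by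
      intro v hv hv0
      have h1 := congrArg Subtype.val (hf g ⟨vecMulVec v v, (mem_S _).mpr ⟨v, ⟨hv, hv0⟩, rfl⟩⟩)
      rw [hg] at h1
      have h2 : vecMulVec v v = vecMulVec (g.1.1 *ᵥ v) (g.1.1 *ᵥ v) := by
        have h1' : vecMulVec v v = g.1.1 * vecMulVec v v * g.1.1ᵀ := h1
        rw [mul_vecMulVec, vecMulVec_mul, vecMul_transpose] at h1'
        exact h1'
      rcases eq_or_neg v (g.1.1 *ᵥ v) (fun i j => (congrFun (congrFun h2 i) j).symm) with h3 | h3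
      · exact ⟨1, by rw [h3, one_smul]⟩
      · exact ⟨-1, by rw [h3, neg_smul, one_smul]⟩
    obtain ⟨e1, h1⟩ := hfix (mk 0 1 0) (by decide) (by decide)
    obtain ⟨e2, h2⟩ := hfix (mk 0 0 1) (by decide) (by decide)
    obtain ⟨e3, h3⟩ := hfix (mk 1 1 (-1)) (by decide) (by decide)
    obtain ⟨e4, h4⟩ := hfix (mk 1 (-1) 1) (by decide) (by decide)
    have e5 : mk 1 1 (-1) = mk 1 0 0 + (mk 0 1 0 - mk 0 0 1) := by decide
    have e6 : mk 1 (-1) 1 = mk 1 0 0 - (mk 0 1 0 - mk 0 0 1) := by decide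
    have h5 : g.1.1 *ᵥ mk 1 0 0 = e3 • mk 1 1 (-1) - (e1 • mk 0 1 0 - e2 • mk 0 0 1) := by
      rw [← h3, ← h1, ← h2, ← mulVec_sub, ← mulVec_sub]
      congr 1
      rw [e5]; abel
    have h6 : g.1.1 *ᵥ mk 1 0 0 = e4 • mk 1 (-1) 1 + (e1 • mk 0 1 0 - e2 • mk 0 0 1) := by
      rw [← h4, ← h1, ← h2, ← mulVec_sub, ← mulVec_add]
      congr 1
      rw [e6]; abel
    have h7 := h5.symm.trans h6
    have a1 := congrFun h7 (.inl ())
    have a2 := congrFun h7 (.inr (.inl 0))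
    have a3 := congrFun h7 (.inr (.inr 0))
    simp [mk] at a1 a2 a3
    obtain ⟨h8, h9⟩ := elim e1 e2 e3 e4 a1 a2 (by rw [a3]; ring)
    refine ⟨e1, ?_⟩
    refine Matrix.ext_of_mulVec_single (fun i => ?_)
    have hs : ∀ i, (Pi.single i 1 : V3) = mk 1 0 0 ∨ (Pi.single i 1 : V3) = mk 0 1 0 ∨
        (Pi.single i 1 : V3) = mk 0 0 1 := by decide
    rw [smul_mulVec, one_mulVec]
    rcases hs i with h | h | h
    · rw [h, h5, h8, h9, e5]
      exact (by module)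
    · rw [h, h1]
    · rw [h, h2, h8]
  have hcard3 : Fintype.card (Unit ⊕ (Fin 1 ⊕ Fin 1)) = 3 := by decide
  have hSO := mem_SO (K := ZMod 3)
  have hneg : ∀ v, Q3 (-v) = Q3 v := by decide
  let a : ↥(Cfsg.isometryGroup (ZMod 3) Q3) := ⟨-1, by
    rw [H17.OrthDet.mem_isometryGroup_iff]
    intro x
    change Q3 ((-1 : M3) *ᵥ x) = Q3 x
    rw [neg_mulVec, one_mulVec, hneg]⟩
  have hindex : (Cfsg.specialIsometryGroup (ZMod 3) Q3).index = 2 := by
    rw [Subgroup.index_eq_two_iff]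
    refine ⟨a, fun b => ?_⟩
    rw [hSO, hSO]
    have h1 : (b * a).1.1.det = - b.1.1.det := by
      change (b.1.1 * (-1 : M3)).det = _
      rw [mul_neg, mul_one, det_neg, hcard3]
      ring
    have h2 : b.1.1.det ≠ 0 := by
      have := (isUnit_iff_isUnit_det b.1.1).mp b.1.isUnit
      exact this.ne_zero
    rw [h1]
    generalize b.1.1.det = d at h2
    revert d
    decide
  have hcard : Nat.card ↥(Cfsg.specialIsometryGroup (ZMod 3) Q3) = Nat.factorial 4 := by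
    have := Subgroup.card_mul_index (Cfsg.specialIsometryGroup (ZMod 3) Q3)
    rw [hindex, hcardO] at this
    have h4 : Nat.factorial 4 = 24 := by decide
    omega
  refine perm_of_faithful 4 ?_ hcard (f.comp (Cfsg.specialIsometryGroup (ZMod 3) Q3).subtype) ?_
  · rw [Nat.card_eq_fintype_card, Fintype.card_coe, card_S]
  · rw [injective_iff_map_eq_one]
    intro g hg
    obtain ⟨e, he⟩ := hker g.1 hg
    have h1 := (hSO g.1).mp g.2
    rw [he, det_smul, det_one, hcard3, mul_one] at h1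
    rw [cube e h1, one_smul] at he
    apply Subtype.ext
    apply Subtype.ext
    exact Units.ext he

/-- SO_3(3) ≅ S_4: the determinant-one isometries of the form x_0² + x_1y_1 over the field with 3 elements form a group isomorphic to the symmetric group on 4 letters. -/
theorem result {F : Type*} [Field F] [Fintype F] (hF : Fintype.card F = 3) : Nonempty (↥(Cfsg.specialIsometryGroup F (Cfsg.quadFormOdd 1 F)) ≃* Equiv.Perm (Fin 4)) := by
  obtain ⟨σ⟩ := H17.SmallOrth.exists_ringEquiv_zmod 3 hF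
  obtain ⟨e⟩ := three
  have hQ : ∀ v : Unit ⊕ (Fin 1 ⊕ Fin 1) → ZMod 3, Cfsg.quadFormOdd 1 F (fun i => σ (v i)) =
      σ (Cfsg.quadFormOdd 1 (ZMod 3) v) := by
    intro v
    unfold Cfsg.quadFormOdd
    rw [map_add, map_sum]
    simp only [map_mul, map_pow]
  have hmap := H17.SmallOrth.map_isometryGroup σ (Cfsg.quadFormOdd 1 (ZMod 3)) (Cfsg.quadFormOdd 1 F) hQ
  let f : ↥(Cfsg.isometryGroup (ZMod 3) (Cfsg.quadFormOdd 1 (ZMod 3))) ≃*
      ↥(Cfsg.isometryGroup F (Cfsg.quadFormOdd 1 F)) :=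
    ((H17.SmallOrth.glMap σ).subgroupMap _).trans (MulEquiv.subgroupCongr hmap)
  have hf : ∀ g, (f g).1 = H17.SmallOrth.glMap σ g.1 := fun g => rfl
  have h2 : (Cfsg.specialIsometryGroup (ZMod 3) (Cfsg.quadFormOdd 1 (ZMod 3))).map f.toMonoidHom =
      Cfsg.specialIsometryGroup F (Cfsg.quadFormOdd 1 F) := by
    have hdet : ∀ g : ↥(Cfsg.isometryGroup (ZMod 3) (Cfsg.quadFormOdd 1 (ZMod 3))),
        (f g).1.1.det = σ g.1.1.det := by
      intro g
      rw [hf]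
      exact (RingHom.map_det (σ : ZMod 3 →+* F) g.1.1).symm
    ext g
    rw [Subgroup.mem_map]
    constructor
    · rintro ⟨x, hx, rfl⟩
      have hx1 := (mem_SO x).mp hx
      refine (mem_SO (f x)).mpr ?_
      rw [hdet, hx1, map_one]
    · intro hg
      refine ⟨f.symm g, ?_, f.apply_symm_apply g⟩
      have hg1 := (mem_SO g).mp hg
      refine (mem_SO _).mpr ?_
      apply σ.injective
      rw [← hdet, f.apply_symm_apply, hg1, map_one]
  exact ⟨(((f.subgroupMap _).trans (MulEquiv.subgroupCongr h2)).symm).trans e⟩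

end Cfsg.Agent.S0823
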