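import Cfsg.Statements.S2565
import Cfsg.Agent.Lib.H47.F2Sym
import Cfsg.Agent.Lib.H47.F2Ord

set_option autoImplicit false
set_option linter.unusedVariables false
open Cfsg

namespace Cfsg.Agent.S2565

open H47.F2Quad H47.F2Quad2 H47.IsoGrp H47.F2Sym H47.F2Ord

/-- the full orthogonal group is the symmetric group of degree 8 -/
theorem exists_equiv : Nonempty (Equiv.Perm (Fin 8) ≃* ↥(Cfsg.isometryGroup (ZMod 2) (Cfsg.quadFormPlus 3 (ZMod 2)))) := by
  obtain ⟨φ, hφ⟩ := exists_perm_hom_injective (m := 3) (by norm_num) le_rfl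
  have h1 : Q0 3 (ww 3) = 0 := by
    have := Q0_ww 1
    exact this
  obtain ⟨g, hg⟩ := (isPlus_iff (ww 3)).mpr h1
  let τ : linIsom (ZMod 2) (qq 3) ≃* linIsom (ZMod 2) (Q0 3) := transport (q := qq 3) (q' := Q0 3) g hg
  let ψ : Equiv.Perm (Fin 8) →* linIsom (ZMod 2) (Q0 3) := τ.toMonoidHom.comp φ
  have hψ : Function.Injective ψ := fun x y hxy => hφ (τ.injective hxy)
  have hfin : Finite (linIsom (ZMod 2) (Q0 3)) :=
    Finite.of_injective (fun g : linIsom (ZMod 2) (Q0 3) => (g : V 3 → V 3))
      (fun g h hgh => Subtype.ext (LinearEquiv.ext (fun v => congrFun hgh v)))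
  have hc : Nat.card (Equiv.Perm (Fin 8)) = Nat.card (linIsom (ZMod 2) (Q0 3)) := by
    apply le_antisymm
    · exact Nat.card_le_card_of_injective ψ hψ
    · rw [Nat.card_eq_fintype_card (α := Equiv.Perm (Fin 8)), Fintype.card_perm, Fintype.card_fin]
      exact card_three_le
  have hb : Function.Bijective ψ := (Nat.bijective_iff_injective_and_card ψ).mpr ⟨hψ, hc⟩
  exact ⟨(MulEquiv.ofBijective ψ hb).trans (isoEquiv (Q0 3))⟩

/-- The commutator subgroup of the full orthogonal group of the plus-type form Σ xᵢyᵢ in dimension 6 over the field of two elements (the group Ω⁺₆(2), of index 2) is isomorphic to the alternating group of degree 8. -/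
theorem result :
    (Cfsg.Omega (ZMod 2) (Cfsg.quadFormPlus 3 (ZMod 2))).index = 2 ∧
    Nonempty (↥(Cfsg.Omega (ZMod 2) (Cfsg.quadFormPlus 3 (ZMod 2))) ≃* alternatingGroup (Fin 8)) := by
  obtain ⟨e⟩ := exists_equiv
  have h1 : (commutator (Equiv.Perm (Fin 8))).map e.toMonoidHom = Cfsg.Omega (ZMod 2) (Cfsg.quadFormPlus 3 (ZMod 2)) := by
    rw [commutator_def, Subgroup.map_commutator, ← MonoidHom.range_eq_map, MonoidHom.range_eq_top.mpr e.surjective]
    rfl
  have h2 : commutator (Equiv.Perm (Fin 8)) = alternatingGroup (Fin 8) :=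
    alternatingGroup.commutator_perm_eq (by simp)
  rw [← h1, h2]
  constructor
  · have := Subgroup.index_map_equiv (alternatingGroup (Fin 8)) e
    have h3 : (alternatingGroup (Fin 8)).index = 2 := alternatingGroup.index_eq_two
    exact this.trans h3
  · exact ⟨(e.subgroupMap (alternatingGroup (Fin 8))).symm⟩

end Cfsg.Agent.S2565
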