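import Cfsg.Statements.S0826
import Cfsg.Agent.Lib.H16.Symp
import Cfsg.Agent.Lib.H47.F2Sym

set_option autoImplicit false
open Cfsg

namespace Cfsg.Agent.S0826

open Matrix H47.F2Quad H47.F2Sym H47.SymCox

theorem sympForm_eq {m : ℕ} (u v : V m) : Cfsg.sympForm m (ZMod 2) u v = f u v := by
  rw [H16.Symp.sympForm_eq_sum, f]
  apply Finset.sum_congr rfl
  intro i _
  have : ∀ a b : ZMod 2, a - b = b + a := by decide
  exact this _ _

/-- The transvections. -/
noncomputable def T {m : ℕ} (v : V m) : symplecticGroup (Fin m) (ZMod 2) :=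
  ⟨Cfsg.sympTransvection m v 1, H16.Symp.sympTransvection_mem v 1⟩

theorem T_mulVec {m : ℕ} (v x : V m) : (T v).1 *ᵥ x = tv v x := by
  rw [T, H16.Symp.sympTransvection_mulVec, sympForm_eq, one_mul, tv_apply]

theorem mul_mulVec {m : ℕ} (A B : symplecticGroup (Fin m) (ZMod 2)) (x : V m) :
    (A * B).1 *ᵥ x = A.1 *ᵥ (B.1 *ᵥ x) := by
  rw [mulVec_mulVec]; rfl

theorem ext_T {m : ℕ} {A B : symplecticGroup (Fin m) (ZMod 2)} (h : ∀ x, A.1 *ᵥ x = B.1 *ᵥ x) : A = B :=
  Subtype.ext (H16.Symp.mulVec_ext h)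

theorem exists_hom_Sp (m : ℕ) : ∃ φ : Equiv.Perm (Fin (2 * m + 1 + 1)) →* symplecticGroup (Fin m) (ZMod 2),
    ∀ i : Fin (2 * m + 1), φ (Equiv.swap i.castSucc i.succ) = T (vv m i.val) := by
  refine exists_hom (fun i : Fin (2 * m + 1) => T (vv m i.val)) ⟨fun i => ?_, fun i j hij => ?_, fun i j hij => ?_⟩
  · apply ext_T
    intro x
    rw [mul_mulVec, T_mulVec, T_mulVec]
    have := congrArg (fun e : V m ≃ₗ[ZMod 2] V m => e x) (tv_sq (vv m i.val))
    refine this.trans ?_
    exact (one_mulVec x).symm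
  · apply ext_T
    intro x
    rw [mul_mulVec, mul_mulVec, T_mulVec, T_mulVec, T_mulVec, T_mulVec]
    exact congrArg (fun e : V m ≃ₗ[ZMod 2] V m => e x) (tv_comm (f_vv_far _ _ hij j.2))
  · apply ext_T
    intro x
    rw [mul_mulVec, mul_mulVec, mul_mulVec, mul_mulVec, T_mulVec, T_mulVec, T_mulVec, T_mulVec,
      T_mulVec, T_mulVec]
    refine congrArg (fun e : V m ≃ₗ[ZMod 2] V m => e x) (tv_braid ?_)
    rw [← hij]
    exact f_vv_adj _ (by omega)

/-- S_2n ≤ Sp_(2n−2)(2) for n ≥ 3: there is an injective homomorphism from the symmetric group on 2n letters into the symplectic group of degree 2n − 2 over the field with two elements. -/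
theorem result (n : ℕ) (hn : 3 ≤ n) : ∃ f : Equiv.Perm (Fin (2 * n)) →* Matrix.symplecticGroup (Fin (n - 1)) (ZMod 2), Function.Injective f := by
  obtain ⟨m, rfl⟩ : ∃ m, n = m + 1 := ⟨n - 1, by omega⟩
  have hm : 2 ≤ m := by omega
  obtain ⟨φ, hφ⟩ := exists_hom_Sp m
  have hinj : Function.Injective φ := by
    apply injective_of_ne (by omega) φ ⟨0, by omega⟩ ⟨1, by omega⟩
    rw [hφ, hφ]
    intro h
    have h1 := congrArg (fun A : symplecticGroup (Fin m) (ZMod 2) => A.1 *ᵥ (vv m 0)) h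
    simp only [T_mulVec] at h1
    rw [tv_apply, tv_apply, f_self, zero_smul, add_zero, f_vv_adj 0 (by omega), one_smul] at h1
    have h2 : vv m 1 = 0 := by
      have := h1.symm
      rwa [add_eq_left] at this
    have h3 := f_vv_adj (m := m) 0 (by omega)
    rw [Nat.zero_add, h2, f_zero_right] at h3
    exact zero_ne_one h3
  exact ⟨φ, hinj⟩

end Cfsg.Agent.S0826
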