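import Cfsg.Statements.S0828
import Cfsg.Agent.Lib.H17.LineCount
import Cfsg.Agent.Lib.H16.Symp

set_option autoImplicit false
open Cfsg

namespace Cfsg.Agent.S0828

/-- The symplectic generalised quadrangle over a field with q elements: the number of 2-dimensional subspaces of F^4 on which the symplectic form vanishes is (q + 1)(q² + 1), and every non-zero vector lies in exactly q + 1 of them. -/
theorem result {F : Type*} [Field F] [Fintype F] {q : ℕ} (hF : Fintype.card F = q) : Nat.card {W : Submodule F (Fin 2 ⊕ Fin 2 → F) // Module.finrank F W = 2 ∧ ∀ u ∈ W, ∀ v ∈ W, Cfsg.sympForm 2 F u v = 0} = (q + 1) * (q ^ 2 + 1) ∧ ∀ v : Fin 2 ⊕ Fin 2 → F, v ≠ 0 → Nat.card {W : Submodule F (Fin 2 ⊕ Fin 2 → F) // Module.finrank F W = 2 ∧ v ∈ W ∧ ∀ u ∈ W, ∀ w ∈ W, Cfsg.sympForm 2 F u w = 0} = q + 1 := by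
  classical
  have hq : Nat.card F = q := by rw [Nat.card_eq_fintype_card, hF]
  have hq2 : 2 ≤ q := by rw [← hF]; exact Fintype.one_lt_card
  have hfr : Module.finrank F (Fin 2 ⊕ Fin 2 → F) = 4 := by
    rw [Module.finrank_fintype_fun_eq_card]; rfl
  let P : Submodule F (Fin 2 ⊕ Fin 2 → F) → Prop := fun W =>
    ∀ u ∈ W, ∀ w ∈ W, Cfsg.sympForm 2 F u w = 0
  have hPspan : ∀ v w : Fin 2 ⊕ Fin 2 → F, P (Submodule.span F {v, w}) ↔
      Cfsg.sympForm 2 F v w = 0 := by
    intro v w
    constructor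
    · intro h
      exact h v (Submodule.subset_span (by simp)) w (Submodule.subset_span (by simp))
    · intro h x hx y hy
      obtain ⟨a, b, rfl⟩ := Submodule.mem_span_pair.mp hx
      obtain ⟨c, d, rfl⟩ := Submodule.mem_span_pair.mp hy
      have h' : Cfsg.sympForm 2 F w v = 0 := by rw [H16.Symp.sympForm_swap, h, neg_zero]
      simp only [H16.Symp.sympForm_add_left, H16.Symp.sympForm_add_right,
        H16.Symp.sympForm_smul_left, H16.Symp.sympForm_smul_right, H16.Symp.sympForm_self, h, h']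
      ring
  have hpt : ∀ v : Fin 2 ⊕ Fin 2 → F, v ≠ 0 →
      Nat.card {W : Submodule F (Fin 2 ⊕ Fin 2 → F) // Module.finrank F W = 2 ∧ v ∈ W ∧ P W} =
        q + 1 := by
    intro v hv
    have h1 := H17.LineCount.card_through P v hv
    have hne : H16.Symp.sympBilin 2 F v ≠ 0 := by
      intro h
      apply hv
      apply H16.Symp.eq_zero_of_forall_sympForm_right
      intro u
      have := congrArg (fun f : (Fin 2 ⊕ Fin 2 → F) →ₗ[F] F => f u) h
      exact this
    have hK := Module.Dual.finrank_ker_add_one_of_ne_zero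
      (f := (H16.Symp.sympBilin 2 F v : Module.Dual F (Fin 2 ⊕ Fin 2 → F))) hne
    rw [hfr] at hK
    have hle : Submodule.span F {v} ≤ LinearMap.ker (H16.Symp.sympBilin 2 F v) := by
      rw [Submodule.span_singleton_le_iff_mem, LinearMap.mem_ker, H16.Symp.sympBilin_apply]
      exact H16.Symp.sympForm_self v
    have h2 := H17.LineCount.card_diff _ _ hle
    rw [H17.LineCount.natCard_submodule, H17.LineCount.natCard_submodule,
      finrank_span_singleton hv, hq, pow_one, show Module.finrank F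
        (LinearMap.ker (H16.Symp.sympBilin 2 F v)) = 3 by omega] at h2
    have h3 : Nat.card {w : Fin 2 ⊕ Fin 2 → F // w ∉ Submodule.span F {v} ∧
        P (Submodule.span F {v, w})} = Nat.card {w : Fin 2 ⊕ Fin 2 → F //
          w ∈ LinearMap.ker (H16.Symp.sympBilin 2 F v) ∧ w ∉ Submodule.span F {v}} := by
      apply Nat.card_congr
      apply Equiv.subtypeEquivRight
      intro w
      rw [hPspan, LinearMap.mem_ker, H16.Symp.sympBilin_apply, and_comm]
    rw [h3, h2, hq] at h1
    have h4 : q ^ 3 - q = (q + 1) * (q ^ 2 - q) := by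
      have e1 : q ≤ q ^ 2 := Nat.le_self_pow (by omega) q
      have e2 : q ≤ q ^ 3 := Nat.le_self_pow (by omega) q
      zify [e1, e2]
      ring
    rw [h4] at h1
    have h5 : 0 < q ^ 2 - q := by
      have : q < q ^ 2 := by nlinarith
      omega
    exact (Nat.eq_of_mul_eq_mul_right h5 h1).symm
  refine ⟨?_, hpt⟩
  have h1 := H17.LineCount.card_lines P {v | v ≠ 0} (q + 1) (fun _ _ _ v _ hv => hv)
    (fun h => h rfl) hpt
  have h2 : Nat.card ({v : Fin 2 ⊕ Fin 2 → F | v ≠ 0} : Set _) = q ^ 4 - 1 := by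
    have h3 := H17.LineCount.card_diff (⊤ : Submodule F (Fin 2 ⊕ Fin 2 → F)) ⊥ bot_le
    rw [H17.LineCount.natCard_submodule, H17.LineCount.natCard_submodule, finrank_top, hfr,
      finrank_bot, hq, pow_zero] at h3
    rw [← h3]
    apply Nat.card_congr
    apply Equiv.subtypeEquivRight
    intro w
    simp
  rw [h2, hq] at h1
  have h4 : (q ^ 4 - 1) * (q + 1) = ((q + 1) * (q ^ 2 + 1)) * (q ^ 2 - 1) := by
    have e1 : 1 ≤ q ^ 2 := Nat.one_le_pow _ _ (by omega)
    have e2 : 1 ≤ q ^ 4 := Nat.one_le_pow _ _ (by omega)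
    zify [e1, e2]
    ring
  rw [h4] at h1
  have h5 : 0 < q ^ 2 - 1 := by
    have : 1 < q ^ 2 := by nlinarith
    omega
  exact Nat.eq_of_mul_eq_mul_right h5 h1

end Cfsg.Agent.S0828
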