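import Cfsg.Statements.S0830
import Cfsg.Agent.Lib.H17.HermLines

set_option autoImplicit false
open Cfsg

namespace Cfsg.Agent.S0830

/-- The unitary quadrangle of PSU_5(q): with |F| = q², the number of 2-dimensional subspaces of F^5 on which the Hermitian form vanishes is (q³ + 1)(q⁵ + 1). -/
theorem result {F : Type*} [Field F] [Fintype F] {q : ℕ} (hF : Fintype.card F = q ^ 2) : Nat.card {W : Submodule F (Fin 5 → F) // Module.finrank F W = 2 ∧ ∀ u ∈ W, ∀ v ∈ W, Cfsg.hermForm 5 F q u v = 0} = (q ^ 3 + 1) * (q ^ 5 + 1) := by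
  classical
  have hq := H7.QuadExt.one_lt_q hF
  have hN : Nat.card {v : Fin 5 → F // Cfsg.hermForm 5 F q v v = 0} = (q ^ 5 + 1) * (q ^ 4 - 1) + 1 := by
    have e : Nat.card {v : Fin 5 → F // Cfsg.hermForm 5 F q v v = 0} =
        H7.HermCount.M F q 5 0 := by
      unfold H7.HermCount.M
      simp_rw [H7.HermCount.hermForm_self]
    rw [e, H7.HermCount.M_iso hF]
    norm_num [show ¬ Even 5 by decide]
  have e1 : 1 ≤ q ^ 2 := Nat.one_le_pow _ _ (by omega)
  have e2 : 1 ≤ q ^ 4 := Nat.one_le_pow _ _ (by omega)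
  have e3 : q ^ 2 ≤ (q ^ 2) ^ 2 := Nat.le_self_pow (by omega) _
  have e4 : (q ^ 2) ^ (5 - 1) ≤ (q ^ 2) ^ 5 := Nat.pow_le_pow_right (by omega) (by omega)
  have h5 : 0 < (q ^ 2) ^ 2 - q ^ 2 := by
    have : q ^ 2 < (q ^ 2) ^ 2 := by
      have : 1 < q ^ 2 := by nlinarith
      nlinarith
    omega
  have hpt : ∀ v : Fin 5 → F, v ∈ {v : Fin 5 → F | v ≠ 0 ∧ Cfsg.hermForm 5 F q v v = 0} →
      Nat.card {W : Submodule F (Fin 5 → F) // Module.finrank F W = 2 ∧ v ∈ W ∧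
        H17.HermLines.TI 5 F q W} = q ^ 3 + 1 := by
    intro v hv
    have h1 := H17.HermLines.card_TI_through hF v hv.1 hv.2
    rw [hN] at h1
    apply Nat.eq_of_mul_eq_mul_right (Nat.mul_pos h5 (by omega : 0 < q))
    rw [← mul_assoc]
    have h2 : Nat.card {W : Submodule F (Fin 5 → F) // Module.finrank F W = 2 ∧ v ∈ W ∧
        H17.HermLines.TI 5 F q W} * ((q ^ 2) ^ 2 - q ^ 2) * q + q ^ 2 * q +
        ((q ^ 2) ^ 5 - (q ^ 2) ^ (5 - 1)) =
        (q ^ 3 + 1) * (((q ^ 2) ^ 2 - q ^ 2) * q) + q ^ 2 * q +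
        ((q ^ 2) ^ 5 - (q ^ 2) ^ (5 - 1)) := by
      rw [h1]
      zify [e1, e2, e3, e4]
      norm_num
      ring
    omega
  have h1 := H17.LineCount.card_lines (H17.HermLines.TI 5 F q)
    {v : Fin 5 → F | v ≠ 0 ∧ Cfsg.hermForm 5 F q v v = 0} (q ^ 3 + 1)
    (fun W _ hW v hv hv0 => ⟨hv0, hW v hv v hv⟩) (fun h => h.1 rfl) hpt
  have h2 : Nat.card ({v : Fin 5 → F | v ≠ 0 ∧ Cfsg.hermForm 5 F q v v = 0} : Set _) =
      (q ^ 5 + 1) * (q ^ 4 - 1) := by
    have h3 : ({v : Fin 5 → F | Cfsg.hermForm 5 F q v v = 0} : Set (Fin 5 → F)) =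
        insert 0 {v : Fin 5 → F | v ≠ 0 ∧ Cfsg.hermForm 5 F q v v = 0} := by
      ext v
      simp only [Set.mem_insert_iff, Set.mem_ofPred_eq]
      constructor
      · intro h
        by_cases hv : v = 0
        · exact Or.inl hv
        · exact Or.inr ⟨hv, h⟩
      · rintro (rfl | h)
        · exact H16.Herm.hermForm_zero_left 0
        · exact h.2
    have h4 : Nat.card {v : Fin 5 → F // Cfsg.hermForm 5 F q v v = 0} =
      ({v : Fin 5 → F | Cfsg.hermForm 5 F q v v = 0} : Set (Fin 5 → F)).ncard := rfl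
    rw [hN, h3, Set.ncard_insert_of_notMem (fun h => h.1 rfl) (Set.toFinite _)] at h4
    exact (Nat.succ_injective h4).symm
  rw [h2, Nat.card_eq_fintype_card (α := F), hF] at h1
  have h6 : 0 < (q ^ 2) ^ 2 - 1 := by omega
  have e5 : 1 ≤ (q ^ 2) ^ 2 := by omega
  apply Nat.eq_of_mul_eq_mul_right h6
  refine Eq.trans h1 ?_
  zify [e2, e5]
  ring

end Cfsg.Agent.S0830
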