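import Cfsg.Statements.S0831
import Cfsg.Agent.Lib.H18.MaxSing

set_option autoImplicit false
open Cfsg

namespace Cfsg.Agent.S0831

/-- The two families of maximal totally singular subspaces of the hyperbolic quadric: for the form Σ x_i y_i on F^(2m), m ≥ 1, and m-dimensional subspaces U, W, X on which it vanishes, the parities of m − dim(U ∩ W), m − dim(W ∩ X) and m − dim(U ∩ X) sum to an even number (so 'even codimension of the intersection' is an equivalence relation), and there exist two such subspaces meeting in codimension 1 (so there are exactly two classes). -/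
theorem result {F : Type*} [Field F] (m : ℕ) (hm : 1 ≤ m) : (∀ U W X : Submodule F (Fin m ⊕ Fin m → F), (Module.finrank F U = m ∧ ∀ w ∈ U, Cfsg.quadFormPlus m F w = 0) → (Module.finrank F W = m ∧ ∀ w ∈ W, Cfsg.quadFormPlus m F w = 0) → (Module.finrank F X = m ∧ ∀ w ∈ X, Cfsg.quadFormPlus m F w = 0) → Even ((m - Module.finrank F ↥(U ⊓ W)) + (m - Module.finrank F ↥(W ⊓ X)) + (m - Module.finrank F ↥(U ⊓ X)))) ∧ ∃ U W : Submodule F (Fin m ⊕ Fin m → F), (Module.finrank F U = m ∧ ∀ w ∈ U, Cfsg.quadFormPlus m F w = 0) ∧ (Module.finrank F W = m ∧ ∀ w ∈ W, Cfsg.quadFormPlus m F w = 0) ∧ Module.finrank F ↥(U ⊓ W) + 1 = m := by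
  have hND := H48.QuadStd.nd_qPlus (F := F) m
  have hdim := H18.MaxSing.finrank_space (F := F) m
  have hco := H48.QuadStd.coe_qPlus (F := F) m
  rw [← hco]
  refine ⟨?_, ?_⟩
  · intro U W X hU hW hX
    exact H18.MaxSing.parity hND hdim _ hU.2 hU.1 hW.2 hW.1 hX.2 hX.1 rfl
  · -- two maximal subspaces in codimension one
    have hE := H18.MaxSing.ts_stdE (F := F) m
    have hEm := H18.MaxSing.finrank_stdE (F := F) m
    let w : Fin m ⊕ Fin m → F := Pi.single (Sum.inr ⟨0, hm⟩) 1
    have hwE : w ∉ H18.MaxSing.stdE m F := by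
      rw [H18.MaxSing.mem_stdE]
      intro h
      have := h ⟨0, hm⟩
      simp [w] at this
    have hw0 : w ≠ 0 := by
      intro h
      exact hwE (by rw [h]; exact Submodule.zero_mem _)
    have hQw : H48.QuadStd.qPlus m F w = 0 := by
      rw [H48.QuadStd.qPlus_apply]
      refine Finset.sum_eq_zero fun i _ => ?_
      simp [w]
    have hH : H18.MaxSing.TS (H48.QuadStd.qPlus m F) (Submodule.span F {w}) := by
      intro u hu
      obtain ⟨c, rfl⟩ := Submodule.mem_span_singleton.1 hu
      rw [QuadraticMap.map_smul, hQw, smul_zero]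
    have hH1 : Module.finrank F (Submodule.span F {w}) = 1 := finrank_span_singleton hw0
    have hXH : H18.MaxSing.stdE m F ⊓ Submodule.span F {w} = ⊥ := by
      rw [← disjoint_iff, Submodule.disjoint_def]
      intro x hx hxH
      obtain ⟨c, rfl⟩ := Submodule.mem_span_singleton.1 hxH
      by_cases hc : c = 0
      · rw [hc, zero_smul]
      · exfalso
        apply hwE
        have := (H18.MaxSing.stdE m F).smul_mem c⁻¹ hx
        rwa [smul_smul, inv_mul_cancel₀ hc, one_smul] at this
    have h1 := H18.MaxSing.finrank_inf_orth hND hdim hE hEm (H := Submodule.span F {w})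
    rw [hXH, finrank_bot, hH1] at h1
    set X := (H18.MaxSing.stdE m F ⊓ H48.QuadSplit.orth (H48.QuadStd.qPlus m F) (Submodule.span F {w}))
      ⊔ Submodule.span F {w} with hX
    have hXT : H18.MaxSing.TS (H48.QuadStd.qPlus m F) X := H18.MaxSing.ts_replace hE hH
    have hXm : Module.finrank F X = m := H18.MaxSing.finrank_replace hND hdim hE hEm hH
    have hwX : w ∈ X := Submodule.mem_sup_right (Submodule.mem_span_singleton_self w)
    refine ⟨H18.MaxSing.stdE m F, X, ⟨hEm, hE⟩, ⟨hXm, hXT⟩, ?_⟩
    have h2 : H18.MaxSing.stdE m F ⊓ H48.QuadSplit.orth (H48.QuadStd.qPlus m F) (Submodule.span F {w}) ≤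
        H18.MaxSing.stdE m F ⊓ X := le_inf inf_le_left le_sup_left
    have h3 := Submodule.finrank_mono h2
    have h4 : H18.MaxSing.stdE m F ⊓ X < X := by
      refine lt_of_le_of_ne inf_le_right ?_
      intro h
      apply hwE
      rw [← h] at hwX
      exact hwX.1
    have h5 := Submodule.finrank_lt_finrank_of_lt h4
    omega

end Cfsg.Agent.S0831
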