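import Cfsg.Statements.S0832
import Cfsg.Agent.Lib.H18.MaxSing

set_option autoImplicit false
open Cfsg

namespace Cfsg.Agent.S0832

/-- For the form Σ x_i y_i on F^(2m) over a finite field, m ≥ 1: an (m−1)-dimensional subspace on which the form vanishes is contained in exactly two m-dimensional subspaces on which it vanishes. -/
theorem result {F : Type*} [Field F] [Finite F] (m : ℕ) (hm : 1 ≤ m) (U : Submodule F (Fin m ⊕ Fin m → F)) (hU : Module.finrank F U + 1 = m ∧ ∀ u ∈ U, Cfsg.quadFormPlus m F u = 0) : Nat.card {W : Submodule F (Fin m ⊕ Fin m → F) // Module.finrank F W = m ∧ (∀ w ∈ W, Cfsg.quadFormPlus m F w = 0) ∧ U ≤ W} = 2 := by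
  have hND := H48.QuadStd.nd_qPlus (F := F) m
  have hdim := H18.MaxSing.finrank_space (F := F) m
  have hco := H48.QuadStd.coe_qPlus (F := F) m
  rw [← hco] at hU ⊢
  have hE := H18.MaxSing.ts_stdE (F := F) m
  have hEm := H18.MaxSing.finrank_stdE (F := F) m
  obtain ⟨hUm, hUT⟩ := hU
  set W := (H18.MaxSing.stdE m F ⊓ H48.QuadSplit.orth (H48.QuadStd.qPlus m F) U) ⊔ U with hW
  have hWT : H18.MaxSing.TS (H48.QuadStd.qPlus m F) W := H18.MaxSing.ts_replace hE hUT
  have hWm : Module.finrank F W = m := H18.MaxSing.finrank_replace hND hdim hE hEm hUT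
  obtain ⟨X, hXT, hXm, hUX, hne, hall⟩ :=
    H18.MaxSing.exists_two hND hdim hWT hWm (H := U) le_sup_right hUm
  rw [Nat.card_eq_two_iff]
  refine ⟨⟨W, hWm, hWT, le_sup_right⟩, ⟨X, hXm, hXT, hUX⟩, ?_, ?_⟩
  · intro h
    exact hne (congrArg Subtype.val h).symm
  · ext ⟨Y, hYm, hYT, hUY⟩
    simp only [Set.mem_insert_iff, Set.mem_singleton_iff, Set.mem_univ, iff_true, Subtype.mk.injEq]
    exact hall Y hYT hYm hUY

end Cfsg.Agent.S0832
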