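import Cfsg.Statements.S0833
import Cfsg.Agent.Lib.H18.TensorForm

set_option autoImplicit false
open Cfsg

namespace Cfsg.Agent.S0833

/-- If B₁, B₂ are non-degenerate alternating forms on U (dim 2k) and W (dim 2l), then B₁ ⊗ B₂ on U ⊗ W is symmetric, non-degenerate, and vanishes identically on some subspace of dimension 2kl (half of dim U ⊗ W). -/
theorem result {F U W : Type*} [Field F] [Fintype F] [AddCommGroup U] [Module F U] [FiniteDimensional F U] [AddCommGroup W] [Module F W] [FiniteDimensional F W] (B₁ : LinearMap.BilinForm F U) (B₂ : LinearMap.BilinForm F W) (h₁ : B₁.Nondegenerate) (h₂ : B₂.Nondegenerate) (hA₁ : B₁.IsAlt) (hA₂ : B₂.IsAlt) (k l : ℕ) (hU : Module.finrank F U = 2 * k) (hW : Module.finrank F W = 2 * l) : (B₁.tmul B₂).IsSymm ∧ (B₁.tmul B₂).Nondegenerate ∧ (∃ X : Submodule F (TensorProduct F U W), Module.finrank F X = 2 * k * l ∧ ∀ x ∈ X, ∀ y ∈ X, (B₁.tmul B₂) x y = 0) := by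
  classical
  refine ⟨H18.TensorForm.isSymm_tmul_of_isAlt hA₁ hA₂, H18.TensorForm.nondegenerate_tmul h₁ h₂, ?_⟩
  obtain ⟨L, hL, hL0⟩ := H18.TensorForm.exists_lagrangian h₁ hA₁ k hU
  let g : TensorProduct F L W →ₗ[F] TensorProduct F U W := LinearMap.rTensor W L.subtype
  have hg : Function.Injective g :=
    Module.Flat.rTensor_preserves_injective_linearMap L.subtype L.injective_subtype
  refine ⟨LinearMap.range g, ?_, ?_⟩
  · rw [LinearMap.finrank_range_of_inj hg, Module.finrank_tensorProduct, hL, hW]
    ring
  · have key : ∀ x y : TensorProduct F L W, (B₁.tmul B₂) (g x) (g y) = 0 := by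
      intro x y
      induction x using TensorProduct.induction_on with
      | zero => simp
      | add x x' hx hx' => rw [map_add, map_add, LinearMap.add_apply, hx, hx', add_zero]
      | tmul u w =>
        induction y using TensorProduct.induction_on with
        | zero => simp
        | add y y' hy hy' => rw [map_add, map_add, hy, hy', add_zero]
        | tmul u' w' =>
          show B₂ w w' * B₁ u u' = 0
          rw [hL0 u u.2 u' u'.2, mul_zero]
    rintro _ ⟨x, rfl⟩ _ ⟨y, rfl⟩
    exact key x y

end Cfsg.Agent.S0833
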