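import Cfsg.Statements.S0834
import Cfsg.Agent.Lib.H18.TensorForm

set_option autoImplicit false
open Cfsg

namespace Cfsg.Agent.S0834

/-- Over a finite field with 2 ≠ 0: if B₁ on U (dim 2k, k ≥ 1) and B₂ on W (dim 2l, l ≥ 1) are non-degenerate symmetric forms admitting no totally isotropic subspaces of dimensions k, resp. l (minus type), then B₁ ⊗ B₂ admits a totally isotropic subspace of dimension 2kl (plus type). -/
theorem result {F U W : Type*} [Field F] [Fintype F] [AddCommGroup U] [Module F U] [FiniteDimensional F U] [AddCommGroup W] [Module F W] [FiniteDimensional F W] (h2 : (2 : F) ≠ 0) (B₁ : LinearMap.BilinForm F U) (B₂ : LinearMap.BilinForm F W) (h₁ : B₁.Nondegenerate) (h₂ : B₂.Nondegenerate) (hS₁ : B₁.IsSymm) (hS₂ : B₂.IsSymm) (k l : ℕ) (hk : 1 ≤ k) (hl : 1 ≤ l) (hU : Module.finrank F U = 2 * k) (hW : Module.finrank F W = 2 * l) (hm₁ : ¬ (∃ X : Submodule F (U), Module.finrank F X = k ∧ ∀ x ∈ X, ∀ y ∈ X, (B₁) x y =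 0)) (hm₂ : ¬ (∃ X : Submodule F (W), Module.finrank F X = l ∧ ∀ x ∈ X, ∀ y ∈ X, (B₂) x y = 0)) : (∃ X : Submodule F (TensorProduct F U W), Module.finrank F X = 2 * k * l ∧ ∀ x ∈ X, ∀ y ∈ X, (B₁.tmul B₂) x y = 0) := by
  classical
  let b := Module.finBasis F U
  let c := Module.finBasis F W
  refine H18.TensorForm.ti_of_isSquare h2 ⟨(LinearMap.IsSymm.tmul (B₁ := B₁) (B₂ := B₂) ⟨hS₁.eq⟩ ⟨hS₂.eq⟩).eq⟩ (H18.TensorForm.nondegenerate_tmul h₁ h₂)
    ?_ (b.tensorProduct c) ?_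
  · rw [Module.finrank_tensorProduct, hU, hW]; ring
  · have h3 := H18.TensorForm.det_tmul b c B₁ B₂
    rw [h3, Fintype.card_fin, Fintype.card_fin]
    generalize (LinearMap.BilinForm.toMatrix b B₁).det = x
    generalize (LinearMap.BilinForm.toMatrix c B₂).det = y
    rw [hU, hW]
    refine ⟨(-1) ^ (k * l) * x ^ l * y ^ k, ?_⟩
    ring

end Cfsg.Agent.S0834
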