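import Cfsg.Statements.S0835
import Cfsg.Agent.Lib.H18.TensorForm

set_option autoImplicit false
open Cfsg

namespace Cfsg.Agent.S0835

/-- Over a finite field with 2 ≠ 0: if B₁ on U (dim 2k, k ≥ 1) is non-degenerate symmetric of minus type (no totally isotropic k-subspace) and B₂ on W (dim 2l + 1) is non-degenerate symmetric, then B₁ ⊗ B₂ (dimension 2k(2l+1)) admits no totally isotropic subspace of dimension k(2l+1) (minus type). -/
theorem result {F U W : Type*} [Field F] [Fintype F] [AddCommGroup U] [Module F U] [FiniteDimensional F U] [AddCommGroup W] [Module F W] [FiniteDimensional F W] (h2 : (2 : F) ≠ 0) (B₁ : LinearMap.BilinForm F U) (B₂ : LinearMap.BilinForm F W) (h₁ : B₁.Nondegenerate) (h₂ : B₂.Nondegenerate) (hS₁ : B₁.IsSymm) (hS₂ : B₂.IsSymm) (k l : ℕ) (hk : 1 ≤ k) (hU : Module.finrank F U = 2 * k) (hW : Module.finrank F W = 2 * l + 1) (hm₁ : ¬ (∃ X : Submodule F (U), Module.finrank F X = k ∧ ∀ x ∈ X, ∀ y ∈ X,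 (B₁) x y = 0)) : ¬ (∃ X : Submodule F (TensorProduct F U W), Module.finrank F X = k * (2 * l + 1) ∧ ∀ x ∈ X, ∀ y ∈ X, (B₁.tmul B₂) x y = 0) := by
  classical
  intro hX
  apply hm₁
  let b := Module.finBasis F U
  let c := Module.finBasis F W
  refine H18.TensorForm.ti_of_isSquare h2 hS₁ h₁ hU b ?_
  have hd : Module.finrank F (TensorProduct F U W) = 2 * (k * (2 * l + 1)) := by
    rw [Module.finrank_tensorProduct, hU, hW]; ring
  have h3 := H18.TensorForm.isSquare_of_ti ⟨(LinearMap.IsSymm.tmul (B₁ := B₁) (B₂ := B₂) ⟨hS₁.eq⟩ ⟨hS₂.eq⟩).eq⟩ hd hX (b.tensorProduct c)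
  rw [H18.TensorForm.det_tmul b c B₁ B₂, Fintype.card_fin, Fintype.card_fin] at h3
  have hd1 : (LinearMap.BilinForm.toMatrix b B₁).det ≠ 0 :=
    (LinearMap.BilinForm.nondegenerate_iff_det_ne_zero b).1 h₁
  have hd2 : (LinearMap.BilinForm.toMatrix c B₂).det ≠ 0 :=
    (LinearMap.BilinForm.nondegenerate_iff_det_ne_zero c).1 h₂
  generalize (LinearMap.BilinForm.toMatrix b B₁).det = x at h3 hd1 ⊢
  generalize (LinearMap.BilinForm.toMatrix c B₂).det = y at h3 hd2
  rw [hU, hW] at h3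
  obtain ⟨s, hs⟩ := h3
  have hz : ((-1) ^ k * x) ≠ 0 := mul_ne_zero (pow_ne_zero _ (by simp)) hd1
  refine ⟨s / (((-1) ^ k * x) ^ l * y ^ k), ?_⟩
  have hw : (((-1) ^ k * x) ^ l * y ^ k) ≠ 0 := mul_ne_zero (pow_ne_zero _ hz) (pow_ne_zero _ hd2)
  rw [div_mul_div_comm, eq_div_iff (mul_ne_zero hw hw), ← hs]
  ring

end Cfsg.Agent.S0835
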