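import Cfsg.Statements.S0836
import Mathlib

set_option autoImplicit false
open Cfsg

namespace Cfsg.Agent.S0836

/-- For i ≠ j and any scalar c, the elementary transvection 1 + c E_ij is a commutator ⁅g, h⁆ of two elements of SL_n(F) provided n ≥ 3, or n = 2 and F contains x ≠ 0 with x² ≠ 1. -/
theorem result {F : Type*} [Field F] (n : ℕ) (hn : 3 ≤ n ∨ (n = 2 ∧ ∃ x : F, x ≠ 0 ∧ x ^ 2 ≠ 1)) (i j : Fin n) (hij : i ≠ j) (c : F) (t : Matrix.SpecialLinearGroup (Fin n) F) (ht : (t : Matrix (Fin n) (Fin n) F) = Matrix.transvection i j c) : t ∈ commutatorSet (Matrix.SpecialLinearGroup (Fin n) F) := by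
  have htv : ∀ (a b : Fin n) (hab : a ≠ b) (s : F), ∃ g : Matrix.SpecialLinearGroup (Fin n) F,
      (g : Matrix (Fin n) (Fin n) F) = Matrix.transvection a b s ∧
      ((g⁻¹ : Matrix.SpecialLinearGroup (Fin n) F) : Matrix (Fin n) (Fin n) F) =
        Matrix.transvection a b (-s) := by
    intro a b hab s
    let g : Matrix.SpecialLinearGroup (Fin n) F :=
      ⟨Matrix.transvection a b s, Matrix.det_transvection_of_ne a b hab s⟩
    let g' : Matrix.SpecialLinearGroup (Fin n) F :=
      ⟨Matrix.transvection a b (-s), Matrix.det_transvection_of_ne a b hab (-s)⟩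
    have h1 : g * g' = 1 := by
      apply Subtype.ext
      show Matrix.transvection a b s * Matrix.transvection a b (-s) = 1
      rw [Matrix.transvection_mul_transvection_same _ _ hab]
      simp
    refine ⟨g, rfl, ?_⟩
    rw [inv_eq_of_mul_eq_one_right h1]
  rw [mem_commutatorSet_iff]
  by_cases h3 : 3 ≤ n
  · obtain ⟨k, hk⟩ : ∃ k : Fin n, k ≠ i ∧ k ≠ j := by
      by_contra hcon
      push Not at hcon
      have hsub : (Finset.univ : Finset (Fin n)) ⊆ {i, j} := by
        intro k _
        by_cases hki : k = i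
        · simp [hki]
        · simp [hcon k hki]
      have h4 := Finset.card_le_card hsub
      have h5 : ({i, j} : Finset (Fin n)).card ≤ 2 := Finset.card_le_two
      rw [Finset.card_univ, Fintype.card_fin] at h4
      omega
    obtain ⟨g, hg, hg'⟩ := htv i k hk.1.symm c
    obtain ⟨h, hh, hh'⟩ := htv k j hk.2 1
    refine ⟨g, h, ?_⟩
    apply Subtype.ext
    rw [commutatorElement_def]
    show (g : Matrix (Fin n) (Fin n) F) * (h : Matrix (Fin n) (Fin n) F) *
      ((g⁻¹ : Matrix.SpecialLinearGroup (Fin n) F) : Matrix (Fin n) (Fin n) F) *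
      ((h⁻¹ : Matrix.SpecialLinearGroup (Fin n) F) : Matrix (Fin n) (Fin n) F) = t
    rw [hg, hg', hh, hh', ht]
    simp only [Matrix.transvection]
    have hneg1 : Matrix.single i k (-c) = -Matrix.single i k c := by
      ext a b; simp [Matrix.single_apply]; split_ifs <;> simp
    have hneg2 : Matrix.single k j (-1 : F) = -Matrix.single k j 1 := by
      ext a b; simp [Matrix.single_apply]; split_ifs <;> simp
    rw [hneg1, hneg2]
    have hab : Matrix.single i k c * Matrix.single k j 1 = Matrix.single i j c := by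
      rw [Matrix.single_mul_single_same, mul_one]
    have haa : Matrix.single i k c * Matrix.single i k c = 0 :=
      Matrix.single_mul_single_of_ne _ _ _ _ hk.1 _
    have hbb : Matrix.single k j (1 : F) * Matrix.single k j 1 = 0 :=
      Matrix.single_mul_single_of_ne _ _ _ _ hk.2.symm _
    have hba : Matrix.single k j (1 : F) * Matrix.single i k c = 0 :=
      Matrix.single_mul_single_of_ne _ _ _ _ hij.symm _
    rw [← hab]
    generalize Matrix.single i k c = a at *
    generalize Matrix.single k j (1 : F) = b at *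
    have haa' : ∀ z : Matrix (Fin n) (Fin n) F, a * (a * z) = 0 := fun z => by
      rw [← mul_assoc, haa, zero_mul]
    have hbb' : ∀ z : Matrix (Fin n) (Fin n) F, b * (b * z) = 0 := fun z => by
      rw [← mul_assoc, hbb, zero_mul]
    have hba' : ∀ z : Matrix (Fin n) (Fin n) F, b * (a * z) = 0 := fun z => by
      rw [← mul_assoc, hba, zero_mul]
    simp only [mul_add, add_mul, mul_neg, neg_mul, one_mul, mul_one, mul_assoc, haa, hbb, hba, haa',
      hbb', hba', mul_zero, zero_mul, neg_zero, neg_neg]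
    abel
  · have hn2 : n = 2 ∧ ∃ x : F, x ≠ 0 ∧ x ^ 2 ≠ 1 := by
      rcases hn with h | h
      · exact absurd h h3
      · exact h
    obtain ⟨rfl, x, hx0, hx1⟩ := hn2
    have hx2 : x ^ 2 - 1 ≠ 0 := sub_ne_zero.2 hx1
    obtain ⟨g, hg, hg'⟩ := htv i j hij (c / (x ^ 2 - 1))
    have hd : (i = 0 ∧ j = 1) ∨ (i = 1 ∧ j = 0) := by
      fin_cases i <;> fin_cases j <;> simp_all
    have h01 : ∀ s : F, Matrix.transvection (0 : Fin 2) 1 s = !![1, s; 0, 1] := by
      intro s
      ext a b
      fin_cases a <;> fin_cases b <;> simp [Matrix.transvection, Matrix.single_apply]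
    have h10 : ∀ s : F, Matrix.transvection (1 : Fin 2) 0 s = !![1, 0; s, 1] := by
      intro s
      ext a b
      fin_cases a <;> fin_cases b <;> simp [Matrix.transvection, Matrix.single_apply]
    rcases hd with ⟨rfl, rfl⟩ | ⟨rfl, rfl⟩
    · let d : Matrix.SpecialLinearGroup (Fin 2) F :=
        ⟨!![x, 0; 0, x⁻¹], by simp [Matrix.det_fin_two, hx0]⟩
      refine ⟨d, g, ?_⟩
      apply Subtype.ext
      have hd' : ((d⁻¹ : Matrix.SpecialLinearGroup (Fin 2) F) : Matrix (Fin 2) (Fin 2) F) =
          !![x⁻¹, 0; 0, x] := by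
        rw [Matrix.SpecialLinearGroup.coe_inv]
        simp [d, Matrix.adjugate_fin_two]
      rw [commutatorElement_def]
      show (d : Matrix (Fin 2) (Fin 2) F) * (g : Matrix (Fin 2) (Fin 2) F) *
        ((d⁻¹ : Matrix.SpecialLinearGroup (Fin 2) F) : Matrix (Fin 2) (Fin 2) F) *
        ((g⁻¹ : Matrix.SpecialLinearGroup (Fin 2) F) : Matrix (Fin 2) (Fin 2) F) = t
      rw [hg, hg', hd', ht]
      have h1 : (d : Matrix (Fin 2) (Fin 2) F) = !![x, 0; 0, x⁻¹] := rfl
      rw [h1]
      rw [h01, h01, h01, Matrix.mul_fin_two, Matrix.mul_fin_two, Matrix.mul_fin_two]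
      ext a b
      fin_cases a <;> fin_cases b <;> simp [hx0]
      field_simp
      ring
    · let d : Matrix.SpecialLinearGroup (Fin 2) F :=
        ⟨!![x⁻¹, 0; 0, x], by simp [Matrix.det_fin_two, hx0]⟩
      refine ⟨d, g, ?_⟩
      apply Subtype.ext
      have hd' : ((d⁻¹ : Matrix.SpecialLinearGroup (Fin 2) F) : Matrix (Fin 2) (Fin 2) F) =
          !![x, 0; 0, x⁻¹] := by
        rw [Matrix.SpecialLinearGroup.coe_inv]
        simp [d, Matrix.adjugate_fin_two]
      rw [commutatorElement_def]
      show (d : Matrix (Fin 2) (Fin 2) F) * (g : Matrix (Fin 2) (Fin 2) F) *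
        ((d⁻¹ : Matrix.SpecialLinearGroup (Fin 2) F) : Matrix (Fin 2) (Fin 2) F) *
        ((g⁻¹ : Matrix.SpecialLinearGroup (Fin 2) F) : Matrix (Fin 2) (Fin 2) F) = t
      rw [hg, hg', hd', ht]
      have h1 : (d : Matrix (Fin 2) (Fin 2) F) = !![x⁻¹, 0; 0, x] := rfl
      rw [h1]
      rw [h10, h10, h10, Matrix.mul_fin_two, Matrix.mul_fin_two, Matrix.mul_fin_two]
      ext a b
      fin_cases a <;> fin_cases b <;> simp [hx0]
      field_simp
      ring

end Cfsg.Agent.S0836
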