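import Cfsg.Statements.S0837
import Cfsg.Agent.Lib.H49.Unitary
import Cfsg.Agent.Lib.H41.Herm
import Cfsg.Agent.Lib.H16.Herm

set_option autoImplicit false
open Cfsg

namespace Cfsg.Agent.S0837

open H49.Unitary Matrix

/-- the form as a sesquilinear map -/
noncomputable def hmap {F : Type*} [Field F] [Fintype F] {q : ℕ} (hF : Fintype.card F = q ^ 2)
    (hK : Nat.card F = q ^ 2) (n : ℕ) : (Fin n → F) →ₗ[F] (Fin n → F) →ₛₗ[frob hK] F where
  toFun u :=
    { toFun := fun v => Cfsg.hermForm n F q u v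
      map_add' := fun v w => H16.Herm.hermForm_add_right hF u v w
      map_smul' := fun c v => by
        rw [H16.Herm.hermForm_smul_right]; rfl }
  map_add' u v := by
    ext w
    exact H16.Herm.hermForm_add_left u v w
  map_smul' c u := by
    ext w
    exact H16.Herm.hermForm_smul_left c u w

theorem exists_frame {F : Type*} [Field F] [Fintype F] {q : ℕ} (hF : Fintype.card F = q ^ 2)
    (hK : Nat.card F = q ^ 2) (n k : ℕ) (W : Submodule F (Fin n → F))
    (hWk : Module.finrank F W = k)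
    (hW : ∀ u ∈ W, (∀ v ∈ W, Cfsg.hermForm n F q u v = 0) → u = 0) :
    ∃ (e : Fin k → (Fin n → F)) (f : Fin (n - k) → (Fin n → F)),
      (∀ i j, Cfsg.hermForm n F q (e i) (e j) = if i = j then 1 else 0) ∧
      (∀ i j, Cfsg.hermForm n F q (f i) (f j) = if i = j then 1 else 0) ∧
      (∀ i j, Cfsg.hermForm n F q (f i) (e j) = 0) ∧
      (∀ i, e i ∈ W) ∧ (∀ i, ∀ w ∈ W, Cfsg.hermForm n F q (f i) w = 0) ∧
      Submodule.span F (Set.range e) = W := by
  classical
  have hB : ∀ x y : Fin n → F, hmap hF hK n y x = frob hK (hmap hF hK n x y) := fun x y =>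
    (H16.Herm.hermForm_swap hF x y).symm
  obtain ⟨e, he⟩ := H41.Herm.exists_orthonormal hF (σ := frob hK) (fun x => rfl) k
    (V := W) (H41.Sesq.res (hmap hF hK n) W) (fun x y => hB x.1 y.1)
    (fun x hx => Subtype.ext (hW x.1 x.2 fun v hv => hx ⟨v, hv⟩)) hWk
  have he' : ∀ i j, hmap hF hK n (e i).1 (e j).1 = (1 : Matrix (Fin k) (Fin k) F) i j := by
    intro i j
    rw [Matrix.one_apply]
    exact he i j
  have hdet : IsUnit (1 : Matrix (Fin k) (Fin k) F).det := by simp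
  have hnd : ∀ x : Fin n → F, (∀ y, hmap hF hK n x y = 0) → x = 0 := fun x hx =>
    H16.Herm.eq_zero_of_forall_right hF hx
  have hfr := H41.Sesq.finrank_orth (hmap hF hK n) (fun i => (e i).1) 1 hdet he'
  rw [Fintype.card_fin, Module.finrank_fintype_fun_eq_card, Fintype.card_fin] at hfr
  obtain ⟨f, hf⟩ := H41.Herm.exists_orthonormal hF (σ := frob hK) (fun x => rfl) (n - k)
    (H41.Sesq.res (hmap hF hK n) (H41.Sesq.orth (hmap hF hK n) (fun i => (e i).1)))
    (fun x y => hB x.1 y.1) (H41.Sesq.res_orth_nondeg _ _ 1 hdet he' hnd) (by omega)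
  have hspan : Submodule.span F (Set.range fun i => (e i).1) = W := by
    apply Submodule.eq_of_le_of_finrank_eq
    · rw [Submodule.span_le]
      rintro _ ⟨i, rfl⟩
      exact (e i).2
    · rw [finrank_span_eq_card (H41.Sesq.linearIndependent_of_gram (hmap hF hK n) _ 1 hdet he'),
        Fintype.card_fin, hWk]
  refine ⟨fun i => (e i).1, fun i => (f i).1, fun i j => he i j, fun i j => hf i j,
    fun i j => (f i).2 j, fun i => (e i).2, fun i w hw => ?_, hspan⟩
  rw [← hspan] at hw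
  obtain ⟨c, rfl⟩ := (Submodule.mem_span_range_iff_exists_fun F).mp hw
  show hmap hF hK n _ _ = 0
  rw [map_sum]
  apply Finset.sum_eq_zero
  intro j _
  rw [LinearMap.map_smulₛₗ]
  have : hmap hF hK n (f i).1 (e j).1 = 0 := (f i).2 j
  rw [this, smul_zero]

theorem ct_fromBlocks {F : Type*} [Field F] [Finite F] {q : ℕ} (hK : Nat.card F = q ^ 2)
    {k l : ℕ} (A : Matrix (Fin k) (Fin k) F) (D : Matrix (Fin l) (Fin l) F) :
    ct hK (fromBlocks A 0 0 D) = fromBlocks (ct hK A) 0 0 (ct hK D) := by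
  unfold ct
  rw [fromBlocks_map, fromBlocks_transpose, Matrix.map_zero, Matrix.map_zero,
    Matrix.transpose_zero, Matrix.transpose_zero]
  · exact map_zero _
  · exact map_zero _

/-- If W ≤ F^n (|F| = q²) is a k-dimensional subspace on which the Hermitian form Σ x_i y_i^q is non-degenerate, then the stabiliser of W in GU_n(q) is isomorphic to GU_k(q) × GU_(n−k)(q). -/
theorem result {F : Type*} [Field F] [Fintype F] {q : ℕ} (hF : Fintype.card F = q ^ 2) (n k : ℕ) (hk : k ≤ n) (W : Submodule F (Fin n → F)) (hWk : Module.finrank F W = k) (hW : ∀ u ∈ W, (∀ v ∈ W, Cfsg.hermForm n F q u v = 0) → u = 0) : Nonempty (↥((Cfsg.stabilizing (Cfsg.glToMat (Fin n) F) (W : Set (Fin n → F))).subgroupOf (Cfsg.GU n F q)) ≃* ↥(Cfsg.GU k F q) × ↥(Cfsg.GU (n - k) F q)) := by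
  classical
  have hK : Nat.card F = q ^ 2 := by rw [Nat.card_eq_fintype_card, hF]
  obtain ⟨e, f, hee, hff, hfe, heW, hfW, hspan⟩ := exists_frame hF hK n k W hWk hW
  have hcardeq : Fintype.card (Fin n) = Fintype.card (Fin k ⊕ Fin (n - k)) := by
    rw [Fintype.card_sum, Fintype.card_fin, Fintype.card_fin, Fintype.card_fin]
    omega
  let eqv : Fin n ≃ Fin k ⊕ Fin (n - k) := Fintype.equivOfCardEq hcardeq
  let b : Fin k ⊕ Fin (n - k) → (Fin n → F) := Sum.elim e f
  have hef : ∀ i j, Cfsg.hermForm n F q (e i) (f j) = 0 := by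
    intro i j
    rw [← H16.Herm.hermForm_swap hF, hfe, H16.Herm.zero_pow_q hF]
  have hb : ∀ i j, Cfsg.hermForm n F q (b i) (b j) = if i = j then 1 else 0 := by
    rintro (i | i) (j | j)
    · rw [show b (Sum.inl i) = e i from rfl, show b (Sum.inl j) = e j from rfl, hee]
      simp
    · rw [show b (Sum.inl i) = e i from rfl, show b (Sum.inr j) = f j from rfl, hef]
      simp
    · rw [show b (Sum.inr i) = f i from rfl, show b (Sum.inl j) = e j from rfl, hfe]
      simp
    · rw [show b (Sum.inr i) = f i from rfl, show b (Sum.inr j) = f j from rfl, hff]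
      simp
  let Q : Matrix (Fin n) (Fin n) F := Matrix.of fun i j => b (eqv j) i
  have key : ∀ (M : Matrix (Fin n) (Fin n) F) (i j : Fin n),
      (ct hK Q * M * Q) i j = Cfsg.hermForm n F q (M *ᵥ b (eqv j)) (b (eqv i)) := by
    intro M i j
    rw [mul_assoc, Matrix.mul_apply]
    unfold Cfsg.hermForm
    refine Finset.sum_congr rfl fun l _ => ?_
    rw [ct_apply, mul_comm, Matrix.mul_apply]
    rfl
  have hQ : ct hK Q * Q = 1 := by
    ext i j
    have := key 1 i j
    rw [mul_one] at this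
    rw [this, Matrix.one_mulVec, hb, Matrix.one_apply]
    simp only [EmbeddingLike.apply_eq_iff_eq]
    by_cases h : i = j
    · simp [h]
    · rw [if_neg h, if_neg (Ne.symm h)]
  have hQ' : Q * ct hK Q = 1 := mul_eq_one_comm.1 hQ
  let blk : Matrix (Fin k) (Fin k) F × Matrix (Fin (n - k)) (Fin (n - k)) F →
      Matrix (Fin n) (Fin n) F := fun p => (fromBlocks p.1 0 0 p.2).submatrix eqv eqv
  have blk_mul : ∀ p r, blk (p * r) = blk p * blk r := by
    intro p r
    show (fromBlocks (p.1 * r.1) 0 0 (p.2 * r.2)).submatrix eqv eqv = _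
    show _ = (fromBlocks p.1 0 0 p.2).submatrix eqv eqv * (fromBlocks r.1 0 0 r.2).submatrix eqv eqv
    rw [Matrix.submatrix_mul_equiv, fromBlocks_multiply]
    simp
  have blk_mul' : ∀ A A' D D', blk (A * A', D * D') = blk (A, D) * blk (A', D') :=
    fun A A' D D' => blk_mul (A, D) (A', D')
  have blk_one : blk 1 = 1 := by
    show (fromBlocks 1 0 0 1).submatrix eqv eqv = _
    rw [fromBlocks_one, Matrix.submatrix_one_equiv]
  have blk_ct : ∀ p, ct hK (blk p) = blk (ct hK p.1, ct hK p.2) := by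
    intro p
    show ct hK ((fromBlocks p.1 0 0 p.2).submatrix eqv eqv) =
      (fromBlocks (ct hK p.1) 0 0 (ct hK p.2)).submatrix eqv eqv
    rw [← ct_fromBlocks]
    rfl
  have blk_inj : ∀ p r, blk p = blk r → p = r := by
    intro p r h
    have h1 : fromBlocks p.1 0 0 p.2 = fromBlocks r.1 0 0 r.2 := by
      have h2 := congrArg (fun M => M.submatrix eqv.symm eqv.symm) h
      simpa [blk, Matrix.submatrix_submatrix] using h2
    rw [fromBlocks_inj] at h1
    exact Prod.ext h1.1 h1.2.2.2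
  have hQmul : ∀ X Y : Matrix (Fin n) (Fin n) F,
      Q * (X * Y) * ct hK Q = (Q * X * ct hK Q) * (Q * Y * ct hK Q) := by
    intro X Y
    calc _ = Q * (X * 1 * Y) * ct hK Q := by rw [mul_one]
      _ = _ := by rw [← hQ]; noncomm_ring
  let φ : (Cfsg.GU k F q) × (Cfsg.GU (n - k) F q) →* Matrix (Fin n) (Fin n) F :=
    { toFun := fun p => Q * blk (((p.1 : GL (Fin k) F) : Matrix (Fin k) (Fin k) F),
        ((p.2 : GL (Fin (n - k)) F) : Matrix _ _ F)) * ct hK Q
      map_one' := by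
        show Q * blk (1, 1) * ct hK Q = 1
        rw [show ((1 : Matrix (Fin k) (Fin k) F), (1 : Matrix (Fin (n - k)) (Fin (n - k)) F)) = 1
          from rfl, blk_one, mul_one, hQ']
      map_mul' := fun p r => by
        simp only [Prod.fst_mul, Prod.snd_mul, Subgroup.coe_mul, Units.val_mul]
        rw [blk_mul', hQmul] }
  have φ_apply : ∀ p, φ p = Q * blk (((p.1 : GL (Fin k) F) : Matrix (Fin k) (Fin k) F),
        ((p.2 : GL (Fin (n - k)) F) : Matrix _ _ F)) * ct hK Q := fun p => rfl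
  let ψ : (Cfsg.GU k F q) × (Cfsg.GU (n - k) F q) →* GL (Fin n) F := φ.toHomUnits
  have ψ_apply : ∀ p, ((ψ p : GL (Fin n) F) : Matrix (Fin n) (Fin n) F) = φ p := fun p => rfl
  have ψ_GU : ∀ p, ψ p ∈ Cfsg.GU n F q := by
    intro p
    rw [mem_GU hK, ψ_apply, φ_apply, ct_mul, ct_mul, ct_ct, blk_ct]
    have h1 := (mem_GU hK _).1 p.1.2
    have h2 := (mem_GU hK _).1 p.2.2
    calc _ = Q * (blk _ * (ct hK Q * Q) * blk _) * ct hK Q := by noncomm_ring
      _ = _ := by
        rw [hQ, mul_one, ← blk_mul, Prod.mk_mul_mk, h1, h2,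
          show ((1 : Matrix (Fin k) (Fin k) F), (1 : Matrix (Fin (n - k)) (Fin (n - k)) F)) = 1
          from rfl, blk_one, mul_one, hQ']
  -- membership in `W`
  have hWmem : ∀ w : Fin n → F, (∀ j, Cfsg.hermForm n F q w (f j) = 0) → w ∈ W := by
    intro w hw
    have h1 : w = Q *ᵥ (ct hK Q *ᵥ w) := by
      rw [Matrix.mulVec_mulVec, hQ', Matrix.one_mulVec]
    have h2 : ∀ i, (ct hK Q *ᵥ w) i = Cfsg.hermForm n F q w (b (eqv i)) := by
      intro i
      unfold Cfsg.hermForm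
      simp only [Matrix.mulVec, dotProduct]
      refine Finset.sum_congr rfl fun l _ => ?_
      rw [ct_apply, mul_comm]
      rfl
    have h3 : Q *ᵥ (ct hK Q *ᵥ w) =
        ∑ i, Cfsg.hermForm n F q w (b (eqv i)) • b (eqv i) := by
      ext l
      rw [Finset.sum_apply]
      show ∑ i, Q l i * (ct hK Q *ᵥ w) i = _
      refine Finset.sum_congr rfl fun i _ => ?_
      rw [Pi.smul_apply, smul_eq_mul, mul_comm, h2]
      rfl
    rw [h1, h3]
    refine W.sum_mem fun i _ => ?_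
    rcases hi : eqv i with a | c
    · exact W.smul_mem _ (heW a)
    · rw [show b (Sum.inr c) = f c from rfl, hw, zero_smul]
      exact W.zero_mem
  have hmap : ∀ M : Matrix (Fin n) (Fin n) F,
      (∀ a j, Cfsg.hermForm n F q (M *ᵥ e a) (f j) = 0) → ∀ w ∈ W, M *ᵥ w ∈ W := by
    intro M hM w hw
    rw [← hspan] at hw
    refine Submodule.span_induction ?_ ?_ ?_ ?_ hw
    · rintro _ ⟨a, rfl⟩
      exact hWmem _ (hM a)
    · rw [Matrix.mulVec_zero]; exact W.zero_mem
    · intro x y _ _ hx hy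
      rw [Matrix.mulVec_add]; exact W.add_mem hx hy
    · intro c x _ hx
      rw [Matrix.mulVec_smul]; exact W.smul_mem c hx
  have hφe : ∀ p a j, Cfsg.hermForm n F q (φ p *ᵥ e a) (f j) = 0 := by
    intro p a j
    have h1 := key (φ p) (eqv.symm (Sum.inr j)) (eqv.symm (Sum.inl a))
    rw [Equiv.apply_symm_apply, Equiv.apply_symm_apply] at h1
    rw [show b (Sum.inr j) = f j from rfl, show b (Sum.inl a) = e a from rfl] at h1
    rw [← h1, φ_apply]
    have h2 : ct hK Q * (Q * blk (((p.1 : GL (Fin k) F) : Matrix (Fin k) (Fin k) F),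
        ((p.2 : GL (Fin (n - k)) F) : Matrix _ _ F)) * ct hK Q) * Q =
        (ct hK Q * Q) * blk (((p.1 : GL (Fin k) F) : Matrix (Fin k) (Fin k) F),
        ((p.2 : GL (Fin (n - k)) F) : Matrix _ _ F)) * (ct hK Q * Q) := by noncomm_ring
    rw [h2, hQ, one_mul, mul_one]
    show (fromBlocks _ 0 0 _ : Matrix (Fin k ⊕ Fin (n - k)) (Fin k ⊕ Fin (n - k)) F)
      (eqv (eqv.symm (Sum.inr j))) (eqv (eqv.symm (Sum.inl a))) = 0
    rw [Equiv.apply_symm_apply, Equiv.apply_symm_apply]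
    rfl
  let ψ₁ : (Cfsg.GU k F q) × (Cfsg.GU (n - k) F q) →* Cfsg.GU n F q := ψ.codRestrict _ ψ_GU
  have hψ₁ : ∀ p, ψ₁ p ∈ (Cfsg.stabilizing (Cfsg.glToMat (Fin n) F)
      (W : Set (Fin n → F))).subgroupOf (Cfsg.GU n F q) := by
    intro p
    rw [Subgroup.mem_subgroupOf]
    intro v
    show v ∈ W ↔ φ p *ᵥ v ∈ W
    constructor
    · exact hmap _ (hφe p) v
    · intro h
      have h1 := hmap _ (hφe p⁻¹) _ h
      rw [Matrix.mulVec_mulVec, ← map_mul, inv_mul_cancel, map_one, Matrix.one_mulVec] at h1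
      exact h1
  let Ψ := ψ₁.codRestrict _ hψ₁
  refine ⟨(MulEquiv.ofBijective Ψ ⟨?_, ?_⟩).symm⟩
  · rw [injective_iff_map_eq_one]
    intro p hp
    have h1 : φ p = 1 := congrArg (fun x => ((x.1.1 : GL (Fin n) F) : Matrix (Fin n) (Fin n) F)) hp
    rw [φ_apply] at h1
    have h2 : blk (((p.1 : GL (Fin k) F) : Matrix (Fin k) (Fin k) F),
        ((p.2 : GL (Fin (n - k)) F) : Matrix _ _ F)) = blk 1 := by
      calc _ = (ct hK Q * Q) * blk (((p.1 : GL (Fin k) F) : Matrix (Fin k) (Fin k) F),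
        ((p.2 : GL (Fin (n - k)) F) : Matrix _ _ F)) * (ct hK Q * Q) := by rw [hQ, one_mul, mul_one]
        _ = ct hK Q * (Q * blk (((p.1 : GL (Fin k) F) : Matrix (Fin k) (Fin k) F),
        ((p.2 : GL (Fin (n - k)) F) : Matrix _ _ F)) * ct hK Q) * Q := by noncomm_ring
        _ = _ := by rw [h1, mul_one, hQ, blk_one]
    have h3 := blk_inj _ _ h2
    have h4 := congrArg Prod.fst h3
    have h5 := congrArg Prod.snd h3
    exact Prod.ext (Subtype.ext (Units.ext h4)) (Subtype.ext (Units.ext h5))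
  · rintro ⟨⟨g, hg⟩, hgW⟩
    have hgW' : ∀ v, v ∈ W ↔ (g : Matrix (Fin n) (Fin n) F) *ᵥ v ∈ W := hgW
    have hgf : ∀ u v, Cfsg.hermForm n F q ((g : Matrix (Fin n) (Fin n) F) *ᵥ u)
      ((g : Matrix (Fin n) (Fin n) F) *ᵥ v) = Cfsg.hermForm n F q u v := hg
    have hgu := (mem_GU hK g).1 hg
    set M := (g : Matrix (Fin n) (Fin n) F) with hM
    let N : Matrix (Fin k ⊕ Fin (n - k)) (Fin k ⊕ Fin (n - k)) F :=
      (ct hK Q * M * Q).submatrix eqv.symm eqv.symm
    have hN : ∀ i j, N i j = Cfsg.hermForm n F q (M *ᵥ b j) (b i) := by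
      intro i j
      show (ct hK Q * M * Q) (eqv.symm i) (eqv.symm j) = _
      rw [key, Equiv.apply_symm_apply, Equiv.apply_symm_apply]
    have hN21 : N.toBlocks₂₁ = 0 := by
      ext j a
      show N (Sum.inr j) (Sum.inl a) = 0
      rw [hN]
      show Cfsg.hermForm n F q (M *ᵥ e a) (f j) = 0
      rw [← H16.Herm.hermForm_swap hF, hfW j _ ((hgW' _).1 (heW a)), H16.Herm.zero_pow_q hF]
    have hN12 : N.toBlocks₁₂ = 0 := by
      ext j a
      show N (Sum.inl j) (Sum.inr a) = 0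
      rw [hN]
      show Cfsg.hermForm n F q (M *ᵥ f a) (e j) = 0
      have h1 : M *ᵥ (((g⁻¹ : GL (Fin n) F) : Matrix (Fin n) (Fin n) F) *ᵥ e j) = e j := by
        rw [Matrix.mulVec_mulVec, hM, Units.mul_inv, Matrix.one_mulVec]
      have h2 : (((g⁻¹ : GL (Fin n) F) : Matrix (Fin n) (Fin n) F) *ᵥ e j) ∈ W := by
        rw [hgW', h1]; exact heW j
      conv_lhs => rw [← h1]
      rw [hgf]
      exact hfW a _ h2
    have hNb : N = fromBlocks N.toBlocks₁₁ 0 0 N.toBlocks₂₂ := by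
      conv_lhs => rw [← fromBlocks_toBlocks N, hN21, hN12]
    have hMb : ct hK Q * M * Q = blk (N.toBlocks₁₁, N.toBlocks₂₂) := by
      show _ = (fromBlocks N.toBlocks₁₁ 0 0 N.toBlocks₂₂).submatrix eqv eqv
      rw [← hNb]
      ext i j
      simp [N]
    have hu : blk (ct hK N.toBlocks₁₁ * N.toBlocks₁₁, ct hK N.toBlocks₂₂ * N.toBlocks₂₂) =
        blk 1 := by
      rw [blk_mul', ← blk_ct (N.toBlocks₁₁, N.toBlocks₂₂), ← hMb, ct_mul, ct_mul, ct_ct, blk_one]
      calc _ = ct hK Q * (ct hK M * (Q * ct hK Q) * M) * Q := by noncomm_ring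
        _ = _ := by rw [hQ', mul_one, hgu, mul_one, hQ]
    have hu' := blk_inj _ _ hu
    have hA : ct hK N.toBlocks₁₁ * N.toBlocks₁₁ = 1 := congrArg Prod.fst hu'
    have hD : ct hK N.toBlocks₂₂ * N.toBlocks₂₂ = 1 := congrArg Prod.snd hu'
    let A : GL (Fin k) F := ⟨N.toBlocks₁₁, ct hK N.toBlocks₁₁, mul_eq_one_comm.1 hA, hA⟩
    let D : GL (Fin (n - k)) F := ⟨N.toBlocks₂₂, ct hK N.toBlocks₂₂, mul_eq_one_comm.1 hD, hD⟩
    refine ⟨(⟨A, (mem_GU hK A).2 hA⟩, ⟨D, (mem_GU hK D).2 hD⟩), ?_⟩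
    apply Subtype.ext
    apply Subtype.ext
    apply Units.ext
    show Q * blk (N.toBlocks₁₁, N.toBlocks₂₂) * ct hK Q = M
    rw [← hMb]
    calc _ = (Q * ct hK Q) * M * (Q * ct hK Q) := by noncomm_ring
      _ = _ := by rw [hQ', one_mul, mul_one]

end Cfsg.Agent.S0837
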