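import Cfsg.Statements.S0838
import Cfsg.Agent.Lib.H48.QuadSim

set_option autoImplicit false
open Cfsg

namespace Cfsg.Agent.S0838

open H48.QuadSplit H48.QuadSim H48.Gram in
theorem aux {F : Type*} [Field F] [Fintype F] (h2 : (2 : F) ≠ 0) {n : ℕ} (hn : Odd n)
    (Q₁ Q₂ : QuadraticForm F (Fin n → F)) (h₁ : ND Q₁) (h₂ : ND Q₂) :
    ∃ c : F, c ≠ 0 ∧ (c • Q₁).Equivalent Q₂ := by
  let b := Pi.basisFun F (Fin n)
  have hd1 := gdet_ne_zero h₁ b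
  have hd2 := gdet_ne_zero h₂ b
  refine ⟨gdet Q₁ b * gdet Q₂ b, mul_ne_zero hd1 hd2, ?_⟩
  rw [equivalent_iff_gdet h2 (nd_smul h₁ (mul_ne_zero hd1 hd2)) h₂ rfl b b, gdet_smul]
  rw [Fintype.card_fin]
  obtain ⟨k, hk⟩ := hn
  refine ⟨(gdet Q₁ b * gdet Q₂ b) ^ (k + 1), ?_⟩
  generalize gdet Q₁ b = x
  generalize gdet Q₂ b = y
  rw [hk]; ring

/-- Over a finite field with 2 ≠ 0 and n odd: two quadratic forms Q₁, Q₂ on F^n with non-degenerate polar forms are similar — there are an invertible linear map g and a scalar c ≠ 0 with Q₂ (g v) = c · Q₁ v for all v. -/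
theorem result {F : Type*} [Field F] [Fintype F] (h2 : (2 : F) ≠ 0) {n : ℕ} (hn : Odd n) (Q₁ Q₂ : QuadraticForm F (Fin n → F)) (h₁ : (QuadraticMap.polarBilin Q₁).Nondegenerate) (h₂ : (QuadraticMap.polarBilin Q₂).Nondegenerate) : ∃ (g : (Fin n → F) ≃ₗ[F] (Fin n → F)) (c : F), c ≠ 0 ∧ ∀ v, Q₂ (g v) = c * Q₁ v := by
  obtain ⟨c, hc, ⟨e⟩⟩ := aux h2 hn Q₁ Q₂ (H48.QuadSplit.nd_iff.2 h₁) (H48.QuadSplit.nd_iff.2 h₂)
  refine ⟨e.toLinearEquiv, c, hc, fun v => ?_⟩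
  have := e.map_app v
  rw [QuadraticMap.smul_apply, smul_eq_mul] at this
  exact this

end Cfsg.Agent.S0838
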