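import Cfsg.Statements.S0839
import Mathlib

set_option autoImplicit false
open Cfsg

namespace Cfsg.Agent.S0839

theorem exists_vecMulVec {m : ℕ} {F : Type*} [Field F] (M : Matrix (Fin m) (Fin m) F)
    (h : M.rank = 1) : ∃ u w : Fin m → F, u ≠ 0 ∧ w ≠ 0 ∧ M = Matrix.vecMulVec u w := by
  rw [Matrix.rank] at h
  obtain ⟨⟨u, hu⟩, hu0, hall⟩ := finrank_eq_one_iff'.1 h
  have hcol : ∀ j, ∃ c : F, M.mulVec (Pi.single j 1) = c • u := by
    intro j
    obtain ⟨c, hc⟩ := hall ⟨M.mulVec (Pi.single j 1), ⟨Pi.single j 1, rfl⟩⟩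
    exact ⟨c, (congrArg Subtype.val hc).symm⟩
  choose w hw using hcol
  have hM : M = Matrix.vecMulVec u w := by
    ext i j
    have := congrFun (hw j) i
    simp only [Matrix.mulVec_single_one, Matrix.col_apply, Pi.smul_apply, smul_eq_mul] at this
    rw [this, Matrix.vecMulVec_apply, mul_comm]
  refine ⟨u, w, ?_, ?_, hM⟩
  · intro h0
    exact hu0 (Subtype.ext h0)
  · intro h0
    have : M = 0 := by rw [hM, h0]; ext i j; simp [Matrix.vecMulVec_apply]
    rw [this] at h
    have h2 : ((0 : Matrix (Fin m) (Fin m) F).mulVecLin) = 0 := by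
      ext v; simp
    rw [h2, LinearMap.range_zero, finrank_bot] at h
    exact zero_ne_one h

/-- Every transvection t ∈ SL_(n+2)(F) (rank(t − 1) = 1, (t − 1)² = 0) is conjugate in SL_(n+2)(F) to 1 + v·e_0ᵀ for some column vector v with v_0 = 0 (the group A of matrices that are the identity except in the first column below the diagonal); the dimension is written n + 2 ≥ 2. -/
theorem result {F : Type*} [Field F] (n : ℕ) (t : Matrix.SpecialLinearGroup (Fin (n + 2)) F) (ht : Cfsg.IsTransvection (t : Matrix (Fin (n + 2)) (Fin (n + 2)) F)) : ∃ (g : Matrix.SpecialLinearGroup (Fin (n + 2)) F) (v : Fin (n + 2) → F), v 0 = 0 ∧ ((g⁻¹ * t * g : Matrix.SpecialLinearGroup (Fin (n + 2)) F) : Matrix (Fin (n + 2)) (Fin (n + 2)) F) = 1 + Matrix.vecMulVec v (Pi.single 0 1) := by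
  obtain ⟨hr, hsq⟩ := ht
  obtain ⟨u, w, hu, hw, hM⟩ := exists_vecMulVec _ hr
  have he : (Pi.single 0 1 : Fin (n + 2) → F) ≠ 0 := by
    intro h0
    have h1 := congrFun h0 0
    rw [Pi.single_eq_same] at h1
    exact one_ne_zero h1
  obtain ⟨g, hg⟩ := MulAction.exists_smul_eq (Matrix.SpecialLinearGroup (Fin (n + 2)) F)
    (Projectivization.mk F (Pi.single 0 1 : Fin (n + 2) → F) he) (Projectivization.mk F w hw)
  have hg2 : ∃ c : F, c • w = (g : Matrix (Fin (n + 2)) (Fin (n + 2)) F).mulVec (Pi.single 0 1) := by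
    rw [Projectivization.matrixSpecialLinearGroup_smul_def] at hg
    exact (Projectivization.mk_eq_mk_iff' F _ _ _ hw).1 hg
  obtain ⟨c, hc⟩ := hg2
  have hgi : (g : Matrix (Fin (n + 2)) (Fin (n + 2)) F) *
      ((g⁻¹ : Matrix.SpecialLinearGroup (Fin (n + 2)) F) : Matrix (Fin (n + 2)) (Fin (n + 2)) F) = 1 := by
    rw [← Matrix.SpecialLinearGroup.coe_mul, mul_inv_cancel, Matrix.SpecialLinearGroup.coe_one]
  have hgi' : ((g⁻¹ : Matrix.SpecialLinearGroup (Fin (n + 2)) F) : Matrix (Fin (n + 2)) (Fin (n + 2)) F) *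
      (g : Matrix (Fin (n + 2)) (Fin (n + 2)) F) = 1 := by
    rw [← Matrix.SpecialLinearGroup.coe_mul, inv_mul_cancel, Matrix.SpecialLinearGroup.coe_one]
  have hc0 : c ≠ 0 := by
    rintro rfl
    rw [zero_smul] at hc
    have h1 := congrArg (((g⁻¹ : Matrix.SpecialLinearGroup (Fin (n + 2)) F) :
      Matrix (Fin (n + 2)) (Fin (n + 2)) F).mulVec) hc
    rw [Matrix.mulVec_mulVec, hgi', Matrix.one_mulVec, Matrix.mulVec_zero] at h1
    exact he h1.symm
  have hwu : w ⬝ᵥ u = 0 := by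
    rw [hM, Matrix.vecMulVec_mul_vecMulVec] at hsq
    by_contra hne
    obtain ⟨i, hi⟩ := Function.ne_iff.1 hu
    obtain ⟨j, hj⟩ := Function.ne_iff.1 hw
    have h1 := congrFun (congrFun hsq i) j
    simp only [Matrix.vecMulVec_apply, Pi.smul_apply, smul_eq_mul, Matrix.zero_apply] at h1
    rcases mul_eq_zero.1 h1 with h2 | h2
    · exact hi h2
    · rcases mul_eq_zero.1 h2 with h3 | h3
      · exact hne h3
      · exact hj h3
  have hwg : ((g⁻¹ : Matrix.SpecialLinearGroup (Fin (n + 2)) F) :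
      Matrix (Fin (n + 2)) (Fin (n + 2)) F).mulVec w = c⁻¹ • (Pi.single 0 1) := by
    have h1 : w = c⁻¹ • (g : Matrix (Fin (n + 2)) (Fin (n + 2)) F).mulVec (Pi.single 0 1) := by
      rw [← hc, smul_smul, inv_mul_cancel₀ hc0, one_smul]
    rw [h1, Matrix.mulVec_smul, Matrix.mulVec_mulVec, hgi', Matrix.one_mulVec]
  set v : Fin (n + 2) → F := c⁻¹ • (g : Matrix (Fin (n + 2)) (Fin (n + 2)) F).transpose.mulVec u
    with hv
  have htr : ((g⁻¹).transpose : Matrix.SpecialLinearGroup (Fin (n + 2)) F)⁻¹ = g.transpose := by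
    rw [inv_eq_iff_mul_eq_one]
    apply Subtype.ext
    show ((g⁻¹ : Matrix.SpecialLinearGroup (Fin (n + 2)) F) :
      Matrix (Fin (n + 2)) (Fin (n + 2)) F).transpose * (g : Matrix (Fin (n + 2)) (Fin (n + 2)) F).transpose = 1
    rw [← Matrix.transpose_mul, hgi, Matrix.transpose_one]
  refine ⟨(g⁻¹).transpose, v, ?_, ?_⟩
  · rw [hv, Pi.smul_apply, Matrix.mulVec_transpose]
    have h1 : Matrix.vecMul u (g : Matrix (Fin (n + 2)) (Fin (n + 2)) F) 0 =
        u ⬝ᵥ (g : Matrix (Fin (n + 2)) (Fin (n + 2)) F).mulVec (Pi.single 0 1) := by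
      rw [Matrix.dotProduct_mulVec, dotProduct_single, mul_one]
    rw [h1, ← hc, dotProduct_smul, dotProduct_comm, hwu]
    simp
  · rw [htr]
    have ht1 : (t : Matrix (Fin (n + 2)) (Fin (n + 2)) F) = 1 + Matrix.vecMulVec u w := by
      rw [← hM]; abel
    have h2 : ((g.transpose * t * (g⁻¹).transpose : Matrix.SpecialLinearGroup (Fin (n + 2)) F) :
        Matrix (Fin (n + 2)) (Fin (n + 2)) F) =
        (g : Matrix (Fin (n + 2)) (Fin (n + 2)) F).transpose * (1 + Matrix.vecMulVec u w) *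
        ((g⁻¹ : Matrix.SpecialLinearGroup (Fin (n + 2)) F) :
          Matrix (Fin (n + 2)) (Fin (n + 2)) F).transpose := by
      rw [← ht1]; rfl
    rw [h2, mul_add, mul_one, add_mul, ← Matrix.transpose_mul, hgi', Matrix.transpose_one,
      Matrix.mul_vecMulVec, Matrix.vecMulVec_mul, Matrix.vecMul_transpose, hwg, hv]
    congr 1
    ext i j
    simp only [Matrix.vecMulVec_apply, Pi.smul_apply, smul_eq_mul]
    ring

end Cfsg.Agent.S0839
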