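import Cfsg.Statements.S0843
import Cfsg.Agent.Lib.H5.GQ7

set_option autoImplicit false
open Cfsg

namespace Cfsg.Agent.S0843

/-- Suppose a Sylow 2-subgroup S of the finite group G is generalized quaternion of order at least 16; let D be the commutator subgroup of S and X the set of elements of the centralizer of D whose order is divisible by the order of D. Then D is contained in the cyclic subgroup generated by any element of X; an element of G conjugating some element of X into the centralizer of D normalizes D; and the normalizer of D maps X to itself under conjugation. -/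
theorem result {G : Type*} [Group G] [Finite G] (S : Sylow 2 G) (n : ℕ) (e : (S : Subgroup G) ≃* QuaternionGroup (2 ^ (n + 2))) (D : Subgroup G) (hD : D = ⁅(S : Subgroup G), (S : Subgroup G)⁆) : (∀ y : G, y ∈ Subgroup.centralizer (D : Set G) → Nat.card D ∣ orderOf y → D ≤ Subgroup.zpowers y) ∧ (∀ g y : G, y ∈ Subgroup.centralizer (D : Set G) → Nat.card D ∣ orderOf y → g * y * g⁻¹ ∈ Subgroup.centralizer (D : Set G) → g ∈ Subgroup.normalizer (D : Set G)) ∧ (∀ g y : G, g ∈ Subgroup.normalizer (D : Set G) → y ∈ Subgroup.centralizer (D : Set G) → Nat.card D ∣ orderOf y → g * y * g⁻¹ ∈ Subgroup.centralizer (D : Set G) ∧ Nat.card D ∣ orderOf (g * y * g⁻¹)) := by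
  obtain ⟨y, s, h⟩ := H5.GQ3.exists_gq e
  have hD' : D = Subgroup.zpowers (y ^ 2) := by rw [hD, H5.GQ7.commutator_eq h]
  subst hD'
  have hcard : Nat.card (Subgroup.zpowers (y ^ 2)) = 2 ^ (n + 2) := by
    rw [Nat.card_zpowers, H5.GQ4.orderOf_sq h]
  rw [hcard]
  refine ⟨?_, ?_, ?_⟩
  · intro c hc hd
    rw [← H5.GQ4.zpowers_eq_of_dvd h hc hd, Subgroup.zpowers_le]
    exact Subgroup.pow_mem _ (Subgroup.mem_zpowers c) _
  · intro g c hc hd hg
    exact H5.GQ4.ti h hc hd hg
  · intro g c hg hc hd
    refine ⟨?_, by rw [H5.Dihedral.orderOf_conj]; exact hd⟩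
    rw [Subgroup.mem_centralizer_iff]
    intro x hx
    rw [Subgroup.mem_normalizer_iff''] at hg
    have h1 := (hg x).mp hx
    have h2 := Subgroup.mem_centralizer_iff.mp hc _ h1
    calc x * (g * c * g⁻¹) = g * ((g⁻¹ * x * g) * c) * g⁻¹ := by group
      _ = g * (c * (g⁻¹ * x * g)) * g⁻¹ := by rw [h2]
      _ = _ := by group

end Cfsg.Agent.S0843
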