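import Cfsg.Statements.S0845
import Cfsg.Agent.Lib.H5.GQ6
import Cfsg.Agent.Lib.H18.Primitive

set_option autoImplicit false
open Cfsg

namespace Cfsg.Agent.S0845

/-- Suppose a Sylow 2-subgroup S of the finite group G is generalized quaternion of order at least 16. Then G has a normal subgroup M of even order such that G / M is non-abelian, that is, M does not contain the commutator subgroup of G. -/
theorem result {G : Type*} [Group G] [Finite G] (S : Sylow 2 G) (n : ℕ) (e : (S : Subgroup G) ≃* QuaternionGroup (2 ^ (n + 2))) : ∃ M : Subgroup G, M.Normal ∧ Even (Nat.card M) ∧ ¬ commutator G ≤ M := by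
  have := Fintype.ofFinite G
  obtain ⟨y, s, h⟩ := H5.GQ3.exists_gq e
  obtain ⟨a, b, -, ha, hb, hab1, -, hz, -⟩ := H5.GQ6.main h
  have hac := H18.CharBasic.isCharacter_of_isIrr a.2
  have hbc := H18.CharBasic.isCharacter_of_isIrr b.2
  refine ⟨H18.CharQuot.kerSub (a : G → ℂ) hac, H18.CharQuot.kerSub_normal hac, ?_, ?_⟩
  · -- contains an involution
    have h2 : 2 ∣ Nat.card (S : Subgroup G) := by
      have h3 : Nat.card (S : Subgroup G) = 2 ^ (n + 2 + 2) := h.card
      rw [h3]; exact dvd_pow_self 2 (by omega)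
    have : Fact (Nat.Prime 2) := ⟨Nat.prime_two⟩
    obtain ⟨z, hz2⟩ := exists_prime_orderOf_dvd_card' 2 h2
    have hz3 : orderOf (z : G) = 2 := (Subgroup.orderOf_coe z).trans hz2
    have hzk : (z : G) ∈ H18.CharQuot.kerSub (a : G → ℂ) hac :=
      (H18.CharQuot.mem_kerSub hac).mpr (hz z hz3).1
    exact H5.PLocal.even_card_of_mem hzk hz3
  · -- nonlinear character
    intro hle
    obtain ⟨d, hd0, hd⟩ := H18.CharBasic.exists_degree_pos b.2
    have ha1 : (a : G → ℂ) 1 ≠ 1 := by
      rw [hab1, hd]
      intro h1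
      have : d + 1 = 1 := by exact_mod_cast h1
      omega
    apply ha1
    exact H18.Primitive.degree_one_of_commutator a.2 fun x y =>
      (H18.CharQuot.mem_kerSub hac).mp
        (hle (Subgroup.commutator_mem_commutator (Subgroup.mem_top x) (Subgroup.mem_top y)))

end Cfsg.Agent.S0845
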