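import Cfsg.Statements.S0846
import Cfsg.Agent.Lib.H5.GQ7

set_option autoImplicit false
open Cfsg

namespace Cfsg.Agent.S0846

/-- Suppose a Sylow 2-subgroup S of the finite group G is generalized quaternion of order at least 16. Then every Sylow 2-subgroup of the subgroup generated by the involutions of G is cyclic. -/
theorem result {G : Type*} [Group G] [Finite G] (S : Sylow 2 G) (n : ℕ) (e : (S : Subgroup G) ≃* QuaternionGroup (2 ^ (n + 2))) (Q : Sylow 2 ↥(Subgroup.closure {g : G | orderOf g = 2})) : IsCyclic Q := by
  obtain ⟨y, s, h⟩ := H5.GQ3.exists_gq e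
  obtain ⟨M, hM, hinv, hy⟩ := H5.GQ7.exists_normal h
  have hLM : Subgroup.closure {g : G | orderOf g = 2} ≤ M := by
    rw [Subgroup.closure_le]
    exact fun z hz => hinv z hz
  have h1 := H5.GQ7.isCyclic_of_le h hM hy
    (Q := (Q : Subgroup (Subgroup.closure {g : G | orderOf g = 2})).map
      (Subgroup.closure {g : G | orderOf g = 2}).subtype) (Q.2.map _)
    ((Subgroup.map_subtype_le _).trans hLM)
  exact ((Q : Subgroup (Subgroup.closure {g : G | orderOf g = 2})).equivMapOfInjective _
    (Subgroup.closure {g : G | orderOf g = 2}).subtype_injective).isCyclic.mpr h1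

end Cfsg.Agent.S0846
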