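import Cfsg.Statements.S0848
import Cfsg.Agent.Lib.H59.D8
-- import your own Cfsg.Agent.* helpers here

set_option autoImplicit false
open Cfsg

namespace Cfsg.Agent.S0848

/-- If a finite group equals its own commutator subgroup and contains an involution whose centralizer is isomorphic to the dihedral group of order 8, then the group has order 168 or 360. -/
theorem result {G : Type*} [Group G] [Finite G] (hperf : commutator G = ⊤) (t : G) (ht : orderOf t = 2) (e : Subgroup.centralizer ({t} : Set G) ≃* DihedralGroup 4) : Nat.card G = 168 ∨ Nat.card G = 360 := by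
  classical
  have hG : ∀ H : Subgroup G, H.index ≠ 2 := by
    intro H hH
    have hN : H.Normal := Subgroup.normal_of_index_eq_two hH
    have h1 : commutator G ≤ H := by
      have h2 : Nat.card (G ⧸ H) = 2 := hH
      have h3 : IsCyclic (G ⧸ H) := isCyclic_of_prime_card (p := 2) (hp := ⟨Nat.prime_two⟩) h2
      have h4 : ∀ a b : G ⧸ H, a * b = b * a := by
        let _ : CommGroup (G ⧸ H) := IsCyclic.commGroup
        exact fun a b => mul_comm a b
      rw [commutator_def, Subgroup.commutator_le]
      intro a _ b _
      rw [← QuotientGroup.eq_one_iff, commutatorElement_def]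
      rw [QuotientGroup.mk_mul, QuotientGroup.mk_mul, QuotientGroup.mk_mul, QuotientGroup.mk_inv,
        QuotientGroup.mk_inv, h4 (a : G ⧸ H) b]
      group
    rw [hperf, top_le_iff] at h1
    rw [h1, Subgroup.index_top] at hH
    norm_num at hH
  set C := Subgroup.centralizer ({t} : Set G) with hC
  set f := e.symm with hf
  have hcard : Nat.card C = 8 := by
    rw [Nat.card_congr e.toEquiv, DihedralGroup.nat_card]
  have htC : t ∈ C := Subgroup.mem_centralizer_singleton_iff.2 rfl
  have hte : e ⟨t, htC⟩ = DihedralGroup.r 2 := by
    have key : ∀ c : DihedralGroup 4, (∀ d, c * d = d * c) → c * c = 1 → c ≠ 1 → c = DihedralGroup.r 2 := by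
      decide
    apply key
    · intro d
      obtain ⟨x, rfl⟩ := e.surjective d
      rw [← map_mul, ← map_mul]
      congr 1
      apply Subtype.ext
      exact (Subgroup.mem_centralizer_singleton_iff.1 x.2).symm
    · rw [← map_mul]
      have : (⟨t, htC⟩ : C) * ⟨t, htC⟩ = 1 := Subtype.ext (H59.BSW.mul_self_of ht)
      rw [this, map_one]
    · intro h
      have h1 : (⟨t, htC⟩ : C) = 1 := by
        apply e.injective; rw [h, map_one]
      have h2 : t = 1 := congrArg Subtype.val h1
      rw [h2] at ht; simp at ht
  have htf : (f (DihedralGroup.r 2) : G) = t := by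
    rw [← hte, hf, MulEquiv.symm_apply_apply]
  apply H59.D8.card_of_D8 hG ht (k := (f (DihedralGroup.r 1) : G)) (s := (f (DihedralGroup.sr 0) : G))
  · rw [← Subgroup.coe_mul, ← map_mul, ← htf]
    rfl
  · apply orderOf_eq_prime
    · rw [← Subgroup.coe_pow, ← map_pow]
      have : (DihedralGroup.sr 0 : DihedralGroup 4) ^ 2 = 1 := by decide
      rw [this, map_one, Subgroup.coe_one]
    · intro h
      have h1 : f (DihedralGroup.sr 0) = 1 := Subtype.ext h
      rw [map_eq_one_iff _ f.injective] at h1
      revert h1; decide
  · rw [← Subgroup.coe_inv, ← Subgroup.coe_inv, ← Subgroup.coe_mul, ← Subgroup.coe_mul, ← map_inv,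
      ← map_inv, ← map_mul, ← map_mul]
    have : (DihedralGroup.sr 0 : DihedralGroup 4) * DihedralGroup.r 1 * (DihedralGroup.sr 0)⁻¹ =
      (DihedralGroup.r 1)⁻¹ := by decide
    rw [this]
  · rw [H59.D8.mem_zpowers_four (t := t) (by
      rw [← Subgroup.coe_mul, ← map_mul, ← htf]; rfl) (H59.BSW.mul_self_of ht)]
    rw [← htf, ← Subgroup.coe_mul, ← map_mul]
    rintro (h | h | h | h)
    · have h1 : f (DihedralGroup.sr 0) = 1 := Subtype.ext h
      rw [map_eq_one_iff _ f.injective] at h1
      revert h1; decide
    · have h1 := f.injective (Subtype.ext h)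
      revert h1; decide
    · have h1 := f.injective (Subtype.ext h)
      revert h1; decide
    · have h1 := f.injective (Subtype.ext h)
      revert h1; decide
  · exact hcard

end Cfsg.Agent.S0848
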