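import Cfsg.Statements.S0849
import Cfsg.Agent.Lib.H18.CharCentral

set_option autoImplicit false
open Cfsg

namespace Cfsg.Agent.S0849

open H18.CharInd in
theorem aux_mem {G : Type*} [Group G] [Fintype G] (H : Subgroup G) (S : Set G) (hSH : S ⊆ H)
    (hTI : ∀ g : G, g ∉ H → ∀ s ∈ S, g * s * g⁻¹ ∉ S) (hinv : ∀ s ∈ S, s⁻¹ ∈ S) (a b : G)
    (ha : orderOf a = 2) (hb : orderOf b = 2) (hab : a * b ∈ S) : a ∈ H ∧ b ∈ H := by
  have haa : a * a = 1 := by
    have := pow_orderOf_eq_one a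
    rw [ha, pow_two] at this; exact this
  have hbb : b * b = 1 := by
    have := pow_orderOf_eq_one b
    rw [hb, pow_two] at this; exact this
  have hai : a⁻¹ = a := inv_eq_of_mul_eq_one_left haa
  have hbi : b⁻¹ = b := inv_eq_of_mul_eq_one_left hbb
  have h1 : a * (a * b) * a⁻¹ = (a * b)⁻¹ := by
    rw [mul_inv_rev, hai, hbi, ← mul_assoc, haa, one_mul]
  have haH : a ∈ H := by
    by_contra hcon
    apply hTI a hcon _ hab
    rw [h1]
    exact hinv _ hab
  refine ⟨haH, ?_⟩
  have h2 : b = a⁻¹ * (a * b) := by group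
  rw [h2]
  exact H.mul_mem (H.inv_mem haH) (hSH hab)

/-- Let H be a subgroup of a finite group G and S a subset of H that is mapped to itself under conjugation by H, is disjoint from its conjugate by any element outside H, and is closed under inverses. Let φ be a class function of H vanishing on H away from S, and let u, v be involutions of G. Then the sum of the induced function of φ over all products a * b with a conjugate to u and b conjugate to v equals the index of H times the sum of φ (a * b) over such pairs with a and b in H. -/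
theorem result {G : Type*} [Group G] [Fintype G] (H : Subgroup G) (S : Set G) (hSH : S ⊆ H) (hHS : ∀ h ∈ H, ∀ s ∈ S, h * s * h⁻¹ ∈ S) (hTI : ∀ g : G, g ∉ H → ∀ s ∈ S, g * s * g⁻¹ ∉ S) (hinv : ∀ s ∈ S, s⁻¹ ∈ S) (φ : H → ℂ) (hφ : Cfsg.IsClassFunction H φ) (hφS : ∀ x : H, (x : G) ∉ S → φ x = 0) (u v : G) (hu : orderOf u = 2) (hv : orderOf v = 2) : ∑ᶠ p ∈ {p : G × G | IsConj u p.1 ∧ IsConj v p.2}, Cfsg.indFun H φ (p.1 * p.2) = (H.index : ℂ) * ∑ᶠ p ∈ {p : H × H | IsConj u (p.1 : G) ∧ IsConj v (p.2 : G)}, φ (p.1 * p.2) := by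
  classical
  have key : ∀ p : G × G, Cfsg.indFun H φ (p.1 * p.2) =
      (Nat.card H : ℂ)⁻¹ * ∑ x : G, Cfsg.extendByZero H φ ((x⁻¹ * p.1 * x) * (x⁻¹ * p.2 * x)) := by
    intro p
    rw [H18.CharInd.indFun_apply]
    congr 1
    refine Finset.sum_congr rfl fun x _ => ?_
    congr 1
    group
  have hL : ∑ᶠ p ∈ {p : G × G | IsConj u p.1 ∧ IsConj v p.2}, Cfsg.indFun H φ (p.1 * p.2) =
      ∑ p : G × G, if IsConj u p.1 ∧ IsConj v p.2 then Cfsg.indFun H φ (p.1 * p.2) else 0 := by
    rw [finsum_mem_eq_finite_toFinset_sum _ (Set.toFinite _), ← Finset.sum_filter]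
    refine Finset.sum_congr ?_ fun _ _ => rfl
    ext p; simp
  have := Fintype.ofFinite H
  have hR : ∑ᶠ p ∈ {p : H × H | IsConj u (p.1 : G) ∧ IsConj v (p.2 : G)}, φ (p.1 * p.2) =
      ∑ p : H × H, if IsConj u (p.1 : G) ∧ IsConj v (p.2 : G) then φ (p.1 * p.2) else 0 := by
    rw [finsum_mem_eq_finite_toFinset_sum _ (Set.toFinite _), ← Finset.sum_filter]
    refine Finset.sum_congr ?_ fun _ _ => rfl
    ext p; simp
  rw [hL, hR]
  have h1 : (∑ p : G × G, if IsConj u p.1 ∧ IsConj v p.2 then Cfsg.indFun H φ (p.1 * p.2) else 0) =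
      (Nat.card H : ℂ)⁻¹ * ∑ x : G, ∑ p : G × G, if IsConj u p.1 ∧ IsConj v p.2 then
        Cfsg.extendByZero H φ ((x⁻¹ * p.1 * x) * (x⁻¹ * p.2 * x)) else 0 := by
    rw [Finset.sum_comm, Finset.mul_sum]
    refine Finset.sum_congr rfl fun p _ => ?_
    split_ifs with h
    · rw [key]
    · simp
  rw [h1]
  have h2 : ∀ x : G, (∑ p : G × G, if IsConj u p.1 ∧ IsConj v p.2 then
        Cfsg.extendByZero H φ ((x⁻¹ * p.1 * x) * (x⁻¹ * p.2 * x)) else 0) =
      ∑ p : G × G, if IsConj u p.1 ∧ IsConj v p.2 then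
        Cfsg.extendByZero H φ (p.1 * p.2) else 0 := by
    intro x
    refine Fintype.sum_equiv (Equiv.prodCongr (MulAut.conj x⁻¹).toEquiv (MulAut.conj x⁻¹).toEquiv)
      _ _ fun p => ?_
    have e1 : ((Equiv.prodCongr (MulAut.conj x⁻¹).toEquiv (MulAut.conj x⁻¹).toEquiv) p).1 =
      x⁻¹ * p.1 * x := by simp
    have e2 : ((Equiv.prodCongr (MulAut.conj x⁻¹).toEquiv (MulAut.conj x⁻¹).toEquiv) p).2 =
      x⁻¹ * p.2 * x := by simp
    rw [e1, e2]
    have c1 : IsConj u (x⁻¹ * p.1 * x) ↔ IsConj u p.1 := by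
      have : IsConj p.1 (x⁻¹ * p.1 * x) := isConj_iff.2 ⟨x⁻¹, by group⟩
      exact ⟨fun h => h.trans this.symm, fun h => h.trans this⟩
    have c2 : IsConj v (x⁻¹ * p.2 * x) ↔ IsConj v p.2 := by
      have : IsConj p.2 (x⁻¹ * p.2 * x) := isConj_iff.2 ⟨x⁻¹, by group⟩
      exact ⟨fun h => h.trans this.symm, fun h => h.trans this⟩
    simp only [c1, c2]
  simp only [h2, Finset.sum_const, Finset.card_univ, nsmul_eq_mul]
  have h3 : (∑ p : G × G, if IsConj u p.1 ∧ IsConj v p.2 then
        Cfsg.extendByZero H φ (p.1 * p.2) else 0) =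
      ∑ p : H × H, if IsConj u (p.1 : G) ∧ IsConj v (p.2 : G) then φ (p.1 * p.2) else 0 := by
    symm
    rw [← Finset.sum_subset (Finset.subset_univ
      ((Finset.univ : Finset (H × H)).image (fun p => ((p.1 : G), (p.2 : G)))))]
    · rw [Finset.sum_image]
      · refine Finset.sum_congr rfl fun p _ => ?_
        have : ((p.1 : G) * (p.2 : G)) = ((p.1 * p.2 : H) : G) := rfl
        simp only [this, H18.CharInd.ext_coe]
      · intro p _ q _ h
        have h5 := congrArg Prod.fst h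
        have h6 := congrArg Prod.snd h
        exact Prod.ext (Subtype.ext h5) (Subtype.ext h6)
    · intro p _ hp
      split_ifs with hc
      · by_cases hS : p.1 * p.2 ∈ S
        · exfalso
          have o1 : orderOf p.1 = 2 := by
            obtain ⟨g, hg⟩ := isConj_iff.1 hc.1
            rw [← hg, ← hu]
            exact MulEquiv.orderOf_eq (MulAut.conj g) u
          have o2 : orderOf p.2 = 2 := by
            obtain ⟨g, hg⟩ := isConj_iff.1 hc.2
            rw [← hg, ← hv]
            exact MulEquiv.orderOf_eq (MulAut.conj g) v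
          obtain ⟨m1, m2⟩ := aux_mem H S hSH hTI hinv p.1 p.2 o1 o2 hS
          apply hp
          rw [Finset.mem_image]
          exact ⟨(⟨p.1, m1⟩, ⟨p.2, m2⟩), Finset.mem_univ _, rfl⟩
        · by_cases hH : p.1 * p.2 ∈ H
          · rw [H18.CharInd.ext_mem _ _ hH]
            exact hφS _ hS
          · exact H18.CharInd.ext_notMem _ _ hH
      · rfl
  rw [h3, ← mul_assoc]
  congr 1
  rw [← Nat.card_eq_fintype_card (α := G), ← Subgroup.card_mul_index H]
  have : (Nat.card H : ℂ) ≠ 0 := by exact_mod_cast (Nat.card_pos (α := H)).ne'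
  push_cast
  field_simp

end Cfsg.Agent.S0849
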