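import Cfsg.Statements.S0851
import Cfsg.Agent.Lib.H18.TICoh
import Cfsg.Agent.Lib.H4.Exceptional

set_option autoImplicit false
open Cfsg

namespace Cfsg.Agent.S0851

open H18.CharBasic H18.CharOrtho H18.CharInd H18.CharQuot in
theorem unique_case {N : Type*} [Group N] [Fintype N] (K : Subgroup N) [hK : K.Normal]
    (hC : ∀ k ∈ K, k ≠ 1 → Subgroup.centralizer ({k} : Set N) ≤ K)
    (hab : ∀ a ∈ K, ∀ b ∈ K, a * b = b * a)
    (χ₀ : N → ℂ) (h₀ : IsIrrCharacter N χ₀) (hk₀ : ∃ k ∈ K, χ₀ k ≠ χ₀ 1)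
    (huniq : ∀ χ : N → ℂ, IsIrrCharacter N χ → (∃ k ∈ K, χ k ≠ χ 1) → χ = χ₀) :
    Nat.card K = K.index + 1 ∧ ∃ p : ℕ, p.Prime ∧ ∀ k ∈ K, k ^ p = 1 := by
  classical
  have hcomm : ∀ a b : K, a * b = b * a := fun a b => Subtype.ext (hab a a.2 b b.2)
  obtain ⟨φ₀, hφ₀, hφ₀1, hχ₀⟩ := H32.FrobInd.exists_ind_eq K hC h₀ hk₀
  have hfin : Finite (IrrCharacter K) := (finite_irr_set (G := K)).to_subtype
  have : Fintype (IrrCharacter K) := Fintype.ofFinite _
  let one : IrrCharacter K := ⟨fun _ => 1, isIrrCharacter_one⟩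
  have hin : ∀ φ : IrrCharacter K, classInner (fun x : K => χ₀ x) (φ : K → ℂ) =
      1 - if φ = one then 1 else 0 := by
    intro φ
    by_cases h : φ = one
    · rw [if_pos h, h, sub_self]
      have h1 : classInner χ₀ (indFun K (fun _ => 1)) = 0 := by
        rw [hχ₀, frobenius K _ (isClassFunction_indFun K _)]
        have h2 : (fun x : K => indFun K (fun _ => 1) x) = (K.index : ℂ) • (fun _ => 1 : K → ℂ) := by
          funext x
          rw [H32.FrobInd.indFun_restrict]
          have h3 : ∀ y : N, conjFunN K y (fun _ => (1 : ℂ)) x = 1 := fun y => rfl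
          rw [Finset.sum_congr rfl (fun y _ => h3 y), Finset.sum_const, Finset.card_univ,
            ← Nat.card_eq_fintype_card, ← Subgroup.card_mul_index K]
          have h4 : (Nat.card K : ℂ) ≠ 0 := card_ne_zero'
          simp only [nsmul_eq_mul, mul_one, Pi.smul_apply, smul_eq_mul]
          push_cast
          field_simp
        rw [h2, H18.CharOrtho.inner_smul_right, inner_irr_ne hφ₀ isIrrCharacter_one hφ₀1, mul_zero]
      rw [← h1, frobenius' K _ (isClassFunction_of_isIrr h₀)]
    · rw [if_neg h, sub_zero]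
      have hφ1 : (φ : K → ℂ) ≠ fun _ => 1 := fun h' => h (Subtype.ext h')
      rw [← frobenius' K _ (isClassFunction_of_isIrr h₀),
        huniq _ (H32.FrobInd.isIrr_ind K hC φ.2 hφ1) (H18.TICoh.ind_notKer K hC φ.2 hφ1),
        inner_irr_self h₀]
  have hlin : ∀ φ : IrrCharacter K, (φ : K → ℂ) 1 = 1 := fun φ => degree_one_of_comm hcomm φ.2
  have h1 := congrFun (mem_classFun_expand (isClassFunction_restrict K (isClassFunction_of_isIrr h₀)))
    (1 : K)
  have hsum := sum_degree_sq (G := K)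
  have hcard : (Nat.card K : ℂ) = K.index + 1 := by
    have h2 : χ₀ 1 = K.index := by
      rw [hχ₀, indFun_one, degree_one_of_comm hcomm hφ₀, mul_one]
    rw [Finset.sum_apply] at h1
    have h3 : ∑ φ : IrrCharacter K, (classInner (fun x : K => χ₀ x) (φ : K → ℂ) • (φ : K → ℂ)) 1 =
        ∑ φ : IrrCharacter K, ((φ : K → ℂ) 1 ^ 2 - if φ = one then 1 else 0) := by
      refine Finset.sum_congr rfl fun φ _ => ?_
      rw [Pi.smul_apply, hin φ, smul_eq_mul, hlin φ]
      ring
    rw [h3, Finset.sum_sub_distrib, hsum] at h1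
    simp only [Finset.sum_ite_eq', Finset.mem_univ, if_true] at h1
    have h4 : χ₀ ((1 : K) : N) = χ₀ 1 := rfl
    rw [h4, h2] at h1
    linear_combination -h1
  have hcardN : Nat.card K = K.index + 1 := by exact_mod_cast hcard
  refine ⟨hcardN, ?_⟩
  -- elementary abelian
  have hidx : K.index ≠ 0 := Subgroup.index_ne_zero_of_finite
  obtain ⟨p, hp, hpK⟩ := Nat.exists_prime_and_dvd (show Nat.card K ≠ 1 by omega)
  have : Fact p.Prime := ⟨hp⟩
  obtain ⟨y, hy⟩ := exists_prime_orderOf_dvd_card' p hpK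
  have hyN : orderOf (y : N) = p := by rw [Subgroup.orderOf_coe, hy]
  have hy1 : (y : N) ≠ 1 := by
    intro h; rw [h, orderOf_one] at hyN; exact hp.one_lt.ne hyN
  have hcen : Subgroup.centralizer ({(y : N)} : Set N) = K := by
    apply le_antisymm (hC y y.2 hy1)
    intro k hk
    rw [Subgroup.mem_centralizer_singleton_iff]
    exact hab k hk y y.2
  have hcl := card_isConj_eq_index (y : N)
  rw [hcen] at hcl
  refine ⟨p, hp, ?_⟩
  -- the class is all of K#
  let g : {x : N // IsConj (y : N) x} → {x : N // x ∈ K ∧ x ≠ 1} := fun x => ⟨x.1, by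
    obtain ⟨c, hc⟩ := isConj_iff.1 x.2
    constructor
    · rw [← hc]; exact hK.conj_mem _ y.2 c
    · intro h
      apply hy1
      rw [h] at hc
      have := congrArg (fun t => c⁻¹ * t * c) hc
      simpa [mul_assoc] using this⟩
  have hginj : Function.Injective g := by
    intro a b h
    exact Subtype.ext (congrArg (fun t : {x : N // x ∈ K ∧ x ≠ 1} => t.1) h)
  have hcard2 : Nat.card {x : N // x ∈ K ∧ x ≠ 1} = K.index := by
    have h2 : Nat.card {x : K // x ≠ 1} = Nat.card {x : N // x ∈ K ∧ x ≠ 1} := by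
      refine Nat.card_congr ⟨fun x => ⟨x.1, x.1.2, fun h => x.2 (Subtype.ext h)⟩,
        fun x => ⟨⟨x.1, x.2.1⟩, fun h => x.2.2 (congrArg (fun t : K => (t : N)) h)⟩,
        fun _ => rfl, fun _ => rfl⟩
    rw [← h2, Nat.card_eq_fintype_card, Fintype.card_subtype_compl, Fintype.card_subtype_eq,
      ← Nat.card_eq_fintype_card, hcardN]
    omega
  have hgbij : Function.Bijective g := by
    rw [Nat.bijective_iff_injective_and_card]
    exact ⟨hginj, by rw [hcl, hcard2]⟩
  intro k hk
  by_cases hk1 : k = 1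
  · rw [hk1, one_pow]
  · obtain ⟨x, hx⟩ := hgbij.2 ⟨k, hk, hk1⟩
    have h2 : x.1 = k := congrArg Subtype.val hx
    obtain ⟨c, hc⟩ := isConj_iff.1 x.2
    rw [h2] at hc
    rw [← hc, conj_pow, ← hyN, pow_orderOf_eq_one]
    simp

/-- Let K be a subgroup of the finite group G that meets each conjugate by an element outside its normalizer N trivially, is properly contained in N, and contains the centralizer of each of its non-identity elements (a T.I. subgroup with Frobenius normalizer). Suppose K is abelian, let e be the index of K in N, and call an irreducible character of N relevant when it takes at some element of K a value different from its degree. Then either there is exactly one relevant character and K is an elementary abelian p-group of order e + 1 for some prime p, or there are a sign ε and an injective map f from the relevant characters to the irreducible characters of G such that inducing χ - ξ to G gives ε (f χ - f ξ) for all relevant χ and ξ. -/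
theorem result {G : Type*} [Group G] [Fintype G] (K : Subgroup G) (hTI : ∀ g : G, g ∉ Subgroup.normalizer (K : Set G) → ∀ k ∈ K, g * k * g⁻¹ ∈ K → k = 1) (hlt : K < Subgroup.normalizer (K : Set G)) (hC : ∀ k ∈ K, k ≠ 1 → Subgroup.centralizer ({k} : Set G) ≤ K) (hab : ∀ a ∈ K, ∀ b ∈ K, a * b = b * a) : (Nat.card {χ : Cfsg.IrrCharacter (Subgroup.normalizer (K : Set G)) // ∃ k : Subgroup.normalizer (K : Set G), (k : G) ∈ K ∧ (χ : ↥(Subgroup.normalizer (K : Set G)) → ℂ) k ≠ (χ : ↥(Subgroup.normalizer (K : Set G)) → ℂ) 1} = 1 ∧ ∃ p : ℕ, p.Prime ∧ Cfsg.IsElementaryAbelian p K ∧ Nat.card K = (K.subgroupOf (Subgroup.normalizer (K : Set G))).index + 1) ∨ ∃ (ε : ℂ) (f : {χ : Cfsg.IrrCharacter (Subgroup.normalizer (K : Set G)) // ∃ k : Subgroup.normalizer (K : Set G), (k : G) ∈ K ∧ (χ : ↥(Subgroup.normalizer (K : Set G)) → ℂ) k ≠ (χ : ↥(Subgroup.normalizer (K : Set G)) → ℂ) 1} → Cfsg.IrrCharacter G), (ε = 1 ∨ ε = -1) ∧ Function.Injective f ∧ ∀ χ ξ, Cfsg.indFun (Subgroup.normalizer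 (K : Set G)) ((χ.1 : ↥(Subgroup.normalizer (K : Set G)) → ℂ) - (ξ.1 : ↥(Subgroup.normalizer (K : Set G)) → ℂ)) = ε • ((f χ : G → ℂ) - (f ξ : G → ℂ)) := by
  classical
  let R := {χ : Cfsg.IrrCharacter (Subgroup.normalizer (K : Set G)) //
    ∃ k : Subgroup.normalizer (K : Set G), (k : G) ∈ K ∧
      (χ : ↥(Subgroup.normalizer (K : Set G)) → ℂ) k ≠
        (χ : ↥(Subgroup.normalizer (K : Set G)) → ℂ) 1}
  have hfin : Finite (Cfsg.IrrCharacter (Subgroup.normalizer (K : Set G))) :=
    (H18.CharOrtho.finite_irr_set (G := Subgroup.normalizer (K : Set G))).to_subtype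
  have hR : Finite R := inferInstance
  have hab' : ∀ a ∈ H18.TICoh.KN K, ∀ b ∈ H18.TICoh.KN K, a * b = b * a := by
    intro a ha b hb
    exact Subtype.ext (hab a (Subgroup.mem_subgroupOf.1 ha) b (Subgroup.mem_subgroupOf.1 hb))
  have hker : ∀ χ : R, ∃ k ∈ H18.TICoh.KN K,
      (χ.1 : ↥(Subgroup.normalizer (K : Set G)) → ℂ) k ≠
        (χ.1 : ↥(Subgroup.normalizer (K : Set G)) → ℂ) 1 := by
    rintro ⟨χ, k, hk, hne⟩
    exact ⟨k, Subgroup.mem_subgroupOf.2 hk, hne⟩
  have hdeg : ∀ χ : R, (χ.1 : ↥(Subgroup.normalizer (K : Set G)) → ℂ) 1 =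
      (H18.TICoh.KN K).index := by
    intro χ
    obtain ⟨φ, hφ, -, hχ⟩ := H32.FrobInd.exists_ind_eq _ (H18.TICoh.hC_KN K hC) χ.1.2 (hker χ)
    have hcm : ∀ a b : H18.TICoh.KN K, a * b = b * a := fun a b => Subtype.ext (hab' a a.2 b b.2)
    rw [hχ, H18.CharInd.indFun_one, H18.CharQuot.degree_one_of_comm hcm hφ, mul_one]
  have hvan : ∀ χ : R, ∀ x : ↥(Subgroup.normalizer (K : Set G)), (x : G) ∉ K →
      (χ.1 : ↥(Subgroup.normalizer (K : Set G)) → ℂ) x = 0 := by
    intro χ x hx
    exact H18.TICoh.vanish _ (H18.TICoh.hC_KN K hC) χ.1.2 (hker χ)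
      (fun h => hx (Subgroup.mem_subgroupOf.1 h))
  rcases Nat.lt_or_ge (Nat.card R) 2 with hlt2 | hge
  · rcases Nat.eq_zero_or_pos (Nat.card R) with h0 | hpos
    · right
      have hemp : IsEmpty R := by
        rcases Nat.card_eq_zero.1 h0 with h | h
        · exact h
        · exact absurd hR (not_finite_iff_infinite.2 h)
      exact ⟨1, fun χ => hemp.elim χ, Or.inl rfl, fun χ => hemp.elim χ, fun χ => hemp.elim χ⟩
    · left
      have hone : Nat.card R = 1 := by omega
      refine ⟨hone, ?_⟩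
      obtain ⟨hsub, ⟨χ₀⟩⟩ := Nat.card_eq_one_iff_unique.1 hone
      obtain ⟨h1, p, hp, hpow⟩ := unique_case (H18.TICoh.KN K) (H18.TICoh.hC_KN K hC) hab'
        χ₀.1 χ₀.1.2 (hker χ₀) (by
          intro χ hχ hk
          obtain ⟨k, hk, hne⟩ := hk
          have := hsub.elim (⟨⟨χ, hχ⟩, k, Subgroup.mem_subgroupOf.1 hk, hne⟩ : R) χ₀
          exact congrArg (fun t : R => (t.1 : ↥(Subgroup.normalizer (K : Set G)) → ℂ)) this)
      have hKN : K ≤ Subgroup.normalizer (K : Set G) := Subgroup.le_normalizer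
      refine ⟨p, hp, ⟨⟨⟨fun a b => Subtype.ext (hab a a.2 b b.2)⟩⟩, ?_⟩, ?_⟩
      · intro a ha
        have := hpow ⟨a, hKN ha⟩ (Subgroup.mem_subgroupOf.2 ha)
        exact congrArg (fun t : ↥(Subgroup.normalizer (K : Set G)) => (t : G)) this
      · rw [← h1]
        exact Nat.card_congr (Subgroup.subgroupOfEquivOfLe hKN).symm.toEquiv
  · right
    let n := Nat.card R
    let eq : R ≃ Fin n := Finite.equivFin R
    obtain ⟨ε, hε, θ, hθ, hinj, hind⟩ := H4.Exceptional.exceptional
      (Subgroup.normalizer (K : Set G)) (K : Set G) (fun g hg s hs h => hTI g hg s hs h) n hge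
      (fun i => ((eq.symm i).1 : ↥(Subgroup.normalizer (K : Set G)) → ℂ))
      (fun i => (eq.symm i).1.2)
      (by
        intro i j h
        exact eq.symm.injective (Subtype.ext (Subtype.ext h)))
      (by
        intro i j x hx
        rw [Pi.sub_apply, hvan _ x hx, hvan _ x hx, sub_zero])
      (by
        intro i j
        rw [hdeg, hdeg])
    refine ⟨ε, fun χ => ⟨θ (eq χ), hθ _⟩, hε, ?_, ?_⟩
    · intro χ ξ h
      exact eq.injective (hinj (congrArg Subtype.val h))
    · intro χ ξ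
      have h1 := hind (eq χ) (eq ξ)
      rw [Equiv.symm_apply_apply, Equiv.symm_apply_apply] at h1
      rw [H18.CharInd.indFun_sub, h1]

end Cfsg.Agent.S0851
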