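import Cfsg.Statements.S0852
import Cfsg.Agent.Lib.H18.TICoh

set_option autoImplicit false
open Cfsg

namespace Cfsg.Agent.S0852

/-- Let K be a subgroup of the finite group G that meets each conjugate by an element outside its normalizer N trivially, is properly contained in N, and contains the centralizer of each of its non-identity elements (a T.I. subgroup with Frobenius normalizer). Let S be the set of irreducible characters of N taking at some element of K a value different from their degree, suppose S has at least two members, and let star be a linear isometry on the integer span of S into the generalized characters of G that agrees with induction on the members vanishing at the identity (so S is coherent, with star as the extending isometry). Then an irreducible character ψ of G is of the form star χ or -star χ for some χ in S if and only if ψ is not constant on the non-identity elements of K. -/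
theorem result {G : Type*} [Group G] [Fintype G] (K : Subgroup G) (hTI : ∀ g : G, g ∉ Subgroup.normalizer (K : Set G) → ∀ k ∈ K, g * k * g⁻¹ ∈ K → k = 1) (hlt : K < Subgroup.normalizer (K : Set G)) (hC : ∀ k ∈ K, k ≠ 1 → Subgroup.centralizer ({k} : Set G) ≤ K) [Fintype ↥(Subgroup.normalizer (K : Set G))] (S : Set (↥(Subgroup.normalizer (K : Set G)) → ℂ)) (hS : S = {χ : ↥(Subgroup.normalizer (K : Set G)) → ℂ | Cfsg.IsIrrCharacter ↥(Subgroup.normalizer (K : Set G)) χ ∧ ∃ k : ↥(Subgroup.normalizer (K : Set G)), (k : G) ∈ K ∧ χ k ≠ χ 1}) (htwo : ∃ χ ∈ S, ∃ ξ ∈ S, χ ≠ ξ) (star : (↥(Subgroup.normalizer (K : Set G)) → ℂ) → (G → ℂ)) (hstar : Cfsg.IsLinearIsometryOn (Cfsg.zspan S) star) (hext : ∀ α ∈ Cfsg.zspanOn S ({1}ᶜ : Set ↥(Subgroup.normalizer (K : Set G))), star α = Cfsg.indFun (Subgroup.normalizer (K : Set G)) α) (ψ : G → ℂ) (hψ : Cfsg.IsIrrCharacter G ψ) : (∃ χ ∈ S, ψ = star χ ∨ ψ = -star χ) ↔ ∃ a ∈ K, ∃ b ∈ K, a ≠ 1 ∧ b ≠ 1 ∧ ψ a ≠ ψ b := by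
  classical
  have hS' : S = H18.TICoh.relS K := hS
  have hψc := H18.CharBasic.isClassFunction_of_isIrr hψ
  have hirr : ∀ χ ∈ S, IsIrrCharacter _ χ := by
    intro χ hχ; rw [hS] at hχ; exact hχ.1
  have hsirr : ∀ χ ∈ S, IsIrrCharacter G (star χ) ∨ IsIrrCharacter G (-star χ) :=
    fun χ hχ => H32.Coh.isom_irr hirr hstar hχ
  have hinner : ∀ χ ∈ S, ∀ ξ ∈ S, classInner (star χ) (star ξ) = if χ = ξ then 1 else 0 := by
    intro χ hχ ξ hξ
    rw [H32.Coh.isom_inner hstar (H32.Coh.mem_zspan hχ) (H32.Coh.mem_zspan hξ),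
      H18.CharOrtho.inner_irr (hirr χ hχ) (hirr ξ hξ)]
  constructor
  · rintro ⟨χ, hχ, hor⟩
    by_contra hcon
    push Not at hcon
    -- sign
    obtain ⟨ε, hε, hψε⟩ : ∃ ε : ℂ, (ε = 1 ∨ ε = -1) ∧ ψ = ε • star χ := by
      rcases hor with h | h
      · exact ⟨1, Or.inl rfl, by rw [h, one_smul]⟩
      · exact ⟨-1, Or.inr rfl, by rw [h, neg_one_smul]⟩
    have hε0 : ε ≠ 0 := by rcases hε with h | h <;> rw [h] <;> norm_num
    have hδ : IsClassFunction (Subgroup.normalizer (K : Set G)) (ε • χ) :=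
      H18.CharOrtho.isClassFunction_smul ε (H18.CharBasic.isClassFunction_of_isIrr (hirr χ hχ))
    obtain ⟨c, hc⟩ := H18.TICoh.const_on hC hS' hstar hext hψc hδ (by
      intro ξ hξ
      rw [hψε, H18.CharOrtho.inner_smul_left, H18.CharOrtho.inner_smul_left, hinner χ hχ ξ hξ,
        H18.CharOrtho.inner_irr (hirr χ hχ) (hirr ξ hξ)])
    -- choose another member
    obtain ⟨χ₁, h₁, χ₂, h₂, h12⟩ := htwo
    obtain ⟨ξ, hξ, hξne⟩ : ∃ ξ ∈ S, χ ≠ ξ := by
      by_cases h : χ = χ₁
      · exact ⟨χ₂, h₂, fun h' => h12 (h ▸ h')⟩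
      · exact ⟨χ₁, h₁, h⟩
    have hχ' := hχ
    have hξ' := hξ
    rw [hS'] at hχ' hξ'
    obtain ⟨k0, hk0, hk0ne⟩ := hχ'.2
    have hk01 : k0 ≠ 1 := fun h => hk0ne (by rw [h])
    refine H18.TICoh.not_const (H18.TICoh.KN K) (H18.TICoh.hC_KN K hC) hχ'.1
      (H18.TICoh.relS_ker K hχ') hξ'.1 (H18.TICoh.relS_ker K hξ') hξne (ε⁻¹ * (ψ k0 - c)) ?_
    intro k hk hk1
    have hkK : (k : G) ∈ K := Subgroup.mem_subgroupOf.1 hk
    have e1 := hc k hkK hk1
    have e2 : ψ k = ψ k0 := by
      apply hcon k hkK k0 hk0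
      · intro h; exact hk1 (Subtype.ext h)
      · intro h; exact hk01 (Subtype.ext h)
    rw [e2, Pi.smul_apply, smul_eq_mul] at e1
    rw [eq_inv_mul_iff_mul_eq₀ hε0]
    linear_combination -e1
  · rintro ⟨a, ha, b, hb, ha1, hb1, hab⟩
    by_contra hcon
    push Not at hcon
    have hδ : IsClassFunction (Subgroup.normalizer (K : Set G))
        (0 : ↥(Subgroup.normalizer (K : Set G)) → ℂ) := H18.CharOrtho.isClassFunction_zero
    obtain ⟨c, hc⟩ := H18.TICoh.const_on hC hS' hstar hext hψc hδ (by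
      intro ξ hξ
      rw [H18.CharOrtho.inner_zero_left]
      have h1 := hcon ξ hξ
      rcases hsirr ξ hξ with h | h
      · exact H18.CharOrtho.inner_irr_ne hψ h h1.1
      · have h2 := H18.CharOrtho.inner_irr_ne hψ h h1.2
        rw [H18.CharOrtho.inner_neg_right, neg_eq_zero] at h2
        exact h2)
    have hKN : K ≤ Subgroup.normalizer (K : Set G) := Subgroup.le_normalizer
    have e1 := hc ⟨a, hKN ha⟩ ha (fun h => ha1 (congrArg Subtype.val h))
    have e2 := hc ⟨b, hKN hb⟩ hb (fun h => hb1 (congrArg Subtype.val h))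
    simp only [Pi.zero_apply, sub_zero] at e1 e2
    exact hab (by rw [e1, e2])

end Cfsg.Agent.S0852
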