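import Cfsg.Statements.S0853
import Cfsg.Agent.Lib.H18.TICoh

set_option autoImplicit false
open Cfsg

namespace Cfsg.Agent.S0853

open H18.CharBasic H18.CharOrtho H18.CharInd H18.CharQuot in
/-- A generalized character constant off the identity takes an integer value there. -/
theorem const_int {A : Type*} [Group A] [Fintype A] {γ : A → ℂ} (hγ : IsGeneralizedCharacter A γ)
    {d : ℂ} (hd : ∀ a : A, a ≠ 1 → γ a = d) (hnt : ∃ a : A, a ≠ 1) : ∃ n : ℤ, d = n := by
  classical
  obtain ⟨a0, ha0⟩ := hnt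
  obtain ⟨n1, hn1⟩ := gen_one_int hγ
  obtain ⟨n2, hn2⟩ := inner_gen_intCast hγ (isGen_one (G := A))
  have h1 : classInner γ (fun _ => 1 : A → ℂ) =
      (Nat.card A : ℂ)⁻¹ * (γ 1 + (Nat.card A - 1) * d) := by
    unfold classInner
    congr 1
    have h2 : ∀ a : A, γ a * (starRingEnd ℂ) ((fun _ => 1 : A → ℂ) a) =
        d + if a = 1 then γ 1 - d else 0 := by
      intro a
      by_cases h : a = 1
      · subst h; simp
      · simp [h, hd a h]
    rw [Finset.sum_congr rfl (fun a _ => h2 a), Finset.sum_add_distrib]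
    simp only [Finset.sum_const, Finset.card_univ, nsmul_eq_mul, Finset.sum_ite_eq',
      Finset.mem_univ, if_true, Nat.card_eq_fintype_card]
    ring
  have hcard : (Nat.card A : ℂ) ≠ 0 := card_ne_zero'
  have hcard1 : 1 < Nat.card A := by
    rw [Nat.card_eq_fintype_card]
    exact Fintype.one_lt_card_iff.2 ⟨a0, 1, ha0⟩
  have hcard2 : (Nat.card A : ℂ) - 1 ≠ 0 := by
    intro h
    have : (Nat.card A : ℂ) = 1 := by linear_combination h
    have h3 : Nat.card A = 1 := by exact_mod_cast this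
    omega
  have h2 : d = ((((n2 * (Nat.card A : ℤ) - n1 : ℤ) : ℚ) / (((Nat.card A : ℤ) - 1 : ℤ) : ℚ) : ℚ) : ℂ) := by
    push_cast
    rw [eq_div_iff hcard2]
    rw [hn2, hn1] at h1
    field_simp at h1
    linear_combination -h1
  have h3 : IsIntegral ℤ d := by
    rw [← hd a0 ha0]; exact gen_isIntegral hγ a0
  rw [h2] at h3
  obtain ⟨n, hn⟩ := H4.Integral.exists_int_of_isIntegral_rat h3
  refine ⟨n, ?_⟩
  rw [h2, hn]
  simp

/-- Let K be a subgroup of the finite group G that meets each conjugate by an element outside its normalizer N trivially, is properly contained in N, and contains the centralizer of each of its non-identity elements (a T.I. subgroup with Frobenius normalizer). Let S be the set of irreducible characters of N taking at some element of K a value different from their degree, suppose S has at least two members, and let star be a linear isometry on the integer span of S into the generalized characters of G that agrees with induction on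 the members vanishing at the identity (so S is coherent, with star as the extending isometry). Then there is a single integer m such that star χ k - χ k = m * χ 1 / e for every χ in S and every non-identity element k of K, where e is the index of K in N. -/
theorem result {G : Type*} [Group G] [Fintype G] (K : Subgroup G) (hTI : ∀ g : G, g ∉ Subgroup.normalizer (K : Set G) → ∀ k ∈ K, g * k * g⁻¹ ∈ K → k = 1) (hlt : K < Subgroup.normalizer (K : Set G)) (hC : ∀ k ∈ K, k ≠ 1 → Subgroup.centralizer ({k} : Set G) ≤ K) [Fintype ↥(Subgroup.normalizer (K : Set G))] (S : Set (↥(Subgroup.normalizer (K : Set G)) → ℂ)) (hS : S = {χ : ↥(Subgroup.normalizer (K : Set G)) → ℂ | Cfsg.IsIrrCharacter ↥(Subgroup.normalizer (K : Set G)) χ ∧ ∃ k : ↥(Subgroup.normalizer (K : Set G)), (k : G) ∈ K ∧ χ k ≠ χ 1}) (htwo : ∃ χ ∈ S, ∃ ξ ∈ S, χ ≠ ξ) (star : (↥(Subgroup.normalizer (K : Set G)) → ℂ) → (G → ℂ)) (hstar : Cfsg.IsLinearIsometryOn (Cfsg.zspan S) star) (hext : ∀ α ∈ Cfsg.zspanOn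 S ({1}ᶜ : Set ↥(Subgroup.normalizer (K : Set G))), star α = Cfsg.indFun (Subgroup.normalizer (K : Set G)) α) : ∃ m : ℤ, ∀ χ ∈ S, ∀ k : ↥(Subgroup.normalizer (K : Set G)), (k : G) ∈ K → k ≠ 1 → star χ k - χ k = (m : ℂ) * χ 1 / ((K.subgroupOf (Subgroup.normalizer (K : Set G))).index : ℂ) := by
  classical
  have hS' : S = H18.TICoh.relS K := hS
  have hirr : ∀ χ ∈ S, IsIrrCharacter _ χ := by
    intro χ hχ; rw [hS] at hχ; exact hχ.1
  have hinner : ∀ χ ∈ S, ∀ ξ ∈ S, classInner (star χ) (star ξ) = if χ = ξ then 1 else 0 := by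
    intro χ hχ ξ hξ
    rw [H32.Coh.isom_inner hstar (H32.Coh.mem_zspan hχ) (H32.Coh.mem_zspan hξ),
      H18.CharOrtho.inner_irr (hirr χ hχ) (hirr ξ hξ)]
  have hgen : ∀ χ ∈ S, IsGeneralizedCharacter G (star χ) := fun χ hχ =>
    hstar.2.2.2 _ (H32.Coh.mem_zspan hχ)
  by_cases hK1 : ∃ k : K, k ≠ 1
  swap
  · push Not at hK1
    refine ⟨0, fun χ hχ k hk hk1 => ?_⟩
    exfalso
    apply hk1
    have := congrArg (fun t : K => (t : G)) (hK1 ⟨k, hk⟩)
    exact Subtype.ext this
  -- constants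
  have hd : ∀ χ ∈ S, ∃ n : ℤ, ∀ k : ↥(Subgroup.normalizer (K : Set G)), (k : G) ∈ K → k ≠ 1 →
      star χ k - χ k = n := by
    intro χ hχ
    obtain ⟨c, hc⟩ := H18.TICoh.const_on hC hS' hstar hext
      (H18.CharOrtho.isClassFunction_of_isGen (hgen χ hχ))
      (H18.CharBasic.isClassFunction_of_isIrr (hirr χ hχ)) (by
      intro ξ hξ
      rw [hinner χ hχ ξ hξ, H18.CharOrtho.inner_irr (hirr χ hχ) (hirr ξ hξ)])
    have hKN : K ≤ Subgroup.normalizer (K : Set G) := Subgroup.le_normalizer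
    let γ : K → ℂ := (fun x : K => star χ x) - (fun x : K => χ ⟨x, hKN x.2⟩)
    have hγ : IsGeneralizedCharacter K γ := by
      apply H18.CharOrtho.isGen_sub
      · exact H18.CharOrtho.isGen_restrict K (hgen χ hχ)
      · apply H18.CharOrtho.isGen_of_isCharacter
        exact H18.CharBasic.isCharacter_comp (Subgroup.inclusion hKN)
          (H18.CharBasic.isCharacter_of_isIrr (hirr χ hχ))
    obtain ⟨n, hn⟩ := const_int hγ (d := c) (by
      intro a ha
      exact hc ⟨a, hKN a.2⟩ a.2 (fun h => ha (Subtype.ext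
        (congrArg (fun t : ↥(Subgroup.normalizer (K : Set G)) => (t : G)) h)))) hK1
    exact ⟨n, fun k hk hk1 => by rw [hc k hk hk1, hn]⟩
  choose! d hd using hd
  obtain ⟨⟨k0, hk0⟩, hk01⟩ := hK1
  have hKN : K ≤ Subgroup.normalizer (K : Set G) := Subgroup.le_normalizer
  let x0 : ↥(Subgroup.normalizer (K : Set G)) := ⟨k0, hKN hk0⟩
  have hx01 : x0 ≠ 1 := fun h => hk01 (Subtype.ext
    (congrArg (fun t : ↥(Subgroup.normalizer (K : Set G)) => (t : G)) h))
  have hvan : ∀ χ ∈ S, ∀ x : ↥(Subgroup.normalizer (K : Set G)), (x : G) ∉ K → χ x = 0 := by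
    intro χ hχ x hx
    have hχ' := hχ
    rw [hS'] at hχ'
    exact H18.TICoh.vanish (H18.TICoh.KN K) (H18.TICoh.hC_KN K hC) hχ'.1
      (H18.TICoh.relS_ker K hχ') (fun h => hx (Subgroup.mem_subgroupOf.1 h))
  have hprop : ∀ χ ∈ S, ∀ ξ ∈ S, ξ 1 * d χ = χ 1 * d ξ := by
    intro χ hχ ξ hξ
    have h1 := congrFun (H18.TICoh.star_comb hS' hstar hext hχ hξ) (x0 : G)
    have h2 := H18.TIFN.ind_apply K hTI hC (ξ 1 • χ - χ 1 • ξ)
      (H18.CharOrtho.isClassFunction_sub
        (H18.CharOrtho.isClassFunction_smul _ (H18.CharBasic.isClassFunction_of_isIrr (hirr χ hχ)))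
        (H18.CharOrtho.isClassFunction_smul _ (H18.CharBasic.isClassFunction_of_isIrr (hirr ξ hξ))))
      (by
        intro x hx
        simp only [Pi.sub_apply, Pi.smul_apply, smul_eq_mul, hvan χ hχ x hx, hvan ξ hξ x hx]
        ring)
      (by
        simp only [Pi.sub_apply, Pi.smul_apply, smul_eq_mul]
        ring) x0
    rw [h2] at h1
    simp only [Pi.sub_apply, Pi.smul_apply, smul_eq_mul] at h1
    have e1 := hd χ hχ x0 hk0 hx01
    have e2 := hd ξ hξ x0 hk0 hx01
    linear_combination h1 - ξ 1 * e1 + χ 1 * e2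
  obtain ⟨χ₀, hχ₀, -⟩ := htwo
  have hχ₀1 : χ₀ 1 ≠ 0 := H18.CharBasic.irr_one_ne_zero (hirr χ₀ hχ₀)
  set e : ℂ := ((K.subgroupOf (Subgroup.normalizer (K : Set G))).index : ℂ) with he
  have he0 : e ≠ 0 := by
    rw [he]
    exact_mod_cast Subgroup.index_ne_zero_of_finite
  -- the ratio
  set r : ℂ := e * d χ₀ / χ₀ 1 with hr
  have hdr : ∀ χ ∈ S, (d χ : ℂ) = r * χ 1 / e := by
    intro χ hχ
    have h1 := hprop χ hχ χ₀ hχ₀
    rw [hr]
    field_simp
    linear_combination h1
  -- r times each degree of a nonprincipal character of K is an integer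
  have hφ : ∀ φ : H18.TICoh.KN K → ℂ, IsIrrCharacter _ φ → φ ≠ (fun _ => 1) →
      ∃ n : ℤ, r * φ 1 = n := by
    intro φ hφ hφ1
    have h1 := H32.FrobInd.isIrr_ind _ (H18.TICoh.hC_KN K hC) hφ hφ1
    have h2 := H18.TICoh.ind_notKer _ (H18.TICoh.hC_KN K hC) hφ hφ1
    have h3 : indFun (H18.TICoh.KN K) φ ∈ S := by
      rw [hS]
      obtain ⟨k, hk, hne⟩ := h2
      exact ⟨h1, k, Subgroup.mem_subgroupOf.1 hk, hne⟩
    refine ⟨d (indFun (H18.TICoh.KN K) φ), ?_⟩
    rw [hdr _ h3, H18.CharInd.indFun_one]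
    field_simp
    rfl
  have hfin : Finite (IrrCharacter (H18.TICoh.KN K)) :=
    (H18.CharOrtho.finite_irr_set (G := H18.TICoh.KN K)).to_subtype
  have : Fintype (IrrCharacter (H18.TICoh.KN K)) := Fintype.ofFinite _
  have hsum := H18.CharInd.sum_degree_sq (G := H18.TICoh.KN K)
  let one : IrrCharacter (H18.TICoh.KN K) := ⟨fun _ => 1, H18.CharBasic.isIrrCharacter_one⟩
  have hint1 : ∃ n : ℤ, r * ((Nat.card (H18.TICoh.KN K) : ℂ) - 1) = n := by
    have h1 : ∀ φ : IrrCharacter (H18.TICoh.KN K), ∃ n : ℤ,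
        r * ((φ : H18.TICoh.KN K → ℂ) 1 ^ 2 - if φ = one then 1 else 0) = n := by
      intro φ
      by_cases h : φ = one
      · exact ⟨0, by simp [h, one]⟩
      · obtain ⟨n, hn⟩ := hφ φ φ.2 (fun h' => h (Subtype.ext h'))
        obtain ⟨a, ha⟩ := H18.CharBasic.exists_degree (H18.CharBasic.isCharacter_of_isIrr φ.2)
        refine ⟨n * a, ?_⟩
        rw [if_neg h]
        push_cast
        rw [← hn, ← ha]
        ring
    choose n hn using h1
    refine ⟨∑ φ, n φ, ?_⟩
    push_cast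
    rw [← hsum, Finset.sum_congr rfl (fun φ _ => (hn φ).symm), ← Finset.mul_sum,
      Finset.sum_sub_distrib]
    simp
  have hint2 : ∃ n : ℤ, r * (Nat.card (H18.TICoh.KN K) : ℂ) = n := by
    -- use one nonprincipal character
    have hχ₀' := hχ₀
    rw [hS'] at hχ₀'
    obtain ⟨φ, hφi, hφ1, -⟩ := H32.FrobInd.exists_ind_eq _ (H18.TICoh.hC_KN K hC) hχ₀'.1
      (H18.TICoh.relS_ker K hχ₀')
    obtain ⟨n, hn⟩ := hφ φ hφi hφ1
    obtain ⟨m, ρ, hρ, rfl⟩ := hφi
    have h1 := H4.Integral.degree_dvd_card ρ hρ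
    obtain ⟨c, hc⟩ := h1
    refine ⟨n * c, ?_⟩
    rw [hc]
    push_cast
    rw [← hn, Representation.char_one]
    ring
  obtain ⟨n1, hn1⟩ := hint1
  obtain ⟨n2, hn2⟩ := hint2
  have hrint : r = ((n2 - n1 : ℤ) : ℂ) := by
    push_cast
    rw [← hn1, ← hn2]; ring
  refine ⟨n2 - n1, fun χ hχ k hk hk1 => ?_⟩
  rw [hd χ hχ k hk hk1, hdr χ hχ, hrint]

end Cfsg.Agent.S0853
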