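import Cfsg.Statements.S0855
import Cfsg.Agent.Lib.H31.Clifford
import Cfsg.Agent.Lib.H4.CenterIndex

set_option autoImplicit false
open Cfsg

namespace Cfsg.Agent.S0855

open H18.CharBasic H18.CharOrtho H18.CharInd H18.CharQuot H31.Clifford

universe u

/-- A nontrivial group all of whose irreducible degrees are powers of `p` with `p ∣ |G|` has a
homomorphism to `ℂˣ` of order `p`. -/
theorem exists_order_p {G : Type u} [Group G] [Finite G] {p : ℕ} (hp : p.Prime)
    (h : ∀ χ : IrrCharacter G, ∃ k : ℕ, (χ : G → ℂ) 1 = (p : ℂ) ^ k) (hpG : p ∣ Nat.card G) :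
    ∃ f : G →* ℂˣ, orderOf f = p := by
  classical
  have hfin : Finite (IrrCharacter G) := (finite_irr_set (G := G)).to_subtype
  have : Fintype (IrrCharacter G) := Fintype.ofFinite _
  choose k hk using h
  have hsum := sum_degree_sq (G := G)
  have hsum' : ∑ χ : IrrCharacter G, (p ^ k χ) ^ 2 = Nat.card G := by
    have : ((∑ χ : IrrCharacter G, (p ^ k χ) ^ 2 : ℕ) : ℂ) = (Nat.card G : ℂ) := by
      rw [← hsum]
      push_cast
      exact Finset.sum_congr rfl fun χ _ => by rw [hk χ]
    exact_mod_cast this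
  have hterm : ∀ χ : IrrCharacter G, ∃ q, (p ^ k χ) ^ 2 = (if k χ = 0 then 1 else 0) + p * q := by
    intro χ
    by_cases h0 : k χ = 0
    · exact ⟨0, by simp [h0]⟩
    · obtain ⟨j, hj⟩ := Nat.exists_eq_succ_of_ne_zero h0
      refine ⟨p ^ j * p ^ (j + 1), ?_⟩
      rw [if_neg h0, hj, Nat.succ_eq_add_one]
      ring
  choose q hq using hterm
  have hlin : Nat.card {χ : IrrCharacter G // (χ : G → ℂ) 1 = 1} =
      ∑ χ : IrrCharacter G, if k χ = 0 then 1 else 0 := by
    rw [Nat.card_eq_fintype_card, Fintype.card_subtype, Finset.card_filter]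
    refine Finset.sum_congr rfl fun χ _ => ?_
    have : (χ : G → ℂ) 1 = 1 ↔ k χ = 0 := by
      rw [hk χ]
      constructor
      · intro h1
        have h2 : p ^ k χ = 1 := by exact_mod_cast h1
        rcases Nat.pow_eq_one.1 h2 with h3 | h3
        · exact absurd h3 hp.one_lt.ne'
        · exact h3
      · intro h1; rw [h1, pow_zero]
    simp only [this]
  have hdvd : p ∣ Nat.card (G →* ℂˣ) := by
    rw [← Nat.card_congr (linEquiv G), hlin]
    have h1 : Nat.card G = (∑ χ : IrrCharacter G, if k χ = 0 then 1 else 0) +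
        p * ∑ χ : IrrCharacter G, q χ := by
      rw [← hsum', Finset.sum_congr rfl (fun χ _ => hq χ), Finset.sum_add_distrib, Finset.mul_sum]
    rw [h1] at hpG
    exact (Nat.dvd_add_left (dvd_mul_right p _)).1 hpG
  have hfinH : Finite (G →* ℂˣ) := Finite.of_equiv _ (linEquiv G)
  have : Fact p.Prime := ⟨hp⟩
  exact exists_prime_orderOf_dvd_card' p hdvd

/-- The kernel of a homomorphism of order `p` has index `p`. -/
theorem index_ker {G : Type u} [Group G] [Finite G] {p : ℕ} (hp : p.Prime) {f : G →* ℂˣ}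
    (hf : orderOf f = p) : f.ker.index = p := by
  have hpow : ∀ g, f g ^ p = 1 := by
    intro g
    rw [← MonoidHom.pow_apply, ← hf, pow_orderOf_eq_one]
    rfl
  have hle : f.range ≤ rootsOfUnity p ℂ := by
    rintro _ ⟨g, rfl⟩
    rw [mem_rootsOfUnity]
    exact hpow g
  have : NeZero p := ⟨hp.ne_zero⟩
  have h1 : Nat.card f.range ∣ p := by
    have h2 := Subgroup.card_dvd_of_le hle
    have h3 : Nat.card (rootsOfUnity p ℂ) = p := by
      exact Complex.card_rootsOfUnity p
    rwa [h3] at h2
  rw [Subgroup.index_ker]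
  rcases (Nat.dvd_prime hp).1 h1 with h2 | h2
  · exfalso
    have h3 : f = 1 := by
      ext g
      have h4 : f.range = ⊥ := Subgroup.card_eq_one.1 h2
      have h5 : f g ∈ f.range := ⟨g, rfl⟩
      rw [h4, Subgroup.mem_bot] at h5
      rw [h5]; rfl
    rw [h3, orderOf_one] at hf
    exact hp.one_lt.ne hf
  · exact h2

theorem thompson {p : ℕ} (hp : p.Prime) (n : ℕ) : ∀ (G : Type u) [Group G] [Finite G],
    Nat.card G = n → (∀ χ : IrrCharacter G, ∃ k : ℕ, (χ : G → ℂ) 1 = (p : ℂ) ^ k) →
    ∃ A : Subgroup G, A.Normal ∧ (∀ a ∈ A, ∀ b ∈ A, a * b = b * a) ∧ Nat.Coprime (Nat.card A) p ∧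
      ∃ k : ℕ, A.index = p ^ k := by
  induction n using Nat.strong_induction_on with
  | _ n ih =>
  intro G _ _ hn h
  classical
  have := Fintype.ofFinite G
  by_cases hpG : p ∣ Nat.card G
  · obtain ⟨f, hf⟩ := exists_order_p hp h hpG
    let M := f.ker
    have hMidx : M.index = p := index_ker hp hf
    have hcard : Nat.card M < n := by
      have h1 := Subgroup.card_mul_index M
      rw [hMidx, hn] at h1
      have h2 : 0 < Nat.card M := Nat.card_pos
      have h3 := hp.two_le
      nlinarith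
    obtain ⟨A, hAn, hAab, hAcop, k, hk⟩ := ih _ hcard M rfl (by
      intro ψ
      -- ψ(1) divides χ(1)
      have : Fintype M := Fintype.ofFinite _
      obtain ⟨χ, hχ, hne⟩ := exists_over M ψ.2
      obtain ⟨j, hj⟩ := h ⟨χ, hχ⟩
      obtain ⟨e, he⟩ := inner_char_natCast (isCharacter_restrict M (isCharacter_of_isIrr hχ))
        (isCharacter_of_isIrr ψ.2)
      obtain ⟨d, hd⟩ := exists_degree (isCharacter_of_isIrr ψ.2)
      have h1 := degree_eq M hχ ψ.2 hne
      rw [he, hd] at h1
      have hj' : χ 1 = (p : ℂ) ^ j := hj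
      rw [hj'] at h1
      have h2 : p ^ j = e * (inertia M (ψ : M → ℂ)).index * d := by exact_mod_cast h1
      obtain ⟨i, _, hi⟩ := (Nat.dvd_prime_pow hp).1 (⟨_, by rw [h2, mul_comm]⟩ : d ∣ p ^ j)
      exact ⟨i, by rw [hd, hi]; push_cast; rfl⟩)
    -- A is normal in G
    have hmemA : ∀ x : M, Nat.Coprime (orderOf x) p → x ∈ A := by
      intro x hx
      have h1 : (QuotientGroup.mk' A x) ^ (p ^ k) = 1 := by
        have h2 := pow_card_eq_one' (G := M ⧸ A) (x := QuotientGroup.mk' A x)
        have h3 : Nat.card (M ⧸ A) = p ^ k := hk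
        rwa [h3] at h2
      have h2 : orderOf (QuotientGroup.mk' A x) ∣ p ^ k := orderOf_dvd_of_pow_eq_one h1
      have h3 : orderOf (QuotientGroup.mk' A x) ∣ orderOf x := orderOf_map_dvd _ x
      have h4 : orderOf (QuotientGroup.mk' A x) = 1 :=
        Nat.Coprime.eq_one_of_dvd ((Nat.Coprime.pow_right k hx).coprime_dvd_left h3) h2
      rw [orderOf_eq_one_iff] at h4
      exact (QuotientGroup.eq_one_iff x).1 h4
    let B : Subgroup G := A.map M.subtype
    have hBcard : Nat.card B = Nat.card A :=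
      Nat.card_congr (A.equivMapOfInjective M.subtype M.subtype_injective).symm.toEquiv
    refine ⟨B, ⟨?_⟩, ?_, ?_, ?_⟩
    · rintro _ ⟨x, hx, rfl⟩ g
      have hxM : g * (x : G) * g⁻¹ ∈ M := (inferInstance : M.Normal).conj_mem _ x.2 g
      refine ⟨⟨g * (x : G) * g⁻¹, hxM⟩, ?_, rfl⟩
      apply hmemA
      rw [Subgroup.orderOf_mk]
      have h1 : orderOf (g * (x : G) * g⁻¹) = orderOf (x : G) := by
        have := MulEquiv.orderOf_eq (MulAut.conj g) (x : G)
        rw [← this]; rfl
      rw [h1, Subgroup.orderOf_coe]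
      have h2 : orderOf x ∣ Nat.card A := by
        have := orderOf_dvd_natCard (⟨x, hx⟩ : A)
        rwa [Subgroup.orderOf_mk] at this
      exact Nat.Coprime.coprime_dvd_left h2 hAcop
    · rintro _ ⟨x, hx, rfl⟩ _ ⟨y, hy, rfl⟩
      exact congrArg Subtype.val (hAab x hx y hy)
    · rw [hBcard]; exact hAcop
    · refine ⟨k + 1, ?_⟩
      have h1 : B.index = A.index * M.index := by
        rw [Subgroup.index_map, Subgroup.ker_subtype, sup_bot_eq, Subgroup.range_subtype]
      rw [h1, hk, hMidx, pow_succ]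
  · -- all characters linear
    refine ⟨⊤, inferInstance, ?_, ?_, 0, by simp⟩
    · have hlin : ∀ χ : G → ℂ, IsIrrCharacter G χ → χ 1 = 1 := by
        intro χ hχ
        obtain ⟨k, hk⟩ := h ⟨χ, hχ⟩
        have hk' : χ 1 = (p : ℂ) ^ k := hk
        obtain ⟨m, ρ, hρ, rfl⟩ := hχ
        have h1 := H4.Integral.degree_dvd_card ρ hρ
        rw [Module.finrank_fin_fun] at h1
        rw [Representation.char_one, Module.finrank_fin_fun] at hk'
        have h2 : m = p ^ k := by exact_mod_cast hk'
        have h3 : k = 0 := by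
          by_contra h0
          apply hpG
          rw [h2] at h1
          exact (dvd_pow_self p h0).trans h1
        rw [Representation.char_one, Module.finrank_fin_fun, h2, h3]
        simp
      intro a _ b _
      have h1 : a * b * a⁻¹ * b⁻¹ = 1 := by
        apply eq_one_of_forall_irr
        intro χ hχ
        obtain ⟨f, hf⟩ := exists_hom_of_degree_one (isCharacter_of_isIrr hχ) (hlin χ hχ)
        rw [hf]
        simp only [map_mul, map_inv, map_one]
        rw [mul_comm (f a) (f b), mul_inv_cancel_right, mul_inv_cancel]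
      rw [mul_inv_eq_one, mul_inv_eq_iff_eq_mul] at h1
      exact h1
    · rw [Subgroup.card_top]
      exact ((Nat.Prime.coprime_iff_not_dvd hp).2 hpG).symm

/-- For a finite group G and a prime p: every irreducible character of G has degree a power of p if and only if G has an abelian normal subgroup whose order is prime to p and whose index is a power of p. -/
theorem result {G : Type*} [Group G] [Finite G] (p : ℕ) (hp : p.Prime) : (∀ χ : Cfsg.IrrCharacter G, ∃ k : ℕ, (χ : G → ℂ) 1 = (p : ℂ) ^ k) ↔ ∃ A : Subgroup G, A.Normal ∧ (∀ a ∈ A, ∀ b ∈ A, a * b = b * a) ∧ Nat.Coprime (Nat.card A) p ∧ ∃ k : ℕ, A.index = p ^ k := by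
  classical
  constructor
  · intro h
    exact thompson hp _ G rfl h
  · rintro ⟨A, hAn, hAab, hcop, k, hk⟩ χ
    obtain ⟨d, hd⟩ := H18.CharBasic.exists_degree (H18.CharBasic.isCharacter_of_isIrr χ.2)
    have h1 : d ∣ A.index := H4.CenterIndex.ito χ.2 hd A hAab
    rw [hk] at h1
    obtain ⟨j, _, hj⟩ := (Nat.dvd_prime_pow hp).1 h1
    exact ⟨j, by rw [hd, hj]; push_cast; rfl⟩

end Cfsg.Agent.S0855
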