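import Cfsg.Statements.S0859
import Cfsg.Agent.Lib.H18.RelM2

set_option autoImplicit false
open Cfsg

namespace Cfsg.Agent.S0859

/-- Let G be a finite solvable group and N a normal subgroup such that for every prime p every Sylow p-subgroup of N is abelian. Suppose every irreducible character of G is induced from an irreducible character of some subgroup containing N whose restriction to N is irreducible. Then every irreducible character of G is induced from a character of degree 1 of some subgroup. -/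
theorem result {G : Type*} [Group G] [Fintype G] [Group.IsSolvable G] (N : Subgroup G) [N.Normal] (hab : ∀ (p : ℕ) [Fact p.Prime] (P : Sylow p N), ∀ a ∈ P, ∀ b ∈ P, a * b = b * a) (hrel : ∀ χ : G → ℂ, Cfsg.IsIrrCharacter G χ → ∃ (H : Subgroup G) (hNH : N ≤ H) (ψ : H → ℂ), Cfsg.IsIrrCharacter H ψ ∧ Cfsg.indFun H ψ = χ ∧ Cfsg.IsIrrCharacter N (fun n : N => ψ ⟨(n : G), hNH n.2⟩)) (χ : G → ℂ) (hχ : Cfsg.IsIrrCharacter G χ) : ∃ (U : Subgroup G) (lam : U → ℂ), Cfsg.IsCharacter U lam ∧ lam 1 = 1 ∧ Cfsg.indFun U lam = χ := by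
  classical
  obtain ⟨H, hNH, ψ, hψ, hind, hψN⟩ := hrel χ hχ
  have : Fintype H := Fintype.ofFinite _
  have hN'n : (N.subgroupOf H).Normal := Subgroup.Normal.subgroupOf inferInstance H
  let e : N.subgroupOf H ≃* N := Subgroup.subgroupOfEquivOfLe hNH
  have hψN' : IsIrrCharacter (N.subgroupOf H) (fun x : N.subgroupOf H => ψ x) := by
    have := (H18.CharQuot.isIrrCharacter_mulEquiv e).1 hψN
    exact this
  have habN : ∀ (p : ℕ) [Fact p.Prime] (P : Subgroup H), P ≤ N.subgroupOf H → IsPGroup p P →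
      ∀ a ∈ P, ∀ b ∈ P, a * b = b * a := by
    intro p _ P hP hpg a ha b hb
    -- the image of P in N
    let P' : Subgroup N := (P.map H.subtype).subgroupOf N
    have hP'pg : IsPGroup p P' := by
      have h1 : IsPGroup p (P.map H.subtype) := hpg.map H.subtype
      exact IsPGroup.of_injective h1 ((N.subtype).subgroupComap (P.map H.subtype)) (by
        intro x y hxy
        apply Subtype.ext; apply Subtype.ext
        exact congrArg (fun t : (P.map H.subtype : Subgroup G) => (t : G)) hxy)
    obtain ⟨S, hS⟩ := hP'pg.exists_le_sylow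
    have hmem : ∀ x ∈ P, ∃ hx : (x : G) ∈ N, (⟨x, hx⟩ : N) ∈ S := by
      intro x hx
      have hxN : (x : G) ∈ N := Subgroup.mem_subgroupOf.1 (hP hx)
      exact ⟨hxN, hS (Subgroup.mem_subgroupOf.2 ⟨x, hx, rfl⟩)⟩
    obtain ⟨haN, haS⟩ := hmem a ha
    obtain ⟨hbN, hbS⟩ := hmem b hb
    have h2 := hab p S _ haS _ hbS
    exact Subtype.ext (congrArg (fun t : N => (t : G)) h2)
  obtain ⟨U, lam, hU, hlam1, hUind⟩ := H18.RelM2.monomial_of_restrict (Nat.card (⊤ : Subgroup H))
    (inferInstance : Group.IsSolvable H) (N.subgroupOf H) habN hψ hψN' ⊤ (fun x => ψ x) rfl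
    (H18.CharBasic.isIrrCharacter_comp (Subgroup.topEquiv (G := H)).toMonoidHom
        (Subgroup.topEquiv (G := H)).surjective hψ)
    (by
      funext g
      rw [H18.CharInd.indFun_top]
      exact H18.CharOrtho.isClassFunction_restrict ⊤ (H18.CharBasic.isClassFunction_of_isIrr hψ))
  obtain ⟨lam', h1, h2, h3⟩ := H18.RelM.exists_trans H U lam
    (H18.CharQuot.isIrr_of_degree_one hU hlam1)
  refine ⟨U.map H.subtype, lam', H18.CharBasic.isCharacter_of_isIrr h1, ?_, by rw [h2, hUind, hind]⟩
  have h4 := h3 1 U.one_mem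
  rw [← hlam1]
  exact h4

end Cfsg.Agent.S0859
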