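import Cfsg.Statements.S0861
import Cfsg.Agent.Lib.H84.CyclicNorm
import Cfsg.Agent.Lib.H4.CenterIndex

set_option autoImplicit false
open Cfsg

namespace Cfsg.Agent.S0861

open H18.CharBasic H18.CharOrtho H18.CharInd H18.CharQuot in
/-- A character vanishing at a `p`-element has degree divisible by `p`. -/
theorem dvd_of_zero {G : Type*} [Group G] [Finite G] {p : ℕ} [hp : Fact p.Prime] {χ : G → ℂ}
    (h : IsCharacter G χ) {d : ℕ} (hd : χ 1 = d) {x : G} {k : ℕ} (hx : x ^ p ^ k = 1)
    (h0 : χ x = 0) : p ∣ d := by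
  rcases Nat.eq_zero_or_pos k with hk | hk
  · subst hk
    rw [pow_zero, pow_one] at hx
    rw [hx, hd] at h0
    have : d = 0 := by exact_mod_cast h0
    rw [this]; exact dvd_zero p
  · have hn : 0 < p ^ k := pow_pos hp.out.pos k
    have hζ := Complex.isPrimitiveRoot_exp (p ^ k) hn.ne'
    obtain ⟨P, hP⟩ := H84.CyclicNorm.exists_poly_of_isCharacter h x hn hx hζ
    set ζ := Complex.exp (2 * Real.pi * Complex.I / (p ^ k : ℕ)) with hζd
    have h1 := hP 1
    rw [pow_one, pow_one, h0] at h1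
    have h2 : Polynomial.aeval ζ P = 0 := by
      rw [Polynomial.aeval_def, Polynomial.eval₂_eq_eval_map]
      exact h1.symm
    have h3 : minpoly ℤ ζ ∣ P := minpoly.isIntegrallyClosed_dvd (hζ.isIntegral hn) h2
    rw [← Polynomial.cyclotomic_eq_minpoly hζ hn] at h3
    obtain ⟨Q, hQ⟩ := h3
    have h4 := hP 0
    rw [pow_zero, pow_zero, hd] at h4
    have h5 : (P.map (Int.castRingHom ℂ)).eval 1 = ((P.eval 1 : ℤ) : ℂ) := by
      have := Polynomial.eval_map_apply (Int.castRingHom ℂ) (p := P) 1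
      simpa using this
    rw [h5] at h4
    have h6 : (d : ℤ) = P.eval 1 := by exact_mod_cast h4
    obtain ⟨j, rfl⟩ : ∃ j, k = j + 1 := ⟨k - 1, by omega⟩
    rw [hQ, Polynomial.eval_mul, Polynomial.eval_one_cyclotomic_prime_pow] at h6
    have h7 : (p : ℤ) ∣ (d : ℤ) := ⟨Q.eval 1, h6⟩
    exact_mod_cast h7

/-- Let P be a normal abelian Sylow p-subgroup of the finite group G and suppose some element g of P has centralizer exactly P. Then the number of irreducible characters of G is at most the order of P, and if equality holds then G / P is abelian (the commutator subgroup lies in P). -/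
theorem result {G : Type*} [Group G] [Finite G] (p : ℕ) [Fact p.Prime] (P : Sylow p G) [(P : Subgroup G).Normal] (hab : ∀ a ∈ P, ∀ b ∈ P, a * b = b * a) (g : G) (hg : g ∈ P) (hC : Subgroup.centralizer ({g} : Set G) = P) : Nat.card (Cfsg.IrrCharacter G) ≤ Nat.card P ∧ (Nat.card (Cfsg.IrrCharacter G) = Nat.card P → commutator G ≤ P) := by
  classical
  have := Fintype.ofFinite G
  have hfinI : Finite (Cfsg.IrrCharacter G) := (H18.CharOrtho.finite_irr_set (G := G)).to_subtype
  have : Fintype (Cfsg.IrrCharacter G) := Fintype.ofFinite _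
  set n := orderOf g with hn
  have hnpos : 0 < n := orderOf_pos g
  let A := (Finset.range n).filter (fun a => a.Coprime n)
  have hAcard : A.card = n.totient := by
    rw [Nat.totient_eq_card_coprime]
    congr 1
    ext a
    simp only [A, Finset.mem_filter]
    rw [Nat.coprime_comm]
  have hApos : 0 < n.totient := Nat.totient_pos.2 hnpos
  -- centralizers of the coprime powers
  have hcen : ∀ a ∈ A, Subgroup.centralizer ({g ^ a} : Set G) = P := by
    intro a ha
    rw [← hC]
    have ha' : Nat.Coprime a n := (Finset.mem_filter.1 ha).2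
    have hz : g ∈ Subgroup.zpowers (g ^ a) := by
      obtain ⟨m, hm⟩ := exists_pow_eq_self_of_coprime (x := g) (n := a) ha'
      refine ⟨(m : ℤ), ?_⟩
      show (g ^ a) ^ (m : ℤ) = g
      rw [zpow_natCast]; exact hm
    ext x
    rw [Subgroup.mem_centralizer_singleton_iff, Subgroup.mem_centralizer_singleton_iff]
    constructor
    · intro h
      obtain ⟨m, hm⟩ := hz
      have h1 : Commute x ((g ^ a) ^ m) := (show Commute x (g ^ a) from h).zpow_right m
      simp only at hm
      rw [hm] at h1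
      exact h1
    · intro h
      exact (show Commute x g from h).pow_right a
  have hcol : ∀ a ∈ A, ∑ χ : Cfsg.IrrCharacter G, ‖(χ : G → ℂ) (g ^ a)‖ ^ 2 = (Nat.card P : ℝ) := by
    intro a ha
    have h1 := H18.CharInd.column_orthogonality (g ^ a) (g ^ a)
    rw [if_pos (IsConj.refl _), hcen a ha] at h1
    have h2 : ((∑ χ : Cfsg.IrrCharacter G, ‖(χ : G → ℂ) (g ^ a)‖ ^ 2 : ℝ) : ℂ) =
        ((Nat.card P : ℝ) : ℂ) := by
      push_cast
      rw [← h1]
      refine Finset.sum_congr rfl fun χ _ => ?_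
      rw [Complex.mul_conj, Complex.normSq_eq_norm_sq]
      push_cast
      rfl
    exact_mod_cast h2
  have hnz : ∀ χ : Cfsg.IrrCharacter G, (χ : G → ℂ) g ≠ 0 := by
    intro χ h0
    obtain ⟨d, hd⟩ := H18.CharBasic.exists_degree (H18.CharBasic.isCharacter_of_isIrr χ.2)
    have h1 : d ∣ (P : Subgroup G).index := H4.CenterIndex.ito χ.2 hd (P : Subgroup G) hab
    obtain ⟨k, hk⟩ := IsPGroup.iff_orderOf.1 P.isPGroup' ⟨g, hg⟩
    have h2 : g ^ p ^ k = 1 := by
      rw [← hk, Subgroup.orderOf_mk]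
      exact pow_orderOf_eq_one g
    exact P.not_dvd_index ((dvd_of_zero (H18.CharBasic.isCharacter_of_isIrr χ.2) hd h2 h0).trans h1)
  have hge : ∀ χ : Cfsg.IrrCharacter G, (n.totient : ℝ) ≤ ∑ a ∈ A, ‖(χ : G → ℂ) (g ^ a)‖ ^ 2 :=
    fun χ => H84.CyclicNorm.totient_le_sum_norm_sq (H18.CharOrtho.isGen_of_isIrr χ.2) g (hnz χ)
      hnpos (pow_orderOf_eq_one g)
  have htot : ∑ χ : Cfsg.IrrCharacter G, ∑ a ∈ A, ‖(χ : G → ℂ) (g ^ a)‖ ^ 2 =
      (n.totient : ℝ) * Nat.card P := by
    rw [Finset.sum_comm, Finset.sum_congr rfl hcol, Finset.sum_const, hAcard, nsmul_eq_mul]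
  have hcardI : Nat.card (Cfsg.IrrCharacter G) = Fintype.card (Cfsg.IrrCharacter G) :=
    Nat.card_eq_fintype_card
  have htotpos : (0 : ℝ) < n.totient := by exact_mod_cast hApos
  constructor
  · have h1 : (Fintype.card (Cfsg.IrrCharacter G) : ℝ) * n.totient ≤ (n.totient : ℝ) * Nat.card P := by
      rw [← htot]
      calc (Fintype.card (Cfsg.IrrCharacter G) : ℝ) * n.totient =
          ∑ χ : Cfsg.IrrCharacter G, (n.totient : ℝ) := by
            rw [Finset.sum_const, Finset.card_univ, nsmul_eq_mul]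
        _ ≤ _ := Finset.sum_le_sum fun χ _ => hge χ
    rw [hcardI]
    have h2 : (Fintype.card (Cfsg.IrrCharacter G) : ℝ) ≤ Nat.card P := by
      rw [mul_comm] at h1
      exact le_of_mul_le_mul_left h1 htotpos
    exact_mod_cast h2
  · intro heq
    have h1 : ∑ χ : Cfsg.IrrCharacter G, (n.totient : ℝ) =
        ∑ χ : Cfsg.IrrCharacter G, ∑ a ∈ A, ‖(χ : G → ℂ) (g ^ a)‖ ^ 2 := by
      rw [htot, Finset.sum_const, Finset.card_univ, nsmul_eq_mul, ← hcardI, heq, mul_comm]
    have h2 := (Finset.sum_eq_sum_iff_of_le (fun χ _ => hge χ)).1 h1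
    have hlin : ∀ β : G → ℂ, Cfsg.IsIrrCharacter G β → (∀ x ∈ (P : Subgroup G), β x = β 1) →
        β 1 = 1 := by
      intro β hβ hβP
      have h3 := h2 ⟨β, hβ⟩ (Finset.mem_univ _)
      have h4 : ∀ a ∈ A, ‖((⟨β, hβ⟩ : Cfsg.IrrCharacter G) : G → ℂ) (g ^ a)‖ ^ 2 = ‖β 1‖ ^ 2 := by
        intro a _
        show ‖β (g ^ a)‖ ^ 2 = _
        rw [hβP _ ((P : Subgroup G).pow_mem hg a)]
      rw [Finset.sum_congr rfl h4, Finset.sum_const, hAcard, nsmul_eq_mul] at h3
      have h5 : ‖β 1‖ ^ 2 = 1 := by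
        have h6 : (n.totient : ℝ) * ‖β 1‖ ^ 2 = n.totient * 1 := by rw [← h3, mul_one]
        exact mul_left_cancel₀ htotpos.ne' h6
      obtain ⟨d, hd⟩ := H18.CharBasic.exists_degree (H18.CharBasic.isCharacter_of_isIrr hβ)
      rw [hd] at h5 ⊢
      have h6 : (d : ℝ) ^ 2 = 1 := by simpa using h5
      have h7 : d ^ 2 = 1 := by exact_mod_cast h6
      have h8 : d = 1 := by
        rcases Nat.pow_eq_one.1 h7 with h | h
        · exact h
        · omega
      rw [h8, Nat.cast_one]
    intro x hx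
    rw [← QuotientGroup.eq_one_iff]
    apply H18.CharQuot.eq_one_of_forall_irr
    intro χ hχ
    have hinf := H18.CharQuot.isIrrCharacter_inflate (P : Subgroup G) hχ
    have h3 := hlin _ hinf (by
      intro y hy
      have : ((y : G) : G ⧸ (P : Subgroup G)) = ((1 : G) : G ⧸ (P : Subgroup G)) := by
        rw [QuotientGroup.mk_one]; exact (QuotientGroup.eq_one_iff y).2 hy
      simp only [this])
    obtain ⟨f, hf⟩ := H18.CharQuot.exists_hom_of_degree_one (H18.CharBasic.isCharacter_of_isIrr hinf) h3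
    have h4 : f x = 1 := by
      have : commutator G ≤ f.ker := Abelianization.commutator_subset_ker f
      exact this hx
    have h5 := congrFun hf x
    simp only [h4, Units.val_one] at h5
    rw [h5]
    have h6 : χ 1 = 1 := h3
    rw [h6]

end Cfsg.Agent.S0861
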