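import Cfsg.Statements.S0864
import Cfsg.Agent.Lib.H18.LinExt

set_option autoImplicit false
open Cfsg

namespace Cfsg.Agent.S0864

/-- Let N be a normal subgroup of the finite group G and λ a character of N of degree 1 invariant under conjugation by G. Suppose that for every prime p dividing the order of λ (in the group of functions under pointwise multiplication) there is a subgroup H containing N, of index prime to p and with the index of N in H a power of p, together with a character of H of degree 1 restricting to λ. Then λ is the restriction of a character of G of degree 1. -/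
theorem result {G : Type*} [Group G] [Finite G] (N : Subgroup G) [hN : N.Normal] (lam : N → ℂ) (hlam : Cfsg.IsCharacter N lam ∧ lam 1 = 1) (hinv : ∀ (g : G) (n : N), lam ⟨g * n * g⁻¹, hN.conj_mem (n : G) n.2 g⟩ = lam n) (hsyl : ∀ p : ℕ, p.Prime → p ∣ orderOf lam → ∃ (H : Subgroup G) (hNH : N ≤ H) (ν : H → ℂ), Nat.Coprime H.index p ∧ (∃ k : ℕ, N.relIndex H = p ^ k) ∧ Cfsg.IsCharacter H ν ∧ ν 1 = 1 ∧ ∀ n : N, ν ⟨(n : G), hNH n.2⟩ = lam n) : ∃ μ : G → ℂ, Cfsg.IsCharacter G μ ∧ μ 1 = 1 ∧ ∀ n : N, μ n = lam n := by
  classical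
  obtain ⟨f, hf⟩ := H18.CharQuot.exists_hom_of_degree_one hlam.1 hlam.2
  obtain ⟨F, hF⟩ := H18.LinExt.exists_ext N f (by
    intro g n
    have := hinv g n
    rw [hf] at this
    exact Units.ext this) (by
    intro p hp hpd
    rw [← H18.LinExt.orderOf_coe f, ← hf] at hpd
    obtain ⟨H, hNH, ν, hcop, -, hν, hν1, hνN⟩ := hsyl p hp hpd
    obtain ⟨ν', hν'⟩ := H18.CharQuot.exists_hom_of_degree_one hν hν1
    refine ⟨H, hNH, ν', ?_, ?_⟩
    · intro hcon
      have := Nat.Coprime.eq_one_of_dvd hcop.symm hcon
      exact hp.one_lt.ne' this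
    · intro n
      have := hνN n
      rw [hf, hν'] at this
      exact Units.ext this)
  refine ⟨fun g => (F g : ℂ), H18.CharBasic.isCharacter_of_isIrr
    (H18.CharBasic.isIrrCharacter_of_hom F), by simp, fun n => ?_⟩
  rw [hf]
  exact congrArg Units.val (hF n)

end Cfsg.Agent.S0864
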