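import Cfsg.Statements.S0865
import Cfsg.Agent.Lib.H18.LinExt

set_option autoImplicit false
open Cfsg

namespace Cfsg.Agent.S0865

/-- Let N be a normal subgroup of the finite group G and λ a character of N of degree 1, invariant under conjugation by G, whose order (under pointwise multiplication) is coprime to the index of N. Then there is a character μ of G of degree 1 restricting to λ with the same order as λ, and μ is the only degree-1 character of G restricting to λ whose order is coprime to the index of N. -/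
theorem result {G : Type*} [Group G] [Finite G] (N : Subgroup G) [hN : N.Normal] (lam : N → ℂ) (hlam : Cfsg.IsCharacter N lam ∧ lam 1 = 1) (hinv : ∀ (g : G) (n : N), lam ⟨g * n * g⁻¹, hN.conj_mem (n : G) n.2 g⟩ = lam n) (hcop : Nat.Coprime N.index (orderOf lam)) : ∃ μ : G → ℂ, (Cfsg.IsCharacter G μ ∧ μ 1 = 1 ∧ (∀ n : N, μ n = lam n) ∧ orderOf μ = orderOf lam) ∧ ∀ μ' : G → ℂ, Cfsg.IsCharacter G μ' ∧ μ' 1 = 1 → (∀ n : N, μ' n = lam n) → Nat.Coprime N.index (orderOf μ') → μ' = μ := by
  classical
  obtain ⟨f, hf⟩ := H18.CharQuot.exists_hom_of_degree_one hlam.1 hlam.2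
  have ho : orderOf lam = orderOf f := by rw [hf]; exact H18.LinExt.orderOf_coe f
  obtain ⟨F, hF, hFo⟩ := H18.LinExt.exists_ext_coprime N f (by
    intro g n
    have := hinv g n
    rw [hf] at this
    exact Units.ext this) (by rw [← ho]; exact hcop)
  refine ⟨fun g => (F g : ℂ), ⟨H18.CharBasic.isCharacter_of_isIrr
    (H18.CharBasic.isIrrCharacter_of_hom F), by simp, fun n => ?_, ?_⟩, ?_⟩
  · rw [hf]
    exact congrArg Units.val (hF n)
  · rw [H18.LinExt.orderOf_coe, hFo, ho]
  · rintro μ' hμ' hμN hμcop
    obtain ⟨F', hF'⟩ := H18.CharQuot.exists_hom_of_degree_one hμ'.1 hμ'.2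
    rw [hF', H18.LinExt.orderOf_coe] at hμcop
    have : F' = F := by
      apply H18.LinExt.ext_unique N F' F ?_ hμcop (by rw [hFo, ← ho]; exact hcop)
      intro n hn
      have h1 := hμN ⟨n, hn⟩
      rw [hF', hf] at h1
      rw [hF ⟨n, hn⟩]
      exact Units.ext h1
    rw [hF', this]

end Cfsg.Agent.S0865
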