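import Cfsg.Statements.S0875
import Cfsg.Agent.Lib.H18.AvgInt

set_option autoImplicit false
open Cfsg

namespace Cfsg.Agent.S0875

open H18.CharBasic H18.CharOrtho H18.CharInd H18.CharQuot H18.AvgInt

/-- If `x = u v`, commuting, coprime orders, then `v` is a power of `x`. -/
theorem mem_zpowers_of_coprime {G : Type*} [Group G] [Finite G] {x u v : G} (h : x = u * v)
    (hc : Commute u v) (hcop : (orderOf u).Coprime (orderOf v)) :
    v ∈ Subgroup.zpowers x ∧ u ∈ Subgroup.zpowers x := by
  have key : ∀ {u v : G}, Commute u v → (orderOf u).Coprime (orderOf v) →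
      v ∈ Subgroup.zpowers (u * v) := by
    intro u v hc hcop
    have h1 : (u * v) ^ orderOf u = v ^ orderOf u := by
      rw [hc.mul_pow, pow_orderOf_eq_one, one_mul]
    obtain ⟨m, hm⟩ := exists_pow_eq_self_of_coprime (x := v) (n := orderOf u) hcop
    refine ⟨(orderOf u * m : ℕ), ?_⟩
    show (u * v) ^ ((orderOf u * m : ℕ) : ℤ) = v
    rw [zpow_natCast, pow_mul, h1, hm]
  subst h
  refine ⟨key hc hcop, ?_⟩
  have := key hc.symm hcop.symm
  rwa [hc.symm.eq] at this

/-- The set of elements whose `n`-part is conjugate to `g` is stable under multiplication by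
elements of order prime to `n` in a nilpotent subgroup. -/
theorem stable {G : Type*} [Group G] [Finite G] {m n : ℕ} (hmn : Nat.card G = m * n)
    (hcop : Nat.Coprime m n) (g : G) (E : Subgroup G)
    (A B : Subgroup E) [A.Normal] [B.Normal] (hA : ∀ x : E, x ∈ A ↔ (orderOf x).Coprime m)
    (hB : ∀ x : E, x ∈ B ↔ (orderOf x).Coprime n) (x b : E) (hb : b ∈ B)
    (h : ∃ v : G, IsConj v g ∧ ∃ u : G, (x : G) = u * v ∧ Commute u v ∧
      Nat.Coprime (orderOf u) n ∧ Nat.Coprime (orderOf v) m) :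
    ∃ v : G, IsConj v g ∧ ∃ u : G, ((x * b : E) : G) = u * v ∧ Commute u v ∧
      Nat.Coprime (orderOf u) n ∧ Nat.Coprime (orderOf v) m := by
  obtain ⟨v, hv, u, hx, hc, hu, hvm⟩ := h
  have hcard : ∀ y : G, (orderOf y).Coprime n → orderOf y ∣ m := by
    intro y hy
    have h1 : orderOf y ∣ m * n := hmn ▸ orderOf_dvd_natCard y
    exact Nat.Coprime.dvd_of_dvd_mul_right hy h1
  have huv : (orderOf u).Coprime (orderOf v) :=
    Nat.Coprime.coprime_dvd_left (hcard u hu) hvm.symm
  obtain ⟨hvx, hux⟩ := mem_zpowers_of_coprime hx hc huv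
  have hxE : Subgroup.zpowers (x : G) ≤ E := by rw [Subgroup.zpowers_le]; exact x.2
  let v' : E := ⟨v, hxE hvx⟩
  let u' : E := ⟨u, hxE hux⟩
  have hv'A : v' ∈ A := by rw [hA, Subgroup.orderOf_mk]; exact hvm
  have hu'B : u' ∈ B := by rw [hB, Subgroup.orderOf_mk]; exact hu
  have hcomm : ∀ a ∈ A, ∀ c ∈ B, a * c = c * a := by
    intro a ha c hc
    have h1 : a * c * a⁻¹ * c⁻¹ ∈ A := by
      have : a * (c * a⁻¹ * c⁻¹) ∈ A := A.mul_mem ha
        ((inferInstance : A.Normal).conj_mem _ (A.inv_mem ha) c)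
      have e : a * c * a⁻¹ * c⁻¹ = a * (c * a⁻¹ * c⁻¹) := by group
      rw [e]; exact this
    have h2 : a * c * a⁻¹ * c⁻¹ ∈ B :=
      B.mul_mem ((inferInstance : B.Normal).conj_mem _ hc a) (B.inv_mem hc)
    rw [hA] at h1
    rw [hB] at h2
    have h3 : orderOf (a * c * a⁻¹ * c⁻¹) ∣ m * n := by
      rw [← hmn]
      have h4 : orderOf (a * c * a⁻¹ * c⁻¹) ∣ Nat.card E := orderOf_dvd_natCard _
      exact h4.trans (Subgroup.card_subgroup_dvd_card E)
    have h4 : orderOf (a * c * a⁻¹ * c⁻¹) = 1 :=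
      Nat.Coprime.eq_one_of_dvd (Nat.Coprime.mul_right h1 h2) h3
    rw [orderOf_eq_one_iff, mul_inv_eq_one, mul_inv_eq_iff_eq_mul] at h4
    exact h4
  have hvb : v' * b = b * v' := hcomm v' hv'A b hb
  have hvb' : v * (b : G) = b * v := congrArg Subtype.val hvb
  refine ⟨v, hv, u * b, ?_, ?_, ?_, hvm⟩
  · show (x : G) * b = u * b * v
    rw [hx, mul_assoc, hvb', mul_assoc]
  · show u * b * v = v * (u * b)
    rw [mul_assoc, ← hvb', ← mul_assoc, hc.eq, mul_assoc]
  · have h1 : u' * b ∈ B := B.mul_mem hu'B hb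
    rw [hB] at h1
    have h2 : orderOf (u * (b : G)) = orderOf (u' * b) := by
      rw [← Subgroup.orderOf_coe]; rfl
    rw [h2]; exact h1

/-- Let G be a finite group of order m * n with m and n coprime, and g an element whose order is coprime to m. Every x in G factors uniquely as x = u * v with u, v commuting, the order of u coprime to n and the order of v coprime to m; let ϑ be the function on G equal to n at those x whose factor v is conjugate to g and equal to 0 elsewhere. Then ϑ is a linear combination of the irreducible characters of G with algebraic-integer coefficients. -/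
theorem result {G : Type*} [Group G] [Fintype G] (m n : ℕ) (hmn : Nat.card G = m * n) (hcop : Nat.Coprime m n) (g : G) (hg : Nat.Coprime (orderOf g) m) (ϑ : G → ℂ) (hϑ1 : ∀ x : G, (∃ v : G, IsConj v g ∧ (∃ u : G, x = u * v ∧ Commute u v ∧ Nat.Coprime (orderOf u) n ∧ Nat.Coprime (orderOf v) m)) → ϑ x = n) (hϑ0 : ∀ x : G, (¬ ∃ v : G, IsConj v g ∧ (∃ u : G, x = u * v ∧ Commute u v ∧ Nat.Coprime (orderOf u) n ∧ Nat.Coprime (orderOf v) m)) → ϑ x = 0) : ∃ c : Cfsg.IrrCharacter G → ℂ, (∀ χ, c χ ∈ Cfsg.AlgInt) ∧ ϑ = ∑ᶠ χ : Cfsg.IrrCharacter G, c χ • (χ : G → ℂ) := by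
  classical
  let C : G → Prop := fun x => ∃ v : G, IsConj v g ∧ (∃ u : G, x = u * v ∧ Commute u v ∧
    Nat.Coprime (orderOf u) n ∧ Nat.Coprime (orderOf v) m)
  have hn0 : n ≠ 0 := by
    rintro rfl
    rw [mul_zero] at hmn
    exact (Nat.card_pos (α := G)).ne' hmn
  have hm0 : m ≠ 0 := by
    rintro rfl
    rw [zero_mul] at hmn
    exact (Nat.card_pos (α := G)).ne' hmn
  have hval : ∀ x, ϑ x = if C x then (n : ℂ) else 0 := by
    intro x
    by_cases h : C x
    · rw [if_pos h]; exact hϑ1 x h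
    · rw [if_neg h]; exact hϑ0 x h
  have hCconj : ∀ x y : G, C x → C (y * x * y⁻¹) := by
    rintro x y ⟨v, hv, u, hx, hc, hu, hvm⟩
    have ho : ∀ z : G, orderOf (y * z * y⁻¹) = orderOf z := by
      intro z
      have := MulEquiv.orderOf_eq (MulAut.conj y) z
      rw [← this]; rfl
    refine ⟨y * v * y⁻¹, (isConj_iff.2 ⟨y, rfl⟩ : IsConj v (y * v * y⁻¹)).symm.trans hv,
      y * u * y⁻¹, ?_, ?_, ?_, ?_⟩
    · rw [hx]; group
    · show y * u * y⁻¹ * (y * v * y⁻¹) = y * v * y⁻¹ * (y * u * y⁻¹)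
      have e1 : y * u * y⁻¹ * (y * v * y⁻¹) = y * (u * v) * y⁻¹ := by group
      have e2 : y * v * y⁻¹ * (y * u * y⁻¹) = y * (v * u) * y⁻¹ := by group
      rw [e1, e2, hc.eq]
    · rw [ho]; exact hu
    · rw [ho]; exact hvm
  have hcl : Cfsg.IsClassFunction G ϑ := by
    intro x y
    rw [hval, hval]
    have : C (y * x * y⁻¹) ↔ C x := by
      constructor
      · intro h
        have := hCconj _ y⁻¹ h
        have e : y⁻¹ * (y * x * y⁻¹) * y⁻¹⁻¹ = x := by group
        rwa [e] at this
      · exact hCconj x y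
    simp only [this]
  let S : AddSubgroup (G → ℂ) :=
    { carrier := {f | ∀ χ : G → ℂ, Cfsg.IsIrrCharacter G χ → IsIntegral ℤ (Cfsg.classInner f χ)}
      zero_mem' := fun χ _ => by
        rw [H18.CharOrtho.inner_zero_left]; exact isIntegral_zero
      add_mem' := fun {a b} ha hb χ hχ => by
        rw [H18.CharOrtho.inner_add_left]; exact (ha χ hχ).add (hb χ hχ)
      neg_mem' := fun {a} ha χ hχ => by
        rw [H18.CharOrtho.inner_neg_left]; exact (ha χ hχ).neg }
  have hS : ϑ ∈ S := by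
    refine H4.Brauer.mul_mem_of hcl ?_
    intro E p ψ hp hE hψ χ hχ
    have : Fintype E := Fintype.ofFinite _
    rw [H18.CharInd.frobenius E _ (H18.CharBasic.isClassFunction_of_isIrr hχ)]
    have hnil : Group.IsNilpotent E := H4.Brauer.isNilpotent_of_isElementary hp hE
    obtain ⟨A, hAn, hA⟩ := exists_regSub E m hm0
    obtain ⟨B, hBn, hB⟩ := exists_regSub E n hn0
    have hEmn : Nat.card E ∣ m * n := hmn ▸ Subgroup.card_subgroup_dvd_card E
    have hBidx : B.index ∣ n := index_dvd_of_regSub hEmn B hB hcop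
    have hCE : ∀ b ∈ B, ∀ x : E, C ((x * b : E) : G) ↔ C x := by
      intro b hb x
      constructor
      · intro h
        have := stable hmn hcop g E A B hA hB (x * b) b⁻¹ (B.inv_mem hb) h
        rwa [mul_inv_cancel_right] at this
      · intro h
        exact stable hmn hcop g E A B hA hB x b hb h
    have hlamint : ∀ lam : E → ℂ, Cfsg.IsIrrCharacter E lam →
        IsIntegral ℤ (Cfsg.classInner (fun e : E => ϑ e) lam) := by
      intro lam hlam
      refine inner_integral B ?_ ?_ hlam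
      · intro b hb x
        simp only [hval, hCE b hb x]
      · intro x
        obtain ⟨c, hc⟩ := hBidx
        refine ⟨if C x then (c : ℂ) else 0, ?_, ?_⟩
        · split_ifs
          · exact isIntegral_algebraMap (R := ℤ) (x := (c : ℤ))
          · exact isIntegral_zero
        · rw [hval]
          split_ifs
          · conv_lhs => rw [hc]
            push_cast; rfl
          · rw [mul_zero]
    have hcharint : ∀ ζ : E → ℂ, Cfsg.IsCharacter E ζ →
        IsIntegral ℤ (Cfsg.classInner (fun e : E => ϑ e) ζ) := by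
      intro ζ hζ
      refine H18.CharBasic.isCharacter_induction
        (P := fun ζ => IsIntegral ℤ (Cfsg.classInner (fun e : E => ϑ e) ζ)) ?_ ?_ hζ
      · rw [H18.CharOrtho.inner_zero_right]; exact isIntegral_zero
      · intro ζ₁ ζ₂ _ h2 h3
        rw [H18.CharOrtho.inner_add_right]
        exact h3.add (hlamint ζ₂ h2)
    have hconv : Cfsg.classInner (fun e : E => ψ e * ϑ e) (fun x : E => χ x) =
        Cfsg.classInner (fun e : E => ϑ e) ((fun e => (starRingEnd ℂ) (ψ e)) * (fun x : E => χ x)) := by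
      unfold Cfsg.classInner
      congr 1
      refine Finset.sum_congr rfl fun e _ => ?_
      rw [Pi.mul_apply, map_mul, Complex.conj_conj]
      ring
    rw [hconv]
    exact hcharint _ (H18.CharBasic.isCharacter_mul (H18.CharBasic.isCharacter_conj hψ)
      (H18.CharBasic.isCharacter_restrict E (H18.CharBasic.isCharacter_of_isIrr hχ)))
  refine ⟨fun χ => Cfsg.classInner ϑ (χ : G → ℂ), fun χ => ?_, H18.CharOrtho.expand_finsum hcl⟩
  exact hS χ χ.2

end Cfsg.Agent.S0875
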