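import Cfsg.Statements.S0876
import Cfsg.Agent.S0875
import Cfsg.Agent.Lib.H78.Cong

set_option autoImplicit false
open Cfsg

namespace Cfsg.Agent.S0876

open H20.Loc

/-- Coprime powers: `u, v` determined by the product. -/
theorem right_unique {G : Type*} [Group G] [Finite G] {x u v a w : G} (h : x = u * v)
    (hc : Commute u v) (hcop : (orderOf u).Coprime (orderOf v)) (h' : x = a * w)
    (hc' : Commute a w) (hcop' : (orderOf a).Coprime (orderOf w))
    (h1 : (orderOf u).Coprime (orderOf w)) (h2 : (orderOf a).Coprime (orderOf v)) : v = w := by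
  obtain ⟨hv, hu⟩ := Cfsg.Agent.S0875.mem_zpowers_of_coprime h hc hcop
  obtain ⟨hw, ha⟩ := Cfsg.Agent.S0875.mem_zpowers_of_coprime h' hc' hcop'
  have comm : ∀ {s t : G}, s ∈ Subgroup.zpowers x → t ∈ Subgroup.zpowers x → Commute s t := by
    rintro s t ⟨i, rfl⟩ ⟨j, rfl⟩
    exact (Commute.refl x).zpow_zpow i j
  have e : a⁻¹ * u = w * v⁻¹ := by
    have : u * v = a * w := h ▸ h'
    rw [eq_mul_inv_iff_mul_eq, mul_assoc, this, inv_mul_cancel_left]
  have o1 : orderOf (a⁻¹ * u) ∣ orderOf a * orderOf u := by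
    have := (comm ha hu).inv_left.orderOf_mul_dvd_mul_orderOf
    rwa [orderOf_inv] at this
  have o2 : orderOf (a⁻¹ * u) ∣ orderOf w * orderOf v := by
    have := (comm hw hv).inv_right.orderOf_mul_dvd_mul_orderOf
    rwa [orderOf_inv, ← e] at this
  have hco : (orderOf a * orderOf u).Coprime (orderOf w * orderOf v) :=
    Nat.Coprime.mul_left (Nat.Coprime.mul_right hcop' h2) (Nat.Coprime.mul_right h1 hcop)
  have h3 : orderOf (a⁻¹ * u) = 1 := Nat.eq_one_of_dvd_coprimes hco o1 o2
  rw [e, orderOf_eq_one_iff, mul_inv_eq_one] at h3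
  exact h3.symm

/-- Let G be a finite group, p a prime and M a maximal ideal of the ring of algebraic integers containing p. Let x, y be elements with p-parts a and b (so a⁻¹ * x and b⁻¹ * y are their p-regular parts). Then a⁻¹ * x and b⁻¹ * y are conjugate in G if and only if, for every irreducible character χ, the difference χ x - χ y lies in the local ideal at M. -/
theorem result {G : Type*} [Group G] [Finite G] (p : ℕ) (M : Ideal Cfsg.AlgInt) (hM : Cfsg.IsPModular p M) (x y a b : G) (ha : Cfsg.IsPPart p x a) (hb : Cfsg.IsPPart p y b) : IsConj (a⁻¹ * x) (b⁻¹ * y) ↔ ∀ χ : Cfsg.IrrCharacter G, Cfsg.MemLocalIdeal M ((χ : G → ℂ) x - (χ : G → ℂ) y) := by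
  classical
  have := Fintype.ofFinite G
  have hfinI : Finite (Cfsg.IrrCharacter G) := (H18.CharOrtho.finite_irr_set (G := G)).to_subtype
  have : Fintype (Cfsg.IrrCharacter G) := Fintype.ofFinite _
  have hMp := pm_isPrime hM
  obtain ⟨x', hx, hcx, ⟨i, hi⟩, hpx⟩ := ha
  obtain ⟨y', hy, hcy, ⟨j, hj⟩, hpy⟩ := hb
  have hp : p.Prime := hM.1
  have ex : a⁻¹ * x = x' := by rw [← hx, inv_mul_cancel_left]
  have ey : b⁻¹ * y = y' := by rw [← hy, inv_mul_cancel_left]
  have copp : ∀ (k : ℕ) {z : G}, ¬ p ∣ orderOf z → (p ^ k).Coprime (orderOf z) := by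
    intro k z hz
    exact Nat.Coprime.pow_left k ((Nat.Prime.coprime_iff_not_dvd hp).2 hz)
  have hcopx : (orderOf a).Coprime (orderOf x') := by rw [hi]; exact copp i hpx
  have hcopy : (orderOf b).Coprime (orderOf y') := by rw [hj]; exact copp j hpy
  rw [ex, ey]
  constructor
  · intro hconj χ
    have hχ := H18.CharBasic.isCharacter_of_isIrr χ.2
    obtain ⟨hx1, hx2⟩ := Cfsg.Agent.S0875.mem_zpowers_of_coprime hx.symm hcx hcopx
    obtain ⟨hy1, hy2⟩ := Cfsg.Agent.S0875.mem_zpowers_of_coprime hy.symm hcy hcopy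
    have h1 := H78.Cong.char_congr hM hχ hx2 hx1 (k := i) (by rw [← hi]; exact pow_orderOf_eq_one a)
    have h2 := H78.Cong.char_congr hM hχ hy2 hy1 (k := j) (by rw [← hj]; exact pow_orderOf_eq_one b)
    rw [hx] at h1
    rw [hy] at h2
    have h3 : (χ : G → ℂ) x' = (χ : G → ℂ) y' := by
      obtain ⟨c, hc⟩ := isConj_iff.1 hconj
      rw [← hc]
      exact (H18.CharBasic.isClassFunction_of_isIrr χ.2 x' c).symm
    rw [h3] at h1
    exact locI_trans h1 (locI_sub_comm.1 h2)
  · intro hall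
    by_contra hnc
    obtain ⟨k, n, hpn, hcard⟩ := Nat.exists_eq_pow_mul_and_not_dvd (n := Nat.card G)
      Nat.card_pos.ne' p hp.ne_one
    have hcop : Nat.Coprime (p ^ k) n :=
      Nat.Coprime.pow_left k ((Nat.Prime.coprime_iff_not_dvd hp).2 hpn)
    have hdv : ∀ z : G, (orderOf z).Coprime n → orderOf z ∣ p ^ k := by
      intro z hz
      have h1 : orderOf z ∣ p ^ k * n := hcard ▸ orderOf_dvd_natCard z
      exact Nat.Coprime.dvd_of_dvd_mul_right hz h1
    let C : G → Prop := fun z => ∃ v : G, IsConj v x' ∧ (∃ u : G, z = u * v ∧ Commute u v ∧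
      Nat.Coprime (orderOf u) n ∧ Nat.Coprime (orderOf v) (p ^ k))
    obtain ⟨c, hc, hϑ⟩ := Cfsg.Agent.S0875.result (p ^ k) n hcard hcop x' (copp k hpx).symm
      (fun z => if C z then (n : ℂ) else 0) (fun z hz => if_pos hz) (fun z hz => if_neg hz)
    have hCx : C x := by
      refine ⟨x', IsConj.refl _, a, hx.symm, hcx, ?_, (copp k hpx).symm⟩
      rw [hi]
      exact Nat.Coprime.pow_left i ((Nat.Prime.coprime_iff_not_dvd hp).2 hpn)
    have hCy : ¬ C y := by
      rintro ⟨v, hv, u, hyu, huv, hu, hvm⟩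
      have hu' : orderOf u ∣ p ^ k := hdv u hu
      have hvp : (orderOf u).Coprime (orderOf v) := Nat.Coprime.coprime_dvd_left hu' hvm.symm
      have hb' : orderOf b ∣ p ^ k := by
        refine hdv b ?_
        rw [hj]
        exact Nat.Coprime.pow_left j ((Nat.Prime.coprime_iff_not_dvd hp).2 hpn)
      have hvy : v = y' := right_unique hyu huv hvp hy.symm hcy hcopy
        (Nat.Coprime.coprime_dvd_left hu' (copp k hpy))
        (Nat.Coprime.coprime_dvd_left hb' hvm.symm)
      rw [hvy] at hv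
      exact hnc hv.symm
    have h1 := congrFun hϑ x
    have h2 := congrFun hϑ y
    simp only [if_pos hCx, if_neg hCy] at h1 h2
    rw [finsum_eq_sum_of_fintype, Finset.sum_apply] at h1 h2
    have h3 : MemLocalIdeal M (n : ℂ) := by
      have h4 : (n : ℂ) = ∑ χ : Cfsg.IrrCharacter G, c χ * ((χ : G → ℂ) x - (χ : G → ℂ) y) := by
        rw [← sub_zero (n : ℂ), h1, h2, ← Finset.sum_sub_distrib]
        refine Finset.sum_congr rfl fun χ _ => ?_
        simp only [Pi.smul_apply, smul_eq_mul]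
        ring
      rw [h4]
      exact locI_sum fun χ _ => locI_mul_left (isIntegral_mem (hc χ)) (hall χ)
    exact hpn ((locI_natCast_iff hM).1 h3)

end Cfsg.Agent.S0876
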