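import Cfsg.Statements.S0895
import Cfsg.Agent.Lib.H83.FSMult

set_option autoImplicit false
open Cfsg

namespace Cfsg.Agent.S0895

/-- Let χ be a real-valued irreducible character of a finite group G whose degree is an odd natural number. Then the average over s in G of χ (s * s) equals 1. -/
theorem result {G : Type*} [Group G] [Fintype G] (χ : G → ℂ) (hχ : Cfsg.IsIrrCharacter G χ) (hreal : ∀ g : G, (χ g).im = 0) (d : ℕ) (hd : χ 1 = d) (hodd : Odd d) : (Nat.card G : ℂ)⁻¹ * ∑ s : G, χ (s * s) = 1 := by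
  classical
  let _ : Fintype (⊥ : Subgroup G) := Fintype.ofFinite _
  have h1 : Cfsg.IsIrrCharacter (⊥ : Subgroup G) (fun _ => (1 : ℂ)) := H18.CharBasic.isIrrCharacter_one
  have hinner : Cfsg.classInner (fun h : (⊥ : Subgroup G) => χ h) (fun _ => (1 : ℂ)) = d := by
    unfold Cfsg.classInner
    have hall : ∀ x : (⊥ : Subgroup G), (x : G) = 1 := fun x => Subgroup.mem_bot.1 x.2
    have : ∀ x : (⊥ : Subgroup G), χ (x : G) * (starRingEnd ℂ) (1 : ℂ) = d := by
      intro x
      rw [hall x, hd, map_one, mul_one]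
    rw [Finset.sum_congr rfl fun x _ => this x]
    simp
  have h2 := H83.FSMult.nu_eq_of_odd hχ h1 hreal (fun _ => by simp) d hodd hinner
  rw [← H83.FSMult.nu_eq, h2, H83.FSMult.nu_eq]
  simp

end Cfsg.Agent.S0895
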