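import Cfsg.Statements.S0901
import Mathlib
import Cfsg.Agent.Lib.H19.RootsU

set_option autoImplicit false
open Cfsg

namespace Cfsg.Agent.S0901

/-- Let M be a maximal ideal of the ring of algebraic integers containing the prime p, and let U be the set of complex roots of unity of order prime to p. Then reduction modulo M is injective on U, and every algebraic integer not in M is congruent modulo M to an element of U (so U maps bijectively onto the nonzero residues). -/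
theorem result (p : ℕ) [Fact p.Prime] (M : Ideal Cfsg.AlgInt) (hM : Cfsg.IsPModular p M) : (∀ ε₁ ε₂ : Cfsg.AlgInt, (∃ m : ℕ, ¬ p ∣ m ∧ (ε₁ : ℂ) ^ m = 1) → (∃ m : ℕ, ¬ p ∣ m ∧ (ε₂ : ℂ) ^ m = 1) → ε₁ - ε₂ ∈ M → ε₁ = ε₂) ∧ (∀ a : Cfsg.AlgInt, a ∉ M → ∃ ε : Cfsg.AlgInt, (∃ m : ℕ, ¬ p ∣ m ∧ (ε : ℂ) ^ m = 1) ∧ a - ε ∈ M) := by
  constructor
  · rintro ε₁ ε₂ ⟨m₁, hm₁, h₁⟩ ⟨m₂, hm₂, h₂⟩ hmem
    have hp : p.Prime := hM.1
    have hn : ¬ p ∣ m₁ * m₂ := fun h => (hp.dvd_mul.mp h).elim hm₁ hm₂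
    apply H19.RootsU.eq_of_sub_mem hM hn _ _ hmem
    · apply Subtype.ext
      push_cast
      rw [pow_mul, h₁, one_pow]
    · apply Subtype.ext
      push_cast
      rw [mul_comm m₁ m₂, pow_mul, h₂, one_pow]
  · intro a ha
    obtain ⟨n, hn, hmem⟩ := H19.RootsU.exists_pow_sub_one_mem hM ha
    have hn0 : n ≠ 0 := fun h => hn (h ▸ dvd_zero p)
    obtain ⟨ε, hε, hmem2⟩ := H19.RootsU.exists_root_sub_mem hM hn0 hmem
    refine ⟨ε, ⟨n, hn, ?_⟩, hmem2⟩
    have := congrArg (fun z : Cfsg.AlgInt => (z : ℂ)) hε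
    simpa using this

end Cfsg.Agent.S0901
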