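import Cfsg.Statements.S0903
import Mathlib
import Cfsg.Agent.Lib.H19.PSum

set_option autoImplicit false
open Cfsg

namespace Cfsg.Agent.S0903

/-- Let P be a p-subgroup of the finite group G, let c centralize P and let g, h ∈ G. The number of pairs (x, y) with x conjugate to g, y conjugate to h and x * y = c is congruent modulo p to the number of such pairs in which x and y both centralize P. (This is why the Brauer map on class sums is multiplicative.) -/
theorem result {G : Type*} [Group G] [Finite G] (p : ℕ) [Fact p.Prime] (P : Subgroup G) (hP : IsPGroup p P) (c : G) (hc : c ∈ Subgroup.centralizer (P : Set G)) (g h : G) : Nat.card {xy : G × G // IsConj g xy.1 ∧ IsConj h xy.2 ∧ xy.1 * xy.2 = c} ≡ Nat.card {xy : G × G // IsConj g xy.1 ∧ IsConj h xy.2 ∧ xy.1 * xy.2 = c ∧ xy.1 ∈ Subgroup.centralizer (P : Set G) ∧ xy.2 ∈ Subgroup.centralizer (P : Set G)} [MOD p] := by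
  classical
  let X := {xy : G × G // IsConj g xy.1 ∧ IsConj h xy.2 ∧ xy.1 * xy.2 = c}
  have conj_c : ∀ a : P, (a : G) * c * (a : G)⁻¹ = c := by
    intro a
    have := Subgroup.mem_centralizer_iff.mp hc a a.2
    rw [this]; group
  let act : MulAction P X :=
    { smul := fun a z => ⟨((a : G) * z.1.1 * (a : G)⁻¹, (a : G) * z.1.2 * (a : G)⁻¹),
        z.2.1.trans (isConj_iff.mpr ⟨a, rfl⟩), z.2.2.1.trans (isConj_iff.mpr ⟨a, rfl⟩), by
          show (a : G) * z.1.1 * (a : G)⁻¹ * ((a : G) * z.1.2 * (a : G)⁻¹) = c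
          have h1 : (a : G) * z.1.1 * (a : G)⁻¹ * ((a : G) * z.1.2 * (a : G)⁻¹) =
            (a : G) * (z.1.1 * z.1.2) * (a : G)⁻¹ := by group
          rw [h1, z.2.2.2, conj_c]⟩
      one_smul := fun z => by
        apply Subtype.ext
        show (((1 : P) : G) * z.1.1 * ((1 : P) : G)⁻¹, ((1 : P) : G) * z.1.2 * ((1 : P) : G)⁻¹) = z.1
        simp
      mul_smul := fun a b z => by
        apply Subtype.ext
        show (((a * b : P) : G) * z.1.1 * ((a * b : P) : G)⁻¹, ((a * b : P) : G) * z.1.2 * ((a * b : P) : G)⁻¹) =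
          ((a : G) * ((b : G) * z.1.1 * (b : G)⁻¹) * (a : G)⁻¹, (a : G) * ((b : G) * z.1.2 * (b : G)⁻¹) * (a : G)⁻¹)
        simp [mul_assoc] }
  have h1 := hP.card_modEq_card_fixedPoints X
  have h2 : Nat.card (MulAction.fixedPoints P X) = Nat.card {xy : G × G // IsConj g xy.1 ∧ IsConj h xy.2 ∧ xy.1 * xy.2 = c ∧ xy.1 ∈ Subgroup.centralizer (P : Set G) ∧ xy.2 ∈ Subgroup.centralizer (P : Set G)} := by
    apply Nat.card_congr
    refine ⟨fun z => ⟨z.1.1, z.1.2.1, z.1.2.2.1, z.1.2.2.2, ?_, ?_⟩, fun w => ⟨⟨w.1, w.2.1, w.2.2.1, w.2.2.2.1⟩, ?_⟩, ?_, ?_⟩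
    · rw [Subgroup.mem_centralizer_iff]
      intro a ha
      have h3 := congrArg (fun t : X => t.1.1) (z.2 ⟨a, ha⟩)
      have h4 : a * z.1.1.1 * a⁻¹ = z.1.1.1 := h3
      rw [← mul_inv_eq_iff_eq_mul]
      exact h4
    · rw [Subgroup.mem_centralizer_iff]
      intro a ha
      have h3 := congrArg (fun t : X => t.1.2) (z.2 ⟨a, ha⟩)
      have h4 : a * z.1.1.2 * a⁻¹ = z.1.1.2 := h3
      rw [← mul_inv_eq_iff_eq_mul]
      exact h4
    · intro a
      apply Subtype.ext
      show ((a : G) * w.1.1 * (a : G)⁻¹, (a : G) * w.1.2 * (a : G)⁻¹) = w.1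
      have h5 := Subgroup.mem_centralizer_iff.mp w.2.2.2.2.1 a a.2
      have h6 := Subgroup.mem_centralizer_iff.mp w.2.2.2.2.2 a a.2
      rw [h5, h6]
      simp
    · intro z; rfl
    · intro w; rfl
  rw [← h2]
  exact h1

end Cfsg.Agent.S0903
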