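import Cfsg.Statements.S0905
import Mathlib
import Cfsg.Agent.Lib.H19.ClassNil
import Cfsg.Agent.Lib.H1.Cores

set_option autoImplicit false
open Cfsg

namespace Cfsg.Agent.S0905

/-- Let F be a field of characteristic p and let g be an element of the finite group G no conjugate of which centralizes O_p(G). Then the class sum of g is a nilpotent element of the group algebra F[G]. -/
theorem result {G : Type*} [Group G] [Finite G] (p : ℕ) [Fact p.Prime] (F : Type*) [Field F] [CharP F p] (g : G) (hg : ∀ x : G, IsConj g x → x ∉ Subgroup.centralizer (Cfsg.pCore p G : Set G)) : IsNilpotent (∑ᶠ x ∈ ConjClasses.carrier (ConjClasses.mk g), MonoidAlgebra.single x (1 : F) : MonoidAlgebra F G) := by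
  classical
  have := Fintype.ofFinite G
  have hn : (Cfsg.pCore p G).Normal := H1.Cores.pCore_normal p
  have h := H19.ClassNil.classSum_isNilpotent (F := F) (Cfsg.pCore p G) (H1.Cores.isPGroup_pCore p) g hg
  have heq : (∑ᶠ x ∈ ConjClasses.carrier (ConjClasses.mk g), MonoidAlgebra.single x (1 : F) : MonoidAlgebra F G) =
      H19.ClassNil.classSum F g := by
    unfold H19.ClassNil.classSum
    rw [finsum_eq_sum_of_fintype]
    apply Finset.sum_congr rfl
    intro x _
    rw [finsum_eq_if]
    have h1 : x ∈ ConjClasses.carrier (ConjClasses.mk g) ↔ IsConj g x := by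
      rw [ConjClasses.mem_carrier_iff_mk_eq, ConjClasses.mk_eq_mk_iff_isConj]
      exact isConj_comm
    by_cases hx : IsConj g x
    · rw [if_pos hx, if_pos (h1.mpr hx)]
    · rw [if_neg hx, if_neg (fun h2 => hx (h1.mp h2))]
  rw [heq]
  exact h

end Cfsg.Agent.S0905
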