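import Cfsg.Statements.S0911
import Cfsg.Agent.Lib.H20.DefGrp

set_option autoImplicit false
open Cfsg

namespace Cfsg.Agent.S0911

/-- The min–max Theorem for defect classes. Let B be a block of the finite group G relative to a maximal ideal M of the algebraic integers containing the prime p, let g represent a defect class of B and let D be a Sylow p-subgroup of the centralizer of g (viewed in G). For any h: (a) if the idempotent coefficient of B at h is a local integer outside the local ideal, then some conjugate of D contains a Sylow p-subgroup of the centralizer of h; (b) if the central character of some member of B at h is outside the local ideal, then some conjugate of D is contained in a Sylow p-subgroup of the centralizer of h. -/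
theorem result {G : Type*} [Group G] [Finite G] (p : ℕ) [Fact p.Prime] (M : Ideal Cfsg.AlgInt) (hM : Cfsg.IsPModular p M) (B : Set (Cfsg.IrrCharacter G)) (hB : Cfsg.IsPBlock M B) (g : G) (hg : Cfsg.IsDefectClass M B g) (D : Sylow p (Subgroup.centralizer ({g} : Set G))) (h : G) : (Cfsg.MemLocalRing M (Cfsg.blockCoeff B h) → ¬ Cfsg.MemLocalIdeal M (Cfsg.blockCoeff B h) → ∃ (x : G) (Q : Sylow p (Subgroup.centralizer ({h} : Set G))), (Q : Subgroup (Subgroup.centralizer ({h} : Set G))).map (Subgroup.centralizer ({h} : Set G)).subtype ≤ ((D : Subgroup (Subgroup.centralizer ({g} : Set G))).map (Subgroup.centralizer ({g} : Set G)).subtype).map (MulAut.conj x).toMonoidHom) ∧ ((∃ χ ∈ B, ¬ Cfsg.MemLocalIdeal M (Cfsg.centralChar (χ : G → ℂ) h)) → ∃ (x : G) (Q : Sylow p (Subgroup.centralizer ({h} : Set G))), ((D : Subgroup (Subgroup.centralizer ({g} : Set G))).map (Subgroup.centralizer ({g} : Set G)).subtype).map (MulAut.conj x).toMonoidHom ≤ (Q : Subgroup (Subgroup.centralizer ({h} : Set G))).map (Subgroup.centralizer ({h}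 : Set G)).subtype) := by
  have := H20.Loc.pm_isPrime hM
  obtain ⟨χ0, hχ0⟩ := H20.Blk.isPBlock_nonempty hB
  refine ⟨fun _ hh => ?_, fun hh => ?_⟩
  · obtain ⟨Q⟩ : Nonempty (Sylow p (Subgroup.centralizer ({h} : Set G))) := inferInstance
    obtain ⟨x, hx1, hx2⟩ := H20.DefGrp.sylow_le_of_blockCoeff hM hB ⟨χ0, hχ0, hg.2.2 χ0 hχ0⟩ hh
      (H20.DefGrp.isPGroup_sylC h Q) (H20.DefGrp.sylC_le h Q)
    obtain ⟨y, hy⟩ := H20.DefGrp.exists_conj_le hx1 D (H20.DefGrp.isPGroup_sylC h Q) hx2
    exact ⟨y, Q, hy⟩
  · obtain ⟨x, hx1, hx2⟩ := H20.DefGrp.sylow_le_of_blockCoeff hM hB hh hg.2.1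
      (H20.DefGrp.isPGroup_sylC g D) (H20.DefGrp.sylC_le g D)
    exact H20.DefGrp.exists_conj_le' hx1 (H20.DefGrp.isPGroup_sylC g D) hx2

end Cfsg.Agent.S0911
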