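import Cfsg.Statements.S0916
import Mathlib
import Cfsg.Agent.Lib.H19.SylowAux

set_option autoImplicit false
open Cfsg

namespace Cfsg.Agent.S0916

/-- Let P be a p-subgroup of the finite group G, C its centralizer and N its normalizer. Say that a conjugacy class (of G, or of N) has defect group P when P is a Sylow p-subgroup of the centralizer (in G, respectively in N) of some element of the class. Then: (i) if the class of g in G has defect group P, the elements of that class lying in C form a single N-class, again with defect group P; (ii) every N-class with defect group P arises this way from exactly one G-class with defect group P. -/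
theorem result {G : Type*} [Group G] [Finite G] (p : ℕ) [Fact p.Prime] (P : Subgroup G) (hP : IsPGroup p P) : (∀ g : G, (∃ S : Sylow p (Subgroup.centralizer ({g} : Set G)), (S : Subgroup (Subgroup.centralizer ({g} : Set G))).map (Subgroup.centralizer ({g} : Set G)).subtype = P) → (∃ c : G, IsConj g c ∧ c ∈ Subgroup.centralizer (P : Set G)) ∧ (∀ c₁ c₂ : G, IsConj g c₁ → IsConj g c₂ → c₁ ∈ Subgroup.centralizer (P : Set G) → c₂ ∈ Subgroup.centralizer (P : Set G) → ∃ n ∈ Subgroup.normalizer (P : Set G), n * c₁ * n⁻¹ = c₂)) ∧ (∀ c : G, c ∈ Subgroup.centralizer (P : Set G) → (∃ S : Sylow p (Subgroup.centralizer ({c} : Set G) ⊓ Subgroup.normalizer (P : Set G) : Subgroup G), (S : Subgroup ↥(Subgroup.centralizer ({c} : Set G) ⊓ Subgroup.normalizer (P : Set G))).map (Subgroup.centralizer ({c} : Set G) ⊓ Subgroup.normalizer (P : Set G)).subtype = P) → ∃ S : Sylow p (Subgroup.centralizer ({c} : Set G)), (S : Subgroup (Subgroup.centralizer ({c} : Set G))).map (Subgroup.centralizer ({c} : Set G)).subtype = P) := by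
  constructor
  · intro g hg
    obtain ⟨hPg, hcg⟩ := (H19.SylowAux.syl_iff (p := p) _ P).mp hg
    refine ⟨⟨g, IsConj.refl g, H19.SylowAux.le_centralizer_singleton_iff.mp hPg⟩, ?_⟩
    intro c₁ c₂ h₁ h₂ hc₁ hc₂
    obtain ⟨x, hx⟩ := isConj_iff.mp (h₁.symm.trans h₂)
    have e1 := H19.SylowAux.card_centralizer_of_isConj h₁
    have e2 := H19.SylowAux.card_centralizer_of_isConj h₂
    have l1 := H19.SylowAux.le_centralizer_singleton_iff.mpr hc₁
    have l2 := H19.SylowAux.le_centralizer_singleton_iff.mpr hc₂
    have l3 : P.map (MulAut.conj x).toMonoidHom ≤ Subgroup.centralizer ({c₂} : Set G) := by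
      rw [← hx]; exact H19.SylowAux.map_conj_le_centralizer x l1
    obtain ⟨y, hy, hy2⟩ := H19.SylowAux.syl_conj (p := p) (Subgroup.centralizer ({c₂} : Set G))
      (P.map (MulAut.conj x).toMonoidHom) P l3 l2
      (by rw [H19.SylowAux.card_map_conj, ← e2, hcg]) (by rw [← e2, hcg])
    refine ⟨y * x, ?_, ?_⟩
    · rw [Subgroup.mem_normalizer_iff]
      have hmap : P.map (MulAut.conj (y * x)).toMonoidHom = P := by
        conv_rhs => rw [← hy2]
        rw [Subgroup.map_map]
        congr 1
        ext z
        simp [mul_assoc]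
      intro h
      constructor
      · intro hh
        have : (MulAut.conj (y * x)).toMonoidHom h ∈ P.map (MulAut.conj (y * x)).toMonoidHom :=
          Subgroup.mem_map_of_mem _ hh
        rw [hmap] at this
        exact this
      · intro hh
        have h3 : (MulAut.conj (y * x)).toMonoidHom h ∈ P.map (MulAut.conj (y * x)).toMonoidHom := by
          rw [hmap]; exact hh
        obtain ⟨z, hz, hz2⟩ := h3
        rwa [← (MulAut.conj (y * x)).injective hz2]
    · have h5 := Subgroup.mem_centralizer_singleton_iff.mp hy
      calc y * x * c₁ * (y * x)⁻¹ = y * (x * c₁ * x⁻¹) * y⁻¹ := by group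
        _ = y * c₂ * y⁻¹ := by rw [hx]
        _ = c₂ * y * y⁻¹ := by rw [h5]
        _ = c₂ := by group
  · intro c hc hS
    obtain ⟨hPc, hcc⟩ := (H19.SylowAux.syl_iff (p := p) _ P).mp hS
    rw [H19.SylowAux.syl_iff]
    have hPc' : P ≤ Subgroup.centralizer ({c} : Set G) := H19.SylowAux.le_centralizer_singleton_iff.mpr hc
    exact ⟨hPc', H19.SylowAux.syl_of_syl_normalizer _ P hPc' hcc⟩

end Cfsg.Agent.S0916
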