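import Cfsg.Statements.S0939
import Cfsg.Agent.Lib.H20.NPC

set_option autoImplicit false
open Cfsg

namespace Cfsg.Agent.S0939

/-- Let G be a finite group with a normal p-complement (the largest normal subgroup O_p'(G) of order prime to p has p-power index). Then, relative to any maximal ideal M of the algebraic integers containing p, the principal block of G is the set of irreducible characters χ with χ n = χ 1 for every n ∈ O_p'(G). -/
theorem result {G : Type*} [Group G] [Finite G] (p : ℕ) [Fact p.Prime] (M : Ideal Cfsg.AlgInt) (hM : Cfsg.IsPModular p M) (hnc : ∃ k : ℕ, (Cfsg.pPrimeCore p G).index = p ^ k) : Cfsg.principalBlock M G = {χ : Cfsg.IrrCharacter G | ∀ n ∈ Cfsg.pPrimeCore p G, (χ : G → ℂ) n = (χ : G → ℂ) 1} := by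
  apply H20.NPC.principal_of_complement hM (pPrimeCore p G) _ hnc
  intro h
  have h1 := H1.Cores.coprime_card_pPrimeCore (G := G) p
  exact (Nat.Prime.coprime_iff_not_dvd (Fact.out : p.Prime)).1 h1.symm h

end Cfsg.Agent.S0939
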