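import Cfsg.Statements.S0952
import Cfsg.Agent.Lib.H20.Orth

set_option autoImplicit false
open scoped ComplexConjugate
open Cfsg

namespace Cfsg.Agent.S0952

/-- Let χ and ψ be irreducible characters of the finite group G lying in different blocks relative to a maximal ideal M of the algebraic integers containing the prime p. Then the sum of χ x * conj (ψ x) over the elements x of order prime to p is zero. -/
theorem result {G : Type*} [Group G] [Finite G] (p : ℕ) [Fact p.Prime] (M : Ideal Cfsg.AlgInt) (hM : Cfsg.IsPModular p M) (χ ψ : Cfsg.IrrCharacter G) (h : ¬ Cfsg.SameBlock M (χ : G → ℂ) (ψ : G → ℂ)) : ∑ᶠ x ∈ {x : G | ¬ p ∣ orderOf x}, (χ : G → ℂ) x * conj ((ψ : G → ℂ) x) = 0 := by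
  classical
  have := H20.Loc.pm_isPrime hM
  letI := Fintype.ofFinite G
  have h1 := H20.Orth.inner_reg_eq_zero hM h
  rw [Cfsg.classInner, mul_eq_zero] at h1
  have h2 := h1.resolve_left (inv_ne_zero (by exact_mod_cast (Nat.card_pos (α := G)).ne'))
  refine Eq.trans ?_ h2
  rw [finsum_eq_sum_of_fintype]
  refine Finset.sum_congr rfl fun x _ => ?_
  rw [finsum_eq_if]
  by_cases hx : p ∣ orderOf x
  · rw [H20.Orth.reg_not hx, zero_mul, if_neg]
    exact fun h => h hx
  · rw [H20.Orth.reg_of hx, if_pos]
    exact hx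

end Cfsg.Agent.S0952
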