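import Cfsg.Statements.S0957
import Cfsg.Agent.Lib.H20.DefGrp

set_option autoImplicit false
open Cfsg

namespace Cfsg.Agent.S0957

open H20.DefGrp

theorem dvd_of_orbits {P X : Type*} [Group P] [Finite P] [MulAction P X] [Finite X] (n : ℕ)
    (h : ∀ x : X, n ∣ Nat.card (MulAction.orbit P x)) : n ∣ Nat.card X := by
  classical
  letI := Fintype.ofFinite X
  letI := Fintype.ofFinite P
  letI : Fintype (MulAction.orbitRel.Quotient P X) := Fintype.ofFinite _
  rw [Nat.card_congr (MulAction.selfEquivSigmaOrbits' P X), Nat.card_sigma]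
  refine Finset.dvd_sum fun ω _ => ?_
  obtain ⟨x, rfl⟩ := Quotient.exists_rep ω
  have h1 := h x
  rwa [← MulAction.orbitRel.Quotient.orbit_mk] at h1

/-- Let P be a Sylow p-subgroup of the finite group G, let g, h ∈ G and let p ^ d be the order of a Sylow p-subgroup of the centralizer of g. Then the number of pairs (y, z) with y conjugate to g, z conjugate to h and z * y⁻¹ ∈ P is divisible by the order of P divided by p ^ d. -/
theorem result {G : Type*} [Group G] [Finite G] (p : ℕ) [Fact p.Prime] (P : Sylow p G) (g h : G) (S : Sylow p (Subgroup.centralizer ({g} : Set G))) : Nat.card P / Nat.card S ∣ Nat.card {yz : G × G // IsConj g yz.1 ∧ IsConj h yz.2 ∧ yz.2 * yz.1⁻¹ ∈ (P : Subgroup G)} := by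
  classical
  letI act : MulAction P {yz : G × G // IsConj g yz.1 ∧ IsConj h yz.2 ∧
      yz.2 * yz.1⁻¹ ∈ (P : Subgroup G)} :=
    { smul := fun u yz => ⟨((u : G) * yz.1.1 * (u : G)⁻¹, (u : G) * yz.1.2 * (u : G)⁻¹), by
        refine ⟨yz.2.1.trans (isConj_iff.2 ⟨u, rfl⟩), yz.2.2.1.trans (isConj_iff.2 ⟨u, rfl⟩), ?_⟩
        have h1 := P.mul_mem (P.mul_mem u.2 yz.2.2.2) (P.inv_mem u.2)
        convert h1 using 1
        group⟩
      one_smul := fun yz => by
        apply Subtype.ext
        show (((1 : P) : G) * yz.1.1 * ((1 : P) : G)⁻¹, ((1 : P) : G) * yz.1.2 * ((1 : P) : G)⁻¹) = _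
        simp
      mul_smul := fun u v yz => by
        apply Subtype.ext
        show (((u * v : P) : G) * yz.1.1 * ((u * v : P) : G)⁻¹,
          ((u * v : P) : G) * yz.1.2 * ((u * v : P) : G)⁻¹) =
          ((u : G) * ((v : G) * yz.1.1 * (v : G)⁻¹) * (u : G)⁻¹,
            (u : G) * ((v : G) * yz.1.2 * (v : G)⁻¹) * (u : G)⁻¹)
        rw [Subgroup.coe_mul]
        simp only [mul_inv_rev, mul_assoc] }
  apply dvd_of_orbits (P := P)
  rintro ⟨⟨y, z⟩, hy, hz, hyz⟩
  set x : {yz : G × G // IsConj g yz.1 ∧ IsConj h yz.2 ∧ yz.2 * yz.1⁻¹ ∈ (P : Subgroup G)} :=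
    ⟨⟨y, z⟩, hy, hz, hyz⟩ with hx
  have h1 : Nat.card (MulAction.orbit P x) * Nat.card (MulAction.stabilizer P x) = Nat.card P := by
    rw [← Nat.card_prod]
    exact Nat.card_congr (MulAction.orbitProdStabilizerEquivGroup P x)
  -- the stabilizer has order dividing that of `S`
  have h2 : Nat.card (MulAction.stabilizer P x) ∣ Nat.card S := by
    set T : Subgroup G := (MulAction.stabilizer P x).map (P : Subgroup G).subtype with hT
    have hTp : IsPGroup p T := (P.2.to_subgroup _).map _
    have hTy : T ≤ Subgroup.centralizer ({y} : Set G) := by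
      rintro _ ⟨u, hu, rfl⟩
      rw [Subgroup.mem_centralizer_singleton_iff]
      have h3 : u • x = x := hu
      have h4 : (u : G) * y * (u : G)⁻¹ = y := congrArg (fun t => t.1.1) h3
      exact mul_inv_eq_iff_eq_mul.1 h4
    obtain ⟨c, hc⟩ := exists_conj_le hy S hTp hTy
    have h5 := Subgroup.card_dvd_of_le hc
    rw [card_map_conj, card_sylC] at h5
    have h6 : Nat.card T = Nat.card (MulAction.stabilizer P x) :=
      Subgroup.card_map_of_injective (Subgroup.subtype_injective _)
    rwa [h6] at h5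
  obtain ⟨k, hk⟩ := h2
  have hs0 : 0 < Nat.card (MulAction.stabilizer P x) := Nat.card_pos
  have hk0 : 0 < k := by
    rcases Nat.eq_zero_or_pos k with h0 | h0
    · rw [h0, mul_zero] at hk
      exact absurd hk Nat.card_pos.ne'
    · exact h0
  have h7 : Nat.card P / Nat.card S ∣ Nat.card (MulAction.orbit P x) := by
    have h8 : Nat.card P / Nat.card S = Nat.card (MulAction.orbit P x) / k := by
      rw [← h1, hk, mul_comm, Nat.mul_div_mul_left _ _ hs0]
    -- `|S| ∣ |P|`
    have h9 : Nat.card S ∣ Nat.card P := by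
      have h10 : Nat.card (sylC g S) ∣ Nat.card P := by
        obtain ⟨c, hc⟩ := (isPGroup_sylC g S).exists_le_sylow
        have h11 := Subgroup.card_dvd_of_le hc
        rwa [Sylow.card_eq_multiplicity c, ← Sylow.card_eq_multiplicity P] at h11
      rwa [card_sylC] at h10
    rw [← h1, hk, mul_comm (Nat.card (MulAction.orbit P x))] at h9
    have h10 : k ∣ Nat.card (MulAction.orbit P x) := Nat.dvd_of_mul_dvd_mul_left hs0 h9
    rw [h8]
    exact Nat.div_dvd_of_dvd h10
  exact h7

end Cfsg.Agent.S0957
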