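import Cfsg.Statements.S0959
import Cfsg.Agent.Lib.H20.Height

set_option autoImplicit false
open Cfsg

namespace Cfsg.Agent.S0959

open H20.Loc H20.GA H20.Blk H20.DefGrp H20.Defect H20.Orth H20.Height
open scoped ComplexConjugate

/-- Let B be a block of the finite group G with defect group D (relative to a maximal ideal M of the algebraic integers containing the prime p), and let P be a p-subgroup. Then there is an element g whose idempotent coefficient for B is a local integer outside the local ideal at M and which has a conjugate centralizing P, if and only if some conjugate of P is contained in D. -/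
theorem result {G : Type*} [Group G] [Finite G] (p : ℕ) [Fact p.Prime] (M : Ideal Cfsg.AlgInt) (hM : Cfsg.IsPModular p M) (B : Set (Cfsg.IrrCharacter G)) (hB : Cfsg.IsPBlock M B) (D : Subgroup G) (hD : Cfsg.IsDefectGroup p M B D) (P : Subgroup G) (hP : IsPGroup p P) : (∃ g : G, Cfsg.MemLocalRing M (Cfsg.blockCoeff B g) ∧ ¬ Cfsg.MemLocalIdeal M (Cfsg.blockCoeff B g) ∧ ∃ c : G, IsConj g c ∧ c ∈ Subgroup.centralizer (P : Set G)) ↔ ∃ x : G, P.map (MulAut.conj x).toMonoidHom ≤ D := by
  have hMp := pm_isPrime hM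
  obtain ⟨y, hy, S, rfl⟩ := hD
  constructor
  · rintro ⟨g, hg, hg', c, hc, hcP⟩
    have h1 : ¬ MemLocalIdeal M (blockCoeff B c) := by
      rwa [← H18.CharBasic.classFunction_isConj (blockCoeff_class B) hc]
    have h2 : P ≤ Subgroup.centralizer ({c} : Set G) := by
      intro x hx
      rw [Subgroup.mem_centralizer_singleton_iff]
      exact Subgroup.mem_centralizer_iff.1 hcP x hx
    obtain ⟨χ, hχ⟩ := isPBlock_nonempty hB
    obtain ⟨x, hx, hPx⟩ := sylow_le_of_blockCoeff hM hB (g := y) ⟨χ, hχ, hy.2.2 χ hχ⟩ h1 hP h2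
    obtain ⟨z, hz⟩ := exists_conj_le hx S hP hPx
    refine ⟨z⁻¹, ?_⟩
    intro w hw
    rw [mem_map_conj] at hw
    have := hz hw
    rw [mem_map_conj] at this
    simpa [mul_assoc] using this
  · rintro ⟨x, hx⟩
    refine ⟨y, hy.1, hy.2.1, x⁻¹ * y * x, ?_, ?_⟩
    · exact isConj_iff.2 ⟨x⁻¹, by simp⟩
    · rw [Subgroup.mem_centralizer_iff]
      intro w hw
      have h1 : x * w * x⁻¹ ∈ sylC y S := hx ⟨w, hw, rfl⟩
      have h2 := Subgroup.mem_centralizer_singleton_iff.1 (sylC_le y S h1)
      have h3 := congrArg (fun t => x⁻¹ * t * x) h2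
      simpa [mul_assoc] using h3

end Cfsg.Agent.S0959
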