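import Cfsg.Statements.S0963
import Cfsg.Agent.Lib.H77.Cov1
-- import your own Cfsg.Agent.* helpers here

set_option autoImplicit false
open Cfsg

namespace Cfsg.Agent.S0963

open H18 H20.GA H20.Blk H31.Clifford H18.CharQuot H77.Cov1


/-- Let N be a normal subgroup of the finite group G, χ an irreducible character of G and θ an irreducible character of N. Then θ occurs in the restriction of χ to N if and only if, for every n ∈ N, the central character of χ at n (class size in G times χ n over χ 1) equals the sum of θ m / θ 1 over the elements m of N conjugate in G to n. -/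
theorem result {G : Type*} [Group G] [Fintype G] (N : Subgroup G) [N.Normal] [Fintype N] (χ : Cfsg.IrrCharacter G) (θ : Cfsg.IrrCharacter N) : Cfsg.classInner (fun n : N => (χ : G → ℂ) n) (θ : N → ℂ) ≠ 0 ↔ ∀ n : N, Cfsg.centralChar (χ : G → ℂ) (n : G) = Cfsg.inducedCentralChar N (θ : N → ℂ) (n : G) := by
  constructor
  · intro h n
    exact centralChar_eq N χ θ h n
  · intro h
    letI := Fintype.ofFinite (ConjClasses G)
    obtain ⟨η0, hη0, hη⟩ := exists_constituent_restrict N χ.2
    let η : Cfsg.IrrCharacter N := ⟨η0, hη0⟩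
    have hη' : Cfsg.classInner (fun n : N => (χ : G → ℂ) n) (η : N → ℂ) ≠ 0 := hη
    have hz := conjU_inv N {η}
    have h1 : omega θ (eB (conjU N {η})) = omega η (eB (conjU N {η})) := by
      rw [omega_eq_coef N hz, omega_eq_coef N hz]
      refine Finset.sum_congr rfl fun C _ => ?_
      by_cases hC : C.out ∈ N
      · rw [← h ⟨C.out, hC⟩, centralChar_eq N χ η hη' ⟨C.out, hC⟩]
      · rw [coef_notMem N hC, zero_mul, zero_mul]
    rw [omega_eB_mem (subset_conjU N {η} (Set.mem_singleton η))] at h1
    have h2 : θ ∈ conjU N {η} := by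
      by_contra h2
      rw [omega_eB_notMem h2] at h1
      exact zero_ne_one h1
    obtain ⟨g, θ', hθ', hθ⟩ := h2
    have h3 : θ' = η := hθ'
    rw [hθ, h3, coe_cI, inner_restrict_cj N g (H18.CharBasic.isClassFunction_of_isIrr χ.2)]
    exact hη'

end Cfsg.Agent.S0963
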