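import Cfsg.Statements.S0971
import Cfsg.Agent.S0919
import Cfsg.Agent.S0965
import Cfsg.Agent.Lib.H19.BrMap

set_option autoImplicit false
open Cfsg

namespace Cfsg.Agent.S0971

open H20.Loc H20.GA H20.Blk

/-- Let Q be a normal p-subgroup of the finite group G, let N = Q ⊔ C_G(Q) (a normal subgroup) and let b be a block of N relative to a maximal ideal M of the algebraic integers containing p. Then b induces some block of G, and every block B of G containing a character whose restriction to N has a constituent in b is induced by b. -/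
theorem result {G : Type*} [Group G] [Fintype G] (p : ℕ) [Fact p.Prime] (M : Ideal Cfsg.AlgInt) (hM : Cfsg.IsPModular p M) (Q : Subgroup G) [Q.Normal] (hQ : IsPGroup p Q) [Fintype ↥(Q ⊔ Subgroup.centralizer (Q : Set G))] (b : Set (Cfsg.IrrCharacter ↥(Q ⊔ Subgroup.centralizer (Q : Set G)))) (hb : Cfsg.IsPBlock M b) : Cfsg.InducedBlockDefined M (Q ⊔ Subgroup.centralizer (Q : Set G)) b ∧ ∀ B : Set (Cfsg.IrrCharacter G), Cfsg.IsPBlock M B → (∃ χ ∈ B, ∃ θ ∈ b, Cfsg.classInner (fun n : ↥(Q ⊔ Subgroup.centralizer (Q : Set G)) => (χ : G → ℂ) n) (θ : ↥(Q ⊔ Subgroup.centralizer (Q : Set G)) → ℂ) ≠ 0) → Cfsg.IsInducedBlock M (Q ⊔ Subgroup.centralizer (Q : Set G)) b B := by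
  have := pm_isPrime hM
  have hQN : Q ≤ Q ⊔ Subgroup.centralizer (Q : Set G) := le_sup_left
  have hCN : Subgroup.centralizer (Q : Set G) ≤ Q ⊔ Subgroup.centralizer (Q : Set G) := le_sup_right
  have hHN : Q ⊔ Subgroup.centralizer (Q : Set G) ≤ Subgroup.normalizer (Q : Set G) := by
    rw [Subgroup.normalizer_eq_top]; exact le_top
  refine ⟨Cfsg.Agent.S0919.result p M hM Q _ hQ hQN hCN hHN b hb, fun B hB hcov => ?_⟩
  refine ⟨hb, hB, fun ξ hξ χ hχ g => ?_⟩
  have h1 := (Cfsg.Agent.S0965.result p M hM _ B hB b hb).1 hcov χ hχ ξ hξ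
  by_cases hg : g ∈ Q ⊔ Subgroup.centralizer (Q : Set G)
  · exact locI_sub_comm.1 (h1 ⟨g, hg⟩)
  · have h2 : inducedCentralChar (Q ⊔ Subgroup.centralizer (Q : Set G)) (ξ : _ → ℂ) g = 0 := by
      rw [inducedCentralChar]
      apply finsum_mem_eq_zero_of_forall_eq_zero
      intro h hc
      exfalso
      apply hg
      have hc' : IsConj g (h : G) := hc
      obtain ⟨c, hc2⟩ := isConj_iff.1 hc'.symm
      rw [← hc2]
      exact (inferInstance : (Q ⊔ Subgroup.centralizer (Q : Set G)).Normal).conj_mem _ h.2 c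
    have h3 := H19.BrMap.omega_cls_memI hM Q hQ χ g (fun h => hg (hCN h))
    rw [h2, zero_sub]
    rw [omega_cls] at h3
    exact locI_neg h3

end Cfsg.Agent.S0971
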