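import Cfsg.Statements.S0988
import Cfsg.Agent.Lib.H30.SmallSimple
import Cfsg.Agent.S0073

set_option autoImplicit false
open Cfsg

namespace Cfsg.Agent.S0988

/-- If a finite simple group has order p^2 * q * r with p, q and r prime, then its order is 60. -/
theorem result {G : Type*} [Group G] [Finite G] [IsSimpleGroup G] (p q r : ℕ) (hp : p.Prime) (hq : q.Prime) (hr : r.Prime) (hG : Nat.card G = p ^ 2 * q * r) : Nat.card G = 60 := by
  have hnp : ¬ (Nat.card G).Prime := by
    rw [hG]
    have h1 : p ^ 2 * q * r = p * (p * q * r) := by ring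
    rw [h1]
    apply Nat.not_prime_mul hp.ne_one
    have := hp.two_le
    have h2 := hq.pos
    have h3 := hr.pos
    intro h
    have : p * q * r ≠ 1 := by
      intro h4
      have := Nat.eq_one_of_mul_eq_one_right (by rw [mul_assoc] at h4; exact h4)
      omega
    exact this h
  have hnc : ¬ IsMulCommutative G := H21.SylowTools.not_comm_of_card_not_prime hnp
  have hS := Cfsg.Agent.S0073.result (G := G) (by
    by_contra hcon
    push Not at hcon
    exact hnc ⟨⟨hcon⟩⟩)
  have hp2 := hp.two_le
  rcases hS with hS | hS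
  · exfalso
    set m := (Nat.card G).minFac with hm
    have hmp : m.Prime := Nat.minFac_prime (by intro h; rw [h] at hnp; exact hnp (by
      exfalso
      have h1 : 1 < Nat.card G := Finite.one_lt_card
      omega))
    rw [hG] at hS
    by_cases h1 : m = p
    · rw [h1] at hS
      have h2 : p ∣ q * r := by
        have : p ^ 2 * p ∣ p ^ 2 * (q * r) := by
          rw [← mul_assoc, ← pow_succ]; exact hS
        exact (Nat.mul_dvd_mul_iff_left (by positivity)).1 this
      rcases (Nat.Prime.dvd_mul hp).1 h2 with h3 | h3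
      · rw [Nat.prime_dvd_prime_iff_eq hp hq] at h3
        subst h3
        exact H30.SmallSimple.not_pq hnc p r hp hr 3 1 (by rw [hG]; ring)
      · rw [Nat.prime_dvd_prime_iff_eq hp hr] at h3
        subst h3
        exact H30.SmallSimple.not_pq hnc p q hp hq 3 1 (by rw [hG]; ring)
    · have hcop : Nat.Coprime (m ^ 3) (p ^ 2) := by
        apply Nat.Coprime.pow
        exact (Nat.coprime_primes hmp hp).2 h1
      rw [mul_assoc] at hS
      have h2 := hcop.dvd_of_dvd_mul_left hS
      have h3 : m ∣ q ∨ m ∣ r := (Nat.Prime.dvd_mul hmp).1 ((dvd_pow_self m (by norm_num)).trans h2)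
      have h4 : m * m * m ∣ q * r := by
        have : m * m * m = m ^ 3 := by ring
        rw [this]; exact h2
      rcases h3 with h3 | h3
      · rw [Nat.prime_dvd_prime_iff_eq hmp hq] at h3
        rw [← h3, mul_assoc] at h4
        have h5 := (Nat.mul_dvd_mul_iff_left hmp.pos).1 h4
        have h6 : m ∣ r := (Dvd.intro _ rfl).trans h5
        rw [Nat.prime_dvd_prime_iff_eq hmp hr] at h6
        rw [← h6] at h5
        have := Nat.le_of_dvd hmp.pos h5
        have := hmp.two_le
        nlinarith
      · rw [Nat.prime_dvd_prime_iff_eq hmp hr] at h3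
        rw [← h3, mul_comm q m, mul_assoc] at h4
        have h5 := (Nat.mul_dvd_mul_iff_left hmp.pos).1 h4
        have h6 : m ∣ q := (Dvd.intro _ rfl).trans h5
        rw [Nat.prime_dvd_prime_iff_eq hmp hq] at h6
        rw [← h6] at h5
        have := Nat.le_of_dvd hmp.pos h5
        have := hmp.two_le
        nlinarith
  · have key : ∃ s : ℕ, s.Prime ∧ Nat.card G = 12 * s := by
      have h4 : 4 ∣ p ^ 2 * (q * r) := by
        rw [← mul_assoc, ← hG]; exact (by norm_num : 4 ∣ 12).trans hS
      have h3 : 3 ∣ p ^ 2 * (q * r) := by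
        rw [← mul_assoc, ← hG]; exact (by norm_num : 3 ∣ 12).trans hS
      by_cases hp2' : p = 2
      · subst hp2'
        have h3' : 3 ∣ q * r := (Nat.Coprime.dvd_of_dvd_mul_left (by norm_num) h3)
        rcases (Nat.Prime.dvd_mul Nat.prime_three).1 h3' with h5 | h5
        · rw [Nat.prime_dvd_prime_iff_eq Nat.prime_three hq] at h5
          subst h5
          exact ⟨r, hr, by rw [hG]; ring⟩
        · rw [Nat.prime_dvd_prime_iff_eq Nat.prime_three hr] at h5
          subst h5
          exact ⟨q, hq, by rw [hG]; ring⟩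
      · exfalso
        have hcop : Nat.Coprime 4 (p ^ 2) := by
          have : Nat.Coprime 2 p := (Nat.coprime_primes Nat.prime_two hp).2 (Ne.symm hp2')
          exact (Nat.Coprime.pow 2 2 this)
        have h5 := hcop.dvd_of_dvd_mul_left h4
        have h6 : 2 ∣ q ∨ 2 ∣ r := (Nat.Prime.dvd_mul Nat.prime_two).1
          ((by norm_num : 2 ∣ 4).trans h5)
        have h7 : q = 2 ∧ r = 2 := by
          rcases h6 with h6 | h6
          · rw [Nat.prime_dvd_prime_iff_eq Nat.prime_two hq] at h6
            refine ⟨h6.symm, ?_⟩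
            rw [← h6] at h5
            have h8 : 2 * 2 ∣ 2 * r := h5
            have h9 := (Nat.mul_dvd_mul_iff_left (by norm_num)).1 h8
            exact ((Nat.prime_dvd_prime_iff_eq Nat.prime_two hr).1 h9).symm
          · rw [Nat.prime_dvd_prime_iff_eq Nat.prime_two hr] at h6
            refine ⟨?_, h6.symm⟩
            rw [← h6] at h5
            have h8 : 2 * 2 ∣ 2 * q := by rw [mul_comm 2 q]; exact h5
            have h9 := (Nat.mul_dvd_mul_iff_left (by norm_num)).1 h8
            exact ((Nat.prime_dvd_prime_iff_eq Nat.prime_two hq).1 h9).symm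
        obtain ⟨rfl, rfl⟩ := h7
        exact H30.SmallSimple.not_pq hnc p 2 hp Nat.prime_two 2 2 (by rw [hG]; ring)
    obtain ⟨s, hs, hcard⟩ := key
    have := H30.SmallSimple.of_twelve hnc s hs hcard
    rw [hcard, this]

end Cfsg.Agent.S0988
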