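import Cfsg.Statements.S0989
import Mathlib
import Cfsg.Agent.Lib.H21.CountPrime

set_option autoImplicit false
open Cfsg

namespace Cfsg.Agent.S0989

open Subgroup H21.SimpleBasic H21.SylowTools H21.CountPrime

/-- In the symmetric group on p or p + 1 letters, p a prime, the normalizer of a Sylow p-subgroup has order p * (p - 1). -/
theorem result {α : Type*} [Fintype α] [DecidableEq α] (p : ℕ) [Fact p.Prime] (hα : Fintype.card α = p ∨ Fintype.card α = p + 1) (P : Sylow p (Equiv.Perm α)) : Nat.card ↥(Subgroup.normalizer ((P : Subgroup (Equiv.Perm α)) : Set (Equiv.Perm α))) = p * (p - 1) := by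
  have hpf : Fact p.Prime := inferInstance
  classical
  have hp := hpf.out
  have hfac : Nat.card (Equiv.Perm α) = (Fintype.card α).factorial := by
    rw [Nat.card_perm, Nat.card_eq_fintype_card]
  -- |Perm α| = p * m with p not dividing m
  have hm : ∃ m, Nat.card (Equiv.Perm α) = p ^ 1 * m ∧ ¬ p ∣ m := by
    rcases hα with h | h
    · refine ⟨(p - 1).factorial, ?_, ?_⟩
      · rw [hfac, h, pow_one, Nat.mul_factorial_pred hp.ne_zero]
      · rw [hp.dvd_factorial]; have := hp.pos; omega
    · refine ⟨(p + 1) * (p - 1).factorial, ?_, ?_⟩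
      · rw [hfac, h, pow_one, Nat.factorial_succ, ← Nat.mul_factorial_pred hp.ne_zero]; ring
      · rw [hp.dvd_mul]
        push Not
        constructor
        · intro h2
          have : p ∣ 1 := (Nat.dvd_add_right (dvd_refl p)).1 h2
          exact hp.ne_one (Nat.dvd_one.1 this)
        · rw [hp.dvd_factorial]; have := hp.pos; omega
  obtain ⟨m, hm1, hm2⟩ := hm
  have hPcard : ∀ Q : Sylow p (Equiv.Perm α), Nat.card (Q : Subgroup (Equiv.Perm α)) = p := by
    intro Q
    have := card_sylow_eq_pow hm1 hm2 Q
    rwa [pow_one] at this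
  -- number of elements of order p
  have hcyc : ∀ g : Equiv.Perm α, orderOf g = p ↔ g.cycleType = {p} := by
    intro g
    constructor
    · intro hg
      have h1 := Equiv.Perm.cycleType_prime_order (σ := g) (by rw [hg]; exact hp)
      obtain ⟨n, hn⟩ := h1
      have h2 : g.cycleType.sum ≤ Fintype.card α := by
        rw [Equiv.Perm.sum_cycleType]; exact Finset.card_le_univ _
      rw [hn, hg, Multiset.sum_replicate, smul_eq_mul] at h2
      have h3 : n = 0 := by
        by_contra h0
        have h4 : 2 ≤ n + 1 := by omega
        have h5 : 2 * p ≤ (n + 1) * p := Nat.mul_le_mul_right p h4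
        have h6 := hp.two_le
        rcases hα with h | h
        · omega
        · -- 2 p ≤ p + 1 impossible
          omega
      rw [hn, hg, h3]
      simp
    · intro hg
      rw [← Equiv.Perm.lcm_cycleType, hg]
      simp
  have hcount := card_orderOf_eq_prime hPcard
  have hcount2 : Nat.card {g : Equiv.Perm α // orderOf g = p} = Nat.card (Sylow p (Equiv.Perm α)) * (p - 1) := hcount
  have hnum : Nat.card {g : Equiv.Perm α // orderOf g = p} * p = Nat.card (Equiv.Perm α) := by
    have h1 : Nat.card {g : Equiv.Perm α // orderOf g = p} =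
        (Finset.univ.filter (fun g : Equiv.Perm α => g.cycleType = {p})).card := by
      rw [Nat.card_eq_fintype_card, Fintype.card_subtype]
      congr 1
      ext g
      simp [hcyc]
    rw [h1]
    have h2 := Equiv.Perm.card_of_cycleType_mul_eq α ({p} : Multiset ℕ)
    have h3 : p ≤ Fintype.card α := by rcases hα with h | h <;> omega
    rw [if_pos ⟨by simpa using h3, by simpa using hp.two_le⟩] at h2
    rw [hfac, ← h2]
    have h4 : (Fintype.card α - p).factorial = 1 := by
      rcases hα with h | h
      · rw [h, Nat.sub_self, Nat.factorial_zero]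
      · rw [h, Nat.add_sub_cancel_left, Nat.factorial_one]
    simp [h4]
  have hN := card_normalizer_mul_card_sylow P
  rw [hcount2, ← hN] at hnum
  have hpos : 0 < Nat.card (Sylow p (Equiv.Perm α)) := Nat.card_pos
  apply Nat.eq_of_mul_eq_mul_right hpos
  rw [← hnum]; ring

end Cfsg.Agent.S0989
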