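import Cfsg.Statements.S0990
import Mathlib

set_option autoImplicit false
open Cfsg

namespace Cfsg.Agent.S0990

open Subgroup

/-- Let p be an odd prime and P a Sylow p-subgroup of the symmetric group on a finite set with at least two elements. Then P is contained in the alternating group, and twice the order of the normalizer of P inside the alternating group equals the order of the normalizer of P in the symmetric group. -/
theorem result {α : Type*} [Fintype α] [DecidableEq α] (hα : 2 ≤ Fintype.card α) (p : ℕ) [Fact p.Prime] (hp : p ≠ 2) (P : Sylow p (Equiv.Perm α)) : (P : Subgroup (Equiv.Perm α)) ≤ alternatingGroup α ∧ 2 * Nat.card ↥(Subgroup.normalizer ((((P : Subgroup (Equiv.Perm α)).subgroupOf (alternatingGroup α) : Subgroup ↥(alternatingGroup α)) : Set ↥(alternatingGroup α)))) = Nat.card ↥(Subgroup.normalizer ((P : Subgroup (Equiv.Perm α)) : Set (Equiv.Perm α))) := by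
  have hpf : Fact p.Prime := inferInstance
  classical
  have hle : (P : Subgroup (Equiv.Perm α)) ≤ alternatingGroup α := by
    intro x hx
    rw [Equiv.Perm.mem_alternatingGroup]
    obtain ⟨k, hk⟩ := P.2 ⟨x, hx⟩
    have h1 : x ^ p ^ k = 1 := congrArg Subtype.val hk
    have h2 : (Equiv.Perm.sign x) ^ (p ^ k) = 1 := by rw [← map_pow, h1, map_one]
    rcases Int.units_eq_one_or (Equiv.Perm.sign x) with h | h
    · exact h
    · rw [h] at h2
      have h3 : Odd (p ^ k) := (hpf.out.odd_of_ne_two hp).pow
      rw [h3.neg_one_pow] at h2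
      exact absurd h2 (by decide)
  refine ⟨hle, ?_⟩
  set A := alternatingGroup α
  set N := Subgroup.normalizer ((P : Subgroup (Equiv.Perm α)) : Set (Equiv.Perm α)) with hN
  -- the normalizer inside A
  have h1 : Subgroup.normalizer ((((P : Subgroup (Equiv.Perm α)).subgroupOf A : Subgroup ↥A) : Set ↥A)) = N.subgroupOf A := by
    rw [Subgroup.subgroupOf_normalizer_eq hle]
  rw [h1]
  have hfr : N ⊔ A = ⊤ := by
    have := Sylow.normalizer_sup_eq_top' P (N := A) hle
    exact this
  have hnt : Nontrivial α := Fintype.one_lt_card_iff_nontrivial.1 (by omega)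
  have h2 : A.relIndex N = 2 := by
    have h := Subgroup.relIndex_sup_right N A
    rw [hfr, Subgroup.relIndex_top_right, alternatingGroup.index_eq_two] at h
    exact h.symm
  have h3 := Subgroup.card_mul_index (A.subgroupOf N)
  have h4 : Nat.card (A.subgroupOf N) = Nat.card (N.subgroupOf A) := by
    rw [← Subgroup.inf_subgroupOf_right A N, ← Subgroup.inf_subgroupOf_right N A, inf_comm N A]
    exact (Nat.card_congr (Subgroup.subgroupOfEquivOfLe inf_le_right).toEquiv).trans
      (Nat.card_congr (Subgroup.subgroupOfEquivOfLe inf_le_left).toEquiv).symm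
  rw [← h3, ← h4]
  change 2 * _ = _ * A.relIndex N
  rw [h2, mul_comm]

end Cfsg.Agent.S0990
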