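import Cfsg.Statements.S0992
import Mathlib
import Cfsg.Agent.Lib.H21.SylowTools

set_option autoImplicit false
open Cfsg

namespace Cfsg.Agent.S0992

open Subgroup H21.SimpleBasic H21.SylowTools

/-- Let G be a non-abelian finite simple group of even order not divisible by 8, and T a Sylow 2-subgroup. Then T is a Klein four-group and the centralizer of T has index 3 in the normalizer of T. -/
theorem result {G : Type*} [Group G] [Finite G] [IsSimpleGroup G] (hG : ¬ IsMulCommutative G) (h2 : Even (Nat.card G)) (h8 : ¬ 8 ∣ Nat.card G) (T : Sylow 2 G) : IsKleinFour ↥(T : Subgroup G) ∧ (Subgroup.centralizer ((T : Subgroup G) : Set G)).relIndex (Subgroup.normalizer ((T : Subgroup G) : Set G)) = 3 := by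
  have h2' : 2 ∣ Nat.card G := even_iff_two_dvd.1 h2
  have hmin : (Nat.card G).minFac = 2 := (Nat.minFac_eq_two_iff _).2 h2'
  have hnc : ¬ IsCyclic (T : Subgroup G) := by
    intro hc
    have := hc.normalizer_le_centralizer hmin
    exact burnside_not_le hG h2' T this
  obtain ⟨k, hk⟩ := T.2.exists_card_eq
  have hk3 : k < 3 := by
    by_contra hge
    push Not at hge
    apply h8
    have h1 : 2 ^ 3 ∣ Nat.card (T : Subgroup G) := by rw [hk]; exact pow_dvd_pow 2 hge
    have h3 := Subgroup.card_subgroup_dvd_card (T : Subgroup G)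
    exact (show 8 = 2 ^ 3 by norm_num) ▸ (h1.trans h3)
  have hk4 : Nat.card (T : Subgroup G) = 4 := by
    interval_cases k
    · exfalso; apply hnc
      have : Subsingleton (T : Subgroup G) := by
        rw [pow_zero] at hk
        exact (Nat.card_eq_one_iff_unique.1 hk).1
      exact isCyclic_of_subsingleton
    · exfalso; apply hnc
      exact isCyclic_of_prime_card (p := 2) (by rw [hk]; norm_num)
    · rw [hk]; norm_num
  have hkf : IsKleinFour ↥(T : Subgroup G) := by
    refine ⟨hk4, ?_⟩
    exact (not_isCyclic_iff_exponent_eq_prime Nat.prime_two (by rw [hk4]; norm_num)).1 hnc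
  refine ⟨hkf, ?_⟩
  have hcomm : IsMulCommutative (T : Subgroup G) := IsKleinFour.isMulCommutative
  set r := (Subgroup.centralizer ((T : Subgroup G) : Set G)).relIndex (Subgroup.normalizer ((T : Subgroup G) : Set G)) with hr
  have hr1 : r ≠ 1 := fun h => burnside_not_le hG h2' T (Subgroup.relIndex_eq_one.1 h)
  have hr24 : r ∣ 24 := by
    refine (relIndex_centralizer_dvd_card_mulAut (T : Subgroup G)).trans ?_
    have hinj : Function.Injective (MulAut.toPerm (T : Subgroup G)) := by
      intro a b hab
      ext x
      exact congrArg Subtype.val (Equiv.ext_iff.1 hab x)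
    have := Subgroup.card_dvd_of_injective _ hinj
    rw [Nat.card_perm, hk4] at this
    exact this
  have hrodd : ¬ 2 ∣ r := by
    intro h
    have hTC : (T : Subgroup G) ≤ centralizer ((T : Subgroup G) : Set G) := Subgroup.le_centralizer _
    have h1 := card_centralizer_mul_relIndex (T : Subgroup G)
    rw [← hr] at h1
    have h3 : 4 * 2 ∣ Nat.card G := by
      refine Dvd.dvd.trans ?_ (Subgroup.card_subgroup_dvd_card (Subgroup.normalizer ((T : Subgroup G) : Set G)))
      rw [← h1]
      refine Nat.mul_dvd_mul ?_ h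
      rw [← hk4]
      exact Subgroup.card_dvd_of_le hTC
    exact h8 h3
  have key : ∀ r : ℕ, r ∣ 24 → r ≠ 1 → ¬ 2 ∣ r → r = 3 := by
    intro r h1 h2 h3
    have h4 : r ≤ 24 := Nat.le_of_dvd (by norm_num) h1
    interval_cases r <;> omega
  exact key r hr24 hr1 hrodd

end Cfsg.Agent.S0992
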