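import Cfsg.Statements.S1001
import Cfsg.Agent.S0904
import Cfsg.Agent.S0144

set_option autoImplicit false
open Cfsg

namespace Cfsg.Agent.S1001

theorem comm_case {G : Type*} [Group G] [Finite G] [IsSimpleGroup G] (hsol : Group.IsSolvable G) {p : ℕ}
    (hp : p.Prime) (x : G) (hx : orderOf x = p) :
    Subgroup.centralizer ({x} : Set G) = Subgroup.zpowers x := by
  haveI := hsol
  have hcomm : ∀ a b : G, a * b = b * a := by
    intro a b
    have h := IsSimpleGroup.comm_iff_isSolvable (G := G)
    exact (h.2 inferInstance) a b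
  have hn : (Subgroup.zpowers x).Normal := ⟨by
    intro n hn g
    rw [hcomm g n, mul_inv_cancel_right]; exact hn⟩
  rcases hn.eq_bot_or_eq_top with h | h
  · exfalso
    rw [Subgroup.zpowers_eq_bot] at h
    rw [h, orderOf_one] at hx
    exact hp.one_lt.ne hx
  · rw [h, Subgroup.centralizer_eq_top_iff_subset]
    intro y hy
    rw [Set.mem_singleton_iff.1 hy]
    exact Subgroup.mem_center_iff.2 (fun g => hcomm g x)

/-- In a finite simple group whose order has the form p * 3^a * 2^b with p prime, the centralizer of any element of order p is the cyclic group it generates. -/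
theorem result {G : Type*} [Group G] [Finite G] [IsSimpleGroup G] (p a b : ℕ) (hp : p.Prime) (hG : Nat.card G = p * 3 ^ a * 2 ^ b) (x : G) (hx : orderOf x = p) : Subgroup.centralizer ({x} : Set G) = Subgroup.zpowers x := by
  by_cases h2 : p = 2
  · subst h2
    refine comm_case ?_ hp x hx
    have h1 : Nat.card G = 2 ^ (b + 1) * 3 ^ a := by rw [hG, pow_succ]; ring
    exact Cfsg.Agent.S0144.result 2 3 (b + 1) a Nat.prime_two Nat.prime_three h1
  by_cases h3 : p = 3
  · subst h3
    refine comm_case ?_ hp x hx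
    have h1 : Nat.card G = 3 ^ (a + 1) * 2 ^ b := by rw [hG, pow_succ]; ring
    exact Cfsg.Agent.S0144.result 3 2 (a + 1) b Nat.prime_three Nat.prime_two h1
  haveI : Fact p.Prime := ⟨hp⟩
  have hc : Nat.card G = 3 ^ a * 2 ^ b * p := by rw [hG]; ring
  have hz : Nat.card (Subgroup.zpowers x) = p := by rw [Nat.card_zpowers, hx]
  have hnd : ¬ p ∣ 3 ^ a * 2 ^ b := by
    intro h
    rcases (hp.dvd_mul).1 h with h | h
    · exact h3 ((Nat.prime_dvd_prime_iff_eq hp Nat.prime_three).1 (hp.dvd_of_dvd_pow h))
    · exact h2 ((Nat.prime_dvd_prime_iff_eq hp Nat.prime_two).1 (hp.dvd_of_dvd_pow h))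
  have hP : IsPGroup p (Subgroup.zpowers x) := IsPGroup.of_card (n := 1) (by rw [hz, pow_one])
  obtain ⟨S, hS⟩ := hP.exists_le_sylow
  have hSc : Nat.card (S : Subgroup G) = p := by
    rw [Sylow.card_eq_multiplicity, hc, Nat.factorization_mul (mul_ne_zero (by positivity) (by positivity)) hp.ne_zero,
      Finsupp.add_apply, Nat.factorization_eq_zero_of_not_dvd hnd, zero_add, hp.factorization_self, pow_one]
  have he : Subgroup.zpowers x = (S : Subgroup G) :=
    Subgroup.eq_of_le_of_card_ge hS (by rw [hSc, hz])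
  have h4 := Cfsg.Agent.S0904.result (G := G) 3 2 p a b Nat.prime_three Nat.prime_two (by norm_num)
    (fun h => h3 h.symm) (fun h => h2 h.symm) hc S
  rw [← he] at h4
  refine Eq.trans ?_ h4
  have he' : ((Subgroup.zpowers x : Subgroup G) : Set G) = ((S : Subgroup G) : Set G) := by rw [he]
  apply le_antisymm
  · intro y hy
    rw [Subgroup.mem_centralizer_iff]
    intro z hz'
    have hz' : z ∈ Subgroup.zpowers x := he ▸ hz'
    obtain ⟨k, rfl⟩ := Subgroup.mem_zpowers_iff.1 hz'
    have : Commute x y := (Subgroup.mem_centralizer_singleton_iff.1 hy).symm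
    exact (this.zpow_left k).eq
  · intro y hy
    rw [Subgroup.mem_centralizer_singleton_iff]
    exact (Subgroup.mem_centralizer_iff.1 hy x (hS (Subgroup.mem_zpowers x))).symm

end Cfsg.Agent.S1001
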