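import Cfsg.Statements.S1004
import Mathlib
import Cfsg.Agent.Lib.H21.Order168c

set_option autoImplicit false
open Cfsg

namespace Cfsg.Agent.S1004

/-- Let G be a simple group of order 168 and T a Sylow 2-subgroup. Then T is dihedral of order 8, T is its own normalizer, and T is the centralizer of any non-identity element of T that commutes with every element of T. -/
theorem result {G : Type*} [Group G] [Finite G] [IsSimpleGroup G] (h : Nat.card G = 168) (T : Sylow 2 G) : Nonempty (↥(T : Subgroup G) ≃* DihedralGroup 4) ∧ Subgroup.normalizer ((T : Subgroup G) : Set G) = T ∧ ∀ z : G, z ∈ (T : Subgroup G) → z ≠ 1 → (∀ t ∈ (T : Subgroup G), t * z = z * t) → Subgroup.centralizer ({z} : Set G) = T := by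
  refine ⟨?_, H21.Order168.normalizer_two h T, fun z hz hz1 hc =>
    H21.Order168.centralizer_eq_of_central h T hz hz1 hc⟩
  obtain ⟨a, ha, hidx, h1, h2⟩ := H21.Order168.sylow_structure h T
  obtain ⟨b, hb⟩ : ∃ b : (T : Subgroup G), b ∉ Subgroup.zpowers a := by
    by_contra hcon
    push Not at hcon
    have : Subgroup.zpowers a = ⊤ := eq_top_iff.2 fun y _ => hcon y
    rw [this, Subgroup.index_top] at hidx
    norm_num at hidx
  exact H76.MaxClass.dihedral_of a b ha (h1 b hb) (h2 b hb) hb hidx

end Cfsg.Agent.S1004
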