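import Cfsg.Statements.S1009
import Mathlib

set_option autoImplicit false
open Cfsg

namespace Cfsg.Agent.S1009

open Subgroup
open scoped Pointwise

/-- Brodkey's Theorem: if a finite group has abelian Sylow p-subgroups, then there are two Sylow p-subgroups whose intersection equals the intersection of all Sylow p-subgroups. -/
theorem result {G : Type*} [Group G] [Finite G] (p : ℕ) [Fact p.Prime] (hab : ∀ P : Sylow p G, IsMulCommutative ↥(P : Subgroup G)) : ∃ P Q : Sylow p G, (P : Subgroup G) ⊓ (Q : Subgroup G) = ⨅ R : Sylow p G, (R : Subgroup G) := by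
  classical
  -- choose P, Q with minimal order of intersection
  obtain ⟨⟨S, T⟩, hmin⟩ := Finite.exists_min (fun x : Sylow p G × Sylow p G =>
    Nat.card ↥((x.1 : Subgroup G) ⊓ (x.2 : Subgroup G)))
  refine ⟨S, T, le_antisymm ?_ (le_inf (iInf_le _ S) (iInf_le _ T))⟩
  set D : Subgroup G := (S : Subgroup G) ⊓ (T : Subgroup G) with hD
  refine le_iInf fun R => ?_
  -- N = centralizer of D
  set N : Subgroup G := centralizer (D : Set G) with hN
  have hSN : (S : Subgroup G) ≤ N := by
    intro x hx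
    rw [hN, mem_centralizer_iff]
    intro y hy
    have := (hab S).is_comm.comm ⟨y, hy.1⟩ ⟨x, hx⟩
    exact congrArg Subtype.val this
  have hTN : (T : Subgroup G) ≤ N := by
    intro x hx
    rw [hN, mem_centralizer_iff]
    intro y hy
    have := (hab T).is_comm.comm ⟨y, hy.2⟩ ⟨x, hx⟩
    exact congrArg Subtype.val this
  let S' : Sylow p N := S.subtype hSN
  have hK : IsPGroup p (((R : Subgroup G) ⊓ N).subgroupOf N) := by
    have h2 : IsPGroup p ↥((R : Subgroup G) ⊓ N) := R.2.to_le inf_le_left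
    exact h2.comap_subtype
  obtain ⟨Q', hQ'⟩ := hK.exists_le_sylow
  obtain ⟨c, hc⟩ := MulAction.exists_smul_eq N Q' S'
  -- c • R ∩ N ≤ S
  have hcR : (((c : G) • R : Sylow p G) : Subgroup G) ⊓ (T : Subgroup G) ≤ D := by
    intro x hx
    refine ⟨?_, hx.2⟩
    have hxN : x ∈ N := hTN hx.2
    have h1 : (c : G)⁻¹ * x * c ∈ (R : Subgroup G) := by
      have h3 : x ∈ (((c : G) • R : Sylow p G) : Subgroup G) := hx.1
      rw [Sylow.coe_subgroup_smul, Subgroup.mem_pointwise_smul_iff_inv_smul_mem] at h3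
      simpa [MulAut.smul_def, mul_assoc] using h3
    have h2 : (c : G)⁻¹ * x * c ∈ N := N.mul_mem (N.mul_mem (N.inv_mem c.2) hxN) c.2
    have h4 : (⟨(c : G)⁻¹ * x * c, h2⟩ : N) ∈ (Q' : Subgroup N) :=
      hQ' (by rw [mem_subgroupOf]; exact ⟨h1, h2⟩)
    have h5 : c * (⟨(c : G)⁻¹ * x * c, h2⟩ : N) * c⁻¹ ∈ ((c • Q' : Sylow p N) : Subgroup N) := by
      rw [Sylow.coe_subgroup_smul, Subgroup.mem_pointwise_smul_iff_inv_smul_mem]
      simpa [MulAut.smul_def, mul_assoc] using h4
    rw [hc] at h5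
    have h6 : ((c * (⟨(c : G)⁻¹ * x * c, h2⟩ : N) * c⁻¹ : N) : G) ∈ (S : Subgroup G) := by
      have := h5
      rwa [Sylow.coe_subtype, mem_subgroupOf] at this
    have h61 : ((c * (⟨(c : G)⁻¹ * x * c, h2⟩ : N) * c⁻¹ : N) : G) = x := by
      simp [mul_assoc]
    rw [h61] at h6
    exact h6
  have h7 := hmin ((c : G) • R, T)
  have h8 : (((c : G) • R : Sylow p G) : Subgroup G) ⊓ (T : Subgroup G) = D :=
    Subgroup.eq_of_le_of_card_ge hcR h7
  intro x hx
  have h9 : (c : G) * x * (c : G)⁻¹ = x := by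
    have := mem_centralizer_iff.1 (show (c : G) ∈ centralizer (D : Set G) from c.2)
    rw [← this x hx]; group
  have h10 : x ∈ (((c : G) • R : Sylow p G) : Subgroup G) := by
    have : x ∈ (((c : G) • R : Sylow p G) : Subgroup G) ⊓ (T : Subgroup G) := by rw [h8]; exact hx
    exact this.1
  rw [Sylow.coe_subgroup_smul, Subgroup.mem_pointwise_smul_iff_inv_smul_mem] at h10
  have h11 : (c : G)⁻¹ * x * c ∈ (R : Subgroup G) := by
    simpa [MulAut.smul_def, mul_assoc] using h10
  have h12 : (c : G)⁻¹ * x * c = x := by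
    conv_lhs => rw [← h9]
    group
  rwa [h12] at h11

end Cfsg.Agent.S1009
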