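import Cfsg.Statements.S1010
import Mathlib
import Cfsg.Agent.Lib.H73.Syl21e

set_option autoImplicit false
open Cfsg

namespace Cfsg.Agent.S1010

/-- No finite group has exactly twenty-one Sylow 5-subgroups. -/
theorem result {G : Type*} [Group G] [Finite G] : Nat.card (Sylow 5 G) ≠ 21 := by
  intro hcard
  let f : G →* (MulAction.toPermHom G (Sylow 5 G)).range :=
    (MulAction.toPermHom G (Sylow 5 G)).rangeRestrict
  have hf : Function.Surjective f := MonoidHom.rangeRestrict_surjective _
  have hfa : ∀ (g : G) (ω : Sylow 5 G), f g • ω = g • ω := fun g ω => rfl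
  have hcfg : H73.Syl21.Cfg (MulAction.toPermHom G (Sylow 5 G)).range (Sylow 5 G)
      (fun ω => (ω : Subgroup G).map f) := by
    refine ⟨inferInstance, hcard, ?_, ?_, ?_, ?_, ?_, ?_⟩
    · intro g hg
      apply Subtype.ext
      ext1 ω
      exact hg ω
    · intro ω
      exact ω.2.map f
    · intro ω hd
      exact ω.not_dvd_index (hd.trans (Subgroup.index_map_dvd _ hf))
    · rintro g ω x ⟨p, hp, rfl⟩
      obtain ⟨g0, rfl⟩ := hf g
      refine ⟨g0 * p * g0⁻¹, ?_, by rw [map_mul, map_mul, map_inv]⟩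
      have : g0 * p * g0⁻¹ ∈ (g0 • ω : Sylow 5 G) := by
        rw [Sylow.smul_def]
        exact ⟨p, hp, rfl⟩
      exact this
    · rintro ω g ⟨p, hp, rfl⟩
      rw [hfa, Sylow.smul_eq_iff_mem_normalizer]
      exact Subgroup.le_normalizer hp
    · intro ω β hβ
      have h1 : (ω : Subgroup G) ≤ Subgroup.normalizer β := by
        intro p hp
        have h2 := hβ (f p) ⟨p, hp, rfl⟩
        rw [hfa, Sylow.smul_eq_iff_mem_normalizer] at h2
        exact h2
      have h2 := ω.2.inf_normalizer_sylow β
      rw [inf_eq_left.2 h1] at h2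
      have h3 : (ω : Subgroup G) ≤ β := by
        rw [h2]; exact inf_le_right
      exact (Sylow.ext (ω.3 β.2 h3))
  exact hcfg.false

end Cfsg.Agent.S1010
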