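import Cfsg.Statements.S1013
import Mathlib
import Cfsg.Agent.Lib.H21.HallTools

set_option autoImplicit false
open Cfsg

namespace Cfsg.Agent.S1013

open Subgroup H21.SimpleBasic H21.SylowTools MulAction H21.HallTools

theorem card_dvd_of_transitive {G α : Type*} [Group G] [MulAction G α] [Finite G] [Nonempty α]
    [MulAction.IsPretransitive G α] : Nat.card α ∣ Nat.card G := by
  obtain ⟨a⟩ := ‹Nonempty α›
  rw [← index_stabilizer_of_transitive G a]
  exact Subgroup.index_dvd_card _

/-- a nontrivial normal subgroup of a transitive group of prime degree has order divisible by p -/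
theorem prime_dvd_card_of_normal {α : Type*} [Fintype α] [DecidableEq α] {p : ℕ} [hp : Fact p.Prime]
    (hα : Fintype.card α = p) (G : Subgroup (Equiv.Perm α)) [MulAction.IsPretransitive ↥G α]
    (N : Subgroup G) [N.Normal] (hN : N ≠ ⊥) : p ∣ Nat.card N := by
  have hprim : IsPreprimitive G α := IsPreprimitive.of_prime_card (by
    rw [Nat.card_eq_fintype_card, hα]; exact hp.out)
  have hq : IsQuasiPreprimitive G α := inferInstance
  have h1 : fixedPoints N α ≠ .univ := by
    intro h
    apply hN
    rw [eq_bot_iff]
    intro x hx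
    rw [Subgroup.mem_bot]
    apply Subtype.ext
    ext a
    have : a ∈ fixedPoints N α := by rw [h]; trivial
    exact this ⟨x, hx⟩
  have h2 := hq.isPretransitive_of_normal h1
  have hne : Nonempty α := by
    rw [← Fintype.card_pos_iff, hα]; exact hp.out.pos
  have := card_dvd_of_transitive (G := N) (α := α)
  rwa [Nat.card_eq_fintype_card (α := α), hα] at this

/-- Let G be a transitive permutation group of prime degree p having more than one Sylow p-subgroup, and suppose a Sylow p-subgroup P has prime index in its normalizer. Then G is simple. -/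
theorem result {α : Type*} [Fintype α] [DecidableEq α] {p : ℕ} [Fact p.Prime] (hα : Fintype.card α = p) (G : Subgroup (Equiv.Perm α)) [MulAction.IsPretransitive ↥G α] (P : Sylow p ↥G) (hn : 1 < Nat.card (Sylow p ↥G)) (ht : (((P : Subgroup ↥G).subgroupOf (Subgroup.normalizer ((P : Subgroup ↥G) : Set ↥G))).index).Prime) : IsSimpleGroup ↥G := by
  have hpf : Fact p.Prime := inferInstance
  classical
  have hp := hpf.out
  have hne : Nonempty α := by
    rw [← Fintype.card_pos_iff, hα]; exact hp.pos
  have hpG : p ∣ Nat.card G := by
    have := card_dvd_of_transitive (G := G) (α := α)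
    rwa [Nat.card_eq_fintype_card (α := α), hα] at this
  -- p^2 does not divide |G|
  have hp2 : ¬ p ^ 2 ∣ Nat.card G := by
    intro h
    have h1 := Subgroup.card_subgroup_dvd_card G
    rw [Nat.card_perm, Nat.card_eq_fintype_card (α := α), hα] at h1
    have h2 := h.trans h1
    rw [← Nat.mul_factorial_pred hp.ne_zero, pow_two] at h2
    have h3 := Nat.dvd_of_mul_dvd_mul_left hp.pos h2
    rw [hp.dvd_factorial] at h3
    have := hp.pos
    omega
  have hcardP : ∀ (H : Subgroup G) (Q : Sylow p H), p ∣ Nat.card H → Nat.card (Q : Subgroup H) = p := by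
    intro H Q hH
    obtain ⟨k, hk⟩ := Q.2.exists_card_eq
    have h1 : p ∣ Nat.card (Q : Subgroup H) := Q.dvd_card_of_dvd_card hH
    have h2 : Nat.card (Q : Subgroup H) ∣ Nat.card G :=
      (Subgroup.card_subgroup_dvd_card _).trans (Subgroup.card_subgroup_dvd_card _)
    rw [hk] at h1 h2 ⊢
    have h3 : k < 2 := by
      by_contra hge
      push Not at hge
      exact hp2 ((pow_dvd_pow p hge).trans h2)
    interval_cases k
    · rw [pow_zero, Nat.dvd_one] at h1
      exact absurd h1 hp.ne_one
    · rw [pow_one]
  have hPcard : Nat.card (P : Subgroup G) = p := by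
    obtain ⟨k, hk⟩ := P.2.exists_card_eq
    have h1 : p ∣ Nat.card (P : Subgroup G) := P.dvd_card_of_dvd_card hpG
    have h2 : Nat.card (P : Subgroup G) ∣ Nat.card G := Subgroup.card_subgroup_dvd_card _
    rw [hk] at h1 h2 ⊢
    have h3 : k < 2 := by
      by_contra hge
      push Not at hge
      exact hp2 ((pow_dvd_pow p hge).trans h2)
    interval_cases k
    · rw [pow_zero, Nat.dvd_one] at h1
      exact absurd h1 hp.ne_one
    · rw [pow_one]
  have hnormalP : ¬ (P : Subgroup G).Normal := by
    intro h
    have h1 := P.card_eq_index_normalizer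
    have h2 : (normalizer ((P : Subgroup G) : Set G)) = ⊤ := Subgroup.normalizer_eq_top_iff.2 h
    have h3 : (normalizer ((P : Subgroup G) : Set G)).index = 1 := Subgroup.index_eq_one.2 h2
    have h4 : Nat.card (Sylow p G) = 1 := h1.trans h3
    omega
  have hnt : Nontrivial G := by
    by_contra h
    rw [not_nontrivial_iff_subsingleton] at h
    have : Nat.card G = 1 := Nat.card_eq_one_iff_unique.2 ⟨h, ⟨1⟩⟩
    rw [this, Nat.dvd_one] at hpG
    exact hp.ne_one hpG
  refine ⟨fun N hN => ?_⟩
  by_cases hbot : N = ⊥
  · left; exact hbot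
  right
  have hpN := prime_dvd_card_of_normal hα G N hbot
  -- index of N prime to p
  have hindex : ¬ p ∣ N.index := by
    intro h
    apply hp2
    rw [← Subgroup.card_mul_index N, pow_two]
    exact Nat.mul_dvd_mul hpN h
  have hPN : (P : Subgroup G) ≤ N := sylow_le_of_not_dvd_index P N hindex
  set B := normalizer ((P : Subgroup G) : Set G) with hB
  have hPB : (P : Subgroup G) ≤ B := Subgroup.le_normalizer
  have hfr : B ⊔ N = ⊤ := Sylow.normalizer_sup_eq_top' P hPN
  rcases eq_or_eq_of_prime_relIndex (A := (P : Subgroup G)) (M := N ⊓ B) (B := B)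
    (le_inf hPN hPB) inf_le_right ht with h1 | h1
  · -- N_N(P) = P
    exfalso
    let P' : Sylow p N := P.subtype hPN
    have hP' : normalizer ((P' : Subgroup N) : Set N) ≤ centralizer ((P' : Subgroup N) : Set N) := by
      have h2 : normalizer ((P' : Subgroup N) : Set N) = B.subgroupOf N := by
        change normalizer (((P : Subgroup G).subgroupOf N : Subgroup N) : Set N) = _
        rw [Subgroup.subgroupOf_normalizer_eq hPN]
      rw [h2]
      intro x hx
      rw [Subgroup.mem_subgroupOf] at hx
      have hx' : (x : G) ∈ (P : Subgroup G) := by rw [← h1]; exact ⟨x.2, hx⟩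
      rw [Subgroup.mem_centralizer_iff]
      intro y hy
      have hy' : (y : G) ∈ (P : Subgroup G) := hy
      have hcyc : IsCyclic (P : Subgroup G) := isCyclic_of_prime_card hPcard
      have hc : IsMulCommutative (P : Subgroup G) := IsCyclic.isMulCommutative
      have := hc.is_comm.comm ⟨y, hy'⟩ ⟨x, hx'⟩
      exact Subtype.ext (congrArg (fun z : (P : Subgroup G) => (z : G)) this)
    have hcompl := MonoidHom.ker_transferSylow_isComplement' P' hP'
    set K := (MonoidHom.transferSylow P' hP').ker with hK
    have hP'card : Nat.card (P' : Subgroup N) = p := hcardP N P' hpN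
    have hKi : K.index = p := by
      rw [hcompl.symm.index_eq_card, hP'card]
    have hKc : ¬ p ∣ Nat.card K := MonoidHom.not_dvd_card_ker_transferSylow P' hP'
    have hchar : K.Characteristic := by
      apply characteristic_of_coprime
      rw [hKi, Nat.coprime_comm, Nat.Prime.coprime_iff_not_dvd hp]
      exact hKc
    have hKn : (K.map N.subtype).Normal := ConjAct.normal_of_characteristic_of_normal
    have hKbot : K.map N.subtype = ⊥ := by
      by_contra hcon
      have h2 := prime_dvd_card_of_normal hα G (K.map N.subtype) hcon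
      rw [Nat.card_congr (K.equivMapOfInjective N.subtype N.subtype_injective).symm.toEquiv] at h2
      exact hKc h2
    have hKbot' : K = ⊥ := (Subgroup.map_eq_bot_iff_of_injective K N.subtype_injective).1 hKbot
    have h5 : Nat.card N = p := by
      rw [← Subgroup.card_mul_index K, hKi, hKbot', Subgroup.card_bot, one_mul]
    have h6 : (P : Subgroup G) = N := Subgroup.eq_of_le_of_card_ge hPN (by rw [h5, hPcard])
    apply hnormalP
    rw [h6]
    exact hN
  · -- B ≤ N
    have h2 : B ≤ N := by
      rw [← h1]; exact inf_le_left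
    rw [← hfr, sup_eq_right.2 h2]

end Cfsg.Agent.S1013
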