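import Cfsg.Statements.S1014
import Mathlib
import Cfsg.Agent.Lib.H21.PrimeStruct

set_option autoImplicit false
open Cfsg

namespace Cfsg.Agent.S1014

open Subgroup MulAction H21.SimpleBasic H21.SylowTools H21.PrimeStruct

/-- No finite simple group has order 1104 = 2^4 * 3 * 23. -/
theorem result {G : Type*} [Group G] [Finite G] [IsSimpleGroup G] : Nat.card G ≠ 1104 := by
  intro h
  have hG : ¬ IsMulCommutative G := not_comm_of_card_not_prime (by rw [h]; norm_num)
  have : Fact (Nat.Prime 23) := ⟨by norm_num⟩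
  have h1 : Nat.card (Sylow 23 G) ∣ 48 := card_sylow_dvd_of_card (a := 1) (by rw [h]; norm_num)
  have h2 : Nat.card (Sylow 23 G) ≡ 1 [MOD 23] := card_sylow_modEq_one 23 G
  have h3 : Nat.card (Sylow 23 G) ≠ 1 := card_sylow_ne_one hG (by rw [h]; norm_num)
  have h4 : Nat.card (Sylow 23 G) = 1 + 1 * 23 := by
    have h5 : Nat.card (Sylow 23 G) ≤ 48 := Nat.le_of_dvd (by norm_num) h1
    generalize Nat.card (Sylow 23 G) = n at *
    unfold Nat.ModEq at h2
    interval_cases n <;> simp_all
  have hP : ∀ P : Sylow 23 G, Nat.card (P : Subgroup G) = 23 :=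
    card_sylow_eq_prime (m := 48) (by rw [h]) (by norm_num)
  obtain ⟨P⟩ : Nonempty (Sylow 23 G) := inferInstance
  obtain ⟨c, e, hc, hN, he1, he2, hcf, hcard⟩ := structure_prime hG hP h4 P
  have hc1 : c = 1 := by simpa using hcf
  subst hc1
  rw [h] at hcard
  have he : e = 2 := by omega
  subst he
  have hev : 2 ∣ Nat.card (normalizer ((P : Subgroup G) : Set G)) := by rw [hN]; norm_num
  have : Fact (Nat.Prime 2) := ⟨Nat.prime_two⟩
  obtain ⟨x, hx⟩ := exists_prime_orderOf_dvd_card' 2 hev
  have hx' : orderOf (x : G) = 2 := (Subgroup.orderOf_coe x).trans hx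
  have hxC : (x : G) ∉ centralizer ((P : Subgroup G) : Set G) := by
    intro hxC
    have h5 := orderOf_dvd_natCard (⟨(x : G), hxC⟩ : centralizer ((P : Subgroup G) : Set G))
    rw [Subgroup.orderOf_mk, hx', hc] at h5
    norm_num at h5
  obtain ⟨h6, h7, h8⟩ := involution_normalizer_fix hG hP h4 P x.2 hxC (by
    rw [← hx']; exact pow_orderOf_eq_one _)
  omega

end Cfsg.Agent.S1014
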