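import Cfsg.Statements.S1015
import Mathlib
import Cfsg.Agent.Lib.H21.SylowInter

set_option autoImplicit false
open Cfsg

namespace Cfsg.Agent.S1015

open Subgroup MulAction H21.SimpleBasic H21.SylowTools H21.SylowInter

/-- No finite simple group has order 1200 = 2^4 * 3 * 5^2. -/
theorem result {G : Type*} [Group G] [Finite G] [IsSimpleGroup G] : Nat.card G ≠ 1200 := by
  intro h
  have hG : ¬ IsMulCommutative G := not_comm_of_card_not_prime (by rw [h]; norm_num)
  have : Fact (Nat.Prime 5) := ⟨by norm_num⟩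
  have hc : Nat.card G = 5 ^ 2 * 48 := h.trans (by norm_num)
  have h1 : Nat.card (Sylow 5 G) ∣ 48 := card_sylow_dvd_of_card hc
  have h2 : Nat.card (Sylow 5 G) ≡ 1 [MOD 5] := card_sylow_modEq_one 5 G
  have h3 : Nat.card (Sylow 5 G) ≠ 1 := card_sylow_ne_one hG (by rw [h]; norm_num)
  have h4 : ¬ Nat.card (Sylow 5 G) ≡ 1 [MOD 5 ^ 2] := by
    have h5 : Nat.card (Sylow 5 G) ≤ 48 := Nat.le_of_dvd (by norm_num) h1
    generalize Nat.card (Sylow 5 G) = n at *
    unfold Nat.ModEq at *
    interval_cases n <;> omega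
  obtain ⟨P, R, M, u, k, -, -, -, -, -, -, huk, hfac, -, hs1, hs2, hs3⟩ :=
    exists_normalizer hG hc (by norm_num) (by norm_num) h4
  have hu : u ∣ 48 := ⟨k, huk.symm⟩
  have hu48 : u ≤ 48 := Nat.le_of_dvd (by norm_num) hu
  have hupos : 0 < u := Nat.pos_of_dvd_of_pos hu (by norm_num)
  have hs6 : 6 ≤ u := by
    refine le_trans ?_ (Nat.le_of_dvd hupos hs1)
    unfold Nat.ModEq at hs3
    have : 0 < Nat.card (Sylow 5 M) := Nat.card_pos
    omega
  have hk : k ≤ 8 := by nlinarith
  rw [h] at hfac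
  have : k.factorial ∣ Nat.factorial 8 := Nat.factorial_dvd_factorial hk
  have := hfac.trans this
  exact absurd this (by decide)

end Cfsg.Agent.S1015
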