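import Cfsg.Statements.S1016
import Mathlib
import Cfsg.Agent.Lib.H21.PrimeStruct

set_option autoImplicit false
open Cfsg

namespace Cfsg.Agent.S1016

open Subgroup MulAction H21.SimpleBasic H21.SylowTools H21.PrimeStruct

/-- No finite simple group has order 1440 = 2^5 * 3^2 * 5. -/
theorem result {G : Type*} [Group G] [Finite G] [IsSimpleGroup G] : Nat.card G ≠ 1440 := by
  intro h
  have hG : ¬ IsMulCommutative G := not_comm_of_card_not_prime (by rw [h]; norm_num)
  have : Fact (Nat.Prime 5) := ⟨by norm_num⟩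
  have : Fact (Nat.Prime 2) := ⟨by norm_num⟩
  have h1 : Nat.card (Sylow 5 G) ∣ 288 := card_sylow_dvd_of_card (a := 1) (by rw [h]; norm_num)
  have h2 : Nat.card (Sylow 5 G) ≡ 1 [MOD 5] := card_sylow_modEq_one 5 G
  have h3 : Nat.card (Sylow 5 G) ≠ 1 := card_sylow_ne_one hG (by rw [h]; norm_num)
  have h4 : Nat.card (Sylow 5 G) = 1 + 1 * 5 ∨ Nat.card (Sylow 5 G) = 1 + 3 * 5 ∨
      Nat.card (Sylow 5 G) = 1 + 7 * 5 ∨ Nat.card (Sylow 5 G) = 1 + 19 * 5 := by
    have h5 : Nat.card (Sylow 5 G) ≤ 288 := Nat.le_of_dvd (by norm_num) h1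
    generalize Nat.card (Sylow 5 G) = n at *
    unfold Nat.ModEq at h2
    interval_cases n <;> omega
  have hP : ∀ P : Sylow 5 G, Nat.card (P : Subgroup G) = 5 :=
    card_sylow_eq_prime (m := 288) (by rw [h]) (by norm_num)
  obtain ⟨P⟩ : Nonempty (Sylow 5 G) := inferInstance
  rcases h4 with h4 | h4 | h4 | h4
  · obtain ⟨c, e, hc, hN, he1, he2, hcf, hcard⟩ := structure_prime hG hP h4 P
    have hc1 : c = 1 := by simpa using hcf
    subst hc1
    rw [h] at hcard
    have := Nat.le_of_dvd (by norm_num) he1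
    omega
  · obtain ⟨c, e, hc, hN, he1, he2, hcf, hcard⟩ := structure_prime hG hP h4 P
    rw [h] at hcard
    have hcf' : c ∣ 6 := hcf
    have := Nat.le_of_dvd (by norm_num) he1
    have := Nat.le_of_dvd (by norm_num) hcf'
    have h9 : c * e = 18 := by nlinarith
    interval_cases e <;> omega
  · obtain ⟨c, e, hc, hN, he1, he2, hcf, hcard⟩ := structure_prime hG hP h4 P
    rw [h] at hcard
    have h8 : c * e = 8 := by nlinarith
    have h9 : e ≤ 4 := Nat.le_of_dvd (by norm_num) he1
    have h10 : c = 4 ∨ c = 2 := by interval_cases e <;> omega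
    have hev : 2 ∣ Nat.card (centralizer ((P : Subgroup G) : Set G)) := by
      rw [hc]; rcases h10 with h10 | h10 <;> rw [h10] <;> norm_num
    obtain ⟨x, hx⟩ := exists_prime_orderOf_dvd_card' 2 hev
    have hx' : orderOf (x : G) = 2 := (Subgroup.orderOf_coe x).trans hx
    obtain ⟨f, hf1, hf2, hf3⟩ := involution_centralizer_fix hG (by norm_num) hP h4 P x.2 hx'
    have hf : f = 3 := by omega
    subst hf
    obtain ⟨m, hm1, hm2, hm3⟩ := class_count hP h4 P x.2 (by rw [hx']; norm_num)
      (by rw [hx']; norm_num) hc (by rw [hf1]; norm_num)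
    rw [hf1] at hm3
    omega
  · have := gcd_ne_one_of_simple hG (p := 5) (k := 96) (l := 3) (by rw [h]) (by norm_num) h4
    exact this (by norm_num)

end Cfsg.Agent.S1016
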