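import Cfsg.Statements.S1017
import Mathlib
import Cfsg.Agent.Lib.H21.CommAct

set_option autoImplicit false
open Cfsg

namespace Cfsg.Agent.S1017

open Subgroup MulAction H21.SimpleBasic H21.SylowTools H21.PrimeStruct H21.PrimeCent H21.CommAct

/-- No finite simple group has order 2016 = 2^5 * 3^2 * 7. -/
theorem result {G : Type*} [Group G] [Finite G] [IsSimpleGroup G] : Nat.card G ≠ 2016 := by
  intro h
  have hG : ¬ IsMulCommutative G := not_comm_of_card_not_prime (by rw [h]; norm_num)
  have : Fact (Nat.Prime 7) := ⟨by norm_num⟩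
  have : Fact (Nat.Prime 2) := ⟨by norm_num⟩
  have h1 : Nat.card (Sylow 7 G) ∣ 288 := card_sylow_dvd_of_card (a := 1) (by rw [h]; norm_num)
  have h2 : Nat.card (Sylow 7 G) ≡ 1 [MOD 7] := card_sylow_modEq_one 7 G
  have h3 : Nat.card (Sylow 7 G) ≠ 1 := card_sylow_ne_one hG (by rw [h]; norm_num)
  have h4 : Nat.card (Sylow 7 G) = 1 + 1 * 7 ∨ Nat.card (Sylow 7 G) = 1 + 5 * 7 ∨
      Nat.card (Sylow 7 G) = 1 + 41 * 7 := by
    have h5 : Nat.card (Sylow 7 G) ≤ 288 := Nat.le_of_dvd (by norm_num) h1
    generalize Nat.card (Sylow 7 G) = n at *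
    unfold Nat.ModEq at h2
    interval_cases n <;> omega
  have hP : ∀ P : Sylow 7 G, Nat.card (P : Subgroup G) = 7 :=
    card_sylow_eq_prime (m := 288) (by rw [h]) (by norm_num)
  obtain ⟨P⟩ : Nonempty (Sylow 7 G) := inferInstance
  rcases h4 with h4 | h4 | h4
  · obtain ⟨c, e, hc, hN, he1, he2, hcf, hcard⟩ := structure_prime hG hP h4 P
    have hc1 : c = 1 := by simpa using hcf
    subst hc1
    rw [h] at hcard
    have := Nat.le_of_dvd (by norm_num) he1
    omega
  · obtain ⟨c, e, hc, hN, he1, he2, hcf, hcard⟩ := structure_prime hG hP h4 P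
    rw [h] at hcard
    have h8 : c * e = 8 := by nlinarith
    have h9 : e ≤ 6 := Nat.le_of_dvd (by norm_num) he1
    have h10 : c = 4 := by interval_cases e <;> omega
    have hev : 2 ∣ Nat.card (centralizer ((P : Subgroup G) : Set G)) := by
      rw [hc, h10]; norm_num
    obtain ⟨x, hx⟩ := exists_prime_orderOf_dvd_card' 2 hev
    have hx' : orderOf (x : G) = 2 := (Subgroup.orderOf_coe x).trans hx
    obtain ⟨f, hf1, hf2, hf3⟩ := involution_centralizer_fix hG (by norm_num) hP h4 P x.2 hx'
    have hf : f = 1 := by omega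
    subst hf
    obtain ⟨m, hm1, hm2, hm3⟩ := class_count hP h4 P x.2 (by rw [hx']; norm_num)
      (by rw [hx']; norm_num) hc (by rw [hf1]; norm_num)
    rw [hf1] at hm3
    have hcl : Nat.card {g : G // IsConj (x : G) g} = 9 := by omega
    have hCx := card_class_mul_card_centralizer (x : G)
    rw [hcl, h] at hCx
    set H := centralizer ({(x : G)} : Set G) with hH
    have hHidx : H.index = 9 := by
      have h11 := Subgroup.card_mul_index H
      rw [h] at h11
      have h12 : Nat.card H = 224 := by omega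
      rw [h12] at h11
      omega
    have hHtop : H ≠ ⊤ := by
      intro h5; rw [h5, Subgroup.index_top] at hHidx; norm_num at hHidx
    have hinj := toPermHom_quotient_injective H hHtop
    obtain ⟨u, huP, hu⟩ := exists_orderOf_eq_of_sylow P (hP P)
    have hcomm : Commute u (x : G) := mem_centralizer_iff.1 x.2 u huP
    obtain ⟨F, f, b, -, -, c1, c2, c3, c4, c5, c6, c7, c8⟩ :=
      commuting_constraints hG (G ⧸ H) hinj hu hx' hcomm
    have hn : Nat.card (G ⧸ H) = 9 := hHidx
    rw [hn] at c1 c4 c7 c8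
    unfold Nat.ModEq at *
    omega
  · have := gcd_ne_one_of_simple hG (p := 7) (k := 288) (l := 1) (by rw [h]) (by norm_num) h4
    exact this (by norm_num)

end Cfsg.Agent.S1017
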