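import Cfsg.Statements.S1018
import Mathlib

set_option autoImplicit false
open Cfsg

namespace Cfsg.Agent.S1018

open Subgroup MulAction

/-- Let P be a Sylow p-subgroup of order p of a finite group G, and consider the action of G on the left cosets of the normalizer N of P. Then every element of order p fixes exactly one coset, and an element of N that does not centralize P fixes at most as many cosets as there are orbits of P. -/
theorem result {G : Type*} [Group G] [Finite G] (p : ℕ) [Fact p.Prime] (P : Sylow p G) (hP : Nat.card ↥(P : Subgroup G) = p) : (∀ y : G, orderOf y = p → Nat.card (MulAction.fixedBy (G ⧸ Subgroup.normalizer ((P : Subgroup G) : Set G)) y) = 1) ∧ ∀ x : G, x ∈ Subgroup.normalizer ((P : Subgroup G) : Set G) → x ∉ Subgroup.centralizer ((P : Subgroup G) : Set G) → Nat.card (MulAction.fixedBy (G ⧸ Subgroup.normalizer ((P : Subgroup G) : Set G)) x) ≤ Nat.card (MulAction.orbitRel.Quotient ↥(P : Subgroup G) (G ⧸ Subgroup.normalizer ((P : Subgroup G) : Set G))) := by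
  have hp : Fact p.Prime := inferInstance
  classical
  set N := Subgroup.normalizer ((P : Subgroup G) : Set G) with hN
  have hfix : ∀ (g y : G), y • (QuotientGroup.mk g : G ⧸ N) = QuotientGroup.mk g ↔ g⁻¹ * y * g ∈ N := by
    intro g y
    rw [show y • (QuotientGroup.mk g : G ⧸ N) = QuotientGroup.mk (y * g) from rfl, eq_comm,
      QuotientGroup.eq, mul_assoc]
  -- an element of order p in N lies in P
  have hordN : ∀ y : G, orderOf y = p → y ∈ N → y ∈ (P : Subgroup G) := by
    intro y hy hyN
    have h1 : IsPGroup p (Subgroup.zpowers y) := by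
      rw [IsPGroup.iff_card]
      exact ⟨1, by rw [Nat.card_zpowers, hy, pow_one]⟩
    have h2 := h1.inf_normalizer_sylow P
    have h3 : y ∈ Subgroup.zpowers y ⊓ normalizer ((P : Subgroup G) : Set G) := ⟨mem_zpowers y, hyN⟩
    have h4 : y ∈ Subgroup.zpowers y ⊓ (P : Subgroup G) := by rw [← h2]; exact h3
    exact h4.2
  -- for y of order p, zpowers y = conj of P
  have hone : ∀ y : G, orderOf y = p → ∀ g : G, g⁻¹ * y * g ∈ N → Subgroup.zpowers y = (g • P : Sylow p G) := by
    intro y hy g hg
    have h1 : orderOf (g⁻¹ * y * g) = p := by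
      rw [← hy]
      have : g⁻¹ * y * g = MulAut.conj g⁻¹ y := by simp [MulAut.conj_apply]
      rw [this]
      exact MulEquiv.orderOf_eq _ _
    have h2 := hordN _ h1 hg
    apply Subgroup.eq_of_le_of_card_ge
    · rw [Subgroup.zpowers_le, Sylow.coe_subgroup_smul, Subgroup.mem_pointwise_smul_iff_inv_smul_mem]
      simpa [MulAut.smul_def, mul_assoc] using h2
    · have h3 : Nat.card (g • P : Sylow p G) = Nat.card P := Nat.card_congr (Sylow.equiv _ _).toEquiv
      rw [Nat.card_zpowers, hy]
      exact (h3.trans hP).le
  constructor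
  · intro y hy
    rw [Nat.card_eq_one_iff_unique]
    constructor
    · constructor
      rintro ⟨a, ha⟩ ⟨b, hb⟩
      induction a using QuotientGroup.induction_on with | H a => ?_
      induction b using QuotientGroup.induction_on with | H b => ?_
      rw [mem_fixedBy, hfix] at ha hb
      have h1 := hone y hy a ha
      have h2 := hone y hy b hb
      have h3 : a • P = b • P := Sylow.ext (h1.symm.trans h2)
      apply Subtype.ext
      change (QuotientGroup.mk a : G ⧸ N) = QuotientGroup.mk b
      rw [QuotientGroup.eq]
      have h4 : (a⁻¹ * b) • P = P := by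
        rw [mul_smul, ← h3, inv_smul_smul]
      exact Sylow.smul_eq_iff_mem_normalizer.1 h4
    · -- existence
      have h1 : IsPGroup p (Subgroup.zpowers y) := by
        rw [IsPGroup.iff_card]
        exact ⟨1, by rw [Nat.card_zpowers, hy, pow_one]⟩
      obtain ⟨Q, hQ⟩ := h1.exists_le_sylow
      obtain ⟨g, hg⟩ := MulAction.exists_smul_eq G P Q
      refine ⟨⟨QuotientGroup.mk g, ?_⟩⟩
      rw [mem_fixedBy, hfix]
      have h2 : y ∈ ((g • P : Sylow p G) : Subgroup G) := by rw [hg]; exact hQ (mem_zpowers y)
      rw [Sylow.coe_subgroup_smul, Subgroup.mem_pointwise_smul_iff_inv_smul_mem] at h2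
      apply Subgroup.le_normalizer
      simpa [MulAut.smul_def, mul_assoc] using h2
  · intro x hxN hxC
    have hcyc : IsCyclic (P : Subgroup G) := isCyclic_of_prime_card hP
    apply Nat.card_le_card_of_injective
      (fun q : fixedBy (G ⧸ N) x => (Quotient.mk'' (q : G ⧸ N) : orbitRel.Quotient (P : Subgroup G) (G ⧸ N)))
    rintro ⟨a, ha⟩ ⟨b, hb⟩ hab
    rw [mem_fixedBy] at ha hb
    have h1 : a ∈ orbit (P : Subgroup G) b := by
      have := Quotient.exact hab
      exact this
    obtain ⟨u, hu⟩ := h1
    have hu' : (u : G) • b = a := hu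
    apply Subtype.ext
    change a = b
    by_contra hne
    have hgen : ∀ v : G, v ∈ (P : Subgroup G) → v ≠ 1 → Subgroup.zpowers v = (P : Subgroup G) := by
      intro v hv hv1
      apply Subgroup.eq_of_le_of_card_ge
      · rwa [Subgroup.zpowers_le]
      · rw [Nat.card_zpowers, hP]
        have h2 : orderOf v ∣ p := by
          rw [← hP]
          have := orderOf_dvd_natCard (⟨v, hv⟩ : (P : Subgroup G))
          rwa [Subgroup.orderOf_mk] at this
        rcases (Nat.dvd_prime hp.out).1 h2 with h3 | h3
        · exact absurd (orderOf_eq_one_iff.1 h3) hv1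
        · exact h3.ge
    -- stabilizer of b in P is trivial
    have hstab : ∀ v : G, v ∈ (P : Subgroup G) → v • b = b → v = 1 := by
      intro v hv hvb
      by_contra hv1
      apply hne
      rw [← hu']
      have h5 : Subgroup.zpowers v ≤ MulAction.stabilizer G b := by
        rw [Subgroup.zpowers_le]; exact hvb
      have h6 : (u : G) ∈ Subgroup.zpowers v := by rw [hgen v hv hv1]; exact u.2
      exact h5 h6
    have hu1 : (u : G) ≠ 1 := by
      intro h
      apply hne
      rw [← hu', h, one_smul]
    have hxu : x * (u : G) * x⁻¹ ∈ (P : Subgroup G) := (Subgroup.mem_normalizer_iff.1 hxN u).1 u.2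
    have h7 : ((u : G)⁻¹ * (x * (u : G) * x⁻¹)) • b = b := by
      have hb2 : x⁻¹ • b = b := by
        rw [inv_smul_eq_iff]; exact hb.symm
      rw [mul_smul, mul_smul, mul_smul, hb2, hu', ha, ← hu', inv_smul_smul]
    have h8 := hstab _ ((P : Subgroup G).mul_mem ((P : Subgroup G).inv_mem u.2) hxu) h7
    have h9 : x * (u : G) = (u : G) * x := by
      have := (inv_mul_eq_one.1 h8)
      rw [eq_mul_inv_iff_mul_eq] at this
      exact this.symm
    apply hxC
    rw [Subgroup.mem_centralizer_iff]
    intro w hw
    have hw' : w ∈ Subgroup.zpowers (u : G) := by rw [hgen u u.2 hu1]; exact hw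
    obtain ⟨i, hi⟩ := hw'
    simp only at hi
    rw [← hi]
    exact ((show Commute x (u : G) from h9).zpow_right i).eq.symm

end Cfsg.Agent.S1018
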