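import Cfsg.Statements.S1019
import Mathlib

set_option autoImplicit false
open Cfsg

namespace Cfsg.Agent.S1019

/-- Let H be a subgroup of a finite group G and x an element of H. In the action of G on the left cosets of H, the number of cosets fixed by x, multiplied by the size of the conjugacy class of x, equals the index of H multiplied by the number of conjugates of x that lie in H. -/
theorem result {G : Type*} [Group G] [Finite G] (H : Subgroup G) (x : G) (hx : x ∈ H) : Nat.card (MulAction.fixedBy (G ⧸ H) x) * Nat.card {g : G // IsConj x g} = H.index * Nat.card {g : G // IsConj x g ∧ g ∈ H} := by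
  classical
  -- pairs (q, y) with y conj to x and y fixing q
  have hfix : ∀ (g y : G), y • (QuotientGroup.mk g : G ⧸ H) = QuotientGroup.mk g ↔ g⁻¹ * y * g ∈ H := by
    intro g y
    rw [show y • (QuotientGroup.mk g : G ⧸ H) = QuotientGroup.mk (y * g) from rfl, eq_comm,
      QuotientGroup.eq, mul_assoc]
  have e1 : {p : (G ⧸ H) × {g : G // IsConj x g} // (p.2 : G) • p.1 = p.1} ≃
      {g : G // IsConj x g} × MulAction.fixedBy (G ⧸ H) x := by
    refine
      { toFun := fun p => (p.1.2, ⟨(isConj_iff.1 p.1.2.2).choose⁻¹ • p.1.1, ?_⟩)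
        invFun := fun p => ⟨((isConj_iff.1 p.1.2).choose • (p.2 : G ⧸ H), p.1), ?_⟩
        left_inv := ?_
        right_inv := ?_ }
    · have h := (isConj_iff.1 p.1.2.2).choose_spec
      set c := (isConj_iff.1 p.1.2.2).choose
      rw [MulAction.mem_fixedBy]
      have h2 := p.2
      rw [← h] at h2
      rw [smul_smul]
      conv_rhs => rw [← h2]
      rw [smul_smul]
      congr 1
      group
    · have h := (isConj_iff.1 p.1.2).choose_spec
      set c := (isConj_iff.1 p.1.2).choose
      have h2 := p.2.2
      rw [MulAction.mem_fixedBy] at h2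
      simp only
      rw [← h, smul_smul]
      conv_rhs => rw [← h2]
      rw [smul_smul]
      congr 1
      group
    · rintro ⟨⟨q, y⟩, h⟩
      simp
    · rintro ⟨y, q⟩
      simp
  have e2 : {p : (G ⧸ H) × {g : G // IsConj x g} // (p.2 : G) • p.1 = p.1} ≃
      (G ⧸ H) × {g : G // IsConj x g ∧ g ∈ H} := by
    refine
      { toFun := fun p => (p.1.1, ⟨p.1.1.out⁻¹ * p.1.2 * p.1.1.out, ?_, ?_⟩)
        invFun := fun p => ⟨(p.1, ⟨p.1.out * p.2 * p.1.out⁻¹, ?_⟩), ?_⟩
        left_inv := ?_
        right_inv := ?_ }
    · refine p.1.2.2.trans ?_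
      rw [isConj_iff]
      exact ⟨p.1.1.out⁻¹, by group⟩
    · rw [← hfix]
      have := p.2
      rwa [QuotientGroup.out_eq']
    · refine p.2.2.1.trans ?_
      rw [isConj_iff]
      exact ⟨p.1.out, rfl⟩
    · have : p.1 = QuotientGroup.mk p.1.out := (QuotientGroup.out_eq' _).symm
      simp only
      rw [this, hfix]
      have h2 := p.2.2.2
      simp only [QuotientGroup.out_eq']
      group
      simpa using h2
    · rintro ⟨⟨q, y⟩, h⟩
      simp [mul_assoc]
    · rintro ⟨q, y⟩
      simp [mul_assoc]
  have h1 := Nat.card_congr e1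
  have h2 := Nat.card_congr e2
  rw [Nat.card_prod] at h1 h2
  rw [mul_comm, ← h1, h2]
  rfl

end Cfsg.Agent.S1019
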