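import Cfsg.Statements.S1022
import Mathlib
import Cfsg.Agent.Lib.H21.NE5

set_option autoImplicit false
open Cfsg

namespace Cfsg.Agent.S1022

/-- No finite simple group has order 459648 = 2^7 * 3^3 * 7 * 19. -/
theorem result {G : Type*} [Group G] [Finite G] [IsSimpleGroup G] : Nat.card G ≠ 459648 := by
  classical
  intro hN
  have f19 : Fact (Nat.Prime 19) := ⟨by norm_num⟩
  have f7 : Fact (Nat.Prime 7) := ⟨by norm_num⟩
  let _ : Fintype G := Fintype.ofFinite G
  let _ : Fintype (Cfsg.IrrCharacter G) := Fintype.ofFinite _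
  have hG := H21.NE.not_comm_of_card hN (by norm_num)
  obtain ⟨x0, a, Y, ε, e, n, c, h, hmem⟩ := H21.NE.main2 hG hN 19 678 [] (by
    intro x hx
    exact absurd hx List.not_mem_nil) [(1008, 6, [2, 2, 1])] (by decide +kernel)
  rw [List.mem_singleton, Prod.mk.injEq, Prod.mk.injEq] at hmem
  obtain ⟨hv, he, hcnt⟩ := hmem
  subst he
  have hn : n = 53 := by omega
  subst hn
  have hc : c = 4 := by
    have h1 := h.hcard
    rw [hN] at h1
    omega
  subst hc
  have hL : H21.NE.cands 459648 19 (1 + 53 * 19) 6 4 678 = [56, 96, 189] := by decide +kernel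
  rw [hL] at hcnt
  simp only [List.map_cons, List.map_nil, List.cons.injEq, and_true] at hcnt
  obtain ⟨c56, c96, c189⟩ := hcnt
  obtain ⟨θ, hθ⟩ := h.exists_Y
  obtain ⟨d1, d2, -⟩ := H21.NE.degree_eq h (by norm_num) hG (B := 678) (by rw [hN]; norm_num) hθ
  rw [hN, hL] at d2
  simp only [List.map_cons, List.map_nil, List.sum_cons, List.sum_nil, c56, c96, c189,
    H21.NE.sg] at d2
  norm_num at d2
  have hθ108 : Cfsg.charDegree (θ : G → ℂ) = 108 := by
    rcases h.hε with h1 | h1 <;> rw [h1] at d2 <;> omega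
  obtain ⟨y0, a', Y', ε', e', n', c', h'⟩ := H21.NE.exists_BD_of_card hN 7 (by norm_num) (by norm_num)
  obtain ⟨M, hM, hB⟩ := h'.hM
  obtain ⟨T, δ, t, hT, hδ, heq, hle⟩ := H21.NE.q_info h (by norm_num) hG hN (B := 678)
    (by norm_num) (q := 7) (by norm_num) (by norm_num) (b := 1)
    (H21.NE.fac_eq (m := 65664) (by norm_num) (by norm_num) (by norm_num)) (by norm_num) hM hθ
    (Or.inr ⟨8, by rw [hθ108]⟩)
  rw [hL] at heq hle
  have l56 := hle 56 (by simp)
  have l96 := hle 96 (by simp)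
  have l189 := hle 189 (by simp)
  rw [c56] at l56
  rw [c96] at l96
  rw [c189] at l189
  have a56 : H21.NE.allow (7 ^ 1) 56 = false := by decide
  have a189 : H21.NE.allow (7 ^ 1) 189 = false := by decide
  rw [a56] at l56
  rw [a189] at l189
  simp only [List.map_cons, List.map_nil, List.sum_cons, List.sum_nil, H21.NE.sg] at heq
  norm_num at heq l56 l96 l189
  rw [l56, l189, d2] at heq
  have l96' : H21.NE.cnt T 96 ≤ 2 := l96.trans (by split_ifs <;> norm_num)
  push_cast at heq
  have hfin : H21.NE.cnt T 96 = 2 ∧ δ = 1 := by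
    rcases hδ with h1 | ⟨h1, -⟩ <;> rw [h1] at heq ⊢ <;> omega
  obtain ⟨χ, hχ, hχD⟩ := H21.NE.cnt_pos (S := T) (D := 96) (by omega)
  have hθB : θ ∈ Cfsg.principalBlock M G := by
    rcases hδ with h1 | ⟨-, h1, -⟩
    · omega
    · exact h1
  have m1 := H21.NE.mem_Y_of h' (by norm_num) hB (hT χ hχ).2 (by rw [hχD]; norm_num) (by rw [hχD]; norm_num)
  have m2 := H21.NE.mem_Y_of h' (by norm_num) hB hθB (by rw [hθ108]; norm_num) (by rw [hθ108]; norm_num)
  have := H21.BT.degree_Y h' m1 m2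
  rw [hχD, hθ108] at this
  norm_num at this

end Cfsg.Agent.S1022
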