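import Cfsg.Statements.S1039
import Cfsg.Agent.Lib.H22.ChevAll
-- import your own Cfsg.Agent.* helpers here

set_option autoImplicit false
open Cfsg

namespace Cfsg.Agent.S1039

/-- `N/H ≅ W`: there is a surjective homomorphism from `N` onto the Coxeter group of the type (Mathlib's Coxeter matrix G₂, B₂, F₄, E₆, E₇, E₈, nodes numbered as the fundamental roots) with kernel `H`, mapping each `n_{p_i}` to the `i`-th simple reflection. -/
theorem result {F : Type*} [Field F]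
    (p : Cfsg.Lie.ChevalleyDatum × (Σ n : ℕ, CoxeterMatrix (Fin n)))
    (hp : p ∈ [(Cfsg.Lie.chevG2, ⟨2, CoxeterMatrix.G₂⟩), (Cfsg.Lie.chevB2, ⟨2, CoxeterMatrix.B 2⟩), (Cfsg.Lie.chevD4, ⟨4, Cfsg.Lie.coxeterD4⟩), (Cfsg.Lie.chevF4, ⟨4, CoxeterMatrix.F₄⟩),
      (Cfsg.Lie.chevE6, ⟨6, CoxeterMatrix.E₆⟩), (Cfsg.Lie.chevE7, ⟨7, CoxeterMatrix.E₇⟩), (Cfsg.Lie.chevE8, ⟨8, CoxeterMatrix.E₈⟩)]) :
    ∃ φ : ↥(p.1.monomialSubgroup F) →* p.2.2.Group, Function.Surjective φ ∧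
      φ.ker = (p.1.diagonalSubgroup F).subgroupOf (p.1.monomialSubgroup F) ∧
      ∀ (i : Fin p.2.1) (g : ↥(p.1.monomialSubgroup F)),
        ((g : GL p.1.Idx F) : Matrix p.1.Idx p.1.Idx F) = p.1.nMat F (p.1.simple i) 1 → φ g = p.2.2.simple i := by
  simp only [List.mem_cons, List.not_mem_nil, or_false] at hp
  rcases hp with rfl | rfl | rfl | rfl | rfl | rfl | rfl
  · exact H22.ChevCox.s1039 (H22.ChevAll.rel _ (by simp) F) H22.PoinG2.rcxG2 H22.CoxCalc.weylG2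
  · exact H22.ChevCox.s1039 (H22.ChevAll.rel _ (by simp) F) H22.PoinB2.rcxB2 H22.CoxCalc.weylB2
  · exact H22.ChevCox.s1039 (H22.ChevAll.rel _ (by simp) F) H22.PoinD4.rcxD4 H22.CoxCalc.weylD4
  · exact H22.ChevCox.s1039 (H22.ChevAll.rel _ (by simp) F) H22.PoinF4.rcxF4 H22.CoxCalc.weylF4
  · exact H22.ChevCox.s1039 (H22.ChevAll.rel _ (by simp) F) H22.PoinE6.rcxE6 H22.CoxCalc.weylE6
  · exact H22.ChevCox.s1039 (H22.ChevAll.rel _ (by simp) F) H22.PoinE7.rcxE7 H22.CoxCalc.weylE7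
  · exact H22.ChevCox.s1039 (H22.ChevAll.rel _ (by simp) F) H22.PoinE8.rcxE8 H22.CoxCalc.weylE8

end Cfsg.Agent.S1039
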