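import Cfsg.Statements.S1061
import Cfsg.Agent.Lib.H22.ChevAll
-- import your own Cfsg.Agent.* helpers here

set_option autoImplicit false
open Cfsg

namespace Cfsg.Agent.S1061

/-- `gcd(2, q-1)² · |D₄(q)| = q¹² (q² - 1)(q⁴ - 1)(q⁴ - 1)(q⁶ - 1)`. -/
theorem result {F : Type*} [Field F] [Fintype F] {q : ℕ} (hq : Fintype.card F = q) : Nat.gcd 2 (q - 1) ^ 2 * Nat.card ↥(Cfsg.Lie.chevD4.group F) = q ^ 12 * (q ^ 2 - 1) * (q ^ 4 - 1) * (q ^ 4 - 1) * (q ^ 6 - 1) := by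
  have h := H22.ChevOrder.order_formula (H22.ChevAll.rel Cfsg.Lie.chevD4 (by simp) F)
    H22.PoinD4.rcxD4 hq (H22.ChevTorusCard.kerD4 hq)
  have h2 := H22.ChevOrder.poly_D4 (H22.ChevOrder.q_pos hq)
  have h3 : (q - 1) ^ Cfsg.Lie.chevD4.rank * H22.Poincare.P (H22.RCComb.comb H22.PoinD4.rcxD4) Cfsg.Lie.chevD4.rank q = _ := h2
  rw [h3] at h
  rw [h]
  show q ^ 12 * _ = _
  ring

end Cfsg.Agent.S1061
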