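import Cfsg.Statements.S1091
import Cfsg.Agent.Lib.H24.ReeSub

set_option autoImplicit false
open Cfsg

namespace Cfsg.Agent.S1091

open H24.ReeStr H24.ReeAct H24.ReeInt H24.ReeSub in
theorem bn_aux {K : Type*} [Field K] {e : ℕ} [H24.ReeGrp.RF K e] [Finite K] :
    ∃ P : Cfsg.BNPair ↥(Cfsg.Lie.twistedG2 K e),
      P.B = (Cfsg.Lie.chevG2.borelSubgroup K ⊓ Cfsg.Lie.twistedG2 K e).subgroupOf (Cfsg.Lie.twistedG2 K e) ∧
      P.N = (Cfsg.Lie.chevG2.monomialSubgroup K ⊓ Cfsg.Lie.twistedG2 K e).subgroupOf (Cfsg.Lie.twistedG2 K e) := by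
  have hno : (o0 : Pt K) ≠ none := by simp
  obtain ⟨B, hB⟩ : ∃ B : Subgroup (G1 K e), B = (Cfsg.Lie.chevG2.borelSubgroup K ⊓ Cfsg.Lie.twistedG2 K e).subgroupOf (Cfsg.Lie.twistedG2 K e) := ⟨_, rfl⟩
  obtain ⟨N, hN⟩ : ∃ N : Subgroup (G1 K e), N = (Cfsg.Lie.chevG2.monomialSubgroup K ⊓ Cfsg.Lie.twistedG2 K e).subgroupOf (Cfsg.Lie.twistedG2 K e) := ⟨_, rfl⟩
  have mB : ∀ g : G1 K e, g ∈ B ↔ g • (none : Pt K) = none := by
    intro g
    rw [hB, Subgroup.mem_subgroupOf, Subgroup.mem_inf, mem_B_iff]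
    exact ⟨fun h => h.1, fun h => ⟨h, g.2⟩⟩
  have mN : ∀ g : G1 K e, g ∈ N ↔ (g • (none : Pt K) = none ∧ g • (o0 : Pt K) = o0) ∨
      (g • (none : Pt K) = o0 ∧ g • (o0 : Pt K) = none) := by
    intro g
    rw [hN, Subgroup.mem_subgroupOf, Subgroup.mem_inf, mem_N_iff]
    exact ⟨fun h => h.1, fun h => ⟨h, g.2⟩⟩
  rw [← hB, ← hN]
  obtain ⟨n, n1, n2, -⟩ := exists_swap (K := K) (e := e) (t := 1) (u := 0) (v := 0) (by simp)
  have hnN : n ∈ N := (mN n).2 (Or.inr ⟨n1, n2⟩)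
  have hnB : n ∉ B := by rw [mB, n1]; exact hno
  have ni1 : n⁻¹ • (o0 : Pt K) = none := by rw [inv_smul_eq_iff, n1]
  have ni2 : n⁻¹ • (none : Pt K) = o0 := by rw [inv_smul_eq_iff, n2]
  -- the double coset decomposition
  have big : ∀ n' : G1 K e, n' • (none : Pt K) = o0 → ∀ g : G1 K e, g ∉ B → g ∈ DoubleCoset.doubleCoset n' (B : Set (G1 K e)) B := by
    intro n' hn' g hg
    rw [mB] at hg
    rcases hp : g • (none : Pt K) with _ | ⟨t, u, v⟩
    · exact absurd hp hg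
    · rw [DoubleCoset.mem_doubleCoset]
      refine ⟨uG t u v, (mB _).2 (uG_none t u v).1, n'⁻¹ * (uG t u v)⁻¹ * g, ?_, by group⟩
      refine (mB _).2 ?_
      rw [mul_smul, mul_smul, hp, inv_smul_eq_iff, inv_smul_eq_iff, hn', (uG_o0 t u v).1]
  have self : ∀ (n' b : G1 K e), b ∈ B → n' * b ∈ DoubleCoset.doubleCoset n' (B : Set (G1 K e)) B := by
    intro n' b hb
    rw [DoubleCoset.mem_doubleCoset]
    exact ⟨1, one_mem _, b, hb, by group⟩
  have inB : ∀ (n' g : G1 K e), n' ∈ B → g ∈ B → g ∈ DoubleCoset.doubleCoset n' (B : Set (G1 K e)) B := by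
    intro n' g h1 h2
    rw [DoubleCoset.mem_doubleCoset]
    exact ⟨g * n'⁻¹, mul_mem h2 (inv_mem h1), 1, one_mem _, by group⟩
  refine ⟨{ B := B, N := N, S := {n}, sup_eq_top := ?_, conj_mem := ?_, subset := ?_, sq_mem := ?_, inj := ?_,
            closure_sup := ?_, mul_mem_union := ?_, conj_ne := ?_ }, rfl, rfl⟩
  · rw [eq_top_iff]
    intro g _
    by_cases hg : g ∈ B
    · exact Subgroup.mem_sup_left hg
    · have := big n n1 g hg
      rw [DoubleCoset.mem_doubleCoset] at this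
      obtain ⟨x, hx, y, hy, rfl⟩ := this
      exact mul_mem (mul_mem (Subgroup.mem_sup_left hx) (Subgroup.mem_sup_right hnN)) (Subgroup.mem_sup_left hy)
  · intro x hx t ht
    rw [mB]
    have h1 := (mB t).1 ht.1
    have h2 : t • (o0 : Pt K) = o0 := by
      rcases (mN t).1 ht.2 with ⟨-, h⟩ | ⟨h, -⟩
      · exact h
      · rw [h1] at h; exact absurd h.symm hno
    rcases (mN x).1 hx with ⟨a, b⟩ | ⟨a, b⟩
    · have : x⁻¹ • (none : Pt K) = none := by rw [inv_smul_eq_iff, a]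
      rw [mul_smul, mul_smul, this, h1, a]
    · have : x⁻¹ • (none : Pt K) = o0 := by rw [inv_smul_eq_iff, b]
      rw [mul_smul, mul_smul, this, h2, b]
  · intro x hx
    rw [Set.mem_singleton_iff] at hx
    rw [hx]; exact hnN
  · intro x hx
    rw [Set.mem_singleton_iff] at hx
    rw [hx, mB, mul_smul, n1, n2]
  · intro x hx y hy _
    rw [Set.mem_singleton_iff] at hx hy
    rw [hx, hy]
  · apply le_antisymm
    · rw [sup_le_iff, Subgroup.closure_le]
      refine ⟨?_, inf_le_right⟩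
      intro x hx
      rw [Set.mem_singleton_iff] at hx
      rw [hx]; exact hnN
    · intro x hx
      rcases (mN x).1 hx with ⟨a, b⟩ | ⟨a, b⟩
      · exact Subgroup.mem_sup_right ⟨(mB x).2 a, hx⟩
      · have h1 : n⁻¹ * x ∈ B ⊓ N := by
          refine Subgroup.mem_inf.2 ⟨(mB _).2 ?_, mul_mem (inv_mem hnN) hx⟩
          rw [mul_smul, a, ni1]
        have : x = n * (n⁻¹ * x) := by group
        rw [this]
        exact mul_mem (Subgroup.mem_sup_left (Subgroup.subset_closure rfl)) (Subgroup.mem_sup_right h1)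
  · intro s hs x hx b hb
    rw [Set.mem_singleton_iff] at hs
    subst hs
    rcases (mN x).1 hx with ⟨a1, a2⟩ | ⟨a1, a2⟩
    · left
      have hxB := (mB x).2 a1
      have : s * b * x = (s * x) * (x⁻¹ * b * x) := by group
      rw [this]
      exact self _ _ (mul_mem (mul_mem (inv_mem hxB) hb) hxB)
    · by_cases h : s * b * x ∈ B
      · left
        refine inB _ _ ?_ h
        rw [mB, mul_smul, a1, n2]
      · right
        exact big x a1 _ h
  · intro s hs h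
    rw [Set.mem_singleton_iff] at hs
    subst hs
    have h1 : s * uG 1 0 0 * s ∈ (fun b : G1 K e => s * b * s) '' (B : Set (G1 K e)) :=
      ⟨uG 1 0 0, (mB _).2 (uG_none 1 0 0).1, rfl⟩
    rw [h] at h1
    have h2 := (mB _).1 h1
    rw [mul_smul, mul_smul, n1, (uG_o0 1 0 0).1, ← n2] at h2
    have := MulAction.injective s h2
    simp at this

/-- ²G₂(3^(2m+1)) has a (B,N)-pair: B¹ = G¹ ∩ B and N¹ = G¹ ∩ N, intersections with the ambient Chevalley group's B = UH and N. -/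
theorem result {K : Type*} [Field K] [Fintype K] {m : ℕ} (hK : Fintype.card K = 3 ^ (2 * m + 1)) :
    ∃ P : Cfsg.BNPair ↥(Cfsg.Lie.twistedG2 K (3 ^ m)),
      P.B = (Cfsg.Lie.chevG2.borelSubgroup K ⊓ Cfsg.Lie.twistedG2 K (3 ^ m)).subgroupOf (Cfsg.Lie.twistedG2 K (3 ^ m)) ∧
      P.N = (Cfsg.Lie.chevG2.monomialSubgroup K ⊓ Cfsg.Lie.twistedG2 K (3 ^ m)).subgroupOf (Cfsg.Lie.twistedG2 K (3 ^ m)) := by
  haveI := H24.ReeGrp.rf_of_card hK
  exact bn_aux

end Cfsg.Agent.S1091
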