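import Cfsg.Statements.S1115
import Cfsg.Agent.Lib.H24.ReeSub

set_option autoImplicit false
open Cfsg

namespace Cfsg.Agent.S1115

/-- `N¹/H¹ ≅ W¹`: a surjective homomorphism from `N¹ = G¹ ∩ N` onto the group of order 2 with kernel `H¹`. -/
theorem result {K : Type*} [Field K] [Fintype K] {m : ℕ} (hK : Fintype.card K = 3 ^ (2 * m + 1)) :
    ∃ φ : ↥(Cfsg.Lie.chevG2.monomialSubgroup K ⊓ Cfsg.Lie.twistedG2 K (3 ^ m)) →* Multiplicative (ZMod 2), Function.Surjective φ ∧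
      φ.ker = (Cfsg.Lie.chevG2.diagonalSubgroup K ⊓ Cfsg.Lie.twistedG2 K (3 ^ m)).subgroupOf (Cfsg.Lie.chevG2.monomialSubgroup K ⊓ Cfsg.Lie.twistedG2 K (3 ^ m)) := by
  haveI := H24.ReeGrp.rf_of_card hK
  classical
  have hN : ∀ g : ↥(Cfsg.Lie.chevG2.monomialSubgroup K ⊓ Cfsg.Lie.twistedG2 K (3 ^ m)),
      ((⟨g.1, g.2.2⟩ : H24.ReeStr.G1 K (3 ^ m)) • (none : H24.ReeAct.Pt K) = none ∧
        (⟨g.1, g.2.2⟩ : H24.ReeStr.G1 K (3 ^ m)) • (H24.ReeStr.o0 : H24.ReeAct.Pt K) = H24.ReeStr.o0) ∨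
      ((⟨g.1, g.2.2⟩ : H24.ReeStr.G1 K (3 ^ m)) • (none : H24.ReeAct.Pt K) = H24.ReeStr.o0 ∧
        (⟨g.1, g.2.2⟩ : H24.ReeStr.G1 K (3 ^ m)) • (H24.ReeStr.o0 : H24.ReeAct.Pt K) = none) :=
    fun g => (H24.ReeInt.mem_N_iff (g := (⟨g.1, g.2.2⟩ : H24.ReeStr.G1 K (3 ^ m)))).1 g.2.1
  have hmul : ∀ a b : ↥(Cfsg.Lie.chevG2.monomialSubgroup K ⊓ Cfsg.Lie.twistedG2 K (3 ^ m)),
      (⟨(a * b).1, (a * b).2.2⟩ : H24.ReeStr.G1 K (3 ^ m)) = ⟨a.1, a.2.2⟩ * ⟨b.1, b.2.2⟩ := fun a b => rfl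
  have hno : (H24.ReeStr.o0 : H24.ReeAct.Pt K) ≠ none := by simp
  let φ : ↥(Cfsg.Lie.chevG2.monomialSubgroup K ⊓ Cfsg.Lie.twistedG2 K (3 ^ m)) →* Multiplicative (ZMod 2) :=
    { toFun := fun g => if (⟨g.1, g.2.2⟩ : H24.ReeStr.G1 K (3 ^ m)) • (none : H24.ReeAct.Pt K) = none then 1
        else Multiplicative.ofAdd 1
      map_one' := by
        rw [if_pos]
        exact one_smul _ _
      map_mul' := by
        intro a b
        rw [hmul, mul_smul]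
        rcases hN a with ⟨a1, a2⟩ | ⟨a1, a2⟩ <;> rcases hN b with ⟨b1, b2⟩ | ⟨b1, b2⟩
        · rw [b1, if_pos a1, if_pos rfl, one_mul]
        · rw [b1, a2, if_neg hno, if_pos a1, one_mul]
        · rw [b1, a1, if_neg hno, if_pos rfl, mul_one]
        · rw [b1, a2, if_pos rfl, a1, if_neg hno]
          decide }
  have hφ : ∀ g, φ g = if (⟨g.1, g.2.2⟩ : H24.ReeStr.G1 K (3 ^ m)) • (none : H24.ReeAct.Pt K) = none then 1
        else Multiplicative.ofAdd 1 := fun g => rfl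
  have hne1 : (Multiplicative.ofAdd (1 : ZMod 2)) ≠ 1 := by decide
  obtain ⟨n, n1, n2, -⟩ := H24.ReeStr.exists_swap (K := K) (e := 3 ^ m) (t := 1) (u := 0) (v := 0) (by simp)
  have hn : (n : GL Cfsg.Lie.chevG2.Idx K) ∈ Cfsg.Lie.chevG2.monomialSubgroup K :=
    H24.ReeInt.mem_N_iff.2 (Or.inr ⟨n1, n2⟩)
  refine ⟨φ, ?_, ?_⟩
  · intro x
    have hx : x = 1 ∨ x = Multiplicative.ofAdd 1 := by
      revert x; decide
    rcases hx with rfl | rfl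
    · exact ⟨1, map_one φ⟩
    · refine ⟨⟨n.1, hn, n.2⟩, ?_⟩
      rw [hφ, if_neg]
      change ¬ (n • (none : H24.ReeAct.Pt K) = none)
      rw [n1]; exact hno
  · ext g
    rw [MonoidHom.mem_ker, hφ, Subgroup.mem_subgroupOf]
    constructor
    · intro h
      have h1 : (⟨g.1, g.2.2⟩ : H24.ReeStr.G1 K (3 ^ m)) • (none : H24.ReeAct.Pt K) = none := by
        by_contra hcon
        rw [if_neg hcon] at h
        exact hne1 h
      rcases hN g with ⟨a1, a2⟩ | ⟨a1, a2⟩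
      · exact ⟨(H24.ReeInt.mem_H_iff (g := (⟨g.1, g.2.2⟩ : H24.ReeStr.G1 K (3 ^ m)))).2 ⟨a1, a2⟩, g.2.2⟩
      · rw [a1] at h1
        exact absurd h1 hno
    · intro h
      rw [if_pos]
      exact ((H24.ReeInt.mem_H_iff (g := (⟨g.1, g.2.2⟩ : H24.ReeStr.G1 K (3 ^ m)))).1 h.1).1

end Cfsg.Agent.S1115
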