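import Cfsg.Statements.S1117
import Cfsg.Agent.Lib.H24.ReeSub

set_option autoImplicit false
open Cfsg

namespace Cfsg.Agent.S1117

/-- The normal core of `B¹ = G¹ ∩ B` in ²G₂(3^(2m+1)) is trivial. -/
theorem result {K : Type*} [Field K] [Fintype K] {m : ℕ} (hK : Fintype.card K = 3 ^ (2 * m + 1)) :
    ((Cfsg.Lie.chevG2.borelSubgroup K ⊓ Cfsg.Lie.twistedG2 K (3 ^ m)).subgroupOf (Cfsg.Lie.twistedG2 K (3 ^ m))).normalCore = ⊥ := by
  haveI := H24.ReeGrp.rf_of_card hK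
  rw [eq_bot_iff]
  intro g hg
  rw [Subgroup.mem_bot]
  apply H24.ReeSub.faithful (K := K) (e := 3 ^ m)
  intro p
  obtain ⟨x, hx⟩ := H24.ReeStr.trans_pt (K := K) (e := 3 ^ m) none p
  have h1 := hg x⁻¹
  rw [inv_inv, Subgroup.mem_subgroupOf] at h1
  have h2 := (H24.ReeInt.mem_B_iff (K := K) (e := 3 ^ m)).1 h1.1
  rw [mul_smul, mul_smul, hx, inv_smul_eq_iff, hx] at h2
  exact h2

end Cfsg.Agent.S1117
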