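import Cfsg.Statements.S1133
import Cfsg.Agent.Lib.H16.RankOne4
import Cfsg.Agent.S0205

set_option autoImplicit false
open Cfsg

namespace Cfsg.Agent.S1133

/-- In the rank-one set-up (`G` finite and doubly transitive on `Ω`, `t` an involution moving `a`, `Q` normal in `G_a` with `G_a = Q D`, `Q ⊓ D = 1` for the two-point stabiliser `D = G_a ⊓ G_{t • a}`, `|Q|` even, `|D|` odd), with the action faithful and `G` containing two distinct commuting involutions, with `V = C_D(t)`, `K` the elements of `D` inverted by `t` and `W = C_V(K)`: `V/W` is cyclic, i.e. `V = W ⟨v⟩` for some `v ∈ V`. -/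
theorem result {G Ω : Type*} [Group G] [Finite G] [MulAction G Ω] [FaithfulSMul G Ω] {a : Ω} {t : G} {Q : Subgroup G}
    (hS : Cfsg.IsRankOneSetup G Ω a t Q)
    (h2 : ∃ x y : G, x ≠ 1 ∧ y ≠ 1 ∧ x ≠ y ∧ x * x = 1 ∧ y * y = 1 ∧ x * y = y * x) :
    ∃ v ∈ (MulAction.stabilizer G a ⊓ MulAction.stabilizer G (t • a)) ⊓ Subgroup.centralizer {t},
      ((MulAction.stabilizer G a ⊓ MulAction.stabilizer G (t • a)) ⊓ Subgroup.centralizer {t} ⊓ Subgroup.centralizer (Cfsg.invertedBy (MulAction.stabilizer G a ⊓ MulAction.stabilizer G (t • a)) t)) ⊔ Subgroup.closure {v} =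
        (MulAction.stabilizer G a ⊓ MulAction.stabilizer G (t • a)) ⊓ Subgroup.centralizer {t} := by
  have hsol : Group.IsSolvable ↥(MulAction.stabilizer G a ⊓ MulAction.stabilizer G (t • a)) :=
    Cfsg.Agent.S0205.result hS.odd_card
  obtain ⟨-, v, hv, hV⟩ := H16.RankOne3.key hS h2 hsol
  refine ⟨v, hv, le_antisymm (sup_le inf_le_left ((Subgroup.closure_le _).mpr (by
    rintro _ rfl
    exact hv))) ?_⟩
  intro v' hv'
  obtain ⟨i, hi⟩ := hV v' hv'
  have hW := H6.RankOneC.centralizer_K hS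
  rw [← hW] at hi
  have h1 : v' = v ^ i * (v'⁻¹ * v ^ i)⁻¹ := by group
  rw [h1]
  refine Subgroup.mul_mem _ ?_ ?_
  · exact Subgroup.mem_sup_right ((Subgroup.closure {v}).zpow_mem (Subgroup.subset_closure rfl) i)
  · exact Subgroup.mem_sup_left (Subgroup.inv_mem _ hi)

end Cfsg.Agent.S1133
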