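import Cfsg.Statements.S1151
import Cfsg.Agent.Lib.H24.ReeSub

set_option autoImplicit false
open Cfsg

namespace Cfsg.Agent.S1151

/-- In the small Ree group ²G₂(q), q = 3^(2m+1), realised as G¹ inside the Chevalley group G₂ over the field with q elements (θ the 3^m-th power map), with H¹ = G¹ ∩ H and U¹ = G¹ ∩ U the intersections with the ambient diagonal and positive unipotent subgroups: `H¹` has exactly `(q - 1)/2` elements of odd order, and each non-identity one centralises no non-identity element of `U¹`. -/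
theorem result {K : Type*} [Field K] [Fintype K] {m : ℕ} (hK : Fintype.card K = 3 ^ (2 * m + 1)) :
    2 * Nat.card {h : ↥(Cfsg.Lie.chevG2.diagonalSubgroup K ⊓ Cfsg.Lie.twistedG2 K (3 ^ m)) // Odd (orderOf h)} = 3 ^ (2 * m + 1) - 1 ∧
      ∀ h ∈ (Cfsg.Lie.chevG2.diagonalSubgroup K ⊓ Cfsg.Lie.twistedG2 K (3 ^ m)), h ≠ 1 → Odd (orderOf h) →
        (Cfsg.Lie.chevG2.posUnipotent K ⊓ Cfsg.Lie.twistedG2 K (3 ^ m)) ⊓ Subgroup.centralizer {h} = ⊥ := by
  haveI := H24.ReeGrp.rf_of_card hK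
  have h2 : Nat.card K = 3 ^ (2 * m + 1) := by rw [Nat.card_eq_fintype_card, hK]
  refine ⟨?_, ?_⟩
  · rw [← h2, ← H24.ReeSub.card_squares (K := K) (e := 3 ^ m)]
    congr 1
    apply Nat.card_congr
    refine (Equiv.subtypeEquiv (H24.ReeSub.torusEquiv (K := K) (e := 3 ^ m)).toEquiv ?_).symm
    intro l
    rw [← H24.ReeSub.odd_iff (K := K) (e := 3 ^ m)]
    change Odd (orderOf l) ↔ Odd (orderOf (H24.ReeSub.torusEquiv (K := K) (e := 3 ^ m) l))
    rw [MulEquiv.orderOf_eq]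
  · rintro h ⟨hH, hG⟩ hne hodd
    rw [eq_bot_iff]
    rintro g ⟨⟨hgU, hgG⟩, hc⟩
    rw [Subgroup.mem_bot]
    obtain ⟨a, b⟩ := (H24.ReeInt.mem_H_iff (g := (⟨h, hG⟩ : H24.ReeStr.G1 K (3 ^ m)))).1 hH
    obtain ⟨l, hl, -⟩ := H24.ReeStr.exists_hT a b
    obtain ⟨t, u, v, huv⟩ := (H24.ReeInt.mem_U_iff (g := (⟨g, hgG⟩ : H24.ReeStr.G1 K (3 ^ m)))).1 hgU
    have hcomm : (⟨h, hG⟩ : H24.ReeStr.G1 K (3 ^ m)) * ⟨g, hgG⟩ = ⟨g, hgG⟩ * ⟨h, hG⟩ := by
      have hc' : g ∈ Subgroup.centralizer {h} := hc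
      rw [Subgroup.mem_centralizer_singleton_iff] at hc'
      exact Subtype.ext (by simpa using hc'.symm)
    rw [hl, huv] at hcomm
    have hfix : (H24.ReeStr.hT l : H24.ReeStr.G1 K (3 ^ m)) • (some (t, u, v) : H24.ReeAct.Pt K) = some (t, u, v) := by
      rw [← (H24.ReeStr.uG_o0 (e := 3 ^ m) t u v).1, ← mul_smul, hcomm, mul_smul, (H24.ReeStr.hT_fix l).2.1]
    obtain ⟨x1, x2, x3⟩ := H24.ReeUni.hT_fix_some hfix
    have h1' : (H24.ReeStr.hT (1 : Kˣ) : H24.ReeStr.G1 K (3 ^ m)) = 1 := map_one (H24.ReeStr.hTH (K := K) (e := 3 ^ m))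
    have hl1 : l ≠ 1 := by
      rintro rfl
      rw [h1'] at hl
      exact hne (congrArg Subtype.val hl)
    have hl2 : l ≠ -1 := by
      rintro rfl
      have h3 : h * h = 1 := by
        have h4 : (⟨h, hG⟩ : H24.ReeStr.G1 K (3 ^ m)) * ⟨h, hG⟩ = 1 := by
          rw [hl, ← H24.ReeStr.hT_mul]
          simp [h1']
        exact congrArg Subtype.val h4
      have h5 : orderOf h ∣ 2 := orderOf_dvd_of_pow_eq_one (by rw [pow_two, h3])
      rcases (Nat.dvd_prime Nat.prime_two).1 h5 with h6 | h6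
      · exact hne (orderOf_eq_one_iff.1 h6)
      · rw [h6] at hodd
        exact absurd hodd (by decide)
    have ht := x1.resolve_right hl1
    have hv := x3.resolve_right hl1
    have hu : u = 0 := by
      rcases x2 with h | h | h
      · exact h
      · exact absurd h hl1
      · exact absurd h hl2
    rw [ht, hu, hv, H24.ReeStr.uG_zero] at huv
    exact congrArg Subtype.val huv

end Cfsg.Agent.S1151
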