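import Cfsg.Statements.S1152
import Cfsg.Agent.Lib.H24.ReeSyl2

set_option autoImplicit false
open Cfsg

namespace Cfsg.Agent.S1152

/-- In the small Ree group ²G₂(q), q = 3^(2m+1), realised as G¹ inside the Chevalley group G₂ over the field with q elements (θ the 3^m-th power map), with H¹ = G¹ ∩ H and U¹ = G¹ ∩ U the intersections with the ambient diagonal and positive unipotent subgroups: for an involution `a ∈ H¹`, the centraliser of `a` in `G¹` is isomorphic to `Z₂ × PSL₂(q)`; and the Sylow 2-subgroups of `G¹` are elementary abelian of order 8. -/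
theorem result {K : Type*} [Field K] [Fintype K] {m : ℕ} (hK : Fintype.card K = 3 ^ (2 * m + 1))
    (a : ↥(Cfsg.Lie.twistedG2 K (3 ^ m))) (haH : (a : GL Cfsg.Lie.chevG2.Idx K) ∈ Cfsg.Lie.chevG2.diagonalSubgroup K) (ha1 : a ≠ 1) (ha2 : a * a = 1) :
    Nonempty (↥(Subgroup.centralizer {a}) ≃* Multiplicative (ZMod 2) × Matrix.ProjectiveSpecialLinearGroup (Fin 2) K) ∧
      ∀ S : Sylow 2 ↥(Cfsg.Lie.twistedG2 K (3 ^ m)), Nat.card S = 8 ∧ ∀ x ∈ S, x * x = 1 := by
  haveI := H24.ReeGrp.rf_of_card hK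
  have h2 : Nat.card K = 3 ^ (2 * m + 1) := by rw [Nat.card_eq_fintype_card, hK]
  obtain ⟨a1, a2⟩ := (H24.ReeInt.mem_H_iff (g := (a : H24.ReeStr.G1 K (3 ^ m)))).1 haH
  obtain ⟨l, hl, -⟩ := H24.ReeStr.exists_hT a1 a2
  have hone : (H24.ReeStr.hT (1 : Kˣ) : H24.ReeStr.G1 K (3 ^ m)) = 1 := map_one (H24.ReeStr.hTH (K := K) (e := 3 ^ m))
  have hll : l * l = 1 := by
    rw [hl, ← H24.ReeStr.hT_mul, ← hone] at ha2
    exact H24.ReeStr.hT_inj ha2
  have hl1 : l = -1 := by
    have h3 : (l : K) * l = 1 := by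
      have := congrArg Units.val hll
      simpa using this
    rcases mul_self_eq_one_iff.1 h3 with h | h
    · exfalso
      apply ha1
      rw [hl, Units.ext (h.trans Units.val_one.symm), hone]
    · exact Units.ext (by rw [h]; simp)
  have haa : a = (H24.ReeCen.inv : H24.ReeStr.G1 K (3 ^ m)) := by rw [hl, hl1]; rfl
  refine ⟨?_, fun S => H24.ReeSyl2.sylow2 (K := K) (e := 3 ^ m) h2 S⟩
  rw [haa]
  exact ⟨(H24.ReeCen.centEquiv (K := K) (e := 3 ^ m)).symm⟩

end Cfsg.Agent.S1152
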