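import Cfsg.Statements.S1165
import Mathlib
import Cfsg.Agent.Lib.H24.RankOne

set_option autoImplicit false
open Cfsg

namespace Cfsg.Agent.S1165

/-- In the rank-one set-up (`G` finite and doubly transitive on `Ω`, `t` an involution moving `a`, `Q` normal in `G_a` with `G_a = Q D`, `Q ⊓ D = 1` for the two-point stabiliser `D = G_a ⊓ G_{t • a}`, `|Q|` even, `|D|` odd): every `x ∈ Q`, `x ≠ 1`, determines unique `g, f ∈ Q`, `h ∈ D` with `t x t = g h t f` (a consequence of the canonical form). For these: (H1) the `f`-part of `x⁻¹` is `g⁻¹`; (H2) the `f`-part of `f` is `x`; (H3) for `a ∈ D` the `f`-part of `a⁻¹ x a` is `(t a t)⁻¹ f (t a t)`; (H4) the `h`-part of `a⁻¹ x a` is `(t a t)⁻¹ h a`, that of `x⁻¹` is `t h⁻¹ t`, and that of `f` is `h⁻¹`. -/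
theorem result {G Ω : Type*} [Group G] [Finite G] [MulAction G Ω] {a : Ω} {t : G} {Q : Subgroup G}
    (hS : Cfsg.IsRankOneSetup G Ω a t Q)
    (x g h f : G) (hx : x ∈ Q) (hx1 : x ≠ 1) (hg : g ∈ Q) (hh : h ∈ (MulAction.stabilizer G a ⊓ MulAction.stabilizer G (t • a))) (hf : f ∈ Q)
    (heq : t * x * t = g * h * t * f) :
    (∀ g₁ h₁ f₁ : G, g₁ ∈ Q → h₁ ∈ (MulAction.stabilizer G a ⊓ MulAction.stabilizer G (t • a)) → f₁ ∈ Q → t * x⁻¹ * t = g₁ * h₁ * t * f₁ →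
        f₁ = g⁻¹ ∧ h₁ = t * h⁻¹ * t) ∧
      (∀ g₂ h₂ f₂ : G, g₂ ∈ Q → h₂ ∈ (MulAction.stabilizer G a ⊓ MulAction.stabilizer G (t • a)) → f₂ ∈ Q → t * f * t = g₂ * h₂ * t * f₂ →
        f₂ = x ∧ h₂ = h⁻¹) ∧
      ∀ c ∈ (MulAction.stabilizer G a ⊓ MulAction.stabilizer G (t • a)), ∀ g₃ h₃ f₃ : G, g₃ ∈ Q → h₃ ∈ (MulAction.stabilizer G a ⊓ MulAction.stabilizer G (t • a)) → f₃ ∈ Q →
        t * (c⁻¹ * x * c) * t = g₃ * h₃ * t * f₃ →
          f₃ = (t * c * t)⁻¹ * f * (t * c * t) ∧ h₃ = (t * c * t)⁻¹ * h * c := by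
  have htt := hS.mul_self
  have hti := H24.RankOne.t_inv hS
  refine ⟨?_, ?_, ?_⟩
  · intro g₁ h₁ f₁ hg₁ hh₁ hf₁ he₁
    have e : f⁻¹ * (t * h⁻¹ * t) * t * g⁻¹ = g₁ * h₁ * t * f₁ := by
      rw [← he₁]
      have h1 : t * x⁻¹ * t = (t * x * t)⁻¹ := by
        rw [mul_inv_rev, mul_inv_rev, hti]; group
      rw [h1, heq]
      calc f⁻¹ * (t * h⁻¹ * t) * t * g⁻¹ = f⁻¹ * t * h⁻¹ * (t * t) * g⁻¹ := by group
        _ = f⁻¹ * t⁻¹ * h⁻¹ * g⁻¹ := by rw [htt, hti]; group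
        _ = (g * h * t * f)⁻¹ := by group
    have := H24.RankOne.canonical_unique hS (Q.inv_mem hf) (H24.RankOne.conj_mem_D hS (inv_mem hh)) (Q.inv_mem hg)
      hg₁ hh₁ hf₁ e
    exact ⟨this.2.2.symm, this.2.1.symm⟩
  · intro g₂ h₂ f₂ hg₂ hh₂ hf₂ he₂
    have e : (h⁻¹ * g⁻¹ * h) * h⁻¹ * t * x = g₂ * h₂ * t * f₂ := by
      rw [← he₂]
      have h1 : t * f = h⁻¹ * g⁻¹ * (t * x * t) := by rw [heq]; group
      calc (h⁻¹ * g⁻¹ * h) * h⁻¹ * t * x = h⁻¹ * g⁻¹ * (t * x * (t * t)) := by rw [htt]; group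
        _ = h⁻¹ * g⁻¹ * (t * x * t) * t := by group
        _ = t * f * t := by rw [← h1]
    have := H24.RankOne.canonical_unique hS (H24.RankOne.conj_Q_mem hS hh.1 (Q.inv_mem hg)) (inv_mem hh) hx
      hg₂ hh₂ hf₂ e
    exact ⟨this.2.2.symm, this.2.1.symm⟩
  · intro c hc g₃ h₃ f₃ hg₃ hh₃ hf₃ he₃
    have htc := H24.RankOne.conj_mem_D hS hc
    have e : ((t * c * t)⁻¹ * g * (t * c * t)) * ((t * c * t)⁻¹ * h * c) * t * ((t * c * t)⁻¹ * f * (t * c * t))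
        = g₃ * h₃ * t * f₃ := by
      rw [← he₃]
      have e1 : c * t * (t * c * t)⁻¹ = t := by
        rw [mul_inv_rev, mul_inv_rev, hti]
        calc c * t * (t * (c⁻¹ * t)) = c * (t * t) * c⁻¹ * t := by group
          _ = t := by rw [htt]; group
      have e2 : t * c⁻¹ * t = (t * c * t)⁻¹ := by
        rw [mul_inv_rev, mul_inv_rev, hti]; group
      calc ((t * c * t)⁻¹ * g * (t * c * t)) * ((t * c * t)⁻¹ * h * c) * t * ((t * c * t)⁻¹ * f * (t * c * t))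
          = (t * c * t)⁻¹ * g * h * (c * t * (t * c * t)⁻¹) * f * (t * c * t) := by group
        _ = (t * c * t)⁻¹ * (g * h * t * f) * (t * c * t) := by rw [e1]; group
        _ = (t * c⁻¹ * t) * (t * x * t) * (t * c * t) := by rw [e2, heq]
        _ = t * c⁻¹ * (t * t) * x * (t * t) * c * t := by group
        _ = t * (c⁻¹ * x * c) * t := by rw [htt]; group
    have := H24.RankOne.canonical_unique hS (H24.RankOne.conj_Q_mem hS htc.1 hg)
      (mul_mem (mul_mem (inv_mem htc) hh) hc) (H24.RankOne.conj_Q_mem hS htc.1 hf)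
      hg₃ hh₃ hf₃ e
    exact ⟨this.2.2.symm, this.2.1.symm⟩

end Cfsg.Agent.S1165
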