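import Cfsg.Statements.S1167
import Cfsg.Agent.Lib.H8.SuzTypeA
import Cfsg.Agent.Lib.H8.ZassOdd

set_option autoImplicit false
open Cfsg

namespace Cfsg.Agent.S1167

/-- Let `G` be a finite simple Zassenhaus group on `Ω`, `U` a normal subgroup of `G_a` regular on `Ω` minus `a` which is an abelian 2-group, and `v` an involution with `v • a ≠ a`. Then there is a unique `u₀ ∈ U`, `u₀ ≠ 1`, with `v u₀ v = u₀ v u₀`. -/
theorem result {G Ω : Type*} [Group G] [Finite G] [MulAction G Ω] [Finite Ω]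
    (hZ : Cfsg.IsZassenhausGroup G Ω) [IsSimpleGroup G] {a : Ω}
    (U : Subgroup G) (hUle : U ≤ MulAction.stabilizer G a)
    (hUn : ∀ h ∈ MulAction.stabilizer G a, ∀ u ∈ U, h * u * h⁻¹ ∈ U)
    (hreg : ∀ c d : Ω, c ≠ a → d ≠ a → ∃! u : U, (u : G) • c = d)
    (hU2 : IsPGroup 2 U) (hUab : ∀ u ∈ U, ∀ u' ∈ U, u * u' = u' * u)
    (v : G) (hv1 : v ≠ 1) (hv2 : v * v = 1) (hva : v • a ≠ a) :
    ∃! u₀ : G, u₀ ∈ U ∧ u₀ ≠ 1 ∧ v * u₀ * v = u₀ * v * u₀ := by
  classical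
  letI : Fintype Ω := Fintype.ofFinite Ω
  letI : Fintype G := Fintype.ofFinite G
  letI : Fintype (Subgroup.normalizer (U : Set G)) := Fintype.ofFinite _
  obtain ⟨b, hb⟩ : ∃ b, v • a = b := ⟨_, rfl⟩
  have hab : a ≠ b := by rw [← hb]; exact hva.symm
  have hvb : v • b = a := by rw [← hb, ← mul_smul, hv2, one_smul]
  have hK := H8.SuzMain.isKer_of_regular hZ hab hUle hreg
  obtain ⟨hodd, hev⟩ := H8.SuzMain.odd_of_two hZ hab hK hU2
  have hcomm : IsMulCommutative U := ⟨⟨fun u w => Subtype.ext (hUab u u.2 w w.2)⟩⟩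
  have hle : Nat.card U ≤ 2 * Nat.card (H8.Zass.E2 G a b) + 1 := by
    rcases H8.ZassFeit.gen_case _ rfl hZ hab hK hodd with h | ⟨-, h, -⟩
    · exact h
    · exact absurd hcomm h
  have hZZ := H8.SuzGrp.card_ZZ hZ hab hK hodd hev
  have hZle := H8.SuzGrp.ZZ_le hZ hab hK hodd hev
  have hdvd := Subgroup.card_dvd_of_le hZle
  have heq : H8.SuzGrp.ZZ hZ hab hK hodd hev = U := by
    apply Subgroup.eq_of_le_of_card_ge hZle
    obtain ⟨k, hk⟩ := hdvd
    rw [hk]
    have hk2 : k < 2 := by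
      by_contra hge
      have : Nat.card (H8.SuzGrp.ZZ hZ hab hK hodd hev) * 2 ≤ Nat.card (H8.SuzGrp.ZZ hZ hab hK hodd hev) * k :=
        Nat.mul_le_mul_left _ (by omega)
      omega
    calc _ ≤ Nat.card (H8.SuzGrp.ZZ hZ hab hK hodd hev) * 1 := Nat.mul_le_mul_left _ (by omega)
      _ = _ := mul_one _
  have hsq : ∀ u ∈ U, u * u = 1 := by
    intro u hu
    rw [← heq] at hu
    exact hu.2
  have hvo : orderOf v = 2 := orderOf_eq_prime (by rw [pow_two]; exact hv2) hv1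
  have hoddΩ : Odd (Fintype.card Ω) := by rw [← hK.card hZ hab]; exact hev.add_one
  obtain ⟨c, hc, hcu⟩ := H8.Zass.exists_unique_fix hZ hoddΩ hvo
  have hca : c ≠ a := by
    rintro rfl
    exact hva hc
  have hcb : c ≠ b := by
    rintro rfl
    have : v • c = c := hc
    rw [hvb] at this
    exact hab this
  obtain ⟨u₀, hu₀, hu₀b⟩ := hK.exists_smul hZ hab hab.symm hca
  have hu1 : u₀ ≠ 1 := by
    rintro rfl
    rw [one_smul] at hu₀b
    exact hcb hu₀b.symm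
  have hu₀c : u₀ • c = b := by rw [← hu₀b, ← mul_smul, hsq u₀ hu₀, one_smul]
  have hu₀a : u₀ • a = a := hUle hu₀
  refine ⟨u₀, ⟨hu₀, hu1, ?_⟩, ?_⟩
  · have h1 : (u₀ * v * u₀)⁻¹ * (v * u₀ * v) = 1 := by
      apply hZ.2.2.1 _ a b c hab hcb.symm hca.symm
      · rw [mul_smul, inv_smul_eq_iff]
        simp only [mul_smul, hb, hvb, hu₀a, hu₀b, hu₀c, hc]
      · rw [mul_smul, inv_smul_eq_iff]
        simp only [mul_smul, hb, hvb, hu₀a, hu₀b, hu₀c, hc]
      · rw [mul_smul, inv_smul_eq_iff]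
        simp only [mul_smul, hb, hvb, hu₀a, hu₀b, hu₀c, hc]
    exact (inv_mul_eq_one.1 h1).symm
  · rintro w ⟨hw, hw1, hweq⟩
    have hwa : w • a = a := hUle hw
    have h1 : (w * v * w) • b = b := by
      rw [← hweq, mul_smul, mul_smul, hvb, hwa, hb]
    have h2 : v • (w • b) = w • b := by
      rw [mul_smul, mul_smul] at h1
      calc v • (w • b) = (w * w) • (v • (w • b)) := by rw [hsq w hw, one_smul]
        _ = w • (w • (v • (w • b))) := by rw [mul_smul]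
        _ = w • b := by rw [h1]
    have h3 : w • b = c := hcu _ h2
    exact hK.smul_inj hZ hab hw hu₀ hab.symm (h3.trans hu₀b.symm)

end Cfsg.Agent.S1167
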