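import Cfsg.Statements.S1168
import Mathlib
import Cfsg.Agent.Lib.H24.AddFieldMaps

set_option autoImplicit false
open Cfsg

namespace Cfsg.Agent.S1168

/-- For a finite field `F` of characteristic 2: if `q : F → F` is quadratic over the prime field, i.e. `(x, y) ↦ q (x + y) + q x + q y` is additive in each variable, then `q x = Σ c_{σ,τ} σ(x) τ(x)` for some coefficients indexed by pairs of field automorphisms. -/
theorem result {F : Type*} [Field F] [Fintype F] [CharP F 2]
    (q : F → F)
    (hq : ∀ x y z : F, q (x + y + z) + q (x + y) + q (x + z) + q (y + z) + q x + q y + q z = 0) :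
    ∃ (s : Finset ((F ≃+* F) × (F ≃+* F))) (c : (F ≃+* F) × (F ≃+* F) → F),
      ∀ x : F, q x = ∑ p ∈ s, c p * (p.1 x * p.2 x) := by
  classical
  letI : Fintype (F ≃+* F) := Fintype.ofFinite _
  have h2 : ∀ x : F, x + x = 0 := fun x => CharTwo.add_self_eq_zero x
  have hneg : ∀ x : F, -x = x := fun x => CharTwo.neg_eq x
  have hq0 : q 0 = 0 := by
    have := hq 0 0 0
    simp only [add_zero] at this
    have e0 : q 0 = (q 0 + q 0 + q 0 + q 0 + q 0 + q 0 + q 0) - (q 0 + q 0) - (q 0 + q 0) - (q 0 + q 0) := by ring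
    rw [this, h2] at e0
    rw [e0]; ring
  -- the polar form
  have hB : ∀ x y z : F, q (x + y + z) + q (x + y) + q z = (q (x + z) + q x + q z) + (q (y + z) + q y + q z) := by
    intro x y z
    have h := hq x y z
    have e : (q (x + y + z) + q (x + y) + q z) - ((q (x + z) + q x + q z) + (q (y + z) + q y + q z))
        = (q (x + y + z) + q (x + y) + q (x + z) + q (y + z) + q x + q y + q z)
          - (q (x + z) + q (x + z)) - (q (y + z) + q (y + z)) - (q x + q x) - (q y + q y) - (q z + q z) := by ring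
    rw [h, h2, h2, h2, h2, h2] at e
    simpa [sub_eq_zero] using e
  let B : F →+ F →+ F :=
    AddMonoidHom.mk' (fun x => AddMonoidHom.mk' (fun y => q (x + y) + q x + q y) (by
      intro y y'
      have := hB y y' x
      rw [show x + (y + y') = y + y' + x by ring, show x + y = y + x by ring, show x + y' = y' + x by ring]
      calc q (y + y' + x) + q x + q (y + y') = q (y + y' + x) + q (y + y') + q x := by ring
        _ = _ := this
        _ = _ := by ring)) (by
      intro x x'
      ext y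
      simp only [AddMonoidHom.mk'_apply, AddMonoidHom.add_apply]
      exact hB x x' y)
  have hBdef : ∀ x y, B x y = q (x + y) + q x + q y := fun x y => rfl
  obtain ⟨c, hc⟩ := H24.AddFieldMaps.exists_coeff_bi 2 B
  -- symmetry
  have hsymm : ∀ σ τ, c σ τ = c τ σ := by
    intro σ τ
    have := H24.AddFieldMaps.coeff_unique_bi (F := F) (c := fun τ σ => c τ σ - c σ τ) (by
      intro x y
      simp only [sub_mul, Finset.sum_sub_distrib]
      rw [← hc x y, sub_eq_zero, Finset.sum_comm]
      have e1 : B x y = B y x := by rw [hBdef, hBdef, add_comm x y]; ring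
      rw [e1, hc y x]
      apply Finset.sum_congr rfl; intro σ _
      apply Finset.sum_congr rfl; intro τ _
      ring) σ τ
    exact sub_eq_zero.mp this
  obtain ⟨e⟩ : Nonempty ((F ≃+* F) ≃ Fin (Fintype.card (F ≃+* F))) := ⟨Fintype.equivFin _⟩
  -- diagonal coefficients vanish
  have hoff : ∀ (d : (F ≃+* F) → (F ≃+* F) → F), (∀ σ τ, d σ τ = d τ σ) → 
      ∑ τ, ∑ σ, d τ σ = ∑ τ, d τ τ := by
    intro d hd
    have h1 : ∑ τ, ∑ σ, d τ σ = ∑ p : (F ≃+* F) × (F ≃+* F), d p.1 p.2 := by
      rw [← Finset.univ_product_univ, Finset.sum_product]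
    have h3 : ∑ p : (F ≃+* F) × (F ≃+* F), d p.1 p.2
        = ∑ p ∈ Finset.univ.filter (fun p : (F ≃+* F) × (F ≃+* F) => p.1 = p.2), d p.1 p.2
          + ∑ p ∈ Finset.univ.filter (fun p : (F ≃+* F) × (F ≃+* F) => ¬ p.1 = p.2), d p.1 p.2 :=
      (Finset.sum_filter_add_sum_filter_not _ _ _).symm
    have h4 : ∑ p ∈ Finset.univ.filter (fun p : (F ≃+* F) × (F ≃+* F) => ¬ p.1 = p.2), d p.1 p.2 = 0 := by
      apply Finset.sum_involution (fun p _ => (p.2, p.1))
      · intro p _
        show d p.1 p.2 + d p.2 p.1 = 0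
        rw [hd p.2 p.1, h2]
      · intro p hp _ h
        simp only [Finset.mem_filter, Finset.mem_univ, true_and] at hp
        exact hp (congrArg Prod.snd h)
      · intro p hp
        simp only [Finset.mem_filter, Finset.mem_univ, true_and] at hp ⊢
        exact fun h => hp h.symm
      · intro p _; rfl
    rw [h1, h3, h4, add_zero]
    have h5 : Finset.univ.filter (fun p : (F ≃+* F) × (F ≃+* F) => p.1 = p.2) = Finset.univ.image (fun σ : F ≃+* F => (σ, σ)) := by
      ext ⟨a, b⟩
      simp only [Finset.mem_filter, Finset.mem_univ, true_and, Finset.mem_image, Prod.mk.injEq]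
      constructor
      · rintro rfl; exact ⟨a, rfl, rfl⟩
      · rintro ⟨s, rfl, rfl⟩; rfl
    rw [h5, Finset.sum_image]
    intro a _ b _ h
    exact congrArg Prod.fst h
  have hdiag : ∀ τ, c τ τ = 0 := by
    have h1 : ∀ x : F, ∑ τ, c τ τ * (τ x * τ x) = 0 := by
      intro x
      have h3 := hc x x
      have h4 : B x x = 0 := by rw [hBdef, h2 x, hq0, zero_add, h2]
      rw [h4, hoff (fun τ σ => c τ σ * (σ x * τ x)) (by intro σ τ; rw [hsymm σ τ]; ring)] at h3
      exact h3.symm
    -- compose with frobenius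
    let fr : F ≃+* F := frobeniusEquiv F 2
    have hfr : ∀ x : F, fr x = x * x := by intro x; show x ^ 2 = x * x; ring
    intro τ
    have h5 := H24.AddFieldMaps.coeff_unique (F := F) (c := fun τ => c (τ.trans fr.symm) (τ.trans fr.symm)) (by
      intro x
      rw [← h1 x]
      refine Fintype.sum_equiv (Equiv.mulLeft (fr⁻¹ : F ≃+* F)) _ _ ?_
      intro σ
      have e1 : (Equiv.mulLeft (fr⁻¹ : F ≃+* F)) σ = σ.trans fr.symm := by ext y; rfl
      rw [e1]
      have e2 : (σ.trans fr.symm) x * (σ.trans fr.symm) x = σ x := by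
        rw [← hfr]; exact fr.apply_symm_apply (σ x)
      rw [e2]) (τ.trans fr)
    have e3 : (τ.trans fr).trans fr.symm = τ := by ext y; exact fr.symm_apply_apply (τ y)
    rw [e3] at h5
    exact h5
  -- quadratic form with the same polarization
  let q₁ : F → F := fun x => ∑ p ∈ Finset.univ.filter (fun p : (F ≃+* F) × (F ≃+* F) => e p.1 < e p.2), c p.1 p.2 * (p.1 x * p.2 x)
  have hpol : ∀ x y, q₁ (x + y) + q₁ x + q₁ y = B x y := by
    intro x y
    have h1 : ∀ p : (F ≃+* F) × (F ≃+* F), c p.1 p.2 * (p.1 (x + y) * p.2 (x + y)) + c p.1 p.2 * (p.1 x * p.2 x) + c p.1 p.2 * (p.1 y * p.2 y)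
        = c p.1 p.2 * (p.1 x * p.2 y) + c p.2 p.1 * (p.2 x * p.1 y) := by
      intro p
      rw [hsymm p.2 p.1, map_add, map_add]
      have : c p.1 p.2 * ((p.1 x + p.1 y) * (p.2 x + p.2 y)) + c p.1 p.2 * (p.1 x * p.2 x) + c p.1 p.2 * (p.1 y * p.2 y)
        = (c p.1 p.2 * (p.1 x * p.2 x) + c p.1 p.2 * (p.1 x * p.2 x)) + (c p.1 p.2 * (p.1 y * p.2 y) + c p.1 p.2 * (p.1 y * p.2 y)) 
          + (c p.1 p.2 * (p.1 x * p.2 y) + c p.1 p.2 * (p.2 x * p.1 y)) := by ring
      rw [this, h2, h2]; ring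
    have h3 : q₁ (x + y) + q₁ x + q₁ y = ∑ p ∈ Finset.univ.filter (fun p : (F ≃+* F) × (F ≃+* F) => e p.1 < e p.2), (c p.1 p.2 * (p.1 x * p.2 y) + c p.2 p.1 * (p.2 x * p.1 y)) := by
      rw [← Finset.sum_congr rfl (fun p _ => h1 p), Finset.sum_add_distrib, Finset.sum_add_distrib]
    rw [h3, Finset.sum_add_distrib]
    have h4 : ∑ p ∈ Finset.univ.filter (fun p : (F ≃+* F) × (F ≃+* F) => e p.1 < e p.2), c p.2 p.1 * (p.2 x * p.1 y)
        = ∑ p ∈ Finset.univ.filter (fun p : (F ≃+* F) × (F ≃+* F) => e p.2 < e p.1), c p.1 p.2 * (p.1 x * p.2 y) := by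
      refine Finset.sum_nbij' (fun p => (p.2, p.1)) (fun p => (p.2, p.1)) ?_ ?_ ?_ ?_ ?_
      · intro p hp; simpa using hp
      · intro p hp; simpa using hp
      · intro p _; rfl
      · intro p _; rfl
      · intro p _; rfl
    have h5 : ∑ p ∈ Finset.univ.filter (fun p : (F ≃+* F) × (F ≃+* F) => e p.1 = e p.2), c p.1 p.2 * (p.1 x * p.2 y) = 0 := by
      apply Finset.sum_eq_zero
      intro p hp
      simp only [Finset.mem_filter, Finset.mem_univ, true_and] at hp
      have := e.injective hp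
      rw [this, hdiag, zero_mul]
    have h6 : B x y = ∑ p : (F ≃+* F) × (F ≃+* F), c p.1 p.2 * (p.1 x * p.2 y) := by
      rw [hc x y, ← Finset.univ_product_univ, Finset.sum_product_right]
      apply Finset.sum_congr rfl; intro σ _
      apply Finset.sum_congr rfl; intro τ _
      rw [hsymm σ τ]
    have h7 : ∑ p : (F ≃+* F) × (F ≃+* F), c p.1 p.2 * (p.1 x * p.2 y)
        = ∑ p ∈ Finset.univ.filter (fun p : (F ≃+* F) × (F ≃+* F) => e p.1 < e p.2), c p.1 p.2 * (p.1 x * p.2 y)
          + ∑ p ∈ Finset.univ.filter (fun p : (F ≃+* F) × (F ≃+* F) => ¬ e p.1 < e p.2), c p.1 p.2 * (p.1 x * p.2 y) :=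
      (Finset.sum_filter_add_sum_filter_not _ _ _).symm
    have h8 : ∑ p ∈ Finset.univ.filter (fun p : (F ≃+* F) × (F ≃+* F) => ¬ e p.1 < e p.2), c p.1 p.2 * (p.1 x * p.2 y)
        = ∑ p ∈ Finset.univ.filter (fun p : (F ≃+* F) × (F ≃+* F) => e p.2 < e p.1), c p.1 p.2 * (p.1 x * p.2 y) := by
      symm
      apply Finset.sum_subset
      · intro p hp
        simp only [Finset.mem_filter, Finset.mem_univ, true_and] at hp ⊢
        exact not_lt.mpr hp.le
      · intro p hp hp2
        simp only [Finset.mem_filter, Finset.mem_univ, true_and, not_lt] at hp hp2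
        have := e.injective (le_antisymm hp2 hp)
        rw [this, hdiag, zero_mul]
    rw [h4, h6, h7, h8]
  let f : F →+ F := AddMonoidHom.mk' (fun x => q x + q₁ x) (by
    intro x y
    have h1 := hpol x y
    rw [hBdef] at h1
    have h3 : q₁ (x + y) = q (x + y) + q x + q y + q₁ x + q₁ y := by
      rw [← h1]
      have : q₁ (x + y) + q₁ x + q₁ y + q₁ x + q₁ y = q₁ (x + y) + (q₁ x + q₁ x) + (q₁ y + q₁ y) := by ring
      rw [this, h2, h2]; ring
    rw [h3]
    have : q (x + y) + (q (x + y) + q x + q y + q₁ x + q₁ y) = (q (x + y) + q (x + y)) + (q x + q₁ x + (q y + q₁ y)) := by ring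
    rw [this, h2, zero_add])
  obtain ⟨d, hd⟩ := H24.AddFieldMaps.exists_coeff 2 f
  let fr : F ≃+* F := frobeniusEquiv F 2
  have hfr : ∀ x : F, fr x = x * x := by intro x; show x ^ 2 = x * x; ring
  refine ⟨Finset.univ, fun p => (if e p.1 < e p.2 then c p.1 p.2 else 0) + (if p.1 = p.2 then d (p.1.trans fr) else 0), fun x => ?_⟩
  have h9 : q x = q₁ x + f x := by
    show q x = q₁ x + (q x + q₁ x)
    have : q₁ x + (q x + q₁ x) = (q₁ x + q₁ x) + q x := by ring
    rw [this, h2, zero_add]
  rw [h9, hd x]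
  simp only [add_mul, Finset.sum_add_distrib, ite_mul, zero_mul]
  congr 1
  · rw [← Finset.sum_filter]
  · rw [← Finset.univ_product_univ, Finset.sum_product]
    simp only [Finset.sum_ite_eq, Finset.mem_univ, if_true]
    refine (Fintype.sum_equiv (Equiv.mulLeft (fr : F ≃+* F)) _ _ ?_).symm
    intro σ
    have e1 : (Equiv.mulLeft (fr : F ≃+* F)) σ = σ.trans fr := by ext y; rfl
    rw [e1]
    have e2 : (σ.trans fr) x = σ x * σ x := by rw [← hfr]; rfl
    rw [e2]

end Cfsg.Agent.S1168
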