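import Cfsg.Statements.S1176
import Mathlib
import Cfsg.Agent.Lib.H24.Isolated

set_option autoImplicit false
open Cfsg

namespace Cfsg.Agent.S1176

open scoped commutatorElement in
theorem class_two_aux {G : Type*} [Group G] (W : Subgroup G) {x y : G} (hxW : x ∈ W) (hyW : y ∈ W)
    (hW : ⁅⁅W, W⁆, W⁆ = ⊥) : (x * y * x⁻¹ * y⁻¹) * x = x * (x * y * x⁻¹ * y⁻¹) := by
  have hc1 : ⁅x, y⁆ ∈ ⁅W, W⁆ := Subgroup.commutator_mem_commutator hxW hyW
  have hc2 : ⁅⁅x, y⁆, x⁆ ∈ ⁅⁅W, W⁆, W⁆ := Subgroup.commutator_mem_commutator hc1 hxW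
  rw [hW, Subgroup.mem_bot, commutatorElement_eq_one_iff_mul_comm] at hc2
  exact hc2

/-- Let x₀ be an involution of the finite group G and D its conjugacy class. Assume (a) for each x ∈ D the subgroup W(x) generated by the members of D commuting with x is a 2-group of nilpotency class at most 2, and (b) the product of two distinct commuting members of D again lies in D. Then for all x, y ∈ D, if xy has even order greater than 2, its order is 4. -/
theorem result {G : Type*} [Group G] [Finite G] (x₀ : G) (hx₀ : orderOf x₀ = 2) (ha : ∀ x : G, IsConj x₀ x → IsPGroup 2 ↥(Subgroup.closure {y : G | IsConj x₀ y ∧ Commute y x}) ∧ ⁅⁅Subgroup.closure {y : G | IsConj x₀ y ∧ Commute y x}, Subgroup.closure {y : G | IsConj x₀ y ∧ Commute y x}⁆, Subgroup.closure {y : G | IsConj x₀ y ∧ Commute y x}⁆ = ⊥) (hb : ∀ x y : G, IsConj x₀ x → IsConj x₀ y → x ≠ y → Commute x y → IsConj x₀ (x * y)) (x y : G) (hx : IsConj x₀ x) (hy : IsConj x₀ y) (heven : Even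 (orderOf (x * y))) (hgt : 2 < orderOf (x * y)) : orderOf (x * y) = 4 := by
  have hsq : ∀ w : G, IsConj x₀ w → w * w = 1 := by
    intro w hw
    obtain ⟨c, rfl⟩ := isConj_iff.mp hw
    exact H24.Isolated.conj_mul_self (H24.Isolated.mul_self_of_orderOf_two hx₀)
  have hxx := hsq x hx
  have hyy := hsq y hy
  obtain ⟨k, hk⟩ := heven
  have hk1 : 1 < k := by omega
  have hwne : (x * y) ^ (k : ℤ) ≠ 1 := by
    rw [zpow_natCast]
    intro h
    have := Nat.le_of_dvd (by omega) (orderOf_dvd_of_pow_eq_one h)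
    omega
  have hw2 : (x * y) ^ (2 * (k : ℤ)) = 1 := by
    have : (2 * (k : ℤ)) = ((2 * k : ℕ) : ℤ) := by push_cast; ring
    rw [this, zpow_natCast, two_mul, ← hk, pow_orderOf_eq_one]
  have hwinv : (x * y) ^ (-(k : ℤ)) = (x * y) ^ (k : ℤ) := by
    have : -(k : ℤ) = (k : ℤ) - 2 * (k : ℤ) := by ring
    rw [this, zpow_sub, hw2, inv_one, mul_one]
  have hwx : (x * y) ^ (k : ℤ) * x = x * (x * y) ^ (k : ℤ) := by
    have h1 := H24.Isolated.zpow_mul_invol hxx hyy (k : ℤ)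
    rwa [hwinv] at h1
  have hx'D : IsConj x₀ ((x * y) ^ (k : ℤ) * x) := by
    rcases Nat.even_or_odd k with ⟨i, hi⟩ | ⟨i, hi⟩
    · have hc : (x * y) ^ (i : ℤ) * x * ((x * y) ^ (i : ℤ))⁻¹ = (x * y) ^ (k : ℤ) * x := by
        rw [H24.Isolated.zpow_conj_invol hxx hyy]; congr 2; push_cast [hi]; ring
      exact hx.trans (isConj_iff.mpr ⟨_, hc⟩)
    · have hc : (x * y) ^ ((i : ℤ) + 1) * y * ((x * y) ^ ((i : ℤ) + 1))⁻¹ = (x * y) ^ (k : ℤ) * x := by
        rw [H24.Isolated.zpow_conj_invol_right hxx hyy]; congr 2; push_cast [hi]; ring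
      exact hy.trans (isConj_iff.mpr ⟨_, hc⟩)
  have hne : (x * y) ^ (k : ℤ) * x ≠ x := by
    intro h; exact hwne (by simpa using h)
  have hcx : Commute ((x * y) ^ (k : ℤ) * x) x := by
    show (x * y) ^ (k : ℤ) * x * x = x * ((x * y) ^ (k : ℤ) * x)
    rw [← mul_assoc x, ← hwx]
  have hwD := hb _ _ hx'D hx hne hcx
  have e1 : (x * y) ^ (k : ℤ) * x * x = (x * y) ^ (k : ℤ) := by rw [mul_assoc, hxx, mul_one]
  rw [e1] at hwD
  set w := (x * y) ^ (k : ℤ) with hw
  have hxw : Commute x w := hwx.symm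
  have hxyw : Commute (x * y) w := (Commute.refl (x * y)).zpow_right _
  have hyw : Commute y w := by
    have : y = x⁻¹ * (x * y) := by group
    rw [this]
    exact hxw.inv_left.mul_left hxyw
  have hW := (ha w hwD).2
  set W := Subgroup.closure {y : G | IsConj x₀ y ∧ Commute y w} with hWdef
  have hxW : x ∈ W := Subgroup.subset_closure ⟨hx, hxw⟩
  have hyW : y ∈ W := Subgroup.subset_closure ⟨hy, hyw⟩
  have hc2 := class_two_aux W hxW hyW hW
  have hxi : x⁻¹ = x := inv_eq_of_mul_eq_one_left hxx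
  have hyi : y⁻¹ = y := inv_eq_of_mul_eq_one_left hyy
  have hcomm : x * y * x⁻¹ * y⁻¹ = (x * y) ^ (2 : ℤ) := by
    rw [hxi, hyi, zpow_two]; group
  rw [hcomm] at hc2
  have h3 := H24.Isolated.zpow_mul_invol hxx hyy 2
  have h4 : (x * y) ^ (2 : ℤ) = (x * y) ^ (-2 : ℤ) := by
    have : x * (x * y) ^ (2 : ℤ) = x * (x * y) ^ (-2 : ℤ) := by rw [← hc2, h3]
    exact mul_left_cancel this
  have h5 : (x * y) ^ 4 = 1 := by
    have : (x * y) ^ (4 : ℤ) = 1 := by
      have e : (4 : ℤ) = 2 - (-2) := by norm_num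
      rw [e, zpow_sub, ← h4, mul_inv_cancel]
    exact_mod_cast this
  have h6 := orderOf_dvd_of_pow_eq_one h5
  have h7 := Nat.le_of_dvd (by norm_num) h6
  have h8 : orderOf (x * y) ≠ 3 := by intro h; rw [h] at h6; revert h6; decide
  omega

end Cfsg.Agent.S1176
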