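import Cfsg.Statements.S1177
import Mathlib
import Cfsg.Agent.Lib.H24.Basic

set_option autoImplicit false
open Cfsg

namespace Cfsg.Agent.S1177

/-- Let A be a nontrivial elementary abelian 2-subgroup of a finite group G which is a T.I. set (each conjugate of A meets A trivially or equals A) and which does not commute elementwise with any conjugate of A other than A itself. Then for every a ∈ A, a ≠ 1, every conjugate of A contained in C_G(a) is equal to A (A is weakly closed in C_G(a)). -/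
theorem result {G : Type*} [Group G] [Finite G] (A : Subgroup G) (hA : Cfsg.IsElementaryAbelian 2 A) (hA1 : A ≠ ⊥) (hTI : ∀ g : G, A.map (MulAut.conj g).toMonoidHom ⊓ A = ⊥ ∨ A.map (MulAut.conj g).toMonoidHom = A) (hb : ∀ g : G, (∀ a ∈ A, ∀ b ∈ A.map (MulAut.conj g).toMonoidHom, a * b = b * a) → A.map (MulAut.conj g).toMonoidHom = A) (a : G) (ha : a ∈ A) (ha1 : a ≠ 1) (g : G) (hg : A.map (MulAut.conj g).toMonoidHom ≤ Subgroup.centralizer ({a} : Set G)) : A.map (MulAut.conj g).toMonoidHom = A := by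
  have mem_conj := @H24.Basic.mem_conj G _
  set B := A.map (MulAut.conj g).toMonoidHom with hB
  have hAcomm : ∀ x ∈ A, ∀ y ∈ A, x * y = y * x := by
    intro x hx y hy
    have := hA.1
    exact congrArg Subtype.val (this.is_comm.comm (⟨x, hx⟩ : A) ⟨y, hy⟩)
  have hBcomm : ∀ x ∈ B, ∀ y ∈ B, x * y = y * x := by
    intro x hx y hy
    rw [hB, mem_conj] at hx hy
    have := hAcomm _ hx _ hy
    calc x * y = g * ((g⁻¹ * x * g) * (g⁻¹ * y * g)) * g⁻¹ := by group
      _ = g * ((g⁻¹ * y * g) * (g⁻¹ * x * g)) * g⁻¹ := by rw [this]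
      _ = y * x := by group
  have hBa : ∀ b ∈ B, b * a = a * b := by
    intro b hb
    exact (Subgroup.mem_centralizer_singleton_iff.mp (hg hb))
  -- B normalizes A
  have hBA : ∀ b ∈ B, ∀ x ∈ A, b * x * b⁻¹ ∈ A := by
    intro b hb x hx
    rcases hTI b with h | h
    · exfalso
      have : a ∈ A.map (MulAut.conj b).toMonoidHom ⊓ A := by
        refine ⟨(mem_conj A b a).mpr ?_, ha⟩
        have : b⁻¹ * a * b = a := by rw [mul_assoc, ← hBa b hb]; group
        rwa [this]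
      rw [h] at this
      exact ha1 this
    · rw [← h, mem_conj]
      have : b⁻¹ * (b * x * b⁻¹) * b = x := by group
      rwa [this]
  have hBle : B ≤ Subgroup.normalizer (A : Set G) := by
    intro b hb
    rw [Subgroup.mem_normalizer_iff]
    intro x
    refine ⟨hBA b hb x, fun h => ?_⟩
    have := hBA b⁻¹ (B.inv_mem hb) _ h
    have e : b⁻¹ * (b * x * b⁻¹) * b⁻¹⁻¹ = x := by group
    rwa [e] at this
  have hA2 : IsPGroup 2 A := by
    intro x
    exact ⟨1, by ext; simpa using hA.2 x x.2⟩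
  have hB2 : IsPGroup 2 B := hA2.map _
  have hS2 : IsPGroup 2 (A ⊔ B : Subgroup G) := by
    rw [sup_comm]
    exact hB2.to_sup_of_normal_right' hA2 hBle
  rcases hTI g with hAB | hAB
  swap
  · exact hAB
  exfalso
  have hAB' : ∀ x, x ∈ B → x ∈ A → x = 1 := by
    intro x hxB hxA
    have : x ∈ B ⊓ A := ⟨hxB, hxA⟩
    rw [hAB] at this; exact this
  have hne : B ≠ A := by
    intro h
    have : B ⊓ A = A := by rw [h, inf_idem]
    exact hA1 (this.symm.trans hAB)
  have hnil : Group.IsNilpotent (A ⊔ B : Subgroup G) := hS2.isNilpotent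
  obtain ⟨S, hS⟩ : ∃ S : Subgroup G, S = A ⊔ B := ⟨_, rfl⟩
  rw [← hS] at hS2 hnil
  have hnc := Group.normalizerCondition_of_isNilpotent (G := S)
  have hAS : A ≤ S := hS ▸ le_sup_left
  have hBS : B ≤ S := hS ▸ le_sup_right
  obtain ⟨N', hN'⟩ : ∃ N' : Subgroup S, N' = Subgroup.normalizer ((B.subgroupOf S : Subgroup S) : Set S) := ⟨_, rfl⟩
  have hB1 : ∀ x : S, x ∈ N' → ∀ b ∈ B, (x : G) * b * (x : G)⁻¹ ∈ B := by
    intro x hx b hb
    rw [hN'] at hx
    have := (Subgroup.mem_normalizer_iff.mp hx (⟨b, hBS hb⟩ : S)).mp (by simpa [Subgroup.mem_subgroupOf] using hb)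
    simpa [Subgroup.mem_subgroupOf] using this
  have hB2' : B.subgroupOf S ≤ N' := hN' ▸ Subgroup.le_normalizer
  by_cases hNtop : N' = ⊤
  · -- B normal in S
    have hcomm : ∀ x ∈ A, ∀ b ∈ B, x * b = b * x := by
      intro x hx b hb
      have h1 : x * b * x⁻¹ ∈ B := hB1 ⟨x, hAS hx⟩ (by rw [hNtop]; trivial) b hb
      have h2 : x * b * x⁻¹ * b⁻¹ ∈ B := B.mul_mem h1 (B.inv_mem hb)
      have h3 : x * b * x⁻¹ * b⁻¹ ∈ A := by
        have : x * b * x⁻¹ * b⁻¹ = x * (b * x⁻¹ * b⁻¹) := by group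
        rw [this]
        exact A.mul_mem hx (hBA b hb _ (A.inv_mem hx))
      have h4 := hAB' _ h2 h3
      calc x * b = (x * b * x⁻¹ * b⁻¹) * (b * x) := by group
        _ = b * x := by rw [h4, one_mul]
    exact hne (hb g hcomm)
  · have hlt := hnc N' (lt_top_iff_ne_top.mpr hNtop)
    obtain ⟨x, hx, hxN⟩ := SetLike.exists_of_lt hlt
    -- write x = a' b''
    obtain ⟨a', ha', b'', hb'', hab⟩ := H24.Basic.exists_mul_of_mem_sup (x := (x : G)) hBA (hS ▸ x.2)
    -- replace x by a'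
    obtain ⟨y, hy⟩ : ∃ y : S, (y : G) = a' := ⟨⟨a', hAS ha'⟩, rfl⟩
    have hyx : y = x * (⟨b'', hBS hb''⟩ : S)⁻¹ := by
      ext; simp [hy, ← hab]
    have hbN : (⟨b'', hBS hb''⟩ : S)⁻¹ ∈ N' := N'.inv_mem (hB2' (by simpa [Subgroup.mem_subgroupOf] using hb''))
    have hyN : y ∈ Subgroup.normalizer (N' : Set S) := by
      rw [hyx]
      exact Subgroup.mul_mem _ hx (Subgroup.le_normalizer hbN)
    have hyN' : y ∉ N' := by
      intro h
      apply hxN
      have : x = y * (⟨b'', hBS hb''⟩ : S) := by rw [hyx]; group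
      rw [this]
      exact N'.mul_mem h (by simpa using N'.inv_mem hbN)
    -- B₁ = y B y⁻¹ normalizes B
    have key : ∀ b ∈ B, ∀ b' ∈ B, b * (a' * b' * a'⁻¹) = (a' * b' * a'⁻¹) * b := by
      intro b hb b' hb'
      have h1 : y * ⟨b', hBS hb'⟩ * y⁻¹ ∈ N' := by
        have : (⟨b', hBS hb'⟩ : S) ∈ N' := hB2' (by simpa [Subgroup.mem_subgroupOf] using hb')
        exact (Subgroup.mem_normalizer_iff.mp hyN _).mp this
      have h2 := hB1 _ h1 b hb
      simp only [Subgroup.coe_mul, Subgroup.coe_inv, hy] at h2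
      -- commutator
      have h3 : (a' * b' * a'⁻¹) * b * (a' * b' * a'⁻¹)⁻¹ * b⁻¹ ∈ B := B.mul_mem h2 (B.inv_mem hb)
      have h4 : (a' * b' * a'⁻¹) * b * (a' * b' * a'⁻¹)⁻¹ * b⁻¹ ∈ A := by
        have e : (a' * b' * a'⁻¹) * b * (a' * b' * a'⁻¹)⁻¹ * b⁻¹
          = a' * ((b' * (a'⁻¹ * (b * a' * b⁻¹)) * b'⁻¹)) * (b' * (b * b'⁻¹ * b⁻¹)) * (b * a'⁻¹ * b⁻¹) := by group
        have e2 : b' * (b * b'⁻¹ * b⁻¹) = 1 := by
          have := hBcomm b' hb' b hb
          calc b' * (b * b'⁻¹ * b⁻¹) = (b' * b) * b'⁻¹ * b⁻¹ := by group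
            _ = 1 := by rw [this]; group
        rw [e, e2, mul_one]
        exact A.mul_mem (A.mul_mem ha' (hBA b' hb' _ (A.mul_mem (A.inv_mem ha') (hBA b hb _ ha')))) (hBA b hb _ (A.inv_mem ha'))
      have h5 := hAB' _ h3 h4
      calc b * (a' * b' * a'⁻¹) = ((a' * b' * a'⁻¹) * b * (a' * b' * a'⁻¹)⁻¹ * b⁻¹)⁻¹ * ((a' * b' * a'⁻¹) * b) := by group
        _ = (a' * b' * a'⁻¹) * b := by rw [h5, inv_one, one_mul]
    -- apply hb to g⁻¹ a' g
    have h6 := hb (g⁻¹ * a' * g) (by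
      intro c hc d hd
      rw [mem_conj] at hd
      have hc' : g * c * g⁻¹ ∈ B := by rw [hB, mem_conj]; simpa [mul_assoc] using hc
      have hd' : g * ((g⁻¹ * a' * g)⁻¹ * d * (g⁻¹ * a' * g)) * g⁻¹ ∈ B := by
        rw [hB, mem_conj]; simpa [mul_assoc] using hd
      have := key _ hc' _ hd'
      have e1 : a' * (g * ((g⁻¹ * a' * g)⁻¹ * d * (g⁻¹ * a' * g)) * g⁻¹) * a'⁻¹ = g * d * g⁻¹ := by group
      rw [e1] at this
      calc c * d = g⁻¹ * ((g * c * g⁻¹) * (g * d * g⁻¹)) * g := by group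
        _ = g⁻¹ * ((g * d * g⁻¹) * (g * c * g⁻¹)) * g := by rw [this]
        _ = d * c := by group)
    apply hyN'
    rw [hN', Subgroup.mem_normalizer_iff]
    intro s
    rw [Subgroup.mem_subgroupOf, Subgroup.mem_subgroupOf]
    have h7 : ∀ w : G, w ∈ B ↔ a' * w * a'⁻¹ ∈ B := by
      intro w
      rw [hB, mem_conj, mem_conj]
      have h8 := Subgroup.mem_normalizer_iff.mp ((H24.Basic.conj_eq_iff_mem_normalizer A _).mp h6) (g⁻¹ * w * g)
      have e : (g⁻¹ * a' * g) * (g⁻¹ * w * g) * (g⁻¹ * a' * g)⁻¹ = g⁻¹ * (a' * w * a'⁻¹) * g := by group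
      rw [e] at h8
      exact h8
    have := h7 (s : G)
    simpa [hy] using this

end Cfsg.Agent.S1177
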