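import Cfsg.Statements.S1178
import Mathlib

set_option autoImplicit false
open Cfsg

namespace Cfsg.Agent.S1178

/-- Let A be a subgroup of a Sylow 2-subgroup S of the finite group G which is weakly closed in S. If a conjugate g A g⁻¹ commutes elementwise with A, then g A g⁻¹ = A. -/
theorem result {G : Type*} [Group G] [Finite G] (S : Sylow 2 G) (A : Subgroup G) (hW : Cfsg.IsWeaklyClosed A (S : Subgroup G)) (g : G) (hc : ∀ a ∈ A, ∀ b ∈ A.map (MulAut.conj g).toMonoidHom, a * b = b * a) : A.map (MulAut.conj g).toMonoidHom = A := by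
  set N := Subgroup.normalizer (A : Set G) with hN
  have conj_eq : ∀ n : G, n ∈ N → A.map (MulAut.conj n).toMonoidHom = A := by
    intro n hn
    ext x
    rw [Subgroup.mem_map_equiv]
    have := Subgroup.mem_normalizer_iff.mp (N.inv_mem hn) x
    simp only [MulAut.conj_symm_apply]
    rw [this, inv_inv]
  have conj_mem : ∀ n : G, A.map (MulAut.conj n).toMonoidHom = A → n ∈ N := by
    intro n hn
    rw [hN, Subgroup.mem_normalizer_iff]
    intro x
    constructor
    · intro hx
      have : n * x * n⁻¹ ∈ A.map (MulAut.conj n).toMonoidHom := ⟨x, hx, by simp⟩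
      rwa [hn] at this
    · intro hx
      rw [← hn] at hx
      obtain ⟨y, hy, hyx⟩ := hx
      simp only [MulEquiv.coe_toMonoidHom, MulAut.conj_apply] at hyx
      have : y = x := by simpa using hyx
      rwa [← this]
  have hSN : (S : Subgroup G) ≤ N := by
    intro s hs
    apply conj_mem
    apply hW.2
    rintro _ ⟨a, ha, rfl⟩
    simp only [MulEquiv.coe_toMonoidHom, MulAut.conj_apply]
    exact S.mul_mem (S.mul_mem hs (hW.1 ha)) (S.inv_mem hs)
  set B := A.map (MulAut.conj g).toMonoidHom with hB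
  have hBN : B ≤ N := by
    intro b hb
    rw [hN, Subgroup.mem_normalizer_iff]
    intro x
    constructor
    · intro hx
      have h1 : b * x * b⁻¹ = x := by rw [← hc x hx b hb]; group
      rwa [h1]
    · intro hx
      have h1 := hc _ hx b hb
      have h2 : x = b * x * b⁻¹ := by
        have : b⁻¹ * (b * x * b⁻¹) * b = x := by group
        have h3 : b⁻¹ * ((b * x * b⁻¹) * b) = b⁻¹ * (b * (b * x * b⁻¹)) := by rw [h1]
        calc x = b⁻¹ * ((b * x * b⁻¹) * b) := by group
          _ = b⁻¹ * (b * (b * x * b⁻¹)) := h3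
          _ = b * x * b⁻¹ := by group
      rwa [h2]
  have hA2 : IsPGroup 2 A := S.isPGroup'.to_le hW.1
  have hB2 : IsPGroup 2 B := hA2.map _
  have hB2' : IsPGroup 2 (B.subgroupOf N) := by
    intro x
    obtain ⟨k, hk⟩ := hB2 ⟨(x : N), x.2⟩
    refine ⟨k, ?_⟩
    ext
    simpa [Subtype.ext_iff] using hk
  obtain ⟨Q, hQ⟩ := hB2'.exists_le_sylow
  obtain ⟨n, hn⟩ := MulAction.exists_smul_eq N (S.subtype hSN) Q
  have key : A.map (MulAut.conj ((n : G)⁻¹ * g)).toMonoidHom ≤ (S : Subgroup G) := by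
    rintro _ ⟨a, ha, rfl⟩
    simp only [MulEquiv.coe_toMonoidHom, MulAut.conj_apply]
    have h1 : g * a * g⁻¹ ∈ B := ⟨a, ha, by simp⟩
    have h2 : (⟨g * a * g⁻¹, hBN h1⟩ : N) ∈ (Q : Subgroup N) := hQ h1
    rw [← hn, Sylow.coe_subgroup_smul, Subgroup.mem_pointwise_smul_iff_inv_smul_mem] at h2
    have h3 : ((MulAut.conj n)⁻¹ • (⟨g * a * g⁻¹, hBN h1⟩ : N) : N) ∈ (S : Subgroup G).subgroupOf N := h2
    rw [Subgroup.mem_subgroupOf] at h3
    have h4 : (((MulAut.conj n)⁻¹ • (⟨g * a * g⁻¹, hBN h1⟩ : N) : N) : G) = (n : G)⁻¹ * g * a * ((n : G)⁻¹ * g)⁻¹ := by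
      rw [← map_inv]
      simp [MulAut.smul_def, mul_assoc]
    rwa [h4] at h3
  have h5 := hW.2 _ key
  have h6 : B = A.map (MulAut.conj (n : G)).toMonoidHom := by
    rw [hB]
    nth_rw 2 [← h5]
    rw [Subgroup.map_map]
    congr 1
    ext x
    simp [mul_assoc]
  rw [h6]
  exact conj_eq _ n.2

end Cfsg.Agent.S1178
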