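import Cfsg.Statements.S1181
import Mathlib
import Cfsg.Agent.Lib.H24.Isolated

set_option autoImplicit false
open Cfsg

namespace Cfsg.Agent.S1181

/-- Let z be an isolated involution of the finite group G and N a normal subgroup with z ∉ N. Then the centralizer of zN in G/N is the image of C_G(z), and zN is an isolated involution of G/N. -/
theorem result {G : Type*} [Group G] [Finite G] (z : G) (hz : Cfsg.IsIsolatedInvolution z) (N : Subgroup G) [N.Normal] (hzN : z ∉ N) : Subgroup.centralizer ({(QuotientGroup.mk z : G ⧸ N)} : Set (G ⧸ N)) = (Subgroup.centralizer ({z} : Set G)).map (QuotientGroup.mk' N) ∧ Cfsg.IsIsolatedInvolution (QuotientGroup.mk z : G ⧸ N) := by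
  have hzz := H24.Isolated.mul_self_of_orderOf_two hz.1
  have key : ∀ g : G, Commute (QuotientGroup.mk z : G ⧸ N) ((QuotientGroup.mk g : G ⧸ N) * QuotientGroup.mk z * (QuotientGroup.mk g)⁻¹) →
      z * (g * z * g⁻¹) ∈ N := by
    intro g hc
    have hodd := H24.Isolated.odd_orderOf_mul_conj hz g
    set x := z * (g * z * g⁻¹) with hx
    have hx2 : (QuotientGroup.mk x : G ⧸ N) ^ 2 = 1 := by
      have h1 : (QuotientGroup.mk x : G ⧸ N) = (QuotientGroup.mk z : G ⧸ N) * ((QuotientGroup.mk g : G ⧸ N) * QuotientGroup.mk z * (QuotientGroup.mk g)⁻¹) := rfl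
      rw [h1, hc.mul_pow]
      have h2 : (QuotientGroup.mk z : G ⧸ N) ^ 2 = 1 := by
        rw [pow_two]
        show (QuotientGroup.mk (z * z) : G ⧸ N) = 1
        rw [hzz]; rfl
      have h3 : ((QuotientGroup.mk g : G ⧸ N) * QuotientGroup.mk z * (QuotientGroup.mk g)⁻¹) ^ 2 = 1 := by
        rw [conj_pow, h2, mul_one, mul_inv_cancel]
      rw [h2, h3, one_mul]
    obtain ⟨k, hk⟩ := hodd
    have h4 : (QuotientGroup.mk x : G ⧸ N) ^ (2 * k + 1) = 1 := by
      rw [← hk]
      show (QuotientGroup.mk (x ^ orderOf x) : G ⧸ N) = 1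
      rw [pow_orderOf_eq_one]; rfl
    rw [pow_succ, pow_mul, hx2, one_pow, one_mul] at h4
    exact (QuotientGroup.eq_one_iff x).mp h4
  refine ⟨?_, ?_, ?_⟩
  · ext y
    constructor
    · intro hy
      obtain ⟨g, rfl⟩ := QuotientGroup.mk_surjective y
      rw [Subgroup.mem_centralizer_singleton_iff] at hy
      have hconj : (QuotientGroup.mk g : G ⧸ N) * QuotientGroup.mk z * (QuotientGroup.mk g)⁻¹ = QuotientGroup.mk z := by
        rw [hy, mul_inv_cancel_right]
      have hN := key g (by rw [hconj])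
      have hodd := H24.Isolated.odd_orderOf_mul_conj hz g
      have htt := H24.Isolated.conj_mul_self (g := g) hzz
      have hce := H24.Isolated.conj_eq_of_odd hzz htt hodd
      set x := z * (g * z * g⁻¹) with hx
      set i := orderOf x / 2 with hi
      refine ⟨(x ^ i)⁻¹ * g, ?_, ?_⟩
      · rw [SetLike.mem_coe, Subgroup.mem_centralizer_singleton_iff]
        calc (x ^ i)⁻¹ * g * z = (x ^ i)⁻¹ * (g * z * g⁻¹) * g := by group
          _ = (x ^ i)⁻¹ * (x ^ i * z * (x ^ i)⁻¹) * g := by rw [hce]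
          _ = z * ((x ^ i)⁻¹ * g) := by group
      · have : (QuotientGroup.mk' N) ((x ^ i)⁻¹ * g) = (QuotientGroup.mk' N) g := by
          rw [map_mul]
          have h5 : (QuotientGroup.mk' N) (x ^ i)⁻¹ = 1 := by
            rw [QuotientGroup.mk'_apply, QuotientGroup.eq_one_iff]
            exact N.inv_mem (N.pow_mem hN _)
          rw [h5, one_mul]
        rw [this]; rfl
    · rintro ⟨c, hc, rfl⟩
      rw [SetLike.mem_coe, Subgroup.mem_centralizer_singleton_iff] at hc
      rw [Subgroup.mem_centralizer_singleton_iff]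
      show (QuotientGroup.mk (c * z) : G ⧸ N) = QuotientGroup.mk (z * c)
      rw [hc]
  · apply orderOf_eq_prime
    · show (QuotientGroup.mk (z ^ 2) : G ⧸ N) = 1
      rw [pow_two, hzz]; rfl
    · intro h
      exact hzN ((QuotientGroup.eq_one_iff z).mp h)
  · intro y hy
    obtain ⟨g, rfl⟩ := QuotientGroup.mk_surjective y
    have hN := key g hy
    have h1 : (QuotientGroup.mk (z * (g * z * g⁻¹)) : G ⧸ N) = 1 := (QuotientGroup.eq_one_iff _).mpr hN
    have h2 : (QuotientGroup.mk z : G ⧸ N) * (QuotientGroup.mk g * QuotientGroup.mk z * (QuotientGroup.mk g)⁻¹) = 1 := h1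
    have h3 : (QuotientGroup.mk z : G ⧸ N) * QuotientGroup.mk z = 1 := by
      show (QuotientGroup.mk (z * z) : G ⧸ N) = 1
      rw [hzz]; rfl
    exact mul_left_cancel (h2.trans h3.symm)

end Cfsg.Agent.S1181
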