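import Cfsg.Statements.S1182
import Mathlib
import Cfsg.Agent.Lib.H24.Isolated

set_option autoImplicit false
open Cfsg

namespace Cfsg.Agent.S1182

/-- Let z be an isolated involution of the finite group G and H a subgroup normalized by z. If x, y ∈ H both commute with z and y = h x h⁻¹ for some h ∈ H, then y = c x c⁻¹ for some c ∈ H commuting with z. -/
theorem result {G : Type*} [Group G] [Finite G] (z : G) (hz : Cfsg.IsIsolatedInvolution z) (H : Subgroup G) (hzH : z ∈ Subgroup.normalizer (H : Set G)) (x y : G) (hx : x ∈ H) (hy : y ∈ H) (hxz : Commute x z) (hyz : Commute y z) (h : G) (hh : h ∈ H) (hconj : h * x * h⁻¹ = y) : ∃ c ∈ H, Commute c z ∧ c * x * c⁻¹ = y := by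
  have hzz := H24.Isolated.mul_self_of_orderOf_two hz.1
  have hzi : z⁻¹ = z := inv_eq_of_mul_eq_one_left hzz
  have hodd := H24.Isolated.odd_orderOf_mul_conj hz h⁻¹
  have htt := H24.Isolated.conj_mul_self (g := h⁻¹) hzz
  have hce := H24.Isolated.conj_eq_of_odd hzz htt hodd
  set u := z * (h⁻¹ * z * h⁻¹⁻¹) with hu
  have huH : u ∈ H := by
    have h1 : z * h⁻¹ * z⁻¹ ∈ H := (Subgroup.mem_normalizer_iff.mp hzH h⁻¹).mp (H.inv_mem hh)
    have : u = (z * h⁻¹ * z⁻¹) * h := by rw [hu, hzi]; group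
    rw [this]; exact H.mul_mem h1 hh
  have hux : Commute u x := by
    have h1 : Commute (h⁻¹ * z * h⁻¹⁻¹) x := by
      show _ = _
      have h2 : x = h⁻¹ * y * h := by rw [← hconj]; group
      have h3 := hyz.eq
      calc h⁻¹ * z * h⁻¹⁻¹ * x = h⁻¹ * (z * y) * h := by rw [h2]; group
        _ = h⁻¹ * (y * z) * h := by rw [h3]
        _ = x * (h⁻¹ * z * h⁻¹⁻¹) := by rw [h2]; group
    exact (hxz.symm.mul_left h1)
  refine ⟨h * u ^ (orderOf u / 2), H.mul_mem hh (H.pow_mem huH _), ?_, ?_⟩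
  · show _ = _
    have : h * u ^ (orderOf u / 2) * z = h * (u ^ (orderOf u / 2) * z * (u ^ (orderOf u / 2))⁻¹) * u ^ (orderOf u / 2) := by group
    rw [this, hce]; group
  · have h1 : Commute (u ^ (orderOf u / 2)) x := hux.pow_left _
    calc h * u ^ (orderOf u / 2) * x * (h * u ^ (orderOf u / 2))⁻¹
        = h * (u ^ (orderOf u / 2) * x) * (u ^ (orderOf u / 2))⁻¹ * h⁻¹ := by group
      _ = h * (x * u ^ (orderOf u / 2)) * (u ^ (orderOf u / 2))⁻¹ * h⁻¹ := by rw [h1.eq]
      _ = h * x * h⁻¹ := by group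
      _ = y := hconj

end Cfsg.Agent.S1182
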