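import Cfsg.Statements.S1183
import Cfsg.Agent.Lib.H2.Fusion
import Cfsg.Agent.Lib.H24.Isolated
import Cfsg.Agent.S1182

set_option autoImplicit false
open Cfsg

namespace Cfsg.Agent.S1183

/-- Let z be an isolated involution of the finite group G and C = C_G(z). Then the subgroup of G generated by its elements of odd order is all of G if and only if the subgroup of C generated by its elements of odd order is all of C. -/
theorem result {G : Type*} [Group G] [Finite G] (z : G) (hz : Cfsg.IsIsolatedInvolution z) : Cfsg.pResidual 2 G = ⊤ ↔ Cfsg.pResidual 2 ↥(Subgroup.centralizer ({z} : Set G)) = ⊤ := by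
  classical
  haveI : Fact (Nat.Prime 2) := ⟨Nat.prime_two⟩
  set C := Subgroup.centralizer ({z} : Set G) with hC
  have hzz : z * z = 1 := H24.Isolated.mul_self_of_orderOf_two hz.1
  obtain ⟨P, hP⟩ := (IsPGroup.of_card (p := 2) (n := 1) (G := Subgroup.zpowers z)
    (by rw [Nat.card_zpowers, hz.1, pow_one])).exists_le_sylow
  have hzP : z ∈ (P : Subgroup G) := hP (Subgroup.mem_zpowers z)
  have hPC : (P : Subgroup G) ≤ C := by
    intro x hx
    have hodd := H24.Isolated.odd_orderOf_mul_conj hz x
    have hmem : z * (x * z * x⁻¹) ∈ (P : Subgroup G) :=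
      (P : Subgroup G).mul_mem hzP ((P : Subgroup G).mul_mem ((P : Subgroup G).mul_mem hx hzP) ((P : Subgroup G).inv_mem hx))
    obtain ⟨k, hk⟩ := (IsPGroup.iff_orderOf.1 P.2) ⟨_, hmem⟩
    rw [← Subgroup.orderOf_coe] at hk
    simp only at hk
    rw [hk] at hodd
    have hk0 : k = 0 := by
      by_contra hk0
      rw [Nat.odd_iff] at hodd
      have : 2 ∣ 2 ^ k := dvd_pow_self 2 hk0
      omega
    rw [hk0, pow_zero, orderOf_eq_one_iff] at hk
    rw [hC, Subgroup.mem_centralizer_singleton_iff]
    have h1 : x * z * x⁻¹ = z := by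
      have h2 := eq_inv_of_mul_eq_one_right hk
      rw [h2, inv_eq_of_mul_eq_one_left hzz]
    calc x * z = (x * z * x⁻¹) * x := by group
      _ = z * x := by rw [h1]
  have hcomm : ∀ x ∈ (P : Subgroup G), Commute x z := fun x hx => by
    have := hPC hx
    rw [hC, Subgroup.mem_centralizer_singleton_iff] at this
    exact this
  have hctrl : ∀ x ∈ (P : Subgroup G), ∀ g : G, g * x * g⁻¹ ∈ (P : Subgroup G) →
      ∃ h ∈ C, h * x * h⁻¹ = g * x * g⁻¹ := by
    intro x hx g hg
    obtain ⟨c, _, hc, hcx⟩ := Cfsg.Agent.S1182.result z hz ⊤ (by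
      rw [Subgroup.mem_normalizer_iff]; simp) x (g * x * g⁻¹) trivial trivial (hcomm x hx) (hcomm _ hg) g trivial rfl
    refine ⟨c, ?_, hcx⟩
    rw [hC, Subgroup.mem_centralizer_singleton_iff]
    exact hc
  have hkey := H2.Fusion.inf_residual_eq_of_control P C hPC hctrl
  have hG : Cfsg.pResidual 2 G = ⊤ ↔ (P : Subgroup G) ≤ Cfsg.pResidual 2 G := by
    constructor
    · intro h; rw [h]; exact le_top
    · intro h
      have := H2.Residual.sylow_sup_residual P
      rwa [sup_eq_right.mpr h] at this
  have hCC : Cfsg.pResidual 2 C = ⊤ ↔ (P : Subgroup G) ≤ (Cfsg.pResidual 2 C).map C.subtype := by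
    constructor
    · intro h; rw [h, ← MonoidHom.range_eq_map, Subgroup.range_subtype]; exact hPC
    · intro h
      have := H2.Residual.sup_residual_of_not_dvd_index (p := 2) ((P : Subgroup G).subgroupOf C) (by
        intro hd
        exact P.not_dvd_index (dvd_trans hd (Subgroup.relIndex_dvd_index_of_le hPC)))
      have h2 : (P : Subgroup G).subgroupOf C ≤ Cfsg.pResidual 2 C := by
        intro x hx
        obtain ⟨y, hy, hyx⟩ := h (show (x : G) ∈ (P : Subgroup G) from hx)
        have : y = x := Subtype.ext hyx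
        rwa [← this]
      rwa [sup_eq_right.mpr h2] at this
  rw [hG, hCC, ← inf_eq_left, hkey, inf_eq_left]

end Cfsg.Agent.S1183
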