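import Cfsg.Statements.S1184
import Mathlib
import Cfsg.Agent.Lib.H24.Isolated

set_option autoImplicit false
open Cfsg

namespace Cfsg.Agent.S1184

/-- Let z be an isolated involution of the finite group G. If s and t are distinct conjugates of z, then st does not commute with z. -/
theorem result {G : Type*} [Group G] [Finite G] (z : G) (hz : Cfsg.IsIsolatedInvolution z) (g h : G) (hne : g * z * g⁻¹ ≠ h * z * h⁻¹) : ¬ Commute (g * z * g⁻¹ * (h * z * h⁻¹)) z := by
  intro hcomm
  have hzz := H24.Isolated.mul_self_of_orderOf_two hz.1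
  have hzi : z⁻¹ = z := inv_eq_of_mul_eq_one_left hzz
  have hss := H24.Isolated.conj_mul_self (g := g) hzz
  have htt := H24.Isolated.conj_mul_self (g := h) hzz
  set s := g * z * g⁻¹ with hs
  set t := h * z * h⁻¹ with ht
  have hiso := H24.Isolated.isolated_conj hz g
  have hodd : Odd (orderOf (s * t)) := by
    have := H24.Isolated.odd_orderOf_mul_conj hiso (h * g⁻¹)
    have e : h * g⁻¹ * (g * z * g⁻¹) * (h * g⁻¹)⁻¹ = t := by rw [ht]; group
    rwa [e] at this
  have hodd2 : Odd (orderOf (z * s)) := H24.Isolated.odd_orderOf_mul_conj hz g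
  have hsi : s⁻¹ = s := inv_eq_of_mul_eq_one_left hss
  have hti : t⁻¹ = t := inv_eq_of_mul_eq_one_left htt
  have hinv : (z * s) * (s * t) * (z * s)⁻¹ = (s * t)⁻¹ := by
    rw [mul_inv_rev z s, mul_inv_rev s t, hzi, hsi, hti]
    calc (z * s) * (s * t) * (s * z) = z * ((s * s) * (t * s)) * z := by group
      _ = z * (t * s) * z := by rw [hss, one_mul]
      _ = z * (s * t)⁻¹ * z := by rw [mul_inv_rev s t, hsi, hti]
      _ = (s * t)⁻¹ * z * z := by rw [(hcomm.inv_left.eq : (s * t)⁻¹ * z = z * (s * t)⁻¹)]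
      _ = t * s := by rw [mul_assoc, hzz, mul_one, mul_inv_rev s t, hsi, hti]
  have h1 := H24.Isolated.eq_one_of_odd_inverts hodd2 hodd hinv
  apply hne
  rw [mul_eq_one_iff_eq_inv, hti] at h1
  exact h1

end Cfsg.Agent.S1184
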