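import Cfsg.Statements.S1185
import Mathlib
import Cfsg.Agent.Lib.H24.Isolated

set_option autoImplicit false
open Cfsg

namespace Cfsg.Agent.S1185

/-- Let z be an isolated involution of the finite group G with centralizer C. Then for every g ∈ G there is exactly one element k in the coset gC that has odd order and is inverted by z. -/
theorem result {G : Type*} [Group G] [Finite G] (z : G) (hz : Cfsg.IsIsolatedInvolution z) (g : G) : ∃! k : G, (Odd (orderOf k) ∧ z * k * z⁻¹ = k⁻¹) ∧ g⁻¹ * k ∈ Subgroup.centralizer ({z} : Set G) := by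
  have hzz := H24.Isolated.mul_self_of_orderOf_two hz.1
  have hzi : z⁻¹ = z := inv_eq_of_mul_eq_one_left hzz
  have hodd := H24.Isolated.odd_orderOf_mul_conj hz g
  have htt := H24.Isolated.conj_mul_self (g := g) hzz
  have hce := H24.Isolated.conj_eq_of_odd hzz htt hodd
  set x := z * (g * z * g⁻¹) with hx
  -- uniqueness tool
  have huniq : ∀ k : G, Odd (orderOf k) → z * k * z⁻¹ = k⁻¹ → g⁻¹ * k ∈ Subgroup.centralizer ({z} : Set G) →
      k ^ 2 * z = g * z * g⁻¹ := by
    intro k _ hk2 hk3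
    rw [Subgroup.mem_centralizer_singleton_iff] at hk3
    have h1 : k * z * k⁻¹ = g * z * g⁻¹ := by
      calc k * z * k⁻¹ = g * ((g⁻¹ * k) * z) * k⁻¹ := by group
        _ = g * (z * (g⁻¹ * k)) * k⁻¹ := by rw [hk3]
        _ = g * z * g⁻¹ := by group
    have h2 : z * k⁻¹ = k * z := by
      have := congrArg (fun a => a⁻¹) hk2
      simp only [mul_inv_rev, inv_inv] at this
      calc z * k⁻¹ = (z * (k⁻¹ * z⁻¹)) * z := by group
        _ = k * z := by rw [this]
    calc k ^ 2 * z = k * (k * z) := by rw [pow_two, mul_assoc]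
      _ = k * (z * k⁻¹) := by rw [h2]
      _ = g * z * g⁻¹ := by rw [← h1]; group
  have hinvx : z * x * z⁻¹ = x⁻¹ := by
    have ht2 : (g * z * g⁻¹)⁻¹ = g * z * g⁻¹ := inv_eq_of_mul_eq_one_left htt
    rw [hx, mul_inv_rev, hzi, ht2]
    calc z * (z * (g * z * g⁻¹)) * z = (z * z) * (g * z * g⁻¹) * z := by group
      _ = g * z * g⁻¹ * z := by rw [hzz, one_mul]
  refine ⟨x ^ (orderOf x / 2), ⟨⟨?_, ?_⟩, ?_⟩, ?_⟩
  · exact Odd.of_dvd_nat hodd (orderOf_pow_dvd _)
  · rw [← conj_pow, hinvx, inv_pow]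
  · rw [Subgroup.mem_centralizer_singleton_iff]
    calc g⁻¹ * x ^ (orderOf x / 2) * z
        = g⁻¹ * (x ^ (orderOf x / 2) * z * (x ^ (orderOf x / 2))⁻¹) * x ^ (orderOf x / 2) := by group
      _ = z * (g⁻¹ * x ^ (orderOf x / 2)) := by rw [hce]; group
  · rintro k ⟨⟨hk1, hk2⟩, hk3⟩
    have e1 := huniq k hk1 hk2 hk3
    have e2 := huniq (x ^ (orderOf x / 2)) (Odd.of_dvd_nat hodd (orderOf_pow_dvd _))
      (by rw [← conj_pow, hinvx, inv_pow]) (by
        rw [Subgroup.mem_centralizer_singleton_iff]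
        calc g⁻¹ * x ^ (orderOf x / 2) * z
            = g⁻¹ * (x ^ (orderOf x / 2) * z * (x ^ (orderOf x / 2))⁻¹) * x ^ (orderOf x / 2) := by group
          _ = z * (g⁻¹ * x ^ (orderOf x / 2)) := by rw [hce]; group)
    have e3 : k ^ 2 = (x ^ (orderOf x / 2)) ^ 2 := mul_right_cancel (e1.trans e2.symm)
    set l := x ^ (orderOf x / 2) with hl
    have hl1 : Odd (orderOf l) := Odd.of_dvd_nat hodd (orderOf_pow_dvd _)
    obtain ⟨a, ha⟩ := hk1.mul hl1
    have h1 : k ^ (2 * (a + 1)) = l ^ (2 * (a + 1)) := by rw [pow_mul, e3, ← pow_mul]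
    have h2 : 2 * (a + 1) = orderOf k * orderOf l + 1 := by omega
    rw [h2, pow_succ, pow_mul, pow_orderOf_eq_one, one_pow, one_mul, pow_succ, mul_comm (orderOf k), pow_mul,
      pow_orderOf_eq_one, one_pow, one_mul] at h1
    exact h1

end Cfsg.Agent.S1185
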