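import Cfsg.Statements.S1231
import Mathlib.GroupTheory.Nilpotent
import Mathlib.Tactic

set_option autoImplicit false
open Cfsg

namespace Cfsg.Agent.S1231

theorem rank_iff {G : Type*} [Group G] [Finite G] {p k : ℕ} (X : Subgroup G) :
    ¬ Cfsg.PRankLE p k ↥X ↔
      ∃ A : Subgroup G, A ≤ X ∧ IsMulCommutative A ∧ (∀ a ∈ A, a ^ p = 1) ∧ p ^ k < Nat.card A := by
  constructor
  · intro h
    unfold Cfsg.PRankLE at h
    push Not at h
    obtain ⟨A, hA1, hA2, hA3⟩ := h
    refine ⟨A.map X.subtype, Subgroup.map_subtype_le _, inferInstance, ?_, ?_⟩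
    · rintro _ ⟨a, ha, rfl⟩
      rw [← map_pow, hA2 a ha, map_one]
    · rwa [Subgroup.card_map_of_injective X.subtype_injective]
  · rintro ⟨A, hA1, hA2, hA3, hA4⟩ hcon
    have := hcon (A.subgroupOf X) inferInstance (by
      intro a ha
      apply Subtype.ext
      have := hA3 a.1 (Subgroup.mem_subgroupOf.1 ha)
      simpa using this)
    rw [Nat.card_congr (Subgroup.subgroupOfEquivOfLe hA1).toEquiv] at this
    omega

theorem exists_conj_le {G : Type*} [Group G] [Finite G] {p : ℕ} [Fact p.Prime] {H : Subgroup G}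
    (P : Sylow p ↥H) (A : Subgroup G) (hA : A ≤ H) (hp : IsPGroup p A) :
    ∃ h ∈ H, ∀ a ∈ A, h⁻¹ * a * h ∈ (P : Subgroup ↥H).map H.subtype := by
  have hp' : IsPGroup p (A.subgroupOf H) :=
    hp.of_injective (Subgroup.subgroupOfEquivOfLe hA).toMonoidHom
      (Subgroup.subgroupOfEquivOfLe hA).injective
  obtain ⟨Q, hQ⟩ := hp'.exists_le_sylow
  obtain ⟨h, hh⟩ := MulAction.exists_smul_eq (↥H) P Q
  refine ⟨h.1, h.2, fun a ha => ?_⟩
  have h1 : (⟨a, hA ha⟩ : ↥H) ∈ (Q : Subgroup ↥H) := hQ (Subgroup.mem_subgroupOf.2 ha)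
  rw [← hh, Sylow.coe_subgroup_smul, Subgroup.mem_pointwise_smul_iff_inv_smul_mem] at h1
  refine ⟨_, h1, ?_⟩
  rw [← map_inv, MulAut.smul_def, MulAut.conj_apply]
  simp

theorem final_step {G : Type*} [Group G] [Finite G] {p k : ℕ} [Fact p.Prime] {H : Subgroup G}
    (P : Sylow p ↥H)
    (hN : ∀ X : Subgroup G, X ≤ (P : Subgroup ↥H).map H.subtype → ¬ Cfsg.PRankLE p (k - 1) ↥X →
      Subgroup.normalizer (X : Set G) ≤ H)
    (hPR : ¬ Cfsg.PRankLE p (k - 1) ↥((P : Subgroup ↥H).map H.subtype)) (g : G)
    (hg : ∀ x ∈ (P : Subgroup ↥H).map H.subtype, g * x * g⁻¹ ∈ H) : g ∈ H := by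
  set Ph : Subgroup G := (P : Subgroup ↥H).map H.subtype with hPh
  have hpX : IsPGroup p Ph := by rw [hPh]; exact P.isPGroup'.map _
  have hpX2 : IsPGroup p (Ph.map (MulAut.conj g).toMonoidHom) := hpX.map _
  obtain ⟨h, hhH, hh⟩ := exists_conj_le P (Ph.map (MulAut.conj g).toMonoidHom) (by
    rintro _ ⟨x, hx, rfl⟩; exact hg x hx) hpX2
  have h1 : Ph.map (MulAut.conj (h⁻¹ * g)).toMonoidHom ≤ Ph := by
    rintro _ ⟨x, hx, rfl⟩
    have := hh (g * x * g⁻¹) ⟨x, hx, rfl⟩
    have e : (MulAut.conj (h⁻¹ * g)).toMonoidHom x = h⁻¹ * (g * x * g⁻¹) * h := by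
      simp only [MulEquiv.toMonoidHom_eq_coe, MonoidHom.coe_coe, MulAut.conj_apply]; group
    rw [e]; exact this
  have h2 : Ph.map (MulAut.conj (h⁻¹ * g)).toMonoidHom = Ph :=
    Subgroup.eq_of_le_of_card_ge h1
      (Subgroup.card_map_of_injective (K := Ph) (f := (MulAut.conj (h⁻¹ * g)).toMonoidHom)
        (MulAut.conj (h⁻¹ * g)).injective).ge
  have h3 : h⁻¹ * g ∈ Subgroup.normalizer (Ph : Set G) := by
    rw [Subgroup.mem_normalizer_iff]
    intro x
    constructor
    · intro hx
      apply h1
      exact ⟨x, hx, rfl⟩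
    · intro hx
      rw [← h2] at hx
      obtain ⟨y, hy, hyx⟩ := hx
      have : y = x := (MulAut.conj (h⁻¹ * g)).injective hyx
      rw [← this]; exact hy
  have h4 := hN Ph le_rfl hPR h3
  have : g = h * (h⁻¹ * g) := by group
  rw [this]; exact mul_mem hhH h4

/-- Let H be a subgroup of the finite group G, p a prime, k ≥ 1, and P a Sylow p-subgroup of H whose p-rank is at least k. Then N_G(X) ≤ H for every subgroup X of P of p-rank at least k if and only if H ∩ gHg⁻¹ has p-rank less than k for every g ∉ H. -/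
theorem result {G : Type*} [Group G] [Finite G] {p : ℕ} [Fact p.Prime] (k : ℕ) (hk : 1 ≤ k) (H : Subgroup G) (P : Sylow p ↥H) (hP : ¬ Cfsg.PRankLE p (k - 1) ↥(P : Subgroup ↥H)) : (∀ X : Subgroup G, X ≤ (P : Subgroup ↥H).map H.subtype → ¬ Cfsg.PRankLE p (k - 1) ↥X → Subgroup.normalizer (X : Set G) ≤ H) ↔ (∀ g : G, g ∉ H → Cfsg.PRankLE p (k - 1) ↥(H ⊓ H.map (MulAut.conj g).toMonoidHom)) := by
  classical
  -- reformulation of rank
  have hR : ∀ X : Subgroup G, ¬ Cfsg.PRankLE p (k - 1) ↥X ↔
      ∃ A : Subgroup G, A ≤ X ∧ IsMulCommutative A ∧ (∀ a ∈ A, a ^ p = 1) ∧ p ^ (k-1) < Nat.card A :=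
    fun X => rank_iff X
  have hR' : ∀ X : Subgroup G, Cfsg.PRankLE p (k - 1) ↥X ↔
      ¬ ∃ A : Subgroup G, A ≤ X ∧ IsMulCommutative A ∧ (∀ a ∈ A, a ^ p = 1) ∧ p ^ (k-1) < Nat.card A :=
    fun X => by rw [← hR X, not_not]
  set Ph : Subgroup G := (P : Subgroup ↥H).map H.subtype with hPh
  have hPhH : Ph ≤ H := by
    rw [hPh]; exact Subgroup.map_subtype_le _
  have hPhR : ∃ A : Subgroup G, A ≤ Ph ∧ IsMulCommutative A ∧ (∀ a ∈ A, a ^ p = 1) ∧
      p ^ (k-1) < Nat.card A := by
    have h1 : ¬ Cfsg.PRankLE p (k - 1) ↥Ph := by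
      intro hcon
      apply hP
      intro A hA1 hA2
      let e := (P : Subgroup ↥H).equivMapOfInjective H.subtype H.subtype_injective
      have := hcon (A.map e.toMonoidHom) inferInstance (by
        rintro _ ⟨a, ha, rfl⟩
        rw [← map_pow, hA2 a ha, map_one])
      rwa [Subgroup.card_map_of_injective e.injective] at this
    exact (hR Ph).1 h1
  constructor
  · intro hN g hg
    rw [hR']
    rintro ⟨A, hAle, hAc, hAp, hAcard⟩
    have key : ∀ n : ℕ, ∀ X : Subgroup G, X ≤ Ph →
        (∃ A : Subgroup G, A ≤ X ∧ IsMulCommutative A ∧ (∀ a ∈ A, a ^ p = 1) ∧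
          p ^ (k-1) < Nat.card A) → Nat.card Ph - Nat.card X ≤ n →
        ∀ g : G, (∀ x ∈ X, g * x * g⁻¹ ∈ H) → g ∈ H := by
      intro n
      induction n with
      | zero =>
        intro X hX hXR hn g hgX
        have hcard : Nat.card X = Nat.card Ph := by
          have := Subgroup.card_le_of_le hX; omega
        have hXP : X = Ph := Subgroup.eq_of_le_of_card_ge hX hcard.ge
        exact final_step P hN ((hR Ph).2 hPhR) g (by rw [← hPh, ← hXP]; exact hgX)
      | succ n ih =>
        intro X hX hXR hn g hgX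
        by_cases hXP : X = Ph
        · exact final_step P hN ((hR Ph).2 hPhR) g (by rw [← hPh, ← hXP]; exact hgX)
        · -- move into Ph
          have hpX : IsPGroup p X := IsPGroup.to_le (by
            rw [hPh]; exact P.isPGroup'.map _) hX
          have hpX2 : IsPGroup p (X.map (MulAut.conj g).toMonoidHom) := hpX.map _
          obtain ⟨h, hhH, hh⟩ := exists_conj_le P (X.map (MulAut.conj g).toMonoidHom) (by
            rintro _ ⟨x, hx, rfl⟩; exact hgX x hx) hpX2
          set g' := h⁻¹ * g with hg'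
          have hg'X : ∀ x ∈ X, g' * x * g'⁻¹ ∈ Ph := by
            intro x hx
            have h1 := hh (g * x * g⁻¹) ⟨x, hx, rfl⟩
            have : g' * x * g'⁻¹ = h⁻¹ * (g * x * g⁻¹) * h := by rw [hg']; group
            rw [this]; exact h1
          suffices g' ∈ H by
            have h2 : g = h * g' := by rw [hg']; group
            rw [h2]; exact mul_mem hhH this
          -- normalizer grows
          have hlt : X < Subgroup.normalizer (X : Set G) ⊓ Ph := by
            have hnil : Group.IsNilpotent Ph := IsPGroup.isNilpotent (p := p) (by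
              rw [hPh]; exact P.isPGroup'.map _)
            have hnc := Group.normalizerCondition_of_isNilpotent (G := Ph)
            have hXlt : X.subgroupOf Ph < ⊤ := by
              rw [lt_top_iff_ne_top, Ne, Subgroup.subgroupOf_eq_top]
              intro hle; exact hXP (le_antisymm hX hle)
            have h3 := hnc _ hXlt
            refine lt_of_le_of_ne (le_inf Subgroup.le_normalizer hX) ?_
            intro heq
            obtain ⟨y, hy1, hy2⟩ := SetLike.exists_of_lt h3
            apply hy2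
            rw [Subgroup.mem_subgroupOf, heq]
            refine Subgroup.mem_inf.2 ⟨?_, y.2⟩
            rw [Subgroup.mem_normalizer_iff] at hy1 ⊢
            intro x
            constructor
            · intro hx
              have := (hy1 ⟨x, hX hx⟩).1 (Subgroup.mem_subgroupOf.2 hx)
              exact Subgroup.mem_subgroupOf.1 this
            · intro hx
              have hxP : x ∈ Ph := by
                have h5 := mul_mem (mul_mem (inv_mem y.2) (hX hx)) y.2
                have : (y.1)⁻¹ * (y.1 * x * y.1⁻¹) * y.1 = x := by group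
                rwa [this] at h5
              have := (hy1 ⟨x, hxP⟩).2 (Subgroup.mem_subgroupOf.2 hx)
              exact Subgroup.mem_subgroupOf.1 this
          have hcardlt : Nat.card X < Nat.card (Subgroup.normalizer (X : Set G) ⊓ Ph : Subgroup G) := by
            by_contra hcon
            push Not at hcon
            exact hlt.ne (Subgroup.eq_of_le_of_card_ge hlt.le hcon)
          obtain ⟨A, hA1, hA2, hA3, hA4⟩ := hXR
          apply ih (Subgroup.normalizer (X : Set G) ⊓ Ph) inf_le_right
            ⟨A, hA1.trans hlt.le, hA2, hA3, hA4⟩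
          · have := Subgroup.card_le_of_le (inf_le_right : Subgroup.normalizer (X : Set G) ⊓ Ph ≤ Ph)
            omega
          · intro y hy
            have hNX2 := hN (X.map (MulAut.conj g').toMonoidHom) (by
              rintro _ ⟨x, hx, rfl⟩; exact hg'X x hx) (by
              rw [hR]
              refine ⟨A.map (MulAut.conj g').toMonoidHom, Subgroup.map_mono hA1, inferInstance, ?_, ?_⟩
              · rintro _ ⟨a, ha, rfl⟩
                rw [← map_pow, hA3 a ha, map_one]
              · rw [Subgroup.card_map_of_injective (MulAut.conj g').injective]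
                exact hA4)
            apply hNX2
            have hyN := (Subgroup.mem_inf.1 hy).1
            rw [Subgroup.mem_normalizer_iff] at hyN ⊢
            intro z
            have hmem : ∀ z : G, z ∈ X.map (MulAut.conj g').toMonoidHom ↔ g'⁻¹ * z * g' ∈ X := by
              intro z
              constructor
              · rintro ⟨x, hx, rfl⟩
                have : g'⁻¹ * ((MulAut.conj g').toMonoidHom x) * g' = x := by
                  simp only [MulEquiv.toMonoidHom_eq_coe, MonoidHom.coe_coe, MulAut.conj_apply]; group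
                rw [this]; exact hx
              · intro hz
                refine ⟨_, hz, ?_⟩
                simp only [MulEquiv.toMonoidHom_eq_coe, MonoidHom.coe_coe, MulAut.conj_apply]; group
            rw [hmem, hmem, hyN]
            have : y * (g'⁻¹ * z * g') * y⁻¹ = g'⁻¹ * (g' * y * g'⁻¹ * z * (g' * y * g'⁻¹)⁻¹) * g' := by
              group
            rw [this]
    -- conclude
    have hpA : IsPGroup p A := by
      intro a
      exact ⟨1, Subtype.ext (by simpa using hAp a.1 a.2)⟩
    obtain ⟨h, hhH, hh⟩ := exists_conj_le P A (hAle.trans inf_le_left) hpA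
    have h1 : g⁻¹ * h ∈ H := by
      apply key _ (A.map (MulAut.conj h⁻¹).toMonoidHom) ?_ ?_ le_rfl
      · rintro _ ⟨a, ha, rfl⟩
        have h2 := hAle ha
        obtain ⟨-, x, hx, hxa⟩ := h2
        have : g⁻¹ * h * ((MulAut.conj h⁻¹).toMonoidHom a) * (g⁻¹ * h)⁻¹ = x := by
          rw [← hxa]
          simp only [MulEquiv.toMonoidHom_eq_coe, MonoidHom.coe_coe, MulAut.conj_apply]; group
        rw [this]; exact hx
      · rintro _ ⟨a, ha, rfl⟩
        have := hh a ha
        have e : (MulAut.conj h⁻¹).toMonoidHom a = h⁻¹ * a * h := by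
          simp only [MulEquiv.toMonoidHom_eq_coe, MonoidHom.coe_coe, MulAut.conj_apply]; group
        rw [e]; exact this
      · refine ⟨_, le_rfl, inferInstance, ?_, ?_⟩
        · rintro _ ⟨a, ha, rfl⟩
          rw [← map_pow, hAp a ha, map_one]
        · rw [Subgroup.card_map_of_injective (MulAut.conj h⁻¹).injective]
          exact hAcard
    apply hg
    have : g = h * (g⁻¹ * h)⁻¹ := by group
    rw [this]; exact mul_mem hhH (inv_mem h1)
  · intro hrank X hX hXR g hgN
    by_contra hg
    have h1 := (hR' _).1 (hrank g hg)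
    obtain ⟨A, hA1, hA2, hA3, hA4⟩ := (hR X).1 hXR
    apply h1
    refine ⟨A, le_inf ((hA1.trans hX).trans hPhH) ?_, hA2, hA3, hA4⟩
    intro a ha
    have haX := hA1 ha
    have h2 := (Subgroup.mem_normalizer_iff''.1 hgN a).1 haX
    refine ⟨g⁻¹ * a * g, hPhH (hX h2), ?_⟩
    simp only [MulEquiv.toMonoidHom_eq_coe, MonoidHom.coe_coe, MulAut.conj_apply]; group

end Cfsg.Agent.S1231
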