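import Cfsg.Statements.S1234
import Cfsg.Agent.Lib.H87.Hr.SD3

set_option autoImplicit false
open Cfsg

namespace Cfsg.Agent.S1234

/-- Let S be a finite 2-group and Q ≤ S a subgroup of order 32 having an elementary abelian subgroup E of order 16 and an involution s ∉ E whose centralizer in E has order 4 (so Q ≅ (Z₂ × Z₂) ≀ Z₂). If C_S(Z(Q)) = Q, then every section of S has 2-rank at most 4. -/
theorem result {S : Type*} [Group S] [Finite S] (hS : IsPGroup 2 S) (Q E : Subgroup S) (hEQ : E ≤ Q) (hE : Cfsg.IsElementaryAbelian 2 E) (hE16 : Nat.card E = 16) (hQ32 : Nat.card Q = 32) (s : S) (hsQ : s ∈ Q) (hsE : s ∉ E) (hs : orderOf s = 2) (hfix : Nat.card ↥(E ⊓ Subgroup.centralizer ({s} : Set S)) = 4) (hC : Subgroup.centralizer (((Subgroup.center Q).map Q.subtype : Subgroup S) : Set S) = Q) : Cfsg.SectionalPRankLE 2 4 S := by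
  have hEab : ∀ x ∈ E, ∀ y ∈ E, x * y = y * x := by
    intro x hx y hy
    have := hE.1.is_comm.comm (⟨x, hx⟩ : E) ⟨y, hy⟩
    exact congrArg Subtype.val this
  have hE2 : ∀ x ∈ E, x * x = 1 := fun x hx => by rw [← pow_two]; exact hE.2 x hx
  have hss : s * s = 1 := by rw [← pow_two, ← hs]; exact pow_orderOf_eq_one s
  have hc2 : Nat.card Q = Nat.card E * 2 := by rw [hQ32, hE16]
  have hmem : ∀ x, x ∈ Subgroup.centralizer ({s} : Set S) ↔ x * s = s * x := fun x =>
    Subgroup.mem_centralizer_singleton_iff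
  -- the centre of `Q`
  have hZ : (Subgroup.center Q).map Q.subtype ≤ E ⊓ Subgroup.centralizer ({s} : Set S) := by
    rintro _ ⟨w, hw, rfl⟩
    have hwc : ∀ q ∈ Q, q * (w : S) = w * q := by
      intro q hq
      have := Subgroup.mem_center_iff.1 hw ⟨q, hq⟩
      exact congrArg Subtype.val this
    refine ⟨?_, (hmem _).2 (hwc s hsQ).symm⟩
    by_contra hwE
    have h1 := H87.MW3.two_step hEQ hc2 hsQ w.2 hsE hwE
    have h2 : E ≤ Subgroup.centralizer ({s} : Set S) := by
      intro e he
      rw [hmem]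
      have h3 := hEab e he _ h1
      have h4 := hwc e (hEQ he)
      have h5 : e * s * (w : S) = s * e * w := by
        calc e * s * (w : S) = e * (s * w) := by group
          _ = s * w * e := h3
          _ = s * (w * e) := by group
          _ = s * (e * w) := by rw [h4]
          _ = _ := by group
      exact mul_right_cancel h5
    rw [inf_eq_left.2 h2, hE16] at hfix
    omega
  set Z := E ⊓ Subgroup.centralizer ({s} : Set S) with hZdef
  have hZQ : ∀ x, (∀ w ∈ Z, w * x = x * w) → x ∈ Q := by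
    intro x hx
    rw [← hC]
    exact Subgroup.mem_centralizer_iff.2 fun w hw => hx w (hZ hw)
  set A := Q ⊓ Subgroup.centralizer ({s} : Set S) with hA
  have hZA : Z ≤ A := fun x hx => ⟨hEQ hx.1, hx.2⟩
  have hsA : s ∈ A := ⟨hsQ, (hmem s).2 rfl⟩
  have hdec : ∀ x ∈ A, x ∈ Z ∨ s * x ∈ Z := by
    intro x hx
    by_cases hxE : x ∈ E
    · exact Or.inl ⟨hxE, hx.2⟩
    · refine Or.inr ⟨H87.MW3.two_step hEQ hc2 hsQ hx.1 hsE hxE, (hmem _).2 ?_⟩
      have := (hmem x).1 hx.2
      rw [mul_assoc, this]
  have hform : ∀ x ∈ A, ∃ u ∈ Z, x = u ∨ x = s * u := by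
    intro x hx
    rcases hdec x hx with h1 | h1
    · exact ⟨x, h1, Or.inl rfl⟩
    · exact ⟨s * x, h1, Or.inr (by rw [← mul_assoc, hss, one_mul])⟩
  have hus : ∀ u ∈ Z, u * s = s * u := fun u hu => (hmem u).1 hu.2
  have hA8 : Nat.card A = 8 := by
    have h1 : Nat.card A ≤ 2 * Nat.card Z := H87.MW5.card_le_two_mul hdec
    have h2 : 2 * Nat.card Z ≤ Nat.card A :=
      H87.SC3.two_card_le (lt_of_le_of_ne hZA fun e => hsE (by rw [← e] at hsA; exact hsA.1))
    rw [hfix] at h1 h2
    omega
  refine H87.MW1.toSect (H87.SD3.main hS A ?_ ?_ hA8 ?_)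
  · intro x hx y hy
    obtain ⟨u, hu, hxu⟩ := hform x hx
    obtain ⟨v, hv, hyv⟩ := hform y hy
    have h1 := hEab u hu.1 v hv.1
    have h2 := hus u hu
    have h3 := hus v hv
    rcases hxu with rfl | rfl <;> rcases hyv with rfl | rfl
    · exact h1
    · calc x * (s * v) = (x * s) * v := by group
        _ = s * (x * v) := by rw [h2]; group
        _ = _ := by rw [h1]; group
    · calc s * u * y = s * (u * y) := by group
        _ = (s * y) * u := by rw [h1]; group
        _ = (y * s) * u := by rw [h3]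
        _ = _ := by group
    · calc s * u * (s * v) = s * (u * s) * v := by group
        _ = s * s * (u * v) := by rw [h2]; group
        _ = s * s * (v * u) := by rw [h1]
        _ = s * (s * v) * u := by group
        _ = s * (v * s) * u := by rw [h3]
        _ = _ := by group
  · intro x hx
    obtain ⟨u, hu, hxu⟩ := hform x hx
    rcases hxu with rfl | rfl
    · exact hE2 _ hu.1
    · calc s * u * (s * u) = s * (u * s) * u := by group
        _ = (s * s) * (u * u) := by rw [hus u hu]; group
        _ = 1 := by rw [hss, hE2 u hu.1, one_mul]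
  · intro x hx
    refine ⟨hZQ x fun w hw => hx w (hZA hw), (hmem x).2 (hx s hsA).symm⟩

end Cfsg.Agent.S1234
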