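import Cfsg.Statements.S1235
import Cfsg.Agent.Lib.H26.SelfCent8

set_option autoImplicit false
open Cfsg

namespace Cfsg.Agent.S1235


open H38.Basic H26.SelfCent16 H26.SelfCent8

/-- a group with a cyclic subgroup of index two -/
def CycTwo (D : Type*) [Group D] : Prop :=
  ∃ C : Subgroup D, IsCyclic C ∧ C.index = 2 ∧ ∃ x y : D, x * y ≠ y * x

theorem cycTwo_congr {D D' : Type*} [Group D] [Group D'] (e : D ≃* D') (h : CycTwo D') : CycTwo D := by
  obtain ⟨C, hC, hi, x, y, hxy⟩ := h
  refine ⟨C.comap e.toMonoidHom, ?_, ?_, e.symm x, e.symm y, ?_⟩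
  · let f : C.comap e.toMonoidHom →* C := (e.toMonoidHom.comp (C.comap e.toMonoidHom).subtype).codRestrict C
      (fun c => c.2)
    exact isCyclic_of_injective f (fun a b hab => Subtype.ext (e.injective (congrArg Subtype.val hab)))
  · rw [Subgroup.index_comap_of_surjective _ e.surjective]; exact hi
  · intro h
    apply hxy
    have := congrArg e h
    simpa using this

theorem cycTwo_dihedral {m : ℕ} (hm : 3 ≤ m) : CycTwo (DihedralGroup m) := by
  have hne : NeZero m := ⟨by omega⟩
  refine ⟨Subgroup.zpowers (DihedralGroup.r 1), inferInstance, ?_, DihedralGroup.r 1,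
    DihedralGroup.sr 0, ?_⟩
  · have h1 := (Subgroup.zpowers (DihedralGroup.r (1 : ZMod m))).card_mul_index
    rw [Nat.card_zpowers, DihedralGroup.orderOf_r_one, DihedralGroup.nat_card] at h1
    have : 0 < m := by omega
    nlinarith
  · intro h
    rw [DihedralGroup.r_mul_sr, DihedralGroup.sr_mul_r] at h
    have h1 : (0 : ZMod m) - 1 = 0 + 1 := by
      injection h
    have h2 : (2 : ZMod m) = 0 := by
      have : (2 : ZMod m) = (0 + 1) - (0 - 1) := by ring
      rw [this, h1, sub_self]
    have h3 : ((2 : ℕ) : ZMod m) = 0 := by exact_mod_cast h2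
    rw [ZMod.natCast_eq_zero_iff] at h3
    have := Nat.le_of_dvd (by norm_num) h3
    omega

theorem cycTwo_quasi {D : Type*} [Group D] (h : Cfsg.IsQuasiDihedral D) : CycTwo D := by
  obtain ⟨n, hn, hcard, x, y, hx, hy, hxy⟩ := h
  have hfin : Finite D := Nat.finite_of_card_ne_zero (by rw [hcard]; positivity)
  refine ⟨Subgroup.zpowers x, inferInstance, ?_, x, y, ?_⟩
  · have h1 := (Subgroup.zpowers x).card_mul_index
    rw [Nat.card_zpowers, hx, hcard, pow_succ] at h1
    exact Nat.eq_of_mul_eq_mul_left (by positivity) h1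
  · intro hh
    have h1 : y * x * y⁻¹ = x := by rw [← hh, mul_inv_cancel_right]
    rw [h1] at hxy
    have h2 : x ^ 1 = x ^ (2 ^ (n - 1) - 1) := by rw [pow_one]; exact hxy
    rw [pow_inj_mod, hx] at h2
    have h3 : 2 ^ n = 2 * 2 ^ (n - 1) := by
      rw [← pow_succ']; congr 1; omega
    have h4 : 2 ^ 2 ≤ 2 ^ (n - 1) := Nat.pow_le_pow_right (by norm_num) (by omega)
    have h5 : 1 % 2 ^ n = 1 := Nat.mod_eq_of_lt (by omega)
    have h6 : (2 ^ (n - 1) - 1) % 2 ^ n = 2 ^ (n - 1) - 1 := Nat.mod_eq_of_lt (by omega)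
    rw [h5, h6] at h2
    omega

theorem main {G : Type*} [Group G] [Finite G] {T D B : Subgroup G} (hT : IsPGroup 2 T)
    (hprod : Cfsg.IsInternalDirectProduct D B T)
    (hD : (∃ m : ℕ, 2 ≤ m ∧ Nonempty (D ≃* DihedralGroup m)) ∨ Cfsg.IsQuasiDihedral D)
    (hB : IsKleinFour B)
    (hTb : ∀ b ∈ B, orderOf b = 2 → T ≤ Subgroup.centralizer ({b} : Set G) ∧
      Odd (T.relIndex (Subgroup.centralizer ({b} : Set G)))) : Cfsg.SectionalPRankLE 2 4 G := by
  have hp : Fact (Nat.Prime 2) := ⟨Nat.prime_two⟩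
  obtain ⟨hDT, hBT, hcomm, hinf, hsup⟩ := hprod
  obtain ⟨S, hTS⟩ := hT.exists_le_sylow
  apply H26.SecRankSyl.of_sylow S
  -- translate to `S`
  have hB4 : Nat.card B = 4 := hB.card_four
  have hB2 : ∀ b ∈ B, b * b = 1 := fun b hb => by
    have h1 : (⟨b, hb⟩ : B) ^ 2 = 1 := by
      rw [← hB.exponent_two]; exact Monoid.pow_exponent_eq_one _
    rw [pow_two] at h1
    exact congrArg Subtype.val h1
  have hDB : D ≤ Subgroup.normalizer (B : Set G) := by
    intro d hd
    rw [Subgroup.mem_normalizer_iff]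
    intro b
    constructor
    · intro hb
      rw [hcomm d hd b hb, mul_inv_cancel_right]; exact hb
    · intro hb
      have h1 := hcomm d hd _ hb
      have h2 : b = d * b * d⁻¹ := by
        calc b = d⁻¹ * (d * b * d⁻¹ * d) := by group
          _ = d⁻¹ * (d * (d * b * d⁻¹)) := by rw [h1]
          _ = d * b * d⁻¹ := by group
      rw [h2]; exact hb
  have hdecG : ∀ t ∈ T, ∃ d ∈ D, ∃ b ∈ B, t = d * b := by
    intro t ht
    have h2 : t ∈ ((D ⊔ B : Subgroup G) : Set G) := by rw [hsup]; exact ht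
    rw [Subgroup.coe_mul_of_left_le_normalizer_right _ _ hDB] at h2
    obtain ⟨d, hd, b, hb, rfl⟩ := h2
    exact ⟨d, hd, b, hb, rfl⟩
  have hcardT : Nat.card T = Nat.card D * 4 := by
    have h1 : Function.Bijective (fun q : D × B => (⟨(q.1 : G) * q.2,
        mul_mem (hDT q.1.2) (hBT q.2.2)⟩ : T)) := by
      constructor
      · rintro ⟨d, b⟩ ⟨d', b'⟩ h
        have h1 : (d : G) * b = d' * b' := congrArg Subtype.val h
        have h2 : (d' : G)⁻¹ * d = b' * (b : G)⁻¹ := by
          rw [inv_mul_eq_iff_eq_mul, ← mul_assoc, ← h1, mul_inv_cancel_right]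
        have h3 : (d' : G)⁻¹ * d ∈ D ⊓ B := Subgroup.mem_inf.mpr ⟨mul_mem (inv_mem d'.2) d.2, by
          rw [h2]; exact mul_mem b'.2 (inv_mem b.2)⟩
        rw [hinf, Subgroup.mem_bot] at h3
        have h4 : (d : G) = d' := (inv_mul_eq_one.mp h3).symm
        rw [h2] at h3
        have h5 : (b' : G) = b := mul_inv_eq_one.mp h3
        exact Prod.ext (Subtype.ext h4) (Subtype.ext h5.symm)
      · rintro ⟨t, ht⟩
        obtain ⟨d, hd, b, hb, rfl⟩ := hdecG t ht
        exact ⟨(⟨d, hd⟩, ⟨b, hb⟩), rfl⟩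
    rw [← Nat.card_eq_of_bijective _ h1, Nat.card_prod, hB4]
  have hcen : ∀ b ∈ B, b ≠ 1 → ∀ g ∈ (S : Subgroup G), g * b = b * g → g ∈ T := by
    intro b hb hb1 g hg hgb
    have hord : orderOf b = 2 := orderOf_eq_prime (by rw [pow_two]; exact hB2 b hb) hb1
    obtain ⟨h1, h2⟩ := hTb b hb hord
    have hsyl : IsSyl 2 T (Subgroup.centralizer ({b} : Set G)) :=
      ⟨h1, hT, fun h => (Nat.not_even_iff_odd.mpr h2) (even_iff_two_dvd.mpr h)⟩
    have h3 := hsyl.eq_of_le (Q := (S : Subgroup G) ⊓ Subgroup.centralizer ({b} : Set G))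
      (S.2.to_inf_left) inf_le_right (le_inf hTS h1)
    rw [h3]
    exact Subgroup.mem_inf.mpr ⟨hg, Subgroup.mem_centralizer_singleton_iff.mpr hgb⟩
  set T' := T.subgroupOf (S : Subgroup G) with hT'
  set B' := B.subgroupOf (S : Subgroup G) with hB'
  set D' := D.subgroupOf (S : Subgroup G) with hD'
  have hB4' : Nat.card B' = 4 := by
    rw [← hB4]; exact Nat.card_congr (Subgroup.subgroupOfEquivOfLe (hBT.trans hTS)).toEquiv
  have hcen' : ∀ b ∈ B', b ≠ 1 → ∀ g : (S : Subgroup G), g * b = b * g → g ∈ T' := by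
    intro b hb hb1 g hgb
    exact hcen b hb (fun h => hb1 (Subtype.ext h)) g g.2 (congrArg Subtype.val hgb)
  have hB2' : ∀ b ∈ B', b * b = 1 := fun b hb => Subtype.ext (hB2 b hb)
  have hcomm' : ∀ d ∈ D', ∀ b ∈ B', d * b = b * d := fun d hd b hb => Subtype.ext (hcomm d hd b hb)
  have hdec' : ∀ t ∈ T', ∃ d ∈ D', ∃ b ∈ B', t = d * b := by
    intro t ht
    obtain ⟨d, hd, b, hb, h⟩ := hdecG t ht
    exact ⟨⟨d, hTS (hDT hd)⟩, hd, ⟨b, hTS (hBT hb)⟩, hb, Subtype.ext h⟩
  have hDT' : D' ≤ T' := fun x hx => hDT hx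
  have hBT' : B' ≤ T' := fun x hx => hBT hx
  have hcyc : (∀ d : D, d * d = 1) ∧ Nat.card D = 4 ∨ CycTwo D := by
    rcases hD with ⟨m, hm, ⟨e⟩⟩ | h
    · by_cases h3 : 3 ≤ m
      · right; exact cycTwo_congr e (cycTwo_dihedral h3)
      · left
        have h2 : m = 2 := by omega
        subst h2
        constructor
        · intro d
          apply e.injective
          rw [map_mul, map_one, ← pow_two]
          have := Monoid.pow_exponent_eq_one (e d)
          rwa [IsKleinFour.exponent_two] at this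
        · rw [Nat.card_congr e.toEquiv, IsKleinFour.card_four]
    · right; exact cycTwo_quasi h
  rcases hcyc with ⟨hD2, hD4⟩ | hcyc
  · -- elementary abelian of order 16
    have hhyp : Hyp T' B' :=
      { two := S.2
        sq := by
          intro t ht
          obtain ⟨d, hd, b, hb, rfl⟩ := hdec' t ht
          have h1 := hcomm' d hd b hb
          have h21 : (d : G) * d = 1 := congrArg (fun z : D => (z : G)) (hD2 ⟨d, hd⟩)
          have h2 : d * d = 1 := Subtype.ext h21
          calc d * b * (d * b) = d * (b * d) * b := by group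
            _ = d * (d * b) * b := by rw [h1]
            _ = (d * d) * (b * b) := by group
            _ = 1 := by rw [h2, hB2' b hb, one_mul]
        card := by
          rw [hT', Nat.card_congr (Subgroup.subgroupOfEquivOfLe hTS).toEquiv, hcardT, hD4]
        le := hBT'
        cardB := hB4'
        cen := hcen' }
    rw [H76.SecRank.sectionalPRankLE_iff]
    intro N H hNH hc hpow
    exact hhyp.relIndex_le hNH hc hpow
  · obtain ⟨C, hCc, hCi, x, y, hxy⟩ := hcyc
    -- `C` inside `S`
    let ι : D →* (S : Subgroup G) := Subgroup.inclusion (hDT.trans hTS)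
    have hι : Function.Injective ι := Subgroup.inclusion_injective _
    have hmemι : ∀ d : (S : Subgroup G), d ∈ D' → ∃ d' : D, ι d' = d := fun d hd =>
      ⟨⟨d, hd⟩, rfl⟩
    have hCD : C.map ι ≤ D' := by
      rintro _ ⟨c, -, rfl⟩
      exact c.2
    have hCc' : IsCyclic (C.map ι) := by
      have := hCc
      exact isCyclic_of_surjective (ι.subgroupMap C) (ι.subgroupMap_surjective C)
    have hidx : ∀ d ∈ D', d ∉ C.map ι → ∀ y ∈ D', y ∈ C.map ι ∨ d⁻¹ * y ∈ C.map ι := by
      intro d hd hdC y hy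
      obtain ⟨d', rfl⟩ := hmemι d hd
      obtain ⟨y', rfl⟩ := hmemι y hy
      by_cases hyC : y' ∈ C
      · left; exact ⟨y', hyC, rfl⟩
      · right
        have hdC' : d' ∉ C := fun h => hdC ⟨d', h, rfl⟩
        have hdC'' : d'⁻¹ ∉ C := fun h => hdC' (by simpa using inv_mem h)
        refine ⟨d'⁻¹ * y', ?_, by rw [map_mul, map_inv]⟩
        change d'⁻¹ * y' ∈ C
        rw [Subgroup.mul_mem_iff_of_index_two hCi]
        exact iff_of_false hdC'' hyC
    have hna : ∃ x ∈ D', ∃ y ∈ D', x * y ≠ y * x :=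
      ⟨ι x, x.2, ι y, y.2, fun h => hxy (hι (by rw [map_mul, map_mul]; exact h))⟩
    have h8 := card_omegaCenter_le hDT' hB4' hB2' hcomm' hdec' hCD hCc' hidx hna
    have hBA : B' ≤ omegaCenter T' := by
      intro b hb
      refine ⟨hBT' hb, fun t ht => ?_, hB2' b hb⟩
      obtain ⟨d, hd, b', hb', rfl⟩ := hdec' t ht
      have h1 := hcomm' d hd b hb
      have h2 := comm_of_sq hB2' hb' hb
      calc d * b' * b = d * (b' * b) := by group
        _ = d * b * b' := by rw [h2]; group
        _ = b * (d * b') := by rw [h1]; group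
    have htop : T' = ⊤ := eq_top (B := B') (A := omegaCenter T') S.2 hBA hB4' hcen'
      (fun a ha t ht => (mem_omegaCenter.mp ha).2.1 t ht)
      (fun a ha => (mem_omegaCenter.mp ha).2.2) normalizer_le_omegaCenter h8
    have hidx8 : (C.map ι).index ≤ 8 := by
      have h1 := (C.map ι).card_mul_index
      have h2 : Nat.card (S : Subgroup G) = Nat.card D * 4 := by
        rw [← hcardT, ← Nat.card_congr (Subgroup.subgroupOfEquivOfLe hTS).toEquiv]
        change _ = Nat.card T'
        rw [htop]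
        exact (Nat.card_congr Subgroup.topEquiv.toEquiv).symm
      rw [h2, Subgroup.card_map_of_injective hι, ← C.card_mul_index, hCi] at h1
      have h3 : 0 < Nat.card C := Nat.card_pos
      have h4 : Nat.card C * (C.map ι).index = Nat.card C * 8 := by rw [h1]; ring
      exact (Nat.eq_of_mul_eq_mul_left h3 h4).le
    rw [H76.SecRank.sectionalPRankLE_iff]
    intro N H hNH hc hpow
    exact relIndex_le_of_cyclic hCc' hidx8 hpow


/-- Let G be a finite group, x an involution and T ≤ G a Sylow 2-subgroup of C_G(x) (T ≤ C_G(x) with |C_G(x) : T| odd) which is the internal direct product of a subgroup D that is dihedral (of order ≥ 4) or quasi-dihedral and a Klein four-subgroup B. Suppose that for every involution b ∈ B, T ≤ C_G(b) with |C_G(b) : T| odd. Then every section of G has 2-rank at most 4. -/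
theorem result {G : Type*} [Group G] [Finite G] (x : G) (hx : orderOf x = 2) (T D B : Subgroup G) (hT : IsPGroup 2 T) (hTx : T ≤ Subgroup.centralizer ({x} : Set G)) (hTxi : Odd (T.relIndex (Subgroup.centralizer ({x} : Set G)))) (hprod : Cfsg.IsInternalDirectProduct D B T) (hD : (∃ m : ℕ, 2 ≤ m ∧ Nonempty (D ≃* DihedralGroup m)) ∨ Cfsg.IsQuasiDihedral D) (hB : IsKleinFour B) (hTb : ∀ b ∈ B, orderOf b = 2 → T ≤ Subgroup.centralizer ({b} : Set G) ∧ Odd (T.relIndex (Subgroup.centralizer ({b} : Set G)))) : Cfsg.SectionalPRankLE 2 4 G := by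
  exact main hT hprod hD hB hTb


end Cfsg.Agent.S1235
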