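import Cfsg.Statements.S1236
import Mathlib

set_option autoImplicit false
open Cfsg

namespace Cfsg.Agent.S1236

/-- `D` with a cyclic subgroup `C` of index two such that elements outside `C` centralize at most two
elements of `C`: elementary abelian subgroups of order four are self-centralizing. -/
theorem centralizer_le {D : Type*} [Group D] [Finite D] (C : Subgroup D) (hC2 : C.index = 2)
    (hcyc : IsCyclic C)
    (hs : ∀ s, s ∉ C → Nat.card (C ⊓ Subgroup.centralizer ({s} : Set D) : Subgroup D) ≤ 2)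
    (U : Subgroup D) (hU : Cfsg.IsElementaryAbelian 2 U) (hU4 : Nat.card U = 4) :
    Subgroup.centralizer (U : Set D) ≤ U := by
  have hUC : ¬ U ≤ C := by
    intro h
    have h1 : IsCyclic (U.subgroupOf C) := inferInstance
    have h2 : IsCyclic U := isCyclic_of_surjective (Subgroup.subgroupOfEquivOfLe h)
      (Subgroup.subgroupOfEquivOfLe h).surjective
    obtain ⟨g, hg⟩ := IsCyclic.exists_generator (α := U)
    have h3 : orderOf g = 4 := by
      rw [← hU4]
      exact orderOf_eq_card_of_forall_mem_zpowers hg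
    have h4 : orderOf g ∣ 2 := by
      apply orderOf_dvd_of_pow_eq_one
      exact Subtype.ext (hU.2 g g.2)
    rw [h3] at h4
    norm_num at h4
  obtain ⟨s, hsU, hsC⟩ := Set.not_subset.mp hUC
  set Z := Subgroup.centralizer ({s} : Set D) with hZ
  have hZcard : Nat.card Z ≤ 4 := by
    have h1 : (C ⊓ Z).relIndex Z ≤ 2 := by
      rw [Subgroup.inf_relIndex_right]
      have h2 : C.relIndex Z ∣ C.index := by
        have : C.Normal := Subgroup.normal_of_index_eq_two hC2
        exact Subgroup.relIndex_dvd_index_of_normal C Z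
      rw [hC2] at h2
      exact Nat.le_of_dvd (by norm_num) h2
    have h2 : Nat.card (C ⊓ Z : Subgroup D) * (C ⊓ Z).relIndex Z = Nat.card Z := by
      rw [← Subgroup.relIndex_bot_left, ← Subgroup.relIndex_bot_left,
        Subgroup.relIndex_mul_relIndex _ _ _ bot_le inf_le_right]
    rw [← h2]
    calc Nat.card (C ⊓ Z : Subgroup D) * (C ⊓ Z).relIndex Z ≤ 2 * 2 :=
          Nat.mul_le_mul (hs s hsC) h1
      _ = 4 := by norm_num
  have hUZ : U ≤ Z := by
    intro u hu
    rw [hZ, Subgroup.mem_centralizer_singleton_iff]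
    exact congrArg Subtype.val (hU.1.is_comm.comm (⟨u, hu⟩ : U) ⟨s, hsU⟩)
  have h1 : U = Z := Subgroup.eq_of_le_of_card_ge hUZ (by rw [hU4]; exact hZcard)
  calc Subgroup.centralizer (U : Set D) ≤ Z := Subgroup.centralizer_le (by simpa using hsU)
    _ = U := h1.symm

theorem card_le_two_of_inj {D : Type*} [Group D] (K : Subgroup D) (m : ℕ) [NeZero m]
    (f : K → ZMod m) (hf : Function.Injective f) (h : ∀ k, 2 * f k = 0) : Nat.card K ≤ 2 := by
  classical
  have h1 : ∀ x : ZMod m, 2 * x = 0 → x.val = 0 ∨ 2 * x.val = m := by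
    intro x hx
    have h2 : (m : ℕ) ∣ 2 * x.val := by
      rw [← ZMod.natCast_eq_zero_iff]
      push_cast
      rw [ZMod.natCast_zmod_val]
      exact hx
    have h3 : x.val < m := ZMod.val_lt x
    obtain ⟨c, hc⟩ := h2
    have h4 : c < 2 := by
      by_contra h5
      push Not at h5
      have : m * 2 ≤ m * c := Nat.mul_le_mul_left m h5
      omega
    interval_cases c
    · left; omega
    · right; omega
  have h2 : Nat.card K ≤ Nat.card ({0, m / 2} : Finset ℕ) := by
    apply Nat.card_le_card_of_injective (fun k : K => (⟨(f k).val, by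
      rcases h1 _ (h k) with h3 | h3
      · simp [h3]
      · have : (f k).val = m / 2 := by omega
        simp [this]⟩ : ({0, m / 2} : Finset ℕ)))
    intro a b hab
    apply hf
    exact ZMod.val_injective m (congrArg Subtype.val hab)
  refine h2.trans ?_
  rw [Nat.card_eq_fintype_card, Fintype.card_coe]
  exact Finset.card_le_two

theorem dihedral_case {D : Type*} [Group D] [Finite D] (m : ℕ) (hm : 2 ≤ m)
    (e : D ≃* DihedralGroup m) (U : Subgroup D) (hU : Cfsg.IsElementaryAbelian 2 U)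
    (hU4 : Nat.card U = 4) : Subgroup.centralizer (U : Set D) ≤ U := by
  have : NeZero m := ⟨by omega⟩
  let r : D := e.symm (DihedralGroup.r 1)
  have hr : ∀ k : ℤ, r ^ k = e.symm (DihedralGroup.r (k : ZMod m)) := by
    intro k
    change (e.symm (DihedralGroup.r 1)) ^ k = _
    rw [← map_zpow, DihedralGroup.r_one_zpow]
  have hmem : ∀ x : D, x ∈ Subgroup.zpowers r ↔ ∃ i : ZMod m, e x = DihedralGroup.r i := by
    intro x
    rw [Subgroup.mem_zpowers_iff]
    constructor
    · rintro ⟨k, rfl⟩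
      exact ⟨k, by rw [hr]; simp⟩
    · rintro ⟨i, hi⟩
      refine ⟨(i.val : ℤ), ?_⟩
      rw [hr, MulEquiv.symm_apply_eq, hi]
      simp
  have hcard : Nat.card (Subgroup.zpowers r) = m := by
    rw [Nat.card_zpowers]
    have h1 : orderOf r = orderOf (DihedralGroup.r 1 : DihedralGroup m) :=
      orderOf_injective e.symm.toMonoidHom e.symm.injective _
    rw [h1, DihedralGroup.orderOf_r_one]
  refine centralizer_le (Subgroup.zpowers r) ?_ inferInstance ?_ U hU hU4
  · have h1 := (Subgroup.zpowers r).card_mul_index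
    rw [hcard, Nat.card_congr e.toEquiv, DihedralGroup.nat_card] at h1
    have h2 : m * (Subgroup.zpowers r).index = m * 2 := by rw [h1]; ring
    exact Nat.eq_of_mul_eq_mul_left (by omega) h2
  · intro s hs
    obtain ⟨i, hi⟩ : ∃ i : ZMod m, e s = DihedralGroup.sr i := by
      rcases h1 : e s with i | i
      · exact absurd ((hmem s).mpr ⟨i, h1⟩) hs
      · exact ⟨i, rfl⟩
    have key : ∀ x : (Subgroup.zpowers r ⊓ Subgroup.centralizer ({s} : Set D) : Subgroup D),
        ∃ j : ZMod m, e (x : D) = DihedralGroup.r j := fun x =>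
      (hmem _).mp (Subgroup.mem_inf.mp x.2).1
    choose f hf using key
    apply card_le_two_of_inj _ m f
    · intro a b hab
      apply Subtype.ext
      apply e.injective
      rw [hf a, hf b, hab]
    · intro x
      have h1 := Subgroup.mem_centralizer_singleton_iff.mp (Subgroup.mem_inf.mp x.2).2
      have h2 : e ((x : D) * s) = e (s * (x : D)) := congrArg e h1
      rw [map_mul, map_mul, hi, hf x, DihedralGroup.r_mul_sr, DihedralGroup.sr_mul_r] at h2
      have h3 : i - f x = i + f x := DihedralGroup.sr.inj h2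
      have h4 : f x + f x = 0 := by
        have h5 : i + f x - (i - f x) = 0 := by rw [h3]; ring
        have h6 : i + f x - (i - f x) = f x + f x := by ring
        rw [← h6]; exact h5
      rw [two_mul]
      exact h4

theorem quasiDihedral_case {D : Type*} [Group D] [Finite D] (hD : Cfsg.IsQuasiDihedral D)
    (U : Subgroup D) (hU : Cfsg.IsElementaryAbelian 2 U)
    (hU4 : Nat.card U = 4) : Subgroup.centralizer (U : Set D) ≤ U := by
  obtain ⟨n, hn, hcard, x, y, hx, hy, hxy⟩ := hD
  have hcardx : Nat.card (Subgroup.zpowers x) = 2 ^ n := by rw [Nat.card_zpowers, hx]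
  have hidx : (Subgroup.zpowers x).index = 2 := by
    have h1 := (Subgroup.zpowers x).card_mul_index
    rw [hcardx, hcard, pow_succ] at h1
    exact Nat.eq_of_mul_eq_mul_left (by positivity) h1
  refine centralizer_le (Subgroup.zpowers x) hidx inferInstance ?_ U hU hU4
  -- `y ∉ ⟨x⟩`
  have hyx : y ∉ Subgroup.zpowers x := by
    intro h
    obtain ⟨k, hk⟩ := Subgroup.mem_zpowers_iff.mp h
    have h1 : y * x * y⁻¹ = x := by
      rw [← hk]
      have : Commute (x ^ k) x := (Commute.refl x).zpow_left k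
      rw [this.eq, mul_assoc, mul_inv_cancel, mul_one]
    rw [h1] at hxy
    have h2 : x ^ 1 = x ^ (2 ^ (n - 1) - 1) := by rw [pow_one]; exact hxy
    rw [pow_eq_pow_iff_modEq, hx] at h2
    have h3 : 1 < 2 ^ n := Nat.one_lt_two_pow (by omega)
    have h4 : 2 ^ n = 2 * 2 ^ (n - 1) := by rw [← pow_succ']; congr 1; omega
    have h5 : 4 ≤ 2 ^ (n - 1) := by
      calc 4 = 2 ^ 2 := by norm_num
        _ ≤ 2 ^ (n - 1) := Nat.pow_le_pow_right (by norm_num) (by omega)
    have h6 : 2 ^ (n - 1) - 1 < 2 ^ n := by omega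
    have h7 := Nat.ModEq.eq_of_lt_of_lt h2 h3 h6
    omega
  intro s hs
  -- `s = x^i y`, so it acts as `y` on `⟨x⟩`
  have hsy : s * y⁻¹ ∈ Subgroup.zpowers x := by
    have h1 := (Subgroup.mul_mem_iff_of_index_two hidx (a := s) (b := y⁻¹)).mpr
      (by simp [hs, hyx])
    exact h1
  have hact : ∀ k : ℤ, s * x ^ k * s⁻¹ = x ^ (k * (2 ^ (n - 1) - 1 : ℕ)) := by
    intro k
    obtain ⟨i, hi⟩ := Subgroup.mem_zpowers_iff.mp hsy
    have h1 : s = x ^ i * y := by rw [hi]; group
    have h2 : y * x ^ k * y⁻¹ = x ^ (k * (2 ^ (n - 1) - 1 : ℕ)) := by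
      rw [← conj_zpow, hxy, ← zpow_natCast, ← zpow_mul, mul_comm]
    have h3 : Commute (x ^ i) (x ^ (k * (2 ^ (n - 1) - 1 : ℕ))) := (Commute.refl x).zpow_zpow _ _
    calc s * x ^ k * s⁻¹ = x ^ i * (y * x ^ k * y⁻¹) * (x ^ i)⁻¹ := by rw [h1]; group
      _ = x ^ i * x ^ (k * (2 ^ (n - 1) - 1 : ℕ)) * (x ^ i)⁻¹ := by rw [h2]
      _ = x ^ (k * (2 ^ (n - 1) - 1 : ℕ)) := by rw [h3.eq, mul_inv_cancel_right]
  -- elements of `⟨x⟩` centralized by `s` have order dividing two
  have hsq : ∀ z : (Subgroup.zpowers x ⊓ Subgroup.centralizer ({s} : Set D) : Subgroup D),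
      z ^ 2 = 1 := by
    rintro ⟨z, hz⟩
    obtain ⟨hz1, hz2⟩ := Subgroup.mem_inf.mp hz
    obtain ⟨k, rfl⟩ := Subgroup.mem_zpowers_iff.mp hz1
    have h1 := Subgroup.mem_centralizer_singleton_iff.mp hz2
    have h2 : s * x ^ k * s⁻¹ = x ^ k := by rw [← h1, mul_inv_cancel_right]
    rw [hact k] at h2
    have h3 : x ^ (k * (2 ^ (n - 1) - 1 : ℕ) - k) = 1 := by
      rw [zpow_sub, h2, mul_inv_cancel]
    rw [← orderOf_dvd_iff_zpow_eq_one, hx] at h3
    apply Subtype.ext
    change (x ^ k) ^ 2 = 1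
    rw [← zpow_natCast, ← zpow_mul, ← orderOf_dvd_iff_zpow_eq_one, hx]
    -- `2^n ∣ k (2^(n-1) - 2)`, and `2^(n-1) - 2 = 2 (2^(n-2) - 1)`
    have h4 : (k * ((2 ^ (n - 1) - 1 : ℕ) : ℤ) - k) = k * 2 * ((2 ^ (n - 2) : ℤ) - 1) := by
      have h5 : ((2 ^ (n - 1) - 1 : ℕ) : ℤ) = 2 * 2 ^ (n - 2) - 1 := by
        rw [Nat.cast_sub (Nat.one_le_two_pow)]
        push_cast
        have : n - 1 = (n - 2) + 1 := by omega
        rw [this, pow_succ]
        ring
      rw [h5]
      ring
    rw [h4] at h3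
    have h5 : IsCoprime ((2 ^ n : ℕ) : ℤ) ((2 ^ (n - 2) : ℤ) - 1) := by
      push_cast
      apply IsCoprime.pow_left
      refine ⟨2 ^ (n - 3), -1, ?_⟩
      have : n - 2 = (n - 3) + 1 := by omega
      rw [this, pow_succ]
      ring
    have h6 := h5.dvd_of_dvd_mul_right h3
    exact_mod_cast h6
  -- cyclic group with all squares trivial
  have hcyc : IsCyclic (Subgroup.zpowers x ⊓ Subgroup.centralizer ({s} : Set D) : Subgroup D) := by
    have h1 : IsCyclic ((Subgroup.zpowers x ⊓ Subgroup.centralizer ({s} : Set D)).subgroupOf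
      (Subgroup.zpowers x)) := inferInstance
    exact isCyclic_of_surjective (Subgroup.subgroupOfEquivOfLe inf_le_left)
      (Subgroup.subgroupOfEquivOfLe inf_le_left).surjective
  obtain ⟨g, hg⟩ := IsCyclic.exists_generator
    (α := (Subgroup.zpowers x ⊓ Subgroup.centralizer ({s} : Set D) : Subgroup D))
  rw [← orderOf_eq_card_of_forall_mem_zpowers hg]
  exact Nat.le_of_dvd (by norm_num) (orderOf_dvd_of_pow_eq_one (hsq g))

/-- Let R be a finite group, t a central involution of R such that R ⧸ ⟨t⟩ is dihedral (of order ≥ 4) or quasi-dihedral, and A ≤ R an elementary abelian subgroup of order 8 containing t. Then C_R(A) = A. -/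
theorem result {R : Type*} [Group R] [Finite R] (t : R) (ht : orderOf t = 2) (htz : t ∈ Subgroup.center R) [(Subgroup.zpowers t).Normal] (hq : (∃ m : ℕ, 2 ≤ m ∧ Nonempty (R ⧸ Subgroup.zpowers t ≃* DihedralGroup m)) ∨ Cfsg.IsQuasiDihedral (R ⧸ Subgroup.zpowers t)) (A : Subgroup R) (hA : Cfsg.IsElementaryAbelian 2 A) (hA8 : Nat.card A = 8) (htA : t ∈ A) : Subgroup.centralizer (A : Set R) = A := by
  set T := Subgroup.zpowers t with hT
  set π := QuotientGroup.mk' T with hπ
  have hTA : T ≤ A := Subgroup.zpowers_le.mpr htA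
  have hUel : Cfsg.IsElementaryAbelian 2 (A.map π) := by
    refine ⟨⟨⟨?_⟩⟩, ?_⟩
    · rintro ⟨_, a, ha, rfl⟩ ⟨_, b, hb, rfl⟩
      apply Subtype.ext
      change π a * π b = π b * π a
      rw [← map_mul, ← map_mul]
      exact congrArg π (congrArg Subtype.val (hA.1.is_comm.comm (⟨a, ha⟩ : A) ⟨b, hb⟩))
    · rintro _ ⟨a, ha, rfl⟩
      rw [← map_pow, hA.2 a ha, map_one]
  have hU4 : Nat.card (A.map π) = 4 := by
    have h1 : Nat.card T * Nat.card (A.map π) = Nat.card A := by
      have h2 : Nat.card ((A.map π).comap π) = Nat.card T * Nat.card (A.map π) :=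
        QuotientGroup.card_preimage_mk T (A.map π : Set (R ⧸ T))
      rw [← h2, hπ, QuotientGroup.comap_map_mk', sup_eq_right.mpr hTA]
    have hTc : Nat.card T = 2 := by rw [hT, Nat.card_zpowers, ht]
    rw [hA8, hTc] at h1
    omega
  have key : Subgroup.centralizer (A.map π : Set (R ⧸ T)) ≤ A.map π := by
    rcases hq with ⟨m, hm, ⟨e⟩⟩ | hq
    · exact dihedral_case m hm e _ hUel hU4
    · exact quasiDihedral_case hq _ hUel hU4
  apply le_antisymm
  · intro x hx
    have h1 : π x ∈ Subgroup.centralizer (A.map π : Set (R ⧸ T)) := by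
      rw [Subgroup.mem_centralizer_iff]
      rintro _ ⟨a, ha, rfl⟩
      rw [← map_mul, ← map_mul, Subgroup.mem_centralizer_iff.mp hx a ha]
    obtain ⟨a, ha, hax⟩ := key h1
    have h2 : a⁻¹ * x ∈ T := QuotientGroup.eq.mp hax
    have h3 := A.mul_mem ha (hTA h2)
    rwa [mul_inv_cancel_left] at h3
  · intro a ha
    rw [Subgroup.mem_centralizer_iff]
    intro b hb
    exact congrArg Subtype.val (hA.1.is_comm.comm (⟨b, hb⟩ : A) ⟨a, ha⟩)

end Cfsg.Agent.S1236
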