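import Cfsg.Statements.S1242
import Cfsg.Agent.Lib.H26.TransferPow

set_option autoImplicit false
open Cfsg

namespace Cfsg.Agent.S1242

/-- Let G be a finite group, p a prime and H a subgroup of index prime to p such that any two elements of H of p-power order that are conjugate in G are conjugate in H. Then (O^p(G)·G') ∩ H = O^p(H)·H', where O^p denotes the subgroup generated by the elements of order prime to p. -/
theorem result {G : Type*} [Group G] [Finite G] {p : ℕ} [Fact p.Prime] (H : Subgroup G) (hidx : Nat.Coprime p H.index) (hfus : ∀ g ∈ H, (∃ k : ℕ, orderOf g = p ^ k) → ∀ a : G, a * g * a⁻¹ ∈ H → ∃ h ∈ H, h * g * h⁻¹ = a * g * a⁻¹) : (Cfsg.pResidual p G ⊔ commutator G) ⊓ H = (Cfsg.pResidual p ↥H ⊔ commutator ↥H).map H.subtype := by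
  have hres : ∀ x : H, (orderOf x).Coprime p → x ∈ Cfsg.pResidual p H := fun x hx =>
    Subgroup.subset_closure (show x ∈ {g : H | Nat.Coprime (orderOf g) p} from hx)
  set A := Cfsg.pResidual p H ⊔ commutator H with hA
  have hcA : commutator H ≤ A := le_sup_right
  have hAn : A.Normal := Subgroup.Normal.of_commutator_le _ hcA
  have hcomm : ∀ a b : H ⧸ A, a * b = b * a := by
    have h1 : IsMulCommutative (H ⧸ A) := Subgroup.Normal.quotient_commutative_iff_commutator_le.mpr hcA
    exact fun a b => h1.is_comm.comm a b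
  let : CommGroup (H ⧸ A) := { (inferInstance : Group (H ⧸ A)) with mul_comm := hcomm }
  let φ : H →* H ⧸ A := QuotientGroup.mk' A
  have hφ : Function.Surjective φ := QuotientGroup.mk'_surjective A
  have hφ1 : ∀ x : H, (orderOf x).Coprime p → φ x = 1 := fun x hx =>
    (QuotientGroup.eq_one_iff x).mpr (Subgroup.mem_sup_left (hres x hx))
  have hp : IsPGroup p (H ⧸ A) := by
    rw [isPGroup_iff_pow_pow_eq_one]
    intro y
    obtain ⟨x, rfl⟩ := hφ y
    obtain ⟨u, v, h1, ⟨k, hk⟩, h3⟩ := H26.TransferPow.exists_pPart p x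
    refine ⟨k, ?_⟩
    rw [h1, map_mul, hφ1 _ h3, mul_one, ← map_pow, ← hk, pow_orderOf_eq_one, map_one]
  have htr : ∀ x : H, (∃ k : ℕ, orderOf x = p ^ k) →
      MonoidHom.transfer φ (x : G) = φ x ^ H.index := by
    rintro x ⟨k, hk⟩
    refine H26.TransferPow.transfer_eq_pow φ (x : G) x.2 ?_
    intro j a h
    have h0 : orderOf (x : G) = p ^ k := by rw [Subgroup.orderOf_coe, hk]
    have h1 : ∃ k : ℕ, orderOf ((x : G) ^ j) = p ^ k := by
      have h2 : orderOf ((x : G) ^ j) ∣ p ^ k := by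
        rw [← h0]
        exact orderOf_pow_dvd j
      obtain ⟨i, _, hi⟩ := (Nat.dvd_prime_pow (Fact.out : p.Prime)).mp h2
      exact ⟨i, hi⟩
    obtain ⟨b, hb, hb2⟩ := hfus _ (H.pow_mem x.2 j) h1 a⁻¹ (by simpa using h)
    have h3 : (⟨a⁻¹ * (x : G) ^ j * a, h⟩ : H) = ⟨b, hb⟩ * x ^ j * ⟨b, hb⟩⁻¹ := by
      apply Subtype.ext
      push_cast
      rw [hb2, inv_inv]
    rw [h3, map_mul, map_mul, map_inv, map_pow, mul_comm (φ ⟨b, hb⟩), mul_inv_cancel_right]
  apply le_antisymm
  · rintro x ⟨hx, hxH⟩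
    have hker : Cfsg.pResidual p G ⊔ commutator G ≤ (MonoidHom.transfer φ).ker := by
      apply sup_le
      · rw [Cfsg.pResidual, Subgroup.closure_le]
        intro g hg
        exact H26.TransferPow.map_eq_one_of_coprime hp _ hg
      · exact Abelianization.commutator_subset_ker _
    have h1 : MonoidHom.transfer φ x = 1 := hker hx
    obtain ⟨u, v, h2, h3, h4⟩ := H26.TransferPow.exists_pPart p (⟨x, hxH⟩ : H)
    set y : H := ⟨x, hxH⟩ with hy
    have h5 : MonoidHom.transfer φ (y : G) = φ (y ^ u) ^ H.index := by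
      have h6 : (y : G) = ((y ^ u : H) : G) * ((y ^ v : H) : G) := by
        rw [← Subgroup.coe_mul, ← h2]
      rw [h6, map_mul, htr _ h3, H26.TransferPow.map_eq_one_of_coprime hp (MonoidHom.transfer φ)
        (x := ((y ^ v : H) : G)) (by rw [Subgroup.orderOf_coe]; exact h4), mul_one]
    have h6 : φ (y ^ u) ^ H.index = 1 := by rw [← h5]; exact h1
    have h7 : φ y = φ (y ^ u) := by
      conv_lhs => rw [h2, map_mul, hφ1 _ h4, mul_one]
    have h8 : φ y = 1 := by
      rw [h7]
      obtain ⟨k, hk⟩ := isPGroup_iff_pow_pow_eq_one.mp hp (φ (y ^ u))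
      have h9 : orderOf (φ (y ^ u)) ∣ 1 := by
        have h10 : Nat.Coprime (p ^ k) H.index := Nat.Coprime.pow_left k hidx
        rw [← h10]
        exact Nat.dvd_gcd (orderOf_dvd_of_pow_eq_one hk) (orderOf_dvd_of_pow_eq_one h6)
      exact orderOf_eq_one_iff.mp (Nat.dvd_one.mp h9)
    exact ⟨y, (QuotientGroup.eq_one_iff y).mp h8, rfl⟩
  · refine le_inf ?_ (Subgroup.map_subtype_le _)
    rw [hA, Subgroup.map_sup]
    apply sup_le_sup
    · rw [Cfsg.pResidual, MonoidHom.map_closure, Subgroup.closure_le]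
      rintro _ ⟨x, hx, rfl⟩
      refine Subgroup.subset_closure ?_
      change Nat.Coprime (orderOf (x : G)) p
      rw [Subgroup.orderOf_coe]
      exact hx
    · rw [Subgroup.map_subtype_commutator]
      exact Subgroup.commutator_mono le_top le_top

end Cfsg.Agent.S1242
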