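import Cfsg.Statements.S1243
import Mathlib

set_option autoImplicit false
open Cfsg

namespace Cfsg.Agent.S1243

theorem exists_conj_common {G : Type*} [Group G] [Finite G] {p : ℕ} [Fact p.Prime] {A B K : Subgroup G}
    (hA : IsPGroup p A) (hB : IsPGroup p B) (hAK : A ≤ K) (hBK : B ≤ K) :
    ∃ c ∈ K, ∃ P : Subgroup G, IsPGroup p P ∧ A ≤ P ∧ B.map (MulAut.conj c).toMonoidHom ≤ P := by
  obtain ⟨P, hP⟩ := (hA.comap_subtype (K := K)).exists_le_sylow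
  obtain ⟨Q, hQ⟩ := (hB.comap_subtype (K := K)).exists_le_sylow
  obtain ⟨c, hc⟩ := MulAction.exists_smul_eq K Q P
  refine ⟨c, c.2, (P : Subgroup K).map K.subtype, P.isPGroup'.map _, ?_, ?_⟩
  · intro a ha
    exact ⟨⟨a, hAK ha⟩, hP (Subgroup.mem_subgroupOf.mpr ha), rfl⟩
  · rintro _ ⟨b, hb, rfl⟩
    have h1 : (⟨b, hBK hb⟩ : K) ∈ Q := hQ (Subgroup.mem_subgroupOf.mpr hb)
    have h2 : c * ⟨b, hBK hb⟩ * c⁻¹ ∈ P := by
      rw [← hc]
      exact ⟨⟨b, hBK hb⟩, h1, rfl⟩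
    exact ⟨_, h2, rfl⟩

theorem result {G : Type*} [Group G] [Finite G] {p : ℕ} [Fact p.Prime] (T : Sylow p G) (W : Subgroup G) (hW : Cfsg.IsWeaklyClosed W (T : Subgroup G)) (d g : G) (hd : d ∈ Subgroup.centralizer (W : Set G)) (hgd : g * d * g⁻¹ ∈ Subgroup.centralizer (W : Set G)) : ∃ h ∈ Subgroup.normalizer (W : Set G), h * d * h⁻¹ = g * d * g⁻¹ := by
  have hWp : IsPGroup p W := T.isPGroup'.to_le hW.1
  set C := Subgroup.centralizer ({d} : Set G) with hC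
  have hWC : W ≤ C := by
    intro w hw
    rw [hC, Subgroup.mem_centralizer_singleton_iff]
    exact Subgroup.mem_centralizer_iff.mp hd w hw
  have hWC' : W.map (MulAut.conj g⁻¹).toMonoidHom ≤ C := by
    rintro _ ⟨w, hw, rfl⟩
    rw [hC, Subgroup.mem_centralizer_singleton_iff]
    have h1 := Subgroup.mem_centralizer_iff.mp hgd w hw
    change (g⁻¹ * w * g⁻¹⁻¹) * d = d * (g⁻¹ * w * g⁻¹⁻¹)
    calc (g⁻¹ * w * g⁻¹⁻¹) * d = g⁻¹ * (w * (g * d * g⁻¹)) * g := by group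
      _ = g⁻¹ * ((g * d * g⁻¹) * w) * g := by rw [h1]
      _ = d * (g⁻¹ * w * g⁻¹⁻¹) := by group
  obtain ⟨c, hc, P, hP, h1, h2⟩ := exists_conj_common hWp (hWp.map _) hWC hWC'
  obtain ⟨Q, hQ⟩ := hP.exists_le_sylow
  obtain ⟨y, hy⟩ := MulAction.exists_smul_eq G Q T
  have key : ∀ X : Subgroup G, X ≤ Q → X.map (MulAut.conj y).toMonoidHom ≤ T := by
    rintro X hX _ ⟨x, hx, rfl⟩
    have : (T : Subgroup G) = (y • Q : Sylow p G) := by rw [hy]
    rw [this]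
    exact ⟨x, hX hx, rfl⟩
  have h3 := hW.2 y (key W (h1.trans hQ))
  have h4 := key _ (h2.trans hQ)
  rw [Subgroup.map_map, Subgroup.map_map] at h4
  have h5 : ((MulAut.conj y).toMonoidHom.comp ((MulAut.conj c).toMonoidHom.comp
      (MulAut.conj g⁻¹).toMonoidHom)) = (MulAut.conj (y * c * g⁻¹)).toMonoidHom := by
    ext x
    simp [mul_assoc]
  rw [← MonoidHom.comp_assoc] at h5
  have h6 := hW.2 (y * c * g⁻¹) (by
    rw [← h5]
    exact h4)
  have h7 : y ∈ Subgroup.normalizer (W : Set G) := Subgroup.mem_normalizer_iff_map_conj_eq.mpr h3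
  have h8 : y * c * g⁻¹ ∈ Subgroup.normalizer (W : Set G) :=
    Subgroup.mem_normalizer_iff_map_conj_eq.mpr h6
  have h9 : c * g⁻¹ ∈ Subgroup.normalizer (W : Set G) := by
    have := Subgroup.mul_mem _ (Subgroup.inv_mem _ h7) h8
    have h10 : y⁻¹ * (y * c * g⁻¹) = c * g⁻¹ := by group
    rwa [h10] at this
  refine ⟨(c * g⁻¹)⁻¹, Subgroup.inv_mem _ h9, ?_⟩
  rw [hC, Subgroup.mem_centralizer_singleton_iff] at hc
  have h11 : c⁻¹ * d * c = d := by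
    rw [mul_assoc, ← hc]
    group
  calc (c * g⁻¹)⁻¹ * d * (c * g⁻¹)⁻¹⁻¹ = g * (c⁻¹ * d * c) * g⁻¹ := by group
    _ = g * d * g⁻¹ := by rw [h11]

end Cfsg.Agent.S1243
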