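import Cfsg.Statements.S1244
import Cfsg.Agent.Lib.H26.TransferPow

set_option autoImplicit false
open Cfsg

namespace Cfsg.Agent.S1244

open scoped IsMulCommutative in
/-- Let G be a finite group with no subgroup of index 2 whose Sylow 2-subgroup S is commutative, and let R ≤ S be a subgroup whose 2-rank is exactly one less than the 2-rank r of S. Then every involution of S is conjugate, by an element of N_G(S), to an element of R. -/
theorem aux {G : Type*} [Group G] [Finite G] (hG : ∀ H : Subgroup G, H.index ≠ 2) (S : Sylow 2 G) (hS : IsMulCommutative (S : Subgroup G)) (R : Subgroup G) (hR : ∀ a ∈ (S : Subgroup G), ∀ b ∈ (S : Subgroup G), a ^ 2 = 1 → b ^ 2 = 1 → a ∉ R → b ∉ R → a * b ∈ R) (t : G) (ht : orderOf t = 2) (htS : t ∈ S) : ∃ n ∈ Subgroup.normalizer ((S : Subgroup G) : Set G), n * t * n⁻¹ ∈ R := by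
  classical
  by_contra hcon
  push Not at hcon
  set N := Subgroup.normalizer ((S : Subgroup G) : Set G) with hN
  have hSN : (S : Subgroup G) ≤ N := Subgroup.le_normalizer
  have hmem : ∀ n : N, (n : G) * t * (n : G)⁻¹ ∈ (S : Subgroup G) := fun n =>
    (Subgroup.mem_normalizer_iff.mp n.2 t).mp htS
  let f : N → (S : Subgroup G) := fun n => ⟨n * t * (n : G)⁻¹, hmem n⟩
  have ht2 : t ^ 2 = 1 := by rw [← ht]; exact pow_orderOf_eq_one t
  have hf2 : ∀ n, (f n) ^ 2 = 1 := by
    intro n
    apply Subtype.ext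
    change ((n : G) * t * (n : G)⁻¹) ^ 2 = 1
    rw [conj_pow, ht2]
    group
  have hfs : ∀ (n : N) (s : N), (s : G) ∈ (S : Subgroup G) → f (n * s) = f n := by
    intro n s hs
    apply Subtype.ext
    change ((n * s : N) : G) * t * ((n * s : N) : G)⁻¹ = (n : G) * t * (n : G)⁻¹
    have h1 : (s : G) * t = t * s := congrArg Subtype.val
      (hS.is_comm.comm (⟨s, hs⟩ : (S : Subgroup G)) ⟨t, htS⟩)
    rw [Subgroup.coe_mul]
    calc (n : G) * s * t * ((n : G) * s)⁻¹ = n * (s * t) * (s : G)⁻¹ * (n : G)⁻¹ := by group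
      _ = n * (t * s) * (s : G)⁻¹ * (n : G)⁻¹ := by rw [h1]
      _ = (n : G) * t * (n : G)⁻¹ := by group
  let S' := (S : Subgroup G).subgroupOf N
  let : Fintype (N ⧸ S') := Fintype.ofFinite _
  let y : (S : Subgroup G) := ∏ q : N ⧸ S', f q.out
  -- number of factors is odd
  have hodd : Odd (Fintype.card (N ⧸ S')) := by
    rw [← Nat.card_eq_fintype_card, ← Subgroup.index_eq_card, ← Nat.not_even_iff_odd, even_iff_two_dvd]
    intro h
    have h1 : (S : Subgroup G).relIndex N * N.index = (S : Subgroup G).index :=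
      Subgroup.relIndex_mul_index hSN
    exact S.not_dvd_index (h1 ▸ Dvd.dvd.mul_right h _)
  -- `y` is fixed by `N`
  have hy : ∀ m : N, (m : G) * y * (m : G)⁻¹ = y := by
    intro m
    let c : (S : Subgroup G) →* (S : Subgroup G) :=
      ((S : Subgroup G).normalizerMonoidHom m).toMonoidHom
    have hc : ∀ s : (S : Subgroup G), ((c s : (S : Subgroup G)) : G) = m * s * (m : G)⁻¹ := fun s => rfl
    have h1 : c y = y := by
      change c (∏ q : N ⧸ S', f q.out) = ∏ q : N ⧸ S', f q.out
      rw [map_prod]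
      rw [← Equiv.prod_comp (MulAction.toPerm m : Equiv.Perm (N ⧸ S')) (fun q => f q.out)]
      apply Finset.prod_congr rfl
      intro q _
      have h2 : ∃ s : N, (s : G) ∈ (S : Subgroup G) ∧ (m • q).out = m * q.out * s := by
        have h3 : (QuotientGroup.mk (m * q.out) : N ⧸ S') = QuotientGroup.mk ((m • q).out) := by
          rw [QuotientGroup.out_eq']
          conv_rhs => rw [← QuotientGroup.out_eq' q]
          rfl
        have h4 := QuotientGroup.eq.mp h3
        exact ⟨(m * q.out)⁻¹ * (m • q).out, Subgroup.mem_subgroupOf.mp h4, by group⟩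
      obtain ⟨s, hs, h3⟩ := h2
      change c (f q.out) = f ((m • q).out)
      rw [h3, hfs _ s hs]
      apply Subtype.ext
      rw [hc]
      change (m : G) * ((q.out : G) * t * (q.out : G)⁻¹) * (m : G)⁻¹ =
        ((m * q.out : N) : G) * t * ((m * q.out : N) : G)⁻¹
      rw [Subgroup.coe_mul]
      group
    rw [← hc, h1]
  -- transfer
  have hy1 : y = 1 := by
    by_contra hne
    have htr := H26.TransferPow.transfer_eq_pow (MonoidHom.id (S : Subgroup G)) (y : G) y.2 (by
      intro k g h
      obtain ⟨n, hn, h2⟩ := S.conj_eq_normalizer_conj_of_mem ((y : G) ^ k) g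
        ((S : Subgroup G).pow_mem y.2 k) h
      apply Subtype.ext
      change g⁻¹ * (y : G) ^ k * g = (y : G) ^ k
      rw [h2]
      have h3 := hy ⟨n, hn⟩
      have h4 : (n : G) * y = y * n := by
        change (n : G) * y * (n : G)⁻¹ = y at h3
        calc n * (y : G) = (n * (y : G) * n⁻¹) * n := by group
          _ = y * n := by rw [h3]
      have h5 : (n : G) * (y : G) ^ k = (y : G) ^ k * n := (Commute.pow_right (show Commute n (y : G) from h4) k).eq
      rw [mul_assoc, ← h5]
      group)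
    obtain ⟨H, hH⟩ := H26.TransferPow.exists_index_eq S.isPGroup'
      (MonoidHom.transfer (MonoidHom.id (S : Subgroup G))) ⟨y, by
        rw [htr]
        intro h1
        apply hne
        have h2 : (y : (S : Subgroup G)) ^ (S : Subgroup G).index = 1 := h1
        obtain ⟨k, hk⟩ := isPGroup_iff_pow_pow_eq_one.mp S.isPGroup' y
        have h9 : orderOf y ∣ 1 := by
          have h10 : Nat.Coprime (2 ^ k) (S : Subgroup G).index :=
            Nat.Coprime.pow_left k ((Nat.Prime.coprime_iff_not_dvd Nat.prime_two).mpr S.not_dvd_index)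
          rw [← h10]
          exact Nat.dvd_gcd (orderOf_dvd_of_pow_eq_one hk) (orderOf_dvd_of_pow_eq_one h2)
        exact orderOf_eq_one_iff.mp (Nat.dvd_one.mp h9)⟩
    exact hG H hH
  -- parity
  have htR : t ∉ R := by
    have := hcon 1 (Subgroup.one_mem _)
    simpa using this
  have h1 : ∏ q : N ⧸ S', (f q.out * ⟨t, htS⟩) ∈ R.subgroupOf (S : Subgroup G) := by
    apply Subgroup.prod_mem
    intro q _
    rw [Subgroup.mem_subgroupOf]
    exact hR _ (hmem q.out) _ htS (congrArg Subtype.val (hf2 q.out)) ht2 (hcon _ q.out.2) htR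
  rw [Finset.prod_mul_distrib, Finset.prod_const, Finset.card_univ] at h1
  change y * (⟨t, htS⟩ : (S : Subgroup G)) ^ Fintype.card (N ⧸ S') ∈ _ at h1
  rw [hy1, one_mul] at h1
  obtain ⟨m, hm⟩ := hodd
  rw [hm] at h1
  have h2 : (⟨t, htS⟩ : (S : Subgroup G)) ^ (2 * m + 1) = ⟨t, htS⟩ := by
    apply Subtype.ext
    change t ^ (2 * m + 1) = t
    rw [pow_succ, pow_mul, ht2, one_pow, one_mul]
  rw [h2] at h1
  exact htR (Subgroup.mem_subgroupOf.mp h1)

/-- Let G be a finite group with no subgroup of index 2 whose Sylow 2-subgroup S is commutative, and let R ≤ S be a subgroup whose 2-rank is exactly one less than the 2-rank r of S. Then every involution of S is conjugate, by an element of N_G(S), to an element of R. -/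
theorem result {G : Type*} [Group G] [Finite G] (hG : ∀ H : Subgroup G, H.index ≠ 2) (S : Sylow 2 G) (hS : IsMulCommutative (S : Subgroup G)) (r : ℕ) (hr1 : 1 ≤ r) (hSr : Cfsg.PRankLE 2 r (S : Subgroup G) ∧ ¬ Cfsg.PRankLE 2 (r - 1) (S : Subgroup G)) (R : Subgroup G) (hRS : R ≤ S) (hRr : Cfsg.PRankLE 2 (r - 1) R ∧ (r = 1 ∨ ¬ Cfsg.PRankLE 2 (r - 2) R)) (t : G) (ht : orderOf t = 2) (htS : t ∈ S) : ∃ n ∈ Subgroup.normalizer ((S : Subgroup G) : Set G), n * t * n⁻¹ ∈ R := by
  refine aux hG S hS R ?_ t ht htS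
  -- the elements of order dividing 2 of `S`
  let V : Subgroup (S : Subgroup G) :=
    { carrier := {s | s ^ 2 = 1}
      one_mem' := one_pow 2
      mul_mem' := by
        intro a b ha hb
        change (a * b) ^ 2 = 1
        rw [(show Commute a b from hS.is_comm.comm a b).mul_pow]
        rw [show a ^ 2 = 1 from ha, show b ^ 2 = 1 from hb, one_mul]
      inv_mem' := by
        intro a ha
        change a⁻¹ ^ 2 = 1
        rw [inv_pow, show a ^ 2 = 1 from ha, inv_one] }
  have hVcard : Nat.card V ≤ 2 ^ r := hSr.1 V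
    ⟨⟨fun a b => Subtype.ext (hS.is_comm.comm _ _)⟩⟩ (fun a ha => ha)
  set W := R.subgroupOf (S : Subgroup G) ⊓ V with hW
  have hWcard : 2 ^ (r - 1) ≤ Nat.card W := by
    rcases hRr.2 with h1 | h1
    · rw [h1, Nat.sub_self, pow_zero]
      exact Nat.card_pos
    · unfold Cfsg.PRankLE at h1
      push Not at h1
      obtain ⟨A, hA1, hA2, hA3⟩ := h1
      have hAp : IsPGroup 2 A := by
        rw [isPGroup_iff_pow_pow_eq_one]
        intro a
        refine ⟨1, ?_⟩
        rw [pow_one]
        exact Subtype.ext (hA2 a a.2)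
      obtain ⟨n, hn⟩ := IsPGroup.iff_card.mp hAp
      rw [hn] at hA3
      have h2 : r - 2 < n := (Nat.pow_lt_pow_iff_right (by norm_num)).mp hA3
      have h3 : Nat.card A ≤ Nat.card W := by
        have h4 : ∀ a : A, (⟨(a : R), hRS (a : R).2⟩ : (S : Subgroup G)) ∈ W := by
          intro a
          refine Subgroup.mem_inf.mpr ⟨Subgroup.mem_subgroupOf.mpr (a : R).2, ?_⟩
          have := hA2 a a.2
          apply Subtype.ext
          exact congrArg (fun x : R => (x : G)) this
        apply Nat.card_le_card_of_injective (fun a : A => (⟨_, h4 a⟩ : W))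
        intro a b hab
        apply Subtype.ext
        apply Subtype.ext
        exact congrArg (fun x : W => ((x : (S : Subgroup G)) : G)) hab
      rw [hn] at h3
      exact le_trans (Nat.pow_le_pow_right (by norm_num) (by omega)) h3
  have hWV : W ≤ V := inf_le_right
  have hidx : W.relIndex V ≤ 2 := by
    have h1 : Nat.card W * W.relIndex V = Nat.card V := by
      rw [← Subgroup.relIndex_bot_left, ← Subgroup.relIndex_bot_left,
        Subgroup.relIndex_mul_relIndex _ _ _ bot_le hWV]
    have h2 : 2 ^ (r - 1) * W.relIndex V ≤ 2 ^ (r - 1) * 2 := by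
      calc 2 ^ (r - 1) * W.relIndex V ≤ Nat.card W * W.relIndex V := Nat.mul_le_mul_right _ hWcard
        _ = Nat.card V := h1
        _ ≤ 2 ^ r := hVcard
        _ = 2 ^ (r - 1) * 2 := by rw [← pow_succ]; congr 1; omega
    exact Nat.le_of_mul_le_mul_left h2 (by positivity)
  intro a ha b hb ha2 hb2 haR hbR
  have haV : (⟨a, ha⟩ : (S : Subgroup G)) ∈ V := Subtype.ext ha2
  have hbV : (⟨b, hb⟩ : (S : Subgroup G)) ∈ V := Subtype.ext hb2
  have haW : (⟨⟨a, ha⟩, haV⟩ : V) ∉ W.subgroupOf V := fun h =>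
    haR (Subgroup.mem_subgroupOf.mp (Subgroup.mem_inf.mp (Subgroup.mem_subgroupOf.mp h)).1)
  have hbW : (⟨⟨b, hb⟩, hbV⟩ : V) ∉ W.subgroupOf V := fun h =>
    hbR (Subgroup.mem_subgroupOf.mp (Subgroup.mem_inf.mp (Subgroup.mem_subgroupOf.mp h)).1)
  have hidx2 : (W.subgroupOf V).index = 2 := by
    have h1 : (W.subgroupOf V).index ≠ 1 := by
      intro h1
      rw [Subgroup.index_eq_one] at h1
      exact haW (h1 ▸ Subgroup.mem_top _)
    have h2 : (W.subgroupOf V).index ≠ 0 := Subgroup.FiniteIndex.index_ne_zero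
    have h3 : (W.subgroupOf V).index ≤ 2 := hidx
    omega
  have h1 := (Subgroup.mul_mem_iff_of_index_two hidx2 (a := ⟨⟨a, ha⟩, haV⟩) (b := ⟨⟨b, hb⟩, hbV⟩)).mpr
    (by simp [haW, hbW])
  exact Subgroup.mem_subgroupOf.mp (Subgroup.mem_inf.mp (Subgroup.mem_subgroupOf.mp h1)).1

end Cfsg.Agent.S1244
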