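import Cfsg.Statements.S1247
import Cfsg.Agent.Lib.H26.Bender

set_option autoImplicit false
open Cfsg

namespace Cfsg.Agent.S1247

/-- Let G be a non-abelian finite simple group, A a maximal subgroup, F = F*(A) its generalized Fitting subgroup (viewed in G), and S ≤ F a subgroup subnormal in F with C_F(S) ≤ S. Let B be any subgroup of G containing S. Then (a) for every prime q not dividing |F(A)|, O_q(B) ∩ A = 1; and (b) for every prime p dividing |F(A)|, O_p(B) commutes elementwise with the subgroup of F generated by its elements of order prime to p. -/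
theorem result {G : Type*} [Group G] [Finite G] [IsSimpleGroup G] (hna : ¬ IsMulCommutative G) (A : Subgroup G) (hA : IsCoatom A) (S : Subgroup G) (hSF : S ≤ (Cfsg.generalizedFittingSubgroup ↥A).map A.subtype) (hSsn : (S.subgroupOf ((Cfsg.generalizedFittingSubgroup ↥A).map A.subtype)).IsSubnormal) (hSC : (Cfsg.generalizedFittingSubgroup ↥A).map A.subtype ⊓ Subgroup.centralizer (S : Set G) ≤ S) (B : Subgroup G) (hSB : S ≤ B) : (∀ q : ℕ, q.Prime → ¬ q ∣ Nat.card (Cfsg.fittingSubgroup ↥A) → (Cfsg.pCore q ↥B).map B.subtype ⊓ A = ⊥) ∧ (∀ p : ℕ, p.Prime → p ∣ Nat.card (Cfsg.fittingSubgroup ↥A) → ∀ x ∈ (Cfsg.pCore p ↥B).map B.subtype, ∀ y ∈ (Cfsg.pResidual p ↥(Cfsg.generalizedFittingSubgroup ↥A)).map ((Cfsg.generalizedFittingSubgroup ↥A).subtype) , x * (A.subtype y) = (A.subtype y) * x) := by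
  set F := Cfsg.generalizedFittingSubgroup ↥A with hF
  set S' := S.subgroupOf A with hS'def
  have hSA : S ≤ A := hSF.trans (Subgroup.map_subtype_le _)
  have hS' : S' ≤ F := by
    intro s hs
    obtain ⟨t, ht, hts⟩ := hSF (Subgroup.mem_subgroupOf.mp hs)
    have : t = s := Subtype.ext hts
    rwa [← this]
  have hSn : S'.IsSubnormal := by
    have h1 : (S'.subgroupOf F).IsSubnormal := by
      let f : F →* F.map A.subtype := (F.equivMapOfInjective A.subtype A.subtype_injective).toMonoidHom
      have h2 := hSsn.comap f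
      exact h2
    exact h1.trans hS' (Subgroup.Normal.isSubnormal inferInstance)
  have hSC' : F ⊓ Subgroup.centralizer (S' : Set A) ≤ S' := by
    intro x hx
    obtain ⟨hx1, hx2⟩ := Subgroup.mem_inf.mp hx
    rw [hS'def, Subgroup.mem_subgroupOf]
    refine hSC (Subgroup.mem_inf.mpr ⟨Subgroup.mem_map_of_mem _ hx1, ?_⟩)
    rw [Subgroup.mem_centralizer_iff]
    intro s hs
    exact congrArg Subtype.val (Subgroup.mem_centralizer_iff.mp hx2 ⟨s, hSA hs⟩ hs)
  have hE : Cfsg.layer A ≤ S' := H26.Bender.layer_le hSn hSC'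
  have hZS : ∀ Z : Subgroup A, Z ≤ F → ⁅Z, F⁆ = ⊥ → Z ≤ S' := by
    intro Z hZ hZF
    refine le_trans (le_inf hZ ?_) hSC'
    exact (Subgroup.commutator_eq_bot_iff_le_centralizer.mp hZF).trans (Subgroup.centralizer_le hS')
  have hSN : ∀ p : ℕ, S' ≤ Subgroup.normalizer
      ((((Cfsg.pCore p ↥B).map B.subtype).subgroupOf A : Subgroup A) : Set A) := by
    intro p
    have h1 : S ≤ Subgroup.normalizer (((Cfsg.pCore p ↥B).map B.subtype : Subgroup G) : Set G) :=
      hSB.trans (H26.LocalFitting.le_normalizer_pc p B)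
    exact (Subgroup.comap_mono h1).trans (Subgroup.le_normalizer_comap A.subtype)
  have hYp : ∀ p : ℕ, IsPGroup p (((Cfsg.pCore p ↥B).map B.subtype).subgroupOf A) := fun p =>
    (H26.LocalFitting.isPGroup_pc p B).comap_subtype
  have hfit : ∀ p : ℕ, p.Prime → F = (Cfsg.layer A ⊔ H26.Bender.otherCores p A) ⊔ Cfsg.pCore p A := by
    intro p hp
    have : Fact p.Prime := ⟨hp⟩
    rw [hF, Cfsg.generalizedFittingSubgroup, H26.Bender.fitting_eq p, sup_comm (Cfsg.pCore p A), sup_assoc]
  refine ⟨?_, ?_⟩
  · intro q hq hdvd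
    have : Fact q.Prime := ⟨hq⟩
    set Y := ((Cfsg.pCore q ↥B).map B.subtype).subgroupOf A with hY
    have h1 := H26.Bender.commutator_opUp_gFitting hS' hE hSC' (hYp q) (hSN q)
    have h2 : Cfsg.pCore q A = ⊥ := by
      have h3 : IsPGroup q (Cfsg.pCore q A) := H1.Cores.isPGroup_pCore q
      by_contra hne
      have h4 : Nontrivial (Cfsg.pCore q A) := (Subgroup.nontrivial_iff_ne_bot _).mpr hne
      obtain ⟨n, hn0, hn⟩ := h3.nontrivial_iff_card.mp h4
      exact hdvd ((dvd_pow_self q hn0.ne').trans (hn ▸ Subgroup.card_dvd_of_le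
        (H1.Cores.pCore_le_fittingSubgroup q)))
    have h3 : F = Cfsg.layer A ⊔ H26.Bender.otherCores q A := by
      rw [hfit q hq, h2, sup_bot_eq]
    rw [← h3, Subgroup.commutator_comm, Subgroup.commutator_eq_bot_iff_le_centralizer] at h1
    have h4 : Subgroup.centralizer (F : Set A) ≤ F := H26.Components.centralizer_gFitting_le
    have h5 : Subgroup.centralizer (F : Set A) ≤ Cfsg.fittingSubgroup A := by
      apply H1.Cores.le_fittingSubgroup inferInstance
      have h6 : IsMulCommutative (Subgroup.centralizer (F : Set A)) := by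
        refine ⟨⟨fun a b => Subtype.ext ?_⟩⟩
        exact Subgroup.mem_centralizer_iff.mp b.2 a (h4 a.2)
      let : CommGroup (Subgroup.centralizer (F : Set A)) :=
        { (inferInstance : Group (Subgroup.centralizer (F : Set A))) with mul_comm := h6.is_comm.comm }
      exact CommGroup.isNilpotent
    have h6 : Y ≤ Cfsg.fittingSubgroup A := h1.trans h5
    have h7 : Y = ⊥ := by
      by_contra hne
      have h4 : Nontrivial Y := (Subgroup.nontrivial_iff_ne_bot _).mpr hne
      obtain ⟨n, hn0, hn⟩ := (hYp q).nontrivial_iff_card.mp h4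
      exact hdvd ((dvd_pow_self q hn0.ne').trans (hn ▸ Subgroup.card_dvd_of_le h6))
    exact disjoint_iff.mp (Subgroup.subgroupOf_eq_bot.mp h7)
  · intro p hp hdvd x hx y hy
    have : Fact p.Prime := ⟨hp⟩
    set R := (Cfsg.pCore p ↥B).map B.subtype with hR
    have hRp : IsPGroup p R := H26.LocalFitting.isPGroup_pc p B
    have h1 := H26.Bender.commutator_opUp_gFitting hS' hE hSC' (hYp p) (hSN p)
    have hyo : y ∈ Cfsg.layer A ⊔ H26.Bender.otherCores p A := by
      apply H26.Bender.opUp_gFitting_le p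
      rw [← H26.PxQ.opUp_top, H26.PxQ.map_opUp_of_injective p (Subgroup.subtype_injective _),
        ← MonoidHom.range_eq_map, Subgroup.range_subtype] at hy
      exact hy
    have hpne : Cfsg.pCore p A ≠ ⊥ := by
      intro h
      have h2 := H1.Cores.not_dvd_relIndex_pCore_fittingSubgroup (G := A) p
      rw [h, Subgroup.relIndex_bot_left] at h2
      exact h2 hdvd
    -- the central subgroups
    have hcent : ∀ r : ℕ, r.Prime →
        ⁅(Cfsg.pCore r A ⊓ Subgroup.centralizer (Cfsg.pCore r A : Set A) : Subgroup A), F⁆ = ⊥ := by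
      intro r hr
      have : Fact r.Prime := ⟨hr⟩
      rw [hfit r hr]
      refine H26.Basic.commutator_sup_right_eq_bot (H26.Basic.commutator_sup_right_eq_bot ?_ ?_) ?_
      · rw [Subgroup.commutator_comm]
        exact H26.Basic.commutator_eq_bot_mono (H26.Components.commutator_layer_pCore r) le_rfl inf_le_left
      · exact H26.Basic.commutator_eq_bot_mono (H26.Bender.commutator_pCore_otherCores r) inf_le_left le_rfl
      · exact Subgroup.commutator_eq_bot_iff_le_centralizer.mpr inf_le_right
    have hcS : ∀ r : ℕ, r.Prime →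
        Cfsg.pCore r A ⊓ Subgroup.centralizer (Cfsg.pCore r A : Set A) ≤ S' := by
      intro r hr
      have : Fact r.Prime := ⟨hr⟩
      exact hZS _ (inf_le_left.trans ((H1.Cores.pCore_le_fittingSubgroup r).trans
        H26.Components.fitting_le_gFitting)) (hcent r hr)
    have hcne : ∀ r : ℕ, r.Prime → Cfsg.pCore r A ≠ ⊥ →
        Cfsg.pCore r A ⊓ Subgroup.centralizer (Cfsg.pCore r A : Set A) ≠ ⊥ := by
      intro r hr hne h
      have : Fact r.Prime := ⟨hr⟩
      have h2 : Nontrivial (Cfsg.pCore r A) := (Subgroup.nontrivial_iff_ne_bot _).mpr hne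
      have h3 := (H1.Cores.isPGroup_pCore (G := A) r).center_nontrivial
      rw [← H26.GenFitting.map_center, Subgroup.map_eq_bot_iff_of_injective _
        (Subgroup.subtype_injective _)] at h
      exact (Subgroup.nontrivial_iff_ne_bot _).mp h3 h
    have hSB' : ∀ W : Subgroup A, W ≤ S' → W.map A.subtype ≤ Subgroup.normalizer (R : Set G) := by
      intro W hW
      have h2 : W.map A.subtype ≤ S := by
        rw [Subgroup.map_le_iff_le_comap]; exact hW
      exact h2.trans (hSB.trans (H26.LocalFitting.le_normalizer_pc p B))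
    have key : (Cfsg.layer A ≠ ⊥ ∨ ∃ r : ℕ, r.Prime ∧ r ≠ p ∧ Cfsg.pCore r A ≠ ⊥) → R ≤ A := by
      rintro (h | ⟨r, hr, hrp, h⟩)
      · refine H26.Bender.step_two hA hRp (Cfsg.pCore p A ⊓ Subgroup.centralizer (Cfsg.pCore p A : Set A))
          (Cfsg.layer A) (hcne p hp hpne) ((H1.Cores.isPGroup_pCore p).to_le inf_le_left) h
          (H26.PxQ.opUp_eq_of_perfect H26.Components.commutator_layer_self) ?_ (hSB' _ (hcS p hp))
          (hSB' _ hE) ?_
        · exact H26.Basic.commutator_eq_bot_mono (hcent p hp) le_rfl H26.Components.layer_le_gFitting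
        · exact H26.Basic.commutator_eq_bot_mono h1 le_sup_left le_rfl
      · have : Fact r.Prime := ⟨hr⟩
        have hcop : (Nat.card (Cfsg.pCore r A ⊓ Subgroup.centralizer (Cfsg.pCore r A : Set A) :
            Subgroup A)).Coprime p := by
          obtain ⟨n, hn⟩ := IsPGroup.iff_card.mp ((H1.Cores.isPGroup_pCore (G := A) r).to_le
            (inf_le_left : Cfsg.pCore r A ⊓ Subgroup.centralizer (Cfsg.pCore r A : Set A) ≤ _))
          rw [hn]
          exact Nat.Coprime.pow_left n ((Nat.coprime_primes hr hp).mpr hrp)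
        refine H26.Bender.step_two hA hRp (Cfsg.pCore p A ⊓ Subgroup.centralizer (Cfsg.pCore p A : Set A))
          (Cfsg.pCore r A ⊓ Subgroup.centralizer (Cfsg.pCore r A : Set A)) (hcne p hp hpne)
          ((H1.Cores.isPGroup_pCore p).to_le inf_le_left) (hcne r hr h)
          (H26.LocalFitting.opUp_eq_of_coprime hcop) ?_ (hSB' _ (hcS p hp))
          (hSB' _ (hcS r hr)) ?_
        · exact H26.Basic.commutator_eq_bot_mono (hcent p hp) le_rfl
            ((hcS r hr).trans hS')
        · exact H26.Basic.commutator_eq_bot_mono h1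
            (inf_le_left.trans ((H26.Bender.pCore_le_otherCores hr hrp).trans le_sup_right)) le_rfl
    by_cases hcase : (Cfsg.layer A ≠ ⊥ ∨ ∃ r : ℕ, r.Prime ∧ r ≠ p ∧ Cfsg.pCore r A ≠ ⊥)
    · have hRA := key hcase
      have h2 := H26.Basic.commute_of_commutator_eq_bot h1 hyo
        (show (⟨x, hRA hx⟩ : A) ∈ R.subgroupOf A from hx)
      exact (congrArg Subtype.val h2).symm
    · push Not at hcase
      obtain ⟨hl, hr⟩ := hcase
      have h2 : H26.Bender.otherCores p A = ⊥ := by
        rw [H26.Bender.otherCores, iSup_eq_bot]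
        rintro ⟨r, hr'⟩
        exact hr r r.2 hr'
      rw [hl, h2, sup_bot_eq, Subgroup.mem_bot] at hyo
      rw [hyo]
      simp

end Cfsg.Agent.S1247
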