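import Cfsg.Statements.S1254
import Cfsg.Agent.Lib.H26.DihSylow
import Cfsg.Agent.S0071
import Cfsg.Agent.Lib.H2.NPC
import Cfsg.Agent.Lib.H1.Coprime2
import Cfsg.Agent.Lib.H26.Basic

set_option autoImplicit false
open Cfsg

namespace Cfsg.Agent.S1254

/-- Let X be a finite group whose Sylow 2-subgroup S is dihedral (of order at least 4). Then X has a normal 2-complement if and only if, for every Klein four-subgroup U ≤ S, the normalizer N_X(U) is generated by C_X(U) and N_S(U). -/
theorem result {X : Type*} [Group X] [Finite X] (S : Sylow 2 X) (m : ℕ) (hm : 2 ≤ m) (eS : (S : Subgroup X) ≃* DihedralGroup m) : Cfsg.HasNormalPComplement 2 X ↔ ∀ U : Subgroup X, U ≤ S → IsKleinFour U → Subgroup.normalizer (U : Set X) = Subgroup.centralizer (U : Set X) ⊔ ((S : Subgroup X) ⊓ Subgroup.normalizer (U : Set X)) := by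
  have : Fact (Nat.Prime 2) := ⟨Nat.prime_two⟩
  rw [← H2.NPC.exists_isComplement'_iff S]
  constructor
  · rintro ⟨N, hN, hNS⟩ U hUS hU
    apply le_antisymm
    · intro n hn
      -- `n = k s`
      have htop : (n : X) ∈ N ⊔ (S : Subgroup X) := by
        rw [hNS.sup_eq_top]; exact Subgroup.mem_top n
      obtain ⟨k, hk, s, hs, rfl⟩ := (H26.Basic.mem_sup_of_le_normalizer'
        (by rw [Subgroup.normalizer_eq_top_iff.mpr hN]; exact le_top)).mp htop
      -- `s` acts on `U` as `n`
      have hact : ∀ u ∈ U, (k * s) * u * (k * s)⁻¹ = s * u * s⁻¹ := by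
        intro u hu
        have h1 : (k * s) * u * (k * s)⁻¹ ∈ U := (Subgroup.mem_normalizer_iff.mp hn u).mp hu
        have h2 : s * u * s⁻¹ ∈ (S : Subgroup X) :=
          mul_mem (mul_mem hs (hUS hu)) (inv_mem hs)
        have h3 : ((k * s) * u * (k * s)⁻¹) * (s * u * s⁻¹)⁻¹ ∈ N := by
          have h4 : ((k * s) * u * (k * s)⁻¹) * (s * u * s⁻¹)⁻¹ =
              k * ((s * u * s⁻¹) * k⁻¹ * (s * u * s⁻¹)⁻¹) := by group
          rw [h4]
          exact N.mul_mem hk (hN.conj_mem _ (N.inv_mem hk) _)
        have h4 : ((k * s) * u * (k * s)⁻¹) * (s * u * s⁻¹)⁻¹ ∈ (S : Subgroup X) :=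
          mul_mem (hUS h1) (inv_mem h2)
        have h5 : ((k * s) * u * (k * s)⁻¹) * (s * u * s⁻¹)⁻¹ = 1 := by
          have h6 := hNS.disjoint
          exact (Subgroup.disjoint_def.mp h6) h3 h4
        exact mul_inv_eq_one.mp h5
      have hsU : s ∈ Subgroup.normalizer (U : Set X) := by
        have h1 : ∀ u ∈ U, s * u * s⁻¹ ∈ U := by
          intro u hu
          rw [← hact u hu]
          exact (Subgroup.mem_normalizer_iff.mp hn u).mp hu
        have h2 : Subgroup.zpowers s ≤ Subgroup.normalizer (U : Set X) := by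
          rw [Subgroup.zpowers_le]
          have h3 : U.map (MulAut.conj s).toMonoidHom = U := by
            apply Subgroup.eq_of_le_of_card_ge
            · rintro _ ⟨u, hu, rfl⟩
              exact h1 u hu
            · rw [H38.Basic.card_conj]
          exact H38.Basic.mem_normalizer_iff'.mpr h3
        exact h2 (Subgroup.mem_zpowers s)
      have h1 : k * s = (k * s * s⁻¹) * s := by group
      rw [h1]
      refine Subgroup.mul_mem _ (Subgroup.mem_sup_left ?_) (Subgroup.mem_sup_right
        (Subgroup.mem_inf.mpr ⟨hs, hsU⟩))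
      rw [mul_inv_cancel_right, Subgroup.mem_centralizer_iff]
      intro u hu
      have hu' : s⁻¹ * u * s ∈ U := by
        have := (Subgroup.mem_normalizer_iff.mp (inv_mem hsU) u).mp hu
        simpa using this
      have h2 := hact _ hu'
      have h3 : s * (s⁻¹ * u * s) * s⁻¹ = u := by group
      rw [h3] at h2
      have h4 : k * s * (s⁻¹ * u * s) * (k * s)⁻¹ = k * u * k⁻¹ := by group
      rw [h4] at h2
      calc u * k = (k * u * k⁻¹) * k := by rw [h2]
        _ = k * u := by group
    · exact sup_le (Subgroup.centralizer_le_normalizer _) inf_le_right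
  · intro h
    refine (Cfsg.Agent.S0071.result S).mpr ?_
    intro Q hQ g hg ho
    have hodd : Odd (orderOf g) := Nat.coprime_two_right.mp ho
    by_cases hK : IsKleinFour Q
    · -- `N(Q)/C(Q)` is a 2-group
      have h1 := h Q hQ hK
      set N := Subgroup.normalizer (Q : Set X) with hN
      set C := Subgroup.centralizer (Q : Set X) with hC
      have hNC : (S : Subgroup X) ⊓ N ≤ Subgroup.normalizer (C : Set X) :=
        inf_le_right.trans (H1.Coprime2.le_normalizer_centralizer le_rfl)
      have hgn : g ∈ C ⊔ ((S : Subgroup X) ⊓ N) := by rw [← h1]; exact hg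
      obtain ⟨c, hc, s, hs, hcs⟩ := (H26.Basic.mem_sup_of_le_normalizer' hNC).mp hgn
      obtain ⟨k, hk⟩ := isPGroup_iff_pow_pow_eq_one.mp S.2 ⟨s, (Subgroup.mem_inf.mp hs).1⟩
      have hk' : s ^ 2 ^ k = 1 := by simpa using congrArg Subtype.val hk
      -- `g ^ (2^k) ∈ C`
      have hCn : (C.subgroupOf N).Normal :=
        Subgroup.normal_subgroupOf_of_le_normalizer (H1.Coprime2.le_normalizer_centralizer le_rfl)
      have h2 : g ^ 2 ^ k ∈ C := by
        set π := QuotientGroup.mk' (C.subgroupOf N) with hπ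
        have h3 : π ⟨g, hg⟩ = π ⟨s, (Subgroup.mem_inf.mp hs).2⟩ := by
          apply (QuotientGroup.eq (s := C.subgroupOf N)).mpr
          rw [Subgroup.mem_subgroupOf]
          change g⁻¹ * s ∈ C
          rw [← hcs]
          have h4 : (c * s)⁻¹ * s = s⁻¹ * c⁻¹ * s := by group
          rw [h4]
          have := (Subgroup.mem_normalizer_iff.mp (inv_mem (hNC hs)) c⁻¹).mp (C.inv_mem hc)
          simpa using this
        have h4 : π (⟨g, hg⟩ ^ 2 ^ k) = 1 := by
          rw [map_pow, h3, ← map_pow]
          have : (⟨s, (Subgroup.mem_inf.mp hs).2⟩ : N) ^ 2 ^ k = 1 := Subtype.ext hk'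
          rw [this, map_one]
        have h5 := (QuotientGroup.eq_one_iff _).mp h4
        exact Subgroup.mem_subgroupOf.mp h5
      have h3 : g ∈ Subgroup.zpowers (g ^ 2 ^ k) :=
        mem_zpowers_pow_iff.mpr (Nat.Coprime.pow_left k (Nat.coprime_two_left.mpr hodd))
      exact (Subgroup.zpowers_le.mpr h2) h3
    · exact H26.DihSylow.mem_centralizer_of_odd S hm eS (S.2.to_le hQ) hK hg hodd

end Cfsg.Agent.S1254
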