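import Cfsg.Statements.S1256
import Cfsg.Agent.Lib.H26.DihFusion

set_option autoImplicit false
open Cfsg

namespace Cfsg.Agent.S1256

/-- Let X be a finite group whose Sylow 2-subgroup S is dihedral of order 2m ≥ 4. If |S| = 4, any two Klein four-subgroups of X are conjugate; if |S| > 4, there are Klein four-subgroups U₁, U₂ of X that are not conjugate, and every Klein four-subgroup of X is conjugate to U₁ or to U₂. -/
theorem result {X : Type*} [Group X] [Finite X] (S : Sylow 2 X) (m : ℕ) (hm : 2 ≤ m) (eS : (S : Subgroup X) ≃* DihedralGroup m) : (Nat.card S = 4 → ∀ U V : Subgroup X, IsKleinFour U → IsKleinFour V → (∃ x : X, U.map (MulAut.conj x).toMonoidHom = V)) ∧ (4 < Nat.card S → ∃ U₁ U₂ : Subgroup X, IsKleinFour U₁ ∧ IsKleinFour U₂ ∧ ¬ (∃ x : X, U₁.map (MulAut.conj x).toMonoidHom = U₂) ∧ ∀ V : Subgroup X, IsKleinFour V → (∃ x : X, V.map (MulAut.conj x).toMonoidHom = U₁) ∨ (∃ x : X, V.map (MulAut.conj x).toMonoidHom = U₂)) := by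
  have : Fact (Nat.Prime 2) := ⟨Nat.prime_two⟩
  constructor
  · intro h4 U V hU hV
    -- both are Sylow
    have key : ∀ W : Subgroup X, IsKleinFour W → ∃ P : Sylow 2 X, (P : Subgroup X) = W := by
      intro W hW
      obtain ⟨P, hP⟩ := (H11.FourConn.isPGroup_of_isKleinFour hW).exists_le_sylow
      refine ⟨P, (Subgroup.eq_of_le_of_card_ge hP ?_).symm⟩
      rw [hW.card_four, ← h4]
      exact (Nat.card_congr (P.equiv S).toEquiv).le
    obtain ⟨P, hP⟩ := key U hU
    obtain ⟨Q, hQ⟩ := key V hV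
    obtain ⟨g, hg⟩ := MulAction.exists_smul_eq X P Q
    refine ⟨g, ?_⟩
    rw [← hP, ← hQ, ← hg]
    rfl
  · intro h4
    obtain ⟨k, rfl⟩ := H26.DihFusion.exists_eq_two_pow S hm eS
    have hcard : Nat.card (S : Subgroup X) = 2 * (2 * 2 ^ k) := by
      rw [Nat.card_congr eS.toEquiv, DihedralGroup.nat_card]
    have hk : k ≠ 0 := by
      rintro rfl
      rw [hcard] at h4
      omega
    have hn : Even (2 ^ k) := (Nat.even_pow.mpr ⟨even_two, hk⟩)
    have hne : NeZero (2 ^ k) := ⟨by positivity⟩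
    obtain ⟨U₁, h1S, h1K, -, -, h1i⟩ := H26.DihFusion.exists_kleinFour S eS (0 : ZMod (2 * 2 ^ k))
    obtain ⟨U₂, h2S, h2K, -, -, h2i⟩ := H26.DihFusion.exists_kleinFour S eS (1 : ZMod (2 * 2 ^ k))
    have ht1 : U₁ ≤ H26.DihFusion.T0 S eS :=
      (H26.DihFusion.type_iff_sr S eS hn h1S h1K h1i).mpr (map_zero _)
    have ht2 : ¬ U₂ ≤ H26.DihFusion.T0 S eS := by
      rw [H26.DihFusion.type_iff_sr S eS hn h2S h2K h2i, map_one]
      exact one_ne_zero
    refine ⟨U₁, U₂, h1K, h2K, ?_, ?_⟩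
    · rintro ⟨x, hx⟩
      have := H26.DihFusion.type_iff S eS U₁ h1S h1K x (by rw [hx]; exact h2S)
      rw [hx] at this
      exact ht2 (this.mp ht1)
    · intro V hV
      obtain ⟨P, hP⟩ := (H11.FourConn.isPGroup_of_isKleinFour hV).exists_le_sylow
      obtain ⟨g, hg⟩ := MulAction.exists_smul_eq X P S
      have hgS : V.map (MulAut.conj g).toMonoidHom ≤ (S : Subgroup X) := by
        rw [← hg]
        exact Subgroup.map_mono hP
      have hgK : IsKleinFour (V.map (MulAut.conj g).toMonoidHom) :=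
        H11.FourConn.isKleinFour_map (MulAut.conj g).injective hV
      by_cases ht : V.map (MulAut.conj g).toMonoidHom ≤ H26.DihFusion.T0 S eS
      · left
        obtain ⟨s, hs, h⟩ := H26.DihFusion.conj_of_type S eS hn hgS hgK h1S h1K
          ⟨fun _ => ht1, fun _ => ht⟩
        refine ⟨s * g, ?_⟩
        rw [← H38.Basic.conj_conj]
        exact h
      · right
        obtain ⟨s, hs, h⟩ := H26.DihFusion.conj_of_type S eS hn hgS hgK h2S h2K
          ⟨fun h => absurd h ht, fun h => absurd h ht2⟩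
        refine ⟨s * g, ?_⟩
        rw [← H38.Basic.conj_conj]
        exact h

end Cfsg.Agent.S1256
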