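import Cfsg.Statements.S1271
import Cfsg.Agent.Lib.H26.CompBal

set_option autoImplicit false
open Cfsg

namespace Cfsg.Agent.S1271

/-- Let G be finite with O_{p'}(G) = 1. Suppose that for every component L of G and every subgroup H ≥ L in which L is normal, the quotient H / C_H(L) is balanced for the prime p. Then G is balanced for p. -/
theorem result {G : Type*} [Group G] [Finite G] (p : ℕ) [Fact p.Prime] (hO : Cfsg.pPrimeCore p G = ⊥) (h : ∀ L : Subgroup G, Cfsg.IsComponent L → ∀ H : Subgroup G, L ≤ H → (L.subgroupOf H).Normal → ∀ [((Subgroup.centralizer (L : Set G)).subgroupOf H).Normal], Cfsg.IsBalancedFor p (↥H ⧸ (Subgroup.centralizer (L : Set G)).subgroupOf H)) : Cfsg.IsBalancedFor p G := by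
  intro x hx
  have hxk : ∃ k : ℕ, x ^ p ^ k = 1 := ⟨1, by rw [pow_one, ← hx, pow_orderOf_eq_one]⟩
  rw [hO]
  refine (H26.CompBal.eq_bot_of_centralizes hO (H26.LocalFitting.card_ppc p _)
    (H26.CompCent.core_le_centralizer_pCore hxk) ?_).le
  intro L hL
  by_cases hLx : ⁅L, Subgroup.zpowers x⁆ = L
  · rw [Subgroup.commutator_comm]
    exact Subgroup.commutator_eq_bot_iff_le_centralizer.mpr
      (H26.CompBal.core_le_centralizer hO hx hL hLx (fun H h1 h2 => h L hL H h1 h2))
  · exact H26.CompCent.commutator_core_eq_bot hO hx hL hLx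

end Cfsg.Agent.S1271
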