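import Cfsg.Statements.S1280
import Cfsg.Agent.Lib.H26.SupCard
import Cfsg.Agent.Lib.H1.Coprime2

set_option autoImplicit false
open Cfsg

namespace Cfsg.Agent.S1280

/-- Let θ be a solvable A-signalizer functor (A a noncyclic elementary abelian p-subgroup of the finite group G), and X, Y members of its family with Y ≤ N_G(X). Then X ⊔ Y (= XY) is again in the family. -/
theorem result {G : Type*} [Group G] [Finite G] (p : ℕ) [Fact p.Prime] (A : Subgroup G) (hA : Cfsg.IsElementaryAbelian p A) (hA2 : p ^ 2 ≤ Nat.card ↥A) (θ : G → Subgroup G) (hθ : Cfsg.IsSolvableSignalizerFunctor p A θ) (X Y : Subgroup G) (hX : X ∈ Cfsg.signalizerFamily p A θ) (hY : Y ∈ Cfsg.signalizerFamily p A θ) (hn : Y ≤ Subgroup.normalizer (X : Set G)) : X ⊔ Y ∈ Cfsg.signalizerFamily p A θ := by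
  obtain ⟨hXs, hXp, hXA, hXθ⟩ := hX
  obtain ⟨hYs, hYp, hYA, hYθ⟩ := hY
  have hp : p.Prime := Fact.out
  have hnX : A ≤ Subgroup.normalizer (X : Set G) := H1.Coprime.le_normalizer_of_conj_mem hXA
  have hnY : A ≤ Subgroup.normalizer (Y : Set G) := H1.Coprime.le_normalizer_of_conj_mem hYA
  refine ⟨H26.SupCard.isSolvable_sup hn hXs hYs, H26.SupCard.not_dvd_card_sup hp hn hXp hYp,
    fun b hb u hu => ?_, ?_⟩
  · have := H1.Coprime2.le_normalizer_sup hnX hnY hb
    exact (Subgroup.mem_normalizer_iff.mp this u).mp hu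
  · intro a ha ha1 u hu
    obtain ⟨hu1, hu2⟩ := Subgroup.mem_inf.mp hu
    obtain ⟨x, hx, y, hy, rfl⟩ := (H26.Basic.mem_sup_of_le_normalizer' hn).mp hu1
    have hza : Subgroup.zpowers a ≤ A := by rwa [Subgroup.zpowers_le]
    have hzc : Subgroup.centralizer ({a} : Set G) = Subgroup.centralizer (Subgroup.zpowers a : Set G) := by
      rw [Subgroup.zpowers_eq_closure, Subgroup.centralizer_closure]
    have hcard : Nat.card (Subgroup.zpowers a) = p := by
      rw [Nat.card_zpowers]
      exact orderOf_eq_prime (hA.2 a ha) ha1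
    rw [hzc] at hu2
    obtain ⟨x', hx', y', hy', h⟩ := H1.Coprime2.exists_mul_centralizer (Subgroup.zpowers a) X Y
      (hza.trans hnX) (hza.trans hnY) (by
        rw [hcard, hp.coprime_iff_not_dvd]
        intro h
        exact hXp (h.trans (Subgroup.card_dvd_of_le inf_le_left))) (Or.inl inferInstance) x y hx hy hu2
    rw [h]
    rw [← hzc] at hx' hy'
    exact mul_mem (hXθ a ha ha1 hx') (hYθ a ha ha1 hy')

end Cfsg.Agent.S1280
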