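import Cfsg.Statements.S1282
import Cfsg.Agent.Lib.H26.NormCond
import Cfsg.Agent.Lib.H27.GenSub
import Cfsg.Agent.Lib.H27.ElAb

set_option autoImplicit false
open Cfsg

namespace Cfsg.Agent.S1282

theorem aux {G : Type*} [Group G] [Finite G] {p : ℕ} [Fact p.Prime] {A : Subgroup G}
    (hA : Cfsg.IsElementaryAbelian p A) {q : ℕ} [Fact q.Prime] (hqp : q ≠ p) {D : Subgroup G}
    (hnD : A ≤ Subgroup.normalizer (D : Set G)) (Q : Subgroup G) (hQ : IsPGroup q ↥Q)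
    (hAQ : A ≤ Subgroup.normalizer (Q : Set G)) (hDQ : D ≤ Q) (hne : D ≠ Q) :
    ∃ B ≤ A, B.relIndex A ≤ p ∧
      ¬ (Subgroup.normalizer (D : Set G) ⊓ Q ⊓ Subgroup.centralizer (B : Set G) ≤ D) := by
  by_contra hcon
  push Not at hcon
  have hp : p.Prime := Fact.out
  have hq : q.Prime := Fact.out
  set K := Subgroup.normalizer (D : Set G) ⊓ Q with hK
  have hKq : IsPGroup q K := hQ.to_le inf_le_right
  have hpK : ¬ p ∣ Nat.card K := by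
    obtain ⟨n, hn⟩ := IsPGroup.iff_card.mp hKq
    rw [hn]
    intro h
    exact hqp ((Nat.prime_dvd_prime_iff_eq hp hq).mp (hp.dvd_of_dvd_pow h)).symm
  have hAK : A ≤ Subgroup.normalizer (K : Set G) :=
    H1.Coprime2.le_normalizer_inf (H1.Coprime2.le_normalizer_normalizer hnD) hAQ
  have h1 := H27.GenSub.le_of_hyperplanes p A K D hA hAK hpK hcon
  obtain ⟨x, hx1, hx2, hx3⟩ := H26.NormCond.exists_mem_normalizer hQ hDQ hne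
  exact hx3 (h1 (Subgroup.mem_inf.mpr ⟨hx2, hx1⟩))

/-- Let A be an elementary abelian p-subgroup of rank at least 3 of the finite group G, q ≠ p a prime, and Q₁, Q₂ q-subgroups normalized by A with D = Q₁ ∩ Q₂ different from both. Then there is a non-identity a ∈ A such that, for i = 1 and i = 2, N_{Q_i}(D) ∩ C_G(a) is not contained in D. -/
theorem result {G : Type*} [Group G] [Finite G] (p : ℕ) [Fact p.Prime] (A : Subgroup G) (hA : Cfsg.IsElementaryAbelian p A) (hA3 : p ^ 3 ≤ Nat.card ↥A) (q : ℕ) [Fact q.Prime] (hqp : q ≠ p) (Q₁ Q₂ : Subgroup G) (h₁ : IsPGroup q ↥Q₁) (h₂ : IsPGroup q ↥Q₂) (hA₁ : A ≤ Subgroup.normalizer (Q₁ : Set G)) (hA₂ : A ≤ Subgroup.normalizer (Q₂ : Set G)) (hD₁ : Q₁ ⊓ Q₂ ≠ Q₁) (hD₂ : Q₁ ⊓ Q₂ ≠ Q₂) : ∃ a ∈ A, a ≠ 1 ∧ ¬ (Subgroup.normalizer ((Q₁ ⊓ Q₂ : Subgroup G) : Set G) ⊓ Q₁ ⊓ Subgroup.centralizer {a} ≤ Q₁ ⊓ Q₂) ∧ ¬ (Subgroup.normalizer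 ((Q₁ ⊓ Q₂ : Subgroup G) : Set G) ⊓ Q₂ ⊓ Subgroup.centralizer {a} ≤ Q₁ ⊓ Q₂) := by
  have hnD : A ≤ Subgroup.normalizer ((Q₁ ⊓ Q₂ : Subgroup G) : Set G) :=
    H1.Coprime2.le_normalizer_inf hA₁ hA₂
  obtain ⟨B₁, hB₁A, hB₁i, hB₁⟩ := aux hA hqp hnD Q₁ h₁ hA₁ inf_le_left hD₁
  obtain ⟨B₂, hB₂A, hB₂i, hB₂⟩ := aux hA hqp hnD Q₂ h₂ hA₂ inf_le_right hD₂
  obtain ⟨a, ha1, ha2, ha⟩ := H27.ElAb.inf_ne_bot hA hA3 hB₁A hB₂A hB₁i hB₂i
  refine ⟨a, hB₁A ha1, ha, fun h => hB₁ (le_trans ?_ h), fun h => hB₂ (le_trans ?_ h)⟩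
  · exact inf_le_inf_left _ (Subgroup.centralizer_le (by simpa using ha1))
  · exact inf_le_inf_left _ (Subgroup.centralizer_le (by simpa using ha2))

end Cfsg.Agent.S1282
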