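import Cfsg.Statements.S1284
import Cfsg.Agent.Lib.H27.Sig

set_option autoImplicit false
open Cfsg

namespace Cfsg.Agent.S1284

theorem result {G : Type*} [Group G] [Finite G] (p : ℕ) [Fact p.Prime] (A : Subgroup G) (hA : Cfsg.IsElementaryAbelian p A) (hA3 : p ^ 3 ≤ Nat.card ↥A) (θ : G → Subgroup G) (hθ : Cfsg.IsSolvableSignalizerFunctor p A θ) (q : ℕ) [Fact q.Prime] (hq : ∃ a ∈ A, a ≠ 1 ∧ q ∣ Nat.card ↥(θ a)) (Q : Subgroup G) (hQW : Q ∈ Cfsg.signalizerFamily p A θ) (hQq : IsPGroup q ↥Q) (hQmax : ∀ R ∈ Cfsg.signalizerFamily p A θ, IsPGroup q ↥R → Q ≤ R → R = Q) : (∀ H : Subgroup G, H ∈ Cfsg.signalizerFamily p A θ → ∃ c ∈ Cfsg.signalizerInf A θ, ∃ S : Sylow q ↥H, (S : Subgroup ↥H).map H.subtype = Q.map (MulAut.conj c).toMonoidHom ⊓ H) ∧ (∀ B : Subgroup G, B ≤ A → B ≠ ⊥ → ∃ S : Sylow q ↥(Cfsg.signalizerInf B θ), (S : Subgroup ↥(Cfsg.signalizerInf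 B θ)).map (Cfsg.signalizerInf B θ).subtype = Q ⊓ Subgroup.centralizer (B : Set G)) := by
  have _ := hq
  have hQ : H27.Sig.IsMaxQ p A θ q Q := ⟨hQW, hQq, hQmax⟩
  refine ⟨fun H hH => ?_, fun B hB hB1 => ?_⟩
  · obtain ⟨c, hc, h⟩ := H27.Sig.exists_conj_inf_isSylIn hA hA3 hθ q hQ hH
    obtain ⟨S, hS⟩ := h.exists_sylow
    exact ⟨c, hc, S, hS⟩
  · have h := H27.Sig.inf_isSylIn hA hA3 hθ q hQ (H27.Sig.signalizerInf_mem_of_le hθ hB hB1)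
      (H27.Sig.signalizerInf_anti hB)
    rw [H27.Sig.inf_signalizerInf hθ.1 hQW hB] at h
    exact h.exists_sylow

end Cfsg.Agent.S1284
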