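import Cfsg.Statements.S1285
import Cfsg.Agent.Lib.H27.Sig

set_option autoImplicit false
open Cfsg

namespace Cfsg.Agent.S1285

theorem result {G : Type*} [Group G] [Finite G] (p : ℕ) [Fact p.Prime] (A : Subgroup G) (hA : Cfsg.IsElementaryAbelian p A) (hA3 : p ^ 3 ≤ Nat.card ↥A) (θ : G → Subgroup G) (hθ : Cfsg.IsSolvableSignalizerFunctor p A θ) (q : ℕ) [Fact q.Prime] (hq : ∀ a ∈ A, a ≠ 1 → IsPGroup q ↥(θ a)) : Cfsg.IsCompleteSignalizerFunctor p A θ := by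
  refine ⟨hθ.1, ?_⟩
  have hp1 : p ≠ 1 := (Fact.out : p.Prime).one_lt.ne'
  obtain ⟨Q, hQ, -⟩ := H27.Sig.exists_isMaxQ_ge (q := q) (H27.Sig.bot_mem (A := A) (θ := θ) hp1)
    (IsPGroup.of_bot)
  refine ⟨Q, hQ.1.2.2.1, hQ.1.2.1, fun a ha h1 => ?_⟩
  have h := H27.Sig.inf_isSylIn hA hA3 hθ q hQ (H27.Sig.theta_mem hθ ha h1)
    (H27.Sig.signalizerInf_le θ ha h1)
  rw [← H27.Sig.inf_theta hθ.1 hQ.1 ha h1]
  exact H27.Sig.eq_of_isPGroup_of_isSylIn h inf_le_right le_rfl (hq a ha h1)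

end Cfsg.Agent.S1285
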