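import Cfsg.Statements.S1286
import Mathlib

set_option autoImplicit false
open Cfsg

namespace Cfsg.Agent.S1286

abbrev P5 := Equiv.Perm (Fin 5)

/-- the transposition (0 1) -/
def ta : P5 := Equiv.swap 0 1
/-- the transposition (3 4) -/
def tb : P5 := Equiv.swap 3 4
/-- the 3-cycle on 2,3,4 -/
def ca : P5 := Equiv.swap 2 3 * Equiv.swap 3 4
/-- the 3-cycle on 0,1,2 -/
def cb : P5 := Equiv.swap 0 1 * Equiv.swap 1 2

def vf : Subgroup P5 where
  carrier := {g | g = 1 ∨ g = ta ∨ g = tb ∨ g = ta * tb}
  mul_mem' := by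
    rintro x y (rfl | rfl | rfl | rfl) (rfl | rfl | rfl | rfl) <;> simp only [Set.mem_ofPred_eq] <;> decide
  one_mem' := Or.inl rfl
  inv_mem' := by
    rintro x (rfl | rfl | rfl | rfl) <;> simp only [Set.mem_ofPred_eq] <;> decide

theorem mem_vf {g : P5} : g ∈ vf ↔ g = 1 ∨ g = ta ∨ g = tb ∨ g = ta * tb := Iff.rfl

instance : DecidablePred (· ∈ vf) := fun _ => decidable_of_iff _ mem_vf.symm

/-- The functor. -/
def th (g : P5) : Subgroup P5 :=
  if g = ta then Subgroup.zpowers ca else if g = tb then Subgroup.zpowers cb else ⊥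

theorem th_ta : th ta = Subgroup.zpowers ca := by simp [th]
theorem th_tb : th tb = Subgroup.zpowers cb := by
  have : tb ≠ ta := by decide
  simp [th, this]
theorem th_tab : th (ta * tb) = ⊥ := by
  have h1 : ta * tb ≠ ta := by decide
  have h2 : ta * tb ≠ tb := by decide
  simp only [th, h1, h2, if_false]

theorem ord_ca : orderOf ca = 3 := orderOf_eq_prime (by decide) (by decide)
theorem ord_cb : orderOf cb = 3 := orderOf_eq_prime (by decide) (by decide)

theorem mem_zca {x : P5} : x ∈ Subgroup.zpowers ca → x = 1 ∨ x = ca ∨ x = ca * ca := by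
  intro h
  rw [mem_zpowers_iff_mem_range_orderOf, ord_ca] at h
  simp only [Finset.mem_image, Finset.mem_range] at h
  obtain ⟨n, hn, rfl⟩ := h
  interval_cases n
  · exact Or.inl (pow_zero _)
  · exact Or.inr (Or.inl (pow_one _))
  · exact Or.inr (Or.inr (pow_two _))

theorem mem_zcb {x : P5} : x ∈ Subgroup.zpowers cb → x = 1 ∨ x = cb ∨ x = cb * cb := by
  intro h
  rw [mem_zpowers_iff_mem_range_orderOf, ord_cb] at h
  simp only [Finset.mem_image, Finset.mem_range] at h
  obtain ⟨n, hn, rfl⟩ := h
  interval_cases n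
  · exact Or.inl (pow_zero _)
  · exact Or.inr (Or.inl (pow_one _))
  · exact Or.inr (Or.inr (pow_two _))

theorem z1 (c : P5) : (1 : P5) ∈ Subgroup.zpowers c := one_mem _
theorem z2 (c : P5) : c ∈ Subgroup.zpowers c := Subgroup.mem_zpowers c
theorem z3 (c : P5) : c * c ∈ Subgroup.zpowers c := mul_mem (z2 c) (z2 c)

theorem sig : IsSignalizerFunctor 2 vf th := by
  refine ⟨?_, ?_, ?_, ?_⟩
  · intro a ha ha1
    rcases mem_vf.mp ha with rfl | rfl | rfl | rfl
    · exact absurd rfl ha1
    · rw [th_ta, Subgroup.zpowers_le, Subgroup.mem_centralizer_singleton_iff]; decide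
    · rw [th_tb, Subgroup.zpowers_le, Subgroup.mem_centralizer_singleton_iff]; decide
    · rw [th_tab]; exact bot_le
  · intro a ha ha1
    rcases mem_vf.mp ha with rfl | rfl | rfl | rfl
    · exact absurd rfl ha1
    · rw [th_ta, Nat.card_zpowers, ord_ca]; decide
    · rw [th_tb, Nat.card_zpowers, ord_cb]; decide
    · rw [th_tab, Subgroup.card_bot]; decide
  · intro a ha ha1 b hb x hx
    rcases mem_vf.mp ha with rfl | rfl | rfl | rfl
    · exact absurd rfl ha1
    · rw [th_ta] at hx ⊢
      have key : b * x * b⁻¹ = 1 ∨ b * x * b⁻¹ = ca ∨ b * x * b⁻¹ = ca * ca := by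
        rcases mem_vf.mp hb with rfl | rfl | rfl | rfl <;> rcases mem_zca hx with rfl | rfl | rfl <;> decide
      rcases key with h | h | h <;> rw [h]
      exacts [z1 _, z2 _, z3 _]
    · rw [th_tb] at hx ⊢
      have key : b * x * b⁻¹ = 1 ∨ b * x * b⁻¹ = cb ∨ b * x * b⁻¹ = cb * cb := by
        rcases mem_vf.mp hb with rfl | rfl | rfl | rfl <;> rcases mem_zcb hx with rfl | rfl | rfl <;> decide
      rcases key with h | h | h <;> rw [h]
      exacts [z1 _, z2 _, z3 _]
    · rw [th_tab] at hx ⊢
      rw [Subgroup.mem_bot.mp hx]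
      simp
  · intro a ha ha1 b hb hb1
    rcases mem_vf.mp ha with rfl | rfl | rfl | rfl
    · exact absurd rfl ha1
    · rintro x ⟨hx, hx2⟩
      replace hx : x ∈ th ta := hx
      replace hx2 : x ∈ Subgroup.centralizer {b} := hx2
      rw [th_ta] at hx
      rw [Subgroup.mem_centralizer_singleton_iff] at hx2
      rcases mem_vf.mp hb with rfl | rfl | rfl | rfl
      · exact absurd rfl hb1
      · rw [th_ta]; exact hx
      · rcases mem_zca hx with rfl | rfl | rfl
        · exact one_mem _
        · exact absurd hx2 (by decide)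
        · exact absurd hx2 (by decide)
      · rcases mem_zca hx with rfl | rfl | rfl
        · exact one_mem _
        · exact absurd hx2 (by decide)
        · exact absurd hx2 (by decide)
    · rintro x ⟨hx, hx2⟩
      replace hx : x ∈ th tb := hx
      replace hx2 : x ∈ Subgroup.centralizer {b} := hx2
      rw [th_tb] at hx
      rw [Subgroup.mem_centralizer_singleton_iff] at hx2
      rcases mem_vf.mp hb with rfl | rfl | rfl | rfl
      · exact absurd rfl hb1
      · rcases mem_zcb hx with rfl | rfl | rfl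
        · exact one_mem _
        · exact absurd hx2 (by decide)
        · exact absurd hx2 (by decide)
      · rw [th_tb]; exact hx
      · rcases mem_zcb hx with rfl | rfl | rfl
        · exact one_mem _
        · exact absurd hx2 (by decide)
        · exact absurd hx2 (by decide)
    · rintro x ⟨hx, hx2⟩
      replace hx : x ∈ th (ta * tb) := hx
      rw [th_tab] at hx
      rw [Subgroup.mem_bot.mp hx]
      exact one_mem _

/-- There exist a finite group X, an elementary abelian subgroup A of order 4 and a solvable A-signalizer functor θ on X for the prime 2 which is not complete. -/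
theorem result : ∃ (X : Type) (_ : Group X) (_ : Finite X) (A : Subgroup X) (θ : X → Subgroup X), Cfsg.IsElementaryAbelian 2 A ∧ Nat.card ↥A = 4 ∧ Cfsg.IsSolvableSignalizerFunctor 2 A θ ∧ ¬ Cfsg.IsCompleteSignalizerFunctor 2 A θ := by
  refine ⟨P5, inferInstance, inferInstance, vf, th, ⟨?_, ?_⟩, ?_, ⟨sig, ?_⟩, ?_⟩
  · constructor
    constructor
    rintro ⟨x, hx⟩ ⟨y, hy⟩
    ext1
    change x * y = y * x
    rcases mem_vf.mp hx with rfl | rfl | rfl | rfl <;> rcases mem_vf.mp hy with rfl | rfl | rfl | rfl <;> decide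
  · intro a ha
    rcases mem_vf.mp ha with rfl | rfl | rfl | rfl <;> decide
  · have : (vf : Set P5) = ({1, ta, tb, ta * tb} : Finset P5) := by
      ext g
      simp [mem_vf]
    have h2 : Nat.card vf = Nat.card ((({1, ta, tb, ta * tb} : Finset P5)) : Set P5) := by
      rw [← this]; rfl
    rw [h2, Nat.card_eq_card_toFinset, Finset.toFinset_coe]
    decide
  · intro a ha ha1
    rcases mem_vf.mp ha with rfl | rfl | rfl | rfl
    · exact absurd rfl ha1
    · rw [th_ta]; infer_instance
    · rw [th_tb]; infer_instance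
    · rw [th_tab]; infer_instance
  · rintro ⟨-, X, -, hX2, hX⟩
    have h1 : ca ∈ X := by
      have := hX ta (Or.inr (Or.inl rfl)) (by decide)
      rw [th_ta] at this
      have h : ca ∈ X ⊓ Subgroup.centralizer {ta} := by rw [this]; exact z2 _
      exact h.1
    have h2 : cb ∈ X := by
      have := hX tb (Or.inr (Or.inr (Or.inl rfl))) (by decide)
      rw [th_tb] at this
      have h : cb ∈ X ⊓ Subgroup.centralizer {tb} := by rw [this]; exact z2 _
      exact h.1
    have hw : ca * ca * cb * ca * cb ∈ X :=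
      mul_mem (mul_mem (mul_mem (mul_mem h1 h1) h2) h1) h2
    have ho : orderOf (ca * ca * cb * ca * cb) = 2 := orderOf_eq_prime (by decide) (by decide)
    apply hX2
    rw [← ho, ← Nat.card_zpowers]
    exact Subgroup.card_dvd_of_le (Subgroup.zpowers_le.mpr hw)

end Cfsg.Agent.S1286
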