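import Cfsg.Statements.S1288
import Cfsg.Agent.Lib.H27.Sig
import Cfsg.Agent.Lib.H28.PLen
import Cfsg.Agent.Lib.H26.SolvBal

set_option autoImplicit false
open Cfsg

namespace Cfsg.Agent.S1288

theorem result {H : Type*} [Group H] [Finite H] (p : ℕ) [Fact p.Prime] (A K : Subgroup H) (hA : Cfsg.IsElementaryAbelian p A) (hA2 : p ^ 2 ≤ Nat.card ↥A) (hK : ¬ p ∣ Nat.card ↥K) (hKs : Group.IsSolvable ↥K) (hAK : A ≤ Subgroup.normalizer (K : Set H)) (q : ℕ) [Fact q.Prime] (hqK : q ∣ Nat.card ↥K) (U : Subgroup H) (hU : U ≤ K) (hUq : ¬ q ∣ Nat.card ↥U) (hcomm : ∀ B : Subgroup H, B ≤ A → B.relIndex A = p → ¬ q ∣ Nat.card ↥⁅U, K ⊓ Subgroup.centralizer (B : Set H)⁆) : U ≤ (Cfsg.pPrimeCore q ↥K).map K.subtype := by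
  have _ := hqK
  have hq : q.Prime := Fact.out
  have hp : p.Prime := Fact.out
  set O : Subgroup K := pPrimeCore q K with hO
  set N : Subgroup H := O.map K.subtype with hN
  set R : Subgroup H := (pPrimePCore q K).map K.subtype with hR
  have hOc : O.Characteristic := H1.Cores.pPrimeCore_characteristic q
  have hKN : K ≤ Subgroup.normalizer (N : Set H) :=
    Subgroup.le_normalizer.trans (H26.LocalFitting.normalizer_le_normalizer_map_char K O)
  have hKR : K ≤ Subgroup.normalizer (R : Set H) :=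
    Subgroup.le_normalizer.trans (H26.LocalFitting.normalizer_le_normalizer_map_char K _)
  have hAR : A ≤ Subgroup.normalizer (R : Set H) :=
    hAK.trans (H26.LocalFitting.normalizer_le_normalizer_map_char K _)
  have hNK : N ≤ K := Subgroup.map_subtype_le _
  have hRK : R ≤ K := Subgroup.map_subtype_le _
  have hNR : N ≤ R := Subgroup.map_mono (H28.PLen.pPrimeCore_le_pPrimePCore q)
  have hRpow : ∀ x ∈ R, ∃ j : ℕ, x ^ q ^ j ∈ N := by
    rintro _ ⟨x, hx, rfl⟩
    obtain ⟨j, hj⟩ := H28.PLen.exists_pow_mem hx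
    exact ⟨j, x ^ q ^ j, hj, by rw [map_pow]⟩
  have hRp : ¬ p ∣ Nat.card R := fun h => hK (h.trans (Subgroup.card_dvd_of_le hRK))
  have hRcop := H27.Sig.coprime_card hA hRp
  obtain ⟨S, hS, hAS⟩ := H1.Coprime2.exists_invariant_sylow A R hAR hRcop
    (Or.inl (H27.Sig.solvableA hA)) q
  -- the subgroup of elements commuting with `U` modulo `N`
  set M : Subgroup H := ((Subgroup.centralizer (((U.subgroupOf K).map (QuotientGroup.mk' O) :
    Subgroup (K ⧸ O)) : Set (K ⧸ O))).comap (QuotientGroup.mk' O)).map K.subtype with hM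
  have hmemM : ∀ x ∈ K, (∀ u ∈ U, u * x * u⁻¹ * x⁻¹ ∈ N) → x ∈ M := by
    intro x hx h
    refine ⟨⟨x, hx⟩, ?_, rfl⟩
    rw [SetLike.mem_coe, Subgroup.mem_comap, Subgroup.mem_centralizer_iff]
    rintro _ ⟨⟨u, hu'⟩, hu, rfl⟩
    rw [SetLike.mem_coe, Subgroup.mem_subgroupOf] at hu
    have h1 : (⟨u, hu'⟩ * ⟨x, hx⟩ * (⟨u, hu'⟩)⁻¹ * (⟨x, hx⟩)⁻¹ : K) ∈ O := by
      obtain ⟨o, ho, ho'⟩ := h u hu
      have : (⟨u, hu'⟩ * ⟨x, hx⟩ * (⟨u, hu'⟩)⁻¹ * (⟨x, hx⟩)⁻¹ : K) = o := Subtype.ext ho'.symm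
      rw [this]; exact ho
    have h2 := (QuotientGroup.eq_one_iff _).mpr h1
    change QuotientGroup.mk' O (⟨u, hu'⟩ * ⟨x, hx⟩ * (⟨u, hu'⟩)⁻¹ * (⟨x, hx⟩)⁻¹ : K) = 1 at h2
    rw [map_mul, map_mul, map_mul, map_inv, map_inv, mul_inv_eq_one, mul_inv_eq_iff_eq_mul] at h2
    exact h2
  have hNM : N ≤ M := by
    intro x hx
    apply hmemM x (hNK hx)
    intro u hu
    exact N.mul_mem (H1.Coprime.conj_mem_of_le_normalizer hKN (hU hu) hx) (N.inv_mem hx)
  have hSM : S ≤ M := by
    apply H27.GenSub.le_of_hyperplanes p A S M hA hAS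
      (fun h => hRp (h.trans (Subgroup.card_dvd_of_le hS.1)))
    intro B hBA hB
    have hA1 : A ≠ ⊥ := by
      intro h
      rw [h, Subgroup.card_bot] at hA2
      have := Nat.one_lt_pow (by omega : (2 : ℕ) ≠ 0) hp.one_lt
      omega
    obtain ⟨E, hEB, hE⟩ := H27.ElAb.exists_le_relIndex_eq (H27.ElAb.isPGroup hA) hA1 hBA hB
    have hcE := hcomm E (hEB.trans hBA) hE
    intro s hs
    have hsK : s ∈ K ⊓ Subgroup.centralizer (E : Set H) :=
      ⟨hRK (hS.1 hs.1), Subgroup.centralizer_le hEB hs.2⟩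
    apply hmemM s hsK.1
    intro u hu
    have h1 : u * s * u⁻¹ * s⁻¹ ∈ ⁅U, K ⊓ Subgroup.centralizer (E : Set H)⁆ :=
      Subgroup.commutator_mem_commutator hu hsK
    have h2 : u * s * u⁻¹ * s⁻¹ ∈ R :=
      R.mul_mem (H1.Coprime.conj_mem_of_le_normalizer hKR (hU hu) (hS.1 hs.1))
        (R.inv_mem (hS.1 hs.1))
    obtain ⟨j, hj⟩ := hRpow _ h2
    -- order prime to `q`
    set y := u * s * u⁻¹ * s⁻¹ with hy
    have h3 : (orderOf y).Coprime q := by
      rw [Nat.coprime_comm, Nat.Prime.coprime_iff_not_dvd hq]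
      intro h4
      exact hcE (h4.trans (Subgroup.orderOf_dvd_natCard _ h1))
    have h5 : (orderOf y).Coprime (q ^ j) := Nat.Coprime.pow_right j h3
    have h6 : y ∈ Subgroup.zpowers (y ^ q ^ j) := by
      obtain ⟨m, hm⟩ := exists_pow_eq_self_of_coprime h5.symm
      rw [Subgroup.mem_zpowers_iff]
      exact ⟨m, by rw [zpow_natCast, hm]⟩
    exact (Subgroup.zpowers_le.mpr hj) h6
  have hSN : S ≤ Subgroup.normalizer (N : Set H) := (hS.1.trans hRK).trans hKN
  have hR1 : R ≤ S ⊔ N := by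
    have hle : S ⊔ N ≤ R := sup_le hS.1 hNR
    have h1 : S ⊔ N = R := by
      have hidx : (S ⊔ N).relIndex R = 1 := by
        have e1 : (S ⊔ N).relIndex R ∣ S.relIndex R := Subgroup.relIndex_dvd_of_le_left _ le_sup_left
        have e2 : (S ⊔ N).relIndex R ∣ N.relIndex R := Subgroup.relIndex_dvd_of_le_left _ le_sup_right
        have e3 : ¬ q ∣ S.relIndex R := by
          have h2 := H27.ElAb.relIndex_mul_card hS.1
          intro h3
          have h4 : q ^ ((Nat.card R).factorization q + 1) ∣ Nat.card R := by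
            calc q ^ ((Nat.card R).factorization q + 1)
                = q * q ^ ((Nat.card R).factorization q) := by rw [pow_succ, mul_comm]
              _ ∣ S.relIndex R * q ^ ((Nat.card R).factorization q) := Nat.mul_dvd_mul h3 dvd_rfl
              _ = S.relIndex R * Nat.card S := by rw [hS.2]
              _ = Nat.card R := h2
          exact Nat.pow_succ_factorization_not_dvd Nat.card_pos.ne' hq h4
        have e4 : ∃ k, N.relIndex R = q ^ k := by
          have hn : (N.subgroupOf R).Normal :=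
            (Subgroup.normal_subgroupOf_iff_le_normalizer hNR).mpr (hRK.trans hKN)
          have h2 : IsPGroup q (R ⧸ N.subgroupOf R) := by
            intro g
            obtain ⟨⟨x, hx⟩, rfl⟩ := QuotientGroup.mk'_surjective _ g
            obtain ⟨j, hj⟩ := hRpow x hx
            refine ⟨j, ?_⟩
            rw [← map_pow]
            exact (QuotientGroup.eq_one_iff _).mpr (by rw [Subgroup.mem_subgroupOf]; exact hj)
          obtain ⟨k, hk⟩ := IsPGroup.iff_card.mp h2
          exact ⟨k, hk⟩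
        obtain ⟨k, hk⟩ := e4
        rw [hk] at e2
        obtain ⟨m, -, hm⟩ := (Nat.dvd_prime_pow hq).mp e2
        rw [hm] at e1 ⊢
        rcases Nat.eq_zero_or_pos m with h | h
        · rw [h, pow_zero]
        · exact absurd ((dvd_pow_self q h.ne').trans e1) e3
      exact le_antisymm hle (Subgroup.relIndex_eq_one.mp hidx)
    exact h1.ge
  have hRM : R ≤ M := hR1.trans (sup_le hSM hNM)
  -- conclusion
  have hUbar : (U.subgroupOf K).map (QuotientGroup.mk' O) ≤ pCore q (K ⧸ O) := by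
    refine le_trans ?_ (H26.SolvBal.centralizer_pCore_quotient_le_of_isSolvable hKs)
    rw [Subgroup.le_centralizer_iff]
    intro y hy
    obtain ⟨x, rfl⟩ := QuotientGroup.mk'_surjective O y
    have h1 : (x : H) ∈ M := hRM ⟨x, hy, rfl⟩
    obtain ⟨x', hx', hxx⟩ := h1
    have : x' = x := Subtype.ext hxx
    rw [this] at hx'
    exact hx'
  have hUbot : (U.subgroupOf K).map (QuotientGroup.mk' O) = ⊥ := by
    have h1 : IsPGroup q ((U.subgroupOf K).map (QuotientGroup.mk' O)) :=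
      (H1.Cores.isPGroup_pCore q).to_le hUbar
    obtain ⟨k, hk⟩ := IsPGroup.iff_card.mp h1
    have h2 : Nat.card ((U.subgroupOf K).map (QuotientGroup.mk' O)) ∣ Nat.card U := by
      rw [← H1.SZ.card_subgroupOf_of_le hU]
      exact Subgroup.card_map_dvd _ _
    rw [hk] at h2
    rcases Nat.eq_zero_or_pos k with h | h
    · rw [h, pow_zero] at hk
      exact Subgroup.card_eq_one.mp hk
    · exact absurd ((dvd_pow_self q h.ne').trans h2) hUq
  rw [Subgroup.map_eq_bot_iff, QuotientGroup.ker_mk'] at hUbot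
  have h2 := Subgroup.map_mono (f := K.subtype) hUbot
  rwa [Subgroup.map_subgroupOf_eq_of_le hU] at h2

end Cfsg.Agent.S1288
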