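import Cfsg.Statements.S1289
import Cfsg.Agent.Lib.H26.PComponents

set_option autoImplicit false
open Cfsg

namespace Cfsg.Agent.S1289

theorem result {X : Type*} [Group X] [Finite X] (p : ℕ) [Fact p.Prime] (K : Subgroup X) (hK : Cfsg.IsPComponent p K) : K.IsSubnormal ∧ ⁅K, K⁆ = K ∧ p ∣ Nat.card ↥K ∧ ∀ H : Subgroup X, H ≤ K → H.IsSubnormal → ⁅H, H⁆ = H → p ∣ Nat.card ↥H → H = K := by
  refine ⟨hK.1, H26.PComponents.commutator_self hK, ?_, ?_⟩
  · have h1 := H26.PComponents.dvd_card_of_component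
      (H1.Cores.pPrimeCore_quotient_pPrimeCore (G := X) p) hK.2.1
    exact h1.trans (Subgroup.card_map_dvd _ _)
  · intro H hHK hH hperf hdvd
    apply hK.2.2 H hH hHK
    rcases H26.Components.eq_or_le_center_of_le hK.2.1.2
      (hH.map (QuotientGroup.mk'_surjective (pPrimeCore p X))) (Subgroup.map_mono hHK) with h | h
    · exact h
    · exfalso
      have h1 : ⁅H, H⁆.map (QuotientGroup.mk' (pPrimeCore p X)) = ⊥ := by
        rw [Subgroup.map_commutator, eq_bot_iff, ← h]
        exact Subgroup.commutator_mono le_rfl (Subgroup.map_mono hHK)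
      rw [hperf, Subgroup.map_eq_bot_iff, QuotientGroup.ker_mk'] at h1
      have h2 := Nat.Coprime.coprime_dvd_left (Subgroup.card_dvd_of_le h1)
        (H1.Cores.coprime_card_pPrimeCore (G := X) p)
      have h3 := Nat.Coprime.eq_one_of_dvd h2.symm hdvd
      exact (Fact.out : p.Prime).one_lt.ne' h3

end Cfsg.Agent.S1289
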