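import Cfsg.Statements.S1300
import Cfsg.Agent.Lib.H27.SigBasic

set_option autoImplicit false
open Cfsg

namespace Cfsg.Agent.S1300

/-- For a finite group G, balance in the sense of commuting involutions is the same as 1-balance for the prime 2. -/
theorem result {G : Type*} [Group G] [Finite G] : Cfsg.IsBalanced G ↔ Cfsg.IsKBalanced 2 1 G := by
  constructor
  · intro h A hA hcard b hb hcomm
    rw [pow_one] at hcard
    obtain ⟨a, haA, ha1⟩ : ∃ a ∈ A, a ≠ 1 := by
      by_contra hcon
      push Not at hcon
      have : A = ⊥ := (Subgroup.eq_bot_iff_forall A).mpr hcon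
      rw [this, Subgroup.card_bot] at hcard
      omega
    have ha2 : orderOf a = 2 := orderOf_eq_prime (hA.2 a haA) ha1
    rintro x ⟨hx1, hx2⟩
    have hxa : x ∈ centralizerPPrimeCore 2 a :=
      H27.SigBasic.mem_signalizerDelta.mp hx1 a haA ha1
    have hx3 : x ∈ centralizerPPrimeCore 2 a ⊓ Subgroup.centralizer {b} := ⟨hxa, hx2⟩
    rw [h a b ha2 hb (hcomm a haA)] at hx3
    exact hx3.1
  · intro h
    have key : ∀ x y : G, orderOf x = 2 → orderOf y = 2 → x * y = y * x →
        centralizerPPrimeCore 2 x ⊓ Subgroup.centralizer {y} ≤ centralizerPPrimeCore 2 y := by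
      intro x y hx hy hxy
      have hz : ∀ a ∈ Subgroup.zpowers x, a = 1 ∨ a = x := by
        intro a ha
        classical
        rw [mem_zpowers_iff_mem_range_orderOf, hx] at ha
        simp only [Finset.mem_image, Finset.mem_range] at ha
        obtain ⟨n, hn, rfl⟩ := ha
        interval_cases n <;> simp
      have h1 := h (Subgroup.zpowers x) ⟨inferInstance, ?_⟩ (by rw [Nat.card_zpowers, hx, pow_one]) y hy ?_
      · refine le_trans ?_ h1
        rintro g ⟨hg1, hg2⟩
        refine ⟨?_, hg2⟩
        refine H27.SigBasic.mem_signalizerDelta.mpr fun a ha ha1 => ?_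
        rcases hz a ha with rfl | rfl
        · exact absurd rfl ha1
        · exact hg1
      · intro a ha
        rcases hz a ha with rfl | rfl
        · simp
        · rw [← hx, pow_orderOf_eq_one]
      · intro a ha
        rcases hz a ha with rfl | rfl
        · simp
        · exact hxy
    intro x y hx hy hxy
    apply le_antisymm
    · rintro g ⟨hg1, hg2⟩
      exact ⟨key x y hx hy hxy ⟨hg1, hg2⟩, H27.SigBasic.centralizerPPrimeCore_le 2 x hg1⟩
    · rintro g ⟨hg1, hg2⟩
      exact ⟨key y x hy hx hxy.symm ⟨hg1, hg2⟩, H27.SigBasic.centralizerPPrimeCore_le 2 y hg1⟩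

end Cfsg.Agent.S1300
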