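import Cfsg.Statements.S1297
import Cfsg.Agent.Lib.H27.KBal
import Cfsg.Agent.S1300

set_option autoImplicit false
open Cfsg

namespace Cfsg.Agent.S1297

theorem result {G : Type*} [Group G] [Finite G] (h : ∀ x : G, orderOf x = 2 → ∀ K : Subgroup (↥(Subgroup.centralizer ({x} : Set G)) ⧸ Cfsg.oddCore ↥(Subgroup.centralizer ({x} : Set G))), Cfsg.IsComponent K → Cfsg.IsLocallyBalanced (↥K ⧸ Subgroup.center ↥K)) : Cfsg.IsBalanced G := by
  rw [Cfsg.Agent.S1300.result]
  have : Fact (Nat.Prime 2) := ⟨Nat.prime_two⟩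
  apply H27.KBal.isKBalanced_of_locally le_rfl
  intro x hx K hK H hH A hA hcard
  rw [pow_one] at hcard
  obtain ⟨a, ha, ha1⟩ : ∃ a ∈ A, a ≠ 1 := by
    by_contra hcon
    push Not at hcon
    have : A = ⊥ := (Subgroup.eq_bot_iff_forall A).mpr hcon
    rw [this, Subgroup.card_bot] at hcard
    omega
  have ha2 : orderOf a = 2 := orderOf_eq_prime (hA.2 a ha) ha1
  rw [eq_bot_iff, ← h x hx K hK H hH a ha2]
  intro y hy
  exact H27.SigBasic.mem_signalizerDelta.mp hy a ha ha1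

end Cfsg.Agent.S1297
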