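import Cfsg.Statements.S1299
import Cfsg.Agent.Lib.H27.GenFam
import Cfsg.Agent.Lib.H27.SigBasic
import Cfsg.Agent.Lib.H26.LocalFitting

set_option autoImplicit false
open Cfsg
open Subgroup H1.Coprime H1.Coprime2 H26.Basic H26.LocalFitting H27 H27.ElAb

namespace Cfsg.Agent.S1299

theorem result {G : Type*} [Group G] [Finite G] (p k : ℕ) [Fact p.Prime] (hk : 1 ≤ k) (hbal : Cfsg.IsKBalanced p k G) (A : Subgroup G) (hA : Cfsg.IsElementaryAbelian p A) (hAk : p ^ (k + 2) ≤ Nat.card ↥A) (hsolv : ∀ a ∈ A, a ≠ 1 → Group.IsSolvable ↥(Cfsg.centralizerPPrimeCore p a)) : Cfsg.IsSignalizerFunctor p A (fun a => ⨆ D : {D : Subgroup G // D ≤ A ∧ Nat.card ↥D = p ^ k}, Cfsg.signalizerDelta p (D : Subgroup G) ⊓ Subgroup.centralizer {a}) := by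
  classical
  have hcomm := ElAb.comm hA
  have hp : p.Prime := Fact.out
  set W : Subgroup G → Subgroup G := fun D => signalizerDelta p D with hW
  set 𝒟 : G → Set (Subgroup G) := fun a => {D | D ≤ A ∧ Nat.card D = p ^ k ∧ a ∈ D} with h𝒟
  have hne : ∀ D : Subgroup G, Nat.card D = p ^ k → ∃ d ∈ D, d ≠ 1 := fun D hD =>
    ElAb.exists_ne_one hk hD.ge
  -- `W D` centralizes `D`
  have hWC : ∀ D : Subgroup G, D ≤ A → Nat.card D = p ^ k → W D ≤ centralizer (D : Set G) := by
    intro D _ _ x hx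
    rw [mem_centralizer_iff]
    intro d hd
    rcases eq_or_ne d 1 with rfl | h1
    · rw [one_mul, mul_one]
    · exact (mem_centralizer_singleton_iff.mp (SigBasic.centralizerPPrimeCore_le p d
        (SigBasic.mem_signalizerDelta.mp hx d hd h1))).symm
  -- `k`-balance
  have hkb : ∀ D : Subgroup G, D ≤ A → Nat.card D = p ^ k → ∀ b ∈ A, b ≠ 1 →
      W D ⊓ centralizer {b} ≤ centralizerPPrimeCore p b := fun D hDA hD b hb hb1 =>
    hbal D (ElAb.mono hA hDA) hD b (ElAb.orderOf_eq hA hb hb1) fun a ha => hcomm a (hDA ha) b hb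
  have hWW : ∀ D : Subgroup G, D ≤ A → Nat.card D = p ^ k → ∀ E : Subgroup G, E ≤ A →
      W D ⊓ centralizer (E : Set G) ≤ W E := by
    intro D hDA hD E hE x hx
    refine SigBasic.mem_signalizerDelta.mpr fun e he h1 => hkb D hDA hD e (hE he) h1
      (mem_inf.mpr ⟨hx.1, ?_⟩)
    rw [mem_centralizer_singleton_iff]
    exact (mem_centralizer_iff.mp hx.2 e he).symm
  have hAW : ∀ D : Subgroup G, D ≤ A → A ≤ normalizer (W D : Set G) := by
    intro D hDA
    apply le_normalizer_of_conj_mem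
    intro a ha x hx
    refine SigBasic.mem_signalizerDelta.mpr fun d hd h1 => ?_
    exact conj_mem_of_le_normalizer (le_normalizer_ppc p (centralizer {d}))
      (ElAb.le_centralizer hA (hDA hd) ha) (SigBasic.mem_signalizerDelta.mp hx d hd h1)
  -- choice of subgroups of order `p ^ k`
  have hbetween : ∀ a ∈ A, a ≠ 1 → ∀ E : Subgroup G, E ≤ A → a ∈ E → p ^ k ≤ Nat.card E →
      ∃ D, D ≤ E ∧ Nat.card D = p ^ k ∧ a ∈ D := by
    intro a ha h1 E hE haE hc
    obtain ⟨D, hD1, hD2, hD3⟩ := exists_between (C := zpowers a) (n := 1)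
      (ElAb.isPGroup (ElAb.mono hA hE)) (by rwa [zpowers_le])
      (by rw [Nat.card_zpowers, ElAb.orderOf_eq hA ha h1, pow_one]) hk hc
    exact ⟨D, hD2, hD3, hD1 (mem_zpowers a)⟩
  have hθ : ∀ a ∈ A, a ≠ 1 → (⨆ D : {D : Subgroup G // D ≤ A ∧ Nat.card ↥D = p ^ k},
      Cfsg.signalizerDelta p (D : Subgroup G) ⊓ Subgroup.centralizer {a}) = ⨆ D ∈ 𝒟 a, W D := by
    intro a ha h1
    apply le_antisymm
    · apply iSup_le
      rintro ⟨D, hDA, hD⟩
      obtain ⟨D', hD'1, hD'2, hD'3⟩ := hbetween a ha h1 (D ⊔ zpowers a)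
        (sup_le hDA (by rwa [zpowers_le])) (le_sup_right (a := D) (mem_zpowers a))
        (by rw [← hD]; exact Subgroup.card_le_of_le le_sup_left)
      have hD'A : D' ≤ A := hD'1.trans (sup_le hDA (by rwa [zpowers_le]))
      refine le_iSup₂_of_le D' ⟨hD'A, hD'2, hD'3⟩ ?_
      rintro x ⟨hx, hxa⟩
      refine hWW D hDA hD D' hD'A (mem_inf.mpr ⟨hx, ?_⟩)
      have h2 : D ⊔ zpowers a ≤ centralizer {x} := by
        refine sup_le ?_ ?_
        · intro d hd
          rw [mem_centralizer_singleton_iff]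
          exact mem_centralizer_iff.mp (hWC D hDA hD hx) d hd
        · rw [zpowers_le, mem_centralizer_singleton_iff]
          exact (mem_centralizer_singleton_iff.mp hxa).symm
      rw [mem_centralizer_iff]
      intro d hd
      exact mem_centralizer_singleton_iff.mp (h2 (hD'1 hd))
    · refine iSup₂_le fun D hD => ?_
      refine le_iSup_of_le (⟨D, hD.1, hD.2.1⟩ : {D : Subgroup G // D ≤ A ∧ Nat.card ↥D = p ^ k}) ?_
      refine le_inf le_rfl fun x hx => ?_
      rw [mem_centralizer_singleton_iff]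
      exact (mem_centralizer_iff.mp (hWC D hD.1 hD.2.1 hx) a hD.2.2).symm
  have hcore : ∀ a ∈ A, a ≠ 1 → (⨆ D ∈ 𝒟 a, W D) ≤ centralizerPPrimeCore p a := by
    intro a ha h1
    rw [← hθ a ha h1]
    apply iSup_le
    rintro ⟨D, hDA, hD⟩
    exact hkb D hDA hD a ha h1
  have hcop : ∀ a ∈ A, a ≠ 1 → ¬ p ∣ Nat.card (⨆ D ∈ 𝒟 a, W D : Subgroup G) := by
    intro a ha h1 hdvd
    have h2 : (Nat.card (centralizerPPrimeCore p a)).Coprime p := card_ppc p _
    have h3 := hdvd.trans (Subgroup.card_dvd_of_le (hcore a ha h1))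
    exact (Nat.Prime.coprime_iff_not_dvd hp).mp h2.symm h3
  have hAθ : ∀ a ∈ A, A ≤ normalizer ((⨆ D ∈ 𝒟 a, W D : Subgroup G) : Set G) := by
    intro a _
    apply le_normalizer_of_conj_mem
    intro b hb x hx
    suffices h : (⨆ D ∈ 𝒟 a, W D) ≤ (⨆ D ∈ 𝒟 a, W D).comap (MulAut.conj b).toMonoidHom from h hx
    refine iSup₂_le fun D hD => ?_
    intro u hu
    exact le_iSup₂_of_le (f := fun D _ => W D) D hD le_rfl
      (conj_mem_of_le_normalizer (hAW D hD.1) hb hu)
  refine ⟨fun a ha h1 => iSup_le fun D => inf_le_right, ?_, ?_, ?_⟩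
  · intro a ha h1
    simp only []
    rw [hθ a ha h1]
    exact hcop a ha h1
  · intro a ha h1 b hb x hx
    simp only [] at hx ⊢
    rw [hθ a ha h1] at hx ⊢
    exact conj_mem_of_le_normalizer (hAθ a ha) hb hx
  · intro a ha h1 b hb hb1
    simp only []
    rw [hθ a ha h1, hθ b hb hb1]
    set X := ⨆ D ∈ 𝒟 a, W D with hX
    have hXZ : X ≤ centralizer ((zpowers a : Subgroup G) : Set G) := by
      rw [zpowers_eq_closure, centralizer_closure]
      exact (hcore a ha h1).trans (SigBasic.centralizerPPrimeCore_le p a)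
    have hgen := GenFam.gen hA (𝒟 a) (fun D hD => hD.1) (Z := zpowers a) (by
      intro B₁ B₂ hB₁ hB₂ hi₁ hi₂
      obtain ⟨D, hD1, hD2, hD3⟩ := hbetween a ha h1 ((B₁ ⊔ zpowers a) ⊓ (B₂ ⊔ zpowers a))
        (inf_le_left.trans (sup_le hB₁ (by rwa [zpowers_le])))
        ⟨le_sup_right (a := B₁) (mem_zpowers a), le_sup_right (a := B₂) (mem_zpowers a)⟩
        ((card_inf_ge hAk hB₁ hB₂ hi₁ hi₂).trans (Subgroup.card_le_of_le
          (inf_le_inf le_sup_left le_sup_left)))
      exact ⟨D, ⟨hD1.trans (inf_le_left.trans (sup_le hB₁ (by rwa [zpowers_le]))), hD2, hD3⟩,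
        hD1.trans inf_le_left, hD1.trans inf_le_right⟩) (Nat.card X) X W le_rfl
      (isSolvable_of_le (hcore a ha h1) (hsolv a ha h1)) (hcop a ha h1) (hAθ a ha) hXZ
      (fun D hD => le_iSup₂_of_le (f := fun D _ => W D) D hD le_rfl)
      (fun D hD => hWC D hD.1 hD.2.1) (fun D hD => hAW D hD.1)
      (fun D hD E hE => hWW D hD.1 hD.2.1 E hE.1) le_rfl
    refine GenSub.le_of_hyperplanes p A _ _ hA (le_normalizer_inf (hAθ a ha)
      (ElAb.le_normalizer_centralizer_singleton hA hb)) (fun h => hcop a ha h1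
        (h.trans (Subgroup.card_dvd_of_le inf_le_left))) fun B hB hi => ?_
    rintro x ⟨⟨hxX, hxb⟩, hxB⟩
    have hcent : B ⊔ zpowers a ⊔ zpowers b ≤ centralizer {x} := by
      refine sup_le (sup_le ?_ ?_) ?_
      · intro d hd
        rw [mem_centralizer_singleton_iff]
        exact mem_centralizer_iff.mp hxB d hd
      · intro d hd
        rw [mem_centralizer_singleton_iff]
        exact mem_centralizer_iff.mp (hXZ hxX) d hd
      · rw [zpowers_le, mem_centralizer_singleton_iff]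
        exact (mem_centralizer_singleton_iff.mp hxb).symm
    have hBA : B ⊔ zpowers a ⊔ zpowers b ≤ A :=
      sup_le (sup_le hB (by rwa [zpowers_le])) (by rwa [zpowers_le])
    have hBk : p ^ k ≤ Nat.card (B ⊔ zpowers a ⊔ zpowers b : Subgroup G) := by
      refine le_trans ?_ (Subgroup.card_le_of_le (le_sup_left.trans le_sup_left : B ≤ _))
      refine (Nat.pow_le_pow_right hp.pos (Nat.le_succ k)).trans ?_
      exact ElAb.card_ge_of_relIndex_le hAk hB hi
    obtain ⟨D, hD1, hD2, hD3⟩ := hbetween a ha h1 _ hBA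
      ((le_sup_right.trans le_sup_left : zpowers a ≤ _) (mem_zpowers a)) hBk
    obtain ⟨E, hE1, hE2, hE3⟩ := hbetween b hb hb1 _ hBA
      ((le_sup_right : zpowers b ≤ _) (mem_zpowers b)) hBk
    have hc : ∀ F : Subgroup G, F ≤ B ⊔ zpowers a ⊔ zpowers b → x ∈ centralizer (F : Set G) := by
      intro F hF
      rw [mem_centralizer_iff]
      intro f hf
      exact mem_centralizer_singleton_iff.mp (hcent (hF hf))
    have hxD : x ∈ W D := hgen D ⟨hD1.trans hBA, hD2, hD3⟩ ⟨hxX, hc D hD1⟩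
    have hxE : x ∈ W E := hWW D (hD1.trans hBA) hD2 E (hE1.trans hBA) ⟨hxD, hc E hE1⟩
    exact le_iSup₂_of_le (f := fun D _ => W D) E ⟨hE1.trans hBA, hE2, hE3⟩ le_rfl hxE

end Cfsg.Agent.S1299
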