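import Cfsg.Statements.S1302
import Cfsg.Agent.Lib.H27.Baer
import Cfsg.Agent.Lib.H26.OPPrime
import Cfsg.Agent.Lib.H59.PCons

set_option autoImplicit false
open Cfsg

namespace Cfsg.Agent.S1302

theorem result {X : Type*} [Group X] [Finite X] (p : ℕ) [Fact p.Prime] (hp : p ≠ 2) (hX : Cfsg.IsPConstrained p X) (A : Subgroup X) (hA : IsMulCommutative ↥A) (hAp : IsPGroup p ↥A) (hΩ : ∀ x ∈ Subgroup.centralizer (A : Set X), orderOf x = p → x ∈ A) (Q : Subgroup X) (hQ : ¬ p ∣ Nat.card ↥Q) (hAQ : A ≤ Subgroup.normalizer (Q : Set X)) : Q ≤ Cfsg.pPrimeCore p X := by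
  have hpp : p.Prime := Fact.out
  set O := pPrimeCore p X with hO
  set f := QuotientGroup.mk' O with hf
  have hOcop : (Nat.card O).Coprime p := H1.Cores.coprime_card_pPrimeCore p
  have hOp : ¬ p ∣ Nat.card O := (Nat.Prime.coprime_iff_not_dvd hpp).mp hOcop.symm
  have hQc : (Nat.card Q).Coprime p := ((Nat.Prime.coprime_iff_not_dvd hpp).mpr hQ).symm
  set P := pCore p (X ⧸ O) with hP
  have hPp : IsPGroup p P := H1.Cores.isPGroup_pCore p
  have hQbc : (Nat.card (Q.map f)).Coprime p :=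
    Nat.Coprime.coprime_dvd_left (Subgroup.card_map_dvd _ _) hQc
  have hPn : ∀ H : Subgroup (X ⧸ O), H ≤ Subgroup.normalizer (P : Set (X ⧸ O)) := by
    intro H
    have : P.Normal := inferInstance
    rw [Subgroup.normalizer_eq_top]
    exact le_top
  have hAQb : A.map f ≤ Subgroup.normalizer ((Q.map f : Subgroup (X ⧸ O)) : Set (X ⧸ O)) := by
    apply H1.Coprime.le_normalizer_of_conj_mem
    rintro _ ⟨a, ha, rfl⟩ _ ⟨q, hq, rfl⟩
    exact ⟨a * q * a⁻¹, H1.Coprime.conj_mem_of_le_normalizer hAQ ha hq, by simp⟩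
  have hcomm : ⁅P, Q.map f⁆ = ⊥ := by
    apply H27.Baer.comm_of_fixed hp hPp (hAp.map f) hQbc (hPn _) (hPn _) hAQb
    intro x hxP hxp hxA
    rw [H26.PxQ.map_centralizer_eq hAp hOp] at hxA
    obtain ⟨y, hy, rfl⟩ := hxA
    by_cases h1 : f y = 1
    · change f y ∈ _
      rw [h1]; exact one_mem _
    obtain ⟨u, hu, k, hk⟩ := H26.OPPrime.exists_pElement_lift (p := p) f (x := y)
      ⟨1, by rw [pow_one]; exact hxp⟩
    set z := y ^ u with hz
    have hzA : z ∈ Subgroup.centralizer (A : Set X) := Subgroup.pow_mem _ hy u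
    have hzp : z ^ p = 1 := by
      have h2 : z ^ p ∈ O := by
        rw [← QuotientGroup.eq_one_iff]
        change f (z ^ p) = 1
        rw [map_pow, hu]; exact hxp
      have h3 : orderOf (z ^ p) ∣ p ^ k := by
        apply orderOf_dvd_of_pow_eq_one
        rw [← pow_mul, mul_comm, pow_mul, hk, one_pow]
      have h4 : (orderOf (z ^ p)).Coprime (p ^ k) := Nat.Coprime.pow_right k
        (Nat.Coprime.coprime_dvd_left (Subgroup.orderOf_dvd_natCard _ h2) hOcop)
      exact orderOf_eq_one_iff.mp (Nat.Coprime.eq_one_of_dvd h4 h3)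
    have hz1 : z ≠ 1 := by
      intro h
      rw [h, map_one] at hu
      exact h1 hu.symm
    have hzA' : z ∈ A := hΩ z hzA (orderOf_eq_prime hzp hz1)
    rw [Subgroup.mem_centralizer_iff]
    rintro q hq
    have h5 : q * f y * q⁻¹ * (f y)⁻¹ ∈ P ⊓ Q.map f := by
      refine Subgroup.mem_inf.mpr ⟨?_, ?_⟩
      · have : P.Normal := inferInstance
        exact mul_mem (this.conj_mem _ hxP q) (inv_mem hxP)
      · have h6 : f y ∈ A.map f := ⟨z, hzA', hu⟩
        have h7 := H1.Coprime.conj_mem_of_le_normalizer hAQb h6 (inv_mem hq)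
        have e : q * f y * q⁻¹ * (f y)⁻¹ = q * (f y * q⁻¹ * (f y)⁻¹) := by group
        rw [e]
        exact mul_mem hq h7
    rw [H26.LocalFitting.inf_eq_bot_of_coprime hPp hQbc, Subgroup.mem_bot, mul_inv_eq_one,
      mul_inv_eq_iff_eq_mul] at h5
    exact h5
  have h1 : Q.map f ≤ P := by
    have h2 := (H59.PCons.isPConstrained_iff.mp hX).centralizer_pCore_le
    refine le_trans ?_ h2
    rw [← Subgroup.commutator_eq_bot_iff_le_centralizer, Subgroup.commutator_comm]
    exact hcomm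
  have h2 := H26.LocalFitting.inf_eq_bot_of_coprime hPp hQbc
  rw [inf_eq_right.mpr h1, Subgroup.map_eq_bot_iff, QuotientGroup.ker_mk'] at h2
  exact h2

end Cfsg.Agent.S1302
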