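import Cfsg.Statements.S1303
import Mathlib

set_option autoImplicit false
open Cfsg

namespace Cfsg.Agent.S1303

abbrev SL23 := Matrix.SpecialLinearGroup (Fin 2) (ZMod 3)

theorem fact_inv : ∀ t : SL23, t ^ 2 = 1 → ∀ g : SL23, t * g = g * t := by decide +kernel
theorem fact_three : ∀ n : SL23, n ^ 3 = 1 → n ≠ 1 → ∃ g : SL23, (n * (g * n⁻¹ * g⁻¹)) ^ 3 ≠ 1 := by
  decide +kernel
theorem fact_mul : ∀ a b : SL23, a ^ 4 = 1 → b ^ 4 = 1 → (a * b) ^ 4 = 1 := by decide +kernel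
theorem fact_cent : ∀ c : SL23, (∀ v : SL23, v ^ 4 = 1 → v * c = c * v) → c ^ 4 = 1 := by
  decide +kernel
theorem fact_card : Fintype.card SL23 = 24 := by decide +kernel

/-- The normal quaternion subgroup. -/
def Q8 : Subgroup SL23 where
  carrier := {g | g ^ 4 = 1}
  mul_mem' := fun {a b} ha hb => fact_mul a b ha hb
  one_mem' := one_pow 4
  inv_mem' := fun {a} ha => by
    change (a⁻¹) ^ 4 = 1
    change a ^ 4 = 1 at ha
    rw [inv_pow, ha, inv_one]

theorem mem_Q8 {g : SL23} : g ∈ Q8 ↔ g ^ 4 = 1 := Iff.rfl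

instance Q8_normal : Q8.Normal := ⟨fun n hn g => by
  rw [mem_Q8] at hn ⊢
  rw [conj_pow, hn]; simp⟩

theorem Q8_pgroup : IsPGroup 2 Q8 := by
  rintro ⟨g, hg⟩
  refine ⟨2, ?_⟩
  ext1
  exact hg

theorem core_bot : pPrimeCore 2 SL23 = ⊥ := by
  rw [eq_bot_iff]
  apply sSup_le
  rintro N ⟨hN, hcop⟩
  have hdvd : Nat.card N ∣ 24 := by
    have := Subgroup.card_subgroup_dvd_card N
    rwa [Nat.card_eq_fintype_card (α := SL23), fact_card] at this
  have h3 : Nat.card N ∣ 3 := by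
    have h24 : (24 : ℕ) = 2 ^ 3 * 3 := by norm_num
    rw [h24] at hdvd
    exact (Nat.Coprime.pow_right 3 hcop).dvd_of_dvd_mul_left hdvd
  have hpow : ∀ n ∈ N, n ^ 3 = 1 := by
    intro n hn
    have h1 : (⟨n, hn⟩ : N) ^ Nat.card N = 1 := pow_card_eq_one'
    obtain ⟨k, hk⟩ := h3
    have h2 : n ^ Nat.card N = 1 := congrArg Subtype.val h1
    calc n ^ 3 = n ^ (Nat.card N * k) := congrArg (fun m => n ^ m) hk
      _ = 1 := by rw [pow_mul, h2, one_pow]
  intro n hn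
  rw [Subgroup.mem_bot]
  by_contra hne
  obtain ⟨g, hg⟩ := fact_three n (hpow n hn) hne
  exact hg (hpow _ (N.mul_mem hn (hN.conj_mem _ (N.inv_mem hn) g)))

theorem Q8_le : Q8 ≤ pPrimePCore 2 SL23 := by
  rw [pPrimePCore, ← Subgroup.map_le_iff_le_comap]
  apply le_sSup
  refine ⟨?_, Q8_pgroup.map _⟩
  exact Subgroup.Normal.map inferInstance _ (QuotientGroup.mk'_surjective _)

/-- The group X = SL(2, 3): it is 2-constrained, O_{2'}(X) = 1, its centre A = Z(X) contains every involution of X = C_X(A), and X has a subgroup of order 3 (normalized by A) not contained in O_{2'}(X). -/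
theorem result : Cfsg.IsPConstrained 2 (Matrix.SpecialLinearGroup (Fin 2) (ZMod 3)) ∧ Cfsg.pPrimeCore 2 (Matrix.SpecialLinearGroup (Fin 2) (ZMod 3)) = ⊥ ∧ (∀ t : Matrix.SpecialLinearGroup (Fin 2) (ZMod 3), orderOf t = 2 → t ∈ Subgroup.center (Matrix.SpecialLinearGroup (Fin 2) (ZMod 3))) ∧ ∃ Q : Subgroup (Matrix.SpecialLinearGroup (Fin 2) (ZMod 3)), Nat.card ↥Q = 3 ∧ ¬ (Q ≤ Cfsg.pPrimeCore 2 (Matrix.SpecialLinearGroup (Fin 2) (ZMod 3))) := by
  refine ⟨?_, core_bot, ?_, ?_⟩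
  · intro P c hc
    apply Q8_le
    rw [mem_Q8]
    apply fact_cent
    intro v hv
    have hvM : v ∈ pPrimePCore 2 SL23 := Q8_le hv
    have hle : Q8.subgroupOf (pPrimePCore 2 SL23) ≤ (P : Subgroup ↥(pPrimePCore 2 SL23)) := by
      have hp : IsPGroup 2 (Q8.subgroupOf (pPrimePCore 2 SL23)) :=
        Q8_pgroup.comap_of_injective _ (Subgroup.subtype_injective _)
      have hn : (Q8.subgroupOf (pPrimePCore 2 SL23)).Normal := inferInstance
      exact IsPGroup.le_sylow_of_normal hp P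
    rw [Subgroup.mem_centralizer_iff] at hc
    exact hc v ⟨⟨v, hvM⟩, hle hv, rfl⟩
  · intro t ht
    rw [Subgroup.mem_center_iff]
    intro g
    refine (fact_inv t ?_ g).symm
    exact (congrArg (fun m => t ^ m) ht).symm.trans (pow_orderOf_eq_one t)
  · have h3 : ∃ u : SL23, u ^ 3 = 1 ∧ u ≠ 1 := by decide +kernel
    obtain ⟨u, hu, hu1⟩ := h3
    have : Fact (Nat.Prime 3) := ⟨Nat.prime_three⟩
    refine ⟨Subgroup.zpowers u, ?_, ?_⟩
    · rw [Nat.card_zpowers]; exact orderOf_eq_prime hu hu1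
    · rw [core_bot]
      intro h
      exact hu1 (Subgroup.mem_bot.mp (h (Subgroup.mem_zpowers u)))

end Cfsg.Agent.S1303
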