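import Cfsg.Statements.S1304
import Mathlib

set_option autoImplicit false
open Cfsg
open scoped commutatorElement

namespace Cfsg.Agent.S1304

/-- Let X be a perfect group and α an automorphism of X with α(x) x⁻¹ central for every x. Then α is the identity. -/
theorem result {X : Type*} [Group X] (hperf : commutator X = ⊤) (α : X ≃* X) (h : ∀ x : X, α x * x⁻¹ ∈ Subgroup.center X) : ∀ x : X, α x = x := by
  intro x
  have hle : commutator X ≤ (α.toMonoidHom).eqLocus (MonoidHom.id X) := by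
    rw [commutator_def, Subgroup.commutator_le]
    intro a _ b _
    change α ⁅a, b⁆ = ⁅a, b⁆
    have ha := h a
    have hb := h b
    obtain ⟨z, hz⟩ : ∃ z, z = α a * a⁻¹ := ⟨_, rfl⟩
    obtain ⟨w, hw⟩ : ∃ w, w = α b * b⁻¹ := ⟨_, rfl⟩
    rw [← hz] at ha
    rw [← hw] at hb
    have ea : α a = z * a := by rw [hz]; group
    have eb : α b = w * b := by rw [hw]; group
    have hz' := Subgroup.mem_center_iff.mp ha
    have hw' := Subgroup.mem_center_iff.mp hb
    rw [map_commutatorElement, ea, eb, commutatorElement_def, commutatorElement_def, mul_inv_rev,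
      mul_inv_rev]
    calc z * a * (w * b) * (a⁻¹ * z⁻¹) * (b⁻¹ * w⁻¹)
        = z * (a * w) * b * a⁻¹ * z⁻¹ * b⁻¹ * w⁻¹ := by group
      _ = z * (w * a) * b * a⁻¹ * z⁻¹ * b⁻¹ * w⁻¹ := by rw [hw' a]
      _ = z * (w * a * b * a⁻¹) * z⁻¹ * b⁻¹ * w⁻¹ := by group
      _ = (w * a * b * a⁻¹) * z * z⁻¹ * b⁻¹ * w⁻¹ := by rw [← hz' (w * a * b * a⁻¹)]
      _ = w * (a * b * a⁻¹ * b⁻¹) * w⁻¹ := by group
      _ = (a * b * a⁻¹ * b⁻¹) * w * w⁻¹ := by rw [← hw' (a * b * a⁻¹ * b⁻¹)]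
      _ = a * b * a⁻¹ * b⁻¹ := by group
  exact hle (hperf ▸ Subgroup.mem_top x)

end Cfsg.Agent.S1304
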