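import Cfsg.Statements.S1306
import Cfsg.Agent.Lib.H26.GenFitting
import Cfsg.Agent.Lib.H1.Coprime2

set_option autoImplicit false
open Cfsg

namespace Cfsg.Agent.S1306

theorem comp_conj {G : Type*} [Group G] (H L : Subgroup G) (hLH : L ≤ H)
    (h : IsComponent (L.subgroupOf H)) (g : G) :
    IsComponent ((L.map (MulAut.conj g).toMonoidHom).subgroupOf
      (H.map (MulAut.conj g).toMonoidHom)) := by
  set f := (MulAut.conj g).toMonoidHom with hf
  have hfi : Function.Injective f := (MulAut.conj g).injective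
  have h1 := (H26.Components.map_mulEquiv_iff (H.equivMapOfInjective f hfi)).mpr h
  convert h1 using 1
  ext ⟨x, hx⟩
  constructor
  · intro h2
    rw [Subgroup.mem_subgroupOf] at h2
    obtain ⟨l, hl, rfl⟩ := h2
    exact ⟨⟨l, hLH hl⟩, hl, rfl⟩
  · rintro ⟨⟨l, hl'⟩, hl, h3⟩
    rw [Subgroup.mem_subgroupOf]
    refine ⟨l, hl, ?_⟩
    exact congrArg Subtype.val h3

theorem result {G : Type*} [Group G] [Finite G] (x : G) (hx : orderOf x = 2) (L : Subgroup G) (hLx : L ≤ Subgroup.centralizer ({x} : Set G)) (hL : Cfsg.IsComponent (L.subgroupOf (Subgroup.centralizer ({x} : Set G)))) (hne : ∀ y : G, orderOf y = 2 → y ∈ Subgroup.centralizer (L : Set G) → L ≤ Subgroup.centralizer ({y} : Set G) ∧ Cfsg.IsComponent (L.subgroupOf (Subgroup.centralizer ({y} : Set G)))) (hnc : ∀ g : G, L.map (MulAut.conj g).toMonoidHom ≠ L → ⁅L, L.map (MulAut.conj g).toMonoidHom⁆ ≠ ⊥) : Cfsg.IsStandardSubgroup L := by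
  have hQS : IsQuasisimple L := (H26.Components.isQuasisimple_subgroupOf hLx).mp hL.2
  have hfix : ∀ g : G, ∀ y : G, orderOf y = 2 → y ∈ Subgroup.centralizer (L : Set G) →
      y ∈ Subgroup.centralizer ((L.map (MulAut.conj g).toMonoidHom : Subgroup G) : Set G) →
      L.map (MulAut.conj g).toMonoidHom = L := by
    intro g y hy hyL hyLg
    set Lg := L.map (MulAut.conj g).toMonoidHom with hLg
    by_contra hcon
    apply hnc g hcon
    obtain ⟨h1, h2⟩ := hne y hy hyL
    -- `g⁻¹ y g` centralizes `L`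
    have hy' : orderOf (g⁻¹ * y * g) = 2 := by
      have : g⁻¹ * y * g = MulAut.conj g⁻¹ y := by simp
      rw [this, MulEquiv.orderOf_eq, hy]
    have hyL' : g⁻¹ * y * g ∈ Subgroup.centralizer (L : Set G) := by
      rw [Subgroup.mem_centralizer_iff] at hyLg ⊢
      intro l hl
      have := hyLg (g * l * g⁻¹) ⟨l, hl, rfl⟩
      calc l * (g⁻¹ * y * g) = g⁻¹ * ((g * l * g⁻¹) * y) * g := by group
        _ = g⁻¹ * (y * (g * l * g⁻¹)) * g := by rw [this]
        _ = g⁻¹ * y * g * l := by group
    obtain ⟨h3, h4⟩ := hne _ hy' hyL'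
    have h5 := comp_conj _ L h3 h4 g
    have e : (Subgroup.centralizer ({g⁻¹ * y * g} : Set G)).map (MulAut.conj g).toMonoidHom =
        Subgroup.centralizer ({y} : Set G) := by
      ext z
      constructor
      · rintro ⟨w, hw, rfl⟩
        rw [SetLike.mem_coe, Subgroup.mem_centralizer_singleton_iff] at hw
        rw [Subgroup.mem_centralizer_singleton_iff]
        change g * w * g⁻¹ * y = y * (g * w * g⁻¹)
        calc g * w * g⁻¹ * y = g * (w * (g⁻¹ * y * g)) * g⁻¹ := by group
          _ = g * ((g⁻¹ * y * g) * w) * g⁻¹ := by rw [hw]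
          _ = y * (g * w * g⁻¹) := by group
      · intro hz
        rw [Subgroup.mem_centralizer_singleton_iff] at hz
        refine ⟨g⁻¹ * z * g, ?_, by change g * (g⁻¹ * z * g) * g⁻¹ = z; group⟩
        rw [SetLike.mem_coe, Subgroup.mem_centralizer_singleton_iff]
        calc g⁻¹ * z * g * (g⁻¹ * y * g) = g⁻¹ * (z * y) * g := by group
          _ = g⁻¹ * (y * z) * g := by rw [hz]
          _ = g⁻¹ * y * g * (g⁻¹ * z * g) := by group
    rw [e] at h5
    have hLgy : Lg ≤ Subgroup.centralizer ({y} : Set G) := by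
      rw [← e]; exact Subgroup.map_mono h3
    have h6 := H26.Components.commutator_eq_bot_of_ne h2 h5 (fun h => hcon (by
      have := congrArg (Subgroup.map (Subgroup.centralizer ({y} : Set G)).subtype) h
      rw [Subgroup.map_subgroupOf_eq_of_le h1, Subgroup.map_subgroupOf_eq_of_le hLgy] at this
      exact this.symm))
    exact (H26.Basic.subgroupOf_commutator_eq_bot_iff h1 hLgy).mp h6
  have hxC : x ∈ Subgroup.centralizer (L : Set G) := by
    rw [Subgroup.mem_centralizer_iff]
    intro l hl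
    exact (Subgroup.mem_centralizer_singleton_iff.mp (hLx hl))
  have hmapC : ∀ g : G, (Subgroup.centralizer (L : Set G)).map (MulAut.conj g).toMonoidHom =
      Subgroup.centralizer ((L.map (MulAut.conj g).toMonoidHom : Subgroup G) : Set G) := by
    intro g
    ext z
    constructor
    · rintro ⟨w, hw, rfl⟩
      rw [SetLike.mem_coe, Subgroup.mem_centralizer_iff] at hw
      rw [Subgroup.mem_centralizer_iff]
      rintro _ ⟨l, hl, rfl⟩
      change (g * l * g⁻¹) * (g * w * g⁻¹) = (g * w * g⁻¹) * (g * l * g⁻¹)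
      calc (g * l * g⁻¹) * (g * w * g⁻¹) = g * (l * w) * g⁻¹ := by group
        _ = g * (w * l) * g⁻¹ := by rw [hw l hl]
        _ = (g * w * g⁻¹) * (g * l * g⁻¹) := by group
    · intro hz
      rw [Subgroup.mem_centralizer_iff] at hz
      refine ⟨g⁻¹ * z * g, ?_, by change g * (g⁻¹ * z * g) * g⁻¹ = z; group⟩
      rw [SetLike.mem_coe, Subgroup.mem_centralizer_iff]
      intro l hl
      have := hz (g * l * g⁻¹) ⟨l, hl, rfl⟩
      calc l * (g⁻¹ * z * g) = g⁻¹ * ((g * l * g⁻¹) * z) * g := by group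
        _ = g⁻¹ * (z * (g * l * g⁻¹)) * g := by rw [this]
        _ = g⁻¹ * z * g * l := by group
  refine ⟨hQS, ⟨?_, ?_⟩, hnc, ?_⟩
  · rw [even_iff_two_dvd, ← hx]
    exact Subgroup.orderOf_dvd_natCard _ hxC
  · intro g hg
    rw [← Nat.not_even_iff_odd, even_iff_two_dvd]
    intro hdvd
    apply hg
    have : Fact (Nat.Prime 2) := ⟨Nat.prime_two⟩
    obtain ⟨y, hy⟩ := exists_prime_orderOf_dvd_card' 2 hdvd
    have hyo : orderOf (y : G) = 2 := by rw [Subgroup.orderOf_coe, hy]
    have hy1 : (y : G) ∈ Subgroup.centralizer (L : Set G) := y.2.1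
    have hy2 : (y : G) ∈ (Subgroup.centralizer (L : Set G)).map (MulAut.conj g).toMonoidHom := y.2.2
    have hy3 : (y : G) ∈ Subgroup.centralizer
        ((L.map (MulAut.conj g).toMonoidHom : Subgroup G) : Set G) := (hmapC g) ▸ hy2
    rw [Subgroup.mem_normalizer_iff_map_conj_eq]
    have h1 := hfix g y hyo hy1 hy3
    have h2 := hmapC g
    rw [h1] at h2
    exact h2
  · apply le_antisymm
    · exact H1.Coprime2.le_normalizer_centralizer le_rfl
    · intro g hg
      rw [Subgroup.mem_normalizer_iff_map_conj_eq] at hg ⊢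
      apply hfix g x hx hxC
      rw [← hmapC g]
      have : (Subgroup.centralizer (L : Set G)).map (MulAut.conj g).toMonoidHom =
        Subgroup.centralizer (L : Set G) := hg
      rw [this]; exact hxC

end Cfsg.Agent.S1306
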