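import Cfsg.Statements.S1314
import Mathlib

set_option autoImplicit false
open Cfsg

namespace Cfsg.Agent.S1314

theorem result {G : Type*} [Group G] [Finite G] (x : G) (hx : orderOf x = 2) (L : Subgroup G) (hperf : ⁅L, L⁆ = L) (hcomm : ⁅L, L.map (MulAut.conj x).toMonoidHom⁆ = ⊥) : ∃ π : ↥L →* G, (∀ l : ↥L, π l = (l : G) * (x * (l : G) * x⁻¹)) ∧ π.ker ≤ Subgroup.center ↥L ∧ π.range ≤ Subgroup.centralizer ({x} : Set G) ∧ ⁅(L ⊔ L.map (MulAut.conj x).toMonoidHom) ⊓ Subgroup.centralizer ({x} : Set G), (L ⊔ L.map (MulAut.conj x).toMonoidHom) ⊓ Subgroup.centralizer ({x} : Set G)⁆ = π.range := by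
  have hxx : x * x = 1 := by
    have := pow_orderOf_eq_one x
    rwa [hx, pow_two] at this
  have hxinv : x⁻¹ = x := inv_eq_of_mul_eq_one_left hxx
  have hcm : ∀ l ∈ L, ∀ m ∈ L, l * (x * m * x⁻¹) = (x * m * x⁻¹) * l := by
    intro l hl m hm
    have h1 := Subgroup.commutator_eq_bot_iff_le_centralizer.mp hcomm hl
    rw [Subgroup.mem_centralizer_iff] at h1
    exact (h1 (x * m * x⁻¹) ⟨m, hm, rfl⟩).symm
  let π : ↥L →* G :=
    { toFun := fun l => (l : G) * (x * (l : G) * x⁻¹)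
      map_one' := by simp
      map_mul' := by
        intro l m
        have := hcm m m.2 l l.2
        simp only [Subgroup.coe_mul]
        calc (l : G) * m * (x * (l * m) * x⁻¹) = l * (m * (x * l * x⁻¹)) * (x * m * x⁻¹) := by group
          _ = l * ((x * l * x⁻¹) * m) * (x * m * x⁻¹) := by rw [this]
          _ = _ := by group }
  have hπ : ∀ l : ↥L, π l = (l : G) * (x * (l : G) * x⁻¹) := fun l => rfl
  have hrange : π.range ≤ Subgroup.centralizer ({x} : Set G) := by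
    rintro _ ⟨l, rfl⟩
    rw [Subgroup.mem_centralizer_singleton_iff, hπ]
    have := hcm l l.2 l l.2
    calc (l : G) * (x * l * x⁻¹) * x = (l : G) * x * l := by group
      _ = (x * x) * l * x * l := by rw [hxx, one_mul]
      _ = x * ((x * l * x⁻¹) * l) := by rw [hxinv]; group
      _ = x * (l * (x * l * x⁻¹)) := by rw [this]
  refine ⟨π, hπ, ?_, hrange, ?_⟩
  · intro l hl
    rw [MonoidHom.mem_ker, hπ] at hl
    rw [Subgroup.mem_center_iff]
    intro m
    ext
    simp only [Subgroup.coe_mul]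
    have h1 : (x * (l : G) * x⁻¹) = (l : G)⁻¹ := by
      rw [eq_comm, inv_eq_iff_mul_eq_one]; exact hl
    have h2 := hcm m m.2 l l.2
    rw [h1] at h2
    have h3 : (m : G) * l = l * (((l : G)⁻¹ * m)) * l := by group
    rw [h3, ← h2]; group
  · set K := (L ⊔ L.map (MulAut.conj x).toMonoidHom) ⊓ Subgroup.centralizer ({x} : Set G) with hK
    have hDK : π.range ≤ K := by
      refine le_inf ?_ hrange
      rintro _ ⟨l, rfl⟩
      rw [hπ]
      exact Subgroup.mul_mem _ (Subgroup.mem_sup_left l.2) (Subgroup.mem_sup_right ⟨l, l.2, rfl⟩)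
    have hLtop : ⁅(⊤ : Subgroup L), (⊤ : Subgroup L)⁆ = ⊤ := by
      apply Subgroup.map_injective L.subtype_injective
      rw [Subgroup.map_commutator, ← MonoidHom.range_eq_map, Subgroup.range_subtype]
      exact hperf
    have hDD : ⁅π.range, π.range⁆ = π.range := by
      rw [MonoidHom.range_eq_map, ← Subgroup.map_commutator, hLtop]
    apply le_antisymm
    · -- commutator of K in D
      have hdec : ∀ k ∈ K, ∃ l : L, ∃ z : G, k = π l * z ∧ ∀ k' ∈ K, k' * z = z * k' := by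
        intro k hk
        have hn : L ≤ Subgroup.normalizer ((L.map (MulAut.conj x).toMonoidHom : Subgroup G) : Set G) := by
          intro l hl
          rw [Subgroup.mem_normalizer_iff]
          intro y
          constructor
          · rintro ⟨m, hm, rfl⟩
            refine ⟨m, hm, ?_⟩
            have h2 := hcm l hl m hm
            change x * m * x⁻¹ = l * (x * m * x⁻¹) * l⁻¹
            rw [h2]; group
          · rintro ⟨m, hm, hm'⟩
            refine ⟨m, hm, ?_⟩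
            have h2 := hcm l hl m hm
            change x * m * x⁻¹ = l * y * l⁻¹ at hm'
            change x * m * x⁻¹ = y
            have h3 : y = l⁻¹ * (l * y * l⁻¹) * l := by group
            rw [h3, ← hm', mul_assoc l⁻¹, ← h2]; group
        have h1 : k ∈ ((L ⊔ L.map (MulAut.conj x).toMonoidHom : Subgroup G) : Set G) := hk.1
        rw [Subgroup.coe_mul_of_left_le_normalizer_right _ _ hn] at h1
        obtain ⟨l, hl, _, ⟨m, hm, rfl⟩, hlm⟩ := h1
        change l * (x * m * x⁻¹) = k at hlm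
        have hkx : k * x = x * k := Subgroup.mem_centralizer_singleton_iff.mp hk.2
        -- z = x * (l⁻¹ * m) * x⁻¹
        have hkey : l⁻¹ * m = x * (m * l⁻¹) * x⁻¹ := by
          have e1 : x * k * x⁻¹ = k := by rw [← hkx]; group
          rw [← hlm] at e1
          have e2 : x * (l * (x * m * x⁻¹)) * x⁻¹ = (x * l * x⁻¹) * m := by
            calc x * (l * (x * m * x⁻¹)) * x⁻¹ = (x * l * x⁻¹) * ((x * x) * m * (x * x)⁻¹) := by group
              _ = _ := by rw [hxx]; group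
          rw [e2] at e1
          have e3 := hcm m hm l hl
          rw [← e3] at e1
          -- m * (x l x⁻¹) = l * (x m x⁻¹)
          calc l⁻¹ * m = l⁻¹ * (m * (x * l * x⁻¹)) * (x * l * x⁻¹)⁻¹ := by group
            _ = l⁻¹ * (l * (x * m * x⁻¹)) * (x * l * x⁻¹)⁻¹ := by rw [e1]
            _ = _ := by group
        refine ⟨⟨l, hl⟩, x * (l⁻¹ * m) * x⁻¹, ?_, ?_⟩
        · rw [hπ, ← hlm]; group
        · -- z is in L and in L^x
          have hz1 : x * (l⁻¹ * m) * x⁻¹ = m * l⁻¹ := by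
            rw [hkey]
            calc x * (x * (m * l⁻¹) * x⁻¹) * x⁻¹ = (x * x) * (m * l⁻¹) * (x * x)⁻¹ := by group
              _ = _ := by rw [hxx]; group
          intro k' hk'
          have h1' : k' ∈ ((L ⊔ L.map (MulAut.conj x).toMonoidHom : Subgroup G) : Set G) := hk'.1
          rw [Subgroup.coe_mul_of_left_le_normalizer_right _ _ hn] at h1'
          obtain ⟨l', hl', _, ⟨m', hm', rfl⟩, hlm'⟩ := h1'
          change l' * (x * m' * x⁻¹) = k' at hlm'
          rw [← hlm']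
          have c1 := hcm (m * l⁻¹) (L.mul_mem hm (L.inv_mem hl)) m' hm'
          have c2 := hcm l' hl' (l⁻¹ * m) (L.mul_mem (L.inv_mem hl) hm)
          rw [hz1] at c2 ⊢
          rw [mul_assoc, ← c1, ← mul_assoc, c2, mul_assoc]
      rw [Subgroup.commutator_le]
      intro k₁ hk₁ k₂ hk₂
      obtain ⟨l₁, z₁, e₁, c₁⟩ := hdec k₁ hk₁
      obtain ⟨l₂, z₂, e₂, c₂⟩ := hdec k₂ hk₂
      have hd₁ := hDK ⟨l₁, rfl⟩
      have hd₂ := hDK ⟨l₂, rfl⟩
      have hz₁ : z₁ ∈ K := by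
        have : z₁ = (π l₁)⁻¹ * k₁ := by rw [e₁]; group
        rw [this]; exact K.mul_mem (K.inv_mem hd₁) hk₁
      have hz₂ : z₂ ∈ K := by
        have : z₂ = (π l₂)⁻¹ * k₂ := by rw [e₂]; group
        rw [this]; exact K.mul_mem (K.inv_mem hd₂) hk₂
      have : k₁ * k₂ * k₁⁻¹ * k₂⁻¹ = π (l₁ * l₂ * l₁⁻¹ * l₂⁻¹) := by
        rw [map_mul, map_mul, map_mul, map_inv, map_inv, e₁, e₂]
        have a1 := c₁ _ hd₂
        have a2 := c₂ _ hd₁
        have a3 := c₁ _ hz₂
        have b1 := c₁ _ (K.mul_mem (K.mul_mem hd₂ hz₂) (K.inv_mem hd₁))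
        calc π l₁ * z₁ * (π l₂ * z₂) * (π l₁ * z₁)⁻¹ * (π l₂ * z₂)⁻¹
            = π l₁ * z₁ * (π l₂ * z₂) * z₁⁻¹ * (π l₁)⁻¹ * z₂⁻¹ * (π l₂)⁻¹ := by group
          _ = π l₁ * (z₁ * (π l₂ * z₂)) * z₁⁻¹ * (π l₁)⁻¹ * z₂⁻¹ * (π l₂)⁻¹ := by group
          _ = π l₁ * ((π l₂ * z₂) * z₁) * z₁⁻¹ * (π l₁)⁻¹ * z₂⁻¹ * (π l₂)⁻¹ := by
              rw [c₁ _ (K.mul_mem hd₂ hz₂)]
          _ = π l₁ * π l₂ * (z₂ * (π l₁)⁻¹) * z₂⁻¹ * (π l₂)⁻¹ := by group
          _ = π l₁ * π l₂ * ((π l₁)⁻¹ * z₂) * z₂⁻¹ * (π l₂)⁻¹ := by rw [c₂ _ (K.inv_mem hd₁)]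
          _ = _ := by group
      exact ⟨_, this.symm⟩
    · calc π.range = ⁅π.range, π.range⁆ := hDD.symm
        _ ≤ ⁅K, K⁆ := Subgroup.commutator_mono hDK hDK

end Cfsg.Agent.S1314
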