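import Cfsg.Statements.S1317
import Cfsg.Agent.Lib.H26.GenFitting

set_option autoImplicit false
open Cfsg

namespace Cfsg.Agent.S1317

theorem result {X : Type*} [Group X] [Finite X] : (Subgroup.center ↥(Cfsg.layer X)).map (Cfsg.layer X).subtype = Cfsg.fittingSubgroup X ⊓ Cfsg.layer X := by
  rw [H26.GenFitting.map_center]
  apply le_antisymm
  · exact le_inf H26.GenFitting.centre_layer_le_fitting inf_le_left
  · refine le_inf inf_le_right ?_
    refine inf_le_left.trans ?_
    rw [← Subgroup.commutator_eq_bot_iff_le_centralizer, Subgroup.commutator_comm]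
    exact H26.Components.commutator_layer_fittingSubgroup

end Cfsg.Agent.S1317
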