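import Cfsg.Statements.S1318
import Cfsg.Agent.Lib.H26.GenFitting

set_option autoImplicit false
open Cfsg

namespace Cfsg.Agent.S1318

theorem result {X : Type*} [Group X] [Finite X] (S : Subgroup X) (hS : S ≤ Cfsg.generalizedFittingSubgroup X) (hsn : (S.subgroupOf (Cfsg.generalizedFittingSubgroup X)).IsSubnormal) : (Cfsg.fittingSubgroup ↥S).map S.subtype = Cfsg.fittingSubgroup X ⊓ S ∧ Cfsg.fittingSubgroup ↥S ⊔ Cfsg.layer ↥S = ⊤ := by
  have hFn : (generalizedFittingSubgroup X).Normal := inferInstance
  have hSs : S.IsSubnormal := (H26.Subnormal.subgroupOf_iff hFn.isSubnormal hS).mp hsn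
  refine ⟨?_, ?_⟩
  · rw [H26.Subnormal.map_subtype_fittingSubgroup hSs, inf_comm]
  · have h := H26.GenFitting.map_subtype_gFitting hSs
    rw [inf_eq_left.mpr hS] at h
    have h1 : generalizedFittingSubgroup S = ⊤ := by
      apply Subgroup.map_injective S.subtype_injective
      rw [h, ← MonoidHom.range_eq_map, Subgroup.range_subtype]
    rw [sup_comm]; exact h1

end Cfsg.Agent.S1318
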