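import Cfsg.Statements.S1319
import Cfsg.Agent.Lib.H26.GenFitting

set_option autoImplicit false
open Cfsg

namespace Cfsg.Agent.S1319

theorem result {X : Type*} [Group X] [Finite X] (A : Subgroup X) (hsn : A.IsSubnormal) (hA : Cfsg.layer ↥A = ⊤) : A ≤ Cfsg.layer X ∧ (A.subgroupOf (Cfsg.layer X)).Normal := by
  have h1 : (layer A).map A.subtype = A := by
    rw [hA, ← MonoidHom.range_eq_map, Subgroup.range_subtype]
  have h2 : A ≤ layer X := by
    rw [← h1]; exact H26.Components.map_subtype_layer_le hsn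
  refine ⟨h2, ?_⟩
  rw [Subgroup.normal_subgroupOf_iff_le_normalizer h2]
  intro g hg
  rw [Subgroup.mem_normalizer_iff_map_conj_eq]
  conv_rhs => rw [← h1]
  conv_lhs => rw [← h1]
  rw [layer, sSup_eq_iSup', Subgroup.map_iSup, Subgroup.map_iSup]
  congr 1
  funext K
  have hK : IsComponent ((K : Subgroup A).map A.subtype) :=
    (H26.Components.map_subtype_iff hsn).mpr K.2
  have h3 := H26.Components.layer_le_normalizer hK hg
  rwa [Subgroup.mem_normalizer_iff_map_conj_eq] at h3

end Cfsg.Agent.S1319
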