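import Cfsg.Statements.S1321
import Cfsg.Agent.Lib.H26.GenFitting
import Cfsg.Agent.Lib.H1.Coprime2

set_option autoImplicit false
open Cfsg
open scoped commutatorElement

namespace Cfsg.Agent.S1321

theorem result {X : Type*} [Group X] [Finite X] (U : Subgroup X) : Cfsg.layer X = (Cfsg.layer X ⊓ Subgroup.centralizer (U : Set X)) ⊔ ⁅Cfsg.layer X, U⁆ ∧ ⁅Cfsg.layer X, U⁆ ≤ Cfsg.layer X := by
  have hn : (layer X).Normal := inferInstance
  have hle : ⁅layer X, U⁆ ≤ layer X := by
    rw [Subgroup.commutator_le]
    intro a ha b _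
    rw [commutatorElement_def]
    have h1 := hn.conj_mem a⁻¹ (inv_mem ha) b
    have e : a * b * a⁻¹ * b⁻¹ = a * (b * a⁻¹ * b⁻¹) := by group
    rw [e]
    exact mul_mem ha h1
  refine ⟨le_antisymm ?_ (sup_le inf_le_left hle), hle⟩
  refine sSup_le fun K hK => ?_
  have hK' : IsComponent K := hK
  have hKE := H26.Components.le_layer hK'
  have hKn : K ≤ Subgroup.normalizer ((⁅layer X, U⁆ : Subgroup X) : Set X) :=
    hKE.trans (H1.Coprime2.le_normalizer_commutator_left _ _)
  rcases H26.Components.le_or_commutator_eq_bot_of_le_normalizer hK' hKn with h | h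
  · exact h.trans le_sup_right
  · refine le_trans ?_ le_sup_left
    refine le_inf hKE ?_
    rw [← Subgroup.commutator_eq_bot_iff_le_centralizer]
    apply H26.Basic.commutator_eq_bot_of_perfect' (H26.Components.isPerfect hK')
    rw [Subgroup.commutator_comm, eq_bot_iff, ← h]
    exact Subgroup.commutator_mono le_rfl (Subgroup.commutator_mono hKE le_rfl)

end Cfsg.Agent.S1321
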