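import Cfsg.Statements.S1328
import Cfsg.Agent.Lib.H27.CompAct

set_option autoImplicit false
open Cfsg
open scoped Pointwise

namespace Cfsg.Agent.S1328

theorem result {G : Type*} [Group G] [Finite G] (H : Subgroup G) (hO : Cfsg.oddCore ↥H = ⊥) (t : G) (ht : orderOf t = 2) (htH : t ∈ Subgroup.normalizer (H : Set G)) (Y : Subgroup G) (hY1 : Y ≠ ⊥) (hY : Y ≤ (Cfsg.oddCore ↥(H ⊓ Subgroup.centralizer ({t} : Set G))).map (H ⊓ Subgroup.centralizer ({t} : Set G)).subtype) : ∃ E : Subgroup ↥H, Cfsg.IsComponent E ∧ (E.map H.subtype).map (MulAut.conj t).toMonoidHom = E.map H.subtype ∧ Y ≤ Subgroup.normalizer ((E.map H.subtype : Subgroup G) : Set G) ∧ ¬ (t ∈ Subgroup.centralizer ((E.map H.subtype : Subgroup G) : Set G)) ∧ ¬ (Y ≤ Subgroup.centralizer ((E.map H.subtype : Subgroup G) : Set G)) := by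
  have : Fact (Nat.Prime 2) := ⟨Nat.prime_two⟩
  set C := H ⊓ Subgroup.centralizer ({t} : Set G) with hC
  set D := H26.LocalFitting.ppc 2 C with hD
  have ht2 : t ^ 2 = 1 := by rw [← ht]; exact pow_orderOf_eq_one t
  have hYD : Y ≤ D := hY
  have hDC : D ≤ C := H26.LocalFitting.ppc_le 2 C
  have hDH : D ≤ H := hDC.trans inf_le_left
  have hcent : Subgroup.centralizer ((Subgroup.zpowers t : Subgroup G) : Set G) =
      Subgroup.centralizer ({t} : Set G) := by
    rw [Subgroup.zpowers_eq_closure, Subgroup.centralizer_closure]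
  have hyp : H27.CompAct.Hyp 2 H (Subgroup.zpowers t) D := by
    refine ⟨hO, ?_, H26.LocalFitting.card_ppc 2 C, ?_, hDH.trans Subgroup.le_normalizer, ?_, ?_⟩
    · rw [IsPGroup.iff_card]
      exact ⟨1, by rw [Nat.card_zpowers, ht, pow_one]⟩
    · rwa [Subgroup.zpowers_le]
    · intro r hr d hd
      have h1 : d ∈ Subgroup.centralizer ((Subgroup.zpowers t : Subgroup G) : Set G) := by
        rw [hcent]; exact (hDC hd).2
      exact Subgroup.mem_centralizer_iff.mp h1 r hr
    · rw [hcent]
      exact H26.LocalFitting.le_normalizer_ppc 2 C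
  by_contra hcon
  apply hY1
  apply H27.CompAct.eq_bot_of_centralizes (p := 2) hO (hYD.trans hDH)
    (Nat.Coprime.coprime_dvd_left (Subgroup.card_dvd_of_le hYD) hyp.hD)
    (H26.Basic.commutator_eq_bot_mono hyp.pc_comm le_rfl hYD)
  intro K hK
  by_cases hmv : MulAut.conj t • K = K
  · by_contra hne
    apply hcon
    have hKK : (K.subgroupOf H).map H.subtype = K := Subgroup.map_subgroupOf_eq_of_le hK.1
    refine ⟨K.subgroupOf H, hK.2, ?_, ?_, ?_, ?_⟩
    · rw [hKK]; exact hmv
    · rw [hKK]; exact hYD.trans (hyp.le_normalizer_comp hK)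
    · rw [hKK]
      intro htK
      apply hne
      refine H26.Basic.commutator_eq_bot_mono (hyp.comm_of_centralized hK ?_) le_rfl hYD
      rw [Subgroup.le_centralizer_iff, Subgroup.zpowers_le]
      exact htK
    · rw [hKK]
      intro hYK
      apply hne
      rw [Subgroup.commutator_comm, Subgroup.commutator_eq_bot_iff_le_centralizer]
      exact hYK
  · exact H26.Basic.commutator_eq_bot_mono (hyp.comm_of_moved ht2 hK hmv) le_rfl hYD

end Cfsg.Agent.S1328
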