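import Cfsg.Statements.S1329
import Cfsg.Agent.S0205
import Cfsg.Agent.Lib.H27.GenCyc

set_option autoImplicit false
open Cfsg
open scoped Pointwise commutatorElement
namespace Cfsg.Agent.S1329

theorem result {G : Type*} [Group G] [Finite G] (A B Y : Subgroup G) (hA2 : IsPGroup 2 ↥A) (hAc : IsMulCommutative ↥A) (hB : B ≤ A) (hYodd : Odd (Nat.card ↥Y)) (hAY : A ≤ Subgroup.normalizer (Y : Set G)) (hYA : ⁅Y, A⁆ = Y) : Y ⊓ Subgroup.centralizer (B : Set G) = ⨆ B₀ : {B₀ : Subgroup G // B₀ ≤ B ∧ ∀ [(B₀.subgroupOf B).Normal], IsCyclic (↥B ⧸ B₀.subgroupOf B)}, Y ⊓ Subgroup.centralizer (B : Set G) ⊓ ⁅Y ⊓ Subgroup.centralizer ((B₀ : Subgroup G) : Set G), A⁆ := by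

  have hcomm : ∀ a ∈ A, ∀ b ∈ A, a * b = b * a := fun a ha b hb =>
    congrArg Subtype.val (hAc.is_comm.comm ⟨a, ha⟩ ⟨b, hb⟩)
  have h : H27.GenCyc.Hy 2 A B Y := ⟨hA2, hcomm, hB, Cfsg.Agent.S0205.result hYodd,
    fun h => (Nat.not_even_iff_odd.mpr hYodd) (even_iff_two_dvd.mpr h), hAY, hYA⟩
  refine (H27.GenCyc.final h).trans ?_
  apply le_antisymm
  · refine iSup_le ?_
    rintro ⟨B₀, hB₀B, b, hb, hle⟩
    refine le_iSup_of_le ⟨B₀, hB₀B, ?_⟩ le_rfl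
    intro hn
    refine ⟨QuotientGroup.mk' _ ⟨b, hb⟩, ?_⟩
    intro x
    obtain ⟨⟨x, hx⟩, rfl⟩ := QuotientGroup.mk'_surjective _ x
    have hn' : Subgroup.zpowers b ≤ Subgroup.normalizer (B₀ : Set G) :=
      (Subgroup.zpowers_le.mpr hb).trans (H27.GenCyc.le_normalizer_of_comm
        (fun a ha b hb => hcomm a (hB ha) b (hB hb)) hB₀B)
    obtain ⟨y, hy, z, hz, hyz⟩ := (H26.Basic.mem_sup_of_le_normalizer' hn').mp (hle hx)
    obtain ⟨k, rfl⟩ := Subgroup.mem_zpowers_iff.mp hz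
    refine Subgroup.mem_zpowers_iff.mpr ⟨k, ?_⟩
    rw [← map_zpow]
    symm
    change QuotientGroup.mk' _ _ = QuotientGroup.mk' _ _
    have e : (⟨x, hx⟩ : B) = ⟨y, hB₀B hy⟩ * (⟨b, hb⟩ : B) ^ k := Subtype.ext hyz.symm
    rw [e, map_mul]
    have h1 : QuotientGroup.mk' (B₀.subgroupOf B) ⟨y, hB₀B hy⟩ = 1 := (QuotientGroup.eq_one_iff _).mpr hy
    rw [h1, one_mul]
  · refine iSup_le ?_
    rintro ⟨B₀, hB₀B, hcyc⟩
    have hn : (B₀.subgroupOf B).Normal :=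
      (Subgroup.normal_subgroupOf_iff_le_normalizer hB₀B).mpr (H27.GenCyc.le_normalizer_of_comm
        (fun a ha b hb => hcomm a (hB ha) b (hB hb)) hB₀B)
    obtain ⟨g, hg⟩ := @hcyc hn
    obtain ⟨⟨b, hb⟩, rfl⟩ := QuotientGroup.mk'_surjective _ g
    refine H27.GenCyc.le_XX ⟨hB₀B, b, hb, fun x hx => ?_⟩
    obtain ⟨k, hk⟩ := Subgroup.mem_zpowers_iff.mp (hg (QuotientGroup.mk' _ ⟨x, hx⟩))
    rw [← map_zpow] at hk
    have h2 : QuotientGroup.mk' (B₀.subgroupOf B) (⟨x, hx⟩ * ((⟨b, hb⟩ : B) ^ k)⁻¹) = 1 := by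
      rw [map_mul, map_inv, hk, mul_inv_cancel]
    have h3' : (⟨x, hx⟩ * ((⟨b, hb⟩ : B) ^ k)⁻¹ : B) ∈ B₀.subgroupOf B := (QuotientGroup.eq_one_iff _).mp h2
    have h3 : x * (b ^ k)⁻¹ ∈ B₀ := h3'
    have h4 : x = (x * (b ^ k)⁻¹) * b ^ k := by group
    rw [h4]
    exact Subgroup.mul_mem_sup h3 ⟨k, rfl⟩

end Cfsg.Agent.S1329
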