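import Cfsg.Statements.S1331
import Cfsg.Agent.Lib.H27.ElAb
import Cfsg.Agent.Lib.H27.SigBasic

set_option autoImplicit false
open Cfsg

namespace Cfsg.Agent.S1331

theorem result {G : Type*} [Group G] [Finite G] (p : ℕ) [Fact p.Prime] (A : Subgroup G) (hA : Cfsg.IsElementaryAbelian p A) (hA3 : p ^ 3 ≤ Nat.card ↥A) (θ : G → Subgroup G) (hθ : Cfsg.IsSolvableSignalizerFunctor p A θ) (X : Subgroup G) (hX : X ∈ Cfsg.signalizerFamily p A θ) (B : Subgroup G) (hB : B ≤ A) (hB2 : p ^ 2 ≤ Nat.card ↥B) : X = ⨆ D : {D : Subgroup G // D ≤ B ∧ D.relIndex B = p}, X ⊓ Cfsg.signalizerInf (D : Subgroup G) θ := by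
  have _ := hA3
  have _ := hθ
  have hp : p.Prime := Fact.out
  obtain ⟨-, hXp, hXA, hXθ⟩ := hX
  apply le_antisymm
  · have hBel : IsElementaryAbelian p B := H27.ElAb.mono hA hB
    have hBX : B ≤ Subgroup.normalizer (X : Set G) :=
      H1.Coprime.le_normalizer_of_conj_mem fun b hb x hx => hXA b (hB hb) x hx
    apply H27.GenSub.le_of_hyperplanes p B X _ hBel hBX hXp
    intro D hDB hDi
    have hB1 : B ≠ ⊥ := by
      intro h
      rw [h, Subgroup.card_bot] at hB2
      have := Nat.one_lt_pow (by omega : (2 : ℕ) ≠ 0) hp.one_lt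
      omega
    obtain ⟨E, hED, hEi⟩ :=
      H27.ElAb.exists_le_relIndex_eq (H27.ElAb.isPGroup hBel) hB1 hDB hDi
    refine le_trans ?_ (le_iSup (fun D : {D : Subgroup G // D ≤ B ∧ D.relIndex B = p} =>
      X ⊓ Cfsg.signalizerInf (D : Subgroup G) θ) ⟨E, hED.trans hDB, hEi⟩)
    intro x hx
    refine ⟨hx.1, H27.SigBasic.mem_signalizerInf.mpr fun e he he1 => ?_⟩
    apply hXθ e (hB (hDB (hED he))) he1
    refine ⟨hx.1, ?_⟩
    have h4 : x ∈ Subgroup.centralizer (D : Set G) := hx.2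
    exact Subgroup.centralizer_le (by simpa using hED he) h4
  · exact iSup_le fun D => inf_le_left

end Cfsg.Agent.S1331
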