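import Cfsg.Statements.S1335
import Cfsg.Agent.Lib.H27.PRank

set_option autoImplicit false
open Cfsg

namespace Cfsg.Agent.S1335

/-- Let H be a subgroup of the finite group G, p a prime, k ≥ 1, P a Sylow p-subgroup of H of p-rank at least k, and suppose N_G(X) ≤ H for every subgroup X ≤ P of p-rank at least k. Then P is a Sylow p-subgroup of G. -/
theorem result {G : Type*} [Group G] [Finite G] {p : ℕ} [Fact p.Prime] (k : ℕ) (hk : 1 ≤ k) (H : Subgroup G) (P : Sylow p ↥H) (hP : ¬ Cfsg.PRankLE p (k - 1) ↥(P : Subgroup ↥H)) (hΓ : (∀ X : Subgroup G, X ≤ (P : Subgroup ↥H).map H.subtype → ¬ Cfsg.PRankLE p (k - 1) ↥X → Subgroup.normalizer (X : Set G) ≤ H)) : ∃ Q : Sylow p G, (Q : Subgroup G) = (P : Subgroup ↥H).map H.subtype := by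
  set P' : Subgroup G := (P : Subgroup ↥H).map H.subtype with hP'
  have hN : Subgroup.normalizer (P' : Set G) ≤ H := by
    apply hΓ P' le_rfl
    intro h
    exact hP ((H27.PRank.pRankLE_congr
      ((P : Subgroup ↥H).equivMapOfInjective H.subtype H.subtype_injective)).mpr h)
  have hPp : IsPGroup p P' := P.isPGroup'.map H.subtype
  obtain ⟨Q, hQ⟩ := hPp.exists_le_sylow
  refine ⟨Q, ?_⟩
  by_contra hne
  have hlt : P' < (Q : Subgroup G) := lt_of_le_of_ne hQ (fun h => hne h.symm)
  have hQn : Group.IsNilpotent (Q : Subgroup G) := Q.isPGroup'.isNilpotent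
  have hlt' : P'.subgroupOf (Q : Subgroup G) < ⊤ := by
    rw [lt_top_iff_ne_top]
    intro h
    rw [Subgroup.subgroupOf_eq_top] at h
    exact absurd (lt_of_lt_of_le hlt h) (lt_irrefl _)
  have hnc := normalizerCondition_of_isNilpotent (G := (Q : Subgroup G)) _ hlt'
  obtain ⟨x, hx, hxn⟩ := SetLike.exists_of_lt hnc
  -- x normalizes P'
  have hxN : (x : G) ∈ Subgroup.normalizer (P' : Set G) := by
    rw [Subgroup.mem_normalizer_iff] at hx ⊢
    intro y
    constructor
    · intro hy
      have := (hx ⟨y, hQ hy⟩).mp (by simpa [Subgroup.mem_subgroupOf] using hy)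
      simpa [Subgroup.mem_subgroupOf] using this
    · intro hy
      have hyQ : y ∈ (Q : Subgroup G) := by
        have h1 : (x : G) * y * (x : G)⁻¹ ∈ (Q : Subgroup G) := hQ hy
        have h2 := (Q : Subgroup G).mul_mem ((Q : Subgroup G).mul_mem ((Q : Subgroup G).inv_mem x.2) h1) x.2
        have h3 : (x : G)⁻¹ * ((x : G) * y * (x : G)⁻¹) * (x : G) = y := by group
        rwa [h3] at h2
      have := (hx ⟨y, hyQ⟩).mpr (by simpa [Subgroup.mem_subgroupOf] using hy)
      simpa [Subgroup.mem_subgroupOf] using this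
  have hxH : (x : G) ∈ H := hN hxN
  -- the p-subgroup Q ⊓ H of H contains P
  have hle : (P : Subgroup ↥H) ≤ (Q : Subgroup G).subgroupOf H := by
    intro y hy
    exact hQ ⟨y, hy, rfl⟩
  have hp2 : IsPGroup p ((Q : Subgroup G).subgroupOf H) := by
    exact Q.isPGroup'.comap_of_injective H.subtype H.subtype_injective
  have heq := P.is_maximal' hp2 hle
  have : (⟨x, hxH⟩ : H) ∈ (P : Subgroup ↥H) := by
    change _ ∈ P.toSubgroup
    rw [← heq]
    exact x.2
  exact hxn (by
    rw [Subgroup.mem_subgroupOf]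
    exact ⟨⟨x, hxH⟩, this, rfl⟩)

end Cfsg.Agent.S1335
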