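import Cfsg.Statements.S1363
import Cfsg.Agent.Lib.H60.BG15d

set_option autoImplicit false
open Cfsg

namespace Cfsg.Agent.S1363

/-- Let G be a minimal simple group of odd order and M a maximal subgroup with standard factorisation M = K U M_σ and K ≠ 1. Then U is abelian and the normalizer of U in G is not contained in M. -/
theorem result {G : Type*} [Group G] [Finite G] (hG : Cfsg.IsMinSimpleOddOrder G)
    (M : Subgroup G) (hM : IsCoatom M) (K U : Subgroup G) (hKU : Cfsg.IsSigmaDecomposition M K U) (hK1 : K ≠ ⊥) :
    IsMulCommutative U ∧ ¬ Subgroup.normalizer (U : Set G) ≤ M := by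
  exact H60.BG15.norm_U hG hM hKU hK1

end Cfsg.Agent.S1363
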