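import Cfsg.Statements.S1407
import Cfsg.Agent.Lib.H28.Sec10c

set_option autoImplicit false
open Cfsg

namespace Cfsg.Agent.S1407

/-- Let G be a minimal simple group of odd order, M a maximal subgroup with M_α ≠ 1, p a prime dividing the order of M but not in σ(M), and P a Sylow p-subgroup of M. Then there is an element x of order p in the centre of P such that M_α ∩ C_G(x) has all Sylow subgroups cyclic and M is not the unique maximal subgroup of G containing C_G(x). -/
theorem result {G : Type*} [Group G] [Finite G] (hG : Cfsg.IsMinSimpleOddOrder G)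
    (M : Subgroup G) (hM : IsCoatom M) (hMα : Cfsg.alphaCore M ≠ ⊥) (p : ℕ) [Fact p.Prime] (hpM : p ∣ Nat.card M) (hp : p ∉ Cfsg.sigma M) (P : Sylow p M) :
    ∃ x : G, x ∈ ((Subgroup.center ↥(P : Subgroup M)).map (P : Subgroup M).subtype).map M.subtype ∧ orderOf x = p ∧
        IsZGroup ↥(Cfsg.alphaCore M ⊓ Subgroup.centralizer ({x} : Set G)) ∧
        ¬ (Subgroup.centralizer ({x} : Set G) ≤ M ∧ ∀ L : Subgroup G, IsCoatom L → Subgroup.centralizer ({x} : Set G) ≤ L → L = M) := by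
  obtain ⟨x, hx, hox, hr, hne⟩ := H28.Sec10c.exists_central_elem hG hM hpM hp
    (H28.RelSyl.isSyl_map P)
  refine ⟨x, ?_, hox, H28.Sec10c.isZGroup_of_rankLE_one
    (Odd.of_dvd_nat hG.1 (Subgroup.card_subgroup_dvd_card _)) hr, hne⟩
  have hxM : x ∈ M := Subgroup.map_subtype_le _ hx.1
  refine ⟨⟨x, hxM⟩, ?_, rfl⟩
  rw [SetLike.mem_coe, H28.Sec10c.map_center_eq]
  obtain ⟨⟨y, hy, hyx⟩, h2⟩ := hx
  have hyx' : y = ⟨x, hxM⟩ := Subtype.ext hyx
  refine Subgroup.mem_inf.mpr ⟨hyx' ▸ hy, Subgroup.mem_centralizer_iff.mpr fun g hg => ?_⟩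
  apply Subtype.ext
  exact (Subgroup.mem_centralizer_iff.mp h2) g ⟨g, hg, rfl⟩

end Cfsg.Agent.S1407
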