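import Cfsg.Statements.S1427
import Cfsg.Agent.Lib.H2.BG1301

set_option autoImplicit false
open Cfsg

namespace Cfsg.Agent.S1427

open Subgroup H28.RelSyl H28.Rank H2.BG13 in
/-- Let G be a minimal simple group of odd order, M a maximal subgroup, E a complement to M_σ in M, and S a nontrivial cyclic Sylow subgroup of E (for some prime). Then M_σ ∩ C_G(x) = M_σ ∩ C_G(S) for every non-identity x ∈ S. -/
theorem result {G : Type*} [Group G] [Finite G] (hG : Cfsg.IsMinSimpleOddOrder G)
    (M : Subgroup G) (hM : IsCoatom M) (E : Subgroup G) (hE : Cfsg.IsComplIn E (Cfsg.sigmaCore M) M) (p : ℕ) [Fact p.Prime] (S : Sylow p E) (hS1 : (S : Subgroup E) ≠ ⊥) (hSc : IsCyclic (S : Subgroup E)) :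
    ∀ x ∈ (S : Subgroup E).map E.subtype, x ≠ 1 →
        Cfsg.sigmaCore M ⊓ Subgroup.centralizer ({x} : Set G) = Cfsg.sigmaCore M ⊓ Subgroup.centralizer (((S : Subgroup E).map E.subtype : Subgroup G) : Set G) := by
  intro x hx hx1
  have hS := isSyl_map S
  set T := (S : Subgroup E).map E.subtype with hT
  have hTc : IsCyclic T := isCyclic_of_surjective _
    ((S : Subgroup E).equivMapOfInjective _ E.subtype_injective).surjective
  have hT1 : T ≠ ⊥ := by
    intro h
    apply hS1
    exact (Subgroup.map_eq_bot_iff_of_injective _ E.subtype_injective).1 h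
  have hpE : p ∣ Nat.card E := dvd_card_of_isPGroup_le hS.isPGroup hT1 hS.le
  obtain ⟨hpM, hps⟩ := (compl_dvd_iff hG hM hE Fact.out).1 hpE
  have hr : PRankLE p 1 M := by
    rw [← pRankLE_iff_of_isSyl (isSyl_of_compl hG hM hE hps hS)]
    exact H2.BGCop.pRankLE_one_of_isCyclic hTc
  have ht : p ∈ tau1 M ∨ p ∈ tau3 M := by
    rcases mem_cases hG hM Fact.out hpM with h | h | h | h
    · exact absurd h hps
    · exact Or.inl h
    · exact absurd hr h.2.2.2
    · exact Or.inr h
  rw [← H2.BGCop.centralizer_zpowers_eq]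
  exact cyclic_primact_Msigma hG hM hE ht hS.le hS.isPGroup (by rwa [zpowers_le])
    (by rwa [Ne, zpowers_eq_bot])

end Cfsg.Agent.S1427
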