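import Cfsg.Statements.S1441
import Cfsg.Agent.Lib.H30.Step

set_option autoImplicit false
open Cfsg

namespace Cfsg.Agent.S1441

/-- Let G be a finite group, H a solvable subgroup and A a subgroup normalizing H. Suppose there is a chain H = H₀ ≥ H₁ ≥ ⋯ ≥ H_n = 1 of subgroups normal in H and normalized by A such that A acts trivially on each factor H_{i-1}/H_i (that is, [H_{i-1}, A] ≤ H_i). Then every prime dividing the index of C_A(H) in A divides the order of H. -/
theorem result {G : Type*} [Group G] [Finite G] (H A : Subgroup G) (hH : Group.IsSolvable H) (hA : (A ≤ Subgroup.normalizer (H : Set G)))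
    (n : ℕ) (c : Fin (n + 1) → Subgroup G) (hc0 : c 0 = H) (hcn : c (Fin.last n) = ⊥) (hanti : Antitone c)
    (hcN : ∀ i, H ≤ Subgroup.normalizer ((c i : Subgroup G) : Set G)) (hcA : ∀ i, A ≤ Subgroup.normalizer ((c i : Subgroup G) : Set G))
    (htriv : ∀ i : Fin n, ⁅c i.castSucc, A⁆ ≤ c i.succ) :
    ∀ p : ℕ, p.Prime → p ∣ (A ⊓ Subgroup.centralizer (H : Set G)).relIndex A → p ∣ Nat.card H := by
  intro p hp hdvd
  have : Fact p.Prime := ⟨hp⟩
  by_contra hndvd
  have hcop : (Nat.card H).Coprime p := (Nat.Prime.coprime_iff_not_dvd hp).2 hndvd |>.symm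
  -- take Sylow p-subgroup of A
  let P : Sylow p A := default
  have hPc : (P : Subgroup A).map A.subtype ≤ Subgroup.centralizer (H : Set G) := by
    rintro _ ⟨a, haP, rfl⟩
    have horder : ∃ k, orderOf (a : G) = p ^ k := by
      obtain ⟨k, hk⟩ := P.isPGroup' ⟨a, haP⟩
      have : (a : G) ^ (p ^ k) = 1 := by
        have := congrArg (fun x : P => ((x : A) : G)) hk
        simpa using this
      obtain ⟨j, _, hj⟩ := (Nat.dvd_prime_pow hp).1 (orderOf_dvd_of_pow_eq_one this)
      exact ⟨j, hj⟩
    obtain ⟨k, hk⟩ := horder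
    have hcop' : ∀ N : Subgroup G, N ≤ H → (orderOf (a : G)).Coprime (Nat.card N) := by
      intro N hN
      rw [hk]
      exact (Nat.Coprime.pow_left k (hcop.symm)).coprime_dvd_right (Subgroup.card_dvd_of_le hN)
    -- induction downward
    have key : ∀ j : ℕ, (hj : j ≤ n) → ∀ x ∈ c ⟨n - j, by omega⟩, (a : G) * x = x * a := by
      intro j
      induction j with
      | zero =>
        intro _ x hx
        have : c ⟨n - 0, by omega⟩ = ⊥ := by
          rw [← hcn]; congr 1
        rw [this, Subgroup.mem_bot] at hx
        simp [hx]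
      | succ j ih =>
        intro hj x hx
        have ih' := ih (by omega)
        refine H30.Step.commute_of_coprime_step (c ⟨n - j, by omega⟩) (a : G) x (hcop' _ ?_) ih' ?_
        · rw [← hc0]; exact hanti (Fin.zero_le _)
        · have h1 : ⁅c (Fin.castSucc ⟨n - (j+1), by omega⟩), A⁆ ≤ c (Fin.succ ⟨n - (j+1), by omega⟩) := htriv _
          have h2 : (Fin.succ ⟨n - (j+1), by omega⟩ : Fin (n+1)) = ⟨n - j, by omega⟩ := by
            ext; simp; omega
          rw [h2] at h1
          apply h1
          have hx' : x⁻¹ ∈ c (Fin.castSucc ⟨n - (j+1), by omega⟩) := inv_mem hx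
          have := Subgroup.commutator_mem_commutator hx' a.2
          rw [commutatorElement_def, inv_inv] at this
          exact this
    simp only [Subgroup.coe_subtype]
    rw [Subgroup.mem_centralizer_iff]
    intro h hh
    have := key n le_rfl h (by
      have : (⟨n - n, by omega⟩ : Fin (n+1)) = 0 := by ext; simp
      rw [this, hc0]; exact hh)
    exact this.symm
  -- index
  have h1 : (A ⊓ Subgroup.centralizer (H : Set G)).relIndex A ∣ ((P : Subgroup A).map A.subtype).relIndex A := by
    apply Subgroup.relIndex_dvd_of_le_left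
    exact le_inf (Subgroup.map_subtype_le _) hPc
  have h2 : ((P : Subgroup A).map A.subtype).relIndex A = (P : Subgroup A).index := by
    rw [Subgroup.relIndex, Subgroup.subgroupOf, Subgroup.comap_map_eq_self_of_injective A.subtype_injective]
  rw [h2] at h1
  exact P.not_dvd_index (dvd_trans hdvd h1)

end Cfsg.Agent.S1441
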