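import Cfsg.Statements.S1462
import Cfsg.Agent.Lib.H30.OmegaFix
import Cfsg.Agent.Lib.H30.PuigIn
import Cfsg.Agent.Lib.H30.PLen
import Cfsg.Agent.Lib.H28.RelSyl
import Cfsg.Agent.Lib.H28.Rank
import Cfsg.Agent.S0017

set_option autoImplicit false
open Cfsg

namespace Cfsg.Agent.S1462

open Subgroup in
theorem lift_aux {G : Type*} [Group G] [Finite G] (p : ℕ) [Fact p.Prime] (K : Subgroup G) [K.Normal] (hK : (Nat.card K).Coprime p)
    (E : Subgroup G) (hE : Cfsg.IsElementaryAbelian p E)
    (hEmax : ∀ B : Subgroup G, Cfsg.IsElementaryAbelian p B → E ≤ B → B = E)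
    (B : Subgroup (G ⧸ K)) (hB : Cfsg.IsElementaryAbelian p B) (hEB : E.map (QuotientGroup.mk' K) ≤ B) :
    B ≤ E.map (QuotientGroup.mk' K) := by
  set f := QuotientGroup.mk' K with hf
  have hfs : Function.Surjective f := QuotientGroup.mk'_surjective K
  have hEp : IsPGroup p E := fun x => ⟨1, by ext; simpa using hE.2 x x.2⟩
  have hBp : IsPGroup p B := fun x => ⟨1, by ext; simpa using hB.2 x x.2⟩
  obtain ⟨P, hP, hEP⟩ := H28.RelSyl.exists_isSyl_ge hEp (H := B.comap f) (Subgroup.map_le_iff_le_comap.1 hEB)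
  have hKB : K ≤ B.comap f := by
    intro x hx
    have : f x = 1 := (QuotientGroup.eq_one_iff x).2 hx
    show f x ∈ B
    rw [this]; exact one_mem _
  have h1 : K ⊔ P = B.comap f := by
    apply le_antisymm (sup_le hKB hP.le)
    rw [← Subgroup.relIndex_eq_one]
    have ha : (K ⊔ P).relIndex (B.comap f) ∣ P.relIndex (B.comap f) :=
      Subgroup.relIndex_dvd_of_le_left _ le_sup_right
    have hb : (K ⊔ P).relIndex (B.comap f) ∣ K.relIndex (B.comap f) :=
      Subgroup.relIndex_dvd_of_le_left _ le_sup_left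
    have hc : K.relIndex (B.comap f) = Nat.card B := by
      have := H28.RelSyl.relIndex_mul_card hKB
      rw [H1.Cores.card_comap_mk'] at this
      have h3 : 0 < Nat.card K := Nat.card_pos
      nlinarith
    rw [hc] at hb
    obtain ⟨n, hn⟩ := IsPGroup.iff_card.1 hBp
    rw [hn] at hb
    have hcop : (P.relIndex (B.comap f)).Coprime (p ^ n) :=
      Nat.Coprime.pow_right n ((Nat.Prime.coprime_iff_not_dvd (Fact.out : p.Prime)).2 hP.not_dvd).symm
    exact Nat.eq_one_of_dvd_coprimes hcop ha hb
  have h2 : P.map f = B := by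
    have h3 : (K ⊔ P).map f = B := by rw [h1, Subgroup.map_comap_eq_self_of_surjective hfs]
    rw [Subgroup.map_sup] at h3
    have h4 : K.map f = ⊥ := by rw [Subgroup.map_eq_bot_iff, QuotientGroup.ker_mk']
    rwa [h4, bot_sup_eq] at h3
  have hinj : ∀ x ∈ P, f x = 1 → x = 1 := by
    intro x hx h1
    have h2 : x ∈ K := (QuotientGroup.eq_one_iff x).1 h1
    have h3 : x ∈ P ⊓ K := ⟨hx, h2⟩
    rw [H1.Cores.disjoint_of_isPGroup hP.isPGroup hK] at h3
    exact h3
  have hPel : Cfsg.IsElementaryAbelian p P := by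
    constructor
    · rw [← commutator_self_eq_bot_iff, eq_bot_iff]
      intro x hx
      have hx1 : x ∈ P := commutator_le_self _ hx
      apply hinj x hx1
      have h5 : f x ∈ (⁅P, P⁆).map f := ⟨x, hx, rfl⟩
      rw [map_commutator, h2, commutator_self_eq_bot_iff.2 hB.1] at h5
      exact h5
    · intro x hx
      apply hinj _ (P.pow_mem hx p)
      rw [map_pow]
      apply hB.2
      rw [← h2]
      exact ⟨x, hx, rfl⟩
  have hPE := hEmax P hPel hEP
  rw [← h2, hPE]

/-- Let G be a finite solvable group, p an odd prime with G = O_{p',p,p'}(G), E an elementary abelian p-subgroup contained in no larger elementary abelian p-subgroup of G, and L a subgroup of order coprime to p normalized by E. Then L ≤ O_{p'}(G). -/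
theorem result {G : Type*} [Group G] [Finite G] [Group.IsSolvable G] (p : ℕ) [Fact p.Prime] (hp : p ≠ 2) (hpl : Cfsg.PLengthLE p 1 G) (E L : Subgroup G) (hE : Cfsg.IsElementaryAbelian p E)
    (hEmax : ∀ B : Subgroup G, Cfsg.IsElementaryAbelian p B → E ≤ B → B = E) (hL : (Nat.card L).Coprime p) (hEL : E ≤ Subgroup.normalizer (L : Set G)) :
    L ≤ Cfsg.pPrimeCore p G := by
  set K := Cfsg.pPrimeCore p G with hK
  set f := QuotientGroup.mk' K with hf
  have hfs : Function.Surjective f := QuotientGroup.mk'_surjective K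
  have hcopK : (Nat.card K).Coprime p := H1.Cores.coprime_card_pPrimeCore p
  have hO : Cfsg.pPrimeCore p (G ⧸ K) = ⊥ := H1.Cores.pPrimeCore_quotient_pPrimeCore p
  set P := Cfsg.pCore p (G ⧸ K) with hP
  have hPp : IsPGroup p P := H1.Cores.isPGroup_pCore p
  have hind : P.index.Coprime p := by
    have h1 := (H30.PLen.pLengthLE_one_iff p).1 hpl
    have h2 : (Cfsg.pPrimePCore p G).index = P.index := by
      show (P.comap f).index = P.index
      exact Subgroup.index_comap_of_surjective P hfs
    rwa [h2] at h1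
  have hEp : IsPGroup p E := fun x => ⟨1, by ext; simpa using hE.2 x x.2⟩
  have hEP : E.map f ≤ P := H30.PLen.isPGroup_le_of_index_coprime hind (hEp.map f)
  have hLc : (Nat.card (L.map f)).Coprime p :=
    Nat.Coprime.coprime_dvd_left (Subgroup.card_map_dvd _ _) hL
  have hLE : ⁅L.map f, E.map f⁆ = ⊥ := by
    rw [eq_bot_iff, ← H1.Cores.disjoint_of_isPGroup hPp hLc]
    refine le_inf ?_ ?_
    · exact (Subgroup.commutator_mono le_rfl hEP).trans (Subgroup.commutator_le_right _ _)
    · rw [← Subgroup.map_commutator]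
      exact Subgroup.map_mono (Subgroup.le_normalizer_iff_commutator_le_left.1 hEL)
  have hcent : (L.map f) ≤ Subgroup.centralizer (P : Set (G ⧸ K)) := by
    refine H30.OmegaFix.le_centralizer_of_fix_centralizer (E := E.map f) hp hPp hEP ?_ ?_ hLc ?_
    · exact ⟨H30.PuigIn.map_isMulCommutative f E hE.1, by
        rintro _ ⟨x, hx, rfl⟩
        rw [← map_pow, hE.2 x hx, map_one]⟩
    · rw [Subgroup.normalizer_eq_top]; exact le_top
    · rintro x ⟨hx1, hx2⟩ hxo
      have hxE : x ∈ E.map f := by
        have h3 : Cfsg.IsElementaryAbelian p (E.map f ⊔ Subgroup.zpowers x) := by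
          have h4 : Cfsg.IsElementaryAbelian p (E.map f) := ⟨H30.PuigIn.map_isMulCommutative f E hE.1, by
            rintro _ ⟨x, hx, rfl⟩
            rw [← map_pow, hE.2 x hx, map_one]⟩
          exact H28.Rank.elemAb_sup_zpowers h4 (orderOf_dvd_iff_pow_eq_one.1 hxo.dvd) hx2
        exact lift_aux p K hcopK E hE hEmax _ h3 le_sup_left (Subgroup.mem_sup_right (Subgroup.mem_zpowers x))
      have h5 := Subgroup.commutator_eq_bot_iff_le_centralizer.1 hLE
      intro l hl
      rw [Subgroup.mem_centralizer_singleton_iff]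
      exact (h5 hl x hxE).symm
  have hLP : L.map f ≤ P := hcent.trans (Cfsg.Agent.S0017.result p hO)
  have hL1 : L.map f = ⊥ := by
    rw [eq_bot_iff, ← H1.Cores.disjoint_of_isPGroup hPp hLc]
    exact le_inf hLP le_rfl
  rw [Subgroup.map_eq_bot_iff, QuotientGroup.ker_mk'] at hL1
  exact hL1

end Cfsg.Agent.S1462
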