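import Cfsg.Statements.S1464
import Cfsg.Agent.Lib.H30.PStab

set_option autoImplicit false
open Cfsg

namespace Cfsg.Agent.S1464

theorem transport {G : Type*} [Group G] (p : ℕ) (A C C' : Subgroup G) [hC : C.Normal] [hC' : C'.Normal] (h : C = C')
    (hA : A.map (QuotientGroup.mk' C) ≤ Cfsg.pCore p (G ⧸ C)) :
    A.map (QuotientGroup.mk' C') ≤ Cfsg.pCore p (G ⧸ C') := by
  subst h
  exact hA

theorem centralizer_subgroupOf {G : Type*} [Group G] (P N : Subgroup G) (hPN : P ≤ N) :
    Subgroup.centralizer ((P.subgroupOf N : Subgroup N) : Set N) = (Subgroup.centralizer (P : Set G)).subgroupOf N := by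
  ext x
  rw [Subgroup.mem_centralizer_iff, Subgroup.mem_subgroupOf, Subgroup.mem_centralizer_iff]
  constructor
  · intro h y hy
    exact congrArg Subtype.val (h ⟨y, hPN hy⟩ hy)
  · intro h y hy
    exact Subtype.ext (h y hy)

/-- Let p be an odd prime and G a solvable group of odd order, P a p-subgroup with O_{p'}(G)P normal in G, and A a p-subgroup of N_G(P) with [[P, A], A] = 1. Then the image of A in the quotient N_G(P)/C_G(P) is contained in the p-core of that quotient. -/
theorem result {G : Type*} [Group G] [Finite G] [Group.IsSolvable G] (hodd : Odd (Nat.card G)) (p : ℕ) [Fact p.Prime] (hp : p ≠ 2) (P A : Subgroup G) (hP : IsPGroup p P) (hPn : (Cfsg.pPrimeCore p G ⊔ P).Normal)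
    (hA : IsPGroup p A) (hAN : A ≤ Subgroup.normalizer (P : Set G)) (hquad : ⁅⁅P, A⁆, A⁆ = ⊥) :
    (A.subgroupOf (Subgroup.normalizer (P : Set G))).map
        (QuotientGroup.mk' ((Subgroup.centralizer (P : Set G)).subgroupOf (Subgroup.normalizer (P : Set G))))
      ≤ Cfsg.pCore p _ := by
  set N := Subgroup.normalizer (P : Set G) with hN
  have hPN : P ≤ N := Subgroup.le_normalizer
  have hPn' : (P.subgroupOf N).Normal := Subgroup.normal_in_normalizer
  have hPp : IsPGroup p (P.subgroupOf N) := hP.of_equiv (Subgroup.subgroupOfEquivOfLe hPN).symm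
  have hq : ⁅⁅P.subgroupOf N, A.subgroupOf N⁆, A.subgroupOf N⁆ = ⊥ := by
    apply Subgroup.map_injective N.subtype_injective
    rw [Subgroup.map_commutator, Subgroup.map_commutator, Subgroup.subgroupOf_map_subtype, Subgroup.subgroupOf_map_subtype,
      inf_eq_left.2 hPN, inf_eq_left.2 hAN, hquad, Subgroup.map_bot]
  have h1 := H30.PStab.map_le_pCore (G := N) (hodd.of_dvd_nat (Subgroup.card_subgroup_dvd_card N)) p hp (P.subgroupOf N)
    (A.subgroupOf N) hPp hq
  exact transport p _ _ _ (centralizer_subgroupOf P N hPN) h1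

end Cfsg.Agent.S1464
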