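import Cfsg.Statements.S1466
import Cfsg.Agent.Lib.H30.Puig

set_option autoImplicit false
open Cfsg

namespace Cfsg.Agent.S1466

/-- Let p be a prime and R a nontrivial finite p-group. Then for every i > 0, Z(R) ≤ C_R(L_i(R)) ≤ L_i(R); likewise Z(R) ≤ C_R(L_*(R)) ≤ L_*(R) and Z(R) ≤ C_R(L(R)) ≤ L(R); and L(R) ≠ 1, L_*(R) ≠ 1. -/
theorem result {R : Type*} [Group R] [Finite R] (p : ℕ) [Fact p.Prime] (hR : IsPGroup p R) [Nontrivial R] :
    (∀ i : ℕ, 0 < i → Subgroup.center R ≤ Subgroup.centralizer ((Cfsg.puigSeq R i : Subgroup R) : Set R) ∧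
        Subgroup.centralizer ((Cfsg.puigSeq R i : Subgroup R) : Set R) ≤ Cfsg.puigSeq R i) ∧
      (Subgroup.center R ≤ Subgroup.centralizer ((Cfsg.puigLower R : Subgroup R) : Set R) ∧ Subgroup.centralizer ((Cfsg.puigLower R : Subgroup R) : Set R) ≤ Cfsg.puigLower R) ∧
      (Subgroup.center R ≤ Subgroup.centralizer ((Cfsg.puigSubgroup R : Subgroup R) : Set R) ∧ Subgroup.centralizer ((Cfsg.puigSubgroup R : Subgroup R) : Set R) ≤ Cfsg.puigSubgroup R) ∧
      Cfsg.puigSubgroup R ≠ ⊥ ∧ Cfsg.puigLower R ≠ ⊥ := by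
  have hnil : Group.IsNilpotent R := hR.isNilpotent
  have hlow := H30.Puig.step_puig (G := R)
  have hup := H30.Puig.step_lower (G := R)
  have hC1 : Subgroup.centralizer ((Cfsg.puigLower R : Subgroup R) : Set R) ≤ Cfsg.puigLower R := by
    rw [← hlow]; exact H30.Puig.centralizer_step_le _
  have hC2 : Subgroup.centralizer ((Cfsg.puigSubgroup R : Subgroup R) : Set R) ≤ Cfsg.puigSubgroup R := by
    rw [← hup]; exact H30.Puig.centralizer_step_le _
  have hne : ∀ X : Subgroup R, Subgroup.centralizer (X : Set R) ≤ X → X ≠ ⊥ := by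
    rintro X hX rfl
    have h1 : Subgroup.centralizer ((⊥ : Subgroup R) : Set R) = ⊤ := by
      rw [eq_top_iff]
      intro x _
      rw [Subgroup.mem_centralizer_iff]
      intro h hh
      rw [Subgroup.coe_bot, Set.mem_singleton_iff] at hh
      simp [hh]
    rw [h1] at hX
    exact (bot_ne_top (α := Subgroup R)) (le_antisymm bot_le hX)
  refine ⟨fun i hi => ⟨Subgroup.center_le_centralizer _, ?_⟩, ⟨Subgroup.center_le_centralizer _, hC1⟩,
    ⟨Subgroup.center_le_centralizer _, hC2⟩, hne _ hC2, hne _ hC1⟩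
  obtain ⟨j, rfl⟩ : ∃ j, i = j + 1 := ⟨i - 1, by omega⟩
  rw [H30.Puig.seq_succ]
  exact H30.Puig.centralizer_step_le _

end Cfsg.Agent.S1466
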