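import Cfsg.Statements.S1480
import Cfsg.Agent.Lib.H31.PTrans

set_option autoImplicit false
open Cfsg

namespace Cfsg.Agent.S1480

/-- Let G be a finite group and p a prime such that the normalizer of every nontrivial p-subgroup of G is p-constrained; if p = 2 assume also that the Sylow 2-subgroups of G have nilpotency class at most 2. Let E be an abelian p-subgroup containing an elementary abelian subgroup of order p ^ 3 and containing every element of p-power order of C_G(E). Then for every prime q ≠ p, any two maximal E-invariant q-subgroups of G are conjugate by an element of O_{p'}(C_G(E)). -/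
theorem result {G : Type*} [Group G] [Finite G] (p : ℕ) [Fact p.Prime]
    (hloc : ∀ T : Subgroup G, IsPGroup p T → T ≠ ⊥ → Cfsg.IsPConstrained p ↥(Subgroup.normalizer (T : Set G)))
    (h2 : p = 2 → ∀ S : Sylow p G, Group.IsNilpotent (S : Subgroup G) ∧ Group.nilpotencyClass (S : Subgroup G) ≤ 2)
    (E : Subgroup G) (hEp : IsPGroup p E) (hEc : IsMulCommutative E) (hE3 : ¬ Cfsg.PRankLE p 2 E)
    (hEfull : ∀ x ∈ Subgroup.centralizer (E : Set G), IsPGroup p (Subgroup.zpowers x) → x ∈ E)
    (q : ℕ) [Fact q.Prime] (hqp : q ≠ p) :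
    ∀ Q₁ ∈ Cfsg.maxInvSubgroups ⊤ E {q}, ∀ Q₂ ∈ Cfsg.maxInvSubgroups ⊤ E {q},
        ∃ k ∈ Cfsg.piCoreOf (Cfsg.primesNotDvd p) (Subgroup.centralizer (E : Set G)), Q₂ = Q₁.map (MulAut.conj k).toMonoidHom := by
  have hH : H31.PTrans.Hyp p E :=
    { loc := hloc
      two := by
        intro hp2 S a ha b hb c hc
        have h3 := h2 hp2 S
        have h4 := H31.PTrans.class_two h3.1 h3.2 ⟨a, ha⟩ ⟨b, hb⟩ ⟨c, hc⟩
        exact congrArg Subtype.val h4
      pg := hEp
      ab := by
        intro a ha b hb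
        exact congrArg Subtype.val (hEc.is_comm.comm ⟨a, ha⟩ ⟨b, hb⟩)
      full := hEfull }
  intro Q₁ h₁ Q₂ h₂
  obtain ⟨k, hk, e⟩ := H31.PTrans.trans_aux hH hE3 hqp _ Q₁ Q₂ rfl h₁ h₂
  rw [H31.PTrans.piCoreOf_eq]
  exact ⟨k, hk, e⟩

end Cfsg.Agent.S1480
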