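import Cfsg.Statements.S1485
import Cfsg.Agent.Lib.H31.Clifford

set_option autoImplicit false
open Cfsg

namespace Cfsg.Agent.S1485

/-- Let H be a normal subgroup of the finite group G and θ an irreducible character of H. On H, the function induced from θ equals r times the sum of the distinct G-conjugates of θ, where r is the number of elements of G fixing θ under conjugation divided by the order of H (the index of H in the inertia group). -/
theorem result {G : Type*} [Group G] [Fintype G] (H : Subgroup G) [hN : H.Normal] (θ : H → ℂ) (hθ : Cfsg.IsIrrCharacter H θ) : (fun h : H => Cfsg.indFun H θ h) = ((Nat.card {g : G // ∀ h : H, θ ⟨g * h * g⁻¹, hN.conj_mem h h.2 g⟩ = θ h} : ℂ) / (Nat.card H : ℂ)) • ∑ᶠ ψ ∈ {ψ : H → ℂ | ∃ g : G, ψ = fun h : H => θ ⟨g * h * g⁻¹, hN.conj_mem h h.2 g⟩}, ψ := by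
  rw [H31.Clifford.ind_restrict_orb]
  have h1 : Nat.card (H31.Clifford.inertia H θ) =
      Nat.card {g : G // ∀ h : H, θ ⟨g * h * g⁻¹, hN.conj_mem h h.2 g⟩ = θ h} :=
    Nat.card_congr ((Equiv.refl G).subtypeEquiv (fun g => H31.Clifford.mem_inertia_iff H))
  rw [h1]
  congr 1
  have h2 : {ψ : H → ℂ | ∃ g : G, ψ = fun h : H => θ ⟨g * h * g⁻¹, hN.conj_mem h h.2 g⟩} =
      (H31.Clifford.orb H θ : Set (H → ℂ)) := by
    ext φ
    rw [Finset.mem_coe, H31.Clifford.mem_orb]
    rfl
  rw [h2, finsum_mem_coe_finset]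

end Cfsg.Agent.S1485
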