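import Cfsg.Statements.S1488
import Cfsg.Agent.Lib.H31.FunBasic

set_option autoImplicit false
open Cfsg

namespace Cfsg.Agent.S1488

/-- Let A be a normal subgroup of the finite group G contained in the subgroup H, let θ be a function on H and θ₁ a function on the image of H in G ⧸ A whose composite with the projection is θ. Then the function induced from θ₁ to G ⧸ A, composed with the projection G → G ⧸ A, equals the function induced from θ to G. -/
theorem result {G : Type*} [Group G] [Fintype G] (A H : Subgroup G) [A.Normal] (hAH : A ≤ H) [Fintype (G ⧸ A)] [Fintype ↥(H.map (QuotientGroup.mk' A))] (θ : H → ℂ) (θ₁ : ↥(H.map (QuotientGroup.mk' A)) → ℂ) (hθ : ∀ x : H, θ₁ ⟨QuotientGroup.mk' A x, Subgroup.mem_map_of_mem _ x.2⟩ = θ x) (g : G) : Cfsg.indFun (H.map (QuotientGroup.mk' A)) θ₁ (QuotientGroup.mk' A g) = Cfsg.indFun H θ g := by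
  classical
  have hmem : ∀ y : G, QuotientGroup.mk' A y ∈ H.map (QuotientGroup.mk' A) ↔ y ∈ H := by
    intro y
    constructor
    · rintro ⟨h, hh, he⟩
      have h1 : h⁻¹ * y ∈ A := QuotientGroup.eq.1 he
      have h2 := H.mul_mem hh (hAH h1)
      rwa [mul_inv_cancel_left] at h2
    · intro hy; exact Subgroup.mem_map_of_mem _ hy
  have hext : ∀ y : G, Cfsg.extendByZero (H.map (QuotientGroup.mk' A)) θ₁ (QuotientGroup.mk' A y) =
      Cfsg.extendByZero H θ y := by
    intro y
    by_cases hy : y ∈ H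
    · rw [H31.FunBasic.ext_mem H θ hy, H31.FunBasic.ext_mem _ θ₁ ((hmem y).2 hy)]
      exact hθ ⟨y, hy⟩
    · rw [H31.FunBasic.ext_not_mem H θ hy, H31.FunBasic.ext_not_mem _ θ₁ (fun h => hy ((hmem y).1 h))]
  have hcard : (Nat.card H : ℂ) = Nat.card A * Nat.card ↥(H.map (QuotientGroup.mk' A)) := by
    have h1 : Nat.card H = Nat.card A * Nat.card ↥(H.map (QuotientGroup.mk' A)) := by
      have h2 := Subgroup.relIndex_mul_relIndex ⊥ A H bot_le hAH
      rw [Subgroup.relIndex_bot_left, Subgroup.relIndex_bot_left] at h2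
      have h3 : Nat.card ↥(H.map (QuotientGroup.mk' A)) = A.relIndex H := by
        have := Subgroup.relIndex_ker H (QuotientGroup.mk' A)
        rw [QuotientGroup.ker_mk'] at this
        exact this.symm
      rw [h3]
      exact h2.symm
    rw [h1]; push_cast; ring
  have hsum := H31.FunBasic.sum_quotient A (fun q : G ⧸ A =>
    Cfsg.extendByZero (H.map (QuotientGroup.mk' A)) θ₁ (q⁻¹ * (QuotientGroup.mk' A g) * q))
  have hl : ∑ x : G, Cfsg.extendByZero (H.map (QuotientGroup.mk' A)) θ₁
      ((QuotientGroup.mk x : G ⧸ A)⁻¹ * (QuotientGroup.mk' A g) * (QuotientGroup.mk x : G ⧸ A)) =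
      ∑ x : G, Cfsg.extendByZero H θ (x⁻¹ * g * x) := by
    refine Finset.sum_congr rfl (fun x _ => ?_)
    rw [← hext]
    simp
  rw [hl] at hsum
  unfold Cfsg.indFun
  rw [hsum, hcard]
  have hA : (Nat.card A : ℂ) ≠ 0 := by exact_mod_cast Nat.card_pos.ne'
  have hHbar : (Nat.card ↥(H.map (QuotientGroup.mk' A)) : ℂ) ≠ 0 := by exact_mod_cast Nat.card_pos.ne'
  field_simp

end Cfsg.Agent.S1488
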