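import Cfsg.Statements.S1490
import Cfsg.Agent.Lib.H31.AbInertia

set_option autoImplicit false
open Cfsg

namespace Cfsg.Agent.S1490

open H18 H18.CharBasic H18.CharOrtho H18.CharInd H18.CharQuot H31.Clifford in
/-- Let H be a normal subgroup of the finite group G, θ an irreducible character of H with inertia group T, and suppose the commutator of any two elements of T lies in H (T/H abelian). Then there are a positive integer e and a finite set C of irreducible characters of G with e ^ 2 * |C| * |H| = |T|, such that the function induced from θ is e times the sum of the members of C and every member of C has degree [G:T] * e * θ(1). -/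
theorem result {G : Type*} [Group G] [Fintype G] (H T : Subgroup G) [hN : H.Normal] (θ : H → ℂ) (hθ : Cfsg.IsIrrCharacter H θ) (hT : ∀ g : G, g ∈ T ↔ ∀ h : H, θ ⟨g * h * g⁻¹, hN.conj_mem h h.2 g⟩ = θ h) (hab : ∀ x ∈ T, ∀ y ∈ T, x * y * x⁻¹ * y⁻¹ ∈ H) : ∃ (e : ℕ) (C : Finset (G → ℂ)), 0 < e ∧ (∀ χ ∈ C, Cfsg.IsIrrCharacter G χ) ∧ e ^ 2 * C.card * Nat.card H = Nat.card T ∧ Cfsg.indFun H θ = (e : ℂ) • ∑ χ ∈ C, χ ∧ ∀ χ ∈ C, χ 1 = (T.index : ℂ) * e * θ 1 := by
  classical
  have : Fintype H := Fintype.ofFinite H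
  have : Fintype T := Fintype.ofFinite T
  have : Fintype (H.subgroupOf T) := Fintype.ofFinite _
  have hT' : ∀ g : G, g ∈ T ↔ H18.CharQuot.conjFunN H g θ = θ := by
    intro g
    rw [hT g]
    constructor
    · intro h; funext x; exact h x
    · intro h x; exact congrFun h x
  have hHT : H ≤ T := fun h hh => (hT' h).2 (cj_mem H (isClassFunction_of_isIrr hθ) hh)
  obtain ⟨f, D, hf0, -, hD1, -, -, hD4, hD5⟩ := H31.AbInertia.main (H.subgroupOf T)
    (irr_thT H T hHT hθ) (fun t => by rw [cj_thT, (hT' t).1 t.2])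
    (fun x y => hab x x.2 y y.2)
  have hover : ∀ ψ ∈ D, classInner (resH hHT ψ) θ ≠ 0 := by
    intro ψ hψ
    rw [← inner_thT H T hHT, (hD1 ψ hψ).2.1]
    exact_mod_cast hf0.ne'
  have hinj : Set.InjOn (indFun T) (D : Set (T → ℂ)) := by
    intro ψ hψ ψ' hψ' h
    exact corr_inj H T hHT hθ hT' (hD1 ψ hψ).1 (hD1 ψ' hψ').1 (hover ψ hψ) (hover ψ' hψ') h
  refine ⟨f, D.image (indFun T), hf0, ?_, ?_, ?_, ?_⟩
  · intro χ hχ
    obtain ⟨ψ, hψ, rfl⟩ := Finset.mem_image.1 hχ
    exact (corr_irr H T hHT hθ hT' (hD1 ψ hψ).1 (hover ψ hψ)).1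
  · rw [Finset.card_image_of_injOn hinj, hD4]
    have h1 := (H.subgroupOf T).card_mul_index
    rw [Nat.card_congr (Subgroup.subgroupOfEquivOfLe hHT).toEquiv] at h1
    rw [mul_comm]; exact h1
  · rw [Finset.sum_image hinj, ← ind_thT H T hHT θ, hD5, indFun_smul, indFun_sum]
  · intro χ hχ
    obtain ⟨ψ, hψ, rfl⟩ := Finset.mem_image.1 hχ
    rw [indFun_one, (hD1 ψ hψ).2.2]
    have : thT H T θ 1 = θ 1 := rfl
    rw [this]; ring

end Cfsg.Agent.S1490
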