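import Cfsg.Statements.S1497
import Mathlib.Tactic

set_option autoImplicit false
open Cfsg

namespace Cfsg.Agent.S1497

/-- Let A be a nonempty subset of the finite group G not containing 1 and L a subgroup. Then A is a TI-subset whose normaliser is L if and only if the Dade hypothesis holds for A, L and the constant choice H(a) = ⊥. -/
theorem result {G : Type*} [Group G] [Finite G] (A : Set G) (hA : A.Nonempty) (h1 : (1 : G) ∉ A) (L : Subgroup G) : (Cfsg.IsTISubset A ∧ Subgroup.normalizer A = L) ↔ Cfsg.DadeHypothesis A L (fun _ => ⊥) := by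
  constructor
  · rintro ⟨hTI, rfl⟩
    have key : ∀ g : G, ∀ x ∈ A, g * x * g⁻¹ ∈ A → g ∈ Subgroup.normalizer A := by
      intro g x hx hgx
      by_contra hg
      exact h1 (hTI g hg x hx hgx ▸ hx)
    have hcent : ∀ a ∈ A, Subgroup.centralizer ({a} : Set G) ≤ Subgroup.normalizer A := by
      intro a ha c hc
      refine key c a ha ?_
      have := Subgroup.mem_centralizer_iff.1 hc a rfl
      rw [← this, mul_inv_cancel_right]
      exact ha
    refine ⟨h1, ?_, ?_, ?_, ?_, ?_, ?_, ?_, ?_⟩
    · intro a ha
      exact key a a ha (by rw [mul_inv_cancel_right]; exact ha)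
    · intro x hx a ha
      exact (hx a).1 ha
    · intro a ha g hg
      exact ⟨g, key g a ha hg, rfl⟩
    · intro a _; exact bot_le
    · intro a _ c _ u hu
      rw [Subgroup.mem_bot] at hu ⊢
      rw [hu, mul_one, mul_inv_cancel]
    · intro a _; exact bot_inf_eq _
    · intro a ha
      rw [bot_sup_eq, inf_eq_right]
      exact hcent a ha
    · intro a _ b _
      rw [Subgroup.card_bot]
      exact Nat.coprime_one_left _
  · intro hD
    have hcent : ∀ a ∈ A, Subgroup.centralizer ({a} : Set G) ≤ L := by
      intro a ha
      have := hD.sup_eq a ha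
      rw [bot_sup_eq, inf_eq_right] at this
      exact this
    have key : ∀ g : G, ∀ x ∈ A, g * x * g⁻¹ ∈ A → g ∈ L := by
      intro g a ha hga
      obtain ⟨x, hx, hxe⟩ := hD.fusion a ha g hga
      have h2 : x⁻¹ * g ∈ Subgroup.centralizer ({a} : Set G) := by
        rw [Subgroup.mem_centralizer_iff]
        intro h hh
        rw [Set.mem_singleton_iff.1 hh]
        have h3 : x * a * x⁻¹ * g = g * a := by rw [hxe]; group
        have h4 : x * (a * (x⁻¹ * g)) = x * (x⁻¹ * g * a) := by
          calc x * (a * (x⁻¹ * g)) = x * a * x⁻¹ * g := by group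
            _ = g * a := h3
            _ = _ := by group
        exact mul_left_cancel h4
      have h5 := L.mul_mem hx (hcent a ha h2)
      rwa [mul_inv_cancel_left] at h5
    have hN : Subgroup.normalizer A = L := by
      apply le_antisymm
      · intro g hg
        obtain ⟨a, ha⟩ := hA
        exact key g a ha ((hg a).1 ha)
      · intro x hx n
        constructor
        · intro hn; exact hD.conj_mem x hx n hn
        · intro hn
          have := hD.conj_mem x⁻¹ (L.inv_mem hx) _ hn
          have h2 : x⁻¹ * (x * n * x⁻¹) * x⁻¹⁻¹ = n := by group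
          rwa [h2] at this
    refine ⟨?_, hN⟩
    intro g hg x hx hgx
    exact absurd (hN ▸ key g x hx hgx) hg

end Cfsg.Agent.S1497
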