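import Cfsg.Statements.S1504
import Cfsg.Agent.Lib.H31.CycTI

set_option autoImplicit false
open Cfsg

namespace Cfsg.Agent.S1504

open H31.CycProd in
/-- Let W₁, W₂ be subgroups of a finite group with W₁ ⊓ W₂ = ⊥ whose elements commute, and W = W₁ ⊔ W₂. For linear characters φ, ψ of W with φ trivial on W₂ and ψ trivial on W₁, the function (1 − φ)(1 − ψ) vanishes on W₁ ∪ W₂; and the family of these functions, indexed by pairs (φ, ψ) with φ ≠ 1 ≠ ψ, is linearly independent over ℂ. -/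
theorem result {G : Type*} [Group G] [Finite G] (W₁ W₂ : Subgroup G) (hdisj : W₁ ⊓ W₂ = ⊥) (hcomm : ∀ a ∈ W₁, ∀ b ∈ W₂, a * b = b * a) : (∀ φ ψ : ↥(W₁ ⊔ W₂) →* ℂˣ, (∀ w : ↥(W₁ ⊔ W₂), (w : G) ∈ W₂ → φ w = 1) → (∀ w : ↥(W₁ ⊔ W₂), (w : G) ∈ W₁ → ψ w = 1) → ∀ w : ↥(W₁ ⊔ W₂), ((w : G) ∈ W₁ ∨ (w : G) ∈ W₂) → (1 - (φ w : ℂ) - (ψ w : ℂ) + (φ w : ℂ) * (ψ w : ℂ)) = 0) ∧ LinearIndependent ℂ (fun p : {p : (↥(W₁ ⊔ W₂) →* ℂˣ) × (↥(W₁ ⊔ W₂) →* ℂˣ) // p.1 ≠ 1 ∧ p.2 ≠ 1 ∧ (∀ w : ↥(W₁ ⊔ W₂), (w : G) ∈ W₂ → p.1 w = 1) ∧ (∀ w : ↥(W₁ ⊔ W₂), (w : G) ∈ W₁ → p.2 w = 1)} => fun w : ↥(W₁ ⊔ W₂) => 1 - (p.1.1 w : ℂ) - (p.1.2 w : ℂ) + (p.1.1 w : ℂ) * (p.1.2 w : ℂ)) := by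
  classical
  constructor
  · intro φ ψ h h' w hw
    exact al_vanish W₁ W₂ h h' w hw
  · have : Fintype ↥(W₁ ⊔ W₂) := Fintype.ofFinite _
    rw [linearIndependent_iff']
    intro s g hg i hi
    have h1 := congrArg (fun f => Cfsg.classInner f (lc W₁ W₂ (i.1.1 * i.1.2))) hg
    simp only [H18.CharOrtho.inner_sum_left, H18.CharOrtho.inner_smul_left] at h1
    have h0 : Cfsg.classInner (0 : ↥(W₁ ⊔ W₂) → ℂ) (lc W₁ W₂ (i.1.1 * i.1.2)) = 0 := by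
      simp [Cfsg.classInner]
    rw [h0] at h1
    have hkey : ∀ p : {p : (↥(W₁ ⊔ W₂) →* ℂˣ) × (↥(W₁ ⊔ W₂) →* ℂˣ) // p.1 ≠ 1 ∧ p.2 ≠ 1 ∧ (∀ w : ↥(W₁ ⊔ W₂), (w : G) ∈ W₂ → p.1 w = 1) ∧ (∀ w : ↥(W₁ ⊔ W₂), (w : G) ∈ W₁ → p.2 w = 1)},
        Cfsg.classInner (al W₁ W₂ p.1.1 p.1.2) (lc W₁ W₂ (i.1.1 * i.1.2)) = if p = i then 1 else 0 := by
      intro p
      obtain ⟨hi1, hi2, hi3, hi4⟩ := i.2
      obtain ⟨hp1, hp2, hp3, hp4⟩ := p.2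
      rw [al_eq, H18.CharOrtho.inner_add_left, H18.CharOrtho.inner_sub_left,
        H18.CharOrtho.inner_sub_left, inner_lc, inner_lc, inner_lc, inner_lc]
      have e1 : (1 : ↥(W₁ ⊔ W₂) →* ℂˣ) ≠ i.1.1 * i.1.2 := by
        intro h
        have h2 := mul_inj W₁ W₂ hdisj hcomm (tr_one W₁ W₂ W₂) hi3 (tr_one W₁ W₂ W₁) hi4 (by rw [H31.CycTI.hom_mul_one]; exact h)
        exact hi1 h2.1.symm
      have e2 : p.1.1 ≠ i.1.1 * i.1.2 := by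
        intro h
        have h2 := mul_inj W₁ W₂ hdisj hcomm hp3 hi3 (tr_one W₁ W₂ W₁) hi4 (by rw [H31.CycTI.hom_mul_one]; exact h)
        exact hi2 h2.2.symm
      have e3 : p.1.2 ≠ i.1.1 * i.1.2 := by
        intro h
        have h2 := mul_inj W₁ W₂ hdisj hcomm (tr_one W₁ W₂ W₂) hi3 hp4 hi4 (by rw [H31.CycTI.hom_one_mul]; exact h)
        exact hi1 h2.1.symm
      rw [if_neg e1, if_neg e2, if_neg e3]
      by_cases h : p = i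
      · subst h; simp
      · have e4 : p.1.1 * p.1.2 ≠ i.1.1 * i.1.2 := by
          intro h3
          have h2 := mul_inj W₁ W₂ hdisj hcomm hp3 hi3 hp4 hi4 h3
          exact h (Subtype.ext (Prod.ext h2.1 h2.2))
        rw [if_neg e4, if_neg h]; simp
    have h2 : ∑ p ∈ s, g p * Cfsg.classInner (al W₁ W₂ p.1.1 p.1.2) (lc W₁ W₂ (i.1.1 * i.1.2)) = 0 := h1
    rw [Finset.sum_congr rfl (fun p _ => by rw [hkey p])] at h2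
    simpa [hi] using h2

end Cfsg.Agent.S1504
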