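import Cfsg.Statements.S1507
import Cfsg.Agent.Lib.H31.CycDual

set_option autoImplicit false
open Cfsg

namespace Cfsg.Agent.S1507

open H31.CycProd H31.CycTI H31.CycDual in
theorem aux {G : Type*} [Group G] {W₁ W₂ : Subgroup G} (W A : Subgroup G) (hA : (W = W₁ ∧ A = W₂) ∨ (W = W₂ ∧ A = W₁))
    {φ ψ ψ₀ : ↥(W₁ ⊔ W₂) →* ℂˣ} (hdisj : W₁ ⊓ W₂ = ⊥) (hcomm : ∀ a ∈ W₁, ∀ b ∈ W₂, a * b = b * a)
    (hφ : Tr W₁ W₂ A φ) (hψ : Tr W₁ W₂ W ψ) (hψ₀ : Tr W₁ W₂ W ψ₀) :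
    (∀ w : ↥(W₁ ⊔ W₂), (w : G) ∈ A → ((φ * ψ) * ψ₀⁻¹) w = 1) ↔ ψ = ψ₀ := by
  constructor
  · intro h
    ext w
    have h1 : ∀ w : ↥(W₁ ⊔ W₂), (w : G) ∈ A → ψ w = ψ₀ w := by
      intro w hw
      have h2 := h w hw
      rw [MonoidHom.mul_apply, MonoidHom.mul_apply, hφ w hw, one_mul, MonoidHom.inv_apply] at h2
      exact mul_inv_eq_one.1 h2
    have h3 : ∀ w : ↥(W₁ ⊔ W₂), (w : G) ∈ W → ψ w = ψ₀ w := by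
      intro w hw
      rw [hψ w hw, hψ₀ w hw]
    rw [← pr_mul W₁ W₂ hdisj hcomm w, map_mul, map_mul]
    rcases hA with ⟨rfl, rfl⟩ | ⟨rfl, rfl⟩
    · rw [h3 _ (pr1_mem _ _ hdisj hcomm w), h1 _ (pr2_mem _ _ hdisj hcomm w)]
    · rw [h1 _ (pr1_mem _ _ hdisj hcomm w), h3 _ (pr2_mem _ _ hdisj hcomm w)]
  · rintro rfl w hw
    rw [MonoidHom.mul_apply, MonoidHom.mul_apply, hφ w hw, one_mul, MonoidHom.inv_apply,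
      mul_inv_cancel]

open Classical in
/-- Let W₁, W₂ ≤ G form a self-normalising cyclic subgroup W = W₁ ⊔ W₂ of odd order with Nat.card W₁ < Nat.card W₂, and χ an orthonormal family of irreducible characters of G up to sign, indexed by the linear characters ω of W, with χ_1 = 1, χ_ω = ω on W outside W₁ ∪ W₂, and the induction identity for (1 − φ)(1 − ψ). Let θ be a class function of G vanishing on W outside W₁ ∪ W₂, and suppose fewer than 2 · Nat.card W₁ linear characters ω of W have ⟨θ, χ ω⟩ ≠ 0. Then one of: all ⟨θ, χ ω⟩ vanish; or there are ψ₀ and a with ⟨θ, χ ω⟩ = a when ω ψ₀⁻¹ is trivial on W₂ and 0 otherwise; or there are φ₀ and a with ⟨θ, χ ω⟩ = a when ω φ₀⁻¹ is trivial on W₁ and 0 otherwise. -/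
theorem result {G : Type*} [Group G] [Fintype G] (W₁ W₂ : Subgroup G) (hW : Cfsg.IsSelfNormalizingCyclic W₁ W₂) (hodd : Odd (Nat.card ↥(W₁ ⊔ W₂))) (χ : (↥(W₁ ⊔ W₂) →* ℂˣ) → (G → ℂ)) (hχ : Cfsg.IsCyclicTIFamily W₁ W₂ χ) (hlt : Nat.card W₁ < Nat.card W₂) (θ : G → ℂ) (hθ : Cfsg.IsClassFunction G θ) (hθV : ∀ w : ↥(W₁ ⊔ W₂), (w : G) ∉ W₁ → (w : G) ∉ W₂ → θ w = 0) (hfew : Nat.card {ω : ↥(W₁ ⊔ W₂) →* ℂˣ // Cfsg.classInner θ (χ ω) ≠ 0} < 2 * Nat.card W₁) : (∀ ω, Cfsg.classInner θ (χ ω) = 0) ∨ (∃ (ψ₀ : ↥(W₁ ⊔ W₂) →* ℂˣ) (a : ℂ), ∀ ω, Cfsg.classInner θ (χ ω) = if (∀ w : ↥(W₁ ⊔ W₂), (w : G) ∈ W₂ → (ω * ψ₀⁻¹) w = 1) then a else 0) ∨ (∃ (φ₀ : ↥(W₁ ⊔ W₂) →* ℂˣ) (a : ℂ), ∀ ω, Cfsg.classInner θ (χ ω) = if (∀ w : ↥(W₁ ⊔ W₂), (w : G) ∈ W₁ → (ω * φ₀⁻¹) w = 1) then a else 0) := by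
  have hdisj := hW.2.2.1
  have hcomm := hW.2.2.2.1
  rcases H31.CycDual.tri_lt hW hodd hχ hθ hθV hlt hfew with h | ⟨ψ₀, a, h0, h⟩ | ⟨φ₀, a, h0, h⟩
  · exact Or.inl h
  · right; left
    refine ⟨ψ₀, a, fun ω => ?_⟩
    have h1 := h _ _ (H31.CycProd.tr_comp1 W₁ W₂ hdisj hcomm ω) (H31.CycProd.tr_comp2 W₁ W₂ hdisj hcomm ω)
    have h2 := aux W₁ W₂ (Or.inl ⟨rfl, rfl⟩) hdisj hcomm (H31.CycProd.tr_comp1 W₁ W₂ hdisj hcomm ω)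
      (H31.CycProd.tr_comp2 W₁ W₂ hdisj hcomm ω) h0
    rw [H31.CycProd.comp_mul] at h1 h2
    rw [h1]
    by_cases h3 : ω.comp (H31.CycProd.pr2 W₁ W₂ hdisj hcomm) = ψ₀
    · rw [if_pos h3, if_pos (h2.2 h3)]
    · rw [if_neg h3, if_neg (fun h4 => h3 (h2.1 h4))]
  · right; right
    refine ⟨φ₀, a, fun ω => ?_⟩
    have h1 := h _ _ (H31.CycProd.tr_comp1 W₁ W₂ hdisj hcomm ω) (H31.CycProd.tr_comp2 W₁ W₂ hdisj hcomm ω)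
    have h2 := aux W₂ W₁ (Or.inr ⟨rfl, rfl⟩) hdisj hcomm (H31.CycProd.tr_comp2 W₁ W₂ hdisj hcomm ω)
      (H31.CycProd.tr_comp1 W₁ W₂ hdisj hcomm ω) h0
    rw [H31.CycProd.comp_mul] at h1
    have e : ω.comp (H31.CycProd.pr2 W₁ W₂ hdisj hcomm) * ω.comp (H31.CycProd.pr1 W₁ W₂ hdisj hcomm) = ω :=
      (mul_comm (ω.comp (H31.CycProd.pr2 W₁ W₂ hdisj hcomm)) (ω.comp (H31.CycProd.pr1 W₁ W₂ hdisj hcomm))).trans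
        (H31.CycProd.comp_mul W₁ W₂ hdisj hcomm ω)
    rw [e] at h2
    rw [h1]
    by_cases h3 : ω.comp (H31.CycProd.pr1 W₁ W₂ hdisj hcomm) = φ₀
    · rw [if_pos h3, if_pos (h2.2 h3)]
    · rw [if_neg h3, if_neg (fun h4 => h3 (h2.1 h4))]

end Cfsg.Agent.S1507
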