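import Cfsg.Statements.S1533
import Cfsg.Agent.Lib.H8.Sibley6

set_option autoImplicit false
open Cfsg

namespace Cfsg.Agent.S1533

/-- Let G be a finite group, p an odd prime, and P a nontrivial Sylow p-subgroup whose underlying set is a TI-subset of G, with P properly contained in its set normaliser N and C_G(x) ≤ P for every non-identity x ∈ P. Let S be the set of irreducible characters χ of N with χ x ≠ χ 1 for some x ∈ P. Then either S has exactly one member, P is elementary abelian and Nat.card P = [N:P] + 1; or (S, N minus 1, induction to G) is coherent. -/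
theorem result {G : Type*} [Group G] [Fintype G] (p : ℕ) [Fact p.Prime] (hp : p ≠ 2) (P : Sylow p G) (hP1 : (P : Subgroup G) ≠ ⊥) (hTI : Cfsg.IsTISubset ((P : Subgroup G) : Set G)) (hlt : (P : Subgroup G) < Subgroup.normalizer ((P : Subgroup G) : Set G)) (hC : ∀ k ∈ (P : Subgroup G), k ≠ 1 → Subgroup.centralizer ({k} : Set G) ≤ (P : Subgroup G)) [Fintype ↥(Subgroup.normalizer ((P : Subgroup G) : Set G))] : (Nat.card {χ : ↥(Subgroup.normalizer ((P : Subgroup G) : Set G)) → ℂ // Cfsg.IsIrrCharacter ↥(Subgroup.normalizer ((P : Subgroup G) : Set G)) χ ∧ ∃ x : ↥(Subgroup.normalizer ((P : Subgroup G) : Set G)), (x : G) ∈ (P : Subgroup G) ∧ χ x ≠ χ 1} = 1 ∧ Cfsg.IsElementaryAbelian p (P : Subgroup G) ∧ Nat.card (P : Subgroup G) = ((P : Subgroup G).subgroupOf (Subgroup.normalizer ((P : Subgroup G) : Set G))).index + 1) ∨ Cfsg.IsCoherent {χ : ↥(Subgroup.normalizer ((P : Subgroup G) : Set G)) → ℂ | Cfsg.IsIrrCharacter ↥(Subgroup.normalizer ((P : Subgroup G) : Set G)) χ ∧ ∃ x : ↥(Subgroup.normalizer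 ((P : Subgroup G) : Set G)), (x : G) ∈ (P : Subgroup G) ∧ χ x ≠ χ 1} {1}ᶜ (fun α => Cfsg.indFun (Subgroup.normalizer ((P : Subgroup G) : Set G)) α) := by
  classical
  obtain ⟨n, hn⟩ := IsPGroup.iff_card.1 P.isPGroup'
  by_cases he : Nat.card (P : Subgroup G) = (H18.TICoh.KN (P : Subgroup G)).index + 1
  · left
    obtain ⟨⟨q, hq, hq1, hq2⟩, h2⟩ := H8.Sibley.single hC he hlt hP1
    refine ⟨h2, ⟨hq1, ?_⟩, he⟩
    have hpq : q = p := by
      obtain ⟨x, hx1⟩ := Subgroup.ne_bot_iff_exists_ne_one.1 hP1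
      have h3 : orderOf (x : G) ∣ q := orderOf_dvd_of_pow_eq_one (hq2 x x.2)
      have h4 : orderOf (x : G) ∣ p ^ n := by
        rw [← hn, Subgroup.orderOf_coe]
        exact orderOf_dvd_natCard x
      have h5 : orderOf (x : G) ≠ 1 := by
        intro h
        exact hx1 (Subtype.ext (orderOf_eq_one_iff.1 h))
      have h6 := (Nat.dvd_prime hq).1 h3
      have h7 := h6.resolve_left h5
      rw [h7] at h4
      exact (Nat.prime_dvd_prime_iff_eq hq Fact.out).1 (hq.dvd_of_dvd_pow h4)
    intro x hx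
    have := hq2 x hx
    rwa [hpq] at this
  · right
    rcases H8.Sibley.feit_sibley hTI hC hP1 hlt he with h | ⟨⟨m, hm⟩, hna, -⟩
    · exact h
    · exfalso
      have h1 : Odd (Nat.card (P : Subgroup G)) := H8.Sibley.odd_card_of Fact.out hp hn
      rw [hm] at h1
      have hm0 : m ≠ 0 := by
        rintro rfl
        rw [pow_zero] at hm
        exact hP1 (Subgroup.card_eq_one.mp hm)
      exact (Nat.not_even_iff_odd.2 h1) (Nat.even_pow.2 ⟨even_two, hm0⟩)

end Cfsg.Agent.S1533
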