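import Cfsg.Statements.S1534
import Cfsg.Agent.Lib.H8.Sibley6

set_option autoImplicit false
open Cfsg

namespace Cfsg.Agent.S1534

/-- Let G be a finite group and K a nontrivial nilpotent subgroup whose underlying set is a TI-subset of G, properly contained in its set normaliser N, with C_G(k) ≤ K for every non-identity k ∈ K; let e be the index of K in N and S the set of irreducible characters χ of N with χ k ≠ χ 1 for some k ∈ K. Then one of: S has exactly one member, Nat.card K = e + 1 and K is an elementary abelian p-group for some prime p; or K is a Sylow 2-subgroup of G (Nat.card K is the largest power of 2 dividing Nat.card G) and [K : [K,K]] < 4e²; or (S, N minus 1, induction to G) is coherent. -/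
theorem result {G : Type*} [Group G] [Fintype G] (K : Subgroup G) (hK1 : K ≠ ⊥) (hnil : Group.IsNilpotent K) (hTI : Cfsg.IsTISubset (K : Set G)) (hlt : K < Subgroup.normalizer (K : Set G)) (hC : ∀ k ∈ K, k ≠ 1 → Subgroup.centralizer ({k} : Set G) ≤ K) [Fintype ↥(Subgroup.normalizer (K : Set G))] : (Nat.card {χ : ↥(Subgroup.normalizer (K : Set G)) → ℂ // Cfsg.IsIrrCharacter ↥(Subgroup.normalizer (K : Set G)) χ ∧ ∃ k : ↥(Subgroup.normalizer (K : Set G)), (k : G) ∈ K ∧ χ k ≠ χ 1} = 1 ∧ Nat.card K = (K.subgroupOf (Subgroup.normalizer (K : Set G))).index + 1 ∧ ∃ p : ℕ, p.Prime ∧ Cfsg.IsElementaryAbelian p K) ∨ (Nat.card K = 2 ^ (Nat.card G).factorization 2 ∧ (⁅K, K⁆.subgroupOf K).index < 4 * (K.subgroupOf (Subgroup.normalizer (K : Set G))).index ^ 2) ∨ Cfsg.IsCoherent {χ : ↥(Subgroup.normalizer (K : Set G)) → ℂ | Cfsg.IsIrrCharacter ↥(Subgroup.normalizer (K : Set G)) χ ∧ ∃ k : ↥(Subgroup.normalizer (K : Set G)), (k : G) ∈ K ∧ χ k ≠ χ 1} {1}ᶜ (fun α => Cfsg.indFun (Subgroup.normalizer (K : Set G)) α) := by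
  classical
  have hCN := H18.TICoh.hC_KN K hC
  have hKn : (H18.TICoh.KN K).Normal := H18.TICoh.normal_KN K
  by_cases he : Nat.card K = (H18.TICoh.KN K).index + 1
  · left
    obtain ⟨h1, h2⟩ := H8.Sibley.single hC he hlt hK1
    exact ⟨h2, he, h1⟩
  · right
    rcases H8.Sibley.feit_sibley hTI hC hK1 hlt he with h | ⟨⟨m, hm⟩, hna, hidx⟩
    · exact Or.inr h
    · left
      have hm0 : m ≠ 0 := by
        rintro rfl
        rw [pow_zero] at hm
        exact hK1 (Subgroup.card_eq_one.mp hm)
      rw [H8.Sibley.relIndex_eq] at hidx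
      set e := (H18.TICoh.KN K).index with hee
      have hKcard := H8.ZassChar.card_KN K
      constructor
      · -- Sylow
        have hcop := H18.TIFN.coprime_card_index K hC
        have h1 := Subgroup.card_mul_index K
        rw [hm] at hcop h1 ⊢
        have h2 : ¬ 2 ∣ K.index := by
          intro hd
          have h3 : 2 ∣ Nat.gcd (2 ^ m) K.index := Nat.dvd_gcd (dvd_pow_self 2 hm0) hd
          rw [hcop.gcd_eq_one] at h3
          omega
        rw [← h1, Nat.factorization_mul (by positivity) K.index_ne_zero_of_finite, Finsupp.add_apply,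
          Nat.factorization_eq_zero_of_not_dvd h2, add_zero, Nat.Prime.factorization_pow Nat.prime_two,
          Finsupp.single_eq_same]
      · -- the index
        have h3 : (⁅K, K⁆ : Subgroup G).relIndex K ∣ 2 ^ m := by
          rw [← hm]
          exact Subgroup.relIndex_dvd_card _ _
        obtain ⟨j, -, hj⟩ := (Nat.dvd_prime_pow Nat.prime_two).1 h3
        change (⁅K, K⁆ : Subgroup G).relIndex K < 4 * e ^ 2
        have hdvd : e ∣ Nat.card K - 1 := by
          have h5 := H8.FrobSum.index_dvd_relIndex' hCN (A := H18.TICoh.KN K) (B := ⊥) bot_le le_rfl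
          rw [Subgroup.relIndex_bot_left, hKcard] at h5
          exact h5
        have hpos : 0 < Nat.card K := Nat.card_pos
        have hodd : Odd e := by
          rw [← Nat.not_even_iff_odd]
          intro hev
          have h6 : 2 ∣ Nat.card K - 1 := (even_iff_two_dvd.1 hev).trans hdvd
          have h7 : 2 ∣ Nat.card K := by rw [hm]; exact dvd_pow_self 2 hm0
          omega
        have he2 : e ≠ 1 := by
          intro h
          exact H8.Sibley.KN_ne_top hlt (Subgroup.index_eq_one.1 h)
        rw [hj] at hidx ⊢
        rcases Nat.lt_or_ge (2 ^ j) (4 * e ^ 2) with h4 | h4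
        · exact h4
        · exfalso
          have h5 : 2 ^ j = 4 * e ^ 2 ∨ 2 ^ j = 4 * e ^ 2 + 1 := by omega
          have he0 : 0 < e := hodd.pos
          have he20 : 0 < e ^ 2 := by positivity
          rcases h5 with h5 | h5
          · -- e divides a power of two
            have h6 : e ∣ 2 ^ j := by
              rw [h5]
              exact Dvd.dvd.mul_left (dvd_pow_self e two_ne_zero) 4
            obtain ⟨i, -, hi⟩ := (Nat.dvd_prime_pow Nat.prime_two).1 h6
            have hi0 : i ≠ 0 := by
              rintro rfl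
              exact he2 (by rw [hi, pow_zero])
            rw [hi] at hodd
            exact (Nat.not_even_iff_odd.2 hodd) (Nat.even_pow.2 ⟨even_two, hi0⟩)
          · have hj0 : j ≠ 0 := by
              rintro rfl
              rw [pow_zero] at h5
              omega
            have h6 : 2 ∣ 2 ^ j := dvd_pow_self 2 hj0
            omega

end Cfsg.Agent.S1534
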