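import Cfsg.Statements.S1546
import Mathlib

set_option autoImplicit false
open Cfsg

namespace Cfsg.Agent.S1546

theorem all_div_mod (q N : ℕ) (hq : 1 < q) (hN : N ≠ 0)
    (h : ∀ r : ℕ, r.Prime → r ∣ N → r % q = 1) :
    ∀ x : ℕ, x ∣ N → x % q = 1 := by
  intro x
  induction x using Nat.recOnMul with
  | zero => intro h0; exact absurd (Nat.eq_zero_of_zero_dvd h0) hN
  | one => intro _; exact Nat.mod_eq_of_lt hq
  | prime p hp => intro hpN; exact h p hp hpN
  | mul a b iha ihb =>
    intro hab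
    have ha := iha (dvd_trans (dvd_mul_right a b) hab)
    have hb := ihb (dvd_trans (dvd_mul_left b a) hab)
    rw [Nat.mul_mod, ha, hb, Nat.mul_one, Nat.mod_eq_of_lt hq]

theorem geom_mod (p q m : ℕ) (h : p ≡ 1 [MOD m]) :
    (∑ k ∈ Finset.range q, p ^ k) ≡ q [MOD m] := by
  have : ∀ n : ℕ, (∑ k ∈ Finset.range n, p ^ k) ≡ n [MOD m] := by
    intro n
    induction n with
    | zero => simp [Nat.ModEq]
    | succ n ih =>
      rw [Finset.sum_range_succ]
      have h2 : p ^ n ≡ 1 [MOD m] := by simpa using h.pow n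
      exact ih.add h2
  exact this q

/-- Let p and q be odd primes and N = (p ^ q − 1) / (p − 1) = 1 + p + ⋯ + p^(q−1). Then N is odd; if p ≡ 1 (mod q) then q ∣ N; and if p is not ≡ 1 (mod q) then N is coprime to p − 1 and every divisor of N is ≡ 1 (mod q). -/
theorem result (p q : ℕ) (hp : p.Prime) (hq : q.Prime) (hp2 : p ≠ 2) (hq2 : q ≠ 2) : Odd ((p ^ q - 1) / (p - 1)) ∧ (p % q = 1 → q ∣ (p ^ q - 1) / (p - 1)) ∧ (p % q ≠ 1 → Nat.Coprime ((p ^ q - 1) / (p - 1)) (p - 1) ∧ ∀ x : ℕ, x ∣ (p ^ q - 1) / (p - 1) → x % q = 1) := by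
  have hgs : (p ^ q - 1) / (p - 1) = ∑ k ∈ Finset.range q, p ^ k := (Nat.geomSum_eq hp.two_le q).symm
  rw [hgs]
  have hpodd : Odd p := hp.odd_of_ne_two hp2
  have hqodd : Odd q := hq.odd_of_ne_two hq2
  have hp1 : 1 ≤ p := hp.one_lt.le
  refine ⟨?_, ?_, ?_⟩
  · have h1 : p ≡ 1 [MOD 2] := Nat.odd_iff.mp hpodd
    have h2 := geom_mod p q 2 h1
    have h3 : q ≡ 1 [MOD 2] := Nat.odd_iff.mp hqodd
    exact Nat.odd_iff.mpr (h2.trans h3)
  · intro h
    have h1 : p ≡ 1 [MOD q] := by
      unfold Nat.ModEq; rw [h, Nat.mod_eq_of_lt hq.one_lt]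
    have h2 := geom_mod p q q h1
    exact (Nat.modEq_zero_iff_dvd.mp (h2.trans (by simp [Nat.ModEq])))
  · intro h
    have hne : ¬ q ∣ p - 1 := by
      intro hd
      apply h
      have := (Nat.modEq_iff_dvd' hp1).mpr hd
      have h3 : p ≡ 1 [MOD q] := this.symm
      unfold Nat.ModEq at h3
      rw [h3, Nat.mod_eq_of_lt hq.one_lt]
    have hpm : p ≡ 1 [MOD p - 1] := ((Nat.modEq_iff_dvd' hp1).mpr dvd_rfl).symm
    refine ⟨?_, ?_⟩
    · have h2 := geom_mod p q (p - 1) hpm
      have h3 := h2.gcd_eq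
      unfold Nat.Coprime
      rw [Nat.ModEq.gcd_eq h2]
      exact (Nat.Prime.coprime_iff_not_dvd hq).mpr hne
    · have hN0 : (∑ k ∈ Finset.range q, p ^ k) ≠ 0 := by
        have : 0 < ∑ k ∈ Finset.range q, p ^ k := by
          apply Finset.sum_pos
          · intro i _; exact Nat.pow_pos hp.pos
          · exact Finset.nonempty_range_iff.mpr hq.ne_zero
        exact this.ne'
      apply all_div_mod q _ hq.one_lt hN0
      intro r hr hrN
      have : Fact r.Prime := ⟨hr⟩
      have hpow : (p : ZMod r) ^ q = 1 := by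
        have h1 : (p ^ q - 1) = (∑ k ∈ Finset.range q, p ^ k) * (p - 1) := by
          have h0 := geom_sum_mul_add (p - 1) q
          rw [Nat.sub_add_cancel hp1] at h0
          omega
        have h2 : r ∣ p ^ q - 1 := h1 ▸ dvd_mul_of_dvd_left hrN _
        have h3 : (1 : ℕ) ≡ p ^ q [MOD r] := (Nat.modEq_iff_dvd' (Nat.one_le_pow _ _ hp1)).mpr h2
        have h4 := (ZMod.natCast_eq_natCast_iff _ _ _).mpr h3
        push_cast at h4
        exact h4.symm
      have hord : orderOf (p : ZMod r) ∣ q := orderOf_dvd_of_pow_eq_one hpow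
      rcases (Nat.dvd_prime hq).mp hord with h1 | h1
      · exfalso
        have h2 : (p : ZMod r) = 1 := orderOf_eq_one_iff.mp h1
        have h3 : p ≡ 1 [MOD r] := by
          have : ((p : ℕ) : ZMod r) = ((1 : ℕ) : ZMod r) := by simpa using h2
          exact (ZMod.natCast_eq_natCast_iff _ _ _).mp this
        have h4 := geom_mod p q r h3
        have h5 : r ∣ q := by
          have := (Nat.modEq_zero_iff_dvd.mpr hrN).symm.trans h4
          exact Nat.modEq_zero_iff_dvd.mp this.symm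
        have h6 : r = q := (Nat.prime_dvd_prime_iff_eq hr hq).mp h5
        subst h6
        exact hne ((Nat.modEq_iff_dvd' hp1).mp h3.symm)
      · have hne0 : (p : ZMod r) ≠ 0 := by
          intro h0
          rw [h0, zero_pow hq.ne_zero] at hpow
          exact zero_ne_one hpow
        have h2 : orderOf (p : ZMod r) ∣ r - 1 := ZMod.orderOf_dvd_card_sub_one hne0
        rw [h1] at h2
        have h3 := (Nat.modEq_iff_dvd' hr.one_lt.le).mpr h2
        have h4 : r ≡ 1 [MOD q] := h3.symm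
        unfold Nat.ModEq at h4
        rw [h4, Nat.mod_eq_of_lt hq.one_lt]

end Cfsg.Agent.S1546
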