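import Cfsg.Statements.S1551
import Cfsg.Agent.Lib.H32.SextetN

set_option autoImplicit false
open scoped Pointwise
open Cfsg

namespace Cfsg.Agent.S1551

/-- Structure of a sextet stabiliser: it induces every permutation of the six tetrads, the subgroup fixing each tetrad setwise has order 192, and there is a normal subgroup of order 64 consisting of elements squaring to the identity. -/
theorem result (S : Finset (Finset Cfsg.GolayPt)) (hS : S ∈ Cfsg.sextets) : (∀ e : Equiv.Perm ↥S, ∃ g ∈ MulAction.stabilizer Cfsg.M24 S, ∀ t : ↥S, (g : Equiv.Perm Cfsg.GolayPt) • (t : Finset Cfsg.GolayPt) = ((e t : ↥S) : Finset Cfsg.GolayPt)) ∧ Nat.card {g : ↥(MulAction.stabilizer Cfsg.M24 S) // ∀ t ∈ S, ((g : Cfsg.M24) : Equiv.Perm Cfsg.GolayPt) • t = t} = 192 ∧ ∃ N : Subgroup ↥(MulAction.stabilizer Cfsg.M24 S), N.Normal ∧ Nat.card N = 64 ∧ ∀ x ∈ N, x * x = 1 := by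
  refine ⟨?_, ?_, ?_⟩
  · intro e
    obtain ⟨g, hg⟩ := H32.SextetStab.indPerm_surjective hS e
    refine ⟨g, g.2, fun t => ?_⟩
    rw [← hg]; rfl
  · rw [← H32.SextetStab.card_ker hS]
    exact Nat.card_congr (Equiv.subtypeEquivRight fun g => H32.SextetStab.mem_ker_indPerm.symm)
  · have hle : (H32.SextetN.NS S).subgroupOf M24 ≤ MulAction.stabilizer M24 S := by
      intro g hg
      rw [Subgroup.mem_subgroupOf] at hg
      show (g : Equiv.Perm GolayPt) • S = S
      apply Finset.eq_of_subset_of_card_le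
      · intro t ht
        obtain ⟨u, hu, rfl⟩ := H32.Sextet.mem_smul_fam.1 ht
        rw [(hg.2 u hu).1]; exact hu
      · rw [Finset.card_smul_finset]
    refine ⟨((H32.SextetN.NS S).subgroupOf M24).subgroupOf (MulAction.stabilizer M24 S), ⟨?_⟩, ?_, ?_⟩
    · intro n hn g
      rw [Subgroup.mem_subgroupOf, Subgroup.mem_subgroupOf] at hn ⊢
      have h := H32.SextetN.conj_mem (f := ((g : M24) : Equiv.Perm GolayPt)) (g : M24).2 hn
      have hS' : ((g : M24) : Equiv.Perm GolayPt) • S = S := g.2
      rw [hS'] at h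
      exact h
    · rw [Nat.card_congr (Subgroup.subgroupOfEquivOfLe hle).toEquiv,
        Nat.card_congr (Subgroup.subgroupOfEquivOfLe (H32.SextetN.NS_le S)).toEquiv, H32.SextetN.card_NS hS]
    · intro x hx
      rw [Subgroup.mem_subgroupOf, Subgroup.mem_subgroupOf] at hx
      apply Subtype.ext
      apply Subtype.ext
      exact H32.SextetN.mul_self hS hx


end Cfsg.Agent.S1551
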