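import Cfsg.Statements.S1552
import Cfsg.Agent.Lib.H32.SextetOrb

set_option autoImplicit false
open scoped Pointwise
open Cfsg

namespace Cfsg.Agent.S1552

/-- A sextet stabiliser has four orbits on the 1771 sextets, of sizes 1, 90, 240, 1440; and the stabiliser is a maximal proper subgroup. -/
theorem result (S : Finset (Finset Cfsg.GolayPt)) (hS : S ∈ Cfsg.sextets) : ∃ X₁ ∈ Cfsg.sextets, ∃ X₂ ∈ Cfsg.sextets, ∃ X₃ ∈ Cfsg.sextets, (MulAction.orbit ↥(MulAction.stabilizer Cfsg.M24 S) X₁).ncard = 90 ∧ (MulAction.orbit ↥(MulAction.stabilizer Cfsg.M24 S) X₂).ncard = 240 ∧ (MulAction.orbit ↥(MulAction.stabilizer Cfsg.M24 S) X₃).ncard = 1440 ∧ Cfsg.sextets = {S} ∪ MulAction.orbit ↥(MulAction.stabilizer Cfsg.M24 S) X₁ ∪ MulAction.orbit ↥(MulAction.stabilizer Cfsg.M24 S) X₂ ∪ MulAction.orbit ↥(MulAction.stabilizer Cfsg.M24 S) X₃ ∧ IsCoatom (MulAction.stabilizer Cfsg.M24 S) := by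
  -- the orbits are the three types
  have horbit : ∀ (P : H32.SextetOrb.Fam → Finset GolayPt → Prop), H32.SextetOrb.Inv P →
      (∀ {S T S' T' : H32.SextetOrb.Fam}, S ∈ sextets → T ∈ sextets → S' ∈ sextets → T' ∈ sextets →
        H32.SextetOrb.Ty P S T → H32.SextetOrb.Ty P S' T' → ∃ f ∈ M24, f • S = S' ∧ f • T = T') →
      ∀ N, 0 < N → {T | T ∈ sextets ∧ H32.SextetOrb.Ty P S T}.ncard = N →
      ∃ X ∈ sextets, MulAction.orbit ↥(MulAction.stabilizer M24 S) X =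
        {T | T ∈ sextets ∧ H32.SextetOrb.Ty P S T} := by
    intro P hinv htr N hN0 hN
    obtain ⟨X, hX1, hX2⟩ := (Set.ncard_pos (Set.toFinite _)).1 (hN ▸ hN0)
    refine ⟨X, hX1, ?_⟩
    ext T
    constructor
    · rintro ⟨g, rfl⟩
      have hg : ((g : M24) : Equiv.Perm GolayPt) • S = S := g.2
      refine ⟨H32.Sextet.smul_sextet (g : M24).2 hX1, ?_⟩
      have h := (H32.SextetOrb.ty_smul hinv ((g : M24) : Equiv.Perm GolayPt) S X).2 hX2
      rw [hg] at h
      exact h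
    · rintro ⟨h1, h2⟩
      obtain ⟨f, hf, h3, h4⟩ := htr hS hX1 hS h1 hX2 h2
      exact ⟨⟨⟨f, hf⟩, h3⟩, h4⟩
  obtain ⟨X₁, hX₁, h₁⟩ := horbit _ H32.SextetOrb.inv22 H32.SextetOrb.trans22 90 (by norm_num)
    (H32.SextetOrb.ncard22 hS)
  obtain ⟨X₂, hX₂, h₂⟩ := horbit _ H32.SextetOrb.inv3 H32.SextetOrb.trans3 240 (by norm_num)
    (H32.SextetOrb.ncard3 hS)
  obtain ⟨X₃, hX₃, h₃⟩ := horbit _ H32.SextetOrb.inv211 H32.SextetOrb.trans211 1440 (by norm_num)
    (H32.SextetOrb.ncard211 hS)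
  have hcov : Cfsg.sextets = {S} ∪ {T | T ∈ sextets ∧ H32.SextetOrb.Ty H32.SextetOrb.P22 S T} ∪
      {T | T ∈ sextets ∧ H32.SextetOrb.Ty H32.SextetOrb.P3 S T} ∪
      {T | T ∈ sextets ∧ H32.SextetOrb.Ty H32.SextetOrb.P211 S T} := by
    ext T
    constructor
    · intro hT
      by_cases h : S = T
      · exact Or.inl (Or.inl (Or.inl h.symm))
      · rcases H32.SextetOrb.ty_cases hS hT h with h | h | h
        · exact Or.inl (Or.inl (Or.inr ⟨hT, h⟩))
        · exact Or.inl (Or.inr ⟨hT, h⟩)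
        · exact Or.inr ⟨hT, h⟩
    · rintro (((h | h) | h) | h)
      · rw [Set.mem_singleton_iff.1 h]; exact hS
      · exact h.1
      · exact h.1
      · exact h.1
  refine ⟨X₁, hX₁, X₂, hX₂, X₃, hX₃, ?_, ?_, ?_, ?_, ?_⟩
  · rw [h₁]; exact H32.SextetOrb.ncard22 hS
  · rw [h₂]; exact H32.SextetOrb.ncard3 hS
  · rw [h₃]; exact H32.SextetOrb.ncard211 hS
  · rw [h₁, h₂, h₃]; exact hcov
  · let O : Fin 3 → Set (Finset (Finset GolayPt)) :=
      ![{T | T ∈ sextets ∧ H32.SextetOrb.Ty H32.SextetOrb.P22 S T},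
        {T | T ∈ sextets ∧ H32.SextetOrb.Ty H32.SextetOrb.P3 S T},
        {T | T ∈ sextets ∧ H32.SextetOrb.Ty H32.SextetOrb.P211 S T}]
    have horb := H32.SextetStab.orbit_sextet hS
    refine H32.M24Kit.isCoatom_of_suborbits S (k := 3) O ![90, 240, 1440] 1771
      (by rw [horb, H32.Sextet.sextets_ncard]) (by norm_num) ?_ ?_ ?_ ?_ ?_ (by decide)
    · intro i
      fin_cases i
      · rintro T ⟨hT, hT'⟩ U ⟨hU, hU'⟩
        obtain ⟨f, hf, h3, h4⟩ := H32.SextetOrb.trans22 hS hT hS hU hT' hU'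
        exact ⟨⟨f, hf⟩, h3, h4⟩
      · rintro T ⟨hT, hT'⟩ U ⟨hU, hU'⟩
        obtain ⟨f, hf, h3, h4⟩ := H32.SextetOrb.trans3 hS hT hS hU hT' hU'
        exact ⟨⟨f, hf⟩, h3, h4⟩
      · rintro T ⟨hT, hT'⟩ U ⟨hU, hU'⟩
        obtain ⟨f, hf, h3, h4⟩ := H32.SextetOrb.trans211 hS hT hS hU hT' hU'
        exact ⟨⟨f, hf⟩, h3, h4⟩
    · intro i
      fin_cases i
      · exact H32.SextetOrb.ncard22 hS
      · exact H32.SextetOrb.ncard3 hS
      · exact H32.SextetOrb.ncard211 hS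
    · have h := H32.SextetOrb.excl_self hS
      intro i
      fin_cases i
      · rintro ⟨_, h'⟩; exact h.1 h'
      · rintro ⟨_, h'⟩; exact h.2.1 h'
      · rintro ⟨_, h'⟩; exact h.2.2 h'
    · have e1 : Disjoint (O 0) (O 1) := by
        rw [Set.disjoint_left]
        rintro T ⟨hT, h⟩ ⟨_, h'⟩
        exact (H32.SextetOrb.excl22 hS hT h).1 h'
      have e2 : Disjoint (O 0) (O 2) := by
        rw [Set.disjoint_left]
        rintro T ⟨hT, h⟩ ⟨_, h'⟩
        exact (H32.SextetOrb.excl22 hS hT h).2 h'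
      have e3 : Disjoint (O 1) (O 2) := by
        rw [Set.disjoint_left]
        rintro T ⟨hT, h⟩ ⟨_, h'⟩
        exact H32.SextetOrb.excl3 hS hT h h'
      intro i j hij
      fin_cases i <;> fin_cases j <;>
        first | exact absurd rfl hij | exact e1 | exact e1.symm | exact e2 | exact e2.symm | exact e3 | exact e3.symm
    · rw [horb]
      conv_lhs => rw [hcov]
      ext T
      simp only [Set.mem_union, Set.mem_iUnion]
      constructor
      · rintro (((h | h) | h) | h)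
        · exact Or.inl h
        · exact Or.inr ⟨0, h⟩
        · exact Or.inr ⟨1, h⟩
        · exact Or.inr ⟨2, h⟩
      · rintro (h | ⟨i, h⟩)
        · exact Or.inl (Or.inl (Or.inl h))
        · fin_cases i
          · exact Or.inl (Or.inl (Or.inr h))
          · exact Or.inl (Or.inr h)
          · exact Or.inr h


end Cfsg.Agent.S1552
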