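import Cfsg.Statements.S1553
import Cfsg.Agent.Lib.H32.OctadStab

set_option autoImplicit false
open scoped Pointwise
open Cfsg

namespace Cfsg.Agent.S1553

/-- The stabiliser of an octad in the group of the length-24 code induces on the octad exactly its alternating group. -/
theorem result (o : Finset Cfsg.GolayPt) (ho : o ∈ Cfsg.octads) : {e : Equiv.Perm ↥o | ∃ g : Equiv.Perm Cfsg.GolayPt, g ∈ Cfsg.M24 ∧ ∃ h : (∀ x, g x ∈ o ↔ x ∈ o), g.subtypePerm h = e} = (alternatingGroup ↥o : Set (Equiv.Perm ↥o)) := by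
  rw [Set.ext_iff]
  intro e
  have h := H32.OctadStab.range_res ho
  have he : e ∈ (alternatingGroup ↥o : Set (Equiv.Perm ↥o)) ↔ e ∈ (H32.OctadStab.res o).range := by
    rw [h]
    exact Iff.of_eq (by congr!)
  rw [he]
  constructor
  · rintro ⟨g, hg, hgo, rfl⟩
    exact ⟨⟨g, H32.OctadStab.mem_HO_iff.2 ⟨hg, hgo⟩⟩, rfl⟩
  · rintro ⟨g, rfl⟩
    exact ⟨g, g.2.1, H32.OctadStab.mem_iff_of_HO g.2, rfl⟩


end Cfsg.Agent.S1553
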