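import Cfsg.Statements.S1554
import Cfsg.Agent.Lib.H32.OctadStab

set_option autoImplicit false
open scoped Pointwise
open Cfsg

namespace Cfsg.Agent.S1554

/-- An octad stabiliser is a split extension: the joint stabiliser of the octad and a point outside it is a complement to the pointwise stabiliser of the octad, and is isomorphic to the alternating group of degree 8. -/
theorem result (o : Finset Cfsg.GolayPt) (ho : o ∈ Cfsg.octads) (p : Cfsg.GolayPt) (hp : p ∉ o) : (Cfsg.M24 ⊓ fixingSubgroup (Equiv.Perm Cfsg.GolayPt) (o : Set Cfsg.GolayPt)) ⊓ (Cfsg.M24 ⊓ MulAction.stabilizer (Equiv.Perm Cfsg.GolayPt) o ⊓ MulAction.stabilizer (Equiv.Perm Cfsg.GolayPt) p) = ⊥ ∧ (Cfsg.M24 ⊓ fixingSubgroup (Equiv.Perm Cfsg.GolayPt) (o : Set Cfsg.GolayPt)) ⊔ (Cfsg.M24 ⊓ MulAction.stabilizer (Equiv.Perm Cfsg.GolayPt) o ⊓ MulAction.stabilizer (Equiv.Perm Cfsg.GolayPt) p) = (Cfsg.M24 ⊓ MulAction.stabilizer (Equiv.Perm Cfsg.GolayPt) o) ∧ Nonempty (↥(Cfsg.M24 ⊓ MulAction.stabilizer (Equiv.Perm Cfsg.GolayPt) o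 ⊓ MulAction.stabilizer (Equiv.Perm Cfsg.GolayPt) p) ≃* alternatingGroup (Fin 8)) := by
  classical
  set E := Cfsg.M24 ⊓ fixingSubgroup (Equiv.Perm Cfsg.GolayPt) (o : Set Cfsg.GolayPt) with hE
  set H := Cfsg.M24 ⊓ MulAction.stabilizer (Equiv.Perm Cfsg.GolayPt) o with hH
  set C := H ⊓ MulAction.stabilizer (Equiv.Perm Cfsg.GolayPt) p with hC
  have hbot : E ⊓ C = ⊥ := by
    rw [eq_bot_iff]
    rintro g ⟨hg1, hg2⟩
    rw [Subgroup.mem_bot]
    have h1 := H32.OctadStab.mem_EO.1 hg1
    exact H32.OctadStab.fix_eq_one ho hp h1.1 h1.2 hg2.2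
  have hsup : E ⊔ C = H := by
    apply le_antisymm
    · exact sup_le (H32.OctadStab.EO_le_HO o) inf_le_left
    · intro h hh
      have hp' : h p ∉ o := by rw [H32.OctadStab.mem_iff_of_HO hh]; exact hp
      obtain ⟨g, hg, h1, h2⟩ := H32.OctadStab.E_trans ho hp hp'
      have hgE : g ∈ E := H32.OctadStab.mem_EO.2 ⟨hg, h1⟩
      have : h = g * (g⁻¹ * h) := by group
      rw [this]
      refine Subgroup.mul_mem_sup hgE ⟨H.mul_mem (H.inv_mem (H32.OctadStab.EO_le_HO o hgE)) hh, ?_⟩
      show (g⁻¹ * h) p = p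
      rw [Equiv.Perm.mul_apply, Equiv.Perm.inv_eq_iff_eq, h2]
  refine ⟨hbot, hsup, ?_⟩
  -- order of the complement
  have hle : C ≤ H := inf_le_left
  have hcardC : Nat.card C = 20160 := by
    have hcard : Nat.card E * Nat.card C = Nat.card H := by
      have hEn : (E.subgroupOf H).Normal := by
        have := H32.OctadStab.ker_res o
        show ((H32.OctadStab.EO o).subgroupOf (H32.OctadStab.HO o)).Normal
        rw [← this]
        infer_instance
      have hdis : Disjoint (E.subgroupOf H) (C.subgroupOf H) := by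
        rw [disjoint_iff, ← Subgroup.inf_subgroupOf_left]
        rw [eq_bot_iff]
        intro x hx
        have h1 : (x : Equiv.Perm GolayPt) ∈ E ⊓ C := by
          rw [Subgroup.mem_inf] at hx
          exact ⟨(Subgroup.mem_subgroupOf.1 hx.1).2, Subgroup.mem_subgroupOf.1 hx.2⟩
        rw [hbot, Subgroup.mem_bot] at h1
        rw [Subgroup.mem_bot]
        exact Subtype.ext h1
      have hcod : (E.subgroupOf H) ⊔ (C.subgroupOf H) = ⊤ := by
        rw [← Subgroup.subgroupOf_sup (H32.OctadStab.EO_le_HO o) hle, hsup, Subgroup.subgroupOf_self]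
      have hcomp : Subgroup.IsComplement' (E.subgroupOf H) (C.subgroupOf H) := by
        apply Subgroup.isComplement'_of_disjoint_and_mul_eq_univ hdis
        rw [← Subgroup.normal_mul, hcod]
        rfl
      have := hcomp.card_mul
      rwa [Nat.card_congr (Subgroup.subgroupOfEquivOfLe (H32.OctadStab.EO_le_HO o)).toEquiv,
        Nat.card_congr (Subgroup.subgroupOfEquivOfLe hle).toEquiv] at this
    have h1 : Nat.card E = 16 := H32.OctadStab.card_EO ho
    have h2 : Nat.card H = 322560 := H32.OctadStab.card_HO ho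
    rw [h1, h2] at hcard
    omega
  -- the restriction map
  let f : C →* Equiv.Perm o := (H32.OctadStab.res o).comp (Subgroup.inclusion hle)
  have hf : ∀ c, f c ∈ alternatingGroup o := by
    intro c
    rw [← H32.OctadStab.range_res ho]
    exact ⟨Subgroup.inclusion hle c, rfl⟩
  let f' : C →* alternatingGroup o := f.codRestrict _ hf
  have hinj : Function.Injective f' := by
    rw [injective_iff_map_eq_one]
    intro c hc
    have h1 : f c = 1 := congrArg Subtype.val hc
    have h2 : Subgroup.inclusion hle c ∈ (H32.OctadStab.res o).ker := h1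
    rw [H32.OctadStab.ker_res, Subgroup.mem_subgroupOf] at h2
    have h3 : (c : Equiv.Perm GolayPt) ∈ E ⊓ C := ⟨h2, c.2⟩
    rw [hbot, Subgroup.mem_bot] at h3
    exact Subtype.ext h3
  have hcardA : Nat.card (alternatingGroup o) = 20160 := by
    have h1 : Nat.card o = 8 := by rw [Nat.card_eq_fintype_card, Fintype.card_coe]; exact ho.2
    have : Nontrivial o := by
      rw [← Finite.one_lt_card_iff_nontrivial, h1]; norm_num
    have h2 := two_mul_nat_card_alternatingGroup (α := o)
    rw [Nat.card_perm, h1, show Nat.factorial 8 = 40320 by decide] at h2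
    omega
  have hbij : Function.Bijective f' := by
    rw [Nat.bijective_iff_injective_and_card]
    exact ⟨hinj, hcardC.trans hcardA.symm⟩
  have e1 : o ≃ Fin 8 := o.equivFinOfCardEq ho.2
  exact ⟨(MulEquiv.ofBijective f' hbij).trans (Equiv.altCongrHom e1)⟩


end Cfsg.Agent.S1554
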