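import Cfsg.Statements.S1555
import Cfsg.Agent.Lib.H32.Sextet

set_option autoImplicit false
open scoped Pointwise
open Cfsg

namespace Cfsg.Agent.S1555

/-- Bottom row of the Leech triangle: an octad is met in a prescribed pair of its points by exactly 16 octads and in a prescribed 4-subset by exactly 4 octads. -/
theorem result (o : Finset Cfsg.GolayPt) (ho : o ∈ Cfsg.octads) (s : Finset Cfsg.GolayPt) (hs : s ⊆ o) : (s.card = 2 → {o' : Finset Cfsg.GolayPt | o' ∈ Cfsg.octads ∧ o ∩ o' = s}.ncard = 16) ∧ (s.card = 4 → {o' : Finset Cfsg.GolayPt | o' ∈ Cfsg.octads ∧ o ∩ o' = s}.ncard = 4) := by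
  classical
  have hcount : ∀ u : Finset GolayPt, ∀ n, (Finset.univ.filter fun o' => o' ∈ octads ∧ u ⊆ o').card = n →
      {o' | o' ∈ octads ∧ u ⊆ o'}.ncard = n := by
    intro u n h
    rw [← h, ← Set.ncard_coe_finset]
    congr 1
    ext o'; simp
  have h4 : ∀ u : Finset GolayPt, u ⊆ o → u.card = 4 → {o' | o' ∈ octads ∧ o ∩ o' = u}.ncard = 4 := by
    intro u hu h
    have h5 : ((H32.Sextet.octs u).erase o).card = 4 := by
      rw [Finset.card_erase_of_mem (H32.Sextet.mem_octs.2 ⟨ho, hu⟩), H32.Sextet.card_octs h]
    rw [← h5, ← Set.ncard_coe_finset]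
    congr 1
    ext o'
    simp only [Set.mem_setOf_eq, Finset.mem_coe, Finset.mem_erase, H32.Sextet.mem_octs]
    constructor
    · rintro ⟨ho', h1⟩
      refine ⟨?_, ho', ?_⟩
      · rintro rfl
        rw [Finset.inter_self] at h1
        have := ho.2
        rw [h1, h] at this
        omega
      · rw [← h1]; exact Finset.inter_subset_right
    · rintro ⟨hne, ho', h1⟩
      exact ⟨ho', H32.Sextet.inter_eq h ho ho' hu h1 (Ne.symm hne)⟩
  refine ⟨fun h => ?_, fun h => h4 s hs h⟩
  -- octads containing `s`
  have hlam := H9.Steiner24.lam2 H8.GolayCode.card_pt H8.GolayBasic.octads_steiner s h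
  have hlam' : (Finset.univ.filter fun o' => o' ∈ octads ∧ s ⊆ o').card = 77 := by
    rw [← hlam]; congr 1; ext o'; simp [H9.Steiner.blk]
  -- split according to the meet with `o`
  have hsplit : (Finset.univ.filter fun o' => o' ∈ octads ∧ s ⊆ o') =
      insert o ((Finset.univ.filter fun o' => o' ∈ octads ∧ o ∩ o' = s) ∪
        (((o.powersetCard 4).filter fun u => s ⊆ u).biUnion fun u =>
          Finset.univ.filter fun o' => o' ∈ octads ∧ o ∩ o' = u)) := by
    ext o'
    simp only [Finset.mem_filter, Finset.mem_univ, true_and, Finset.mem_insert, Finset.mem_union,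
      Finset.mem_biUnion, Finset.mem_powersetCard]
    constructor
    · rintro ⟨ho', h1⟩
      by_cases he : o' = o
      · exact Or.inl he
      · right
        have h2 : s ⊆ o ∩ o' := Finset.subset_inter hs h1
        rcases H9.Steiner24.inter_card H8.GolayCode.card_pt H8.GolayBasic.octads_steiner ho ho'
          (Ne.symm he) with h3 | h3 | h3
        · have := Finset.card_le_card h2; omega
        · left
          refine ⟨ho', ?_⟩
          exact (Finset.eq_of_subset_of_card_le h2 (by omega)).symm
        · right
          exact ⟨o ∩ o', ⟨⟨Finset.inter_subset_left, h3⟩, h2⟩, ho', rfl⟩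
    · rintro (rfl | ⟨ho', h1⟩ | ⟨u, ⟨⟨hu, hu4⟩, hsu⟩, ho', h1⟩)
      · exact ⟨ho, hs⟩
      · exact ⟨ho', by rw [← h1]; exact Finset.inter_subset_right⟩
      · exact ⟨ho', by rw [← h1] at hsu; exact hsu.trans Finset.inter_subset_right⟩
  have hcardU : (((o.powersetCard 4).filter fun u => s ⊆ u).biUnion fun u =>
          Finset.univ.filter fun o' => o' ∈ octads ∧ o ∩ o' = u).card = 60 := by
    rw [Finset.card_biUnion]
    · have h6 : ∀ u ∈ ((o.powersetCard 4).filter fun u => s ⊆ u),
          (Finset.univ.filter fun o' => o' ∈ octads ∧ o ∩ o' = u).card = 4 := by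
        intro u hu
        rw [Finset.mem_filter, Finset.mem_powersetCard] at hu
        rw [← h4 u hu.1.1 hu.1.2, ← Set.ncard_coe_finset]
        congr 1
        ext o'; simp
      rw [Finset.sum_congr rfl h6, Finset.sum_const, smul_eq_mul]
      have h7 : ((o.powersetCard 4).filter fun u => s ⊆ u).card = 15 := by
        have h8 : ((o.powersetCard 4).filter fun u => s ⊆ u) =
            ((o \ s).powersetCard 2).image fun v => s ∪ v := by
          ext u
          simp only [Finset.mem_filter, Finset.mem_powersetCard, Finset.mem_image]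
          constructor
          · rintro ⟨⟨h1, h2⟩, h3⟩
            refine ⟨u \ s, ⟨Finset.sdiff_subset_sdiff h1 (le_refl _), ?_⟩, Finset.union_sdiff_of_subset h3⟩
            rw [Finset.card_sdiff_of_subset h3]; omega
          · rintro ⟨v, ⟨h1, h2⟩, rfl⟩
            refine ⟨⟨Finset.union_subset hs (h1.trans Finset.sdiff_subset), ?_⟩, Finset.subset_union_left⟩
            rw [Finset.card_union_of_disjoint, h, h2]
            exact (Finset.disjoint_sdiff).mono_right h1
        rw [h8, Finset.card_image_of_injOn, Finset.card_powersetCard, Finset.card_sdiff_of_subset hs,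
          h, show o.card = 8 from ho.2]
        · decide
        · intro v hv w hw hvw
          rw [Finset.mem_coe, Finset.mem_powersetCard] at hv hw
          have hvw' : s ∪ v = s ∪ w := hvw
          have e1 : v = (s ∪ v) \ s := (Finset.union_sdiff_cancel_left
            ((Finset.disjoint_sdiff).mono_right hv.1)).symm
          have e2 : w = (s ∪ w) \ s := (Finset.union_sdiff_cancel_left
            ((Finset.disjoint_sdiff).mono_right hw.1)).symm
          rw [e1, hvw', ← e2]
      rw [h7]
    · intro u _ v _ huv
      rw [Function.onFun, Finset.disjoint_left]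
      intro o' h1 h2
      rw [Finset.mem_filter] at h1 h2
      exact huv (h1.2.2.symm.trans h2.2.2)
  rw [hsplit, Finset.card_insert_of_notMem, Finset.card_union_of_disjoint, hcardU] at hlam'
  · rw [← Set.ncard_coe_finset] at hlam'
    have h9 : {o' | o' ∈ octads ∧ o ∩ o' = s}.ncard + 60 + 1 = 77 := by
      rw [← hlam']
      congr 3
      ext o'; simp
    omega
  · rw [Finset.disjoint_left]
    intro o' h1 h2
    simp only [Finset.mem_filter, Finset.mem_univ, true_and, Finset.mem_biUnion,
      Finset.mem_powersetCard] at h1 h2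
    obtain ⟨u, ⟨⟨_, hu4⟩, _⟩, _, h3⟩ := h2
    rw [h1.2] at h3
    rw [h3] at h
    omega
  · intro hmem
    simp only [Finset.mem_filter, Finset.mem_univ, true_and, Finset.mem_biUnion,
      Finset.mem_powersetCard, Finset.mem_union, Finset.inter_self] at hmem
    have h8 : o.card = 8 := ho.2
    rcases hmem with ⟨_, h1⟩ | ⟨u, ⟨⟨_, hu4⟩, _⟩, _, h3⟩
    · rw [h1] at h8; omega
    · rw [h3] at h8; omega


end Cfsg.Agent.S1555
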