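import Cfsg.Statements.S1558
import Cfsg.Agent.Lib.H32.TrioStab

set_option autoImplicit false
open scoped Pointwise
open Cfsg

namespace Cfsg.Agent.S1558

/-- Structure of a trio stabiliser: every permutation of the three octads is induced, and there is a normal subgroup of order 64 of elements squaring to the identity whose quotient is isomorphic to the product of GL(3, 2) with the symmetric group of degree 3. -/
theorem result (T : Finset (Finset Cfsg.GolayPt)) (hT : T ∈ Cfsg.trios) : (∀ e : Equiv.Perm ↥T, ∃ g ∈ MulAction.stabilizer Cfsg.M24 T, ∀ o : ↥T, (g : Equiv.Perm Cfsg.GolayPt) • (o : Finset Cfsg.GolayPt) = ((e o : ↥T) : Finset Cfsg.GolayPt)) ∧ ∃ (N : Subgroup ↥(MulAction.stabilizer Cfsg.M24 T)) (_ : N.Normal), Nat.card N = 64 ∧ (∀ x ∈ N, x * x = 1) ∧ Nonempty (↥(MulAction.stabilizer Cfsg.M24 T) ⧸ N ≃* GL (Fin 3) (ZMod 2) × Equiv.Perm (Fin 3)) := by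
  classical
  refine ⟨H32.TrioStab.induced hT, ?_⟩
  obtain ⟨f, hf, hfT⟩ := H32.TrioOrb.trans_trios hT H32.TrioStab.T0_mem
  -- conjugation to the standard trio
  have hst : H32.TrioStab.T0 = (⟨f, hf⟩ : M24) • T := hfT.symm
  let e : MulAction.stabilizer M24 T ≃* MulAction.stabilizer M24 H32.TrioStab.T0 :=
    MulAction.stabilizerEquivStabilizer hst
  let Psi : MulAction.stabilizer M24 T →* GL (Fin 3) (ZMod 2) × Equiv.Perm (H32.TrioStab.T0) :=
    H32.TrioStab.Phi.comp e.toMonoidHom
  have hPsi : Function.Surjective Psi := H32.TrioStab.Phi_surjective.comp e.surjective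
  refine ⟨Psi.ker, inferInstance, ?_, ?_, ?_⟩
  · rw [← H32.TrioStab.card_ker]
    refine Nat.card_congr (e.toEquiv.subtypeEquiv fun g => ?_)
    exact Iff.rfl
  · intro x hx
    have h1 : e x ∈ H32.TrioStab.Phi.ker := hx
    have h2 := H32.TrioStab.ker_sq h1
    rw [← map_mul] at h2
    exact (MulEquiv.map_eq_one_iff e).1 h2
  · have h3 : Fintype.card (H32.TrioStab.T0) = 3 := by
      rw [Fintype.card_coe]; exact H32.TrioStab.T0_mem.1
    let e3 : (H32.TrioStab.T0) ≃ Fin 3 := Fintype.equivFinOfCardEq h3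
    exact ⟨(QuotientGroup.quotientKerEquivOfSurjective Psi hPsi).trans
      (MulEquiv.prodCongr (MulEquiv.refl _) (Equiv.permCongrHom e3))⟩


end Cfsg.Agent.S1558
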