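import Cfsg.Statements.S1559
import Cfsg.Agent.Lib.H32.TrioOrb

set_option autoImplicit false
open scoped Pointwise
open Cfsg

namespace Cfsg.Agent.S1559

/-- A trio stabiliser has five orbits on the 3795 trios, of sizes 1, 42, 56, 1008, 2688; and the stabiliser is a maximal proper subgroup. -/
theorem result (T : Finset (Finset Cfsg.GolayPt)) (hT : T ∈ Cfsg.trios) : ∃ X₁ ∈ Cfsg.trios, ∃ X₂ ∈ Cfsg.trios, ∃ X₃ ∈ Cfsg.trios, ∃ X₄ ∈ Cfsg.trios, (MulAction.orbit ↥(MulAction.stabilizer Cfsg.M24 T) X₁).ncard = 42 ∧ (MulAction.orbit ↥(MulAction.stabilizer Cfsg.M24 T) X₂).ncard = 56 ∧ (MulAction.orbit ↥(MulAction.stabilizer Cfsg.M24 T) X₃).ncard = 1008 ∧ (MulAction.orbit ↥(MulAction.stabilizer Cfsg.M24 T) X₄).ncard = 2688 ∧ Cfsg.trios = {T} ∪ MulAction.orbit ↥(MulAction.stabilizer Cfsg.M24 T) X₁ ∪ MulAction.orbit ↥(MulAction.stabilizer Cfsg.M24 T) X₂ ∪ MulAction.orbit ↥(MulAction.stabilizer Cfsg.M24 T) X₃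 ∪ MulAction.orbit ↥(MulAction.stabilizer Cfsg.M24 T) X₄ ∧ IsCoatom (MulAction.stabilizer Cfsg.M24 T) := by
  have horbit : ∀ a1 a2 b1 b2 p q : ℕ, H32.TrioPat.Data a1 a2 b1 b2 p q → ∀ N, 0 < N →
      {T' | T' ∈ trios ∧ H32.TrioPat.Pat a1 a2 b1 b2 T T'}.ncard = N →
      ∃ X ∈ trios, MulAction.orbit ↥(MulAction.stabilizer M24 T) X =
        {T' | T' ∈ trios ∧ H32.TrioPat.Pat a1 a2 b1 b2 T T'} := by
    intro a1 a2 b1 b2 p q D N hN0 hN
    obtain ⟨X, hX1, hX2⟩ := (Set.ncard_pos (Set.toFinite _)).1 (hN ▸ hN0)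
    refine ⟨X, hX1, ?_⟩
    ext U
    constructor
    · rintro ⟨g, rfl⟩
      have hg : ((g : M24) : Equiv.Perm GolayPt) • T = T := g.2
      refine ⟨H32.TrioPat.smul_mem_trios (g : M24).2 hX1, ?_⟩
      have h := (H32.TrioPat.Pat_smul ((g : M24) : Equiv.Perm GolayPt) T X).2 hX2
      rw [hg] at h
      exact h
    · rintro ⟨h1, h2⟩
      obtain ⟨f, hf, h3, h4⟩ := H32.TrioOrb.trans_type D hT hX1 hT h1 hX2 h2
      exact ⟨⟨⟨f, hf⟩, h3⟩, h4⟩
  obtain ⟨X₁, hX₁, h₁⟩ := horbit _ _ _ _ _ _ H32.TrioPat.dA 42 (by norm_num) (H32.TrioOrb.ncardA hT)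
  obtain ⟨X₂, hX₂, h₂⟩ := horbit _ _ _ _ _ _ H32.TrioPat.dB 56 (by norm_num) (H32.TrioOrb.ncardB hT)
  obtain ⟨X₃, hX₃, h₃⟩ := horbit _ _ _ _ _ _ H32.TrioPat.dC 1008 (by norm_num) (H32.TrioOrb.ncardC hT)
  obtain ⟨X₄, hX₄, h₄⟩ := horbit _ _ _ _ _ _ H32.TrioPat.dD 2688 (by norm_num) (H32.TrioOrb.ncardD hT)
  have hcov : Cfsg.trios = {T} ∪ {T' | T' ∈ trios ∧ H32.TrioPat.Pat 8 0 0 4 T T'} ∪
      {T' | T' ∈ trios ∧ H32.TrioPat.Pat 4 4 4 0 T T'} ∪
      {T' | T' ∈ trios ∧ H32.TrioPat.Pat 4 4 2 2 T T'} ∪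
      {T' | T' ∈ trios ∧ H32.TrioPat.Pat 4 2 2 4 T T'} := by
    ext U
    constructor
    · intro hU
      by_cases h : T = U
      · exact Or.inl (Or.inl (Or.inl (Or.inl h.symm)))
      · rcases H32.TrioOrb.cases hT hU h with h | h | h | h
        · exact Or.inl (Or.inl (Or.inl (Or.inr ⟨hU, h⟩)))
        · exact Or.inl (Or.inl (Or.inr ⟨hU, h⟩))
        · exact Or.inl (Or.inr ⟨hU, h⟩)
        · exact Or.inr ⟨hU, h⟩
    · rintro ((((h | h) | h) | h) | h)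
      · rw [Set.mem_singleton_iff.1 h]; exact hT
      · exact h.1
      · exact h.1
      · exact h.1
      · exact h.1
  refine ⟨X₁, hX₁, X₂, hX₂, X₃, hX₃, X₄, hX₄, ?_, ?_, ?_, ?_, ?_, ?_⟩
  · rw [h₁]; exact H32.TrioOrb.ncardA hT
  · rw [h₂]; exact H32.TrioOrb.ncardB hT
  · rw [h₃]; exact H32.TrioOrb.ncardC hT
  · rw [h₄]; exact H32.TrioOrb.ncardD hT
  · rw [h₁, h₂, h₃, h₄]; exact hcov
  · let O : Fin 4 → Set (Finset (Finset GolayPt)) :=
      ![{T' | T' ∈ trios ∧ H32.TrioPat.Pat 8 0 0 4 T T'}, {T' | T' ∈ trios ∧ H32.TrioPat.Pat 4 4 4 0 T T'},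
        {T' | T' ∈ trios ∧ H32.TrioPat.Pat 4 4 2 2 T T'}, {T' | T' ∈ trios ∧ H32.TrioPat.Pat 4 2 2 4 T T'}]
    have horb := H32.TrioOrb.orbit_trio hT
    refine H32.M24Kit.isCoatom_of_suborbits T (k := 4) O ![42, 56, 1008, 2688] 3795
      (by rw [horb, H32.Octad.trios_ncard]) (by norm_num) ?_ ?_ ?_ ?_ ?_ (by decide)
    · have key : ∀ a1 a2 b1 b2 p q : ℕ, H32.TrioPat.Data a1 a2 b1 b2 p q → ∀ U V,
          (U ∈ trios ∧ H32.TrioPat.Pat a1 a2 b1 b2 T U) → (V ∈ trios ∧ H32.TrioPat.Pat a1 a2 b1 b2 T V) →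
          ∃ g ∈ MulAction.stabilizer M24 T, g • U = V := by
        rintro a1 a2 b1 b2 p q D U V ⟨hU, hU'⟩ ⟨hV, hV'⟩
        obtain ⟨f, hf, h3, h4⟩ := H32.TrioOrb.trans_type D hT hU hT hV hU' hV'
        exact ⟨⟨f, hf⟩, h3, h4⟩
      intro i
      fin_cases i
      · intro U hU V hV; exact key _ _ _ _ _ _ H32.TrioPat.dA U V hU hV
      · intro U hU V hV; exact key _ _ _ _ _ _ H32.TrioPat.dB U V hU hV
      · intro U hU V hV; exact key _ _ _ _ _ _ H32.TrioPat.dC U V hU hV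
      · intro U hU V hV; exact key _ _ _ _ _ _ H32.TrioPat.dD U V hU hV
    · intro i
      fin_cases i
      · exact H32.TrioOrb.ncardA hT
      · exact H32.TrioOrb.ncardB hT
      · exact H32.TrioOrb.ncardC hT
      · exact H32.TrioOrb.ncardD hT
    · have h := H32.TrioOrb.excl_self hT
      intro i
      fin_cases i
      · rintro ⟨_, h'⟩; exact h.1 h'
      · rintro ⟨_, h'⟩; exact h.2.1 h'
      · rintro ⟨_, h'⟩; exact h.2.2.1 h'
      · rintro ⟨_, h'⟩; exact h.2.2.2 h'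
    · have e1 : Disjoint (O 0) (O 1) := by
        rw [Set.disjoint_left]
        rintro U ⟨hU, h⟩ ⟨_, h'⟩
        exact (H32.TrioOrb.exclA hT hU h).1 h'
      have e2 : Disjoint (O 0) (O 2) := by
        rw [Set.disjoint_left]
        rintro U ⟨hU, h⟩ ⟨_, h'⟩
        exact (H32.TrioOrb.exclA hT hU h).2.1 h'
      have e3 : Disjoint (O 0) (O 3) := by
        rw [Set.disjoint_left]
        rintro U ⟨hU, h⟩ ⟨_, h'⟩
        exact (H32.TrioOrb.exclA hT hU h).2.2 h'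
      have e4 : Disjoint (O 1) (O 2) := by
        rw [Set.disjoint_left]
        rintro U ⟨hU, h⟩ ⟨_, h'⟩
        exact (H32.TrioOrb.exclB hT hU h).1 h'
      have e5 : Disjoint (O 1) (O 3) := by
        rw [Set.disjoint_left]
        rintro U ⟨hU, h⟩ ⟨_, h'⟩
        exact (H32.TrioOrb.exclB hT hU h).2 h'
      have e6 : Disjoint (O 2) (O 3) := by
        rw [Set.disjoint_left]
        rintro U ⟨hU, h⟩ ⟨_, h'⟩
        exact H32.TrioOrb.exclC hT hU h h'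
      intro i j hij
      fin_cases i <;> fin_cases j <;>
        first | exact absurd rfl hij | exact e1 | exact e1.symm | exact e2 | exact e2.symm | exact e3 |
          exact e3.symm | exact e4 | exact e4.symm | exact e5 | exact e5.symm | exact e6 | exact e6.symm
    · rw [horb]
      conv_lhs => rw [hcov]
      ext U
      simp only [Set.mem_union, Set.mem_iUnion]
      constructor
      · rintro ((((h | h) | h) | h) | h)
        · exact Or.inl h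
        · exact Or.inr ⟨0, h⟩
        · exact Or.inr ⟨1, h⟩
        · exact Or.inr ⟨2, h⟩
        · exact Or.inr ⟨3, h⟩
      · rintro (h | ⟨i, h⟩)
        · exact Or.inl (Or.inl (Or.inl (Or.inl h)))
        · fin_cases i
          · exact Or.inl (Or.inl (Or.inl (Or.inr h)))
          · exact Or.inl (Or.inl (Or.inr h))
          · exact Or.inl (Or.inr h)
          · exact Or.inr h


end Cfsg.Agent.S1559
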