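import Cfsg.Statements.S1562
import Cfsg.Agent.Lib.H32.Triads

set_option autoImplicit false
open scoped Pointwise
open Cfsg

namespace Cfsg.Agent.S1562

/-- Orbits of a triad stabiliser on the triads disjoint from it: the 210 triads inside a common octad with it form one orbit and the remaining 1120 another. -/
theorem result (T : Finset Cfsg.GolayPt) (hT : T.card = 3) : {U : Finset Cfsg.GolayPt | U.card = 3 ∧ Disjoint T U ∧ (∃ o ∈ Cfsg.octads, T ∪ U ⊆ o)}.ncard = 210 ∧ {U : Finset Cfsg.GolayPt | U.card = 3 ∧ Disjoint T U ∧ ¬ (∃ o ∈ Cfsg.octads, T ∪ U ⊆ o)}.ncard = 1120 ∧ ∀ U U' : Finset Cfsg.GolayPt, U.card = 3 → U'.card = 3 → Disjoint T U → Disjoint T U' → ((∃ o ∈ Cfsg.octads, T ∪ U ⊆ o) ↔ (∃ o ∈ Cfsg.octads, T ∪ U' ⊆ o)) → ∃ g : Equiv.Perm Cfsg.GolayPt, g ∈ Cfsg.M24 ∧ g • T = T ∧ g • U = U' := by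
  refine ⟨H32.Triads.ncard_inn hT, H32.Triads.ncard_out hT, ?_⟩
  intro U U' hU hU' hd hd' hiff
  by_cases hi : ∃ o ∈ Cfsg.octads, T ∪ U ⊆ o
  · obtain ⟨g, hg, h1, h2⟩ := H32.Triads.trans_inn hT hU hT hU' hd hd' hi (hiff.1 hi)
    exact ⟨g, hg, h1, h2⟩
  · obtain ⟨g, hg, h1, h2⟩ := H32.Triads.trans_out hT hU hT hU' hd hd' hi (fun h => hi (hiff.2 h))
    exact ⟨g, hg, h1, h2⟩


end Cfsg.Agent.S1562
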