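import Cfsg.Statements.S1563
import Cfsg.Agent.Lib.H32.Triads

set_option autoImplicit false
open scoped Pointwise
open Cfsg

namespace Cfsg.Agent.S1563

/-- The stabiliser of a pair of points (setwise) is a maximal proper subgroup of the group of the length-24 code. -/
theorem result (s : Finset Cfsg.GolayPt) (hs : s.card = 2) : IsCoatom (MulAction.stabilizer Cfsg.M24 s) := by
  have hsm : ∀ (g : M24) (s : Finset GolayPt), g • s = s.image (g : Equiv.Perm GolayPt) := fun _ _ => rfl
  have horb : MulAction.orbit M24 s = {t : Finset GolayPt | t.card = 2} := by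
    ext t
    constructor
    · rintro ⟨g, rfl⟩
      show (s.image (g : Equiv.Perm GolayPt)).card = 2
      rw [H32.Octad.card_image]; exact hs
    · intro ht
      obtain ⟨g, hg, h⟩ := H32.M24Ext.trans_subsets (s := s) (t := t) (hs.trans (Eq.symm ht)) (by omega)
      exact ⟨⟨g, hg⟩, h⟩
  have hN : (MulAction.orbit M24 s).ncard = 276 := by
    rw [horb]
    have h1 := Finset.card_powersetCard 2 (Finset.univ : Finset GolayPt)
    rw [Finset.card_univ, H8.GolayCode.card_pt, show Nat.choose 24 2 = 276 by decide,
      ← Set.ncard_coe_finset] at h1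
    rw [← h1]
    refine congrArg Set.ncard ?_
    ext t; simp
  have hcount : ∀ j, {t : Finset GolayPt | t.card = 2 ∧ (s ∩ t).card = j}.ncard =
      H32.M24Kit.cntK (fun n => Nat.beq (H8.GolayCount.pop (3 &&& n)) j) 2 (H32.M24Kit.bits 0xffffff) 0 :=
    fun j => H32.Triads.ncard_meet_subsets (m := 3) (by norm_num) (by rw [hs]; decide +kernel)
      (by decide +kernel) 2 j
  refine H32.M24Kit.isCoatom_of_suborbits s (k := 2)
    (fun i => {t | t.card = 2 ∧ (s ∩ t).card = (![0, 1] : Fin 2 → ℕ) i}) ![231, 44] 276
    hN (by norm_num) ?_ ?_ ?_ ?_ ?_ (by decide)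
  · rintro i t ⟨ht, ht'⟩ u ⟨hu, hu'⟩
    obtain ⟨g, hg, h1, h2⟩ := H32.M24Ext.trans_pair5 (s := s) (t := t) (s' := s) (t' := u) rfl
      (ht.trans hu.symm) (ht'.trans hu'.symm) (by
        have := Finset.card_union_le s t
        omega)
    exact ⟨⟨g, hg⟩, h1, h2⟩
  · intro i
    fin_cases i
    · refine (hcount 0).trans ?_
      decide +kernel
    · refine (hcount 1).trans ?_
      decide +kernel
  · rintro i ⟨_, h⟩
    rw [Finset.inter_self, hs] at h
    clear hcount
    revert i; decide
  · intro i j hij
    rw [Set.disjoint_left]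
    rintro t ⟨_, h1⟩ ⟨_, h2⟩
    apply hij
    rw [h1] at h2
    clear h1 hij hcount
    revert i j
    decide
  · rw [horb]
    ext t
    simp only [Set.mem_union, Set.mem_singleton_iff, Set.mem_iUnion, Set.mem_setOf_eq]
    constructor
    · intro ht
      have h1 : (s ∩ t).card ≤ 2 := (Finset.card_le_card Finset.inter_subset_left).trans (le_of_eq hs)
      by_cases h2 : (s ∩ t).card = 2
      · left
        have h3 : s ∩ t = s := Finset.eq_of_subset_of_card_le Finset.inter_subset_left (by omega)
        exact (Finset.eq_of_subset_of_card_le (Finset.inter_eq_left.1 h3) (by omega)).symm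
      · right
        have h3 : (s ∩ t).card = 0 ∨ (s ∩ t).card = 1 := by omega
        rcases h3 with h | h
        · exact ⟨0, ht, h⟩
        · exact ⟨1, ht, h⟩
    · rintro (rfl | ⟨i, ht, _⟩)
      · exact hs
      · exact ht


end Cfsg.Agent.S1563
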