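import Cfsg.Statements.S1564
import Cfsg.Agent.Lib.H32.Triads

set_option autoImplicit false
open scoped Pointwise
open Cfsg

namespace Cfsg.Agent.S1564

/-- The stabiliser of a set of three points (setwise) is a maximal proper subgroup of the group of the length-24 code. -/
theorem result (s : Finset Cfsg.GolayPt) (hs : s.card = 3) : IsCoatom (MulAction.stabilizer Cfsg.M24 s) := by
  have hsm : ∀ (g : M24) (s : Finset GolayPt), g • s = s.image (g : Equiv.Perm GolayPt) := fun _ _ => rfl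
  have horb : MulAction.orbit M24 s = {t : Finset GolayPt | t.card = 3} := by
    ext t
    constructor
    · rintro ⟨g, rfl⟩
      show (s.image (g : Equiv.Perm GolayPt)).card = 3
      rw [H32.Octad.card_image]; exact hs
    · intro ht
      obtain ⟨g, hg, h⟩ := H32.M24Ext.trans_subsets (s := s) (t := t) (hs.trans (Eq.symm ht)) (by omega)
      exact ⟨⟨g, hg⟩, h⟩
  have hN : (MulAction.orbit M24 s).ncard = 2024 := by
    rw [horb]
    have h1 := Finset.card_powersetCard 3 (Finset.univ : Finset GolayPt)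
    rw [Finset.card_univ, H8.GolayCode.card_pt, show Nat.choose 24 3 = 2024 by decide,
      ← Set.ncard_coe_finset] at h1
    rw [← h1]
    refine congrArg Set.ncard ?_
    ext t; simp
  have hcount : ∀ j, {t : Finset GolayPt | t.card = 3 ∧ (s ∩ t).card = j}.ncard =
      H32.M24Kit.cntK (fun n => Nat.beq (H8.GolayCount.pop (7 &&& n)) j) 3 (H32.M24Kit.bits 0xffffff) 0 :=
    fun j => H32.Triads.ncard_meet_subsets (m := 7) (by norm_num) (by rw [hs]; decide +kernel)
      (by decide +kernel) 3 j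
  let O : Fin 4 → Set (Finset GolayPt) := ![{t | t.card = 3 ∧ (s ∩ t).card = 2},
    {t | t.card = 3 ∧ (s ∩ t).card = 1}, {U | U.card = 3 ∧ Disjoint s U ∧ H32.Triads.Inn s U},
    {U | U.card = 3 ∧ Disjoint s U ∧ ¬ H32.Triads.Inn s U}]
  have hO0 : ∀ t, t ∈ O 0 ↔ t.card = 3 ∧ (s ∩ t).card = 2 := fun t => Iff.rfl
  have hO1 : ∀ t, t ∈ O 1 ↔ t.card = 3 ∧ (s ∩ t).card = 1 := fun t => Iff.rfl
  have hO2 : ∀ t, t ∈ O 2 ↔ t.card = 3 ∧ Disjoint s t ∧ H32.Triads.Inn s t := fun t => Iff.rfl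
  have hO3 : ∀ t, t ∈ O 3 ↔ t.card = 3 ∧ Disjoint s t ∧ ¬ H32.Triads.Inn s t := fun t => Iff.rfl
  have hdj : ∀ t : Finset GolayPt, Disjoint s t ↔ (s ∩ t).card = 0 := fun t => by
    rw [Finset.card_eq_zero, Finset.disjoint_iff_inter_eq_empty]
  refine H32.M24Kit.isCoatom_of_suborbits s (k := 4) O ![63, 630, 210, 1120] 2024
    hN (by norm_num) ?_ ?_ ?_ ?_ ?_ (by decide)
  · intro i t ht u hu
    fin_cases i
    · have ht' := (hO0 t).1 ht
      have hu' := (hO0 u).1 hu
      obtain ⟨g, hg, h1, h2⟩ := H32.M24Ext.trans_pair5 (s := s) (t := t) (s' := s) (t' := u) rfl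
        (ht'.1.trans hu'.1.symm) (ht'.2.trans hu'.2.symm) (by
          have := Finset.card_union_add_card_inter s t
          omega)
      exact ⟨⟨g, hg⟩, h1, h2⟩
    · have ht' := (hO1 t).1 ht
      have hu' := (hO1 u).1 hu
      obtain ⟨g, hg, h1, h2⟩ := H32.M24Ext.trans_pair5 (s := s) (t := t) (s' := s) (t' := u) rfl
        (ht'.1.trans hu'.1.symm) (ht'.2.trans hu'.2.symm) (by
          have := Finset.card_union_add_card_inter s t
          omega)
      exact ⟨⟨g, hg⟩, h1, h2⟩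
    · have ht' := (hO2 t).1 ht
      have hu' := (hO2 u).1 hu
      obtain ⟨g, hg, h1, h2⟩ := H32.Triads.trans_inn hs ht'.1 hs hu'.1 ht'.2.1 hu'.2.1 ht'.2.2 hu'.2.2
      exact ⟨⟨g, hg⟩, h1, h2⟩
    · have ht' := (hO3 t).1 ht
      have hu' := (hO3 u).1 hu
      obtain ⟨g, hg, h1, h2⟩ := H32.Triads.trans_out hs ht'.1 hs hu'.1 ht'.2.1 hu'.2.1 ht'.2.2 hu'.2.2
      exact ⟨⟨g, hg⟩, h1, h2⟩
  · intro i
    fin_cases i
    · refine (hcount 2).trans ?_
      decide +kernel
    · refine (hcount 1).trans ?_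
      decide +kernel
    · exact H32.Triads.ncard_inn hs
    · exact H32.Triads.ncard_out hs
  · intro i h
    fin_cases i
    · have := ((hO0 s).1 h).2
      rw [Finset.inter_self] at this; omega
    · have := ((hO1 s).1 h).2
      rw [Finset.inter_self] at this; omega
    · have := (hdj s).1 ((hO2 s).1 h).2.1
      rw [Finset.inter_self] at this; omega
    · have := (hdj s).1 ((hO3 s).1 h).2.1
      rw [Finset.inter_self] at this; omega
  · intro i j hij
    rw [Set.disjoint_left]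
    intro t hi hj
    have key : ∀ k : Fin 4, t ∈ O k → (k = 0 ∧ (s ∩ t).card = 2) ∨ (k = 1 ∧ (s ∩ t).card = 1) ∨
        (k = 2 ∧ (s ∩ t).card = 0 ∧ H32.Triads.Inn s t) ∨ (k = 3 ∧ (s ∩ t).card = 0 ∧ ¬ H32.Triads.Inn s t) := by
      intro k hk
      fin_cases k
      · exact Or.inl ⟨rfl, ((hO0 t).1 hk).2⟩
      · exact Or.inr (Or.inl ⟨rfl, ((hO1 t).1 hk).2⟩)
      · exact Or.inr (Or.inr (Or.inl ⟨rfl, (hdj t).1 ((hO2 t).1 hk).2.1, ((hO2 t).1 hk).2.2⟩))
      · exact Or.inr (Or.inr (Or.inr ⟨rfl, (hdj t).1 ((hO3 t).1 hk).2.1, ((hO3 t).1 hk).2.2⟩))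
    rcases key i hi with ⟨rfl, h1⟩ | ⟨rfl, h1⟩ | ⟨rfl, h1, h1'⟩ | ⟨rfl, h1, h1'⟩ <;>
      rcases key j hj with ⟨rfl, h2⟩ | ⟨rfl, h2⟩ | ⟨rfl, h2, h2'⟩ | ⟨rfl, h2, h2'⟩ <;>
      first | exact hij rfl | omega | exact h1' h2' | exact h2' h1'
  · rw [horb]
    ext t
    simp only [Set.mem_union, Set.mem_singleton_iff, Set.mem_iUnion, Set.mem_setOf_eq]
    constructor
    · intro ht
      have h1 : (s ∩ t).card ≤ 3 := (Finset.card_le_card Finset.inter_subset_left).trans (le_of_eq hs)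
      have h2 : (s ∩ t).card = 3 ∨ (s ∩ t).card = 2 ∨ (s ∩ t).card = 1 ∨ (s ∩ t).card = 0 := by omega
      rcases h2 with h2 | h2 | h2 | h2
      · left
        have h3 : s ∩ t = s := Finset.eq_of_subset_of_card_le Finset.inter_subset_left (by omega)
        exact (Finset.eq_of_subset_of_card_le (Finset.inter_eq_left.1 h3) (by omega)).symm
      · exact Or.inr ⟨0, ht, h2⟩
      · exact Or.inr ⟨1, ht, h2⟩
      · by_cases hi : H32.Triads.Inn s t
        · exact Or.inr ⟨2, ht, (hdj t).2 h2, hi⟩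
        · exact Or.inr ⟨3, ht, (hdj t).2 h2, hi⟩
    · rintro (rfl | ⟨i, ht⟩)
      · exact hs
      · fin_cases i
        · exact ((hO0 t).1 ht).1
        · exact ((hO1 t).1 ht).1
        · exact ((hO2 t).1 ht).1
        · exact ((hO3 t).1 ht).1


end Cfsg.Agent.S1564
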