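import Cfsg.Statements.S1565
import Cfsg.Agent.Lib.H32.OctadOrb

set_option autoImplicit false
open scoped Pointwise
open Cfsg

namespace Cfsg.Agent.S1565

/-- The stabiliser of an octad is a maximal proper subgroup of the group of the length-24 code. -/
theorem result (o : Finset Cfsg.GolayPt) (ho : o ∈ Cfsg.octads) : IsCoatom (MulAction.stabilizer Cfsg.M24 o) := by
  have hsm : ∀ (g : M24) (s : Finset GolayPt), g • s = s.image (g : Equiv.Perm GolayPt) := fun _ _ => rfl
  have horb : MulAction.orbit M24 o = octads := by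
    ext s
    constructor
    · rintro ⟨g, rfl⟩
      exact (H32.Octad.image_mem_octads g.2).2 ho
    · intro hs
      obtain ⟨g, hg, h⟩ := H8.M24Trans.octad_trans ho hs
      exact ⟨⟨g, hg⟩, h⟩
  refine H32.M24Kit.isCoatom_of_suborbits o (k := 3)
    (fun i => {s | s ∈ octads ∧ (o ∩ s).card = (![0, 2, 4] : Fin 3 → ℕ) i}) ![30, 448, 280] 759
    (by rw [horb, H8.GolayBasic.octads_ncard]) (by norm_num) ?_ ?_ ?_ ?_ ?_ (by decide)
  · rintro i s ⟨hs, hs'⟩ t ⟨ht, ht'⟩
    obtain ⟨g, hg, h1, h2⟩ := H32.OctadOrb.octad_pair_trans ho hs ht (hs'.trans ht'.symm)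
    exact ⟨⟨g, hg⟩, h1, h2⟩
  · intro i
    fin_cases i
    · exact H32.Octad.ncard_disjoint ho
    · exact H32.Octad.ncard_two ho
    · exact H32.Octad.ncard_four ho
  · rintro i ⟨_, h⟩
    rw [Finset.inter_self, show o.card = 8 from ho.2] at h
    fin_cases i <;> simp at h
  · intro i j hij
    rw [Set.disjoint_left]
    rintro s ⟨_, h1⟩ ⟨_, h2⟩
    apply hij
    rw [h1] at h2
    clear h1 hij
    revert i j
    decide
  · rw [horb]
    ext s
    simp only [Set.mem_union, Set.mem_singleton_iff, Set.mem_iUnion, Set.mem_setOf_eq]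
    constructor
    · intro hs
      by_cases h : s = o
      · exact Or.inl h
      · right
        rcases H9.Steiner24.inter_card H8.GolayCode.card_pt H8.GolayBasic.octads_steiner ho hs
          (Ne.symm h) with h | h | h
        · exact ⟨0, hs, h⟩
        · exact ⟨1, hs, h⟩
        · exact ⟨2, hs, h⟩
    · rintro (rfl | ⟨i, hs, _⟩)
      · exact ho
      · exact hs


end Cfsg.Agent.S1565
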