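import Cfsg.Statements.S1566
import Cfsg.Agent.Lib.H32.Dodecad

set_option autoImplicit false
open scoped Pointwise
open Cfsg

namespace Cfsg.Agent.S1566

/-- The setwise stabiliser of a dodecad together with its complement is a maximal proper subgroup of the group of the length-24 code. -/
theorem result (d : Finset Cfsg.GolayPt) (hd : d ∈ Cfsg.dodecads) : IsCoatom (MulAction.stabilizer Cfsg.M24 ({d, dᶜ} : Finset (Finset Cfsg.GolayPt))) := by
  classical
  let F : Finset GolayPt → Finset (Finset GolayPt) := fun e => {e, eᶜ}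
  have hFc : ∀ e, F eᶜ = F e := fun e => by
    show ({eᶜ, eᶜᶜ} : Finset (Finset GolayPt)) = {e, eᶜ}
    rw [compl_compl, Finset.pair_comm]
  have hFeq : ∀ e f, F e = F f → e = f ∨ e = fᶜ := by
    intro e f h
    have : e ∈ F f := by rw [← h]; exact Finset.mem_insert_self _ _
    simpa [F] using this
  have hsm : ∀ (g : M24) (e : Finset GolayPt), g • F e = F (e.image (g : Equiv.Perm GolayPt)) := by
    intro g e
    show (F e).image (fun t => t.image (g : Equiv.Perm GolayPt)) = F (e.image (g : Equiv.Perm GolayPt))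
    simp only [F, Finset.image_insert, Finset.image_singleton, H32.Octad.image_compl]
  have horb : MulAction.orbit M24 (F d) = F '' Cfsg.dodecads := by
    ext t
    constructor
    · rintro ⟨g, rfl⟩
      exact ⟨d.image (g : Equiv.Perm GolayPt), (H32.Octad.image_mem_dodecads g.2).2 hd, (hsm g d).symm⟩
    · rintro ⟨e, he, rfl⟩
      obtain ⟨g, hg, h⟩ := H8.M24Trans.dodecad_trans hd he
      exact ⟨⟨g, hg⟩, by
        show (⟨g, hg⟩ : M24) • F d = F e
        rw [hsm, h]⟩
  have hne : ∀ e ∈ Cfsg.dodecads, e ≠ eᶜ := by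
    intro e he h
    have h1 : (e ∩ eᶜ).card = 0 := by rw [Finset.inter_compl]; simp
    rw [← h, Finset.inter_self, show e.card = 12 from he.2] at h1
    omega
  -- two-to-one counting
  have htwo : ∀ (A : Set (Finset GolayPt)), A ⊆ Cfsg.dodecads → (∀ e ∈ A, eᶜ ∈ A) → (F '' A).ncard * 2 = A.ncard := by
    intro A hA hAc
    have hfin : A.Finite := Set.toFinite A
    have h1 := Finset.card_eq_sum_card_image F hfin.toFinset
    rw [Finset.sum_const_nat (m := 2)] at h1
    · rw [← Set.ncard_coe_finset, ← Set.ncard_coe_finset, Finset.coe_image, Set.Finite.coe_toFinset] at h1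
      exact h1.symm
    · intro b hb
      rw [Finset.mem_image] at hb
      obtain ⟨e, he, rfl⟩ := hb
      rw [Set.Finite.mem_toFinset] at he
      have : (hfin.toFinset.filter fun a => F a = F e) = {e, eᶜ} := by
        ext a
        rw [Finset.mem_filter, Set.Finite.mem_toFinset, Finset.mem_insert, Finset.mem_singleton]
        constructor
        · rintro ⟨_, h⟩; exact hFeq _ _ h
        · rintro (rfl | rfl)
          · exact ⟨he, rfl⟩
          · exact ⟨hAc _ he, hFc _⟩
      rw [this, Finset.card_pair (hne e (hA he))]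
  have hN : (MulAction.orbit M24 (F d)).ncard = 1288 := by
    have := htwo Cfsg.dodecads (le_refl _) (fun e he => H32.Dodecad.compl_mem_dodecads he)
    rw [H8.GolayBasic.dodecads_ncard] at this
    rw [horb]; omega
  -- the two nontrivial suborbits
  let A4 : Set (Finset GolayPt) := {e | e ∈ Cfsg.dodecads ∧ (d ∩ e).card = 4}
  let A6 : Set (Finset GolayPt) := {e | e ∈ Cfsg.dodecads ∧ (d ∩ e).card = 6}
  let A8 : Set (Finset GolayPt) := {e | e ∈ Cfsg.dodecads ∧ (d ∩ e).card = 8}
  have hF4 : (F '' A4).ncard = 495 := by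
    rw [Set.ncard_image_of_injOn]
    · exact H32.Dodecad.ncard_dod hd 4 495 H32.Dodecad.cnt4
    · rintro e ⟨he, he4⟩ f ⟨hf, hf4⟩ h
      rcases hFeq e f h with h | h
      · exact h
      · exfalso
        have := H32.Dodecad.card_inter_compl (e := f) hd
        rw [← h, he4, hf4] at this
        omega
  have hF6 : (F '' A6).ncard = 792 := by
    have := htwo A6 (fun e he => he.1) (by
      rintro e ⟨he, he6⟩
      refine ⟨H32.Dodecad.compl_mem_dodecads he, ?_⟩
      have := H32.Dodecad.card_inter_compl (e := e) hd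
      omega)
    have h6 : A6.ncard = 1584 := H32.Dodecad.ncard_dod hd 6 1584 H32.Dodecad.cnt6
    omega
  show IsCoatom (MulAction.stabilizer M24 (F d))
  refine H32.M24Kit.isCoatom_of_suborbits (F d) (k := 2) ![F '' A4, F '' A6] ![495, 792] 1288
    hN (by norm_num) ?_ ?_ ?_ ?_ ?_ (by decide)
  · have key : ∀ k, ∀ e f : Finset GolayPt, e ∈ Cfsg.dodecads ∧ (d ∩ e).card = k →
        f ∈ Cfsg.dodecads ∧ (d ∩ f).card = k → ∃ g ∈ MulAction.stabilizer M24 (F d), g • F e = F f := by
      rintro k e f ⟨he, hk⟩ ⟨hf, hk'⟩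
      obtain ⟨g, hg, h1, h2⟩ := H32.Dodecad.dodecad_pair_trans hd he hf (hk.trans hk'.symm)
      refine ⟨⟨g, hg⟩, ?_, ?_⟩
      · show (⟨g, hg⟩ : M24) • F d = F d
        rw [hsm, h1]
      · rw [hsm, h2]
    intro i
    fin_cases i
    · rintro _ ⟨e, he, rfl⟩ _ ⟨f, hf, rfl⟩
      exact key 4 e f he hf
    · rintro _ ⟨e, he, rfl⟩ _ ⟨f, hf, rfl⟩
      exact key 6 e f he hf
  · intro i
    fin_cases i
    · exact hF4
    · exact hF6
  · have key : ∀ k, k ≠ 0 → k ≠ 12 → ∀ e, e ∈ Cfsg.dodecads ∧ (d ∩ e).card = k → F e ≠ F d := by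
      rintro k h0 h12 e ⟨he, hk⟩ h
      rcases hFeq e d h with rfl | rfl
      · rw [Finset.inter_self, show e.card = 12 from he.2] at hk; exact h12 hk.symm
      · rw [Finset.inter_compl, Finset.card_empty] at hk; exact h0 hk.symm
    intro i
    fin_cases i
    · rintro ⟨e, he, h⟩
      exact key 4 (by norm_num) (by norm_num) e he h
    · rintro ⟨e, he, h⟩
      exact key 6 (by norm_num) (by norm_num) e he h
  · have key : Disjoint (F '' A4) (F '' A6) := by
      rw [Set.disjoint_left]
      rintro _ ⟨e, ⟨he, he4⟩, rfl⟩ ⟨f, ⟨hf, hf6⟩, h⟩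
      rcases hFeq f e h with rfl | rfl
      · omega
      · have := H32.Dodecad.card_inter_compl (e := e) hd
        omega
    intro i j hij
    fin_cases i <;> fin_cases j
    · exact absurd rfl hij
    · exact key
    · exact key.symm
    · exact absurd rfl hij
  · rw [horb]
    ext t
    simp only [Set.mem_union, Set.mem_singleton_iff, Set.mem_iUnion]
    constructor
    · rintro ⟨e, he, rfl⟩
      rcases H32.Dodecad.meet_cases hd he with h | h | h | h | h
      · left
        rw [H32.Dodecad.eq_compl_of_card0 hd he h, hFc]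
      · exact Or.inr ⟨0, e, ⟨he, h⟩, rfl⟩
      · exact Or.inr ⟨1, e, ⟨he, h⟩, rfl⟩
      · refine Or.inr ⟨0, eᶜ, ⟨H32.Dodecad.compl_mem_dodecads he, ?_⟩, hFc e⟩
        have := H32.Dodecad.card_inter_compl (e := e) hd
        omega
      · left
        rw [H32.Dodecad.eq_of_card12 hd he h]
    · rintro (rfl | ⟨i, ht⟩)
      · exact ⟨d, hd, rfl⟩
      · fin_cases i
        · obtain ⟨e, he, rfl⟩ := ht
          exact ⟨e, he.1, rfl⟩
        · obtain ⟨e, he, rfl⟩ := ht
          exact ⟨e, he.1, rfl⟩


end Cfsg.Agent.S1566
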