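import Cfsg.Statements.S1569
import Cfsg.Agent.Lib.H9.LeechGood
-- import your own Cfsg.Agent.* helpers here

set_option autoImplicit false
open scoped Pointwise
open Cfsg

namespace Cfsg.Agent.S1569

/-- The cross through a lattice vector of customary norm 8 has exactly 48 members. -/
theorem result (x : Cfsg.GolayPt → ℤ) (hx : x ∈ Cfsg.leechLattice) (hxn : Cfsg.sqNorm x = 64) : (Cfsg.cross x).ncard = 48 := by
  have h8 : H9.LeechGood.form ⟨x, hx⟩ ⟨x, hx⟩ = 8 := by
    have := H9.LeechGood.eight_form_self ⟨x, hx⟩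
    rw [hxn] at this
    omega
  rw [← H9.ModTwo.cross_ncard H9.LeechGood.good h8,
    ← Set.ncard_image_of_injective _ (Subtype.val_injective (p := fun x => x ∈ leechLattice))]
  congr 1
  ext y
  simp only [cross, Set.mem_image, Set.mem_setOf_eq]
  constructor
  · rintro ⟨hy, hn, z, hz, h⟩
    refine ⟨⟨y, hy⟩, ⟨?_, ⟨z, hz⟩, Subtype.ext h⟩, rfl⟩
    have := H9.LeechGood.eight_form_self ⟨y, hy⟩
    rw [hn, hxn] at this
    omega
  · rintro ⟨y, ⟨h1, z, hz⟩, rfl⟩
    refine ⟨y.2, ?_, z, z.2, congrArg Subtype.val hz⟩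
    rw [hxn, ← H9.LeechGood.eight_form_self, h1]; norm_num

end Cfsg.Agent.S1569
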