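import Cfsg.Statements.S1575
import Cfsg.Agent.Lib.H33.Leech4

set_option autoImplicit false

open Cfsg

namespace Cfsg.Agent.S1575

/-- The stabiliser of a minimal vector is transitive on the minimal vectors of customary inner product −1 with it. -/
theorem result (v w w' : ↥Cfsg.leechLattice) (hv : Cfsg.sqNorm (v : Cfsg.GolayPt → ℤ) = 32) (hw : Cfsg.sqNorm (w : Cfsg.GolayPt → ℤ) = 32) (hw' : Cfsg.sqNorm (w' : Cfsg.GolayPt → ℤ) = 32) (hd : Cfsg.dotInt (v : Cfsg.GolayPt → ℤ) (w : Cfsg.GolayPt → ℤ) = -8) (hd' : Cfsg.dotInt (v : Cfsg.GolayPt → ℤ) (w' : Cfsg.GolayPt → ℤ) = -8) : ∃ g : ↥Cfsg.Co0, g • v = v ∧ g • w = w' := by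
  obtain ⟨g, h1, h2⟩ := H33.Leech4.pairC hv hw hd
  obtain ⟨g', h1', h2'⟩ := H33.Leech4.pairC hv hw' hd'
  refine ⟨g'⁻¹ * g, ?_, ?_⟩
  · rw [mul_smul, h1, inv_smul_eq_iff, h1']
  · rw [mul_smul, h2, inv_smul_eq_iff, h2']

end Cfsg.Agent.S1575
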