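import Cfsg.Statements.S1577
import Cfsg.Agent.Lib.H86.U62D
import Cfsg.Agent.Lib.H86.CoStab
import Cfsg.Agent.S0280

set_option autoImplicit false
open Cfsg

namespace Cfsg.Agent.S1577

open H86.UCode H86.CoSets H86.CoStab H9.CoMat H40.PermCode MulAction
open scoped Pointwise

/-- code of `(4, 4)` -/
noncomputable def eV : ℕ := 8 * ones + 4 + 4 <<< 368

/-- code of `(-4, 4)` -/
noncomputable def eW : ℕ := 8 * ones - 4 + 4 <<< 16

/-- the vector `(4, 4)` -/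
noncomputable def V : leechLattice := ⟨vec eV, inLat_spec (by decide +kernel)⟩

/-- the vector `(-4, 4)` -/
noncomputable def W : leechLattice := ⟨vec eW, inLat_spec (by decide +kernel)⟩

theorem hV : sqNorm (V : GolayPt → ℤ) = 32 := by
  show sqNorm (vec eV) = 32
  decide +kernel

theorem hW : sqNorm (W : GolayPt → ℤ) = 32 := by
  show sqNorm (vec eW) = 32
  decide +kernel

theorem hVW : dotInt (V : GolayPt → ℤ) (W : GolayPt → ℤ) = -16 := by
  show dotInt (vec eV) (vec eW) = -16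
  decide +kernel

/-- the standard stabiliser -/
noncomputable abbrev S : Subgroup Co0 := stabilizer Co0 V ⊓ stabilizer Co0 W

theorem mem {B C : List ℕ} (h : okM B C = true) (h1 : rowOK eV B eV = true) (h2 : rowOK eW B eW = true) : ofM B C h ∈ S := by
  refine ⟨?_, ?_⟩
  · exact (rep_ofM h).fix (wf_of_ok h) (v := V) rfl (by decide +kernel) h1
  · exact (rep_ofM h).fix (wf_of_ok h) (v := W) rfl (by decide +kernel) h2

theorem pair {v w v' w' : leechLattice} (hv : sqNorm (v : GolayPt → ℤ) = 32) (hw : sqNorm (w : GolayPt → ℤ) = 32)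
    (hd : dotInt (v : GolayPt → ℤ) (w : GolayPt → ℤ) = -16) (hv' : sqNorm (v' : GolayPt → ℤ) = 32)
    (hw' : sqNorm (w' : GolayPt → ℤ) = 32) (hd' : dotInt (v' : GolayPt → ℤ) (w' : GolayPt → ℤ) = -16) :
    ∃ g : Co0, g • v = v' ∧ g • w = w' := by
  obtain ⟨g, h1, h2⟩ := H33.Leech5.pairB hv hw hd
  obtain ⟨g', h1', h2'⟩ := H33.Leech5.pairB hv' hw' hd'
  exact ⟨g'⁻¹ * g, by rw [mul_smul, h1, inv_smul_eq_iff, h1'], by rw [mul_smul, h2, inv_smul_eq_iff, h2']⟩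

theorem card_S : Nat.card S ≤ 9196830720 := by
  refine card_inf_le (stabilizer Co0 V) W {w : leechLattice | sqNorm (w : GolayPt → ℤ) = 32 ∧ dotInt (V : GolayPt → ℤ) w = -16}
    (a := 42305421312000) (c := 4600) ?_ (H33.Leech14.N16 hV) (H9.CoOrder.card_stab32 hV) (by norm_num) (by norm_num)
  rintro w ⟨h1, h2⟩
  obtain ⟨g, hg1, hg2⟩ := pair hV hW hVW hV h1 h2
  exact ⟨g, hg1, hg2⟩

open H86.U62D in
/-- the generators -/
noncomputable def gs : ℕ → S := fun j =>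
  [(⟨ofM B0 C0 hO0, mem _ (by decide +kernel) (by decide +kernel)⟩ : S), ⟨ofM B1 C1 hO1, mem _ (by decide +kernel) (by decide +kernel)⟩,
    ⟨ofM B2 C2 hO2, mem _ (by decide +kernel) (by decide +kernel)⟩, ⟨ofM B3 C3 hO3, mem _ (by decide +kernel) (by decide +kernel)⟩,
    ⟨ofM B4 C4 hO4, mem _ (by decide +kernel) (by decide +kernel)⟩, ⟨ofM B5 C5 hO5, mem _ (by decide +kernel) (by decide +kernel)⟩].getD j 1

theorem smul_gs : ∀ j < 6, ∀ k < 693, gs j • XS 27 H86.U62D.yT H86.U62D.tT k = XS 27 H86.U62D.yT H86.U62D.tT (tab 16 (H86.U62D.piL.getD j 0) k) := by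
  intro j hj k hk
  interval_cases j
  · exact smul_XS H86.U62D.hY H86.U62D.hT (rep_ofM H86.U62D.hO0) (wf_of_ok H86.U62D.hO0) H86.U62D.hP0 H86.U62D.hS0 hk
  · exact smul_XS H86.U62D.hY H86.U62D.hT (rep_ofM H86.U62D.hO1) (wf_of_ok H86.U62D.hO1) H86.U62D.hP1 H86.U62D.hS1 hk
  · exact smul_XS H86.U62D.hY H86.U62D.hT (rep_ofM H86.U62D.hO2) (wf_of_ok H86.U62D.hO2) H86.U62D.hP2 H86.U62D.hS2 hk
  · exact smul_XS H86.U62D.hY H86.U62D.hT (rep_ofM H86.U62D.hO3) (wf_of_ok H86.U62D.hO3) H86.U62D.hP3 H86.U62D.hS3 hk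
  · exact smul_XS H86.U62D.hY H86.U62D.hT (rep_ofM H86.U62D.hO4) (wf_of_ok H86.U62D.hO4) H86.U62D.hP4 H86.U62D.hS4 hk
  · exact smul_XS H86.U62D.hY H86.U62D.hT (rep_ofM H86.U62D.hO5) (wf_of_ok H86.U62D.hO5) H86.U62D.hP5 H86.U62D.hS5 hk

theorem card_psu (K : Type) [Field K] [Fintype K] (hK : Fintype.card K = 2 ^ 2) : Nat.card (PSU 6 K 2) = 9196830720 := by
  have h := Cfsg.Agent.S0280.result (F := K) (q := 2) hK 6 (by norm_num)
  simp only [Finset.prod_range_succ, Finset.prod_range_zero] at h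
  rw [if_pos (by decide), if_neg (by decide), if_pos (by decide), if_neg (by decide), if_pos (by decide), if_neg (by decide)] at h
  have hg : Nat.gcd 6 (2 + 1) = 3 := by decide
  rw [hg] at h
  norm_num at h
  omega

/-- The joint stabiliser of two minimal vectors of customary inner product −2 is isomorphic to PSU(6, 2). -/
theorem result (v w : ↥Cfsg.leechLattice) (hv : Cfsg.sqNorm (v : Cfsg.GolayPt → ℤ) = 32) (hw : Cfsg.sqNorm (w : Cfsg.GolayPt → ℤ) = 32) (hd : Cfsg.dotInt (v : Cfsg.GolayPt → ℤ) (w : Cfsg.GolayPt → ℤ) = -16) (F : Type) [Field F] [Fintype F] (hF : Fintype.card F = 4) : Nonempty (↥(MulAction.stabilizer ↥Cfsg.Co0 v ⊓ MulAction.stabilizer ↥Cfsg.Co0 w) ≃* Cfsg.PSU 6 F 2) := by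
  obtain ⟨g, hg1, hg2⟩ := pair hv hw hd hV hW hVW
  obtain ⟨D⟩ := H86.UField.fd4 (F := F) hF
  obtain ⟨e⟩ := psu_codes D (n := 6) (by norm_num) (by norm_num) (S := S) 693 H86.U62D.wT H86.U62D.iT
    (XS 27 H86.U62D.yT H86.U62D.tT) H86.U62D.hC H86.U62D.hI (XS_inj H86.U62D.hY H86.U62D.hT) 6 (by norm_num) gs
    H86.U62D.ctrL H86.U62D.cL H86.U62D.piL H86.U62D.hG smul_gs H86.U62D.parT H86.U62D.labT H86.U62D.depT H86.U62D.hB H86.U62D.hK
    (by rw [card_psu F hF]; exact card_S)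
  exact ⟨(equiv2 hg1 hg2).trans e⟩

end Cfsg.Agent.S1577
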