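import Cfsg.Statements.S1579
import Cfsg.Agent.Lib.H33.Leech4

set_option autoImplicit false

open Cfsg

namespace Cfsg.Agent.S1579
open H33.Leech1 H33.Leech2 H33.Leech4 H9.LeechGood

theorem dot_of {u v : leechLattice} (hu : sqNorm (u : GolayPt → ℤ) = 48) (hv : sqNorm (v : GolayPt → ℤ) = 32)
    (h : sqNorm ((u - v) : GolayPt → ℤ) = 32) : dotInt (v : GolayPt → ℤ) ((u - v : leechLattice) : GolayPt → ℤ) = -8 := by
  have h1 : (u : GolayPt → ℤ) = v + (u - v) := by abel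
  have h2 := H9.Leech.sqNorm_add (v : GolayPt → ℤ) ((u : GolayPt → ℤ) - v)
  rw [← h1, hu, hv, h] at h2
  rw [AddSubgroup.coe_sub]
  linarith

/-- The stabiliser of a vector of customary norm 6 is transitive on the 552 minimal vectors that complete it to a sum of two minimal vectors. -/
theorem result (u v v' : ↥Cfsg.leechLattice) (hu : Cfsg.sqNorm (u : Cfsg.GolayPt → ℤ) = 48) (hv : Cfsg.sqNorm (v : Cfsg.GolayPt → ℤ) = 32 ∧ Cfsg.sqNorm ((u - v) : Cfsg.GolayPt → ℤ) = 32) (hv' : Cfsg.sqNorm (v' : Cfsg.GolayPt → ℤ) = 32 ∧ Cfsg.sqNorm ((u - v') : Cfsg.GolayPt → ℤ) = 32) : ∃ g : ↥Cfsg.Co0, g • u = u ∧ g • v = v' := by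
  obtain ⟨g, h1, h2⟩ := pairC hv.1 (w := u - v) (by rw [AddSubgroup.coe_sub]; exact hv.2) (dot_of hu hv.1 hv.2)
  obtain ⟨g', h1', h2'⟩ := pairC hv'.1 (w := u - v') (by rw [AddSubgroup.coe_sub]; exact hv'.2) (dot_of hu hv'.1 hv'.2)
  have h3 : g'⁻¹ • g • v = v' := by rw [h1, inv_smul_eq_iff, h1']
  have h4 : g'⁻¹ • g • (u - v) = u - v' := by rw [h2, inv_smul_eq_iff, h2']
  refine ⟨g'⁻¹ * g, ?_, ?_⟩
  · rw [mul_smul]
    have : g'⁻¹ • g • (v + (u - v)) = v' + (u - v') := by rw [co0_add, co0_add, h3, h4]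
    rwa [add_sub_cancel, add_sub_cancel] at this
  · rw [mul_smul, h3]

end Cfsg.Agent.S1579
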