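import Cfsg.Statements.S1581
import Cfsg.Agent.Lib.H33.Leech9

set_option autoImplicit false
open Cfsg

namespace Cfsg.Agent.S1581
open H33.Leech1 H33.Leech2 H33.Leech4 H33.Leech7 H33.Leech8 H33.Leech9 H9.LeechGood

/-- The McLaughlin group acts with rank 3 and subdegrees 1, 112, 162 on its 275 points: the point stabiliser has two orbits on the remaining points, distinguished by customary inner product 1 or 2 with the fixed point. -/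
theorem result (u v x : ↥Cfsg.leechLattice) (hu : Cfsg.sqNorm (u : Cfsg.GolayPt → ℤ) = 48) (hv : Cfsg.sqNorm (v : Cfsg.GolayPt → ℤ) = 32 ∧ Cfsg.sqNorm ((u - v) : Cfsg.GolayPt → ℤ) = 32) (hx : x ∈ {x : ↥Cfsg.leechLattice | Cfsg.sqNorm (x : Cfsg.GolayPt → ℤ) = 32 ∧ Cfsg.sqNorm ((u - x) : Cfsg.GolayPt → ℤ) = 32 ∧ Cfsg.dotInt (v : Cfsg.GolayPt → ℤ) (x : Cfsg.GolayPt → ℤ) = 16}) : {y : ↥Cfsg.leechLattice | y ∈ {x : ↥Cfsg.leechLattice | Cfsg.sqNorm (x : Cfsg.GolayPt → ℤ) = 32 ∧ Cfsg.sqNorm ((u - x) : Cfsg.GolayPt → ℤ) = 32 ∧ Cfsg.dotInt (v : Cfsg.GolayPt → ℤ) (x : Cfsg.GolayPt → ℤ) = 16} ∧ Cfsg.dotInt (x : Cfsg.GolayPt → ℤ) (y : Cfsg.GolayPt → ℤ) = 8}.ncard = 112 ∧ {y : ↥Cfsg.leechLattice | y ∈ {x : ↥Cfsg.leechLattice | Cfsg.sqNorm (x : Cfsg.GolayPt → ℤ) = 32 ∧ Cfsg.sqNorm ((u - x) : Cfsg.GolayPt → ℤ) = 32 ∧ Cfsg.dotInt (v : Cfsg.GolayPt → ℤ) (x : Cfsg.GolayPt → ℤ) =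 16} ∧ y ≠ x ∧ Cfsg.dotInt (x : Cfsg.GolayPt → ℤ) (y : Cfsg.GolayPt → ℤ) = 16}.ncard = 162 ∧ ∀ y ∈ {x : ↥Cfsg.leechLattice | Cfsg.sqNorm (x : Cfsg.GolayPt → ℤ) = 32 ∧ Cfsg.sqNorm ((u - x) : Cfsg.GolayPt → ℤ) = 32 ∧ Cfsg.dotInt (v : Cfsg.GolayPt → ℤ) (x : Cfsg.GolayPt → ℤ) = 16}, ∀ y' ∈ {x : ↥Cfsg.leechLattice | Cfsg.sqNorm (x : Cfsg.GolayPt → ℤ) = 32 ∧ Cfsg.sqNorm ((u - x) : Cfsg.GolayPt → ℤ) = 32 ∧ Cfsg.dotInt (v : Cfsg.GolayPt → ℤ) (x : Cfsg.GolayPt → ℤ) = 16}, y ≠ x → y' ≠ x → Cfsg.dotInt (x : Cfsg.GolayPt → ℤ) (y : Cfsg.GolayPt → ℤ) = Cfsg.dotInt (x : Cfsg.GolayPt → ℤ) (y' : Cfsg.GolayPt → ℤ) → ∃ g : ↥Cfsg.Co0, g • u = u ∧ g • v = v ∧ g • x = x ∧ g • y = y' := by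
  obtain ⟨g0, h01, h02, h03⟩ := toM hu hv
  obtain ⟨g1, h11, h12, h13⟩ := tripleM ((h03 x).1 hx)
  set g := g1 * g0 with hg
  have h1 : g • v = A := by rw [hg, mul_smul, h01, h11]
  have h2 : g • (u - v) = W0 := by rw [hg, mul_smul, h02, h12]
  have hgx : g • x = X0 := by rw [hg, mul_smul, h13]
  have h3 : ∀ y : leechLattice, (sqNorm (y : GolayPt → ℤ) = 32 ∧
      sqNorm ((u - y) : GolayPt → ℤ) = 32 ∧ dotInt (v : GolayPt → ℤ) (y : GolayPt → ℤ) = 16) ↔ InM (g • y) := by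
    intro y
    rw [h03 y]
    constructor
    · intro h
      rw [hg, mul_smul]
      exact h.smul h11 h12
    · intro h
      have : g0 • y = g1⁻¹ • (g • y) := by rw [hg, mul_smul, inv_smul_smul]
      rw [this]
      exact h.smul (by rw [inv_smul_eq_iff, h11]) (by rw [inv_smul_eq_iff, h12])
  have hdot : ∀ y : leechLattice, dotInt (X0 : GolayPt → ℤ) ((g • y : leechLattice) : GolayPt → ℤ) =
      dotInt (x : GolayPt → ℤ) y := by
    intro y; rw [← hgx, co0_dot]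
  have hself : dotInt (X0 : GolayPt → ℤ) (X0 : GolayPt → ℤ) = 32 := by
    rw [dot_self]; unfold X0; rw [norm_E QR]; norm_num
  refine ⟨?_, ?_, ?_⟩
  · rw [ncard_smul g _ {y | InM y ∧ dotInt (X0 : GolayPt → ℤ) y = 8}]
    · exact count112
    · intro y
      show (_ ∧ _) ↔ (_ ∧ _)
      rw [hdot, ← h3 y]
      exact Iff.rfl
  · rw [ncard_smul g _ {y | InM y ∧ dotInt (X0 : GolayPt → ℤ) y = 16}]
    · exact count162
    · intro y
      show (_ ∧ _ ∧ _) ↔ (_ ∧ _)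
      rw [hdot, ← h3 y]
      constructor
      · rintro ⟨a, -, b⟩; exact ⟨a, b⟩
      · rintro ⟨a, b⟩
        refine ⟨a, ?_, b⟩
        rintro rfl
        rw [← hdot, hgx, hself] at b
        exact absurd b (by norm_num)
  · intro y hy y' hy' hne hne' hyy
    have hy1 := (h3 y).1 hy
    have hy1' := (h3 y').1 hy'
    have hn1 : g • y ≠ X0 := by rw [← hgx]; exact fun h => hne (smul_left_cancel g h)
    have hn1' : g • y' ≠ X0 := by rw [← hgx]; exact fun h => hne' (smul_left_cancel g h)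
    have key : ∃ k : Co0, k • A = A ∧ k • W0 = W0 ∧ k • X0 = X0 ∧ k • (g • y) = g • y' := by
      rcases dotM hy1 hn1 with h | h
      · obtain ⟨k, k1, k2, k3, k4⟩ := quad8 hy1 h
        obtain ⟨k', k1', k2', k3', k4'⟩ := quad8 hy1' (by rw [hdot, ← hyy, ← hdot, h])
        exact ⟨k'⁻¹ * k, by rw [mul_smul, k1, inv_smul_eq_iff, k1'], by rw [mul_smul, k2, inv_smul_eq_iff, k2'],
          by rw [mul_smul, k3, inv_smul_eq_iff, k3'], by rw [mul_smul, k4, inv_smul_eq_iff, k4']⟩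
      · obtain ⟨k, k1, k2, k3, k4⟩ := quad16 hy1 hn1 h
        obtain ⟨k', k1', k2', k3', k4'⟩ := quad16 hy1' hn1' (by rw [hdot, ← hyy, ← hdot, h])
        exact ⟨k'⁻¹ * k, by rw [mul_smul, k1, inv_smul_eq_iff, k1'], by rw [mul_smul, k2, inv_smul_eq_iff, k2'],
          by rw [mul_smul, k3, inv_smul_eq_iff, k3'], by rw [mul_smul, k4, inv_smul_eq_iff, k4']⟩
    obtain ⟨k, k1, k2, k3, k4⟩ := key
    have hv' : (g⁻¹ * k * g) • v = v := by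
      rw [mul_smul, mul_smul, h1, k1, inv_smul_eq_iff, h1]
    have hw' : (g⁻¹ * k * g) • (u - v) = u - v := by
      rw [mul_smul, mul_smul, h2, k2, inv_smul_eq_iff, h2]
    refine ⟨g⁻¹ * k * g, ?_, hv', ?_, ?_⟩
    · have := fix_u (g := g⁻¹ * k * g) (g' := 1) (u := u) (v := v) (by rw [hv', one_smul]) (by rw [hw', one_smul])
      rw [one_smul] at this
      exact this
    · rw [mul_smul, mul_smul, hgx, k3, inv_smul_eq_iff, hgx]
    · rw [mul_smul, mul_smul, k4, inv_smul_smul]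

end Cfsg.Agent.S1581
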