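import Cfsg.Statements.S1583
import Cfsg.Agent.Lib.H33.Leech12

set_option autoImplicit false
open Cfsg

namespace Cfsg.Agent.S1583
open H33.Leech1 H33.Leech2 H33.Leech4 H33.Leech7 H33.Leech8 H33.Leech11 H33.Leech12 H9.LeechGood

/-- The Higman–Sims configuration: for two vectors of customary norm 6 with inner product −4, exactly 100 minimal vectors have customary inner products 3 and −3 with them, and the joint stabiliser permutes these transitively. -/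
theorem result (v w : ↥Cfsg.leechLattice) (hv : Cfsg.sqNorm (v : Cfsg.GolayPt → ℤ) = 48) (hw : Cfsg.sqNorm (w : Cfsg.GolayPt → ℤ) = 48) (hvw : Cfsg.dotInt (v : Cfsg.GolayPt → ℤ) (w : Cfsg.GolayPt → ℤ) = -32) : {x : ↥Cfsg.leechLattice | Cfsg.sqNorm (x : Cfsg.GolayPt → ℤ) = 32 ∧ Cfsg.dotInt (v : Cfsg.GolayPt → ℤ) (x : Cfsg.GolayPt → ℤ) = 24 ∧ Cfsg.dotInt (w : Cfsg.GolayPt → ℤ) (x : Cfsg.GolayPt → ℤ) = -24}.ncard = 100 ∧ ∀ x ∈ {x : ↥Cfsg.leechLattice | Cfsg.sqNorm (x : Cfsg.GolayPt → ℤ) = 32 ∧ Cfsg.dotInt (v : Cfsg.GolayPt → ℤ) (x : Cfsg.GolayPt → ℤ) = 24 ∧ Cfsg.dotInt (w : Cfsg.GolayPt → ℤ) (x : Cfsg.GolayPt → ℤ) = -24}, ∀ x' ∈ {x : ↥Cfsg.leechLattice | Cfsg.sqNorm (x : Cfsg.GolayPt → ℤ) = 32 ∧ Cfsg.dotInt (v : Cfsg.GolayPt → ℤ) (x : Cfsg.GolayPt → ℤ) = 24 ∧ Cfsg.dotInt (w : Cfsg.GolayPt → ℤ) (x : Cfsg.GolayPt → ℤ) = -24}, ∃ g : ↥Cfsg.Co0,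 g • v = v ∧ g • w = w ∧ g • x = x' := by
  have h : PairH v w := ⟨hv, hw, hvw⟩
  obtain ⟨x0, hx0⟩ := exists_pt h
  obtain ⟨g, -, h1, h2⟩ := tripleH h hx0
  refine ⟨?_, ?_⟩
  · refine (ncard_smul g _ {x | InH x} ?_).trans count100
    intro x
    rw [Set.mem_ofPred_eq, Set.mem_ofPred_eq, ← InH_iff h1 h2 x]
    exact ⟨fun hx => ⟨hx.1, hx.2.1, hx.2.2⟩, fun hx => ⟨hx.n, hx.dv, hx.dw⟩⟩
  · intro x hx x' hx'
    obtain ⟨k, k1, k2, k3⟩ := tripleH h ⟨hx.1, hx.2.1, hx.2.2⟩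
    obtain ⟨k', k1', k2', k3'⟩ := tripleH h ⟨hx'.1, hx'.2.1, hx'.2.2⟩
    have e1 : (k'⁻¹ * k) • v = v := by rw [mul_smul, k3, inv_smul_eq_iff, k3']
    have e2 : (k'⁻¹ * k) • (v + w) = v + w := by rw [mul_smul, k2, inv_smul_eq_iff, k2']
    refine ⟨k'⁻¹ * k, e1, ?_, by rw [mul_smul, k1, inv_smul_eq_iff, k1']⟩
    have := fix_w (g := k'⁻¹ * k) (g' := 1) (v := v) (w := w) (by rw [e1, one_smul]) (by rw [e2, one_smul])
    rw [one_smul] at this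
    exact this

end Cfsg.Agent.S1583
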