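import Cfsg.Statements.S1584
import Cfsg.Agent.Lib.H33.Leech12

set_option autoImplicit false
open Cfsg

namespace Cfsg.Agent.S1584
open H33.Leech1 H33.Leech2 H33.Leech4 H33.Leech7 H33.Leech8 H33.Leech11 H33.Leech12 H9.LeechGood

/-- The Higman–Sims group acts with rank 3 and subdegrees 1, 22, 77 on its 100 points, the orbits of a point stabiliser being distinguished by customary inner product 1 with the fixed point. -/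
theorem result (v w x : ↥Cfsg.leechLattice) (hv : Cfsg.sqNorm (v : Cfsg.GolayPt → ℤ) = 48) (hw : Cfsg.sqNorm (w : Cfsg.GolayPt → ℤ) = 48) (hvw : Cfsg.dotInt (v : Cfsg.GolayPt → ℤ) (w : Cfsg.GolayPt → ℤ) = -32) (hx : x ∈ {x : ↥Cfsg.leechLattice | Cfsg.sqNorm (x : Cfsg.GolayPt → ℤ) = 32 ∧ Cfsg.dotInt (v : Cfsg.GolayPt → ℤ) (x : Cfsg.GolayPt → ℤ) = 24 ∧ Cfsg.dotInt (w : Cfsg.GolayPt → ℤ) (x : Cfsg.GolayPt → ℤ) = -24}) : {y : ↥Cfsg.leechLattice | y ∈ {x : ↥Cfsg.leechLattice | Cfsg.sqNorm (x : Cfsg.GolayPt → ℤ) = 32 ∧ Cfsg.dotInt (v : Cfsg.GolayPt → ℤ) (x : Cfsg.GolayPt → ℤ) = 24 ∧ Cfsg.dotInt (w : Cfsg.GolayPt → ℤ) (x : Cfsg.GolayPt → ℤ) = -24} ∧ Cfsg.dotInt (x : Cfsg.GolayPt → ℤ) (y : Cfsg.GolayPt → ℤ) = 8}.ncard = 22 ∧ {y : ↥Cfsg.leechLattice | y ∈ {x : ↥Cfsg.leechLattice | Cfsg.sqNorm (x : Cfsg.GolayPt → ℤ) = 32 ∧ Cfsg.dotInt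 (v : Cfsg.GolayPt → ℤ) (x : Cfsg.GolayPt → ℤ) = 24 ∧ Cfsg.dotInt (w : Cfsg.GolayPt → ℤ) (x : Cfsg.GolayPt → ℤ) = -24} ∧ y ≠ x ∧ Cfsg.dotInt (x : Cfsg.GolayPt → ℤ) (y : Cfsg.GolayPt → ℤ) ≠ 8}.ncard = 77 ∧ ∀ y ∈ {x : ↥Cfsg.leechLattice | Cfsg.sqNorm (x : Cfsg.GolayPt → ℤ) = 32 ∧ Cfsg.dotInt (v : Cfsg.GolayPt → ℤ) (x : Cfsg.GolayPt → ℤ) = 24 ∧ Cfsg.dotInt (w : Cfsg.GolayPt → ℤ) (x : Cfsg.GolayPt → ℤ) = -24}, ∀ y' ∈ {x : ↥Cfsg.leechLattice | Cfsg.sqNorm (x : Cfsg.GolayPt → ℤ) = 32 ∧ Cfsg.dotInt (v : Cfsg.GolayPt → ℤ) (x : Cfsg.GolayPt → ℤ) = 24 ∧ Cfsg.dotInt (w : Cfsg.GolayPt → ℤ) (x : Cfsg.GolayPt → ℤ) = -24}, y ≠ x → y' ≠ x → (Cfsg.dotInt (x : Cfsg.GolayPt → ℤ) (y : Cfsg.GolayPt → ℤ) = 8 ↔ Cfsg.dotInt (x : Cfsg.GolayPt → ℤ) (y' : Cfsg.GolayPt → ℤ) = 8) → ∃ g : ↥Cfsg.Co0, g • v = v ∧ g • w = w ∧ g • x = x ∧ g • y = y' := by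
  have h : PairH v w := ⟨hv, hw, hvw⟩
  obtain ⟨g, hgx, h1, h2⟩ := tripleH h ⟨hx.1, hx.2.1, hx.2.2⟩
  have hdot : ∀ y : leechLattice, dotInt (A : GolayPt → ℤ) ((g • y : leechLattice) : GolayPt → ℤ) =
      dotInt (x : GolayPt → ℤ) y := by
    intro y; rw [← hgx, co0_dot]
  have hne : ∀ y : leechLattice, g • y ≠ A ↔ y ≠ x := by
    intro y; rw [← hgx, Ne, smul_left_cancel_iff]
  have hmem : ∀ y : leechLattice, (sqNorm (y : GolayPt → ℤ) = 32 ∧ dotInt (v : GolayPt → ℤ) (y : GolayPt → ℤ) = 24 ∧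
      dotInt (w : GolayPt → ℤ) (y : GolayPt → ℤ) = -24) ↔ InH (g • y) := by
    intro y
    rw [← InH_iff h1 h2 y]
    exact ⟨fun hx => ⟨hx.1, hx.2.1, hx.2.2⟩, fun hx => ⟨hx.n, hx.dv, hx.dw⟩⟩
  refine ⟨?_, ?_, ?_⟩
  · refine (ncard_smul g _ {x | InH x ∧ dotInt (A : GolayPt → ℤ) x = 8} ?_).trans count22
    intro y
    show (_ ∧ _) ↔ (_ ∧ _)
    rw [hdot, ← hmem y]
    exact Iff.rfl
  · refine (ncard_smul g _ {x | InH x ∧ x ≠ A ∧ dotInt (A : GolayPt → ℤ) x ≠ 8} ?_).trans count77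
    intro y
    show (_ ∧ _ ∧ _) ↔ (_ ∧ _ ∧ _)
    rw [hdot, ← hmem y, hne]
    exact Iff.rfl
  · intro y hy y' hy' hyx hyx' hiff
    have key : ∃ k : Co0, k • A = A ∧ k • B = B ∧ k • V5 = V5 ∧ k • (g • y) = g • y' := by
      have a1 := (hmem y).1 hy
      have a1' := (hmem y').1 hy'
      have a2 := (hne y).2 hyx
      have a2' := (hne y').2 hyx'
      by_cases hd : dotInt (x : GolayPt → ℤ) y = 8
      · obtain ⟨k, k1, k2, k3, k4⟩ := trans22 a1 (by rw [hdot, hd])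
        obtain ⟨k', k1', k2', k3', k4'⟩ := trans22 a1' (by rw [hdot, hiff.1 hd])
        exact ⟨k'⁻¹ * k, by rw [mul_smul, k1, inv_smul_eq_iff, k1'], by rw [mul_smul, k2, inv_smul_eq_iff, k2'],
          by rw [mul_smul, k3, inv_smul_eq_iff, k3'], by rw [mul_smul, k4, inv_smul_eq_iff, k4']⟩
      · obtain ⟨k, k1, k2, k3, k4⟩ := trans77 a1 a2 (by rw [hdot]; exact hd)
        obtain ⟨k', k1', k2', k3', k4'⟩ := trans77 a1' a2' (by rw [hdot]; exact fun hh => hd (hiff.2 hh))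
        exact ⟨k'⁻¹ * k, by rw [mul_smul, k1, inv_smul_eq_iff, k1'], by rw [mul_smul, k2, inv_smul_eq_iff, k2'],
          by rw [mul_smul, k3, inv_smul_eq_iff, k3'], by rw [mul_smul, k4, inv_smul_eq_iff, k4']⟩
    obtain ⟨k, k1, k2, k3, k4⟩ := key
    have e1 : (g⁻¹ * k * g) • v = v := by rw [mul_smul, mul_smul, h2, k3, inv_smul_eq_iff, h2]
    have e2 : (g⁻¹ * k * g) • (v + w) = v + w := by rw [mul_smul, mul_smul, h1, k2, inv_smul_eq_iff, h1]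
    refine ⟨g⁻¹ * k * g, e1, ?_, by rw [mul_smul, mul_smul, hgx, k1, inv_smul_eq_iff, hgx],
      by rw [mul_smul, mul_smul, k4, inv_smul_smul]⟩
    have := fix_w (g := g⁻¹ * k * g) (g' := 1) (v := v) (w := w) (by rw [e1, one_smul]) (by rw [e2, one_smul])
    rw [one_smul] at this
    exact this

end Cfsg.Agent.S1584
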