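import Cfsg.Statements.S1585
import Cfsg.Agent.Lib.H33.Leech12

set_option autoImplicit false
open Cfsg

namespace Cfsg.Agent.S1585
open H33.Leech1 H33.Leech2 H33.Leech4 H33.Leech7 H33.Leech8 H33.Leech11 H33.Leech12 H9.LeechGood

/-- Two vectors of customary norm 6 with inner product −4 are exchanged by some automorphism of the lattice. -/
theorem result (v w : ↥Cfsg.leechLattice) (hv : Cfsg.sqNorm (v : Cfsg.GolayPt → ℤ) = 48) (hw : Cfsg.sqNorm (w : Cfsg.GolayPt → ℤ) = 48) (hvw : Cfsg.dotInt (v : Cfsg.GolayPt → ℤ) (w : Cfsg.GolayPt → ℤ) = -32) : ∃ g : ↥Cfsg.Co0, g • v = w ∧ g • w = v := by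
  have h : PairH v w := ⟨hv, hw, hvw⟩
  obtain ⟨x0, hx0⟩ := exists_pt h
  obtain ⟨g, -, h1, h2⟩ := tripleH h hx0
  obtain ⟨σ, hσ, hσl⟩ := trans_list [P, Q] [Q, P] (by simp [PQ]) (by simp [PQ.symm]) rfl (by simp)
  simp only [List.map_cons, List.map_nil, List.cons.injEq, and_true] at hσl
  obtain ⟨hσP, hσQ⟩ := hσl
  have hσP' : σ.symm P = Q := by rw [Equiv.symm_apply_eq]; exact hσQ.symm
  have hσQ' : σ.symm Q = P := by rw [Equiv.symm_apply_eq]; exact hσP.symm
  -- the swap composed with -1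
  set k : Co0 := negOne * pm σ hσ with hk
  have hkB : k • B = B := by
    rw [hk, mul_smul, negOne_smul]
    apply Subtype.ext
    rw [AddSubgroup.coe_neg, coe_pm, coe_B]
    funext i
    rw [Pi.neg_apply, Function.comp_apply, Pi.add_apply, Pi.add_apply]
    simp only [Pi.single_apply]
    by_cases hiP : i = P
    · subst hiP; rw [hσP']; simp [PQ, PQ.symm]
    · by_cases hiQ : i = Q
      · subst hiQ; rw [hσQ']; simp [PQ, PQ.symm]
      · have n1 : σ.symm i ≠ P := fun hh => hiQ (by rw [← σ.apply_symm_apply i, hh, hσP])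
        have n2 : σ.symm i ≠ Q := fun hh => hiP (by rw [← σ.apply_symm_apply i, hh, hσQ])
        rw [if_neg n1, if_neg n2, if_neg hiP, if_neg hiQ]; norm_num
  have hkV : k • V5 = B - V5 := by
    rw [hk, mul_smul, negOne_smul]
    apply Subtype.ext
    rw [AddSubgroup.coe_neg, AddSubgroup.coe_sub, coe_pm, coe_B]
    funext i
    rw [Pi.neg_apply, Function.comp_apply, Pi.sub_apply, Pi.add_apply, coe_V5, coe_V5]
    simp only [Pi.single_apply]
    by_cases hiP : i = P
    · subst hiP; rw [hσP']; simp [PQ, PQ.symm]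
    · by_cases hiQ : i = Q
      · subst hiQ; rw [hσQ']; simp [PQ.symm]
      · have n1 : σ.symm i ≠ P := fun hh => hiQ (by rw [← σ.apply_symm_apply i, hh, hσP])
        rw [if_neg n1, if_neg hiP, if_neg hiQ, if_neg hiP]; norm_num
  have hw' : g • w = B - V5 := by rw [← h1, ← h2, co0_add]; abel
  have e1 : (g⁻¹ * k * g) • v = w := by rw [mul_smul, mul_smul, h2, hkV, inv_smul_eq_iff, hw']
  refine ⟨g⁻¹ * k * g, e1, ?_⟩
  rw [mul_smul, mul_smul, hw', co0_sub, hkB, hkV, inv_smul_eq_iff, h2]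
  abel

end Cfsg.Agent.S1585
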