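import Cfsg.Statements.S1587

set_option autoImplicit false
open Matrix
open Cfsg

namespace Cfsg.Agent.S1587

/-- First step of the characterisation of the rank-24 lattice: in an even lattice without roots, norm-8 vectors congruent modulo 2 are equal, opposite or orthogonal. -/
theorem result (B : Matrix (Fin 24) (Fin 24) ℤ) (hsymm : B.IsSymm) (hpos : ∀ x : Fin 24 → ℤ, x ≠ 0 → 0 < x ⬝ᵥ (B *ᵥ x)) (heven : ∀ x : Fin 24 → ℤ, (2 : ℤ) ∣ x ⬝ᵥ (B *ᵥ x)) (h2 : ∀ x : Fin 24 → ℤ, x ⬝ᵥ (B *ᵥ x) ≠ 2) (x y : Fin 24 → ℤ) (hx : x ⬝ᵥ (B *ᵥ x) = 8) (hy : y ⬝ᵥ (B *ᵥ y) = 8) (hc : ∀ i, (2 : ℤ) ∣ (x - y) i) : y = x ∨ y = -x ∨ x ⬝ᵥ (B *ᵥ y) = 0 := by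
  have hsym : ∀ u v : Fin 24 → ℤ, u ⬝ᵥ (B *ᵥ v) = v ⬝ᵥ (B *ᵥ u) := by
    intro u v
    rw [Matrix.dotProduct_mulVec, ← Matrix.mulVec_transpose, hsymm.eq, dotProduct_comm]
  have hge : ∀ a : Fin 24 → ℤ, a ≠ 0 → 4 ≤ a ⬝ᵥ (B *ᵥ a) := by
    intro a ha
    have h1 := hpos a ha
    have h3 := heven a
    have h4 := h2 a
    omega
  by_cases h1 : y = x
  · exact Or.inl h1
  by_cases h1' : y = -x
  · exact Or.inr (Or.inl h1')
  right; right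
  choose a ha using hc
  have ha' : x - y = (2 : ℤ) • a := by
    funext i; rw [ha i]; rfl
  have hb' : x + y = (2 : ℤ) • (a + y) := by
    rw [smul_add, ← ha', two_smul]; abel
  have ha0 : a ≠ 0 := by
    rintro rfl
    apply h1
    rw [smul_zero, sub_eq_zero] at ha'
    exact ha'.symm
  have hb0 : a + y ≠ 0 := by
    intro h
    rw [h, smul_zero] at hb'
    exact h1' (eq_neg_of_add_eq_zero_right hb')
  have e1 : (x - y) ⬝ᵥ (B *ᵥ (x - y)) = 4 * (a ⬝ᵥ (B *ᵥ a)) := by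
    rw [ha']; simp only [Matrix.mulVec_smul, smul_dotProduct, dotProduct_smul, smul_eq_mul]; ring
  have e2 : (x + y) ⬝ᵥ (B *ᵥ (x + y)) = 4 * ((a + y) ⬝ᵥ (B *ᵥ (a + y))) := by
    rw [hb']; simp only [Matrix.mulVec_smul, smul_dotProduct, dotProduct_smul, smul_eq_mul]; ring
  have g1 := hge a ha0
  have g2 := hge (a + y) hb0
  have e3 : (x - y) ⬝ᵥ (B *ᵥ (x - y)) = 16 - 2 * (x ⬝ᵥ (B *ᵥ y)) := by
    simp only [Matrix.mulVec_sub, sub_dotProduct, dotProduct_sub]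
    rw [hx, hy, hsym y x]; ring
  have e4 : (x + y) ⬝ᵥ (B *ᵥ (x + y)) = 16 + 2 * (x ⬝ᵥ (B *ᵥ y)) := by
    simp only [Matrix.mulVec_add, add_dotProduct, dotProduct_add]
    rw [hx, hy, hsym y x]; ring
  omega

end Cfsg.Agent.S1587
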