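import Cfsg.Statements.S1588

set_option autoImplicit false
open Matrix
open Cfsg

namespace Cfsg.Agent.S1588

/-- reduction modulo 2 -/
def red (x : Fin 24 → ℤ) : Fin 24 → ZMod 2 := fun i => (x i : ZMod 2)

theorem red_eq_iff (x y : Fin 24 → ℤ) : red x = red y ↔ ∀ i, (2 : ℤ) ∣ (x - y) i := by
  constructor
  · intro h i
    have := congrFun h i
    simp only [red] at this
    rw [eq_comm, ZMod.intCast_eq_intCast_iff_dvd_sub] at this
    simpa using this
  · intro h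
    funext i
    simp only [red]
    rw [eq_comm, ZMod.intCast_eq_intCast_iff_dvd_sub]
    simpa using h i

section
variable (B : Matrix (Fin 24) (Fin 24) ℤ)

theorem sym_of (hsymm : B.IsSymm) (u v : Fin 24 → ℤ) : u ⬝ᵥ (B *ᵥ v) = v ⬝ᵥ (B *ᵥ u) := by
  rw [Matrix.dotProduct_mulVec, ← Matrix.mulVec_transpose, hsymm.eq, dotProduct_comm]

theorem key (hsymm : B.IsSymm) (hpos : ∀ x : Fin 24 → ℤ, x ≠ 0 → 0 < x ⬝ᵥ (B *ᵥ x))
    (heven : ∀ x : Fin 24 → ℤ, (2 : ℤ) ∣ x ⬝ᵥ (B *ᵥ x))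
    (h2 : ∀ x : Fin 24 → ℤ, x ⬝ᵥ (B *ᵥ x) ≠ 2) (x y : Fin 24 → ℤ)
    (hx : x ⬝ᵥ (B *ᵥ x) ≤ 8) (hy : y ⬝ᵥ (B *ᵥ y) ≤ 8) (hr : red x = red y)
    (h1 : y ≠ x) (h1' : y ≠ -x) :
    x ⬝ᵥ (B *ᵥ x) = 8 ∧ y ⬝ᵥ (B *ᵥ y) = 8 ∧ x ⬝ᵥ (B *ᵥ y) = 0 := by
  have hsym := sym_of B hsymm
  have hge : ∀ a : Fin 24 → ℤ, a ≠ 0 → 4 ≤ a ⬝ᵥ (B *ᵥ a) := by
    intro a ha
    have h1 := hpos a ha
    have h3 := heven a
    have h4 := h2 a
    omega
  have hc := (red_eq_iff x y).1 hr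
  choose a ha using hc
  have ha' : x - y = (2 : ℤ) • a := by
    funext i; rw [ha i]; rfl
  have hb' : x + y = (2 : ℤ) • (a + y) := by
    rw [smul_add, ← ha', two_smul]; abel
  have ha0 : a ≠ 0 := by
    rintro rfl
    apply h1
    rw [smul_zero, sub_eq_zero] at ha'
    exact ha'.symm
  have hb0 : a + y ≠ 0 := by
    intro h
    rw [h, smul_zero] at hb'
    exact h1' (eq_neg_of_add_eq_zero_right hb')
  have e1 : (x - y) ⬝ᵥ (B *ᵥ (x - y)) = 4 * (a ⬝ᵥ (B *ᵥ a)) := by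
    rw [ha']; simp only [Matrix.mulVec_smul, smul_dotProduct, dotProduct_smul, smul_eq_mul]; ring
  have e2 : (x + y) ⬝ᵥ (B *ᵥ (x + y)) = 4 * ((a + y) ⬝ᵥ (B *ᵥ (a + y))) := by
    rw [hb']; simp only [Matrix.mulVec_smul, smul_dotProduct, dotProduct_smul, smul_eq_mul]; ring
  have g1 := hge a ha0
  have g2 := hge (a + y) hb0
  have e3 : (x - y) ⬝ᵥ (B *ᵥ (x - y)) = x ⬝ᵥ (B *ᵥ x) + y ⬝ᵥ (B *ᵥ y) - 2 * (x ⬝ᵥ (B *ᵥ y)) := by
    simp only [Matrix.mulVec_sub, sub_dotProduct, dotProduct_sub]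
    rw [hsym y x]; ring
  have e4 : (x + y) ⬝ᵥ (B *ᵥ (x + y)) = x ⬝ᵥ (B *ᵥ x) + y ⬝ᵥ (B *ᵥ y) + 2 * (x ⬝ᵥ (B *ᵥ y)) := by
    simp only [Matrix.mulVec_add, add_dotProduct, dotProduct_add]
    rw [hsym y x]; ring
  omega

/-- a finite set of pairwise equal, opposite or orthogonal vectors of norm 8 has at most 48 elements -/
theorem card_le_48 (hsymm : B.IsSymm) (F : Finset (Fin 24 → ℤ))
    (hF : ∀ x ∈ F, x ⬝ᵥ (B *ᵥ x) = 8)
    (ho : ∀ x ∈ F, ∀ y ∈ F, y = x ∨ y = -x ∨ x ⬝ᵥ (B *ᵥ y) = 0) : F.card ≤ 48 := by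
  classical
  -- choose a representative of each pair
  let s : Set (Set (Fin 24 → ℤ)) := (fun x => ({x, -x} : Set (Fin 24 → ℤ))) '' (F : Set (Fin 24 → ℤ))
  let T : Finset (Set (Fin 24 → ℤ)) := F.image (fun x => ({x, -x} : Set (Fin 24 → ℤ)))
  have h1 : F.card ≤ 2 * T.card := by
    apply Finset.card_le_mul_card_image
    intro b hb
    obtain ⟨x, hx, rfl⟩ := Finset.mem_image.1 hb
    calc (F.filter fun y => ({y, -y} : Set (Fin 24 → ℤ)) = {x, -x}).card ≤ ({x, -x} : Finset (Fin 24 → ℤ)).card := by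
          apply Finset.card_le_card
          intro y hy
          rw [Finset.mem_filter] at hy
          have : y ∈ ({x, -x} : Set (Fin 24 → ℤ)) := by rw [← hy.2]; simp
          simpa using this
      _ ≤ 2 := Finset.card_le_two
  have h2 : T.card ≤ 24 := by
    have hch : ∀ t : T, ∃ x ∈ F, ({x, -x} : Set (Fin 24 → ℤ)) = t := by
      intro t
      obtain ⟨x, hx, h⟩ := Finset.mem_image.1 t.2
      exact ⟨x, hx, h⟩
    choose r hr hr' using hch
    have hli : LinearIndependent ℤ r := by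
      rw [Fintype.linearIndependent_iff]
      intro g hg j
      have h3 : r j ⬝ᵥ (B *ᵥ (∑ i, g i • r i)) = 0 := by rw [hg]; simp
      rw [Matrix.mulVec_sum, dotProduct_sum] at h3
      rw [Finset.sum_eq_single j] at h3
      · rw [Matrix.mulVec_smul, dotProduct_smul, hF _ (hr j), smul_eq_mul] at h3
        omega
      · intro i _ hij
        rw [Matrix.mulVec_smul, dotProduct_smul]
        rcases ho _ (hr j) _ (hr i) with h | h | h
        · exfalso; apply hij; apply Subtype.ext; rw [← hr' i, ← hr' j, h]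
        · exfalso; apply hij; apply Subtype.ext; rw [← hr' i, ← hr' j, h, neg_neg, Set.pair_comm]
        · rw [h, smul_zero]
      · intro h; exact absurd (Finset.mem_univ j) h
    have := hli.fintype_card_le_finrank
    simpa using this
  omega

end

/-- Second step of the characterisation: under the vector counts of the rank-24 lattice, the norm-8 vectors fall into congruence classes of exactly 48 modulo twice the lattice. -/
theorem result (B : Matrix (Fin 24) (Fin 24) ℤ) (hsymm : B.IsSymm) (hpos : ∀ x : Fin 24 → ℤ, x ≠ 0 → 0 < x ⬝ᵥ (B *ᵥ x)) (heven : ∀ x : Fin 24 → ℤ, (2 : ℤ) ∣ x ⬝ᵥ (B *ᵥ x)) (h2 : ∀ x : Fin 24 → ℤ, x ⬝ᵥ (B *ᵥ x) ≠ 2) (h4 : {x : Fin 24 → ℤ | x ⬝ᵥ (B *ᵥ x) = 4}.ncard = 196560) (h6 : {x : Fin 24 → ℤ | x ⬝ᵥ (B *ᵥ x) = 6}.ncard = 16773120) (h8 : {x : Fin 24 → ℤ | x ⬝ᵥ (B *ᵥ x) = 8}.ncard = 398034000) (x : Fin 24 → ℤ) (hx : x ⬝ᵥ (B *ᵥ x) = 8) : {y : Fin 24 → ℤ | y ⬝ᵥ (B *ᵥ y) = 8 ∧ ∀ i, (2 : ℤ)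 ∣ (x - y) i}.ncard = 48 := by
  classical
  have hkey := key B hsymm hpos heven h2
  have f4 : {x : Fin 24 → ℤ | x ⬝ᵥ (B *ᵥ x) = 4}.Finite := Set.finite_of_ncard_ne_zero (by rw [h4]; norm_num)
  have f6 : {x : Fin 24 → ℤ | x ⬝ᵥ (B *ᵥ x) = 6}.Finite := Set.finite_of_ncard_ne_zero (by rw [h6]; norm_num)
  have f8 : {x : Fin 24 → ℤ | x ⬝ᵥ (B *ᵥ x) = 8}.Finite := Set.finite_of_ncard_ne_zero (by rw [h8]; norm_num)
  set S4 := f4.toFinset with hS4
  set S6 := f6.toFinset with hS6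
  set S8 := f8.toFinset with hS8
  have m4 : ∀ y, y ∈ S4 ↔ y ⬝ᵥ (B *ᵥ y) = 4 := by intro y; simp [hS4]
  have m6 : ∀ y, y ∈ S6 ↔ y ⬝ᵥ (B *ᵥ y) = 6 := by intro y; simp [hS6]
  have m8 : ∀ y, y ∈ S8 ↔ y ⬝ᵥ (B *ᵥ y) = 8 := by intro y; simp [hS8]
  have c4 : S4.card = 196560 := by rw [← h4, Set.ncard_eq_toFinset_card _ f4]
  have c6 : S6.card = 16773120 := by rw [← h6, Set.ncard_eq_toFinset_card _ f6]
  have c8 : S8.card = 398034000 := by rw [← h8, Set.ncard_eq_toFinset_card _ f8]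
  have small : ∀ (n : ℤ) (S : Finset (Fin 24 → ℤ)), n < 8 → (∀ y ∈ S, y ⬝ᵥ (B *ᵥ y) = n) →
      S.card ≤ 2 * (S.image red).card := by
    intro n S hn hS
    apply Finset.card_le_mul_card_image
    intro b hb
    obtain ⟨z, hz, rfl⟩ := Finset.mem_image.1 hb
    calc (S.filter fun y => red y = red z).card ≤ ({z, -z} : Finset (Fin 24 → ℤ)).card := by
          apply Finset.card_le_card
          intro y hy
          rw [Finset.mem_filter] at hy
          by_contra hcon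
          simp only [Finset.mem_insert, Finset.mem_singleton, not_or] at hcon
          have := hkey z y (by rw [hS z hz]; omega) (by rw [hS y hy.1]; omega) hy.2.symm hcon.1 hcon.2
          rw [hS z hz] at this
          omega
      _ ≤ 2 := Finset.card_le_two
  have l4 := small 4 S4 (by norm_num) (fun y hy => (m4 y).1 hy)
  have l6 := small 6 S6 (by norm_num) (fun y hy => (m6 y).1 hy)
  have fib : ∀ b ∈ S8.image red, (S8.filter fun y => red y = b).card ≤ 48 := by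
    intro b hb
    apply card_le_48 B hsymm
    · intro y hy
      rw [Finset.mem_filter] at hy
      exact (m8 y).1 hy.1
    · intro y hy z hz
      rw [Finset.mem_filter] at hy hz
      by_cases e1 : z = y
      · exact Or.inl e1
      by_cases e2 : z = -y
      · exact Or.inr (Or.inl e2)
      right; right
      exact (hkey y z (by rw [(m8 y).1 hy.1]) (by rw [(m8 z).1 hz.1]) (hy.2.trans hz.2.symm) e1 e2).2.2
  have dis : ∀ (n m : ℤ) (S S' : Finset (Fin 24 → ℤ)), 0 < n → n < m → m ≤ 8 → (∀ y ∈ S, y ⬝ᵥ (B *ᵥ y) = n) →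
      (∀ y ∈ S', y ⬝ᵥ (B *ᵥ y) = m) → Disjoint (S.image red) (S'.image red) := by
    intro n m S S' hn hnm hm hS hS'
    rw [Finset.disjoint_left]
    intro b hb hb'
    obtain ⟨z, hz, rfl⟩ := Finset.mem_image.1 hb
    obtain ⟨y, hy, hyz⟩ := Finset.mem_image.1 hb'
    have hz1 := hS z hz
    have hy1 := hS' y hy
    have n1 : y ≠ z := by rintro rfl; omega
    have n2 : y ≠ -z := by
      rintro rfl
      simp only [Matrix.mulVec_neg, neg_dotProduct, dotProduct_neg, neg_neg] at hy1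
      omega
    have := hkey z y (by omega) (by omega) hyz.symm n1 n2
    omega
  have dis0 : ∀ (n : ℤ) (S : Finset (Fin 24 → ℤ)), 0 < n → n ≤ 8 → (∀ y ∈ S, y ⬝ᵥ (B *ᵥ y) = n) →
      (0 : Fin 24 → ZMod 2) ∉ S.image red := by
    intro n S hn hn8 hS hb
    obtain ⟨y, hy, hyz⟩ := Finset.mem_image.1 hb
    have hy1 := hS y hy
    have hr0 : red 0 = red y := by rw [hyz]; funext i; simp [red]
    have y0 : y ≠ 0 := by
      rintro rfl; simp at hy1; omega
    have := hkey 0 y (by simp) (by omega) hr0 y0 (by simpa using y0)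
    simp at this
  have htot : ({0} ∪ (S4.image red ∪ (S6.image red ∪ S8.image red)) : Finset (Fin 24 → ZMod 2)).card ≤ 2 ^ 24 := by
    refine (Finset.card_le_univ _).trans ?_
    simp [ZMod.card]
  rw [Finset.card_union_of_disjoint, Finset.card_union_of_disjoint, Finset.card_union_of_disjoint,
    Finset.card_singleton] at htot
  rotate_left
  · exact dis 6 8 S6 S8 (by norm_num) (by norm_num) (by norm_num) (fun y hy => (m6 y).1 hy) (fun y hy => (m8 y).1 hy)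
  · rw [Finset.disjoint_union_right]
    exact ⟨dis 4 6 S4 S6 (by norm_num) (by norm_num) (by norm_num) (fun y hy => (m4 y).1 hy) (fun y hy => (m6 y).1 hy),
      dis 4 8 S4 S8 (by norm_num) (by norm_num) (by norm_num) (fun y hy => (m4 y).1 hy) (fun y hy => (m8 y).1 hy)⟩
  · rw [Finset.disjoint_singleton_left]
    simp only [Finset.mem_union, not_or]
    exact ⟨dis0 4 S4 (by norm_num) (by norm_num) (fun y hy => (m4 y).1 hy),
      dis0 6 S6 (by norm_num) (by norm_num) (fun y hy => (m6 y).1 hy),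
      dis0 8 S8 (by norm_num) (by norm_num) (fun y hy => (m8 y).1 hy)⟩
  have hset : {y : Fin 24 → ℤ | y ⬝ᵥ (B *ᵥ y) = 8 ∧ ∀ i, (2 : ℤ) ∣ (x - y) i} =
      ((S8.filter fun y => red y = red x : Finset (Fin 24 → ℤ)) : Set (Fin 24 → ℤ)) := by
    ext y
    simp only [Set.mem_setOf_eq, Finset.coe_filter, m8]
    rw [← red_eq_iff, eq_comm (a := red x)]
  rw [hset, Set.ncard_coe_finset]
  have hxS : red x ∈ S8.image red := Finset.mem_image_of_mem _ ((m8 x).2 hx)
  apply le_antisymm (fib _ hxS)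
  by_contra hlt
  push_neg at hlt
  have hsum : S8.card < ∑ b ∈ S8.image red, 48 := by
    rw [Finset.card_eq_sum_card_image red S8]
    exact Finset.sum_lt_sum fib ⟨_, hxS, hlt⟩
  rw [Finset.sum_const, smul_eq_mul, c8] at hsum
  norm_num at htot
  omega

end Cfsg.Agent.S1588
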