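import Cfsg.Statements.S1591
import Cfsg.Agent.Lib.H33.Ternary

set_option autoImplicit false
open Cfsg

namespace Cfsg.Agent.S1591

open H33.Ternary in
/-- Any two words of the length-12 ternary code have dot product zero. -/
theorem result (x y : Cfsg.ArrayPt → ZMod 3) (hx : x ∈ Cfsg.ternaryGolayCode) (hy : y ∈ Cfsg.ternaryGolayCode) : ∑ p, x p * y p = 0 := by
  obtain ⟨c, rfl⟩ := (mem_code_iff x).1 hx
  obtain ⟨d, rfl⟩ := (mem_code_iff y).1 hy
  have h3 : (3 : ZMod 3) = 0 := by decide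
  rw [Fintype.sum_prod_type]
  simp only [sum_zmod3]
  rw [Fin.sum_univ_four]
  simp only [e00, e01, e02, e10, e11, e12, e20, e21, e22, e30, e31, e32]
  linear_combination ((2) * c 0 * d 0 + (2) * c 1 * d 1 + (2) * c 2 * d 2 + (2) * c 3 * d 3 + (2) * c 4 * d 4 + (2) * c 5 * d 5) * h3

end Cfsg.Agent.S1591
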