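import Cfsg.Statements.S1595
import Mathlib
import Cfsg.Agent.Lib.H9.Steiner

set_option autoImplicit false
open Cfsg

namespace Cfsg.Agent.S1595

open Finset H9.Steiner

variable {α : Type*} [Fintype α] [DecidableEq α] {B : Set (Finset α)}

/-- blocks meeting `b` exactly in `u` -/
noncomputable def M (B : Set (Finset α)) (b u : Finset α) : ℕ := ((blk B).filter fun c => b ∩ c = u).card

theorem N_eq (b s : Finset α) (hs : s ⊆ b) (hb : b.card = 6) :
    ((blk B).filter fun c => s ⊆ c).card =
      ∑ i ∈ range 7, ∑ u ∈ (powersetCard i b).filter (fun u => s ⊆ u), M B b u := by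
  have h1 : ((blk B).filter fun c => s ⊆ c).card =
      ∑ u ∈ b.powerset.filter (fun u => s ⊆ u), M B b u := by
    rw [card_eq_sum_card_fiberwise (f := fun c => b ∩ c) (t := b.powerset.filter (fun u => s ⊆ u))]
    · apply sum_congr rfl
      intro u hu
      rw [mem_filter, mem_powerset] at hu
      unfold M
      congr 1
      ext c
      simp only [mem_filter]
      constructor
      · rintro ⟨⟨h1, h2⟩, h3⟩; exact ⟨h1, h3⟩
      · rintro ⟨h1, h3⟩
        refine ⟨⟨h1, ?_⟩, h3⟩
        rw [← h3] at hu
        exact hu.2.trans inter_subset_right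
    · intro c hc
      rw [coe_filter, Set.mem_setOf_eq] at hc
      rw [coe_filter, Set.mem_setOf_eq, mem_powerset]
      exact ⟨inter_subset_left, subset_inter hs hc.2⟩
  rw [h1, ← sum_fiberwise_of_maps_to (s := b.powerset.filter (fun u => s ⊆ u)) (t := range 7) (g := card)]
  · apply sum_congr rfl
    intro i _
    apply sum_congr _ (fun _ _ => rfl)
    ext u
    simp only [mem_filter, mem_powerset, mem_powersetCard]
    tauto
  · intro u hu
    rw [mem_filter, mem_powerset] at hu
    have := card_le_card hu.1
    rw [mem_range]; omega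

theorem T_const (b s : Finset α) (hs : s ⊆ b) (i m : ℕ) (hi : s.card ≤ i)
    (hm : ∀ u ⊆ b, u.card = i → M B b u = m) :
    ∑ u ∈ (powersetCard i b).filter (fun u => s ⊆ u), M B b u =
      (b.card - s.card).choose (i - s.card) * m := by
  rw [sum_const_nat (m := m), card_between hs i hi]
  intro u hu
  rw [mem_filter, mem_powersetCard] at hu
  exact hm u hu.1.1 hu.1.2

theorem T_zero (b s : Finset α) (i : ℕ) (hi : i < s.card) :
    ∑ u ∈ (powersetCard i b).filter (fun u => s ⊆ u), M B b u = 0 := by
  apply sum_eq_zero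
  intro u hu
  rw [mem_filter, mem_powersetCard] at hu
  have := card_le_card hu.2
  omega

theorem T_self (b s : Finset α) (hs : s ⊆ b) :
    ∑ u ∈ (powersetCard s.card b).filter (fun u => s ⊆ u), M B b u = M B b s := by
  have : (powersetCard s.card b).filter (fun u => s ⊆ u) = {s} := by
    ext u
    simp only [mem_filter, mem_powersetCard, mem_singleton]
    constructor
    · rintro ⟨⟨_, h2⟩, h3⟩
      exact (eq_of_subset_of_card_le h3 (by rw [h2])).symm
    · rintro rfl
      exact ⟨⟨hs, rfl⟩, subset_refl _⟩
  rw [this, sum_singleton]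

/-- Leech triangle of S(5, 6, 12): blocks meet in 0, 2, 3 or 4 points, and a block is met exactly in a given 2-, 3- or 4-subset by 3, 2, 3 blocks respectively. -/
theorem result {α : Type*} [Fintype α] [DecidableEq α] (hα : Fintype.card α = 12) {B : Set (Finset α)} (hB : Cfsg.IsSteinerSystem 5 6 B) (b : Finset α) (hb : b ∈ B) : (∀ c ∈ B, c ≠ b → (b ∩ c).card = 0 ∨ (b ∩ c).card = 2 ∨ (b ∩ c).card = 3 ∨ (b ∩ c).card = 4) ∧ ∀ s ⊆ b, (s.card = 2 → {c : Finset α | c ∈ B ∧ b ∩ c = s}.ncard = 3) ∧ (s.card = 3 → {c : Finset α | c ∈ B ∧ b ∩ c = s}.ncard = 2) ∧ (s.card = 4 → {c : Finset α | c ∈ B ∧ b ∩ c = s}.ncard = 3) := by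
  have hb6 : b.card = 6 := hB.1 b hb
  have hMb : M B b b = 1 := by
    unfold M
    rw [card_eq_one]
    refine ⟨b, ?_⟩
    ext c
    simp only [mem_filter, mem_blk, mem_singleton]
    constructor
    · rintro ⟨hc, h⟩
      have h1 : b ⊆ c := by rw [← h]; exact inter_subset_right
      exact (eq_of_subset_of_card_le h1 (by rw [hb6, hB.1 c hc])).symm
    · rintro rfl
      exact ⟨hb, inter_self _⟩
  have h6 : ∀ u ⊆ b, u.card = 6 → M B b u = 1 := by
    intro u hu h
    rw [eq_of_subset_of_card_le hu (by rw [h, hb6]), hMb]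
  have h5 : ∀ u ⊆ b, u.card = 5 → M B b u = 0 := by
    intro u hu h
    have e := card_blk_containing hB (S := u) (by omega)
    rw [N_eq b u hu hb6, hα, h] at e
    simp only [sum_range_succ, sum_range_zero] at e
    rw [T_zero b u 0 (by omega), T_zero b u 1 (by omega), T_zero b u 2 (by omega), T_zero b u 3 (by omega),
      T_zero b u 4 (by omega), ← h, T_self b u hu, T_const b u hu 6 1 (by omega) h6, h, hb6] at e
    simp [Nat.choose] at e
    omega
  have h4 : ∀ u ⊆ b, u.card = 4 → M B b u = 3 := by
    intro u hu h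
    have e := card_blk_containing hB (S := u) (by omega)
    rw [N_eq b u hu hb6, hα, h] at e
    simp only [sum_range_succ, sum_range_zero] at e
    rw [T_zero b u 0 (by omega), T_zero b u 1 (by omega), T_zero b u 2 (by omega), T_zero b u 3 (by omega),
      T_const b u hu 5 0 (by omega) h5, T_const b u hu 6 1 (by omega) h6, ← h, T_self b u hu, h, hb6] at e
    simp [Nat.choose] at e
    omega
  have h3 : ∀ u ⊆ b, u.card = 3 → M B b u = 2 := by
    intro u hu h
    have e := card_blk_containing hB (S := u) (by omega)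
    rw [N_eq b u hu hb6, hα, h] at e
    simp only [sum_range_succ, sum_range_zero] at e
    rw [T_zero b u 0 (by omega), T_zero b u 1 (by omega), T_zero b u 2 (by omega),
      T_const b u hu 4 3 (by omega) h4, T_const b u hu 5 0 (by omega) h5,
      T_const b u hu 6 1 (by omega) h6, ← h, T_self b u hu, h, hb6] at e
    simp [Nat.choose] at e
    omega
  have h2 : ∀ u ⊆ b, u.card = 2 → M B b u = 3 := by
    intro u hu h
    have e := card_blk_containing hB (S := u) (by omega)
    rw [N_eq b u hu hb6, hα, h] at e
    simp only [sum_range_succ, sum_range_zero] at e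
    rw [T_zero b u 0 (by omega), T_zero b u 1 (by omega),
      T_const b u hu 3 2 (by omega) h3,
      T_const b u hu 4 3 (by omega) h4, T_const b u hu 5 0 (by omega) h5,
      T_const b u hu 6 1 (by omega) h6, ← h, T_self b u hu, h, hb6] at e
    simp [Nat.choose] at e
    omega
  have h1 : ∀ u ⊆ b, u.card = 1 → M B b u = 0 := by
    intro u hu h
    have e := card_blk_containing hB (S := u) (by omega)
    rw [N_eq b u hu hb6, hα, h] at e
    simp only [sum_range_succ, sum_range_zero] at e
    rw [T_zero b u 0 (by omega), T_const b u hu 2 3 (by omega) h2,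
      T_const b u hu 3 2 (by omega) h3,
      T_const b u hu 4 3 (by omega) h4, T_const b u hu 5 0 (by omega) h5,
      T_const b u hu 6 1 (by omega) h6, ← h, T_self b u hu, h, hb6] at e
    simp [Nat.choose] at e
    omega
  have hset : ∀ s, {c : Finset α | c ∈ B ∧ b ∩ c = s}.ncard = M B b s := by
    intro s
    unfold M
    rw [← Set.ncard_coe_finset]
    congr 1
    ext c
    simp
  refine ⟨?_, fun s hs => ?_⟩
  · intro c hc hcb
    have hle : (b ∩ c).card ≤ 6 := by rw [← hb6]; exact card_le_card inter_subset_left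
    have hpos : M B b (b ∩ c) ≠ 0 := by
      unfold M
      rw [Ne, card_eq_zero, ← Ne, ← nonempty_iff_ne_empty]
      exact ⟨c, by simp [hc]⟩
    have hne6 : (b ∩ c).card ≠ 6 := by
      intro h
      have e1 : b ∩ c = b := eq_of_subset_of_card_le inter_subset_left (by rw [h, hb6])
      have e2 : b ⊆ c := by rw [← e1]; exact inter_subset_right
      exact hcb (eq_of_subset_of_card_le e2 (by rw [hb6, hB.1 c hc])).symm
    have hne5 : (b ∩ c).card ≠ 5 := fun h => hpos (h5 _ inter_subset_left h)
    have hne1 : (b ∩ c).card ≠ 1 := fun h => hpos (h1 _ inter_subset_left h)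
    omega
  · exact ⟨fun h => by rw [hset, h2 s hs h], fun h => by rw [hset, h3 s hs h], fun h => by rw [hset, h4 s hs h]⟩

end Cfsg.Agent.S1595
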