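import Cfsg.Statements.S1600
import Cfsg.Agent.Lib.H33.M12c

set_option autoImplicit false
open scoped Pointwise
open Cfsg

namespace Cfsg.Agent.S1600
open H33.M12 H33.M12b H33.M12c H33.M24Cls H8.GolayCode H8.M24Trans

/-- The pointwise stabiliser of three points of a dodecad inside the dodecad stabiliser (order 72) is transitive on the complementary dodecad. -/
theorem result (d : Finset Cfsg.GolayPt) (hd : d ∈ Cfsg.dodecads) (p q r : Cfsg.GolayPt) (hp : p ∈ d) (hq : q ∈ d) (hr : r ∈ d) (hpq : p ≠ q) (hpr : p ≠ r) (hqr : q ≠ r) : Nat.card ↥(MulAction.stabilizer Cfsg.M24 d ⊓ MulAction.stabilizer Cfsg.M24 p ⊓ MulAction.stabilizer Cfsg.M24 q ⊓ MulAction.stabilizer Cfsg.M24 r) = 72 ∧ ∀ x ∉ d, ∀ y ∉ d, ∃ g ∈ (MulAction.stabilizer Cfsg.M24 d ⊓ MulAction.stabilizer Cfsg.M24 p ⊓ MulAction.stabilizer Cfsg.M24 q ⊓ MulAction.stabilizer Cfsg.M24 r), ((g : ↥Cfsg.M24) : Equiv.Perm Cfsg.GolayPt) x = y := by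
  refine ⟨card_three hd hp hq hr hpq hpr hqr, ?_⟩
  have d0p : ∀ i < 3, pt i ∈ d0 := by
    intro i hi
    rw [d0, pt_mem_D (by omega)]
    interval_cases i <;> decide
  obtain ⟨a, ha, hal, had⟩ := move12 hd d0_mem [p, q, r] [pt 0, pt 1, pt 2] (by simp [hpq, hpr, hqr])
    (by decide) rfl (by simp)
    (by intro b hb; simp only [List.mem_cons, List.not_mem_nil, or_false] at hb; rcases hb with rfl | rfl | rfl <;> assumption)
    (by
      intro b hb
      simp only [List.mem_cons, List.not_mem_nil, or_false] at hb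
      rcases hb with rfl | rfl | rfl
      · exact d0p 0 (by norm_num)
      · exact d0p 1 (by norm_num)
      · exact d0p 2 (by norm_num))
  simp only [List.map_cons, List.map_nil, List.cons.injEq, and_true] at hal
  have key : ∀ x ∉ d, ∃ g ∈ Stb [0, 1, 2] [m0], g (a x) = pt 5 := fun x hx =>
    lvE (by rw [← had, mem_image_g]; exact hx)
  intro x hx y hy
  obtain ⟨g, hg, hgx⟩ := key x hx
  obtain ⟨h, hh, hhy⟩ := key y hy
  set k := h⁻¹ * g with hk
  have hks : k ∈ Stb [0, 1, 2] [m0] := (Stb [0, 1, 2] [m0]).mul_mem ((Stb [0, 1, 2] [m0]).inv_mem hh) hg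
  have hkx : k (a x) = a y := by
    rw [hk, Equiv.Perm.mul_apply, hgx, ← hhy]; exact h.symm_apply_apply _
  have hfix : ∀ z i, a z = pt i → i ∈ [0, 1, 2] → (a⁻¹ * k * a) z = z := by
    intro z i hz hi
    simp only [Equiv.Perm.mul_apply]
    rw [hz, hks.2.1 i hi, ← hz]
    exact a.symm_apply_apply _
  refine ⟨⟨a⁻¹ * k * a, M24.mul_mem (M24.mul_mem (M24.inv_mem ha) hks.1) ha⟩, ⟨⟨⟨?_, ?_⟩, ?_⟩, ?_⟩, ?_⟩
  · show d.image ⇑(a⁻¹ * k * a) = d
    rw [image_mul, image_mul, had, image_d0 hks]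
    exact image_inv had
  · exact hfix p 0 hal.1 (by simp)
  · exact hfix q 1 hal.2.1 (by simp)
  · exact hfix r 2 hal.2.2 (by simp)
  · show (a⁻¹ * k * a) x = y
    simp only [Equiv.Perm.mul_apply]
    rw [hkx]
    exact a.symm_apply_apply _

end Cfsg.Agent.S1600
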