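import Cfsg.Statements.S1604
import Cfsg.Agent.Lib.H33.M24Fin
import Cfsg.Agent.Lib.H33.D1604

set_option autoImplicit false

open scoped Pointwise
open Cfsg

namespace Cfsg.Agent.S1604
open H8.GolayCode H8.GolayCount H8.GolayBasic H8.M24Mem H8.M24Chain H8.M24Trans H33.M24Tab H33.M24Cls H33.M24Fin H33.D1604

theorem std (x y : GolayPt) (hxy : x ≠ y) (o : Finset GolayPt) (ho : o ∈ octads) (hx : x ∈ o) (hy : y ∈ o) :
    ∃ g ∈ M24, g (pt 0) = x ∧ g (pt 1) = y ∧ (D o0).image g = o := by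
  have hD : D o0 ∈ octads := octad_of_mask o0_ok.1 o0_ok.2.1 o0_ok.2.2.1
  have h0 : pt 0 ∈ D o0 := (pt_mem_D (by norm_num)).2 o0_ok.2.2.2.1
  have h1 : pt 1 ∈ D o0 := (pt_mem_D (by norm_num)).2 o0_ok.2.2.2.2
  have h01 : pt 0 ≠ pt 1 := fun h => by
    have := congrArg idx h
    rw [idx_pt 0 (by norm_num), idx_pt 1 (by norm_num)] at this
    omega
  obtain ⟨w, hw⟩ := exists_notMem hD
  obtain ⟨w', hw'⟩ := exists_notMem ho
  obtain ⟨g, hg, h1, -, h2⟩ := H33.M24Move.move hD ho [pt 0, pt 1] [x, y] (by simpa using h01)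
    (by simpa using hxy) rfl (by simp) (by simp [h0, h1]) (by simp [hx, hy]) w w' hw hw'
  simp only [List.map_cons, List.map_nil, List.cons.injEq, and_true] at h1
  exact ⟨g, hg, h1.1, h1.2, h2⟩

theorem predP (n : ℕ) (c : ℕ) :
    (Nat.testBit n 0 && Nat.testBit n 1 && Nat.beq (pop n) 8 && Nat.beq (pop (Nat.land o0 n)) c) = true ↔
      pop n = 8 ∧ pt 0 ∈ D n ∧ pt 1 ∈ D n ∧ (D o0 ∩ D n).card = c := by
  rw [card_inter o0_ok.1, pt_mem_D (by norm_num), pt_mem_D (by norm_num), Bool.and_eq_true, Bool.and_eq_true,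
    Bool.and_eq_true, Nat.beq_eq, Nat.beq_eq]
  tauto

/-- A hexad stabiliser in the two-point stabiliser has orbits of sizes 1, 16, 60 on the 77 hexads: the 16 hexads disjoint from it and the 60 meeting it in two points. -/
theorem result (p q : Cfsg.GolayPt) (hpq : p ≠ q) (o o' o'' : Finset Cfsg.GolayPt) (ho : o ∈ Cfsg.octads) (ho' : o' ∈ Cfsg.octads) (ho'' : o'' ∈ Cfsg.octads) (hp : p ∈ o ∧ p ∈ o' ∧ p ∈ o'') (hq : q ∈ o ∧ q ∈ o' ∧ q ∈ o'') (h : (o ∩ o').card = (o ∩ o'').card) : {x : Finset Cfsg.GolayPt | x ∈ Cfsg.octads ∧ p ∈ x ∧ q ∈ x ∧ (o ∩ x).card = 2}.ncard = 16 ∧ {x : Finset Cfsg.GolayPt | x ∈ Cfsg.octads ∧ p ∈ x ∧ q ∈ x ∧ (o ∩ x).card = 4}.ncard = 60 ∧ ∃ g : Equiv.Perm Cfsg.GolayPt, g ∈ Cfsg.M24 ∧ g p = p ∧ g q = q ∧ g • o = o ∧ g • o' = o'' := by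
  obtain ⟨g, hg, hgp, hgq, hgo⟩ := std p q hpq o ho hp.1 hq.1
  have hcount : ∀ c, {o' : Finset GolayPt | o' ∈ octads ∧ p ∈ o' ∧ q ∈ o' ∧ (o ∩ o').card = c}.ncard =
      {o' : Finset GolayPt | o' ∈ octads ∧ pt 0 ∈ o' ∧ pt 1 ∈ o' ∧ (D o0 ∩ o').card = c}.ncard := by
    intro c
    refine transport hg (fun y => pt 0 ∈ y ∧ pt 1 ∈ y ∧ (D o0 ∩ y).card = c)
      (fun y => p ∈ y ∧ q ∈ y ∧ (o ∩ y).card = c) ?_
    intro y
    rw [← hgp, ← hgq, ← hgo, mem_image_g, mem_image_g, card_inter_image]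
  have key : ∀ (c : ℕ) (P : ℕ → Bool) (_ : ∀ n, P n = (Nat.testBit n 0 && Nat.testBit n 1 && Nat.beq (pop n) 8 && Nat.beq (pop (Nat.land o0 n)) c))
      (N : ℕ) (_ : cntB P basisL 0 = N),
      {o' : Finset GolayPt | o' ∈ octads ∧ p ∈ o' ∧ q ∈ o' ∧ (o ∩ o').card = c}.ncard = N := by
    intro c P hP N hN
    rw [hcount, ncard_octads (fun y => pt 0 ∈ y ∧ pt 1 ∈ y ∧ (D o0 ∩ y).card = c) P
      fun k => (by rw [hP]; exact predP _ c)]
    exact hN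
  refine ⟨key 2 P2 (fun _ => rfl) _ C2_ok, key 4 P4 (fun _ => rfl) _ C4_ok, ?_⟩
  have hdet : ∀ y : Finset GolayPt, pt 0 ∈ y.image ⇑g⁻¹ ↔ p ∈ y := by
    intro y
    rw [← mem_image_g g, image_inv_image, hgp]
  have hdet' : ∀ y : Finset GolayPt, pt 1 ∈ y.image ⇑g⁻¹ ↔ q ∈ y := by
    intro y
    rw [← mem_image_g g, image_inv_image, hgq]
  have hcard : ∀ y : Finset GolayPt, (D o0 ∩ y.image ⇑g⁻¹).card = (o ∩ y).card := by
    intro y
    rw [← card_inter_image g, image_inv_image, hgo]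
  have key2 : ∀ (c r : ℕ) (st : List (ℕ × ℕ)) (_ : (st.all fun a => decide (a.2 < ts.length)) = true) (L : List ℕ)
      (_ : orbT ts [r] st = L) (P : ℕ → Bool)
      (_ : allB (fun n => !(P n) || H33.BitSet.memB L n) basisL 0 = true)
      (_ : ∀ n, P n = (Nat.testBit n 0 && Nat.testBit n 1 && Nat.beq (pop n) 8 && Nat.beq (pop (Nat.land o0 n)) c))
      (_ : (o ∩ o').card = c), ∃ g : Equiv.Perm GolayPt, g ∈ M24 ∧ g p = p ∧ g q = q ∧ g • o = o ∧ g • o' = o'' := by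
    intro c r st hst L hL P hP hPP h4
    obtain ⟨f, hf, h1, h2, h3⟩ := conj_cls [0, 1] [o0] ts ts_ok r st hst L hL P hP
      (fun y => pt 0 ∈ y ∧ pt 1 ∈ y ∧ (D o0 ∩ y).card = c) (fun k h8 hk => (hPP _).trans ((predP _ c).2 ⟨h8, hk⟩)) hg ho' ho''
      ⟨(hdet _).2 hp.2.1, (hdet' _).2 hq.2.1, (hcard _).trans h4⟩
      ⟨(hdet _).2 hp.2.2, (hdet' _).2 hq.2.2, (hcard _).trans (h ▸ h4)⟩
    refine ⟨f, hf, ?_, ?_, ?_, h3⟩
    · have := h1 0 (by simp); rwa [hgp] at this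
    · have := h1 1 (by simp); rwa [hgq] at this
    · have := h2 o0 (by simp); rwa [hgo] at this
  rcases inter_cases ho ho' with h4 | h4 | h4 | h4
  · subst h4
    have h2 : o = o'' := eq_of_card_eight ho ho'' (by rw [← h, Finset.inter_self, ho.2])
    subst h2
    refine ⟨1, M24.one_mem, rfl, rfl, ?_, ?_⟩ <;> exact one_smul _ _
  · exfalso
    have := Finset.card_eq_zero.1 h4
    exact Finset.notMem_empty p (this ▸ Finset.mem_inter.2 ⟨hp.1, hp.2.1⟩)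
  · exact key2 2 _ H33.D1604.st2 st2_ok L2 L2_ok P2 P2_ok (fun _ => rfl) h4
  · exact key2 4 _ H33.D1604.st4 st4_ok L4 L4_ok P4 P4_ok (fun _ => rfl) h4

end Cfsg.Agent.S1604
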