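import Cfsg.Statements.S1605
import Cfsg.Agent.Lib.H33.M24Fin
import Cfsg.Agent.Lib.H33.D1605

set_option autoImplicit false

open scoped Pointwise
open Cfsg

namespace Cfsg.Agent.S1605
open H8.GolayCode H8.GolayCount H8.GolayBasic H8.M24Mem H8.M24Chain H8.M24Trans H33.M24Tab H33.M24Cls H33.M24Fin H33.D1605

theorem std (x y : GolayPt) (o : Finset GolayPt) (ho : o ∈ octads) (hx : x ∈ o) (hy : y ∉ o) :
    ∃ g ∈ M24, g (pt 0) = x ∧ g (pt 5) = y ∧ (D o0).image g = o := by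
  have hD : D o0 ∈ octads := octad_of_mask o0_ok.1 o0_ok.2.1 o0_ok.2.2.1
  have h0 : pt 0 ∈ D o0 := (pt_mem_D (by norm_num)).2 o0_ok.2.2.2.1
  have h1 : pt 5 ∉ D o0 := fun h => by
    have := (pt_mem_D (by norm_num)).1 h
    rw [o0_ok.2.2.2.2] at this
    cases this
  obtain ⟨g, hg, h1, h3, h2⟩ := H33.M24Move.move hD ho [pt 0] [x] (List.nodup_singleton _)
    (List.nodup_singleton _) rfl (by simp) (by simpa using h0) (by simpa using hx) (pt 5) y h1 hy
  exact ⟨g, hg, by simpa using h1, h3, h2⟩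

theorem predP (n : ℕ) (c : ℕ) :
    (Nat.testBit n 0 && (!Nat.testBit n 5) && Nat.beq (pop n) 8 && Nat.beq (pop (Nat.land o0 n)) c) = true ↔
      pop n = 8 ∧ (pt 0 ∈ D n ∧ pt 5 ∉ D n) ∧ (D o0 ∩ D n).card = c := by
  rw [card_inter o0_ok.1, pt_mem_D (by norm_num), pt_mem_D (by norm_num), Bool.and_eq_true, Bool.and_eq_true,
    Bool.and_eq_true, Nat.beq_eq, Nat.beq_eq, Bool.not_eq_true', Bool.not_eq_true]
  tauto

theorem predP' (n : ℕ) :
    P n = true ↔ pop n = 8 ∧ (pt 0 ∈ D n ∧ pt 5 ∉ D n) := by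
  unfold P
  rw [pt_mem_D (by norm_num), pt_mem_D (by norm_num), Bool.and_eq_true, Bool.and_eq_true,
    Nat.beq_eq, Bool.not_eq_true', Bool.not_eq_true]
  tauto

/-- an octad through `p` avoiding `q` exists -/
theorem exists_octad (p q : GolayPt) (hpq : p ≠ q) : ∃ o : Finset GolayPt, o ∈ octads ∧ p ∈ o ∧ q ∉ o := by
  have hD : D o0 ∈ octads := octad_of_mask o0_ok.1 o0_ok.2.1 o0_ok.2.2.1
  obtain ⟨w, hw⟩ := exists_notMem hD
  obtain ⟨v, hv⟩ := exists_mem hD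
  -- extend p,q-free: choose 4 more points
  have hcard : 4 ≤ (((Finset.univ : Finset GolayPt).erase p).erase q).card := by
    rw [Finset.card_erase_of_mem (by simp [hpq.symm]), Finset.card_erase_of_mem (by simp), Finset.card_univ, card_pt]
    norm_num
  obtain ⟨s, hs, hs4⟩ := Finset.exists_subset_card_eq hcard
  have hps : p ∉ s := fun h => by have := hs h; simp at this
  have hqs : q ∉ s := fun h => by have := hs h; simp at this
  have h5 : (insert p s).card = 5 := by rw [Finset.card_insert_of_notMem hps, hs4]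
  obtain ⟨o, ⟨ho, hso⟩, -⟩ := octads_steiner.2 _ h5
  by_cases hq : q ∈ o
  · -- move inside: take another octad meeting o in a set containing p but not q
    obtain ⟨r, hr⟩ := exists_notMem ho
    obtain ⟨a, ha⟩ : ∃ a ∈ s, True := by
      obtain ⟨a, ha⟩ := Finset.card_pos.1 (by omega : 0 < s.card)
      exact ⟨a, ha, trivial⟩
    have hcr : r ∉ insert p s := fun h => hr (hso h)
    have h5' : (insert r ((insert p s).erase a)).card = 5 := by
      rw [Finset.card_insert_of_notMem (fun h => hcr (Finset.mem_of_mem_erase h)),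
        Finset.card_erase_of_mem (Finset.mem_insert_of_mem ha.1), h5]
    obtain ⟨o', ⟨ho', hso'⟩, -⟩ := octads_steiner.2 _ h5'
    refine ⟨o', ho', hso' ?_, fun hq' => ?_⟩
    · rw [Finset.mem_insert, Finset.mem_erase]
      right
      exact ⟨fun h => hps (h ▸ ha.1), Finset.mem_insert_self _ _⟩
    · have : o = o' := by
        refine octad_unique ho ho' (u := insert q ((insert p s).erase a)) ?_ ?_ ?_
        · rw [Finset.card_insert_of_notMem, Finset.card_erase_of_mem (Finset.mem_insert_of_mem ha.1), h5]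
          intro h
          rcases Finset.mem_insert.1 (Finset.mem_of_mem_erase h) with h | h
          · exact hpq h.symm
          · exact hqs h
        · intro z hz
          rcases Finset.mem_insert.1 hz with rfl | hz
          · exact hq
          · exact hso (Finset.mem_of_mem_erase hz)
        · intro z hz
          rcases Finset.mem_insert.1 hz with rfl | hz
          · exact hq'
          · exact hso' (Finset.mem_insert_of_mem hz)
      subst this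
      exact hr (hso' (Finset.mem_insert_self _ _))
  · exact ⟨o, ho, hso (Finset.mem_insert_self _ _), hq⟩

/-- The two-point stabiliser acts on the 176 octads through the first point avoiding the second with rank 3 and subdegrees 1, 70, 105 (intersections 8, 2, 4). -/
theorem result (p q : Cfsg.GolayPt) (hpq : p ≠ q) : {x : Finset Cfsg.GolayPt | (x ∈ Cfsg.octads ∧ p ∈ x ∧ q ∉ x)}.ncard = 176 ∧ (∀ o o' : Finset Cfsg.GolayPt, (o ∈ Cfsg.octads ∧ p ∈ o ∧ q ∉ o) → (o' ∈ Cfsg.octads ∧ p ∈ o' ∧ q ∉ o') → ∃ g : Equiv.Perm Cfsg.GolayPt, g ∈ Cfsg.M24 ∧ g p = p ∧ g q = q ∧ g • o = o') ∧ ∀ o : Finset Cfsg.GolayPt, (o ∈ Cfsg.octads ∧ p ∈ o ∧ q ∉ o) → {x : Finset Cfsg.GolayPt | (x ∈ Cfsg.octads ∧ p ∈ x ∧ q ∉ x) ∧ (o ∩ x).card = 2}.ncard = 70 ∧ {x : Finset Cfsg.GolayPt | (x ∈ Cfsg.octads ∧ p ∈ x ∧ q ∉ x) ∧ (o ∩ x).card = 4}.ncard = 105 ∧ ∀ o' o'' : Finset Cfsg.GolayPt, (o' ∈ Cfsg.octads ∧ p ∈ o' ∧ q ∉ o') → (o'' ∈ Cfsg.octads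 ∧ p ∈ o'' ∧ q ∉ o'') → (o ∩ o').card = (o ∩ o'').card → ∃ g : Equiv.Perm Cfsg.GolayPt, g ∈ Cfsg.M24 ∧ g p = p ∧ g q = q ∧ g • o = o ∧ g • o' = o'' := by
  have hD : D o0 ∈ octads := octad_of_mask o0_ok.1 o0_ok.2.1 o0_ok.2.2.1
  refine ⟨?_, ?_, ?_⟩
  · obtain ⟨o, ho, hp, hq⟩ := exists_octad p q hpq
    obtain ⟨g, hg, hgp, hgq, hgo⟩ := std p q o ho hp hq
    rw [transport hg (fun y => pt 0 ∈ y ∧ pt 5 ∉ y) (fun y => p ∈ y ∧ q ∉ y) (fun y => by
      rw [← hgp, ← hgq, mem_image_g, mem_image_g]),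
      ncard_octads (fun y => pt 0 ∈ y ∧ pt 5 ∉ y) P fun k => predP' _]
    exact C_ok
  · rintro o o' ⟨ho, hp, hq⟩ ⟨ho', hp', hq'⟩
    obtain ⟨g, hg, h1, h3, h2⟩ := H33.M24Move.move ho ho' [p] [p] (List.nodup_singleton _)
      (List.nodup_singleton _) rfl (by simp) (by simpa using hp) (by simpa using hp') q q hq hq'
    exact ⟨g, hg, by simpa using h1, h3, h2⟩
  rintro o ⟨ho, hp, hq⟩
  obtain ⟨g, hg, hgp, hgq, hgo⟩ := std p q o ho hp hq
  have hcount : ∀ c, {o' : Finset GolayPt | (o' ∈ octads ∧ p ∈ o' ∧ q ∉ o') ∧ (o ∩ o').card = c}.ncard =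
      {o' : Finset GolayPt | o' ∈ octads ∧ (pt 0 ∈ o' ∧ pt 5 ∉ o') ∧ (D o0 ∩ o').card = c}.ncard := by
    intro c
    simp only [and_assoc]
    refine transport hg (fun y => pt 0 ∈ y ∧ pt 5 ∉ y ∧ (D o0 ∩ y).card = c)
      (fun y => p ∈ y ∧ q ∉ y ∧ (o ∩ y).card = c) ?_
    intro y
    rw [← hgp, ← hgq, ← hgo, mem_image_g, mem_image_g, card_inter_image]
  have key : ∀ (c : ℕ) (P : ℕ → Bool) (_ : ∀ n, P n = (Nat.testBit n 0 && (!Nat.testBit n 5) && Nat.beq (pop n) 8 && Nat.beq (pop (Nat.land o0 n)) c))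
      (N : ℕ) (_ : cntB P basisL 0 = N),
      {o' : Finset GolayPt | (o' ∈ octads ∧ p ∈ o' ∧ q ∉ o') ∧ (o ∩ o').card = c}.ncard = N := by
    intro c P hP N hN
    rw [hcount, ncard_octads (fun y => (pt 0 ∈ y ∧ pt 5 ∉ y) ∧ (D o0 ∩ y).card = c) P
      fun k => (by rw [hP]; exact predP _ c)]
    exact hN
  refine ⟨key 2 P2 (fun _ => rfl) _ C2_ok, key 4 P4 (fun _ => rfl) _ C4_ok, ?_⟩
  rintro o' o'' ⟨ho', hp', hq'⟩ ⟨ho'', hp'', hq''⟩ h
  have hdet : ∀ y : Finset GolayPt, pt 0 ∈ y.image ⇑g⁻¹ ↔ p ∈ y := by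
    intro y
    rw [← mem_image_g g, image_inv_image, hgp]
  have hdet' : ∀ y : Finset GolayPt, pt 5 ∈ y.image ⇑g⁻¹ ↔ q ∈ y := by
    intro y
    rw [← mem_image_g g, image_inv_image, hgq]
  have hcard : ∀ y : Finset GolayPt, (D o0 ∩ y.image ⇑g⁻¹).card = (o ∩ y).card := by
    intro y
    rw [← card_inter_image g, image_inv_image, hgo]
  have key2 : ∀ (c r : ℕ) (st : List (ℕ × ℕ)) (_ : (st.all fun a => decide (a.2 < ts.length)) = true) (L : List ℕ)
      (_ : orbT ts [r] st = L) (P : ℕ → Bool)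
      (_ : allB (fun n => !(P n) || H33.BitSet.memB L n) basisL 0 = true)
      (_ : ∀ n, P n = (Nat.testBit n 0 && (!Nat.testBit n 5) && Nat.beq (pop n) 8 && Nat.beq (pop (Nat.land o0 n)) c))
      (_ : (o ∩ o').card = c), ∃ g : Equiv.Perm GolayPt, g ∈ M24 ∧ g p = p ∧ g q = q ∧ g • o = o ∧ g • o' = o'' := by
    intro c r st hst L hL P hP hPP h4
    obtain ⟨f, hf, h1, h2, h3⟩ := conj_cls [0, 5] [o0] ts ts_ok r st hst L hL P hP
      (fun y => (pt 0 ∈ y ∧ pt 5 ∉ y) ∧ (D o0 ∩ y).card = c) (fun k h8 hk => (hPP _).trans ((predP _ c).2 ⟨h8, hk⟩)) hg ho' ho''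
      ⟨⟨(hdet _).2 hp', fun h => hq' ((hdet' _).1 h)⟩, (hcard _).trans h4⟩
      ⟨⟨(hdet _).2 hp'', fun h => hq'' ((hdet' _).1 h)⟩, (hcard _).trans (h ▸ h4)⟩
    refine ⟨f, hf, ?_, ?_, ?_, h3⟩
    · have := h1 0 (by simp); rwa [hgp] at this
    · have := h1 5 (by simp); rwa [hgq] at this
    · have := h2 o0 (by simp); rwa [hgo] at this
  rcases inter_cases ho ho' with h4 | h4 | h4 | h4
  · subst h4
    have h2 : o = o'' := eq_of_card_eight ho ho'' (by rw [← h, Finset.inter_self, ho.2])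
    subst h2
    refine ⟨1, M24.one_mem, rfl, rfl, ?_, ?_⟩ <;> exact one_smul _ _
  · exfalso
    have := Finset.card_eq_zero.1 h4
    exact Finset.notMem_empty p (this ▸ Finset.mem_inter.2 ⟨hp, hp'⟩)
  · exact key2 2 _ H33.D1605.st2 st2_ok L2 L2_ok P2 P2_ok (fun _ => rfl) h4
  · exact key2 4 _ H33.D1605.st4 st4_ok L4 L4_ok P4 P4_ok (fun _ => rfl) h4

end Cfsg.Agent.S1605
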