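import Cfsg.Statements.S1607
import Cfsg.Agent.Lib.H33.M24Fin
import Cfsg.Agent.Lib.H33.D1607

set_option autoImplicit false

open scoped Pointwise
open Cfsg

namespace Cfsg.Agent.S1607
open H8.GolayCode H8.GolayCount H8.GolayBasic H8.M24Mem H8.M24Chain H8.M24Trans H33.M24Tab H33.M24Cls H33.M24Fin H33.D1607

theorem std (x : GolayPt) (o : Finset GolayPt) (ho : o ∈ octads) (hx : x ∈ o) :
    ∃ g ∈ M24, g (pt 0) = x ∧ (D o0).image g = o := by
  have hD : D o0 ∈ octads := octad_of_mask o0_ok.1 o0_ok.2.1 o0_ok.2.2.1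
  have h0 : pt 0 ∈ D o0 := (pt_mem_D (by norm_num)).2 o0_ok.2.2.2
  obtain ⟨w, hw⟩ := exists_notMem hD
  obtain ⟨w', hw'⟩ := exists_notMem ho
  obtain ⟨g, hg, h1, -, h2⟩ := H33.M24Move.move hD ho [pt 0] [x] (List.nodup_singleton _)
    (List.nodup_singleton _) rfl (by simp) (by simpa using h0) (by simpa using hx) w w' hw hw'
  exact ⟨g, hg, by simpa using h1, h2⟩

theorem predP (n : ℕ) (_ : n < 2 ^ 24) (c : ℕ) :
    (Nat.testBit n 0 && Nat.beq (pop n) 8 && Nat.beq (pop (Nat.land o0 n)) c) = true ↔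
      pop n = 8 ∧ pt 0 ∈ D n ∧ (D o0 ∩ D n).card = c := by
  rw [card_inter o0_ok.1, pt_mem_D (by norm_num), Bool.and_eq_true, Bool.and_eq_true, Nat.beq_eq, Nat.beq_eq]
  tauto

/-- The point stabiliser acts on the 253 heptads of its S(4, 7, 23) with rank 3 and subdegrees 1, 112, 140 (intersections 8, 2, 4). -/
theorem result (x : Cfsg.GolayPt) (o : Finset Cfsg.GolayPt) (ho : o ∈ Cfsg.octads) (hx : x ∈ o) : {o' : Finset Cfsg.GolayPt | o' ∈ Cfsg.octads ∧ x ∈ o' ∧ (o ∩ o').card = 2}.ncard = 112 ∧ {o' : Finset Cfsg.GolayPt | o' ∈ Cfsg.octads ∧ x ∈ o' ∧ (o ∩ o').card = 4}.ncard = 140 ∧ ∀ o' o'' : Finset Cfsg.GolayPt, o' ∈ Cfsg.octads → o'' ∈ Cfsg.octads → x ∈ o' → x ∈ o'' → (o ∩ o').card = (o ∩ o'').card → ∃ g : Equiv.Perm Cfsg.GolayPt, g ∈ Cfsg.M24 ∧ g x = x ∧ g • o = o ∧ g • o' = o'' := by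
  obtain ⟨g, hg, hgx, hgo⟩ := std x o ho hx
  have hD : D o0 ∈ octads := octad_of_mask o0_ok.1 o0_ok.2.1 o0_ok.2.2.1
  have hcount : ∀ c, {o' : Finset GolayPt | o' ∈ octads ∧ x ∈ o' ∧ (o ∩ o').card = c}.ncard =
      {o' : Finset GolayPt | o' ∈ octads ∧ pt 0 ∈ o' ∧ (D o0 ∩ o').card = c}.ncard := by
    intro c
    refine transport hg (fun y => pt 0 ∈ y ∧ (D o0 ∩ y).card = c) (fun y => x ∈ y ∧ (o ∩ y).card = c) ?_
    intro y
    rw [← hgx, ← hgo, mem_image_g, card_inter_image]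
  refine ⟨?_, ?_, ?_⟩
  · rw [hcount, ncard_octads (fun y => pt 0 ∈ y ∧ (D o0 ∩ y).card = 2) P2 fun k => predP _ (cw_lt k) 2]
    exact C2_ok
  · rw [hcount, ncard_octads (fun y => pt 0 ∈ y ∧ (D o0 ∩ y).card = 4) P4 fun k => predP _ (cw_lt k) 4]
    exact C4_ok
  · intro o' o'' ho' ho'' hx' hx'' hc
    have hdet : ∀ y : Finset GolayPt, pt 0 ∈ y.image ⇑g⁻¹ ↔ x ∈ y := by
      intro y
      rw [← mem_image_g g, image_inv_image, hgx]
    have hcard : ∀ y : Finset GolayPt, (D o0 ∩ y.image ⇑g⁻¹).card = (o ∩ y).card := by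
      intro y
      rw [← card_inter_image g, image_inv_image, hgo]
    rcases inter_cases ho ho' with h | h | h | h
    · subst h
      have h2 : o = o'' := eq_of_card_eight ho ho'' (by rw [← hc, Finset.inter_self, ho.2])
      subst h2
      refine ⟨1, M24.one_mem, rfl, ?_, ?_⟩ <;> exact one_smul _ _
    · exfalso
      have := Finset.card_eq_zero.1 h
      exact Finset.notMem_empty x (this ▸ Finset.mem_inter.2 ⟨hx, hx'⟩)
    · obtain ⟨f, hf, h1, h2, h3⟩ := conj_cls [0] [o0] ts ts_ok _ H33.D1607.st2 st2_ok L2 L2_ok P2 P2_ok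
        (fun y => pt 0 ∈ y ∧ (D o0 ∩ y).card = 2) (fun k h8 hk => (predP _ (cw_lt k) 2).2 ⟨h8, hk⟩) hg ho' ho''
        ⟨(hdet _).2 hx', (hcard _).trans h⟩ ⟨(hdet _).2 hx'', (hcard _).trans (hc ▸ h)⟩
      refine ⟨f, hf, ?_, ?_, h3⟩
      · have := h1 0 (by simp); rwa [hgx] at this
      · have := h2 o0 (by simp); rwa [hgo] at this
    · obtain ⟨f, hf, h1, h2, h3⟩ := conj_cls [0] [o0] ts ts_ok _ H33.D1607.st4 st4_ok L4 L4_ok P4 P4_ok
        (fun y => pt 0 ∈ y ∧ (D o0 ∩ y).card = 4) (fun k h8 hk => (predP _ (cw_lt k) 4).2 ⟨h8, hk⟩) hg ho' ho''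
        ⟨(hdet _).2 hx', (hcard _).trans h⟩ ⟨(hdet _).2 hx'', (hcard _).trans (hc ▸ h)⟩
      refine ⟨f, hf, ?_, ?_, h3⟩
      · have := h1 0 (by simp); rwa [hgx] at this
      · have := h2 o0 (by simp); rwa [hgo] at this

end Cfsg.Agent.S1607
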