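import Cfsg.Statements.S1608
import Cfsg.Agent.Lib.H33.M24Fin
import Cfsg.Agent.Lib.H33.D1608

set_option autoImplicit false

open scoped Pointwise
open Cfsg

namespace Cfsg.Agent.S1608
open H8.GolayCode H8.GolayCount H8.GolayBasic H8.M24Mem H8.M24Chain H8.M24Trans H33.M24Tab H33.M24Cls H33.M24Fin H33.D1608

theorem std (x : GolayPt) (o : Finset GolayPt) (ho : o ∈ octads) (hx : x ∉ o) :
    ∃ g ∈ M24, g (pt 5) = x ∧ (D o0).image g = o := by
  have hD : D o0 ∈ octads := octad_of_mask o0_ok.1 o0_ok.2.1 o0_ok.2.2.1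
  have h0 : pt 5 ∉ D o0 := fun h => by
    have := (pt_mem_D (by norm_num)).1 h
    rw [o0_ok.2.2.2] at this
    cases this
  obtain ⟨g, hg, -, h1, h2⟩ := H33.M24Move.move hD ho [] [] List.nodup_nil
    List.nodup_nil rfl (by simp) (by simp) (by simp) (pt 5) x h0 hx
  exact ⟨g, hg, h1, h2⟩

theorem predP (n : ℕ) (c : ℕ) :
    ((!Nat.testBit n 5) && Nat.beq (pop n) 8 && Nat.beq (pop (Nat.land o0 n)) c) = true ↔
      pop n = 8 ∧ pt 5 ∉ D n ∧ (D o0 ∩ D n).card = c := by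
  rw [card_inter o0_ok.1, pt_mem_D (by norm_num), Bool.and_eq_true, Bool.and_eq_true, Nat.beq_eq, Nat.beq_eq,
    Bool.not_eq_true', Bool.not_eq_true]
  tauto

/-- The point stabiliser acts on the 506 octads avoiding the point with rank 4 and subdegrees 1, 15, 210, 280, the suborbits being given by intersection size with the fixed octad. -/
theorem result (x : Cfsg.GolayPt) (o : Finset Cfsg.GolayPt) (ho : o ∈ Cfsg.octads) (hx : x ∉ o) : {o' : Finset Cfsg.GolayPt | o' ∈ Cfsg.octads ∧ x ∉ o' ∧ (o ∩ o').card = 0}.ncard = 15 ∧ {o' : Finset Cfsg.GolayPt | o' ∈ Cfsg.octads ∧ x ∉ o' ∧ (o ∩ o').card = 4}.ncard = 210 ∧ {o' : Finset Cfsg.GolayPt | o' ∈ Cfsg.octads ∧ x ∉ o' ∧ (o ∩ o').card = 2}.ncard = 280 ∧ ∀ o' o'' : Finset Cfsg.GolayPt, o' ∈ Cfsg.octads → o'' ∈ Cfsg.octads → x ∉ o' → x ∉ o'' → (o ∩ o').card = (o ∩ o'').card → ∃ g : Equiv.Perm Cfsg.GolayPt, g ∈ Cfsg.M24 ∧ g x = x ∧ g • o = o ∧ g • o'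 = o'' := by
  obtain ⟨g, hg, hgx, hgo⟩ := std x o ho hx
  have hD : D o0 ∈ octads := octad_of_mask o0_ok.1 o0_ok.2.1 o0_ok.2.2.1
  have hcount : ∀ c, {o' : Finset GolayPt | o' ∈ octads ∧ x ∉ o' ∧ (o ∩ o').card = c}.ncard =
      {o' : Finset GolayPt | o' ∈ octads ∧ pt 5 ∉ o' ∧ (D o0 ∩ o').card = c}.ncard := by
    intro c
    refine transport hg (fun y => pt 5 ∉ y ∧ (D o0 ∩ y).card = c) (fun y => x ∉ y ∧ (o ∩ y).card = c) ?_
    intro y
    rw [← hgx, ← hgo, mem_image_g, card_inter_image]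
  have key : ∀ (c : ℕ) (P : ℕ → Bool) (_ : ∀ n, P n = ((!Nat.testBit n 5) && Nat.beq (pop n) 8 && Nat.beq (pop (Nat.land o0 n)) c))
      (N : ℕ) (_ : cntB P basisL 0 = N),
      {o' : Finset GolayPt | o' ∈ octads ∧ x ∉ o' ∧ (o ∩ o').card = c}.ncard = N := by
    intro c P hP N hN
    rw [hcount, ncard_octads (fun y => pt 5 ∉ y ∧ (D o0 ∩ y).card = c) P fun k => (by rw [hP]; exact predP _ c)]
    exact hN
  refine ⟨key 0 P0 (fun _ => rfl) _ C0_ok, key 4 P4 (fun _ => rfl) _ C4_ok, key 2 P2 (fun _ => rfl) _ C2_ok, ?_⟩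
  intro o' o'' ho' ho'' hx' hx'' hc
  have hdet : ∀ y : Finset GolayPt, pt 5 ∈ y.image ⇑g⁻¹ ↔ x ∈ y := by
    intro y
    rw [← mem_image_g g, image_inv_image, hgx]
  have hcard : ∀ y : Finset GolayPt, (D o0 ∩ y.image ⇑g⁻¹).card = (o ∩ y).card := by
    intro y
    rw [← card_inter_image g, image_inv_image, hgo]
  have key2 : ∀ (c r : ℕ) (st : List (ℕ × ℕ)) (_ : (st.all fun a => decide (a.2 < ts.length)) = true) (L : List ℕ)
      (_ : orbT ts [r] st = L) (P : ℕ → Bool)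
      (_ : allB (fun n => !(P n) || H33.BitSet.memB L n) basisL 0 = true)
      (_ : ∀ n, P n = ((!Nat.testBit n 5) && Nat.beq (pop n) 8 && Nat.beq (pop (Nat.land o0 n)) c))
      (_ : (o ∩ o').card = c), ∃ g : Equiv.Perm GolayPt, g ∈ M24 ∧ g x = x ∧ g • o = o ∧ g • o' = o'' := by
    intro c r st hst L hL P hP hPP h
    obtain ⟨f, hf, h1, h2, h3⟩ := conj_cls [5] [o0] ts ts_ok r st hst L hL P hP
      (fun y => pt 5 ∉ y ∧ (D o0 ∩ y).card = c) (fun k h8 hk => (hPP _).trans ((predP _ c).2 ⟨h8, hk⟩)) hg ho' ho''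
      ⟨fun h => hx' ((hdet _).1 h), (hcard _).trans h⟩ ⟨fun h => hx'' ((hdet _).1 h), (hcard _).trans (hc ▸ h)⟩
    refine ⟨f, hf, ?_, ?_, h3⟩
    · have := h1 5 (by simp); rwa [hgx] at this
    · have := h2 o0 (by simp); rwa [hgo] at this
  rcases inter_cases ho ho' with h | h | h | h
  · subst h
    have h2 : o = o'' := eq_of_card_eight ho ho'' (by rw [← hc, Finset.inter_self, ho.2])
    subst h2
    refine ⟨1, M24.one_mem, rfl, ?_, ?_⟩ <;> exact one_smul _ _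
  · exact key2 0 _ H33.D1608.st0 st0_ok L0 L0_ok P0 P0_ok (fun _ => rfl) h
  · exact key2 2 _ H33.D1608.st2 st2_ok L2 L2_ok P2 P2_ok (fun _ => rfl) h
  · exact key2 4 _ H33.D1608.st4 st4_ok L4 L4_ok P4 P4_ok (fun _ => rfl) h

end Cfsg.Agent.S1608
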