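import Cfsg.Statements.S1609
import Cfsg.Agent.Lib.H33.M24Sub2
import Cfsg.Agent.S1607
import Cfsg.Agent.Lib.H8.M24Trans
import Cfsg.Agent.Lib.H9.M24Stab

set_option autoImplicit false
open scoped Pointwise
open Cfsg

namespace Cfsg.Agent.S1609
open H8.GolayCode H8.GolayCount H8.GolayBasic H8.M24Mem H8.M24Chain H8.M24Trans H33.M24Tab H33.M24Cls H33.M24Fin

theorem smul_eq {x : GolayPt} (g : ↥(MulAction.stabilizer M24 x)) (s : Finset GolayPt) :
    g • s = s.image (((g : ↥M24)) : Equiv.Perm GolayPt) := rfl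

theorem mem_stab {x : GolayPt} (g : ↥(MulAction.stabilizer M24 x)) : ((g : ↥M24) : Equiv.Perm GolayPt) x = x := g.2

theorem orbit_oct {x : GolayPt} {o : Finset GolayPt} (ho : o ∈ octads) (hx : x ∈ o) :
    MulAction.orbit ↥(MulAction.stabilizer M24 x) o = {o' | o' ∈ octads ∧ x ∈ o'} := by
  ext s
  constructor
  · rintro ⟨g, rfl⟩
    refine ⟨image_octad (g : ↥M24).2 ho, ?_⟩
    show x ∈ o.image _
    rw [Finset.mem_image]
    exact ⟨x, hx, mem_stab g⟩
  · rintro ⟨hs, hxs⟩
    obtain ⟨w, hw⟩ := exists_notMem ho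
    obtain ⟨w', hw'⟩ := exists_notMem hs
    obtain ⟨g, hg, h1, -, h3⟩ := H33.M24Move.move ho hs [x] [x] (List.nodup_singleton _) (List.nodup_singleton _)
      rfl (by simp) (by simpa using hx) (by simpa using hxs) w w' hw hw'
    simp only [List.map_cons, List.map_nil, List.cons.injEq, and_true] at h1
    exact ⟨⟨⟨g, hg⟩, h1⟩, h3⟩

theorem ncard_oct {x : GolayPt} {o : Finset GolayPt} (ho : o ∈ octads) (hx : x ∈ o) :
    {o' : Finset GolayPt | o' ∈ octads ∧ x ∈ o'}.ncard = 253 := by
  obtain ⟨h1, h2, -⟩ := Cfsg.Agent.S1607.result x o ho hx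
  have h3 : {o' : Finset GolayPt | o' ∈ octads ∧ x ∈ o'} = ({o} ∪ {o' : Finset GolayPt | o' ∈ octads ∧ x ∈ o' ∧ (o ∩ o').card = 2}) ∪
      {o' : Finset GolayPt | o' ∈ octads ∧ x ∈ o' ∧ (o ∩ o').card = 4} := by
    ext s
    simp only [Set.mem_ofPred_eq, Set.mem_union, Set.mem_singleton_iff]
    constructor
    · rintro ⟨hs, hxs⟩
      rcases inter_cases ho hs with h | h | h | h
      · exact Or.inl (Or.inl h.symm)
      · exfalso
        have := Finset.card_eq_zero.1 h
        exact Finset.notMem_empty x (this ▸ Finset.mem_inter.2 ⟨hx, hxs⟩)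
      · exact Or.inl (Or.inr ⟨hs, hxs, h⟩)
      · exact Or.inr ⟨hs, hxs, h⟩
    · rintro ((rfl | h) | h)
      · exact ⟨ho, hx⟩
      · exact ⟨h.1, h.2.1⟩
      · exact ⟨h.1, h.2.1⟩
  rw [h3, Set.ncard_union_eq _ (Set.toFinite _) (Set.toFinite _), Set.ncard_union_eq _ (Set.toFinite _) (Set.toFinite _),
    h1, h2, Set.ncard_singleton]
  · rw [Set.disjoint_left]
    rintro s hs ⟨_, _, h4⟩
    rw [Set.mem_singleton_iff] at hs
    subst hs
    rw [Finset.inter_self, ho.2] at h4
    omega
  · rw [Set.disjoint_left]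
    rintro s hs ⟨_, _, h4⟩
    rcases hs with hs | ⟨_, _, h5⟩
    · rw [Set.mem_singleton_iff] at hs
      subst hs
      rw [Finset.inter_self, ho.2] at h4
      omega
    · omega

theorem orbit_pair {x a b : GolayPt} (hab : a ≠ b) (hxa : x ≠ a) (hxb : x ≠ b) :
    MulAction.orbit ↥(MulAction.stabilizer M24 x) ({a, b} : Finset GolayPt) =
      ((Finset.powersetCard 2 (Finset.univ.erase x) : Finset (Finset GolayPt)) : Set (Finset GolayPt)) := by
  ext s
  rw [Finset.mem_coe, Finset.mem_powersetCard]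
  constructor
  · rintro ⟨g, rfl⟩
    have hg := mem_stab g
    show ({a, b} : Finset GolayPt).image ((g : ↥M24) : Equiv.Perm GolayPt) ⊆ _ ∧
      (({a, b} : Finset GolayPt).image ((g : ↥M24) : Equiv.Perm GolayPt)).card = 2
    refine ⟨?_, ?_⟩
    · intro z hz
      rw [Finset.mem_image] at hz
      obtain ⟨y, hy, rfl⟩ := hz
      rw [Finset.mem_erase]
      refine ⟨?_, Finset.mem_univ _⟩
      intro h
      have h1 : ((g : ↥M24) : Equiv.Perm GolayPt) y = ((g : ↥M24) : Equiv.Perm GolayPt) x := by rw [hg]; exact h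
      have h2 := ((g : ↥M24) : Equiv.Perm GolayPt).injective h1
      rw [h2, Finset.mem_insert, Finset.mem_singleton] at hy
      rcases hy with h | h
      · exact hxa h
      · exact hxb h
    · rw [Finset.card_image_of_injective _ ((g : ↥M24) : Equiv.Perm GolayPt).injective, Finset.card_pair hab]
  · rintro ⟨h1, h2⟩
    rw [Finset.card_eq_two] at h2
    obtain ⟨c, d, hcd, rfl⟩ := h2
    have hc : x ≠ c := fun h => by
      have := h1 (Finset.mem_insert_self c _)
      rw [← h] at this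
      exact Finset.notMem_erase _ _ this
    have hd : x ≠ d := fun h => by
      have := h1 (Finset.mem_insert_of_mem (Finset.mem_singleton_self d))
      rw [← h] at this
      exact Finset.notMem_erase _ _ this
    obtain ⟨g, h3, h4, h5⟩ := H9.M24Stab.three (a := x) (b := a) (c := b) (a' := x) (b' := c) (c' := d)
      (by simp [hab, hxa, hxb]) (by simp [hcd, hc, hd])
    refine ⟨⟨g, h3⟩, ?_⟩
    show ({a, b} : Finset GolayPt).image ((g : ↥M24) : Equiv.Perm GolayPt) = _
    rw [Finset.image_insert, Finset.image_singleton]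
    rw [show ((g : ↥M24) : Equiv.Perm GolayPt) a = c from h4, show ((g : ↥M24) : Equiv.Perm GolayPt) b = d from h5]

theorem ncard_pairs (x : GolayPt) : ((Finset.powersetCard 2 (Finset.univ.erase x) : Finset (Finset GolayPt)) : Set (Finset GolayPt)).ncard = 253 := by
  rw [Set.ncard_coe_finset, Finset.card_powersetCard, Finset.card_erase_of_mem (Finset.mem_univ _), Finset.card_univ, card_pt]
  decide


/-- Subgroups of index 253 in the Mathieu group of degree 23 are exactly the duad stabilisers and the heptad stabilisers. -/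
theorem result (x : Cfsg.GolayPt) (H : Subgroup ↥(MulAction.stabilizer Cfsg.M24 x)) (hH : H.index = 253) : (∃ s : Finset Cfsg.GolayPt, s.card = 2 ∧ x ∉ s ∧ H = (MulAction.stabilizer Cfsg.M24 s).subgroupOf (MulAction.stabilizer Cfsg.M24 x)) ∨ ∃ o ∈ Cfsg.octads, x ∈ o ∧ H = (MulAction.stabilizer Cfsg.M24 o).subgroupOf (MulAction.stabilizer Cfsg.M24 x) := by
  classical
  have hG : Nat.card ↥(MulAction.stabilizer M24 x) = 10200960 := H8.M24Trans.card_stabilizer x
  have hcard : Nat.card H = 40320 := by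
    have := H.card_mul_index
    rw [hH, hG] at this
    omega
  obtain ⟨o0, ho0, hx0⟩ : ∃ o0 ∈ octads, x ∈ o0 := by
    obtain ⟨o', ho'⟩ := Set.nonempty_of_ncard_ne_zero (by rw [octads_ncard]; norm_num : octads.ncard ≠ 0)
    obtain ⟨p, hp⟩ := exists_mem ho'
    obtain ⟨g, hg⟩ := H8.M24Trans.pretransitive.exists_smul_eq p x
    exact ⟨_, image_octad g.2 ho', Finset.mem_image.2 ⟨p, hp, hg⟩⟩
  obtain ⟨o, hoo, ho, P, hPo, hE, hPH⟩ := H33.M24Sub2.odd_le (MulAction.stabilizer M24 x).subtype
    (Subgroup.subtype_injective _) (fun _ _ => rfl) o0 ho0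
    (by rw [orbit_oct ho0 hx0, ncard_oct ho0 hx0]; decide) H (by rw [hH]; decide)
  rw [orbit_oct ho0 hx0] at hoo
  have hxo : x ∈ o := hoo.2
  obtain ⟨y, hy⟩ := exists_notMem ho
  have hsub : ∀ z, z ∉ o → z ∈ MulAction.orbit H y := by
    intro z hz
    obtain ⟨g, hg, e⟩ := H9.OctadStab.exists_move ho hy hz
    rw [H9.OctadStab.mem_oFix] at hg
    have hgx : (⟨g, hg.1⟩ : ↥M24) ∈ MulAction.stabilizer M24 x := hg.2 x hxo
    have hmem : (⟨⟨g, hg.1⟩, hgx⟩ : ↥(MulAction.stabilizer M24 x)) ∈ H := hE _ hg.2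
    exact ⟨⟨_, hmem⟩, e⟩
  set U : Finset GolayPt := Finset.univ.filter fun z => z ≠ x ∧ z ∉ MulAction.orbit H y with hU
  have hmemU : ∀ z, z ∈ U ↔ z ≠ x ∧ z ∉ MulAction.orbit H y := by intro z; rw [hU, Finset.mem_filter]; simp
  have hUo : U ⊆ o.erase x := by
    intro z hz
    rw [hmemU] at hz
    rw [Finset.mem_erase]
    refine ⟨hz.1, ?_⟩
    by_contra hc
    exact hz.2 (hsub z hc)
  have hU7 : U.card ≤ 7 := by
    have := Finset.card_le_card hUo
    rwa [Finset.card_erase_of_mem hxo, ho.2] at this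
  have hxorb : x ∉ MulAction.orbit H y := by
    rintro ⟨h, hh⟩
    have h1 : (((h : ↥(MulAction.stabilizer M24 x)) : ↥M24) : Equiv.Perm GolayPt) y = x := hh
    have h2 := mem_stab (h : ↥(MulAction.stabilizer M24 x))
    have h3 := (((h : ↥(MulAction.stabilizer M24 x)) : ↥M24) : Equiv.Perm GolayPt).injective (h1.trans h2.symm)
    rw [h3] at hy
    exact hy hxo
  set W : Finset GolayPt := (insert x U)ᶜ with hW
  have hmemW : ∀ z, z ∈ W ↔ z ∈ MulAction.orbit H y := by
    intro z
    rw [hW, Finset.mem_compl, Finset.mem_insert, hmemU]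
    constructor
    · intro h
      by_contra hc
      apply h
      by_cases hz : z = x
      · exact Or.inl hz
      · exact Or.inr ⟨hz, hc⟩
    · intro h
      rintro (rfl | h2)
      · exact hxorb h
      · exact h2.2 h
  have hxU : x ∉ U := fun h => ((hmemU x).1 h).1 rfl
  have hWcard : W.card = 23 - U.card := by
    rw [hW, Finset.card_compl, Finset.card_insert_of_notMem hxU, card_pt]
    omega
  have hdvd : 23 - U.card ∣ 40320 := by
    rw [← hWcard, ← hcard]
    have h1 : (MulAction.orbit H y) = (W : Set GolayPt) := by ext z; rw [Finset.mem_coe, hmemW]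
    have h2 : W.card = (MulAction.stabilizer H y).index := by
      rw [MulAction.index_stabilizer, h1, Set.ncard_coe_finset]
    rw [h2]
    exact Subgroup.index_dvd_card _
  obtain ⟨g, hg7, hg1⟩ := H33.M24Sub2.exists_elt (G := ↥H) (l := 7) (by norm_num) (by rw [hcard]; norm_num)
  set f : Equiv.Perm GolayPt := (((g : ↥(MulAction.stabilizer M24 x)) : ↥M24) : Equiv.Perm GolayPt) with hf
  have hf7 : f ^ 7 = 1 := by
    have := congrArg (fun k : ↥H => (((k : ↥(MulAction.stabilizer M24 x)) : ↥M24) : Equiv.Perm GolayPt)) hg7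
    simpa using this
  have hf1 : f ≠ 1 := by
    intro h
    apply hg1
    apply Subtype.ext; apply Subtype.ext; apply Subtype.ext
    exact h
  have hf4 := H33.M24Sub2.fix_le_four ((g : ↥(MulAction.stabilizer M24 x)) : ↥M24).2 (l := 7) (by norm_num) (by norm_num) hf7 hf1
  have hinvW : ∀ (k : ↥H), ∀ z ∈ W, (((k : ↥(MulAction.stabilizer M24 x)) : ↥M24) : Equiv.Perm GolayPt) z ∈ W := by
    intro k z hz
    rw [hmemW] at hz ⊢
    exact (MulAction.orbit.eq_1 H y ▸ MulAction.mem_orbit_of_mem_orbit k hz)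
  have hinvU : ∀ (k : ↥H), ∀ z ∈ U, (((k : ↥(MulAction.stabilizer M24 x)) : ↥M24) : Equiv.Perm GolayPt) z ∈ U := by
    intro k z hz
    rw [hmemU] at hz ⊢
    refine ⟨?_, ?_⟩
    · intro h
      have h2 := mem_stab (k : ↥(MulAction.stabilizer M24 x))
      exact hz.1 ((((k : ↥(MulAction.stabilizer M24 x)) : ↥M24) : Equiv.Perm GolayPt).injective (h.trans h2.symm))
    · intro h
      apply hz.2
      have := MulAction.mem_orbit_of_mem_orbit k⁻¹ h
      have e : k⁻¹ • ((((k : ↥(MulAction.stabilizer M24 x)) : ↥M24) : Equiv.Perm GolayPt) z) = z := inv_smul_smul k z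
      rwa [e] at this
  have hmono : ∀ s : Finset GolayPt, (s.filter fun z => f z = z).card ≤ 4 := fun s =>
    (Finset.card_le_card (Finset.filter_subset_filter _ (Finset.subset_univ s))).trans hf4
  have hUf := H33.M24Sub2.card_mod f U (hinvU g) (l := 7) (by norm_num) hf7
  have hWf := H33.M24Sub2.card_mod f W (hinvW g) (l := 7) (by norm_num) hf7
  have hUf4 := hmono U
  have hWf4 := hmono W
  have hcases : U.card = 2 ∨ U.card = 7 := by
    rw [hWcard] at hWf
    unfold Nat.ModEq at hUf hWf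
    revert hdvd hUf hWf hU7
    generalize (U.filter fun z => f z = z).card = a at *
    generalize (W.filter fun z => f z = z).card = b at *
    generalize U.card = u
    intro hU7 hdvd hUf hWf
    interval_cases u <;> omega
  have hxor : ∀ s : Finset GolayPt, (∀ (k : ↥H), ∀ z ∈ s, (((k : ↥(MulAction.stabilizer M24 x)) : ↥M24) : Equiv.Perm GolayPt) z ∈ s) →
      H ≤ MulAction.stabilizer ↥(MulAction.stabilizer M24 x) s := by
    intro s hs k hk
    rw [MulAction.mem_stabilizer_iff]
    apply Finset.eq_of_subset_of_card_le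
    · intro z hz
      rw [smul_eq, Finset.mem_image] at hz
      obtain ⟨w, hw, rfl⟩ := hz
      exact hs ⟨k, hk⟩ w hw
    · rw [Finset.card_smul_finset]
  rcases hcases with h2 | h7
  · left
    refine ⟨U, h2, hxU, ?_⟩
    obtain ⟨a, b, hab, hUab⟩ := Finset.card_eq_two.1 h2
    have hxa : x ≠ a := fun h => hxU (by rw [hUab, h]; exact Finset.mem_insert_self _ _)
    have hxb : x ≠ b := fun h => hxU (by rw [hUab, h]; exact Finset.mem_insert_of_mem (Finset.mem_singleton_self _))
    have h3 := H33.M24Sub2.eq_stab U H (hxor U hinvU) (by rw [hH, hUab, orbit_pair hab hxa hxb, ncard_pairs])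
    rw [h3]
    ext k
    rw [Subgroup.mem_subgroupOf]
    exact Iff.rfl
  · right
    refine ⟨o, ho, hxo, ?_⟩
    have h4 : U = o.erase x := by
      apply Finset.eq_of_subset_of_card_le hUo
      rw [h7, Finset.card_erase_of_mem hxo, ho.2]
    have h5 : ∀ (k : ↥H), ∀ z ∈ o, (((k : ↥(MulAction.stabilizer M24 x)) : ↥M24) : Equiv.Perm GolayPt) z ∈ o := by
      intro k z hz
      by_cases hzx : z = x
      · subst hzx
        rw [mem_stab (k : ↥(MulAction.stabilizer M24 z))]; exact hz
      · have h6 : z ∈ U := by rw [h4]; exact Finset.mem_erase.2 ⟨hzx, hz⟩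
        have h7 := hinvU k z h6
        rw [h4] at h7
        exact Finset.mem_of_mem_erase h7
    have h3 := H33.M24Sub2.eq_stab o H (hxor o h5) (by rw [hH, orbit_oct ho hxo, ncard_oct ho hxo])
    rw [h3]
    ext k
    rw [Subgroup.mem_subgroupOf]
    exact Iff.rfl

end Cfsg.Agent.S1609
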