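import Cfsg.Statements.S1617
import Cfsg.Agent.Lib.H44.PT8

set_option autoImplicit false
open Cfsg

namespace Cfsg.Agent.S1617

/-- A generating conjugacy class of involutions on which the group (with trivial solvable radical) acts with rank 3 is a class of 3-transpositions. -/
theorem result {G : Type*} [Group G] [Finite G] (hsol : ∀ N : Subgroup G, N.Normal → Group.IsSolvable ↥N → N = ⊥) {D : Set G} (hinv : ∀ d ∈ D, orderOf d = 2) (hconj : ∃ d ∈ D, D = conjugatesOf d) (hgen : Subgroup.closure D = ⊤) (hrank : ∀ x ∈ D, ∃ y ∈ D, ∃ z ∈ D, {w : G | ∃ g : G, Commute g x ∧ g * y * g⁻¹ = w} ≠ {w : G | ∃ g : G, Commute g x ∧ g * x * g⁻¹ = w} ∧ {w : G | ∃ g : G, Commute g x ∧ g * z * g⁻¹ = w} ≠ {w : G | ∃ g : G, Commute g x ∧ g * x * g⁻¹ = w} ∧ {w : G | ∃ g : G, Commute g x ∧ g * y * g⁻¹ = w} ≠ {w : G | ∃ g : G, Commute g x ∧ g * z * g⁻¹ = w} ∧ D = {w : G | ∃ g : G, Commute g x ∧ g * x * g⁻¹ = w} ∪ {w : G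 | ∃ g : G, Commute g x ∧ g * y * g⁻¹ = w} ∪ {w : G | ∃ g : G, Commute g x ∧ g * z * g⁻¹ = w}) : Cfsg.IsThreeTranspositionClass D := by
  exact H44.PT.rank3 hsol hinv hconj hgen hrank

end Cfsg.Agent.S1617
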