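import Cfsg.Statements.S1633
import Cfsg.Agent.Lib.H86.U35D
import Cfsg.Agent.Lib.H86.HS352
import Cfsg.Agent.Lib.H86.CoStab
import Cfsg.Agent.S0280

set_option autoImplicit false
open Cfsg

namespace Cfsg.Agent.S1633

open H86.UCode H86.CoSets H86.CoStab H9.CoMat H40.PermCode MulAction
open H33.Leech1 H33.Leech2 H33.Leech8 H33.Leech11 H33.Leech12 H86.HS352 H9.LeechGood H9.CoOrder H8.GolayCode H8.GolayCount H8.GolayBasic
open scoped Pointwise

/-- code of `(5, 1, …, 1)` -/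
noncomputable def e5 : ℕ := 9 * ones + 4

/-- code of `(4, -4)` -/
noncomputable def eB : ℕ := 8 * ones + 4 - 4 <<< 16

/-- code of the chosen vector -/
noncomputable def eX : ℕ := 0x8000a00080008000a00080008000a000a000a000a000a0008000800080008000800080008000800080008000a0008

/-- codes of two vectors of the set -/
noncomputable def e1 : ℕ := 0x800080008000a000a0008000a000a000a000800080008000a000a00080008000800080008000800080008000a0008
noncomputable def e2 : ℕ := 0x7000900090009000700090007000900090009000900090009000700090007000900090009000700090007000b0009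

theorem vecV5 : (V5 : GolayPt → ℤ) = vec e5 := by
  have h : ∀ k < 24, (if pt k = P then (5 : ℤ) else 1) = (dg e5 k : ℤ) - 8 := by decide +kernel
  funext p
  rw [coe_V5, ← pt_idx p, H9.CoMat.vec_pt _ (idx_lt p)]
  exact h _ (idx_lt p)

theorem vecB : (B : GolayPt → ℤ) = vec eB := by
  have h : ∀ k < 24, ((if pt k = P then (4 : ℤ) else 0) + if pt k = Q then (-4 : ℤ) else 0) = (dg eB k : ℤ) - 8 := by decide +kernel
  funext p
  rw [coe_B, Pi.add_apply, Pi.single_apply, Pi.single_apply, ← pt_idx p, H9.CoMat.vec_pt _ (idx_lt p)]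
  exact h _ (idx_lt p)

/-- the chosen vector -/
noncomputable def X : leechLattice := ⟨vec eX, inLat_spec (by decide +kernel)⟩
noncomputable def X1 : leechLattice := ⟨vec e1, inLat_spec (by decide +kernel)⟩
noncomputable def X2 : leechLattice := ⟨vec e2, inLat_spec (by decide +kernel)⟩

theorem inK_X : InK X := by
  refine ⟨?_, ?_, ?_⟩
  · show sqNorm (vec eX) = 32
    decide +kernel
  · rw [vecB]; show dotInt (vec eB) (vec eX) = -8
    decide +kernel
  · rw [vecV5]; show dotInt (vec e5) (vec eX) = 16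
    decide +kernel

theorem inK_X1 : InK X1 := by
  refine ⟨?_, ?_, ?_⟩
  · show sqNorm (vec e1) = 32
    decide +kernel
  · rw [vecB]; show dotInt (vec eB) (vec e1) = -8
    decide +kernel
  · rw [vecV5]; show dotInt (vec e5) (vec e1) = 16
    decide +kernel

theorem inK_X2 : InK X2 := by
  refine ⟨?_, ?_, ?_⟩
  · show sqNorm (vec e2) = 32
    decide +kernel
  · rw [vecB]; show dotInt (vec eB) (vec e2) = -8
    decide +kernel
  · rw [vecV5]; show dotInt (vec e5) (vec e2) = 16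
    decide +kernel

theorem q1 : (X1 : GolayPt → ℤ) Q = 2 := by
  show vec e1 Q = 2
  decide +kernel

theorem q2 : (X2 : GolayPt → ℤ) Q = 3 := by
  show vec e2 Q = 3
  decide +kernel

/-- the standard stabiliser -/
noncomputable abbrev S : Subgroup Co0 := stabilizer Co0 V5 ⊓ stabilizer Co0 B ⊓ stabilizer Co0 X

theorem mem {M C : List ℕ} (h : okM M C = true) (h1 : rowOK e5 M e5 = true) (h2 : rowOK eB M eB = true)
    (h3 : rowOK eX M eX = true) : ofM M C h ∈ S := by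
  refine ⟨⟨?_, ?_⟩, ?_⟩
  · exact (rep_ofM h).fix (wf_of_ok h) (v := V5) vecV5 (by decide +kernel) h1
  · exact (rep_ofM h).fix (wf_of_ok h) (v := B) vecB (by decide +kernel) h2
  · exact (rep_ofM h).fix (wf_of_ok h) (v := X) rfl (by decide +kernel) h3

theorem mem0 : ofM H86.U35D.B0 H86.U35D.C0 H86.U35D.hO0 ∈ S := mem _ (by decide +kernel) (by decide +kernel) (by decide +kernel)

theorem swap : ofM H86.U35D.B0 H86.U35D.C0 H86.U35D.hO0 • X1 = X2 := by
  apply Subtype.ext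
  exact smul_vec (rep_ofM H86.U35D.hO0) (wf_of_ok H86.U35D.hO0) (e := e1) (e' := e2) (by decide +kernel) (by decide +kernel)
    (by decide +kernel) rfl

theorem to_X2 {x : leechLattice} (hx : InK x) : ∃ g : Co0, g • B = B ∧ g • V5 = V5 ∧ g • x = X2 := by
  rcases value_Q hx with h | h
  · obtain ⟨g, h1, h2, h3⟩ := transK hx inK_X1 (by rw [h, q1])
    refine ⟨ofM H86.U35D.B0 H86.U35D.C0 H86.U35D.hO0 * g, ?_, ?_, ?_⟩
    · rw [mul_smul, h1]; exact mem0.1.2
    · rw [mul_smul, h2]; exact mem0.1.1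
    · rw [mul_smul, h3, swap]
  · exact transK hx inK_X2 (by rw [h, q2])

theorem trans {x x' : leechLattice} (hx : InK x) (hx' : InK x') : ∃ g : Co0, g • B = B ∧ g • V5 = V5 ∧ g • x = x' := by
  obtain ⟨g, h1, h2, h3⟩ := to_X2 hx
  obtain ⟨g', h1', h2', h3'⟩ := to_X2 hx'
  exact ⟨g'⁻¹ * g, by rw [mul_smul, h1, inv_smul_eq_iff, h1'], by rw [mul_smul, h2, inv_smul_eq_iff, h2'],
    by rw [mul_smul, h3, inv_smul_eq_iff, h3']⟩

theorem card_hs : Nat.card ↥(stabilizer Co0 V5 ⊓ stabilizer Co0 B) = 44352000 := by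
  have hv : form V5 V5 = 6 := (norm_iff V5 6).1 (by rw [vecV5]; decide +kernel)
  have hu : form B B = 4 := (norm_iff B 4).1 (by rw [vecB]; decide +kernel)
  have hvu : form V5 B = 2 := by
    have h1 := eight_form V5 B
    have h2 : dotInt (V5 : GolayPt → ℤ) (B : GolayPt → ℤ) = 16 := by rw [vecV5, vecB]; decide +kernel
    omega
  exact (H63.LeechHS.isHS hv hu hvu).2

theorem card_S : Nat.card S ≤ 126000 := by
  refine card_inf_le (stabilizer Co0 V5 ⊓ stabilizer Co0 B) X {x : leechLattice | InK x}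
    (a := 44352000) (c := 352) ?_ count352 card_hs (by norm_num) (by norm_num)
  rintro x hx
  obtain ⟨g, hg1, hg2, hg3⟩ := trans inK_X hx
  exact ⟨g, ⟨hg2, hg1⟩, hg3⟩

open H86.U35D in
/-- the generators -/
noncomputable def gs : ℕ → S := fun j =>
  [(⟨ofM B0 C0 hO0, mem0⟩ : S),
    ⟨ofM B1 C1 hO1, mem _ (by decide +kernel) (by decide +kernel) (by decide +kernel)⟩,
    ⟨ofM B2 C2 hO2, mem _ (by decide +kernel) (by decide +kernel) (by decide +kernel)⟩].getD j 1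

theorem smul_gs : ∀ j < 3, ∀ k < 126, gs j • XS 50 H86.U35D.yT H86.U35D.tT k = XS 50 H86.U35D.yT H86.U35D.tT (tab 16 (H86.U35D.piL.getD j 0) k) := by
  intro j hj k hk
  interval_cases j
  · exact smul_XS H86.U35D.hY H86.U35D.hT (rep_ofM H86.U35D.hO0) (wf_of_ok H86.U35D.hO0) H86.U35D.hP0 H86.U35D.hS0 hk
  · exact smul_XS H86.U35D.hY H86.U35D.hT (rep_ofM H86.U35D.hO1) (wf_of_ok H86.U35D.hO1) H86.U35D.hP1 H86.U35D.hS1 hk
  · exact smul_XS H86.U35D.hY H86.U35D.hT (rep_ofM H86.U35D.hO2) (wf_of_ok H86.U35D.hO2) H86.U35D.hP2 H86.U35D.hS2 hk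

theorem card_psu (K : Type) [Field K] [Fintype K] (hK : Fintype.card K = 5 ^ 2) : Nat.card (PSU 3 K 5) = 126000 := by
  have h := Cfsg.Agent.S0280.result (F := K) (q := 5) hK 3 (by norm_num)
  simp only [Finset.prod_range_succ, Finset.prod_range_zero] at h
  rw [if_pos (by decide), if_neg (by decide), if_pos (by decide)] at h
  have hg : Nat.gcd 3 (5 + 1) = 3 := by decide
  rw [hg] at h
  norm_num at h
  omega

theorem iso_std (F : Type) [Field F] [Fintype F] (hF : Fintype.card F = 5 ^ 2) : Nonempty (S ≃* PSU 3 F 5) := by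
  obtain ⟨D⟩ := H86.UField.fd25 (F := F) hF
  exact psu_codes D (n := 3) (by norm_num) (by norm_num) (S := S) 126 H86.U35D.wT H86.U35D.iT
    (XS 50 H86.U35D.yT H86.U35D.tT) H86.U35D.hC H86.U35D.hI (XS_inj H86.U35D.hY H86.U35D.hT) 3 (by norm_num) gs
    H86.U35D.ctrL H86.U35D.cL H86.U35D.piL H86.U35D.hG smul_gs H86.U35D.parT H86.U35D.labT H86.U35D.depT H86.U35D.hB H86.U35D.hK
    (by rw [card_psu F hF]; exact card_S)

theorem iff_InK {v w : leechLattice} {g : Co0} (h1 : g • (v + w) = B) (h2 : g • v = V5) (x : leechLattice) :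
    (sqNorm (x : GolayPt → ℤ) = 32 ∧ dotInt (v : GolayPt → ℤ) (x : GolayPt → ℤ) = 16 ∧
      dotInt (w : GolayPt → ℤ) (x : GolayPt → ℤ) = -24) ↔ InK (g • x) := by
  have e1 : dotInt (B : GolayPt → ℤ) ((g • x : leechLattice) : GolayPt → ℤ) =
      dotInt (v : GolayPt → ℤ) x + dotInt (w : GolayPt → ℤ) x := by
    rw [← h1, co0_dot, AddSubgroup.coe_add, dot_add]
  have e2 : dotInt (V5 : GolayPt → ℤ) ((g • x : leechLattice) : GolayPt → ℤ) = dotInt (v : GolayPt → ℤ) x := by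
    rw [← h2, co0_dot]
  constructor
  · rintro ⟨a, b, c⟩
    exact ⟨by rw [co0_norm, a], by rw [e1, b, c]; norm_num, by rw [e2, b]⟩
  · rintro ⟨a, b, c⟩
    rw [co0_norm] at a
    rw [e1] at b
    rw [e2] at c
    exact ⟨a, c, by linarith⟩

/-- The Higman–Sims group acts transitively on 352 vectors, a set closed under x ↦ −w − x, with vector stabiliser isomorphic to PSU(3, 5). -/
theorem result (v w : ↥Cfsg.leechLattice) (hv : Cfsg.sqNorm (v : Cfsg.GolayPt → ℤ) = 48) (hw : Cfsg.sqNorm (w : Cfsg.GolayPt → ℤ) = 48) (hvw : Cfsg.dotInt (v : Cfsg.GolayPt → ℤ) (w : Cfsg.GolayPt → ℤ) = -32) (F : Type) [Field F] [Fintype F] (hF : Fintype.card F = 25) : {x : ↥Cfsg.leechLattice | Cfsg.sqNorm (x : Cfsg.GolayPt → ℤ) = 32 ∧ Cfsg.dotInt (v : Cfsg.GolayPt → ℤ) (x : Cfsg.GolayPt → ℤ) = 16 ∧ Cfsg.dotInt (w : Cfsg.GolayPt → ℤ) (x : Cfsg.GolayPt → ℤ) = -24}.ncard = 352 ∧ (∀ x ∈ {x : ↥Cfsg.leechLattice | Cfsg.sqNorm (x : Cfsg.GolayPt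 → ℤ) = 32 ∧ Cfsg.dotInt (v : Cfsg.GolayPt → ℤ) (x : Cfsg.GolayPt → ℤ) = 16 ∧ Cfsg.dotInt (w : Cfsg.GolayPt → ℤ) (x : Cfsg.GolayPt → ℤ) = -24}, -w - x ∈ {x : ↥Cfsg.leechLattice | Cfsg.sqNorm (x : Cfsg.GolayPt → ℤ) = 32 ∧ Cfsg.dotInt (v : Cfsg.GolayPt → ℤ) (x : Cfsg.GolayPt → ℤ) = 16 ∧ Cfsg.dotInt (w : Cfsg.GolayPt → ℤ) (x : Cfsg.GolayPt → ℤ) = -24}) ∧ (∀ x ∈ {x : ↥Cfsg.leechLattice | Cfsg.sqNorm (x : Cfsg.GolayPt → ℤ) = 32 ∧ Cfsg.dotInt (v : Cfsg.GolayPt → ℤ) (x : Cfsg.GolayPt → ℤ) = 16 ∧ Cfsg.dotInt (w : Cfsg.GolayPt → ℤ) (x : Cfsg.GolayPt → ℤ) = -24}, ∀ x' ∈ {x : ↥Cfsg.leechLattice | Cfsg.sqNorm (x : Cfsg.GolayPt → ℤ) = 32 ∧ Cfsg.dotInt (v : Cfsg.GolayPt → ℤ) (x : Cfsg.GolayPt → ℤ) = 16 ∧ Cfsg.dotInt (w : Cfsg.GolayPt → ℤ) (x : Cfsg.GolayPt → ℤ) = -24}, ∃ g : ↥Cfsg.Co0, g • v = v ∧ g • w = w ∧ g • x = x') ∧ ∀ x ∈ {x : ↥Cfsg.leechLattice | Cfsg.sqNorm (x : Cfsg.GolayPt → ℤ) = 32 ∧ Cfsg.dotInt (v : Cfsg.GolayPt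 → ℤ) (x : Cfsg.GolayPt → ℤ) = 16 ∧ Cfsg.dotInt (w : Cfsg.GolayPt → ℤ) (x : Cfsg.GolayPt → ℤ) = -24}, Nonempty (↥(MulAction.stabilizer ↥Cfsg.Co0 v ⊓ MulAction.stabilizer ↥Cfsg.Co0 w ⊓ MulAction.stabilizer ↥Cfsg.Co0 x) ≃* Cfsg.PSU 3 F 5) := by
  have h : PairH v w := ⟨hv, hw, hvw⟩
  obtain ⟨x0, hx0⟩ := exists_pt h
  obtain ⟨g, -, h1, h2⟩ := tripleH h hx0
  have hiff := iff_InK h1 h2
  refine ⟨?_, ?_, ?_, ?_⟩
  · exact (ncard_smul g _ {x | InK x} fun x => hiff x).trans count352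
  · rintro x ⟨a, b, c⟩
    have e1 : ((-w - x : leechLattice) : GolayPt → ℤ) = (-w : GolayPt → ℤ) - (x : GolayPt → ℤ) := rfl
    have k1 : dotInt (v : GolayPt → ℤ) (-w : GolayPt → ℤ) = 32 := by
      have : dotInt (v : GolayPt → ℤ) (-w : GolayPt → ℤ) = -dotInt (v : GolayPt → ℤ) (w : GolayPt → ℤ) := by
        unfold dotInt
        rw [← Finset.sum_neg_distrib]
        exact Finset.sum_congr rfl fun i _ => by rw [Pi.neg_apply]; ring
      rw [this, hvw]; norm_num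
    have k2 : dotInt (w : GolayPt → ℤ) (-w : GolayPt → ℤ) = -48 := by
      have : dotInt (w : GolayPt → ℤ) (-w : GolayPt → ℤ) = -sqNorm (w : GolayPt → ℤ) := by
        unfold dotInt sqNorm
        rw [← Finset.sum_neg_distrib]
        exact Finset.sum_congr rfl fun i _ => by rw [Pi.neg_apply]; ring
      rw [this, hw]
    have k3 : ∀ y : GolayPt → ℤ, dotInt y ((-w : GolayPt → ℤ) - (x : GolayPt → ℤ)) = dotInt y (-w : GolayPt → ℤ) - dotInt y (x : GolayPt → ℤ) := by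
      intro y
      unfold dotInt
      rw [← Finset.sum_sub_distrib]
      exact Finset.sum_congr rfl fun i _ => by rw [Pi.sub_apply]; ring
    refine ⟨?_, ?_, ?_⟩
    · rw [e1]
      have : sqNorm ((-w : GolayPt → ℤ) - (x : GolayPt → ℤ)) = sqNorm (w : GolayPt → ℤ) + sqNorm (x : GolayPt → ℤ) + 2 * dotInt (w : GolayPt → ℤ) (x : GolayPt → ℤ) := by
        unfold dotInt sqNorm
        rw [Finset.mul_sum, ← Finset.sum_add_distrib, ← Finset.sum_add_distrib]
        exact Finset.sum_congr rfl fun i _ => by rw [Pi.sub_apply, Pi.neg_apply]; ring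
      rw [this, hw, a, c]; norm_num
    · rw [e1, k3, k1, b]; norm_num
    · rw [e1, k3, k2, c]; norm_num
  · intro x hx x' hx'
    obtain ⟨k, k1, k2, k3⟩ := trans ((hiff x).1 hx) ((hiff x').1 hx')
    have e1 : (g⁻¹ * k * g) • v = v := by rw [mul_smul, mul_smul, h2, k2, inv_smul_eq_iff, h2]
    have e2 : (g⁻¹ * k * g) • (v + w) = v + w := by rw [mul_smul, mul_smul, h1, k1, inv_smul_eq_iff, h1]
    refine ⟨g⁻¹ * k * g, e1, ?_, by rw [mul_smul, mul_smul, k3, inv_smul_smul]⟩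
    have := fix_w (g := g⁻¹ * k * g) (g' := 1) (v := v) (w := w) (by rw [e1, one_smul]) (by rw [e2, one_smul])
    rw [one_smul] at this
    exact this
  · intro x hx
    obtain ⟨k, k1, k2, k3⟩ := trans ((hiff x).1 hx) inK_X
    obtain ⟨e⟩ := iso_std F hF
    have hsub : stabilizer Co0 v ⊓ stabilizer Co0 w ⊓ stabilizer Co0 x = stabilizer Co0 v ⊓ stabilizer Co0 (v + w) ⊓ stabilizer Co0 x := by
      congr 1
      ext r
      rw [Subgroup.mem_inf, Subgroup.mem_inf, mem_stabilizer_iff, mem_stabilizer_iff, mem_stabilizer_iff, co0_add]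
      constructor
      · rintro ⟨h3, h4⟩; exact ⟨h3, by rw [h3, h4]⟩
      · rintro ⟨h3, h4⟩
        rw [h3] at h4
        exact ⟨h3, add_left_cancel h4⟩
    exact ⟨((MulEquiv.subgroupCongr hsub).trans (equiv3 (g := k * g) (a' := V5) (b' := B) (c' := X)
      (by rw [mul_smul, h2, k2]) (by rw [mul_smul, h1, k1]) (by rw [mul_smul, k3]))).trans e⟩

end Cfsg.Agent.S1633
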