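import Cfsg.Statements.S1720
import Cfsg.Agent.S1721
import Cfsg.Agent.S5382
import Cfsg.Agent.Lib.H58.J2O
import Cfsg.Agent.Lib.H26.Components
-- import your own Cfsg.Agent.* helpers here

set_option autoImplicit false
open Cfsg

namespace Cfsg.Agent.S1720

/-- Uniqueness of the Hall–Janko group under the large-extraspecial hypothesis: let G be a finite group with an involution z whose centraliser C has generalised Fitting subgroup Q extraspecial of order 32, with C / Q isomorphic to Ω⁻(4, 2) (the commutator subgroup of the isometry group of the elliptic quadratic form x₁y₁ + z₁² + z₁z₂ + z₂² over the field with 2 elements); suppose some conjugate of z different from z lies in Q and G has two involutions that are not conjugate. Then G is isomorphic to the Hall–Janko group J₂. -/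
theorem result {G : Type*} [Group G] [Finite G] (z : G) (hz : orderOf z = 2) (Q : Subgroup (Subgroup.centralizer ({z} : Set G))) [Q.Normal] (hF : Cfsg.generalizedFittingSubgroup (Subgroup.centralizer ({z} : Set G)) = Q) (hQ : Cfsg.IsExtraspecial 2 Q) (hcard : Nat.card Q = 2 ^ 5) (e : (Subgroup.centralizer ({z} : Set G)) ⧸ Q ≃* Cfsg.Omega (ZMod 2) (Cfsg.quadFormMinus 1 (ZMod 2) 1 1)) (hnwc : ∃ g : G, (∃ hq : g * z * g⁻¹ ∈ Subgroup.centralizer ({z} : Set G), (⟨g * z * g⁻¹, hq⟩ : Subgroup.centralizer ({z} : Set G)) ∈ Q) ∧ g * z * g⁻¹ ≠ z) (hcl : ∃ x y : G, orderOf x = 2 ∧ orderOf y = 2 ∧ ¬ IsConj x y) : Cfsg.Spor.IsoJ2 G := by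
  have hord : Nat.card G = 604800 := Cfsg.Agent.S1721.result z hz Q hF hQ hcard e hnwc hcl
  have hcc : Subgroup.centralizer (Q : Set (Subgroup.centralizer ({z} : Set G))) ≤ Q := by
    have h1 := H26.Components.centralizer_gFitting_le (G := Subgroup.centralizer ({z} : Set G))
    rw [hF] at h1
    exact h1
  have h60 : Nat.card (Subgroup.centralizer ({z} : Set G) ⧸ Q) = 60 := by
    rw [Nat.card_congr e.toEquiv]
    exact H58.J2O.card_omega
  exact H58.J2O.main' z hz (Subgroup.centralizer ({z} : Set G)) (fun g => Subgroup.mem_centralizer_singleton_iff) Q inferInstance hcc hQ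
    (by rw [hcard]; norm_num) h60 hnwc hcl hord
    (fun t ht htz => (Cfsg.Agent.S5382.result z hz Q hF hQ hcard e hnwc hcl t ht htz).2)


end Cfsg.Agent.S1720
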