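import Cfsg.Statements.S1666
import Cfsg.Agent.Lib.H86.HSRec

set_option autoImplicit false
open Cfsg

namespace Cfsg.Agent.S1666

/-- Recognition of the Higman–Sims group as a rank 3 permutation group: a transitive permutation group on 100 points in which the stabiliser of a point is isomorphic to the Mathieu group M₂₂ and has two further orbits, of sizes 22 and 77, is isomorphic to the Higman–Sims group. -/
theorem result {Ω : Type*} [Fintype Ω] [DecidableEq Ω] (hΩ : Fintype.card Ω = 100) (G : Subgroup (Equiv.Perm Ω)) [MulAction.IsPretransitive G Ω] (a : Ω)  (e : MulAction.stabilizer G a ≃* Cfsg.Spor.M22) (b c : Ω) (hb : (MulAction.orbit (MulAction.stabilizer G a) b).ncard = 22) (hc : (MulAction.orbit (MulAction.stabilizer G a) c).ncard = 77) : Cfsg.Spor.IsoHS G := by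
  classical
  obtain ⟨Γ, hinv, hd, s, t, hsrg, hs, ht⟩ := H86.Rank3.exists_srg (G := G) (n := 100) hΩ hb hc (by norm_num)
    (by norm_num) (by norm_num)
  obtain ⟨rfl, rfl⟩ := H86.HSRec.params hsrg hs ht
  let φ : G →* (Γ ≃g Γ) :=
    { toFun := fun g => ⟨MulAction.toPerm g, fun {x y} => hinv g x y⟩
      map_one' := by apply RelIso.ext; intro x; exact one_smul G x
      map_mul' := fun g h => by apply RelIso.ext; intro x; exact mul_smul g h x }
  have hφ : Function.Injective φ := by
    intro g h hgh
    apply Subtype.ext
    apply Equiv.ext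
    intro x
    exact congrArg (fun f : Γ ≃g Γ => f x) hgh
  have hcard : Nat.card G = 44352000 := by
    have h1 := (MulAction.stabilizer G a).card_mul_index
    have h2 : (MulAction.stabilizer G a).index = 100 := by
      rw [MulAction.index_stabilizer_of_transitive, Nat.card_eq_fintype_card, hΩ]
    rw [← h1, h2, Nat.card_congr e.toEquiv, H40.OutM22.card_M22]
  exact H86.HSRec.iso_of_graph hsrg φ hφ hcard

end Cfsg.Agent.S1666
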