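import Cfsg.Statements.S1680
import Cfsg.Agent.Lib.H34.Suz0.Main
-- import your own Cfsg.Agent.* helpers here

set_option autoImplicit false
open Cfsg

namespace Cfsg.Agent.S1680

/-- In the presented sporadic Suzuki group, let H be the subgroup generated by the images of a, …, f. Then H has index 1782, H has orbits of sizes 416 and 1365 on the cosets of H other than H itself (with the index 1782 this makes the action rank 3). -/
theorem result : (((Subgroup.closure ({Cfsg.Spor.Suz.a, Cfsg.Spor.Suz.b, Cfsg.Spor.Suz.c, Cfsg.Spor.Suz.d, Cfsg.Spor.Suz.e, Cfsg.Spor.Suz.f} : Set (FreeGroup Cfsg.Spor.Suz.Gen))).map (PresentedGroup.mk (Cfsg.Spor.coxRelators Cfsg.Spor.Suz.edges ∪ {r | r ∈ Cfsg.Spor.Suz.extra})))).index = 1782 ∧ ∃ q₁ q₂ : Cfsg.Spor.Suz ⧸ (((Subgroup.closure ({Cfsg.Spor.Suz.a, Cfsg.Spor.Suz.b, Cfsg.Spor.Suz.c, Cfsg.Spor.Suz.d, Cfsg.Spor.Suz.e, Cfsg.Spor.Suz.f}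 : Set (FreeGroup Cfsg.Spor.Suz.Gen))).map (PresentedGroup.mk (Cfsg.Spor.coxRelators Cfsg.Spor.Suz.edges ∪ {r | r ∈ Cfsg.Spor.Suz.extra})))), (MulAction.orbit (((Subgroup.closure ({Cfsg.Spor.Suz.a, Cfsg.Spor.Suz.b, Cfsg.Spor.Suz.c, Cfsg.Spor.Suz.d, Cfsg.Spor.Suz.e, Cfsg.Spor.Suz.f} : Set (FreeGroup Cfsg.Spor.Suz.Gen))).map (PresentedGroup.mk (Cfsg.Spor.coxRelators Cfsg.Spor.Suz.edges ∪ {r | r ∈ Cfsg.Spor.Suz.extra})))) q₁).ncard = 416 ∧ (MulAction.orbit (((Subgroup.closure ({Cfsg.Spor.Suz.a, Cfsg.Spor.Suz.b, Cfsg.Spor.Suz.c, Cfsg.Spor.Suz.d, Cfsg.Spor.Suz.e, Cfsg.Spor.Suz.f} : Set (FreeGroup Cfsg.Spor.Suz.Gen))).map (PresentedGroup.mk (Cfsg.Spor.coxRelators Cfsg.Spor.Suz.edges ∪ {r | r ∈ Cfsg.Spor.Suz.extra})))) q₂).ncard = 1365 := by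
  set H : Subgroup (Cfsg.Spor.CoxPresented Cfsg.Spor.Suz.Gen Cfsg.Spor.Suz.edges Cfsg.Spor.Suz.extra) := (((Subgroup.closure ({Cfsg.Spor.Suz.a, Cfsg.Spor.Suz.b, Cfsg.Spor.Suz.c, Cfsg.Spor.Suz.d, Cfsg.Spor.Suz.e, Cfsg.Spor.Suz.f} : Set (FreeGroup Cfsg.Spor.Suz.Gen))).map (PresentedGroup.mk (Cfsg.Spor.coxRelators Cfsg.Spor.Suz.edges ∪ {r | r ∈ Cfsg.Spor.Suz.extra})))) with hHdef
  have hH : H = Subgroup.closure {x | ∃ w ∈ H34.Suz0.hw, x = H34.TC.wp (H34.TC.ell H34.Suz0.gens (H34.TC.gn Cfsg.Spor.Suz.edges Cfsg.Spor.Suz.extra)) w} := by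
    rw [hHdef, MonoidHom.map_closure]
    congr 1
    ext x
    simp only [Set.image_insert_eq, Set.image_singleton, Set.mem_insert_iff, Set.mem_singleton_iff, Set.mem_ofPred_eq,
      H34.Suz0.hw, List.mem_cons, List.not_mem_nil, or_false, exists_eq_or_imp, exists_eq_left, H34.TC.wp,
      map_mul, one_mul, pow_succ, pow_zero, mul_assoc]
    rfl
  obtain ⟨hidx, φ, e, hp, hφ, he, he1, htr, horb⟩ := H34.Suz0.main H hH
  have hb0 : H34.TC.blkOK H34.Suz0.bs 1366 1782 1782 = true := by decide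
  have ho0 := horb 1366 1782 (by norm_num) (by norm_num) (H34.TC.blk_lab hb0) (H34.TC.blk_ns hb0)
  have hb1 : H34.TC.blkOK H34.Suz0.bs 1 1366 1782 = true := by decide
  have ho1 := horb 1 1366 (by norm_num) (by norm_num) (H34.TC.blk_lab hb1) (H34.TC.blk_ns hb1)
  refine ⟨hidx, e.symm ⟨1366, by norm_num⟩, e.symm ⟨1, by norm_num⟩, ho0.1, ho1.1⟩

end Cfsg.Agent.S1680
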