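import Cfsg.Statements.S1681
import Cfsg.Agent.Lib.H34.Suz1.Main
-- import your own Cfsg.Agent.* helpers here

set_option autoImplicit false
open Cfsg

namespace Cfsg.Agent.S1681

/-- In the presented sporadic Suzuki group (generators a, …, g), the subgroup generated by the images of a, b, c, d, f, g has index 22880. -/
theorem result : (((Subgroup.closure ({Cfsg.Spor.Suz.a, Cfsg.Spor.Suz.b, Cfsg.Spor.Suz.c, Cfsg.Spor.Suz.d, Cfsg.Spor.Suz.f, Cfsg.Spor.Suz.g} : Set (FreeGroup Cfsg.Spor.Suz.Gen))).map (PresentedGroup.mk (Cfsg.Spor.coxRelators Cfsg.Spor.Suz.edges ∪ {r | r ∈ Cfsg.Spor.Suz.extra})))).index = 22880 := by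
  set H : Subgroup (Cfsg.Spor.CoxPresented Cfsg.Spor.Suz.Gen Cfsg.Spor.Suz.edges Cfsg.Spor.Suz.extra) := (((Subgroup.closure ({Cfsg.Spor.Suz.a, Cfsg.Spor.Suz.b, Cfsg.Spor.Suz.c, Cfsg.Spor.Suz.d, Cfsg.Spor.Suz.f, Cfsg.Spor.Suz.g} : Set (FreeGroup Cfsg.Spor.Suz.Gen))).map (PresentedGroup.mk (Cfsg.Spor.coxRelators Cfsg.Spor.Suz.edges ∪ {r | r ∈ Cfsg.Spor.Suz.extra})))) with hHdef
  have hH : H = Subgroup.closure {x | ∃ w ∈ H34.Suz1.hw, x = H34.TC.wp (H34.TC.ell H34.Suz1.gens (H34.TC.gn Cfsg.Spor.Suz.edges Cfsg.Spor.Suz.extra)) w} := by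
    rw [hHdef, MonoidHom.map_closure]
    congr 1
    ext x
    simp only [Set.image_insert_eq, Set.image_singleton, Set.mem_insert_iff, Set.mem_singleton_iff, Set.mem_ofPred_eq,
      H34.Suz1.hw, List.mem_cons, List.not_mem_nil, or_false, exists_eq_or_imp, exists_eq_left, H34.TC.wp,
      map_mul, one_mul, pow_succ, pow_zero, mul_assoc]
    rfl
  obtain ⟨hidx, φ, e, hp, hφ, he, he1, htr, horb⟩ := H34.Suz1.main H hH
  exact hidx

end Cfsg.Agent.S1681
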