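import Cfsg.Statements.S1686
import Cfsg.Agent.Lib.H34.O73Fin
import Cfsg.Agent.Lib.H34.O73Chain

set_option autoImplicit false
open Cfsg

namespace Cfsg.Agent.S1686

open H34.O73 H34.IsoRow H35.TC H35.Net
open H35.TCFi22C (Lt mm extra inv lt)

theorem iso_aux : Nonempty (H35.Fi22Main.H1 ≃* Cfsg.POmega (ZMod 3) (Cfsg.quadFormOdd 3 (ZMod 3))) := by
  have hP := card_chain (g := gen mm extra) gen_hp gen_he
  rw [gen_top] at hP
  have e : Nat.card (⊤ : Subgroup (PG mm extra)) = Nat.card (PG mm extra) := Nat.card_congr Subgroup.topEquiv.toEquiv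
  rw [e] at hP
  -- the simple group
  have hodd : Odd (Fintype.card (ZMod 3)) := by rw [ZMod.card]; decide
  have hsimp := Cfsg.Agent.S0295.result (F := ZMod 3) hodd 3 le_rfl
  have hcard := Cfsg.Agent.S0292.result (F := ZMod 3) (q := 3) (ZMod.card 3) (by decide) 3 le_rfl
  have hcard' : 4585351680 ≤ Nat.card (Cfsg.POmega (ZMod 3) (Cfsg.quadFormOdd 3 (ZMod 3))) := by
    have h9 : (3 : ℕ) ^ (3 ^ 2) * ∏ i ∈ Finset.range 3, (3 ^ (2 * (i + 1)) - 1) = 2 * 4585351680 := by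
      simp only [Finset.prod_range_succ, Finset.prod_range_zero, one_mul]
      norm_num
    rw [h9] at hcard
    omega
  -- the map to the matrix group
  obtain ⟨Φ, hΦ⟩ := exists_hom (mm := mm) (ex := extra) TT hpT heT
  have hrange : Φ.range = KK := by
    have h1 : (⊤ : Subgroup (PG mm extra)).map Φ = KK := by
      rw [← gen_top, MonoidHom.map_closure, ← Set.range_comp]
      congr 1
      ext y
      constructor
      · rintro ⟨x, rfl⟩; exact ⟨x, (hΦ x).symm⟩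
      · rintro ⟨x, rfl⟩; exact ⟨x, hΦ x⟩
    rw [← h1, ← MonoidHom.range_eq_map]
  have hcomm : ∀ x, Φ x ∈ commutator I := by
    intro x
    have h1 : Φ x ∈ KK := by rw [← hrange]; exact ⟨x, rfl⟩
    have h2 : KK ≤ commutator I := by
      rw [Subgroup.closure_le]
      rintro _ ⟨y, rfl⟩
      exact TT_mem y
    exact h2 h1
  have hsurj := surj_of_normal_image Φ hcomm (by
    intro g x
    rw [hrange]
    refine conj_mem g ?_
    rw [← hrange]; exact ⟨x, rfl⟩) ⟨gen mm extra .b, gen mm extra .c, by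
      rw [hΦ, hΦ]; exact TT_ncomm⟩ hsimp
  obtain ⟨e1⟩ := iso_of_surj _ hsurj hP.1 hP.2 hcard'
  -- the map to the subgroup of the presented group
  have hf := H35.Fi22Main.fin
  have hp1 : ∀ x y, (H35.Fi22Main.gP (H35.Fi22Main.i1 x) * H35.Fi22Main.gP (H35.Fi22Main.i1 y)) ^ mm x y = 1 :=
    transfer_hp H35.Fi22Main.hpP H35.Fi22Main.i1 (by intro x y; cases x <;> cases y <;> decide)
  have he1 : ∀ p ∈ extra, ((p.1.map (fun x => H35.Fi22Main.gP (H35.Fi22Main.i1 x))).prod) ^ p.2 = 1 :=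
    transfer_he H35.Fi22Main.heP H35.Fi22Main.i1 (by decide)
  obtain ⟨Ψ, hΨ⟩ := exists_hom (mm := mm) (ex := extra) (fun x => H35.Fi22Main.gP (H35.Fi22Main.i1 x)) hp1 he1
  have hr2 : Ψ.range = H35.Fi22Main.H1 := by
    have h1 : (⊤ : Subgroup (PG mm extra)).map Ψ = H35.Fi22Main.H1 := by
      rw [← gen_top, MonoidHom.map_closure, ← Set.range_comp]
      unfold H35.Fi22Main.H1
      congr 1
      ext y
      constructor
      · rintro ⟨x, rfl⟩; exact ⟨x, (hΨ x).symm⟩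
      · rintro ⟨x, rfl⟩; exact ⟨x, hΨ x⟩
    rw [← h1, ← MonoidHom.range_eq_map]
  obtain ⟨e2⟩ := iso_of_surj Ψ.rangeRestrict Ψ.rangeRestrict_surjective hP.1 hP.2 (by
    rw [hr2, H35.Fi22Index.H1_card])
  rw [hr2] at e2
  exact ⟨e2.symm.trans e1⟩

/-- In the presented Fischer group Fi₂₂, the subgroup generated by the images of b, …, i is isomorphic to PΩ(7, 3), the commutator subgroup of the isometry group of the quadratic form x₀² + x₁y₁ + x₂y₂ + x₃y₃ over the integers mod 3, modulo its centre. -/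
theorem result : Nonempty ((((Subgroup.closure ({Cfsg.Spor.Fi22.b, Cfsg.Spor.Fi22.c, Cfsg.Spor.Fi22.d, Cfsg.Spor.Fi22.e, Cfsg.Spor.Fi22.f, Cfsg.Spor.Fi22.g, Cfsg.Spor.Fi22.h, Cfsg.Spor.Fi22.i} : Set (FreeGroup Cfsg.Spor.Fi22.Gen))).map (PresentedGroup.mk (Cfsg.Spor.coxRelators Cfsg.Spor.Fi22.edges ∪ {r | r ∈ Cfsg.Spor.Fi22.extra})))) ≃* Cfsg.POmega (ZMod 3) (Cfsg.quadFormOdd 3 (ZMod 3))) := by
  obtain ⟨e⟩ := iso_aux
  exact ⟨(MulEquiv.subgroupCongr H35.Fi22Index.HW_eq).trans e⟩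

end Cfsg.Agent.S1686
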