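import Cfsg.Statements.S1717

set_option autoImplicit false
open Cfsg

namespace Cfsg.Agent.S1717


/-- General principle: if a Sylow 2-subgroup `T` of `C_G(z)` has centre `⟨z⟩`, then it is Sylow in `G`. -/
theorem sylow_of_center {G : Type*} [Group G] [Finite G] (z : G) (hz : orderOf z = 2)
    (C : Subgroup G) (hC : C = Subgroup.centralizer ({z} : Set G))
    (T : Sylow 2 C)
    (hT : ∀ x ∈ T, (∀ y ∈ T, x * y = y * x) → x = 1 ∨ (x : G) = z) :
    ¬ 2 ∣ ((T : Subgroup C).map (Subgroup.subtype C)).index := by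
  classical
  set T' : Subgroup G := (T : Subgroup C).map C.subtype with hT'
  have hT'p : IsPGroup 2 T' := T.isPGroup'.map C.subtype
  obtain ⟨S, hS⟩ := hT'p.exists_le_sylow
  -- z in T'
  have hzC : z ∈ C := by rw [hC]; exact Subgroup.mem_centralizer_singleton_iff.mpr rfl
  have hzT : (⟨z, hzC⟩ : C) ∈ (T : Subgroup C) := by
    have hcen : (⟨z, hzC⟩ : C) ∈ Subgroup.center C := by
      rw [Subgroup.mem_center_iff]
      rintro ⟨g, hg⟩
      apply Subtype.ext
      rw [hC] at hg
      exact Subgroup.mem_centralizer_singleton_iff.mp hg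
    have hn : (Subgroup.zpowers (⟨z, hzC⟩ : C)).Normal := by
      refine ⟨fun n hn g => ?_⟩
      have h1 : n ∈ Subgroup.center C := (Subgroup.zpowers_le.mpr hcen) hn
      have h2 : g * n * g⁻¹ = n := by
        rw [Subgroup.mem_center_iff.mp h1 g]; group
      rw [h2]; exact hn
    have hp : IsPGroup 2 (Subgroup.zpowers (⟨z, hzC⟩ : C)) := by
      apply IsPGroup.of_card (n := 1)
      rw [Nat.card_zpowers, Subgroup.orderOf_mk, hz, pow_one]
    exact (hp.le_sylow_of_normal T) (Subgroup.mem_zpowers _)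
  have hmax : ∀ g ∈ (S : Subgroup G), g ∈ C → g ∈ T' := by
    intro g hgS hgC
    have h1 : IsPGroup 2 ((S : Subgroup G).comap C.subtype) :=
      S.isPGroup'.comap_of_injective C.subtype C.subtype_injective
    have h2 : (T : Subgroup C) ≤ (S : Subgroup G).comap C.subtype := by
      rw [← Subgroup.map_le_iff_le_comap]
      exact hS
    have h3 := T.is_maximal' h1 h2
    have h4 : (⟨g, hgC⟩ : C) ∈ (S : Subgroup G).comap C.subtype := hgS
    rw [h3] at h4
    exact ⟨_, h4, rfl⟩
  by_cases hST : T' = S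
  · rw [hST]
    exact S.not_dvd_index
  · exfalso
    have hlt : T'.subgroupOf S < ⊤ := by
      rw [lt_top_iff_ne_top]
      intro h
      rw [Subgroup.subgroupOf_eq_top] at h
      exact hST (le_antisymm hS h)
    have hnil : Group.IsNilpotent (S : Subgroup G) := S.isPGroup'.isNilpotent
    have hnc := Group.normalizerCondition_of_isNilpotent (G := (S : Subgroup G)) _ hlt
    obtain ⟨g, hg1, hg2⟩ := SetLike.exists_of_lt hnc
    have hgT : (g : G) ∉ T' := fun h => hg2 h
    have hnorm : ∀ x : G, x ∈ T' → (g : G) * x * (g : G)⁻¹ ∈ T' := by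
      intro x hx
      have h5 := (Subgroup.mem_normalizer_iff.mp hg1 ⟨x, hS hx⟩).mp hx
      exact h5
    have hnorm' : ∀ x : G, x ∈ T' → (g : G)⁻¹ * x * (g : G) ∈ T' := by
      intro x hx
      have h5 := (Subgroup.mem_normalizer_iff''.mp hg1 ⟨x, hS hx⟩).mp hx
      exact h5
    have hzg : (g : G) * z * (g : G)⁻¹ ∈ T' := hnorm z ⟨_, hzT, rfl⟩
    obtain ⟨w, hwT, hw⟩ := hzg
    have hw' : (w : G) = (g : G) * z * (g : G)⁻¹ := hw
    have h6 : w = 1 ∨ (w : G) = z := by
      apply hT w hwT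
      intro y hy
      apply Subtype.ext
      rw [Subgroup.coe_mul, Subgroup.coe_mul, hw']
      have h7 : (g : G)⁻¹ * y * (g : G) ∈ T' := hnorm' y ⟨y, hy, rfl⟩
      obtain ⟨v, hvT, hv⟩ := h7
      have h8 : (v : G) * z = z * v := Subgroup.mem_centralizer_singleton_iff.mp (hC ▸ v.2)
      have hv' : (v : G) = (g : G)⁻¹ * y * (g : G) := hv
      rw [hv'] at h8
      calc (g : G) * z * (g : G)⁻¹ * y = g * (z * ((g : G)⁻¹ * y * g)) * (g : G)⁻¹ := by group
        _ = g * (((g : G)⁻¹ * y * g) * z) * (g : G)⁻¹ := by rw [h8]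
        _ = y * ((g : G) * z * (g : G)⁻¹) := by group
    have hz1 : z ≠ 1 := by
      rintro rfl
      rw [orderOf_one] at hz
      norm_num at hz
    rcases h6 with h6 | h6
    · apply hz1
      rw [h6] at hw'
      have h9 : (1 : G) = (g : G) * z * (g : G)⁻¹ := hw'
      calc z = (g : G)⁻¹ * ((g : G) * z * (g : G)⁻¹) * g := by group
        _ = 1 := by rw [← h9]; group
    · rw [h6] at hw'
      apply hgT
      apply hmax g g.2
      rw [hC, Subgroup.mem_centralizer_singleton_iff]
      have h10 := hw'.symm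
      rw [mul_inv_eq_iff_eq_mul] at h10
      exact h10

abbrev SL5 := Matrix.SpecialLinearGroup (Fin 5) (ZMod 2)

/-- entries of a matrix commuting with the transvection -/
theorem entries (s : SL5) (hs : (s : Matrix (Fin 5) (Fin 5) (ZMod 2)) = Matrix.transvection 0 1 1) (g : SL5)
    (hg : g * s = s * g) :
    (∀ i, i ≠ 0 → (g : Matrix (Fin 5) (Fin 5) (ZMod 2)) i 0 = 0) ∧
    (∀ j, j ≠ 1 → (g : Matrix (Fin 5) (Fin 5) (ZMod 2)) 1 j = 0) ∧
    (g : Matrix (Fin 5) (Fin 5) (ZMod 2)) 0 0 = 1 ∧ (g : Matrix (Fin 5) (Fin 5) (ZMod 2)) 1 1 = 1 := by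
  have h1 : (g : Matrix (Fin 5) (Fin 5) (ZMod 2)) * Matrix.single 0 1 1 =
      Matrix.single 0 1 1 * (g : Matrix (Fin 5) (Fin 5) (ZMod 2)) := by
    have h2 := congrArg (fun x : SL5 => (x : Matrix (Fin 5) (Fin 5) (ZMod 2))) hg
    simp only [Matrix.SpecialLinearGroup.coe_mul, hs, Matrix.transvection, mul_add, add_mul, mul_one, one_mul] at h2
    exact add_left_cancel h2
  have h3 : ∀ i, i ≠ 0 → (g : Matrix (Fin 5) (Fin 5) (ZMod 2)) i 0 = 0 := by
    intro i hi
    have h4 := congrFun (congrFun h1 i) 1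
    rw [Matrix.mul_single_apply_same, Matrix.single_mul_apply_of_ne _ _ _ _ _ hi] at h4
    simpa using h4
  have h5 : ∀ j, j ≠ 1 → (g : Matrix (Fin 5) (Fin 5) (ZMod 2)) 1 j = 0 := by
    intro j hj
    have h4 := congrFun (congrFun h1 0) j
    rw [Matrix.single_mul_apply_same, Matrix.mul_single_apply_of_ne _ _ _ _ _ hj] at h4
    simpa using h4.symm
  have h6 : (g : Matrix (Fin 5) (Fin 5) (ZMod 2)) 0 0 = (g : Matrix (Fin 5) (Fin 5) (ZMod 2)) 1 1 := by
    have h4 := congrFun (congrFun h1 0) 1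
    rw [Matrix.single_mul_apply_same, Matrix.mul_single_apply_same] at h4
    simpa using h4
  have h7 : (g : Matrix (Fin 5) (Fin 5) (ZMod 2)) 0 0 = 1 := by
    have h8 : (g : Matrix (Fin 5) (Fin 5) (ZMod 2)) 0 0 = 0 ∨ (g : Matrix (Fin 5) (Fin 5) (ZMod 2)) 0 0 = 1 := by
      generalize (g : Matrix (Fin 5) (Fin 5) (ZMod 2)) 0 0 = x
      revert x
      decide
    rcases h8 with h8 | h8
    · exfalso
      have h9 : (g : Matrix (Fin 5) (Fin 5) (ZMod 2)).det = 0 := by
        apply Matrix.det_eq_zero_of_column_eq_zero 0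
        intro i
        by_cases hi : i = 0
        · rw [hi]; exact h8
        · exact h3 i hi
      rw [g.2] at h9
      exact one_ne_zero h9
    · exact h8
  exact ⟨h3, h5, h7, h6 ▸ h7⟩

/-- the three-dimensional block -/
def block (s : SL5) (hs : (s : Matrix (Fin 5) (Fin 5) (ZMod 2)) = Matrix.transvection 0 1 1) :
    Subgroup.centralizer ({s} : Set SL5) →* Matrix (Fin 3) (Fin 3) (ZMod 2) where
  toFun g := ((g : SL5) : Matrix (Fin 5) (Fin 5) (ZMod 2)).submatrix ![2,3,4] ![2,3,4]
  map_one' := by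
    change (1 : Matrix (Fin 5) (Fin 5) (ZMod 2)).submatrix ![2,3,4] ![2,3,4] = 1
    decide
  map_mul' := by
    rintro ⟨g, hg⟩ ⟨h, hh⟩
    have hg' := entries s hs g (Subgroup.mem_centralizer_singleton_iff.mp hg)
    have hh' := entries s hs h (Subgroup.mem_centralizer_singleton_iff.mp hh)
    ext i j
    simp only [Subgroup.coe_mul, Matrix.SpecialLinearGroup.coe_mul, Matrix.mul_apply, Fin.sum_univ_five, Fin.sum_univ_three,
      Matrix.submatrix_apply]
    have e1 : (g : Matrix (Fin 5) (Fin 5) (ZMod 2)) (![2,3,4] i) 0 = 0 := by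
      apply hg'.1
      fin_cases i <;> simp
    have e2 : (h : Matrix (Fin 5) (Fin 5) (ZMod 2)) 1 (![2,3,4] j) = 0 := by
      apply hh'.2.1
      fin_cases j <;> simp
    rw [e1, e2]
    simp

theorem mk4 : ∀ a b c d p q r : ZMod 2, ∀ M : Matrix (Fin 5) (Fin 5) (ZMod 2),
    M = !![1,a,b,c,d; 0,1,0,0,0; 0,p,1,0,0; 0,q,0,1,0; 0,r,0,0,1] → (M * M) * (M * M) = 1 := by
  rintro a b c d p q r M rfl
  ext i j
  fin_cases i <;> fin_cases j <;> simp [Matrix.mul_apply, Fin.sum_univ_succ, CharTwo.add_self_eq_zero]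

theorem ker_isPGroup (s : SL5) (hs : (s : Matrix (Fin 5) (Fin 5) (ZMod 2)) = Matrix.transvection 0 1 1) :
    IsPGroup 2 (block s hs).ker := by
  rintro ⟨⟨g, hg⟩, hk⟩
  have hg' := entries s hs g (Subgroup.mem_centralizer_singleton_iff.mp hg)
  refine ⟨2, ?_⟩
  apply Subtype.ext
  apply Subtype.ext
  apply Subtype.ext
  have hk1 : block s hs ⟨g, hg⟩ = 1 := (MonoidHom.mem_ker (f := block s hs)).mp hk
  have hk' : ∀ i j : Fin 3, (g : Matrix (Fin 5) (Fin 5) (ZMod 2)) (![2,3,4] i) (![2,3,4] j) = (1 : Matrix (Fin 3) (Fin 3) (ZMod 2)) i j := by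
    intro i j
    rw [← hk1]
    rfl
  have := mk4 ((g : Matrix (Fin 5) (Fin 5) (ZMod 2)) 0 1) ((g : Matrix (Fin 5) (Fin 5) (ZMod 2)) 0 2)
    ((g : Matrix (Fin 5) (Fin 5) (ZMod 2)) 0 3) ((g : Matrix (Fin 5) (Fin 5) (ZMod 2)) 0 4)
    ((g : Matrix (Fin 5) (Fin 5) (ZMod 2)) 2 1) ((g : Matrix (Fin 5) (Fin 5) (ZMod 2)) 3 1)
    ((g : Matrix (Fin 5) (Fin 5) (ZMod 2)) 4 1) (g : Matrix (Fin 5) (Fin 5) (ZMod 2)) (by
      have a0 := hg'.1
      have a1 := hg'.2.1
      ext i j
      fin_cases i <;> fin_cases j <;> simp [hg'.2.2.1, hg'.2.2.2, a0, a1]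
      · exact hk' 0 0
      · exact hk' 0 1
      · exact hk' 0 2
      · exact hk' 1 0
      · exact hk' 1 1
      · exact hk' 1 2
      · exact hk' 2 0
      · exact hk' 2 1
      · exact hk' 2 2)
  calc ((g ^ 2 ^ 2 : SL5) : Matrix (Fin 5) (Fin 5) (ZMod 2)) = ((g * g * (g * g) : SL5) : Matrix (Fin 5) (Fin 5) (ZMod 2)) := by
        congr 1
        rw [show (2 ^ 2 : ℕ) = 4 from rfl, ← pow_two, ← pow_two, ← pow_mul]
    _ = 1 := by
        rw [Matrix.SpecialLinearGroup.coe_mul, Matrix.SpecialLinearGroup.coe_mul]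
        exact this

/-- transvections as elements of SL5 -/
def tv (i j : Fin 5) (h : i ≠ j) : SL5 := ⟨Matrix.transvection i j 1, Matrix.det_transvection_of_ne i j h 1⟩

theorem comm_single (g : Matrix (Fin 5) (Fin 5) (ZMod 2)) (i j : Fin 5) (h : g * Matrix.transvection i j 1 = Matrix.transvection i j 1 * g) :
    g * Matrix.single i j 1 = Matrix.single i j 1 * g := by
  simp only [Matrix.transvection, mul_add, add_mul, mul_one, one_mul] at h
  exact add_left_cancel h

theorem centralizer_ker (s : SL5) (hs : (s : Matrix (Fin 5) (Fin 5) (ZMod 2)) = Matrix.transvection 0 1 1)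
    (x : Subgroup.centralizer ({s} : Set SL5)) (hx : ∀ y ∈ (block s hs).ker, x * y = y * x) :
    x = 1 ∨ (x : SL5) = s := by
  obtain ⟨g, hg⟩ := x
  have hg' := entries s hs g (Subgroup.mem_centralizer_singleton_iff.mp hg)
  -- transvections tv 0 j (j ≠ 0) and tv i 1 (i ≠ 1) are in the kernel
  have hcomm : ∀ i j : Fin 5, ∀ h : i ≠ j, (i = 0 ∨ j = 1) →
      (g : Matrix (Fin 5) (Fin 5) (ZMod 2)) * Matrix.single i j 1 =
        Matrix.single i j 1 * (g : Matrix (Fin 5) (Fin 5) (ZMod 2)) := by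
    intro i j h hij
    apply comm_single
    have hmem : tv i j h ∈ Subgroup.centralizer ({s} : Set SL5) := by
      rw [Subgroup.mem_centralizer_singleton_iff]
      apply Subtype.ext
      rw [Matrix.SpecialLinearGroup.coe_mul, Matrix.SpecialLinearGroup.coe_mul, hs]
      change Matrix.transvection i j 1 * Matrix.transvection 0 1 1 = Matrix.transvection 0 1 1 * Matrix.transvection i j 1
      revert i j
      decide +kernel
    have hker : (⟨tv i j h, hmem⟩ : Subgroup.centralizer ({s} : Set SL5)) ∈ (block s hs).ker := by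
      rw [MonoidHom.mem_ker]
      change (tv i j h : Matrix (Fin 5) (Fin 5) (ZMod 2)).submatrix ![2,3,4] ![2,3,4] = 1
      simp only [tv]
      clear hmem
      revert i j
      decide +kernel
    have h2 := hx _ hker
    have h3 : g * tv i j h = tv i j h * g := congrArg Subtype.val h2
    have h4 := congrArg (fun x : SL5 => (x : Matrix (Fin 5) (Fin 5) (ZMod 2))) h3
    exact h4
  have hrow : ∀ j k : Fin 5, j ≠ 0 → k ≠ j → (g : Matrix (Fin 5) (Fin 5) (ZMod 2)) j k = 0 := by
    intro j k hj hk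
    have h1 := congrFun (congrFun (hcomm 0 j (Ne.symm hj) (Or.inl rfl)) 0) k
    rw [Matrix.single_mul_apply_same, Matrix.mul_single_apply_of_ne _ _ _ _ _ hk] at h1
    simpa using h1.symm
  have hdiag : ∀ j : Fin 5, (g : Matrix (Fin 5) (Fin 5) (ZMod 2)) j j = 1 := by
    intro j
    by_cases hj : j = 0
    · rw [hj]; exact hg'.2.2.1
    · have h1 := congrFun (congrFun (hcomm 0 j (Ne.symm hj) (Or.inl rfl)) 0) j
      rw [Matrix.single_mul_apply_same, Matrix.mul_single_apply_same] at h1
      simp only [mul_one, one_mul] at h1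
      rw [← h1]; exact hg'.2.2.1
  have hcol : ∀ i : Fin 5, i ≠ 1 → i ≠ 0 → (g : Matrix (Fin 5) (Fin 5) (ZMod 2)) 0 i = 0 := by
    intro i hi hi0
    have h1 := congrFun (congrFun (hcomm i 1 hi (Or.inr rfl)) 0) 1
    rw [Matrix.mul_single_apply_same, Matrix.single_mul_apply_of_ne _ _ _ _ _ (Ne.symm hi0)] at h1
    simpa using h1
  have h01 : (g : Matrix (Fin 5) (Fin 5) (ZMod 2)) 0 1 = 0 ∨ (g : Matrix (Fin 5) (Fin 5) (ZMod 2)) 0 1 = 1 := by
    generalize (g : Matrix (Fin 5) (Fin 5) (ZMod 2)) 0 1 = x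
    revert x
    decide
  have hmat : (g : Matrix (Fin 5) (Fin 5) (ZMod 2)) = Matrix.transvection 0 1 ((g : Matrix (Fin 5) (Fin 5) (ZMod 2)) 0 1) := by
    ext i j
    by_cases hij : i = j
    · subst hij
      rw [hdiag i]
      have : ¬ ((0 : Fin 5) = i ∧ (1 : Fin 5) = i) := by rintro ⟨rfl, h⟩; exact absurd h (by decide)
      simp [Matrix.transvection, this]
    · by_cases hi : i = 0
      · subst hi
        by_cases hj : j = 1
        · subst hj
          simp [Matrix.transvection]
        · rw [hcol j hj (Ne.symm hij)]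
          have : ¬ ((1 : Fin 5) = j) := fun h => hj h.symm
          simp [Matrix.transvection, this, Matrix.one_apply_ne hij]
      · rw [hrow i j hi (Ne.symm hij)]
        have : ¬ ((0 : Fin 5) = i) := fun h => hi h.symm
        simp [Matrix.transvection, this, Matrix.one_apply_ne hij]
  rcases h01 with h | h
  · left
    apply Subtype.ext
    apply Subtype.ext
    rw [hmat, h]
    simp [Matrix.transvection]
  · right
    apply Subtype.ext
    rw [hmat, h, hs]


/-- Let G be a finite group with an involution z whose centraliser C is isomorphic to the centraliser of a transvection of SL(5, 2). Then a Sylow 2-subgroup of C, viewed in G, is a Sylow 2-subgroup of G (its index in G is odd). -/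
theorem result {G : Type*} [Group G] [Finite G] (s : Matrix.SpecialLinearGroup (Fin 5) (ZMod 2)) (hs : (s : Matrix (Fin 5) (Fin 5) (ZMod 2)) = Matrix.transvection 0 1 1) (z : G) (hz : orderOf z = 2) (e : (Subgroup.centralizer ({z} : Set G)) ≃* Subgroup.centralizer ({s} : Set (Matrix.SpecialLinearGroup (Fin 5) (ZMod 2)))) (T : Sylow 2 (Subgroup.centralizer ({z} : Set G))) : ¬ 2 ∣ ((T : Subgroup (Subgroup.centralizer ({z} : Set G))).map (Subgroup.subtype (Subgroup.centralizer ({z} : Set G)))).index := by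
  classical
  have hzC : z ∈ Subgroup.centralizer ({z} : Set G) := Subgroup.mem_centralizer_singleton_iff.mpr rfl
  have hcen : (⟨z, hzC⟩ : Subgroup.centralizer ({z} : Set G)) ∈ Subgroup.center (Subgroup.centralizer ({z} : Set G)) := by
    rw [Subgroup.mem_center_iff]
    rintro ⟨g, hg⟩
    apply Subtype.ext
    exact Subgroup.mem_centralizer_singleton_iff.mp hg
  have hz1 : z ≠ 1 := by
    rintro rfl
    rw [orderOf_one] at hz
    norm_num at hz
  -- e z = s
  have hez : ((e ⟨z, hzC⟩ : Subgroup.centralizer ({s} : Set SL5)) : SL5) = s := by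
    rcases centralizer_ker s hs (e ⟨z, hzC⟩) (by
      intro y _
      have h1 := Subgroup.mem_center_iff.mp hcen (e.symm y)
      have h2 := congrArg e h1
      rw [map_mul, map_mul, e.apply_symm_apply] at h2
      exact h2.symm) with h | h
    · exfalso
      have h3 : (⟨z, hzC⟩ : Subgroup.centralizer ({z} : Set G)) = 1 := by
        apply e.injective
        rw [h, map_one]
      exact hz1 (congrArg Subtype.val h3)
    · exact h
  apply sylow_of_center z hz _ rfl T
  intro x hx hxT
  let Q : Subgroup (Subgroup.centralizer ({z} : Set G)) := (block s hs).ker.comap e.toMonoidHom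
  have hQn : Q.Normal := inferInstance
  have hQp : IsPGroup 2 Q := (ker_isPGroup s hs).comap_of_injective e.toMonoidHom e.injective
  have hQT : Q ≤ T := hQp.le_sylow_of_normal T
  rcases centralizer_ker s hs (e x) (by
      intro y hy
      have h1 : (e.symm y : Subgroup.centralizer ({z} : Set G)) ∈ Q := by
        change e (e.symm y) ∈ (block s hs).ker
        rw [e.apply_symm_apply]; exact hy
      have h2 := congrArg e (hxT _ (hQT h1))
      rw [map_mul, map_mul, e.apply_symm_apply] at h2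
      exact h2) with h | h
  · left
    apply e.injective
    rw [h, map_one]
  · right
    have h3 : e x = e ⟨z, hzC⟩ := Subtype.ext (h.trans hez.symm)
    have h4 := e.injective h3
    rw [h4]

end Cfsg.Agent.S1717
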