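import Cfsg.Statements.S1754

set_option autoImplicit false
open Cfsg

namespace Cfsg.Agent.S1754

theorem quasisimple_congr {A B : Type*} [Group A] [Group B] (e : A ≃* B) (h : Cfsg.IsQuasisimple A) :
    Cfsg.IsQuasisimple B := by
  obtain ⟨hp, hs⟩ := h
  refine ⟨?_, ?_⟩
  · haveI := hp
    exact Group.IsPerfect.ofSurjective (f := e.toMonoidHom) e.surjective
  · have e' : (A ⧸ Subgroup.center A) ≃* (B ⧸ Subgroup.center B) := by
      refine QuotientGroup.congr _ _ e ?_
      ext x
      simp only [Subgroup.mem_map, MulEquiv.coe_toMonoidHom]
      constructor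
      · rintro ⟨y, hy, rfl⟩
        rw [Subgroup.mem_center_iff] at hy ⊢
        intro g
        have := congrArg e (hy (e.symm g))
        simpa using this
      · intro hx
        refine ⟨e.symm x, ?_, by simp⟩
        rw [Subgroup.mem_center_iff] at hx ⊢
        intro g
        have := congrArg e.symm (hx (e g))
        simpa using this
    exact (MulEquiv.isSimpleGroup_congr e').mp hs


/-- Let A be a standard subgroup of the finite group G (A quasisimple, C_G(A) tightly embedded of even order, A commuting elementwise with no other conjugate of itself, and N_G(A) = N_G(C_G(A))), and let t be an involution of G centralizing A. Then the centralizer of t lies in the normalizer of A; in particular A, viewed inside C_G(t), is a component of C_G(t). -/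
theorem result {G : Type*} [Group G] [Finite G]
    (A : Subgroup G) (hA : Cfsg.IsStandardSubgroup A) (t : G) (ht : orderOf t = 2) (htA : t ∈ Subgroup.centralizer (A : Set G)) :
    Subgroup.centralizer ({t} : Set G) ≤ Subgroup.normalizer (A : Set G) ∧
      Cfsg.IsComponent (A.subgroupOf (Subgroup.centralizer ({t} : Set G))) := by
  obtain ⟨hq, ⟨heven, htight⟩, hcomm, hnorm⟩ := hA
  have h1 : Subgroup.centralizer ({t} : Set G) ≤ Subgroup.normalizer (A : Set G) := by
    intro g hg
    by_contra hgn
    rw [hnorm] at hgn
    have hodd := htight g hgn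
    have hgt : g * t = t * g := by
      rw [Subgroup.mem_centralizer_iff] at hg
      exact (hg t rfl).symm
    have ht2 : t ∈ Subgroup.centralizer (A : Set G) ⊓
        (Subgroup.centralizer (A : Set G)).map (MulAut.conj g).toMonoidHom := by
      refine ⟨htA, ⟨t, htA, ?_⟩⟩
      simp only [MulEquiv.coe_toMonoidHom, MulAut.conj_apply]
      rw [hgt]; group
    have h3 : orderOf (⟨t, ht2⟩ : ↥(Subgroup.centralizer (A : Set G) ⊓
        (Subgroup.centralizer (A : Set G)).map (MulAut.conj g).toMonoidHom)) = 2 := by
      rw [Subgroup.orderOf_mk]; exact ht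
    have h4 : 2 ∣ Nat.card ↥(Subgroup.centralizer (A : Set G) ⊓
        (Subgroup.centralizer (A : Set G)).map (MulAut.conj g).toMonoidHom) := by
      rw [← h3]; exact orderOf_dvd_natCard _
    exact (Nat.not_even_iff_odd.mpr hodd) (even_iff_two_dvd.mpr h4)
  refine ⟨h1, ?_, ?_⟩
  · apply Subgroup.Normal.isSubnormal
    exact Subgroup.normal_subgroupOf_of_le_normalizer h1
  · have hle : A ≤ Subgroup.centralizer ({t} : Set G) := by
      intro a ha
      rw [Subgroup.mem_centralizer_iff]
      rintro x rfl
      rw [Subgroup.mem_centralizer_iff] at htA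
      exact (htA a ha).symm
    exact quasisimple_congr (Subgroup.subgroupOfEquivOfLe hle).symm hq

end Cfsg.Agent.S1754
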