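import Cfsg.Statements.S1755
import Cfsg.Agent.Lib.H35.SympType

set_option autoImplicit false
open Cfsg

namespace Cfsg.Agent.S1755

open H35.SympType

theorem aux {G : Type*} [Group G] [Finite G] (z : G) (hz : orderOf z = 2)
    (C : Subgroup G) (hC : C = Subgroup.centralizer ({z} : Set G)) (F : Subgroup ↥C) (hFn : F.Normal)
    (w : F) (hw : w ∈ Subgroup.center F) (hwz : ((w : C) : G) = z)
    (hQ : Cfsg.IsOfSymplecticType F) (B : Subgroup F) (hBc : B.Characteristic) (hBa : IsMulCommutative ↥B) (g : G) :
    ((B.map F.subtype).map C.subtype).map (MulAut.conj g).toMonoidHom = (B.map F.subtype).map C.subtype ∨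
      ((B.map F.subtype).map C.subtype).map (MulAut.conj g).toMonoidHom ⊓ (B.map F.subtype).map C.subtype = ⊥ := by
  set B' : Subgroup G := (B.map F.subtype).map C.subtype with hB'
  have hcyc : IsCyclic B := hQ.2 B hBc hBa
  have hZ : IsCyclic (Subgroup.center F) := hQ.2 _ inferInstance inferInstance
  have hBn : B.Normal := inferInstance
  have hinj : Function.Injective (C.subtype.comp F.subtype) := C.subtype_injective.comp F.subtype_injective
  have hw2 : orderOf w = 2 := by
    rw [← hz, ← hwz]
    exact (orderOf_injective _ hinj w).symm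
  -- involutions of B' are z
  have key : ∀ y ∈ B', orderOf y = 2 → y = z := by
    rintro y ⟨x, ⟨b, hb, rfl⟩, rfl⟩ ho
    have ho' : orderOf b = 2 := by
      rw [← ho]
      exact (orderOf_injective _ hinj b).symm
    have := unique_inv_of_char hZ hw hw2 hBn hcyc hb ho'
    rw [this]
    exact hwz
  -- invariance
  have inv : ∀ c : G, c ∈ C → B'.map (MulAut.conj c).toMonoidHom ≤ B' := by
    rintro c hc x ⟨y, ⟨w, ⟨b, hb, rfl⟩, rfl⟩, rfl⟩
    have hb2 : (MulAut.conjNormal (H := F) (⟨c, hc⟩ : C)) b ∈ B := by
      have h1 := (Subgroup.characteristic_iff_map_eq.mp hBc) (MulAut.conjNormal (H := F) (⟨c, hc⟩ : C))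
      rw [← h1]
      exact ⟨b, hb, rfl⟩
    refine ⟨_, ⟨_, hb2, rfl⟩, ?_⟩
    simp [MulAut.conjNormal_apply]
  by_cases hgc : g ∈ C
  · left
    apply le_antisymm (inv g hgc)
    intro x hx
    have h1 := inv g⁻¹ (C.inv_mem hgc) (Subgroup.mem_map_of_mem (MulAut.conj g⁻¹).toMonoidHom hx)
    refine ⟨_, h1, ?_⟩
    simp
    group
  · right
    rw [eq_bot_iff]
    rintro x ⟨⟨y, hy, hyx⟩, hx⟩
    rw [Subgroup.mem_bot]
    by_contra hx1
    -- some power of x is an involution
    have hxord : ∃ k : ℕ, orderOf x = 2 ^ k := by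
      obtain ⟨w, ⟨b, hb, rfl⟩, hbx⟩ := hx
      obtain ⟨k, hk⟩ := (IsPGroup.iff_orderOf.mp hQ.1) b
      refine ⟨k, ?_⟩
      rw [← hk, ← hbx]
      exact orderOf_injective _ hinj b
    obtain ⟨k, hk⟩ := hxord
    have hk0 : k ≠ 0 := by
      rintro rfl
      rw [pow_zero, orderOf_eq_one_iff] at hk
      exact hx1 hk
    obtain ⟨j, rfl⟩ := Nat.exists_eq_succ_of_ne_zero hk0
    have hpow : orderOf (x ^ (2 ^ j)) = 2 := by
      rw [orderOf_pow_of_dvd (by positivity) (by rw [hk]; exact pow_dvd_pow 2 (Nat.le_succ j)), hk, pow_succ]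
      exact Nat.mul_div_cancel_left 2 (by positivity)
    have e1 : x ^ (2 ^ j) = z := key _ (B'.pow_mem hx _) hpow
    have hpy : orderOf (y ^ (2 ^ j)) = 2 := by
      have h1 := orderOf_injective (MulAut.conj g).toMonoidHom (MulAut.conj g).injective (y ^ (2 ^ j))
      rw [← h1, map_pow, hyx]
      exact hpow
    have e2 : y ^ (2 ^ j) = z := key _ (B'.pow_mem hy _) hpy
    have e3 : g * z * g⁻¹ = z := by
      have : (MulAut.conj g).toMonoidHom (y ^ (2 ^ j)) = x ^ (2 ^ j) := by rw [map_pow, hyx]
      rw [e1, e2] at this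
      simpa using this
    apply hgc
    rw [hC, Subgroup.mem_centralizer_singleton_iff]
    rw [mul_inv_eq_iff_eq_mul] at e3
    exact e3


/-- Let G be a finite group and let z be an involution of G such that Q, the generalized Fitting subgroup of the centralizer C of z, is a 2-group of symplectic type (every characteristic abelian subgroup of Q is cyclic). Let B be a characteristic abelian subgroup of Q, viewed as a subgroup of G. Then for every g in G, the conjugate of B by g either equals B or meets B trivially. -/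
theorem result {G : Type*} [Group G] [Finite G] (z : G) (hz : orderOf z = 2) (hQ : Cfsg.IsOfSymplecticType ↥(Cfsg.generalizedFittingSubgroup ↥(Subgroup.centralizer ({z} : Set G))))
    (B : Subgroup ↥(Cfsg.generalizedFittingSubgroup ↥(Subgroup.centralizer ({z} : Set G)))) (hBc : B.Characteristic) (hBa : IsMulCommutative ↥B) (g : G) :
    ((B.map (Cfsg.generalizedFittingSubgroup ↥(Subgroup.centralizer ({z} : Set G))).subtype).map (Subgroup.centralizer ({z} : Set G)).subtype).map (MulAut.conj g).toMonoidHom =
        (B.map (Cfsg.generalizedFittingSubgroup ↥(Subgroup.centralizer ({z} : Set G))).subtype).map (Subgroup.centralizer ({z} : Set G)).subtype ∨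
      ((B.map (Cfsg.generalizedFittingSubgroup ↥(Subgroup.centralizer ({z} : Set G))).subtype).map (Subgroup.centralizer ({z} : Set G)).subtype).map (MulAut.conj g).toMonoidHom ⊓
        (B.map (Cfsg.generalizedFittingSubgroup ↥(Subgroup.centralizer ({z} : Set G))).subtype).map (Subgroup.centralizer ({z} : Set G)).subtype = ⊥ := by
  exact aux z hz _ rfl _ gfs_normal (zF z) (zF_mem_center z) rfl hQ B hBc hBa g

end Cfsg.Agent.S1755
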