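import Cfsg.Statements.S1756
import Cfsg.Agent.Lib.H35.Extraspecial2

set_option autoImplicit false
open Cfsg

namespace Cfsg.Agent.S1756



/-- Let Q be an extraspecial 2-subgroup of the finite group G (special with centre of order 2) and t an involution of G normalizing Q such that the centralizer of t in Q has index at most 2 in Q. Then t lies in the product of Q with the centralizer of Q. -/
theorem result {G : Type*} [Group G] [Finite G] (Q : Subgroup G)
    (hQ : Cfsg.IsExtraspecial 2 ↥Q) (t : G) (ht : orderOf t = 2) (htN : t ∈ Subgroup.normalizer (Q : Set G))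
    (hi : (Subgroup.centralizer ({t} : Set G) ⊓ Q).relIndex Q ≤ 2) :
    t ∈ Q ⊔ Subgroup.centralizer (Q : Set G) := by
  classical
  obtain ⟨⟨hP, -, hder⟩, hcard⟩ := hQ
  -- central involution
  obtain ⟨ζ', hζ'⟩ : ∃ x : Subgroup.center Q, x ≠ 1 := by
    have : Nontrivial (Subgroup.center Q) := (Finite.one_lt_card_iff_nontrivial).mp (by rw [hcard]; norm_num)
    exact exists_ne 1
  have hcen : ∀ c : Subgroup.center Q, c = 1 ∨ c = ζ' := by
    intro c
    have h2 : Nat.card (Subgroup.center Q) = 2 := hcard
    rw [Nat.card_eq_two_iff' (1 : Subgroup.center Q)] at h2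
    obtain ⟨w, hw, hw2⟩ := h2
    have h3 := hw2 ζ' hζ'
    by_cases hc : c = 1
    · exact Or.inl hc
    · right; rw [hw2 c hc, h3]
  set ζ : Q := (ζ' : Q) with hζdef
  have hζ1 : ζ ≠ 1 := fun h => hζ' (Subtype.ext h)
  have hζ : ∀ q, ζ * q = q * ζ := fun q => (Subgroup.mem_center_iff.mp ζ'.2 q).symm
  have hζc : ∀ c : Q, (∀ q, c * q = q * c) → c = 1 ∨ c = ζ := by
    intro c hc
    have : c ∈ Subgroup.center Q := Subgroup.mem_center_iff.mpr fun q => (hc q).symm
    rcases hcen ⟨c, this⟩ with h | h
    · exact Or.inl (congrArg Subtype.val h)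
    · exact Or.inr (congrArg Subtype.val h)
  have hcomm : ∀ a b : Q, a * b * a⁻¹ * b⁻¹ = 1 ∨ a * b * a⁻¹ * b⁻¹ = ζ := by
    intro a b
    apply hζc
    have h1 : a * b * a⁻¹ * b⁻¹ ∈ commutator Q := by
      rw [commutator_def]
      exact Subgroup.commutator_mem_commutator (Subgroup.mem_top a) (Subgroup.mem_top b)
    rw [hder] at h1
    exact fun q => (Subgroup.mem_center_iff.mp h1 q).symm
  have hζ2 : ζ * ζ = 1 := by
    rcases hζc (ζ * ζ) (fun q => by rw [mul_assoc, hζ, ← mul_assoc, hζ, mul_assoc]) with h | h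
    · exact h
    · exact absurd (mul_left_cancel (h.trans (mul_one ζ).symm)) hζ1
  -- action of t on Q
  have ht2 : t * t = 1 := by rw [← pow_two, ← ht]; exact pow_orderOf_eq_one t
  have htinv : t⁻¹ = t := inv_eq_of_mul_eq_one_left ht2
  have hmem : ∀ q ∈ Q, t * q * t⁻¹ ∈ Q := fun q hq => (Subgroup.mem_normalizer_iff.mp htN q).mp hq
  let τ : Q → Q := fun q => ⟨t * q * t⁻¹, hmem q q.2⟩
  have τmul : ∀ a b, τ (a * b) = τ a * τ b := by
    intro a b; apply Subtype.ext; simp only [τ, Subgroup.coe_mul]; group
  have τinv : ∀ a, τ (a⁻¹) = (τ a)⁻¹ := by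
    intro a; apply Subtype.ext; simp only [τ, Subgroup.coe_inv]; group
  have ττ : ∀ a, τ (τ a) = a := by
    intro a; apply Subtype.ext; simp only [τ]
    calc t * (t * (a : G) * t⁻¹) * t⁻¹ = (t * t) * a * (t * t)⁻¹ := by group
      _ = a := by rw [ht2]; group
  have τone : τ 1 = 1 := by apply Subtype.ext; simp only [τ, Subgroup.coe_one]; group
  have τζ : τ ζ = ζ := by
    have h1 : ∀ q, τ ζ * q = q * τ ζ := by
      intro q
      have h2 := congrArg τ (hζ (τ q))
      rw [τmul, τmul, ττ] at h2
      exact h2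
    rcases hζc _ h1 with h | h
    · exfalso
      have h3 := congrArg τ h
      rw [ττ, τone] at h3
      exact hζ1 h3
    · exact h
  set H : Subgroup Q := (Subgroup.centralizer ({t} : Set G) ⊓ Q).subgroupOf Q with hHdef
  have hH : ∀ q : Q, q ∈ H ↔ τ q = q := by
    intro q
    rw [hHdef, Subgroup.mem_subgroupOf, Subgroup.mem_inf, Subgroup.mem_centralizer_singleton_iff]
    constructor
    · rintro ⟨h, -⟩
      apply Subtype.ext
      simp only [τ]
      rw [mul_inv_eq_iff_eq_mul]
      exact h.symm
    · intro h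
      refine ⟨?_, q.2⟩
      have h2 : t * (q : G) * t⁻¹ = q := congrArg Subtype.val h
      rw [mul_inv_eq_iff_eq_mul] at h2
      exact h2.symm
  have hidx : H.index = 1 ∨ H.index = 2 := by
    have h1 : H.index ≤ 2 := hi
    have h2 : H.index ≠ 0 := Subgroup.index_ne_zero_of_finite
    omega
  rcases hidx with h1 | h1
  · rw [Subgroup.index_eq_one] at h1
    apply Subgroup.mem_sup_right
    rw [Subgroup.mem_centralizer_iff]
    intro q hq
    have h2 : τ ⟨q, hq⟩ = ⟨q, hq⟩ := (hH _).mp (by rw [h1]; trivial)
    have h3 : t * q * t⁻¹ = q := congrArg Subtype.val h2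
    rw [mul_inv_eq_iff_eq_mul] at h3
    exact h3.symm
  · have hζH : ζ ∈ H := (hH ζ).mpr τζ
    obtain ⟨x, hx1, hx2⟩ := H35.Extraspecial2.exists_noncentral ζ hζ1 hζ hζc hcomm H hζH h1
    have hyex : ∃ y, y ∉ H := by
      by_contra h
      push Not at h
      have : H = ⊤ := by rw [eq_top_iff]; exact fun q _ => h q
      rw [this, Subgroup.index_top] at h1
      norm_num at h1
    obtain ⟨y, hy⟩ := hyex
    have hcos : ∀ a b : Q, a ∉ H → b ∉ H → a⁻¹ * b ∈ H := by
      intro a b ha hb
      rw [Subgroup.mul_mem_iff_of_index_two h1, inv_mem_iff]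
      exact iff_of_false ha hb
    have hgen : ∀ c : Q, (∀ h ∈ H, c * h = h * c) → ∀ y', y' ∉ H → c * y' = y' * c → ∀ q, c * q = q * c := by
      intro c hc y' hy' hcy q
      by_cases hq : q ∈ H
      · exact hc q hq
      · have h2 := hc _ (hcos y' q hy' hq)
        calc c * q = (c * y') * (y'⁻¹ * q) := by group
          _ = y' * (c * (y'⁻¹ * q)) := by rw [hcy]; group
          _ = y' * ((y'⁻¹ * q) * c) := by rw [h2]
          _ = q * c := by group
    set w : Q := y⁻¹ * τ y with hw
    have hyw : τ y = y * w := by rw [hw]; group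
    have hwH : ∀ h ∈ H, w * h = h * w := by
      intro h hh
      have h2 : τ (y * h * y⁻¹ * h⁻¹) = y * h * y⁻¹ * h⁻¹ := by
        rcases hcomm y h with h3 | h3 <;> rw [h3]
        · exact τone
        · exact τζ
      rw [τmul, τmul, τmul, τinv, τinv, (hH h).mp hh, hyw] at h2
      have h3 : w * h * w⁻¹ = h := by
        calc w * h * w⁻¹ = y⁻¹ * (y * w * h * (y * w)⁻¹ * h⁻¹) * h * y := by group
          _ = y⁻¹ * (y * h * y⁻¹ * h⁻¹) * h * y := by rw [h2]
          _ = h := by group
      rw [mul_inv_eq_iff_eq_mul] at h3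
      exact h3
    by_cases hwy : w * y = y * w
    · -- case A
      have h2 := hζc w (hgen w hwH y hy hwy)
      rcases h2 with h2 | h2
      · exfalso
        rw [h2, mul_one] at hyw
        exact hy ((hH y).mpr hyw)
      · have hxy : x * y * x⁻¹ * y⁻¹ = ζ := by
          rcases hcomm x y with h3 | h3
          · exfalso
            rw [mul_inv_eq_one, mul_inv_eq_iff_eq_mul] at h3
            exact hx1 (hgen x hx2 y hy h3)
          · exact h3
        have hxy' : x * y * x⁻¹ = y * ζ := by
          rw [mul_inv_eq_iff_eq_mul] at hxy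
          rw [hxy]; exact hζ y
        -- τ q = x q x⁻¹ for all q
        have hall : ∀ q, τ q = x * q * x⁻¹ := by
          intro q
          by_cases hq : q ∈ H
          · rw [(hH q).mp hq, hx2 q hq]; group
          · have h5 := hcos y q hy hq
            have h6 : q = y * (y⁻¹ * q) := by group
            rw [h6, τmul, (hH _).mp h5, hyw, h2, ← hxy']
            have h7 := hx2 _ h5
            calc x * y * x⁻¹ * (y⁻¹ * q) = x * y * (x⁻¹ * (y⁻¹ * q) * x) * x⁻¹ := by group
              _ = x * y * (x⁻¹ * (x * (y⁻¹ * q))) * x⁻¹ := by rw [mul_assoc x⁻¹, h7]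
              _ = x * (y * (y⁻¹ * q)) * x⁻¹ := by group
        have hfin : (x : G)⁻¹ * t ∈ Subgroup.centralizer (Q : Set G) := by
          rw [Subgroup.mem_centralizer_iff]
          intro q hq
          have h8 : t * q * t⁻¹ = x * q * (x : G)⁻¹ := congrArg Subtype.val (hall ⟨q, hq⟩)
          calc q * ((x : G)⁻¹ * t) = (x : G)⁻¹ * (x * q * (x : G)⁻¹) * t := by group
            _ = (x : G)⁻¹ * (t * q * t⁻¹) * t := by rw [h8]
            _ = (x : G)⁻¹ * t * q := by group
        have : t = x * ((x : G)⁻¹ * t) := by group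
        rw [this]
        exact Subgroup.mul_mem_sup x.2 hfin
    · -- case B
      exfalso
      have hwHm : w ∈ H := by
        by_contra hwn
        exact hwy (hgen w hwH w hwn rfl y)
      have hww : w * w = 1 := by
        have h3 : y = τ (y * w) := by rw [← hyw, ττ]
        rw [τmul, (hH w).mp hwHm, hyw] at h3
        have h4 : y * (w * w) = y * 1 := by rw [mul_one, ← mul_assoc]; exact h3.symm
        exact mul_left_cancel h4
      have hyy : τ (y * y) = y * y := by
        have h5 : ∀ q, (y * y) * q = q * (y * y) := by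
          intro q
          have h6 : y * q * y⁻¹ = (y * q * y⁻¹ * q⁻¹) * q := by group
          have h7 : (y * y) * q * (y * y)⁻¹ = q := by
            rcases hcomm y q with h3 | h3
            · rw [h3, one_mul, mul_inv_eq_iff_eq_mul] at h6
              rw [mul_inv_eq_iff_eq_mul, mul_assoc, h6, ← mul_assoc, h6, mul_assoc]
            · rw [h3] at h6
              calc (y * y) * q * (y * y)⁻¹ = y * (y * q * y⁻¹) * y⁻¹ := by group
                _ = y * (ζ * q) * y⁻¹ := by rw [h6]
                _ = ζ * (y * q * y⁻¹) := by rw [← mul_assoc y, ← hζ y]; group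
                _ = (ζ * ζ) * q := by rw [h6]; group
                _ = q := by rw [hζ2, one_mul]
          rw [mul_inv_eq_iff_eq_mul] at h7
          exact h7
        rcases hζc _ h5 with h8 | h8 <;> rw [h8]
        · exact τone
        · exact τζ
      rw [τmul, hyw] at hyy
      have h9 : w * y * w = y := by
        have : y * (w * y * w) = y * y := by
          calc y * (w * y * w) = y * w * (y * w) := by group
            _ = y * y := hyy
        exact mul_left_cancel this
      apply hwy
      calc w * y = w * y * (w * w) := by rw [hww, mul_one]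
        _ = (w * y * w) * w := by group
        _ = y * w := by rw [h9]

end Cfsg.Agent.S1756
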