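import Cfsg.Statements.S1757

set_option autoImplicit false
open Cfsg

namespace Cfsg.Agent.S1757

theorem key {G : Type*} [Group G] [Finite G] (A B : Subgroup G)
    (hBti : ∀ g : G, B.map (MulAut.conj g).toMonoidHom = B ∨ B.map (MulAut.conj g).toMonoidHom ⊓ B = ⊥)
    (hle : Nat.card ↥A ≤ Nat.card ↥B) (hN : B ≤ Subgroup.normalizer (A : Set G))
    (a : G) (ha : a ∈ A) : B.map (MulAut.conj a).toMonoidHom = B := by
  rcases hBti a with h | h
  · exact h
  have hb : ∀ b ∈ B, b * a⁻¹ * b⁻¹ ∈ A := by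
    intro b hb
    have := (Subgroup.mem_normalizer_iff.mp (hN hb)) a⁻¹
    exact this.mp (A.inv_mem ha)
  let g : B × B → A × B := fun p =>
    (⟨a * (p.1 * a⁻¹ * (p.1 : G)⁻¹), A.mul_mem ha (hb _ p.1.2)⟩, p.1 * p.2)
  have ginj : Function.Injective g := by
    rintro ⟨b, b'⟩ ⟨c, c'⟩ hbc
    simp only [g, Prod.mk.injEq, Subtype.mk.injEq] at hbc
    obtain ⟨h1, h2⟩ := hbc
    have h2' : (b : G) * b' = c * c' := congrArg Subtype.val h2
    have h3 : a * b * a⁻¹ * (b' : G) = a * c * a⁻¹ * c' := by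
      calc a * b * a⁻¹ * (b' : G) = (a * (b * a⁻¹ * (b : G)⁻¹)) * (b * b') := by group
        _ = (a * (c * a⁻¹ * (c : G)⁻¹)) * (c * c') := by rw [h1, h2']
        _ = a * c * a⁻¹ * c' := by group
    have h4 : a * ((c : G)⁻¹ * b) * a⁻¹ = c' * (b' : G)⁻¹ := by
      calc a * ((c : G)⁻¹ * b) * a⁻¹ = (a * c * a⁻¹)⁻¹ * (a * b * a⁻¹ * b') * (b' : G)⁻¹ := by group
        _ = (a * c * a⁻¹)⁻¹ * (a * c * a⁻¹ * c') * (b' : G)⁻¹ := by rw [h3]
        _ = c' * (b' : G)⁻¹ := by group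
    have h5 : a * ((c : G)⁻¹ * b) * a⁻¹ ∈ B.map (MulAut.conj a).toMonoidHom ⊓ B := by
      refine ⟨⟨(c : G)⁻¹ * b, B.mul_mem (B.inv_mem c.2) b.2, rfl⟩, ?_⟩
      rw [h4]
      exact B.mul_mem c'.2 (B.inv_mem b'.2)
    rw [h, Subgroup.mem_bot] at h5
    have h6 : (c : G)⁻¹ * b = 1 := by
      have : a * ((c : G)⁻¹ * b) * a⁻¹ = a * 1 * a⁻¹ := by rw [h5]; group
      exact mul_left_cancel (mul_right_cancel this)
    have h7 : (b : G) = c := (inv_mul_eq_one.mp h6).symm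
    have h8 : (b' : G) = c' := by
      rw [h7] at h2'
      exact mul_left_cancel h2'
    exact Prod.ext (Subtype.ext h7) (Subtype.ext h8)
  have gbij : Function.Bijective g := by
    refine (Nat.bijective_iff_injective_and_card g).mpr ⟨ginj, ?_⟩
    have h1 := Nat.card_le_card_of_injective g ginj
    rw [Nat.card_prod, Nat.card_prod] at *
    exact le_antisymm h1 (Nat.mul_le_mul_right _ hle)
  obtain ⟨⟨b, b'⟩, hbb⟩ := gbij.2 (⟨a, ha⟩, 1)
  simp only [g, Prod.mk.injEq, Subtype.mk.injEq] at hbb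
  have h9 : a = 1 := by
    have h10 : a * ((b : G) * a⁻¹ * (b : G)⁻¹) = a * 1 := by rw [hbb.1, mul_one]
    have h11 := mul_left_cancel h10
    have h12 : a⁻¹ = 1 := by
      calc a⁻¹ = (b : G)⁻¹ * (b * a⁻¹ * (b : G)⁻¹) * b := by group
        _ = 1 := by rw [h11]; group
    exact inv_eq_one.mp h12
  subst h9
  ext x
  simp


/-- Let p be a prime and A, B p-subgroups of the finite group G, each of which meets every conjugate of itself other than itself trivially. Suppose the order of A is at most that of B, A and B intersect trivially, and B normalizes A. Then A and B commute elementwise. -/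
theorem result {G : Type*} [Group G] [Finite G] (p : ℕ) [Fact p.Prime] (A B : Subgroup G)
    (hA : IsPGroup p ↥A) (hB : IsPGroup p ↥B)
    (hAti : ∀ g : G, A.map (MulAut.conj g).toMonoidHom = A ∨ A.map (MulAut.conj g).toMonoidHom ⊓ A = ⊥)
    (hBti : ∀ g : G, B.map (MulAut.conj g).toMonoidHom = B ∨ B.map (MulAut.conj g).toMonoidHom ⊓ B = ⊥)
    (hle : Nat.card ↥A ≤ Nat.card ↥B) (hAB : A ⊓ B = ⊥) (hN : B ≤ Subgroup.normalizer (A : Set G)) : ⁅A, B⁆ = ⊥ := by
  rw [Subgroup.commutator_eq_bot_iff_le_centralizer]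
  intro a ha
  rw [Subgroup.mem_centralizer_iff]
  intro b hb
  have h1 : a * b * a⁻¹ ∈ B := by
    have h2 := key A B hBti hle hN a ha
    rw [← h2]
    exact ⟨b, hb, rfl⟩
  have h3 : b * a⁻¹ * b⁻¹ ∈ A := (Subgroup.mem_normalizer_iff.mp (hN hb) a⁻¹).mp (A.inv_mem ha)
  have h4 : a * b * a⁻¹ * b⁻¹ ∈ A ⊓ B := by
    refine ⟨?_, B.mul_mem h1 (B.inv_mem hb)⟩
    have : a * b * a⁻¹ * b⁻¹ = a * (b * a⁻¹ * b⁻¹) := by group
    rw [this]
    exact A.mul_mem ha h3
  rw [hAB, Subgroup.mem_bot] at h4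
  calc b * a = 1⁻¹ * (b * a) := by group
    _ = (a * b * a⁻¹ * b⁻¹)⁻¹ * (b*a) := by rw [h4]
    _ = b * a * b⁻¹ * a⁻¹ * b * a := by group
    _ = (a * b * a⁻¹ * b⁻¹)⁻¹ * (b * a) := by group
    _ = b * a := by rw [h4]; group
    _ = (a * b * a⁻¹ * b⁻¹) * (b * a) := by rw [h4]; group
    _ = a * b := by group

end Cfsg.Agent.S1757
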