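import Cfsg.Statements.S1774
import Cfsg.Agent.Lib.H35.SympExp4
import Cfsg.Agent.Lib.H26.Components

set_option autoImplicit false
open Cfsg

namespace Cfsg.Agent.S1774

open H35.SympExp4

/-- `e` an involution centralizing the index two subgroup `C_Q(z')` of `Q` lies in `⟨z, z'⟩`. -/
theorem four {G : Type*} [Group G] (z z' : G) (Q : Set G) (C : Subgroup G)
    (hQmul : ∀ a ∈ Q, ∀ b ∈ Q, a * b ∈ Q) (hQinv : ∀ a ∈ Q, a⁻¹ ∈ Q)
    (hCz : ∀ c ∈ C, c * z = z * c) (hQC : ∀ q ∈ Q, q ∈ C)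
    (ha : ∀ c ∈ C, ∀ q ∈ Q, c * q * c⁻¹ ∈ Q)
    (hc : ∀ x ∈ C, (∀ q ∈ Q, x * q = q * x) → x ∈ Q)
    (hd : ∀ x ∈ Q, (∀ q ∈ Q, x * q = q * x) → x * x = 1 → x = 1 ∨ x = z)
    (he : ∀ a ∈ Q, ∀ b ∈ Q, cm a b = 1 ∨ cm a b = z)
    (hz2 : z * z = 1) (hz'Q : z' ∈ Q) (hz'2 : z' * z' = 1)
    (y : G) (hyQ : y ∈ Q) (hy : cm y z' = z) (hz1 : z ≠ 1)
    (e : G) (heC : e ∈ C) (he2 : e * e = 1) (heR : ∀ r ∈ Q, r * z' = z' * r → e * r = r * e) :
    e = 1 ∨ e = z ∨ e = z' ∨ e = z * z' := by
  have heinv : e⁻¹ = e := inv_eq_of_mul_eq_one_left he2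
  have hzQ : ∀ q ∈ Q, z * q = q * z := fun q hq => (hCz q (hQC q hq)).symm
  have hcos : ∀ q ∈ Q, q * z' ≠ z' * q → (y⁻¹ * q) * z' = z' * (y⁻¹ * q) := by
    intro q hq hne
    have h1 : cm q z' = z := by
      rcases he q hq z' hz'Q with h | h
      · exact absurd (cm_eq_one.mp h) hne
      · exact h
    have h2 : y * z' * y⁻¹ = q * z' * q⁻¹ := by
      have h3 : cm y z' * z' = cm q z' * z' := by rw [hy, h1]
      unfold cm at h3
      simpa using h3
    calc (y⁻¹ * q) * z' = y⁻¹ * (q * z' * q⁻¹) * q := by group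
      _ = y⁻¹ * (y * z' * y⁻¹) * q := by rw [h2]
      _ = z' * (y⁻¹ * q) := by group
  -- commuting with R and y implies commuting with Q
  have hgen : ∀ c : G, (∀ r ∈ Q, r * z' = z' * r → c * r = r * c) → c * y = y * c → ∀ q ∈ Q, c * q = q * c := by
    intro c hcR hcy q hq
    by_cases h : q * z' = z' * q
    · exact hcR q hq h
    · have h1 := hcR _ (hQmul _ (hQinv y hyQ) q hq) (hcos q hq h)
      calc c * q = (c * y) * (y⁻¹ * q) := by group
        _ = y * (c * (y⁻¹ * q)) := by rw [hcy]; group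
        _ = y * ((y⁻¹ * q) * c) := by rw [h1]
        _ = q * c := by group
  have heq : ∀ q ∈ Q, e * q * e⁻¹ ∈ Q := ha e heC
  set w := y⁻¹ * (e * y * e⁻¹) with hw
  have hyw : e * y * e⁻¹ = y * w := by rw [hw]; group
  have hwQ : w ∈ Q := hQmul _ (hQinv y hyQ) _ (heq y hyQ)
  have hez : e * z * e⁻¹ = z := by rw [hCz e heC]; group
  have hecm : ∀ a ∈ Q, ∀ b ∈ Q, e * cm a b * e⁻¹ = cm a b := by
    intro a ha b hb
    rcases he a ha b hb with h | h <;> rw [h]
    · group
    · exact hez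
  have hwR : ∀ r ∈ Q, r * z' = z' * r → w * r = r * w := by
    intro r hr hrz
    have h1 := hecm y hyQ r hr
    have h2 : e * r * e⁻¹ = r := by rw [heR r hr hrz]; group
    have h3 : e * cm y r * e⁻¹ = (y * w) * r * (y * w)⁻¹ * r⁻¹ := by
      calc e * cm y r * e⁻¹ = (e * y * e⁻¹) * (e * r * e⁻¹) * (e * y * e⁻¹)⁻¹ * (e * r * e⁻¹)⁻¹ := by unfold cm; group
        _ = _ := by rw [h2, hyw]
    rw [h3] at h1
    unfold cm at h1
    have h4 : w * r * w⁻¹ = r := by
      calc w * r * w⁻¹ = y⁻¹ * ((y * w) * r * (y * w)⁻¹ * r⁻¹) * r * y := by group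
        _ = y⁻¹ * (y * r * y⁻¹ * r⁻¹) * r * y := by rw [h1]
        _ = r := by group
    rw [mul_inv_eq_iff_eq_mul] at h4
    exact h4
  have hwz' : w * z' = z' * w := hwR z' hz'Q rfl
  have hew : e * w = w * e := heR w hwQ hwz'
  have hww : w * w = 1 := by
    have h1 : e * (y * w) * e⁻¹ = y := by
      rw [← hyw]
      calc e * (e * y * e⁻¹) * e⁻¹ = (e * e) * y * (e * e)⁻¹ := by group
        _ = y := by rw [he2]; group
    have h2 : e * (y * w) * e⁻¹ = (e * y * e⁻¹) * (e * w * e⁻¹) := by group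
    have h3 : e * w * e⁻¹ = w := by rw [hew]; group
    rw [h2, h3, hyw] at h1
    have h4 : y * (w * w) = y * 1 := by rw [mul_one, ← mul_assoc]; exact h1
    exact mul_left_cancel h4
  by_cases hwy : w * y = y * w
  · rcases hd w hwQ (hgen w hwR hwy) hww with h | h
    · -- w = 1
      have h1 : e * y = y * e := by
        rw [h, mul_one, mul_inv_eq_iff_eq_mul] at hyw
        exact hyw
      have h2 := hgen e heR h1
      rcases hd e (hc e heC h2) h2 he2 with h3 | h3
      · exact Or.inl h3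
      · exact Or.inr (Or.inl h3)
    · -- w = z
      have hz'y : z' * y * z'⁻¹ = y * z := by
        have h1 : y * z' * y⁻¹ * z'⁻¹ = z := hy
        have h2 : y⁻¹ * z * (y) = z := by
          rw [mul_assoc, hzQ y hyQ]; group
        have h5 : z' * y * z'⁻¹ = z⁻¹ * y := by
          rw [← h1]; group
        rw [h5, inv_eq_of_mul_eq_one_left hz2]
        exact hzQ y hyQ
      have hz'inv : z'⁻¹ = z' := inv_eq_of_mul_eq_one_left hz'2
      have hez' : e * z' = z' * e := heR z' hz'Q rfl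
      have h1 : (z' * e) * y = y * (z' * e) := by
        have h2 : (z' * e) * y * (z' * e)⁻¹ = y := by
          calc (z' * e) * y * (z' * e)⁻¹ = z' * (e * y * e⁻¹) * z'⁻¹ := by group
            _ = z' * (y * z) * z'⁻¹ := by rw [hyw, h]
            _ = z' * (y * z) * z'⁻¹ := rfl
            _ = (z' * y * z'⁻¹) * (z' * z * z'⁻¹) := by group
            _ = (y * z) * z := by rw [hz'y, ← hzQ z' hz'Q]; group
            _ = y := by rw [mul_assoc, hz2, mul_one]
        rw [mul_inv_eq_iff_eq_mul] at h2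
        exact h2
      have h3 : ∀ r ∈ Q, r * z' = z' * r → (z' * e) * r = r * (z' * e) := by
        intro r hr hrz
        rw [mul_assoc, heR r hr hrz, ← mul_assoc, ← hrz, mul_assoc]
      have h4 := hgen _ h3 h1
      have h5 : z' * e ∈ C := C.mul_mem (hQC z' hz'Q) heC
      have h6 : (z' * e) * (z' * e) = 1 := by
        calc (z' * e) * (z' * e) = z' * (e * z') * e := by group
          _ = z' * (z' * e) * e := by rw [hez']
          _ = (z' * z') * (e * e) := by group
          _ = 1 := by rw [hz'2, he2, one_mul]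
      rcases hd _ (hc _ h5 h4) h4 h6 with h7 | h7
      · right; right; left
        have : e = z'⁻¹ := (inv_eq_of_mul_eq_one_right h7).symm
        rw [this, hz'inv]
      · right; right; right
        calc e = z'⁻¹ * (z' * e) := by group
          _ = z'⁻¹ * z := by rw [h7]
          _ = z' * z := by rw [hz'inv]
          _ = z * z' := (hzQ z' hz'Q).symm
  · exfalso
    have hyy : ∀ q ∈ Q, (y * y) * q = q * (y * y) := by
      intro q hq
      have h6 : y * q * y⁻¹ = cm y q * q := by unfold cm; group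
      have h7 : (y * y) * q * (y * y)⁻¹ = q := by
        rcases he y hyQ q hq with h3 | h3
        · rw [h3, one_mul, mul_inv_eq_iff_eq_mul] at h6
          rw [mul_inv_eq_iff_eq_mul, mul_assoc, h6, ← mul_assoc, h6, mul_assoc]
        · rw [h3] at h6
          calc (y * y) * q * (y * y)⁻¹ = y * (y * q * y⁻¹) * y⁻¹ := by group
            _ = y * (z * q) * y⁻¹ := by rw [h6]
            _ = z * (y * q * y⁻¹) := by rw [← mul_assoc y, ← hzQ y hyQ]; group
            _ = (z * z) * q := by rw [h6]; group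
            _ = q := by rw [hz2, one_mul]
      rw [mul_inv_eq_iff_eq_mul] at h7
      exact h7
    have hyyQ : y * y ∈ Q := hQmul _ hyQ _ hyQ
    have h1 := heR _ hyyQ (hyy z' hz'Q)
    have h2 : (y * w) * (y * w) = y * y := by
      calc (y * w) * (y * w) = (e * y * e⁻¹) * (e * y * e⁻¹) := by rw [hyw]
        _ = (e * (y * y)) * e⁻¹ := by group
        _ = ((y * y) * e) * e⁻¹ := by rw [h1]
        _ = y * y := by group
    have h9 : w * y * w = y := by
      have : y * (w * y * w) = y * y := by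
        calc y * (w * y * w) = y * w * (y * w) := by group
          _ = y * y := h2
      exact mul_left_cancel this
    apply hwy
    calc w * y = w * y * (w * w) := by rw [hww, mul_one]
      _ = (w * y * w) * w := by group
      _ = y * w := by rw [h9]

theorem aux {G : Type*} [Group G] [Finite G] (z : G) (hz : orderOf z = 2)
    (C : Subgroup G) (hC : C = Subgroup.centralizer ({z} : Set G)) (F : Subgroup ↥C) (hFn : F.Normal)
    (hFF : Subgroup.centralizer (F : Set C) ≤ F)
    (w : F) (hw : w ∈ Subgroup.center F) (hwz : ((w : C) : G) = z)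
    (hQ : Cfsg.IsOfSymplecticType F)
    (h4 : ∀ q ∈ F.map C.subtype, q ^ 4 = 1) (g : G) (hne : g * z * g⁻¹ ≠ z) (hin : g * z * g⁻¹ ∈ F.map C.subtype) :
    z ∈ (F.map C.subtype).map (MulAut.conj g).toMonoidHom ∧
      ∀ u ∈ Subgroup.closure ({z, g * z * g⁻¹} : Set G), ∀ v ∈ Subgroup.closure ({z, g * z * g⁻¹} : Set G),
        u ≠ 1 → v ≠ 1 → u ≠ v →
          ∃ x ∈ F.map C.subtype ⊔ (F.map C.subtype).map (MulAut.conj g).toMonoidHom, x * z * x⁻¹ = u ∧ x * (g * z * g⁻¹) * x⁻¹ = v := by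
  classical
  set Q : Subgroup G := F.map C.subtype with hQdef
  set z' := g * z * g⁻¹ with hz'
  have hfact : Fact (Nat.Prime 2) := ⟨Nat.prime_two⟩
  have hinj : Function.Injective (C.subtype.comp F.subtype) := C.subtype_injective.comp F.subtype_injective
  have hz2 : z * z = 1 := by rw [← pow_two, ← hz]; exact pow_orderOf_eq_one z
  have hz1 : z ≠ 1 := by
    rintro rfl
    rw [orderOf_one] at hz
    norm_num at hz
  have hz'2 : z' * z' = 1 := by
    calc z' * z' = g * (z * z) * g⁻¹ := by rw [hz']; group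
      _ = 1 := by rw [hz2]; group
  have hmemC : ∀ c, c ∈ C ↔ c * z = z * c := by
    intro c; rw [hC]; exact Subgroup.mem_centralizer_singleton_iff
  have hQC : ∀ q ∈ Q, q ∈ C := by
    rintro q ⟨x, -, rfl⟩
    exact x.2
  have hzQ : z ∈ Q := ⟨(w : C), w.2, hwz⟩
  have ha : ∀ c ∈ C, ∀ q ∈ Q, c * q * c⁻¹ ∈ Q := by
    rintro c hc q ⟨x, hx, rfl⟩
    exact ⟨⟨c, hc⟩ * x * ⟨c, hc⟩⁻¹, hFn.conj_mem x hx ⟨c, hc⟩, rfl⟩
  have hc : ∀ x ∈ C, (∀ q ∈ Q, x * q = q * x) → x ∈ Q := by
    intro x hx hxq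
    refine ⟨⟨x, hx⟩, ?_, rfl⟩
    apply hFF
    rw [Subgroup.mem_centralizer_iff]
    intro f hf
    apply Subtype.ext
    exact (hxq f ⟨f, hf, rfl⟩).symm
  have hZ : IsCyclic (Subgroup.center F) := hQ.2 _ inferInstance inferInstance
  have hw2 : orderOf w = 2 := by
    rw [← hz, ← hwz]
    exact (orderOf_injective _ hinj w).symm
  have hdF : ∀ x : F, (∀ q, x * q = q * x) → x * x = 1 → x = 1 ∨ x = w := by
    intro x hx hx2
    by_cases h1 : x = 1
    · exact Or.inl h1
    right
    have hxc : x ∈ Subgroup.center F := Subgroup.mem_center_iff.mpr fun q => (hx q).symm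
    have h2 : orderOf x = 2 := orderOf_eq_prime (by rw [pow_two]; exact hx2) h1
    have h3 : (⟨x, hxc⟩ : Subgroup.center F) = ⟨w, hw⟩ :=
      H35.SympType.cyclic_unique_involution hZ (by rw [Subgroup.orderOf_mk]; exact h2)
        (by rw [Subgroup.orderOf_mk]; exact hw2)
    exact congrArg Subtype.val h3
  have hd : ∀ x ∈ Q, (∀ q ∈ Q, x * q = q * x) → x * x = 1 → x = 1 ∨ x = z := by
    rintro x ⟨f, hf, rfl⟩ hx hx2
    rcases hdF ⟨f, hf⟩ (fun q => by
      apply Subtype.ext
      apply Subtype.ext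
      exact hx _ ⟨(q : C), q.2, rfl⟩) (by
      apply Subtype.ext
      apply Subtype.ext
      exact hx2) with h | h
    · left
      exact congrArg (fun y : F => ((y : C) : G)) h
    · right
      rw [← hwz]
      exact congrArg (fun y : F => ((y : C) : G)) h
  have hgood : Good F := ⟨hQ.1, hQ.2, fun q => by
    apply Subtype.ext
    apply Subtype.ext
    exact h4 _ ⟨(q : C), q.2, rfl⟩⟩
  obtain ⟨ζ, hζ2, hζc, hζ⟩ := good_small _ F rfl hgood
  have he : ∀ a ∈ Q, ∀ b ∈ Q, cm a b = 1 ∨ cm a b = z := by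
    rintro a ⟨a, haF, rfl⟩ b ⟨b, hbF, rfl⟩
    have key : cm (⟨a, haF⟩ : F) ⟨b, hbF⟩ = 1 ∨ cm (⟨a, haF⟩ : F) ⟨b, hbF⟩ = w := by
      rcases hζ ⟨a, haF⟩ ⟨b, hbF⟩ with h | h
      · exact Or.inl h
      · rw [h]; exact hdF ζ hζc hζ2
    rcases key with h | h
    · left
      exact congrArg (fun y : F => ((y : C) : G)) h
    · right
      rw [← hwz]
      exact congrArg (fun y : F => ((y : C) : G)) h
  have hz'1 : z' ≠ 1 := by
    intro h
    apply hz1
    calc z = g⁻¹ * z' * g := by rw [hz']; group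
      _ = 1 := by rw [h]; group
  -- y
  have hyex : ∃ y ∈ Q, y * z' ≠ z' * y := by
    by_contra hcon
    push Not at hcon
    rcases hd z' hin (fun q hq => (hcon q hq).symm) hz'2 with h | h
    · exact hz'1 h
    · exact hne h
  obtain ⟨y, hyQ, hyne⟩ := hyex
  have hy : cm y z' = z := by
    rcases he y hyQ z' hin with h | h
    · exact absurd (cm_eq_one.mp h) hyne
    · exact h
  have hfour := four z z' (Q : Set G) C (fun a ha b hb => Q.mul_mem ha hb) (fun a ha => Q.inv_mem ha)
    (fun c hc => (hmemC c).mp hc) hQC ha hc hd he hz2 hin hz'2 y hyQ hy hz1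
  -- the conjugate
  set P : Subgroup G := Q.map (MulAut.conj g).toMonoidHom with hP
  have hPmem : ∀ x, x ∈ P ↔ g⁻¹ * x * g ∈ Q := by
    intro x
    constructor
    · rintro ⟨q, hq, rfl⟩
      have : g⁻¹ * (MulAut.conj g).toMonoidHom q * g = q := by simp; group
      rw [this]; exact hq
    · intro h
      refine ⟨_, h, ?_⟩
      simp
      group
  set C' : Subgroup G := Subgroup.centralizer ({z'} : Set G) with hC'
  have hmemC' : ∀ c, c ∈ C' ↔ c * z' = z' * c := fun c => Subgroup.mem_centralizer_singleton_iff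
  have hC'C : ∀ c, c ∈ C' ↔ g⁻¹ * c * g ∈ C := by
    intro c
    rw [hmemC', hmemC, hz']
    constructor
    · intro h
      calc g⁻¹ * c * g * z = g⁻¹ * (c * (g * z * g⁻¹)) * g := by group
        _ = g⁻¹ * ((g * z * g⁻¹) * c) * g := by rw [h]
        _ = z * (g⁻¹ * c * g) := by group
    · intro h
      calc c * (g * z * g⁻¹) = g * (g⁻¹ * c * g * z) * g⁻¹ := by group
        _ = g * (z * (g⁻¹ * c * g)) * g⁻¹ := by rw [h]
        _ = (g * z * g⁻¹) * c := by group
  have hPC' : P ≤ C' := by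
    intro x hx
    rw [hC'C]
    exact hQC _ ((hPmem x).mp hx)
  have hPn : ∀ c ∈ C', ∀ p ∈ P, c * p * c⁻¹ ∈ P := by
    intro c hcc p hp
    rw [hPmem] at hp ⊢
    have h1 := ha _ ((hC'C c).mp hcc) _ hp
    have h2 : g⁻¹ * c * g * (g⁻¹ * p * g) * (g⁻¹ * c * g)⁻¹ = g⁻¹ * (c * p * c⁻¹) * g := by group
    rw [← h2]; exact h1
  have hQp : IsPGroup 2 Q := hQ.1.map C.subtype
  have hPp : IsPGroup 2 P := hQp.map _
  -- K and its Sylow subgroup
  set K : Subgroup G := C ⊓ C' with hK
  have hRK : Q ⊓ C' ≤ K := fun x hx => ⟨hQC x hx.1, hx.2⟩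
  have hRp : IsPGroup 2 ((Q ⊓ C').subgroupOf K) :=
    (hQp.to_le inf_le_left).comap_of_injective K.subtype K.subtype_injective
  obtain ⟨T, hT⟩ := hRp.exists_le_sylow
  set T' : Subgroup G := (T : Subgroup K).map K.subtype with hT'
  have hT'p : IsPGroup 2 T' := T.isPGroup'.map K.subtype
  have hT'K : T' ≤ K := by
    rintro x ⟨t, -, rfl⟩
    exact t.2
  have hRT' : ∀ r ∈ Q, r * z' = z' * r → r ∈ T' := by
    intro r hr hrz
    have h1 : r ∈ Q ⊓ C' := ⟨hr, (hmemC' r).mpr hrz⟩
    exact ⟨⟨r, hRK h1⟩, hT (show (⟨r, hRK h1⟩ : K) ∈ (Q ⊓ C').subgroupOf K from h1), rfl⟩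
  have hPT' : ¬ P ≤ T' := by
    intro hle
    have h1 : ∀ p ∈ P, p * z = z * p := fun p hp => (hmemC p).mp (hT'K (hle hp)).1
    have hzC' : z ∈ C' := by
      rw [hmemC']
      exact ((hmemC z').mp (hQC z' hin)).symm
    have h2 : g⁻¹ * z * g ∈ C := (hC'C z).mp hzC'
    have h3 : ∀ q ∈ Q, (g⁻¹ * z * g) * q = q * (g⁻¹ * z * g) := by
      intro q hq
      have h4 : g * q * g⁻¹ ∈ P := ⟨q, hq, rfl⟩
      have h5 := h1 _ h4
      calc (g⁻¹ * z * g) * q = g⁻¹ * (z * (g * q * g⁻¹)) * g := by group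
        _ = g⁻¹ * ((g * q * g⁻¹) * z) * g := by rw [h5]
        _ = q * (g⁻¹ * z * g) := by group
    have h6 : (g⁻¹ * z * g) * (g⁻¹ * z * g) = 1 := by
      calc (g⁻¹ * z * g) * (g⁻¹ * z * g) = g⁻¹ * (z * z) * g := by group
        _ = 1 := by rw [hz2]; group
    rcases hd _ (hc _ h2 h3) h3 h6 with h | h
    · apply hz1
      calc z = g * (g⁻¹ * z * g) * g⁻¹ := by group
        _ = 1 := by rw [h]; group
    · apply hne
      calc g * z * g⁻¹ = g * (g⁻¹ * z * g) * g⁻¹ := by rw [h]
        _ = z := by group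
  have hT'C' : T' ≤ C' := le_trans hT'K inf_le_right
  have hT'P : T' ≤ Subgroup.normalizer (P : Set G) := by
    intro t ht
    rw [Subgroup.mem_normalizer_iff]
    intro x
    constructor
    · exact hPn t (hT'C' ht) x
    · intro h
      have := hPn t⁻¹ (C'.inv_mem (hT'C' ht)) _ h
      have h2 : t⁻¹ * (t * x * t⁻¹) * t⁻¹⁻¹ = x := by group
      rw [← h2]; exact this
  have hSp : IsPGroup 2 (T' ⊔ P : Subgroup G) := hT'p.to_sup_of_normal_right' hPp hT'P
  set S : Subgroup G := T' ⊔ P with hS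
  have hlt : T'.subgroupOf S < ⊤ := by
    rw [lt_top_iff_ne_top]
    intro h
    rw [Subgroup.subgroupOf_eq_top] at h
    exact hPT' (le_trans le_sup_right h)
  have hnil : Group.IsNilpotent S := hSp.isNilpotent
  have hnc := Group.normalizerCondition_of_isNilpotent (G := S) _ hlt
  obtain ⟨n, hn1, hn2⟩ := SetLike.exists_of_lt hnc
  have hnT : (n : G) ∉ T' := fun h => hn2 h
  have hT'S : T' ≤ S := le_sup_left
  have hnnorm : ∀ x : G, x ∈ T' → (n : G) * x * (n : G)⁻¹ ∈ T' := by
    intro x hx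
    exact (Subgroup.mem_normalizer_iff.mp hn1 ⟨x, hT'S hx⟩).mp hx
  have hnnorm' : ∀ x : G, x ∈ T' → (n : G)⁻¹ * x * (n : G) ∈ T' := by
    intro x hx
    exact (Subgroup.mem_normalizer_iff''.mp hn1 ⟨x, hT'S hx⟩).mp hx
  have hnS : (n : G) ∈ ((T' ⊔ P : Subgroup G) : Set G) := n.2
  rw [Subgroup.coe_mul_of_left_le_normalizer_right T' P hT'P] at hnS
  obtain ⟨t, ht, p, hp, htp⟩ := hnS
  have htp' : t * p = n := htp
  have hpn : p = t⁻¹ * n := by rw [← htp']; group
  have hpT : p ∉ T' := by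
    intro h
    apply hnT
    rw [← htp']
    exact T'.mul_mem ht h
  have hpnorm' : ∀ x : G, x ∈ T' → p⁻¹ * x * p ∈ T' := by
    intro x hx
    have h1 := hnnorm' _ (T'.mul_mem (T'.mul_mem ht hx) (T'.inv_mem ht))
    have h2 : p⁻¹ * x * p = (n : G)⁻¹ * (t * x * t⁻¹) * n := by rw [hpn]; group
    rw [h2]; exact h1
  have hpnorm : ∀ x : G, x ∈ T' → p * x * p⁻¹ ∈ T' := by
    intro x hx
    have h1 := T'.mul_mem (T'.mul_mem (T'.inv_mem ht) (hnnorm x hx)) ht
    have h2 : p * x * p⁻¹ = t⁻¹ * ((n : G) * x * (n : G)⁻¹) * t := by rw [hpn]; group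
    rw [h2]; exact h1
  have hzT' : z ∈ T' := hRT' z hzQ (((hmemC z').mp (hQC z' hin)).symm)
  have heT' : p * z * p⁻¹ ∈ T' := hpnorm z hzT'
  have hpz : p * z * p⁻¹ = z * z' := by
    rcases hfour (p * z * p⁻¹) (hT'K heT').1 (by
        calc p * z * p⁻¹ * (p * z * p⁻¹) = p * (z * z) * p⁻¹ := by group
          _ = 1 := by rw [hz2]; group) (by
        intro r hr hrz
        have h1 := hpnorm' r (hRT' r hr hrz)
        have h2 := (hmemC _).mp (hT'K h1).1
        calc p * z * p⁻¹ * r = p * (z * (p⁻¹ * r * p)) * p⁻¹ := by group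
          _ = p * ((p⁻¹ * r * p) * z) * p⁻¹ := by rw [h2]
          _ = r * (p * z * p⁻¹) := by group) with h | h | h | h
    · exfalso
      apply hz1
      calc z = p⁻¹ * (p * z * p⁻¹) * p := by group
        _ = 1 := by rw [h]; group
    · exfalso
      rw [mul_inv_eq_iff_eq_mul] at h
      have hpC : p ∈ C := (hmemC p).mpr h
      have hpK : p ∈ K := ⟨hpC, hPC' hp⟩
      apply hpT
      have h1 : IsPGroup 2 (S.comap K.subtype) := hSp.comap_of_injective K.subtype K.subtype_injective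
      have h2 : (T : Subgroup K) ≤ S.comap K.subtype := by
        rw [← Subgroup.map_le_iff_le_comap]
        exact hT'S
      have h3 := T.is_maximal' h1 h2
      have h5 : (⟨p, hpK⟩ : K) ∈ S.comap K.subtype := (le_sup_right : P ≤ T' ⊔ P) hp
      rw [h3] at h5
      exact ⟨_, h5, rfl⟩
    · exfalso
      have h1 := (hmemC' p).mp (hPC' hp)
      apply hne
      have h2 : p * z' * p⁻¹ = z' := by rw [h1]; group
      have h3 : p * z * p⁻¹ = p * z' * p⁻¹ := h.trans h2.symm
      exact (mul_left_cancel (mul_right_cancel h3)).symm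
    · exact h
  have hpz' : p * z' * p⁻¹ = z' := by rw [(hmemC' p).mp (hPC' hp)]; group
  have hpzz' : p * (z * z') * p⁻¹ = z := by
    calc p * (z * z') * p⁻¹ = (p * z * p⁻¹) * (p * z' * p⁻¹) := by group
      _ = z := by rw [hpz, hpz', mul_assoc, hz'2, mul_one]
  have hyz : y * z * y⁻¹ = z := by rw [(hmemC y).mp (hQC y hyQ)]; group
  have hyz' : y * z' * y⁻¹ = z * z' := by
    have : y * z' * y⁻¹ = cm y z' * z' := by unfold cm; group
    rw [this, hy]
  have hyzz' : y * (z * z') * y⁻¹ = z' := by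
    calc y * (z * z') * y⁻¹ = (y * z * y⁻¹) * (y * z' * y⁻¹) := by group
      _ = z' := by rw [hyz, hyz', ← mul_assoc, hz2, one_mul]
  have hcomp : ∀ a b v : G, (a * b) * v * (a * b)⁻¹ = a * (b * v * b⁻¹) * a⁻¹ := by
    intro a b v; group
  have hyS : y ∈ Q ⊔ P := (le_sup_left : Q ≤ Q ⊔ P) hyQ
  have hpS : p ∈ Q ⊔ P := (le_sup_right : P ≤ Q ⊔ P) hp
  have hx1 : (y * p * y) * z * (y * p * y)⁻¹ = z' := by
    rw [hcomp (y * p) y, hyz, hcomp y p, hpz, hyzz']
  have hx2 : (y * p * y) * z' * (y * p * y)⁻¹ = z := by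
    rw [hcomp (y * p) y, hyz', hcomp y p, hpzz', hyz]
  have hcl : ∀ u ∈ Subgroup.closure ({z, z'} : Set G), u = 1 ∨ u = z ∨ u = z' ∨ u = z * z' := by
    intro u hu
    have hcz : z * z' = z' * z := ((hmemC z').mp (hQC z' hin)).symm
    have hmul : ∀ a b : G, (a = 1 ∨ a = z ∨ a = z' ∨ a = z * z') → (b = 1 ∨ b = z ∨ b = z' ∨ b = z * z') →
        (a * b = 1 ∨ a * b = z ∨ a * b = z' ∨ a * b = z * z') := by
      have e1 : z * (z * z') = z' := by rw [← mul_assoc, hz2, one_mul]
      have e2 : z' * (z * z') = z := by rw [hcz, ← mul_assoc, hz'2, one_mul]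
      have e3 : z * z' * z = z' := by rw [hcz, mul_assoc, hz2, mul_one]
      have e4 : z * z' * z' = z := by rw [mul_assoc, hz'2, mul_one]
      have e5 : z * z' * (z * z') = 1 := by rw [mul_assoc, e2, hz2]
      rintro a b (rfl | rfl | rfl | rfl) (rfl | rfl | rfl | rfl) <;>
        simp only [one_mul, mul_one, hz2, hz'2, e1, e2, e3, e4, e5, ← hcz] <;> simp
    induction hu using Subgroup.closure_induction with
    | mem x hx =>
      rcases hx with rfl | hx
      · right; left; rfl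
      · right; right; left; exact hx
    | one => left; rfl
    | mul x y _ _ hx hy => exact hmul x y hx hy
    | inv x _ hx =>
      have hinv : x⁻¹ = x := by
        apply inv_eq_of_mul_eq_one_left
        rcases hx with rfl | rfl | rfl | rfl
        · simp
        · exact hz2
        · exact hz'2
        · calc z * z' * (z * z') = z * (z' * z) * z' := by group
            _ = z * (z * z') * z' := by rw [hcz]
            _ = (z * z) * (z' * z') := by group
            _ = 1 := by rw [hz2, hz'2, one_mul]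
      rw [hinv]; exact hx
  refine ⟨?_, ?_⟩
  · -- z ∈ P
    rw [hPmem]
    set x := y * p * y with hx
    have h1 : x⁻¹ * g ∈ C := by
      rw [hmemC]
      have h2 : (x⁻¹ * g) * z * (x⁻¹ * g)⁻¹ = z := by
        rw [hcomp x⁻¹ g, ← hz', ← hx1]; group
      rw [mul_inv_eq_iff_eq_mul] at h2
      exact h2
    have h3 := ha _ (C.inv_mem h1) z' hin
    have h4 : g⁻¹ * z * g = (x⁻¹ * g)⁻¹ * z' * ((x⁻¹ * g)⁻¹)⁻¹ := by
      rw [← hx2]; group
    rw [h4]; exact h3
  · intro u hu v hv hu1 hv1 huv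
    rcases hcl u hu with h | h | h | h
    · exact absurd h hu1
    · rcases hcl v hv with h' | h' | h' | h'
      · exact absurd h' hv1
      · exact absurd (h.trans h'.symm) huv
      · exact ⟨1, one_mem _, by rw [h]; group, by rw [h']; group⟩
      · exact ⟨y, hyS, by rw [h, hyz], by rw [h', hyz']⟩
    · rcases hcl v hv with h' | h' | h' | h'
      · exact absurd h' hv1
      · exact ⟨y * p * y, Subgroup.mul_mem _ (Subgroup.mul_mem _ hyS hpS) hyS, by rw [h, hx1], by rw [h', hx2]⟩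
      · exact absurd (h.trans h'.symm) huv
      · exact ⟨y * p, Subgroup.mul_mem _ hyS hpS, by rw [h, hcomp, hpz, hyzz'], by rw [h', hcomp, hpz', hyz']⟩
    · rcases hcl v hv with h' | h' | h' | h'
      · exact absurd h' hv1
      · exact ⟨p * y, Subgroup.mul_mem _ hpS hyS, by rw [h, hcomp, hyz, hpz], by rw [h', hcomp, hyz', hpzz']⟩
      · exact ⟨p, hpS, by rw [h, hpz], by rw [h', hpz']⟩
      · exact absurd (h.trans h'.symm) huv


/-- Let G be a finite group and let z be an involution of G such that Q, the generalized Fitting subgroup of the centralizer C of z, is a 2-group of symplectic type (every characteristic abelian subgroup of Q is cyclic); suppose every element of Q has order dividing 4. Let g ∈ G with z' = g z g⁻¹ ≠ z and z' ∈ Q. Then z lies in the conjugate g Q g⁻¹, and the subgroup X generated by Q and g Q g⁻¹ induces every automorphism of the four-group generated by z and z': for any two distinct non-identity elements u, v of that four-group there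 is x ∈ X with x z x⁻¹ = u and x z' x⁻¹ = v. -/
theorem result {G : Type*} [Group G] [Finite G] (z : G) (hz : orderOf z = 2) (hQ : Cfsg.IsOfSymplecticType ↥(Cfsg.generalizedFittingSubgroup ↥(Subgroup.centralizer ({z} : Set G))))
    (h4 : ∀ q ∈ (Cfsg.generalizedFittingSubgroup ↥(Subgroup.centralizer ({z} : Set G))).map (Subgroup.centralizer ({z} : Set G)).subtype, q ^ 4 = 1) (g : G) (hne : g * z * g⁻¹ ≠ z) (hin : g * z * g⁻¹ ∈ (Cfsg.generalizedFittingSubgroup ↥(Subgroup.centralizer ({z} : Set G))).map (Subgroup.centralizer ({z} : Set G)).subtype) :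
    z ∈ ((Cfsg.generalizedFittingSubgroup ↥(Subgroup.centralizer ({z} : Set G))).map (Subgroup.centralizer ({z} : Set G)).subtype).map (MulAut.conj g).toMonoidHom ∧
      ∀ u ∈ Subgroup.closure ({z, g * z * g⁻¹} : Set G), ∀ v ∈ Subgroup.closure ({z, g * z * g⁻¹} : Set G),
        u ≠ 1 → v ≠ 1 → u ≠ v →
          ∃ x ∈ (Cfsg.generalizedFittingSubgroup ↥(Subgroup.centralizer ({z} : Set G))).map (Subgroup.centralizer ({z} : Set G)).subtype ⊔ ((Cfsg.generalizedFittingSubgroup ↥(Subgroup.centralizer ({z} : Set G))).map (Subgroup.centralizer ({z} : Set G)).subtype).map (MulAut.conj g).toMonoidHom, x * z * x⁻¹ = u ∧ x * (g * z * g⁻¹) * x⁻¹ = v := by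
  exact aux z hz _ rfl _ H35.SympType.gfs_normal H26.Components.centralizer_gFitting_le (H35.SympType.zF z)
    (H35.SympType.zF_mem_center z) rfl hQ h4 g hne hin

end Cfsg.Agent.S1774
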