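import Cfsg.Statements.S1780

set_option autoImplicit false
open Cfsg

namespace Cfsg.Agent.S1780

/-- Let A be a finite abelian 2-group and t an automorphism of A whose order is a power of 2. If every element of A fixed by t² is fixed by t, then t fixes every element of A. -/
theorem result {A : Type*} [CommGroup A] [Finite A]
    (hA : IsPGroup 2 A) (t : MulAut A) (ht : ∃ k : ℕ, orderOf t = 2 ^ k) (hC : ∀ a : A, t (t a) = a → t a = a) :
    ∀ a : A, t a = a := by
  classical
  by_contra hne
  push Not at hne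
  obtain ⟨a0, ha0⟩ := hne
  let d : A →* A := (t.toMonoidHom) / (MonoidHom.id A)
  have hd : ∀ a, d a = t a * a⁻¹ := fun a => by
    show t a / a = _
    rw [div_eq_mul_inv]
  set B : Subgroup A := d.range with hB
  set C : Subgroup A := B ⊓ (powMonoidHom 2 : A →* A).ker with hC'
  -- C is nontrivial
  have htB : ∀ b ∈ B, t b ∈ B := by
    rintro _ ⟨a, rfl⟩
    refine ⟨t a, ?_⟩
    rw [hd, hd, map_mul, map_inv]
  have htC : ∀ b ∈ C, t b ∈ C := by
    intro b hb
    refine ⟨htB b hb.1, ?_⟩
    have h2 : b ^ 2 = 1 := hb.2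
    show (t b) ^ 2 = 1
    rw [← map_pow, h2, map_one]
  have hBne : B ≠ ⊥ := by
    intro h
    have : d a0 ∈ B := ⟨a0, rfl⟩
    rw [h, Subgroup.mem_bot, hd] at this
    exact ha0 (mul_inv_eq_one.mp this)
  have hCne : C ≠ ⊥ := by
    intro h
    apply hBne
    rw [Subgroup.eq_bot_iff_forall]
    by_contra hcon
    push Not at hcon
    obtain ⟨b, hb, hb1⟩ := hcon
    obtain ⟨n, hn⟩ := hA.exists_orderOf_eq_pow b
    have hn0 : n ≠ 0 := by
      rintro rfl
      rw [pow_zero, orderOf_eq_one_iff] at hn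
      exact hb1 hn
    obtain ⟨m, rfl⟩ := Nat.exists_eq_succ_of_ne_zero hn0
    have hc : b ^ 2 ^ m ∈ C := by
      refine ⟨B.pow_mem hb _, ?_⟩
      show (b ^ 2 ^ m) ^ 2 = 1
      rw [← pow_mul, ← pow_succ, ← hn, pow_orderOf_eq_one]
    rw [h, Subgroup.mem_bot] at hc
    have h1 := orderOf_dvd_of_pow_eq_one hc
    rw [hn] at h1
    have h3 := (Nat.pow_dvd_pow_iff_le_right (x := 2) (by norm_num)).mp h1
    omega
  have htpow : ∀ n : ℤ, ∀ b ∈ C, (t ^ n) b ∈ C := by
    have hsub : (C.map t.toMonoidHom) = C := by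
      apply Subgroup.eq_of_le_of_card_ge
      · rintro _ ⟨b, hb, rfl⟩
        exact htC b hb
      · exact le_of_eq (Nat.card_congr (C.equivMapOfInjective _ t.injective).toEquiv)
    have hinv : ∀ b ∈ C, t⁻¹ b ∈ C := by
      intro b hb
      rw [← hsub] at hb
      obtain ⟨c, hc, rfl⟩ := hb
      have : t⁻¹ (t c) = c := MulAut.inv_apply_self _ _ _
      show t⁻¹ (t c) ∈ C
      rw [this]; exact hc
    intro n
    induction n with
    | zero => intro b hb; simpa using hb
    | succ n ih =>
      intro b hb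
      rw [zpow_add_one]
      exact ih _ (htC b hb)
    | pred n ih =>
      intro b hb
      rw [zpow_sub_one]
      exact ih _ (hinv b hb)
  let X : SubMulAction (Subgroup.zpowers t) A :=
    { carrier := C
      smul_mem' := by
        rintro ⟨s, n, rfl⟩ b hb
        exact htpow n b hb }
  have h2g : IsPGroup 2 (Subgroup.zpowers t) := by
    rw [IsPGroup.iff_card]
    obtain ⟨k, hk⟩ := ht
    exact ⟨k, by rw [Nat.card_zpowers, hk]⟩
  have hcard : 2 ∣ Nat.card X := by
    have hCp : IsPGroup 2 C := hA.to_subgroup C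
    obtain ⟨n, hn⟩ := IsPGroup.iff_card.mp hCp
    have : Nat.card X = Nat.card C := rfl
    rw [this, hn]
    have hn0 : n ≠ 0 := by
      rintro rfl
      rw [pow_zero] at hn
      exact hCne (Subgroup.card_eq_one.mp hn)
    exact dvd_pow_self 2 hn0
  have h1fix : (⟨1, C.one_mem⟩ : X) ∈ MulAction.fixedPoints (Subgroup.zpowers t) X := by
    rintro ⟨s, n, rfl⟩
    apply Subtype.ext
    show (t ^ n) 1 = 1
    exact map_one _
  obtain ⟨⟨b, hb⟩, hbfix, hbne⟩ := h2g.exists_fixed_point_of_prime_dvd_card_of_fixed_point X hcard h1fix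
  have htb : t b = b := by
    have := hbfix ⟨t, Subgroup.mem_zpowers t⟩
    exact congrArg Subtype.val this
  have hb' : b ∈ C := hb
  obtain ⟨⟨a, hab⟩, hb2⟩ := hb'
  have hb2' : b ^ 2 = 1 := hb2
  rw [hd] at hab
  have hta : t a = b * a := by rw [← hab]; group
  have htta : t (t a) = a := by
    rw [hta, map_mul, htb, hta, ← mul_assoc, ← pow_two, hb2', one_mul]
  have := hC a htta
  apply hbne
  apply Subtype.ext
  show 1 = b
  rw [← hab, this]; group

end Cfsg.Agent.S1780
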