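import Cfsg.Statements.S1781
import Cfsg.Agent.Lib.H36.TwoTI

set_option autoImplicit false
open Cfsg

namespace Cfsg.Agent.S1781


/-- Let A be an abelian 2-subgroup of the finite group G such that every conjugate of A equals A or meets A trivially, and let g ∈ G with g A g⁻¹ ≠ A. Then either the subgroup of those elements of A that normalize g A g⁻¹ is an elementary abelian 2-group, or A and g A g⁻¹ commute elementwise. -/
theorem result {G : Type*} [Group G] [Finite G] (A : Subgroup G)
    (hA2 : IsPGroup 2 ↥A) (hAa : IsMulCommutative ↥A)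
    (hti : ∀ h : G, A.map (MulAut.conj h).toMonoidHom = A ∨ A.map (MulAut.conj h).toMonoidHom ⊓ A = ⊥)
    (g : G) (hg : A.map (MulAut.conj g).toMonoidHom ≠ A) :
    Cfsg.IsElementaryAbelian 2 (A ⊓ Subgroup.normalizer ((A.map (MulAut.conj g).toMonoidHom : Subgroup G) : Set G)) ∨
      ⁅A, A.map (MulAut.conj g).toMonoidHom⁆ = ⊥ := by
  set B : Subgroup G := A.map (MulAut.conj g).toMonoidHom with hB
  have hAB : A ⊓ B = ⊥ := by
    rw [inf_comm]; exact (hti g).resolve_left hg
  by_cases hel : ∀ a ∈ A, a ∈ Subgroup.normalizer (B : Set G) → a ^ 2 = 1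
  · left
    refine ⟨⟨⟨fun a b => ?_⟩⟩, fun a ha => hel a ha.1 ha.2⟩
    have h1 : (⟨(a : G), a.2.1⟩ : ↥A) * ⟨(b : G), b.2.1⟩ = ⟨(b : G), b.2.1⟩ * ⟨(a : G), a.2.1⟩ := hAa.is_comm.comm _ _
    have h2 : (a : G) * b = b * a := congrArg Subtype.val h1
    exact Subtype.ext h2
  · right
    push Not at hel
    obtain ⟨a, ha, haN, ha2⟩ := hel
    have hBti : ∀ h : G, B.map (MulAut.conj h).toMonoidHom = B ∨ B.map (MulAut.conj h).toMonoidHom ⊓ B = ⊥ := by
      intro h
      have : B.map (MulAut.conj h).toMonoidHom = A.map (MulAut.conj (h * g)).toMonoidHom := by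
        rw [hB, Subgroup.map_map]
        congr 1
        ext x
        show h * (g * x * g⁻¹) * h⁻¹ = h * g * x * (h * g)⁻¹
        group
      rw [this]
      exact H36.TwoTI.ti_conj hti (h * g) g
    have hcomm := H36.TwoTI.commute_of_sq_ne_one (A := A) (B := B) hA2 hAa (hA2.map _) inferInstance hAB
      (H36.TwoTI.ti_centralizer hti) (H36.TwoTI.ti_centralizer hBti)
      ⟨g * a * g⁻¹, ⟨a, ha, rfl⟩, by
        intro h
        apply ha2
        have : g * a ^ 2 * g⁻¹ = 1 := by rw [← h, pow_two, pow_two]; group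
        have h3 := congrArg (fun z => g⁻¹ * z * g) this
        simpa [mul_assoc] using h3⟩ ha haN ha2
    rw [Subgroup.commutator_eq_bot_iff_le_centralizer]
    intro x hx
    rw [Subgroup.mem_centralizer_iff]
    intro b hb
    exact (hcomm x hx b hb).symm

end Cfsg.Agent.S1781
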