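import Cfsg.Statements.S1783
import Cfsg.Agent.Lib.H36.TwoTI
import Cfsg.Agent.Lib.H36.QuadSquare

set_option autoImplicit false
open Cfsg

namespace Cfsg.Agent.S1783


/-- Let X be a finite group whose generalized Fitting subgroup equals its largest normal 2-subgroup Q, and let A be an abelian 2-subgroup of X such that every conjugate of A equals A or meets A trivially. Let B be the subgroup generated by the squares of the elements of A. Then B lies in Q, and if B is not an elementary abelian 2-group then the normal closure of B in X is commutative. -/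
theorem result {X : Type*} [Group X] [Finite X]
    (hX : Cfsg.generalizedFittingSubgroup X = Cfsg.pCore 2 X) (A : Subgroup X) (hA2 : IsPGroup 2 ↥A) (hAa : IsMulCommutative ↥A)
    (hti : ∀ h : X, A.map (MulAut.conj h).toMonoidHom = A ∨ A.map (MulAut.conj h).toMonoidHom ⊓ A = ⊥) :
    Subgroup.closure ((fun a : X => a ^ 2) '' (A : Set X)) ≤ Cfsg.pCore 2 X ∧
      (¬ Cfsg.IsElementaryAbelian 2 (Subgroup.closure ((fun a : X => a ^ 2) '' (A : Set X))) →
        IsMulCommutative ↥(Subgroup.normalClosure ((fun a : X => a ^ 2) '' (A : Set X)))) := by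
  have hcommA : ∀ a ∈ A, ∀ b ∈ A, a * b = b * a := by
    intro a ha b hb
    have h1 : (⟨a, ha⟩ : ↥A) * ⟨b, hb⟩ = ⟨b, hb⟩ * ⟨a, ha⟩ := hAa.is_comm.comm _ _
    exact congrArg Subtype.val h1
  by_cases hel : ∀ a ∈ A, a ^ 2 = 1
  · have hbot : Subgroup.closure ((fun a : X => a ^ 2) '' (A : Set X)) = ⊥ := by
      rw [Subgroup.closure_eq_bot_iff]
      rintro _ ⟨a, ha, rfl⟩
      exact hel a ha
    rw [hbot]
    refine ⟨bot_le, fun h => ?_⟩
    exfalso
    apply h
    refine ⟨inferInstance, ?_⟩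
    intro a ha
    rw [Subgroup.mem_bot] at ha
    rw [ha, one_pow]
  push Not at hel
  -- the family of conjugates
  set Q := Cfsg.pCore 2 X with hQ
  have hQ2 : IsPGroup 2 Q := H1.Cores.isPGroup_pCore 2
  set Δ : Set (Subgroup X) := Set.range (fun x : X => A.map (MulAut.conj x).toMonoidHom) with hΔ
  have hmapmap : ∀ s x : X, (A.map (MulAut.conj x).toMonoidHom).map (MulAut.conj s).toMonoidHom =
      A.map (MulAut.conj (s * x)).toMonoidHom := by
    intro s x
    rw [Subgroup.map_map]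
    congr 1
    ext y
    show s * (x * y * x⁻¹) * s⁻¹ = s * x * y * (s * x)⁻¹
    group
  have hA1 : A.map (MulAut.conj (1 : X)).toMonoidHom = A := by
    ext y
    constructor
    · rintro ⟨a, ha, rfl⟩
      show 1 * a * 1⁻¹ ∈ A
      simpa using ha
    · intro hy
      exact ⟨y, hy, by show 1 * y * 1⁻¹ = y; simp⟩
  have hAΔ : A ∈ Δ := ⟨1, hA1⟩
  have hfam := H36.TwoTI.family_commute Δ
    (by rintro s _ ⟨x, rfl⟩; exact ⟨s * x, (hmapmap s x).symm⟩)
    (by
      rintro _ ⟨x, rfl⟩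
      obtain ⟨a, ha, ha2⟩ := hel
      refine ⟨x * a * x⁻¹, ⟨a, ha, rfl⟩, ?_⟩
      rw [conj_pow]
      intro h
      apply ha2
      have h3 := congrArg (fun z => x⁻¹ * z * x) h
      simpa [mul_assoc] using h3)
    (by
      have : ∀ R ∈ Δ, Nat.card R = Nat.card A := by
        rintro _ ⟨x, rfl⟩
        exact (Nat.card_congr (A.equivMapOfInjective _ (MulAut.conj x).injective).toEquiv).symm
      intro R hR T hT
      rw [this R hR, this T hT])
    (by
      rintro _ ⟨x, rfl⟩ _ ⟨y, rfl⟩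
      exact H36.TwoTI.ti_conj hti x y)
  -- commuting with Q-conjugates
  have hQcomm : ∀ (x y z : X), x * (y)⁻¹ ∈ Q → ∀ a ∈ A, ∀ b ∈ A, (x * a * x⁻¹) * (y * b * y⁻¹) = (y * b * y⁻¹) * (x * a * x⁻¹) := by
    intro x y _ hxy a ha b hb
    by_cases hne : A.map (MulAut.conj x).toMonoidHom = A.map (MulAut.conj y).toMonoidHom
    · have h1 : x * a * x⁻¹ ∈ A.map (MulAut.conj y).toMonoidHom := by rw [← hne]; exact ⟨a, ha, rfl⟩
      obtain ⟨c, hc, hca⟩ := h1
      have hca' : y * c * y⁻¹ = x * a * x⁻¹ := hca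
      rw [← hca']
      calc y * c * y⁻¹ * (y * b * y⁻¹) = y * (c * b) * y⁻¹ := by group
        _ = y * (b * c) * y⁻¹ := by rw [hcommA c hc b hb]
        _ = _ := by group
    · have hR : A.map (MulAut.conj x).toMonoidHom ≤ Q ⊔ A.map (MulAut.conj y).toMonoidHom := by
        rintro _ ⟨a, ha, rfl⟩
        have h2 : (MulAut.conj x).toMonoidHom a = (x * y⁻¹) * (y * a * y⁻¹) * (x * y⁻¹)⁻¹ := by
          show x * a * x⁻¹ = _
          group
        rw [h2]
        have h3 : x * y⁻¹ ∈ Q ⊔ A.map (MulAut.conj y).toMonoidHom := (le_sup_left : Q ≤ _) hxy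
        have h4 : y * a * y⁻¹ ∈ Q ⊔ A.map (MulAut.conj y).toMonoidHom :=
          (le_sup_right : A.map (MulAut.conj y).toMonoidHom ≤ _) ⟨a, ha, rfl⟩
        exact Subgroup.mul_mem _ (Subgroup.mul_mem _ h3 h4) (Subgroup.inv_mem _ h3)
      have hH : IsPGroup 2 (Q ⊔ A.map (MulAut.conj y).toMonoidHom : Subgroup X) :=
        hQ2.to_sup_of_normal_left (hA2.map _)
      exact hfam _ _ rfl hH _ ⟨x, rfl⟩ _ ⟨y, rfl⟩ hR le_sup_right hne _ ⟨a, ha, rfl⟩ _ ⟨b, hb, rfl⟩
  -- squares of elements of A lie in Q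
  have hsqQ : ∀ a ∈ A, a ^ 2 ∈ Q := by
    intro a ha
    apply H36.QuadSquare.sq_mem_pCore_two hX
    intro n hn
    have h1 := hQcomm 1 n⁻¹ 1 (by simpa using hn) a ha a ha
    have h2 : Commute a (n⁻¹ * a * n) := by
      have : 1 * a * 1⁻¹ * (n⁻¹ * a * n⁻¹⁻¹) = n⁻¹ * a * n⁻¹⁻¹ * (1 * a * 1⁻¹) := h1
      simpa [Commute, SemiconjBy] using this
    have h3 : n⁻¹ * (a * n * a⁻¹) = (n⁻¹ * a * n) * a⁻¹ := by group
    rw [h3]
    exact h2.mul_right (Commute.inv_right (Commute.refl a))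
  refine ⟨?_, ?_⟩
  · rw [Subgroup.closure_le]
    rintro _ ⟨a, ha, rfl⟩
    exact hsqQ a ha
  · intro hB
    -- some a with (a^2)^2 ≠ 1
    have h4 : ∃ a ∈ A, (a ^ 2) ^ 2 ≠ 1 := by
      by_contra hcon
      push Not at hcon
      apply hB
      have hle : Subgroup.closure ((fun a : X => a ^ 2) '' (A : Set X)) ≤ A := by
        rw [Subgroup.closure_le]
        rintro _ ⟨a, ha, rfl⟩
        exact A.pow_mem ha 2
      refine ⟨⟨⟨fun x y => Subtype.ext (hcommA _ (hle x.2) _ (hle y.2))⟩⟩, ?_⟩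
      intro x hx
      induction hx using Subgroup.closure_induction with
      | mem x hx =>
        obtain ⟨a, ha, rfl⟩ := hx
        exact hcon a ha
      | one => exact one_pow 2
      | mul x y hx hy h1 h2 =>
        have : Commute x y := hcommA _ (hle hx) _ (hle hy)
        rw [this.mul_pow, h1, h2, one_mul]
      | inv x hx h => rw [inv_pow, h, inv_one]
    obtain ⟨a0, ha0, ha04⟩ := h4
    have hpow2 : ∀ a ∈ A, ∃ k : ℕ, a ^ 2 ^ k = 1 := by
      intro a ha
      obtain ⟨k, hk⟩ := hA2 ⟨a, ha⟩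
      exact ⟨k, by simpa using congrArg Subtype.val hk⟩
    have hgoodQ : ∀ (x : X) (q : X), q ∈ Q → H36.TwoTI.Good (A.map (MulAut.conj x).toMonoidHom) q := by
      intro x q hq
      by_cases hN : q ∈ Subgroup.normalizer ((A.map (MulAut.conj x).toMonoidHom : Subgroup X) : Set X)
      · exact Or.inl hN
      right
      refine ⟨?_, ?_⟩
      · rintro _ ⟨a, ha, rfl⟩ _ ⟨b, hb, rfl⟩
        have h1 := hQcomm x (q * x) 1 (by
          have : x * (q * x)⁻¹ = q⁻¹ := by group
          rw [this]; exact Q.inv_mem hq) a ha b hb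
        show (x * a * x⁻¹) * (q * (x * b * x⁻¹) * q⁻¹) = (q * (x * b * x⁻¹) * q⁻¹) * (x * a * x⁻¹)
        have h2 : q * (x * b * x⁻¹) * q⁻¹ = q * x * b * (q * x)⁻¹ := by group
        rw [h2]; exact h1
      · rintro a ha b hb hab
        have h1 := (H36.TwoTI.ti_conj hti x (q * x)).resolve_left (by
          intro h
          apply hN
          rw [H36.TwoTI.mem_normalizer_iff_map, hmapmap]
          exact h.symm)
        have h2 : a ∈ A.map (MulAut.conj x).toMonoidHom ⊓ A.map (MulAut.conj (q * x)).toMonoidHom := by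
          refine Subgroup.mem_inf.mpr ⟨ha, ?_⟩
          rw [← hmapmap]
          exact ⟨b, hb, hab.symm⟩
        rwa [h1, Subgroup.mem_bot] at h2
    -- distinct conjugates commute
    have hmain : ∀ x : X, A.map (MulAut.conj x).toMonoidHom ≠ A →
        ∀ a ∈ A, ∀ c ∈ A.map (MulAut.conj x).toMonoidHom, a * c = c * a := by
      intro x hx
      set C := A.map (MulAut.conj x).toMonoidHom with hC
      by_contra hcon
      have hCti : ∀ h : X, C.map (MulAut.conj h).toMonoidHom = C ∨ C.map (MulAut.conj h).toMonoidHom ⊓ C = ⊥ := by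
        intro h
        rw [hC, hmapmap]
        exact H36.TwoTI.ti_conj hti (h * x) x
      have hAC : A ⊓ C = ⊥ := by rw [inf_comm]; exact (hti x).resolve_left hx
      have hCa : IsMulCommutative ↥C := by rw [hC]; infer_instance
      have hC2 : IsPGroup 2 ↥C := hA2.map _
      have hCsq : ∃ b ∈ C, b ^ 2 ≠ 1 := by
        obtain ⟨a, ha, ha2⟩ := hel
        refine ⟨x * a * x⁻¹, ⟨a, ha, rfl⟩, ?_⟩
        rw [conj_pow]
        intro h
        apply ha2
        have h3 := congrArg (fun z => x⁻¹ * z * x) h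
        simpa [mul_assoc] using h3
      -- every square of C normalizes A
      have hN : ∀ c ∈ C, c ^ 2 ∈ Subgroup.normalizer (A : Set X) := by
        intro c hc
        by_contra hb
        have hcQ : c ^ 2 ∈ Q := by
          obtain ⟨a, ha, rfl⟩ := hc
          have : ((MulAut.conj x).toMonoidHom a) ^ 2 = x * a ^ 2 * x⁻¹ := by
            show (x * a * x⁻¹) ^ 2 = _
            rw [conj_pow]
          rw [this]
          exact (inferInstance : Q.Normal).conj_mem _ (hsqQ a ha) x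
        have ha0C : a0 ^ 2 ∉ Subgroup.normalizer (C : Set X) := by
          intro h
          exact hcon (H36.TwoTI.commute_of_sq_ne_one hA2 hAa hC2 hCa hAC (H36.TwoTI.ti_centralizer hti)
            (H36.TwoTI.ti_centralizer hCti) hCsq (A.pow_mem ha0 2) h ha04)
        have hgA : ∀ q ∈ Q, H36.TwoTI.Good A q := by
          intro q hq
          have := hgoodQ 1 q hq
          rwa [hA1] at this
        obtain ⟨k, hk⟩ := hpow2 (a0 ^ 2) (A.pow_mem ha0 2)
        have := H36.TwoTI.sq_eq_one_of_good (R := A) (T := C) (r := a0 ^ 2) (t := c ^ 2) (A.pow_mem ha0 2) (C.pow_mem hc 2)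
          ha0C hb (hgA _ hcQ) (hgoodQ x _ (Q.inv_mem (hsqQ a0 ha0)))
          (hgoodQ x _ (Q.inv_mem (Q.pow_mem (hsqQ a0 ha0) 2))) hk
        exact ha04 this.1
      apply hcon
      have hc0 : x * a0 * x⁻¹ ∈ C := ⟨a0, ha0, rfl⟩
      have h5 : ((x * a0 * x⁻¹) ^ 2) ^ 2 ≠ 1 := by
        rw [conj_pow, conj_pow]
        intro h
        apply ha04
        have h3 := congrArg (fun z => x⁻¹ * z * x) h
        simpa [mul_assoc] using h3
      have h6 := H36.TwoTI.commute_of_sq_ne_one (A := C) (B := A) hC2 hCa hA2 hAa (by rw [inf_comm]; exact hAC)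
        (H36.TwoTI.ti_centralizer hCti) (H36.TwoTI.ti_centralizer hti) hel (C.pow_mem hc0 2) (hN _ hc0) h5
      intro a ha c hc
      exact (h6 c hc a ha).symm
    -- conclude
    have hall : ∀ x y : X, ∀ a ∈ A, ∀ b ∈ A, (x * a * x⁻¹) * (y * b * y⁻¹) = (y * b * y⁻¹) * (x * a * x⁻¹) := by
      intro x y a ha b hb
      have h1 : a * ((x⁻¹ * y) * b * (x⁻¹ * y)⁻¹) = ((x⁻¹ * y) * b * (x⁻¹ * y)⁻¹) * a := by
        by_cases hne : A.map (MulAut.conj (x⁻¹ * y)).toMonoidHom = A
        · have : (x⁻¹ * y) * b * (x⁻¹ * y)⁻¹ ∈ A := by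
            have h9 : (x⁻¹ * y) * b * (x⁻¹ * y)⁻¹ ∈ A.map (MulAut.conj (x⁻¹ * y)).toMonoidHom := ⟨b, hb, rfl⟩
            rw [hne] at h9
            exact h9
          exact hcommA _ ha _ this
        · exact hmain _ hne a ha _ ⟨b, hb, rfl⟩
      calc (x * a * x⁻¹) * (y * b * y⁻¹) = x * (a * ((x⁻¹ * y) * b * (x⁻¹ * y)⁻¹)) * x⁻¹ := by group
        _ = x * (((x⁻¹ * y) * b * (x⁻¹ * y)⁻¹) * a) * x⁻¹ := by rw [h1]
        _ = _ := by group
    rw [← Subgroup.le_centralizer_iff_isMulCommutative]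
    rw [Subgroup.normalClosure, Subgroup.closure_le]
    intro u hu
    rw [SetLike.mem_coe, Subgroup.mem_centralizer_iff]
    intro v hv
    obtain ⟨s, ⟨a, ha, rfl⟩, hs⟩ := Group.mem_conjugatesOfSet_iff.mp hu
    obtain ⟨g, hg⟩ := isConj_iff.mp hs
    have hcl : Subgroup.closure (Group.conjugatesOfSet ((fun a : X => a ^ 2) '' (A : Set X))) ≤ Subgroup.centralizer {u} := by
      rw [Subgroup.closure_le]
      intro w hw
      rw [SetLike.mem_coe, Subgroup.mem_centralizer_singleton_iff]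
      obtain ⟨s', ⟨b, hb, rfl⟩, hs'⟩ := Group.mem_conjugatesOfSet_iff.mp hw
      obtain ⟨h, hh⟩ := isConj_iff.mp hs'
      rw [← hg, ← hh]
      exact hall h g _ (A.pow_mem hb 2) _ (A.pow_mem ha 2)
    have := hcl hv
    exact Subgroup.mem_centralizer_singleton_iff.mp this

end Cfsg.Agent.S1783
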