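import Cfsg.Statements.S1784
import Mathlib
import Cfsg.Agent.Lib.H26.GenFitting
import Cfsg.Agent.Lib.H36.ExtraInv
import Cfsg.Agent.Lib.H36.CharTwoLocal

set_option autoImplicit false
open Cfsg

namespace Cfsg.Agent.S1784


/-- Let G be a finite group and let z be an involution of G such that Q, the generalized Fitting subgroup of the centralizer C of z, is a 2-group of symplectic type (every characteristic abelian subgroup of Q is cyclic); suppose Q is extraspecial, and view Q inside G. Let α be an involution of C that is not in Q, and let Q₀ be the subgroup of those q ∈ Q whose commutator with α lies in the subgroup generated by z. Then (a) the subgroup generated by the commutators α q α⁻¹ q⁻¹, q ∈ Q, equals the centre of Q₀; and (b) if Q₀ is not contained in the product of the centralizer of α in Q with the subgroup generated by z, then some element of Q conjugates α to α z. -/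
theorem result {G : Type*} [Group G] [Finite G] (z : G) (hz : orderOf z = 2) (hQ : Cfsg.IsOfSymplecticType ↥(Cfsg.generalizedFittingSubgroup ↥(Subgroup.centralizer ({z} : Set G)))) (hE : Cfsg.IsExtraspecial 2 ↥(Cfsg.generalizedFittingSubgroup ↥(Subgroup.centralizer ({z} : Set G))))
    (α : G) (hα : orderOf α = 2) (hαC : α ∈ Subgroup.centralizer ({z} : Set G)) (hαQ : α ∉ (Cfsg.generalizedFittingSubgroup ↥(Subgroup.centralizer ({z} : Set G))).map (Subgroup.centralizer ({z} : Set G)).subtype)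
    (Q₀ : Subgroup G) (hQ₀ : ∀ q : G, q ∈ Q₀ ↔ (q ∈ (Cfsg.generalizedFittingSubgroup ↥(Subgroup.centralizer ({z} : Set G))).map (Subgroup.centralizer ({z} : Set G)).subtype ∧ α * q * α⁻¹ * q⁻¹ ∈ Subgroup.zpowers z)) :
    Subgroup.closure ((fun q : G => α * q * α⁻¹ * q⁻¹) '' ((Cfsg.generalizedFittingSubgroup ↥(Subgroup.centralizer ({z} : Set G))).map (Subgroup.centralizer ({z} : Set G)).subtype : Set G)) = (Subgroup.center ↥Q₀).map Q₀.subtype ∧
      (¬ Q₀ ≤ ((Cfsg.generalizedFittingSubgroup ↥(Subgroup.centralizer ({z} : Set G))).map (Subgroup.centralizer ({z} : Set G)).subtype ⊓ Subgroup.centralizer ({α} : Set G)) ⊔ Subgroup.zpowers z →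
        ∃ q ∈ (Cfsg.generalizedFittingSubgroup ↥(Subgroup.centralizer ({z} : Set G))).map (Subgroup.centralizer ({z} : Set G)).subtype, q * α * q⁻¹ = α * z) := by
  have : Fact (Nat.Prime 2) := ⟨Nat.prime_two⟩
  set C := Subgroup.centralizer ({z} : Set G) with hC
  set F := Cfsg.generalizedFittingSubgroup ↥C with hF
  set Q := F.map C.subtype with hQdef
  let φ : ↥F →* G := C.subtype.comp F.subtype
  have hφ : ∀ x : F, φ x = ((x : C) : G) := fun x => rfl
  have hφinj : Function.Injective φ := C.subtype_injective.comp F.subtype_injective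
  have hQrange : ∀ g : G, g ∈ Q ↔ ∃ x : F, φ x = g := by
    intro g
    constructor
    · rintro ⟨x, hx, rfl⟩
      exact ⟨⟨x, hx⟩, rfl⟩
    · rintro ⟨x, rfl⟩
      exact ⟨x, x.2, rfl⟩
  have hFn : F.Normal := inferInstance
  have hz1 : z ≠ 1 := by
    rintro rfl
    rw [orderOf_one] at hz
    omega
  have hmemz : ∀ y, y ∈ Subgroup.zpowers z ↔ y = 1 ∨ y = z :=
    H36.CharTwoLocal.mem_zpowers_iff_of_orderOf_two hz
  have hzC : z ∈ C := by rw [hC, Subgroup.mem_centralizer_singleton_iff]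
  -- `z ∈ F`
  have hzF : (⟨z, hzC⟩ : C) ∈ F := by
    have h1 : F = Cfsg.pCore 2 ↥C := H26.GenFitting.isPGroup_gFitting_iff.mp hQ.1
    rw [h1]
    have hcen : ∀ c : C, c * ⟨z, hzC⟩ = ⟨z, hzC⟩ * c := by
      intro c
      apply Subtype.ext
      exact Subgroup.mem_centralizer_singleton_iff.mp c.2
    have hn : (Subgroup.zpowers (⟨z, hzC⟩ : C)).Normal := by
      refine ⟨fun n hn g => ?_⟩
      obtain ⟨k, rfl⟩ := Subgroup.mem_zpowers_iff.mp hn
      have h2 : Commute g ((⟨z, hzC⟩ : C) ^ k) := (show Commute g ⟨z, hzC⟩ from hcen g).zpow_right k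
      rw [h2.eq, mul_inv_cancel_right]
      exact Subgroup.zpow_mem _ (Subgroup.mem_zpowers _) k
    apply H1.Cores.le_pCore hn _ (Subgroup.mem_zpowers _)
    apply IsPGroup.of_card (n := 1)
    rw [Nat.card_zpowers, pow_one, ← hz]
    exact (orderOf_injective C.subtype C.subtype_injective _).symm
  let z' : F := ⟨⟨z, hzC⟩, hzF⟩
  have hz'cen : z' ∈ Subgroup.center F := by
    rw [Subgroup.mem_center_iff]
    intro g
    apply Subtype.ext
    apply Subtype.ext
    exact Subgroup.mem_centralizer_singleton_iff.mp (g : C).2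
  have hz'1 : z' ≠ 1 := by
    intro h
    apply hz1
    have h1 : φ z' = 1 := by rw [h, map_one]
    exact h1
  have hcenter : ∀ x : F, x ∈ Subgroup.center F ↔ φ x ∈ Subgroup.zpowers z := by
    intro x
    rw [hmemz]
    constructor
    · intro hx
      rcases H36.ExtraInv.eq_one_or hE hz'cen hz'1 hx with rfl | rfl
      · left; exact map_one φ
      · right; rfl
    · rintro (h | h)
      · have : x = 1 := hφinj (by rw [h, map_one])
        rw [this]; exact Subgroup.one_mem _
      · have : x = z' := hφinj h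
        rw [this]; exact hz'cen
  -- the automorphism
  have hα2 : α * α = 1 := by rw [← pow_two, ← hα]; exact pow_orderOf_eq_one α
  let a : F ≃* F := MulAut.conjNormal (⟨α, hαC⟩ : C)
  have ha : ∀ x : F, φ (a x) = α * φ x * α⁻¹ := fun x => rfl
  have haa : ∀ x : F, a (a x) = x := by
    intro x
    apply hφinj
    rw [ha, ha]
    calc α * (α * φ x * α⁻¹) * α⁻¹ = (α * α) * φ x * (α * α)⁻¹ := by group
      _ = φ x := by rw [hα2]; group
  have hne : ∃ x, a x ≠ x := by
    by_contra h
    push Not at h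
    apply hαQ
    refine ⟨⟨α, hαC⟩, ?_, rfl⟩
    apply H26.Components.centralizer_gFitting_le
    rw [Subgroup.mem_centralizer_iff]
    intro y hy
    have h1 := congrArg φ (h ⟨y, hy⟩)
    rw [ha] at h1
    apply Subtype.ext
    exact (mul_inv_eq_iff_eq_mul.mp h1).symm
  set Q₀' : Subgroup F := Q₀.comap φ with hQ₀'
  have hQ₀'' : ∀ q, q ∈ Q₀' ↔ a q * q⁻¹ ∈ Subgroup.center F := by
    intro q
    rw [hQ₀', Subgroup.mem_comap, hQ₀, hcenter, map_mul, map_inv, ha]
    constructor
    · exact fun h => h.2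
    · exact fun h => ⟨(hQrange _).mpr ⟨q, rfl⟩, h⟩
  have hQ₀Q : ∀ y ∈ Q₀, ∃ x : F, φ x = y := fun y hy => (hQrange y).mp ((hQ₀ y).mp hy).1
  refine ⟨?_, ?_⟩
  · have hmap : Subgroup.closure ((fun q : G => α * q * α⁻¹ * q⁻¹) '' (Q : Set G)) =
        (Subgroup.closure (Set.range fun q : F => a q * q⁻¹)).map φ := by
      rw [MonoidHom.map_closure]
      congr 1
      ext g
      constructor
      · rintro ⟨q, hq, rfl⟩
        obtain ⟨x, rfl⟩ := (hQrange q).mp hq
        refine ⟨a x * x⁻¹, ⟨x, rfl⟩, ?_⟩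
        rw [map_mul, map_inv, ha]
      · rintro ⟨_, ⟨x, rfl⟩, rfl⟩
        refine ⟨φ x, (hQrange _).mpr ⟨x, rfl⟩, ?_⟩
        simp only
        rw [map_mul, map_inv, ha]
    rw [hmap]
    ext g
    constructor
    · rintro ⟨x, hx, rfl⟩
      obtain ⟨h1, h2⟩ := (H36.ExtraInv.closure_eq hE a haa hne Q₀' hQ₀'' x).mp hx
      refine ⟨⟨φ x, h1⟩, ?_, rfl⟩
      show (⟨φ x, h1⟩ : Q₀) ∈ Subgroup.center Q₀
      rw [Subgroup.mem_center_iff]
      rintro ⟨y, hy⟩
      obtain ⟨w, rfl⟩ := hQ₀Q y hy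
      apply Subtype.ext
      show φ w * φ x = φ x * φ w
      rw [← map_mul, ← map_mul, h2 w hy]
    · rintro ⟨⟨y, hy⟩, hyc, rfl⟩
      obtain ⟨x, rfl⟩ := hQ₀Q y hy
      refine ⟨x, ?_, rfl⟩
      apply (H36.ExtraInv.closure_eq hE a haa hne Q₀' hQ₀'' x).mpr
      refine ⟨hy, fun w hw => ?_⟩
      apply hφinj
      have hyc' : (⟨φ x, hy⟩ : Q₀) ∈ Subgroup.center Q₀ := hyc
      have h3 := congrArg Subtype.val (Subgroup.mem_center_iff.mp hyc' ⟨φ w, hw⟩)
      rw [map_mul, map_mul]
      exact h3.symm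
  · intro hnot
    obtain ⟨q, hq, hqn⟩ := SetLike.not_le_iff_exists.mp hnot
    obtain ⟨hqQ, hqz⟩ := (hQ₀ q).mp hq
    refine ⟨q, hqQ, ?_⟩
    rcases (hmemz _).mp hqz with h | h
    · exfalso
      apply hqn
      apply Subgroup.mem_sup_left
      refine Subgroup.mem_inf.mpr ⟨hqQ, ?_⟩
      rw [Subgroup.mem_centralizer_singleton_iff]
      have h1 : α * q * α⁻¹ = q := mul_inv_eq_one.mp h
      exact (mul_inv_eq_iff_eq_mul.mp h1).symm
    · have hαi : α⁻¹ = α := inv_eq_of_mul_eq_one_left hα2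
      calc q * α * q⁻¹ = q * α⁻¹ * q⁻¹ := by rw [hαi]
        _ = α⁻¹ * (α * q * α⁻¹ * q⁻¹) := by group
        _ = α * z := by rw [h, hαi]

end Cfsg.Agent.S1784
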