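import Cfsg.Statements.S1785
import Mathlib
import Cfsg.Agent.Lib.H36.EightConn

set_option autoImplicit false
open Cfsg

namespace Cfsg.Agent.S1785


/-- Let X be a finite 2-group having a normal elementary abelian subgroup of order at least 32. Then (a) for any two elementary abelian subgroups A, B of X of order 8 there is a chain A = A₁, A₂, …, Aₙ = B of elementary abelian subgroups of order 8 in which consecutive members commute elementwise; and (b) every elementary abelian subgroup of X of order 4 is contained in an elementary abelian subgroup of order 8. -/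
theorem result {X : Type*} [Group X] [Finite X]
    (hX : IsPGroup 2 X) (E : Subgroup X) [E.Normal] (hE : Cfsg.IsElementaryAbelian 2 E) (hE32 : 32 ≤ Nat.card ↥E) :
    (∀ A B : Subgroup X, Cfsg.IsElementaryAbelian 2 A → Nat.card ↥A = 8 → Cfsg.IsElementaryAbelian 2 B → Nat.card ↥B = 8 →
        Relation.ReflTransGen
          (fun C D : Subgroup X => Cfsg.IsElementaryAbelian 2 C ∧ Nat.card ↥C = 8 ∧ Cfsg.IsElementaryAbelian 2 D ∧ Nat.card ↥D = 8 ∧ ⁅C, D⁆ = ⊥)
          A B) ∧
      (∀ V : Subgroup X, Cfsg.IsElementaryAbelian 2 V → Nat.card ↥V = 4 →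
        ∃ A : Subgroup X, V ≤ A ∧ Cfsg.IsElementaryAbelian 2 A ∧ Nat.card ↥A = 8) := by
  refine ⟨fun A B hA hA8 hB hB8 => ?_, fun V hV hV4 => H36.EightConn.exists_eight hE hE32 hV hV4⟩
  obtain ⟨F, hFE, hF, hF8, h1⟩ := H36.EightConn.exists_chain hE hE32 hA hA8
  obtain ⟨F', hFE', hF', hF8', h2⟩ := H36.EightConn.exists_chain hE hE32 hB hB8
  have h3 : H36.EightConn.Rel F F' := by
    refine ⟨hF, hF8, hF', hF8', ?_⟩
    rw [Subgroup.commutator_eq_bot_iff_le_centralizer]
    intro x hx
    rw [Subgroup.mem_centralizer_iff]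
    exact fun y hy => (H13.ElemAb.iff_mem.mp hE).1 y (hFE' hy) x (hFE hx)
  have h4 : Relation.ReflTransGen H36.EightConn.Rel F' B := by
    have hs : ∀ C D : Subgroup X, Relation.ReflTransGen H36.EightConn.Rel C D →
        Relation.ReflTransGen H36.EightConn.Rel D C := by
      intro C D h
      induction h with
      | refl => exact Relation.ReflTransGen.refl
      | tail _ h ih => exact (Relation.ReflTransGen.single (H36.EightConn.rel_symm h)).trans ih
    exact hs _ _ h2
  exact (h1.tail h3).trans h4

end Cfsg.Agent.S1785
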