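import Cfsg.Statements.S1786
import Cfsg.Agent.Lib.H13.TI5
import Cfsg.Agent.Lib.H26.GenFitting

set_option autoImplicit false
open Cfsg H13.TI1 H13

namespace Cfsg.Agent.S1786

/-- Let G be a finite group, V an elementary abelian 2-subgroup of G and M the normalizer of V; write Q for the largest normal 2-subgroup of M. Suppose (1) the generalized Fitting subgroup of M equals Q; (2) V is a maximal abelian normal subgroup of M; (3) every conjugate of V equals V or meets V trivially, and for some g ∈ G the conjugate V' = g V g⁻¹ is different from V and contained in Q. Let P be the centralizer of V in Q, W the subgroup generated by V and V', and H the subgroup generated by P and g P g⁻¹. Then: (a) V is contained in g Q g⁻¹; (b) every non-identity element of W lies in exactly one conjugate of V contained in W, H normalizes W, and H modulo the centralizer of W in H is isomorphic to the special linear group of dimension 2 over the field with |V| elements; (c) P = Q, and V equals the Frattini subgroup, the centre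 and the commutator subgroup of Q. -/
theorem result {G : Type*} [Group G] [Finite G] (V : Subgroup G)
    (hV : Cfsg.IsElementaryAbelian 2 V)
    (h1 : (Cfsg.generalizedFittingSubgroup ↥(Subgroup.normalizer (V : Set G))).map (Subgroup.normalizer (V : Set G)).subtype =
      (Cfsg.pCore 2 ↥(Subgroup.normalizer (V : Set G))).map (Subgroup.normalizer (V : Set G)).subtype)
    (h2 : ∀ A : Subgroup G, V ≤ A → A ≤ Subgroup.normalizer (V : Set G) → IsMulCommutative ↥A →
      (∀ m ∈ Subgroup.normalizer (V : Set G), ∀ a ∈ A, m * a * m⁻¹ ∈ A) → A = V)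
    (hti : ∀ x : G, V.map (MulAut.conj x).toMonoidHom = V ∨ V.map (MulAut.conj x).toMonoidHom ⊓ V = ⊥)
    (g : G) (hg : V.map (MulAut.conj g).toMonoidHom ≠ V)
    (hgQ : V.map (MulAut.conj g).toMonoidHom ≤ (Cfsg.pCore 2 ↥(Subgroup.normalizer (V : Set G))).map (Subgroup.normalizer (V : Set G)).subtype) :
    let Q : Subgroup G := (Cfsg.pCore 2 ↥(Subgroup.normalizer (V : Set G))).map (Subgroup.normalizer (V : Set G)).subtype
    let P : Subgroup G := Q ⊓ Subgroup.centralizer (V : Set G)
    let W : Subgroup G := V ⊔ V.map (MulAut.conj g).toMonoidHom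
    let H : Subgroup G := P ⊔ P.map (MulAut.conj g).toMonoidHom
    V ≤ Q.map (MulAut.conj g).toMonoidHom ∧
      (∀ w ∈ W, w ≠ 1 → ∃! U : Subgroup G, (∃ x : G, U = V.map (MulAut.conj x).toMonoidHom) ∧ U ≤ W ∧ w ∈ U) ∧
      H ≤ Subgroup.normalizer (W : Set G) ∧
      (∀ hN : ((Subgroup.centralizer (W : Set G)).subgroupOf H).Normal, ∃ (F : Type) (_ : Field F) (_ : Fintype F), Fintype.card F = Nat.card ↥V ∧
        Nonempty (↥H ⧸ (Subgroup.centralizer (W : Set G)).subgroupOf H ≃* Matrix.SpecialLinearGroup (Fin 2) F)) ∧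
      P = Q ∧ (frattini ↥Q).map Q.subtype = V ∧ (Subgroup.center ↥Q).map Q.subtype = V ∧ (commutator ↥Q).map Q.subtype = V := by
  intro Q P W H
  have hp2 : Fact (Nat.Prime 2) := ⟨Nat.prime_two⟩
  have hGd : Gd V := by
    refine ⟨?_, ?_, ?_, ?_, hti⟩
    · intro v hv
      have h3 := hV.2 v hv
      rwa [pow_two] at h3
    · intro v hv w hw
      have h3 := hV.1.is_comm.comm (⟨v, hv⟩ : V) ⟨w, hw⟩
      exact congrArg Subtype.val h3
    · have h3 := H26.GenFitting.gFitting_eq_pCore_iff.1
        (Subgroup.map_injective (Subgroup.subtype_injective (Subgroup.normalizer (V : Set G))) h1)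
      rintro x ⟨hx, hxc⟩
      refine ⟨⟨x, hx⟩, h3 ?_, rfl⟩
      rw [Subgroup.mem_centralizer_iff]
      intro y hy
      apply Subtype.ext
      exact (Subgroup.mem_centralizer_iff.1 hxc) y ⟨y, hy, rfl⟩
    · intro A hVA hA hcm hn
      refine h2 A hVA hA ⟨⟨fun a b => Subtype.ext (hcm a a.2 b b.2)⟩⟩ ?_
      intro m hm a ha
      exact (Subgroup.mem_normalizer_iff.1 (hn hm) a).1 ha
  have hPr : Pr V (V.map (MulAut.conj g).toMonoidHom) := ⟨hGd, ⟨g, rfl⟩, hg, hgQ⟩
  have hQ : Q = QQ V := rfl
  have hP : P = PP V := rfl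
  have hW : W = V ⊔ V.map (MulAut.conj g).toMonoidHom := rfl
  have hPg : P.map (MulAut.conj g).toMonoidHom = PP (V.map (MulAut.conj g).toMonoidHom) := (cj_PP g V).symm
  have hH : H = PP V ⊔ PP (V.map (MulAut.conj g).toMonoidHom) := by
    rw [← hPg]
    rfl
  refine ⟨?_, ?_, ?_, ?_, ?_, ?_, ?_, ?_⟩
  · have h3 := hPr.le_QQ'
    rwa [cj_QQ] at h3
  · intro w hw hw1
    obtain ⟨Y, hY⟩ := hPr.exists_opp'
    exact hY.spread hw hw1
  · rw [hH]
    exact hPr.le_normalizer_sup'
  · rw [hH]
    intro hN
    exact hPr.exists_equiv hN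
  · exact hPr.PP_eq
  · exact hPr.frattini_QQ
  · exact hPr.center_QQ
  · exact hPr.commutator_QQ

end Cfsg.Agent.S1786
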