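import Cfsg.Statements.S1850
import Mathlib
import Cfsg.Agent.Lib.H36.CharTwoLocal

set_option autoImplicit false
open Cfsg

namespace Cfsg.Agent.S1850


/-- Let G be a non-abelian finite simple QTKE-group and T a Sylow 2-subgroup of G. If U is a nontrivial 2-subgroup of G with U ∩ Z(T) ≠ 1, then F*(N_G(U)) = O₂(N_G(U)). -/
theorem result {G : Type*} [Group G] [Finite G] [IsSimpleGroup G]
    (hG : ¬ IsMulCommutative G) (hQ : Cfsg.IsQTKE G) (T : Sylow 2 G) (U : Subgroup G)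
    (hU : IsPGroup 2 ↥U) (hZ : U ⊓ ((T : Subgroup G) ⊓ Subgroup.centralizer ((T : Subgroup G) : Set G)) ≠ ⊥) :
    Subgroup.normalizer (U : Set G) ∈ Cfsg.calHe G := by
  haveI : Fact (Nat.Prime 2) := ⟨Nat.prime_two⟩
  obtain ⟨z, hz, hz2⟩ := H36.CharTwoLocal.exists_orderOf_two
    (hU.to_le (inf_le_left : U ⊓ ((T : Subgroup G) ⊓ Subgroup.centralizer ((T : Subgroup G) : Set G)) ≤ U)) hZ
  obtain ⟨hzU, hzT, hzC⟩ : z ∈ U ∧ z ∈ (T : Subgroup G) ∧
      z ∈ Subgroup.centralizer ((T : Subgroup G) : Set G) := by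
    obtain ⟨h1, h2⟩ := Subgroup.mem_inf.mp hz
    obtain ⟨h3, h4⟩ := Subgroup.mem_inf.mp h2
    exact ⟨h1, h3, h4⟩
  have hz1 : z ≠ 1 := by
    rintro rfl
    rw [orderOf_one] at hz2
    omega
  have hloc : Cfsg.IsTwoLocal (Subgroup.normalizer (Subgroup.zpowers z : Set G)) := by
    refine ⟨Subgroup.zpowers z, hU.to_le (Subgroup.zpowers_le.mpr hzU), ?_, rfl⟩
    rwa [Ne, Subgroup.zpowers_eq_bot]
  have hchar := hQ.2.2 _ hloc ⟨T, by
    rw [H36.CharTwoLocal.normalizer_zpowers_eq_centralizer hz2]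
    intro t ht
    rw [Subgroup.mem_centralizer_singleton_iff]
    exact (Subgroup.mem_centralizer_iff.mp hzC t ht)⟩
  rw [H36.CharTwoLocal.normalizer_zpowers_eq_centralizer hz2,
    ← H36.CharTwoLocal.centralizer_zpowers] at hchar
  apply H36.CharTwoLocal.gFitting_normalizer_of_centralizer_le (V := Subgroup.zpowers z)
    (Subgroup.zpowers_le.mpr hzU) _ hU
  rw [H26.GenFitting.isPGroup_gFitting_iff, H26.GenFitting.gFitting_eq_pCore_iff]
  exact hchar

end Cfsg.Agent.S1850
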