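import Cfsg.Statements.S1851
import Mathlib
import Cfsg.Agent.Lib.H36.SubnormalPerfect

set_option autoImplicit false
open Cfsg

namespace Cfsg.Agent.S1851


section

open Cfsg Subgroup H26.Basic H26.Components H26.PxQ H26.GenFitting H26.LocalFitting
open H36.CharTwoLocal H36.SubnormalPerfect

theorem mem_omegaOne_iff {G : Type*} [Group G] {p : ℕ} {Z : Subgroup G}
    (hZ : ∀ a ∈ Z, ∀ b ∈ Z, a * b = b * a) (x : G) : x ∈ omegaOne p Z ↔ x ∈ Z ∧ x ^ p = 1 := by
  constructor
  · intro hx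
    rw [omegaOne] at hx
    induction hx using Subgroup.closure_induction with
    | mem y hy => exact hy
    | one => exact ⟨Z.one_mem, one_pow _⟩
    | mul a b _ _ iha ihb =>
      refine ⟨Z.mul_mem iha.1 ihb.1, ?_⟩
      have hc : Commute a b := hZ a iha.1 b ihb.1
      rw [hc.mul_pow, iha.2, ihb.2, one_mul]
    | inv a _ iha => exact ⟨Z.inv_mem iha.1, by rw [inv_pow, iha.2, inv_one]⟩
  · intro hx
    exact Subgroup.subset_closure hx

theorem centre_comm' {G : Type*} [Group G] (A : Subgroup G) :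
    ∀ a ∈ A ⊓ centralizer (A : Set G), ∀ b ∈ A ⊓ centralizer (A : Set G), a * b = b * a := by
  intro a ha b hb
  exact Subgroup.mem_centralizer_iff.mp (Subgroup.mem_inf.mp hb).2 a (Subgroup.mem_inf.mp ha).1

/-- `Ω₁(Z(A))` -/
theorem mem_ozc {G : Type*} [Group G] {p : ℕ} {A : Subgroup G} (x : G) :
    x ∈ omegaOne p (A ⊓ centralizer (A : Set G)) ↔ x ∈ A ∧ (∀ a ∈ A, a * x = x * a) ∧ x ^ p = 1 := by
  rw [mem_omegaOne_iff (centre_comm' A), Subgroup.mem_inf, Subgroup.mem_centralizer_iff, and_assoc]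
  rfl

theorem normalizer_le_ozc {G : Type*} [Group G] (p : ℕ) (A : Subgroup G) :
    normalizer (A : Set G) ≤
      normalizer ((omegaOne p (A ⊓ centralizer (A : Set G)) : Subgroup G) : Set G) := by
  have key : ∀ g ∈ normalizer (A : Set G), ∀ x ∈ omegaOne p (A ⊓ centralizer (A : Set G)),
      g * x * g⁻¹ ∈ omegaOne p (A ⊓ centralizer (A : Set G)) := by
    intro g hg x hx
    rw [mem_ozc] at hx ⊢
    obtain ⟨h1, h2, h3⟩ := hx
    refine ⟨(Subgroup.mem_normalizer_iff.mp hg x).mp h1, ?_, ?_⟩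
    · intro a ha
      have h4 : g⁻¹ * a * g ∈ A := by
        have := (Subgroup.mem_normalizer_iff.mp (Subgroup.inv_mem _ hg) a).mp ha
        simpa using this
      have h5 := h2 _ h4
      calc a * (g * x * g⁻¹) = g * ((g⁻¹ * a * g) * x) * g⁻¹ := by group
        _ = g * (x * (g⁻¹ * a * g)) * g⁻¹ := by rw [h5]
        _ = g * x * g⁻¹ * a := by group
    · rw [conj_pow, h3, mul_one, mul_inv_cancel]
  intro g hg
  rw [Subgroup.mem_normalizer_iff]
  intro x
  refine ⟨key g hg x, fun h => ?_⟩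
  have := key g⁻¹ (Subgroup.inv_mem _ hg) _ h
  simpa [mul_assoc] using this

theorem charTwo_of_sylow_le {G : Type*} [Group G] [Finite G] (hev : IsOfEvenCharacteristic G)
    (T : Sylow 2 G) {H : Subgroup G} (hT : (T : Subgroup G) ≤ H) (hO : pCore 2 ↥H ≠ ⊥) :
    IsPGroup 2 (generalizedFittingSubgroup H) := by
  have : Fact (Nat.Prime 2) := ⟨Nat.prime_two⟩
  have hpc : pc 2 H ≠ ⊥ := by
    rw [pc, Ne, Subgroup.map_eq_bot_iff_of_injective _ H.subtype_injective]
    exact hO
  have hHM : H ≤ normalizer (pc 2 H : Set G) := le_normalizer_pc 2 H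
  have h1 := hev (normalizer (pc 2 H : Set G)) ⟨pc 2 H, isPGroup_pc 2 H, hpc, rfl⟩ ⟨T, hT.trans hHM⟩
  set M := normalizer (pc 2 H : Set G) with hM
  rw [IsOfCharacteristicTwo, ← gFitting_eq_pCore_iff, ← isPGroup_gFitting_iff,
    isPGroup_gFitting_iff_pc] at h1
  rw [isPGroup_gFitting_iff_pc]
  have h2 : pc 2 M ≤ pc 2 H :=
    le_pc ((pc_le_sylow T (hT.trans hHM)).trans hT) (hHM.trans (le_normalizer_pc 2 M))
      (isPGroup_pc 2 M)
  refine le_trans ?_ (h1.trans h2)
  exact inf_le_inf hHM (Subgroup.centralizer_le h2)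

/-- data extracted from membership in `ℒ(G, T)` -/
theorem calL_data {G : Type*} [Group G] {T K : Subgroup G} (hK : K ∈ calL T) :
    K ≠ ⊥ ∧ ⁅K, K⁆ = K ∧ (K.subgroupOf (K ⊔ T)).IsSubnormal ∧ pCore 2 ↥(K ⊔ T) ≠ ⊥ := by
  obtain ⟨⟨h1, h2, h3, _⟩, _, h5⟩ := hK
  have hle : K ≤ K ⊔ T := le_sup_left
  refine ⟨?_, ?_, h3, h5⟩
  · rintro rfl
    exact h1 (Subgroup.bot_subgroupOf _)
  · have := congrArg (fun X => Subgroup.map (K ⊔ T).subtype X) h2
    simp only [Subgroup.map_commutator, Subgroup.map_subgroupOf_eq_of_le hle] at this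
    exact this

theorem oddGenerated_eq_opUp {G : Type*} [Group G] (K : Subgroup G) : oddGenerated K = opUp 2 K := by
  rw [oddGenerated, opUp]
  congr 1
  ext x
  simp [Nat.coprime_two_right]

theorem main {G : Type*} [Group G] [Finite G] (hev : IsOfEvenCharacteristic G) (T : Sylow 2 G)
    {L K : Subgroup G} (hL : L ∈ calLf (T : Subgroup G)) (hK : K ∈ calL (T : Subgroup G))
    (hLK : L ≤ K) : K ∈ calLf (T : Subgroup G) := by
  have : Fact (Nat.Prime 2) := ⟨Nat.prime_two⟩
  obtain ⟨hK1, hKp, hKs, hKO⟩ := calL_data hK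
  obtain ⟨hL1, hLp, hLs, hLO⟩ := calL_data hL.1
  set H := K ⊔ (T : Subgroup G) with hH
  set J := L ⊔ (T : Subgroup G) with hJ
  have hTH : (T : Subgroup G) ≤ H := le_sup_right
  have hTJ : (T : Subgroup G) ≤ J := le_sup_right
  have hKH : K ≤ H := le_sup_left
  have hLJ : L ≤ J := le_sup_left
  have hJH : J ≤ H := sup_le_sup_right hLK _
  have hFH := charTwo_of_sylow_le hev T hTH hKO
  have hKup : opUp 2 K = K := opUp_eq_of_perfect hKp
  have hLup : opUp 2 L = L := opUp_eq_of_perfect hLp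
  refine ⟨hK, ⟨hK1, ?_, ?_⟩, ?_⟩
  · rw [oddGenerated_eq_opUp, hKup]
  · change generalizedFittingSubgroup ↥K = pCore 2 ↥K
    rw [← isPGroup_gFitting_iff]
    exact isPGroup_gFitting_subnormal hKH hKs hFH
  · -- `V(K) ≠ 1`
    intro hVK
    apply hL.2.2
    set R := pc 2 H with hR
    set S := pc 2 J with hS
    have hRp : IsPGroup 2 R := isPGroup_pc 2 H
    have hSp : IsPGroup 2 S := isPGroup_pc 2 J
    have hRS : R ≤ S :=
      le_pc ((pc_le_sylow T hTH).trans hTJ) (hJH.trans (le_normalizer_pc 2 H)) hRp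
    have hHR : H ≤ normalizer (R : Set G) := le_normalizer_pc 2 H
    have hJS : J ≤ normalizer (S : Set G) := le_normalizer_pc 2 J
    have hRnK : R ≤ normalizer (K : Set G) :=
      le_normalizer_of_isSubnormal hKH hKs hKup (pc_le 2 H) hHR hRp
    have hSnL : S ≤ normalizer (L : Set G) :=
      le_normalizer_of_isSubnormal hLJ hLs hLup (pc_le 2 J) hJS hSp
    have hKR : pc 2 K ≤ R := by
      apply le_pc_of_isSubnormal ((pc_le 2 K).trans hKH) _ (isPGroup_pc 2 K)
      have h1 : ((pCore 2 K).map K.subtype).subgroupOf H =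
        (((pCore 2 K).map K.subtype).subgroupOf H) := rfl
      apply H26.Subnormal.of_normal_subgroupOf hKs
      · exact Subgroup.comap_mono (pc_le 2 K)
      · have h2 : (((pc 2 K).subgroupOf H).subgroupOf (K.subgroupOf H)) =
            ((pc 2 K).subgroupOf K).comap (Subgroup.subgroupOfEquivOfLe hKH).toMonoidHom := by
          ext x
          rfl
        rw [h2]
        have h3 : ((pc 2 K).subgroupOf K).Normal :=
          Subgroup.normal_subgroupOf_of_le_normalizer (le_normalizer_pc 2 K)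
        exact Subgroup.Normal.comap h3 _
    have hLS : pc 2 L ≤ S := by
      apply le_pc_of_isSubnormal ((pc_le 2 L).trans hLJ) _ (isPGroup_pc 2 L)
      apply H26.Subnormal.of_normal_subgroupOf hLs
      · exact Subgroup.comap_mono (pc_le 2 L)
      · have h2 : (((pc 2 L).subgroupOf J).subgroupOf (L.subgroupOf J)) =
            ((pc 2 L).subgroupOf L).comap (Subgroup.subgroupOfEquivOfLe hLJ).toMonoidHom := by
          ext x
          rfl
        rw [h2]
        have h3 : ((pc 2 L).subgroupOf L).Normal :=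
          Subgroup.normal_subgroupOf_of_le_normalizer (le_normalizer_pc 2 L)
        exact Subgroup.Normal.comap h3 _
    -- Claim A: `K` centralizes `E = Ω₁(Z(R))`
    set E := omegaOne 2 (R ⊓ centralizer (R : Set G)) with hE
    have hER : E ≤ R := fun x hx => ((mem_ozc x).mp hx).1
    have hHE : H ≤ normalizer (E : Set G) := hHR.trans (normalizer_le_ozc 2 R)
    have hA : ⁅E, K⁆ = ⊥ := by
      apply commutator_eq_bot_of_perfect hKp
      have h1 : ⁅E, K⁆ ≤ E := Subgroup.le_normalizer_iff_commutator_le_left.mp (hKH.trans hHE)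
      have h2 : ⁅E, K⁆ ≤ K := Subgroup.le_normalizer_iff_commutator_le_right.mp (hER.trans hRnK)
      have h3 : ⁅E, K⁆ ≤ pc 2 K :=
        le_pc h2 (le_normalizer_commutator (hKH.trans hHE) Subgroup.le_normalizer)
          (hRp.to_le (h1.trans hER))
      have h4 : ⁅E, K⁆ ≤ omegaOne 2 (pCoreTwoOf K ⊓ centralizer (pCoreTwoOf K : Set G)) := by
        intro x hx
        obtain ⟨_, hx2, hx3⟩ := (mem_ozc x).mp (h1 hx)
        rw [mem_ozc]
        exact ⟨h3 hx, fun a ha => hx2 a (hKR ha), hx3⟩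
      exact commutator_eq_bot_mono hVK h4 le_rfl
    -- `Ω₁(Z(S)) ≤ E`
    have hFH' := (isPGroup_gFitting_iff_pc H).mp hFH
    have hZS : ∀ x, x ∈ S → (∀ a ∈ S, a * x = x * a) → x ^ 2 = 1 → x ∈ E := by
      intro x hx1 hx2 hx3
      have hxR : x ∈ R := by
        apply hFH'
        refine Subgroup.mem_inf.mpr ⟨hJH (pc_le 2 J hx1), Subgroup.mem_centralizer_iff.mpr ?_⟩
        intro a ha
        exact hx2 a (hRS ha)
      rw [hE, mem_ozc]
      exact ⟨hxR, fun a ha => hx2 a (hRS ha), hx3⟩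
    -- Claim B
    rw [moduleV, Subgroup.commutator_comm, Subgroup.commutator_eq_bot_iff_le_centralizer]
    set A := pc 2 L with hAdef
    have hAeq : pCoreTwoOf L = A := rfl
    rw [hAeq]
    set W := omegaOne 2 (A ⊓ centralizer (A : Set G)) with hW
    have hWA : W ≤ A := fun x hx => ((mem_ozc x).mp hx).1
    have hSA : S ≤ normalizer (A : Set G) := hSnL.trans (normalizer_le_normalizer_pc 2 L)
    have hLA : L ≤ normalizer (A : Set G) := le_normalizer_pc 2 L
    have hNW : normalizer (A : Set G) ≤ normalizer (W : Set G) := normalizer_le_ozc 2 A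
    conv_lhs => rw [← hLup]
    rw [opUp, Subgroup.closure_le]
    rintro x ⟨hxL, hxo⟩
    change x ∈ centralizer (W : Set G)
    rw [Subgroup.mem_centralizer_iff]
    intro w hw
    symm
    apply centralizes_of_fixed (p := 2) (W := W) (S := S) (x := x)
      ((isPGroup_pc 2 L).to_le hWA) _ hSp (hSA.trans hNW) (hNW (hLA hxL)) hxo _ _ w hw
    · intro a ha b hb
      exact ((mem_ozc b).mp hb).2.1 a (hWA ha)
    · intro s hs w hw
      -- `s⁻¹ x⁻¹ s x ∈ L ∩ S ≤ A`
      have h1 : (x * s)⁻¹ * (s * x) ∈ A := by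
        have h2 : (x * s)⁻¹ * (s * x) ∈ ⁅S, L⁆ := by
          have h3 := Subgroup.commutator_mem_commutator (S.inv_mem hs) (L.inv_mem hxL)
          have h4 : (x * s)⁻¹ * (s * x) = s⁻¹ * x⁻¹ * (s⁻¹)⁻¹ * (x⁻¹)⁻¹ := by group
          rw [h4]
          exact h3
        have h3 : ⁅S, L⁆ ≤ A := by
          apply le_pc (Subgroup.le_normalizer_iff_commutator_le_right.mp hSnL)
            (le_normalizer_commutator (hLJ.trans hJS) Subgroup.le_normalizer)
          exact hSp.to_le (Subgroup.le_normalizer_iff_commutator_le_left.mp (hLJ.trans hJS))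
        exact h3 h2
      obtain ⟨_, h2, _⟩ := (mem_ozc w).mp hw
      have h3 := h2 _ h1
      have h4 : s * x = (x * s) * ((x * s)⁻¹ * (s * x)) := by group
      set c := (x * s)⁻¹ * (s * x) with hc
      rw [h4]
      calc x * s * c * w * (x * s * c)⁻¹ = x * s * (c * w) * c⁻¹ * (x * s)⁻¹ := by group
        _ = x * s * (w * c) * c⁻¹ * (x * s)⁻¹ := by rw [h3]
        _ = x * s * w * (x * s)⁻¹ := by group
    · intro w hw hws
      obtain ⟨h1, h2, h3⟩ := (mem_ozc w).mp hw
      have h4 := hZS w (hLS h1) hws h3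
      exact (commute_of_commutator_eq_bot hA h4 (hLK hxL)).symm

end

/-- Let G be a non-abelian finite simple QTKE-group and T a Sylow 2-subgroup of G, and let L be a member of ℒ_f(G, T) (a member of ℒ(G, T) that lies in 𝒳 — L ≠ 1, L = O²(L), F*(L) = O₂(L) — and acts nontrivially on Ω₁(Z(O₂(L)))). Then (1) every member K of ℒ(G, T) containing L is again in ℒ_f(G, T) (a sharper form of (1) also compares the modules [Ω₁(Z(R)), L] and [Ω₁(Z(R')), K] for suitable 2-subgroups R, R'; that comparison is not included); and (2) if L is maximal under inclusion among the members of ℒ_f(G, T), then L is a maximal member of ℒ(G, T), hence a member of ℒ_f*(G, T). -/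
theorem result {G : Type*} [Group G] [Finite G] [IsSimpleGroup G]
    (hG : ¬ IsMulCommutative G) (hQ : Cfsg.IsQTKE G) (T : Sylow 2 G) (L : Subgroup G)
    (hL : L ∈ Cfsg.calLf (T : Subgroup G)) :
    (∀ K ∈ Cfsg.calL (T : Subgroup G), L ≤ K → K ∈ Cfsg.calLf (T : Subgroup G)) ∧
    ((∀ K ∈ Cfsg.calLf (T : Subgroup G), L ≤ K → K = L) → L ∈ Cfsg.calLfMax (T : Subgroup G)) := by
  refine ⟨fun K hK hLK => main hQ.2.2 T hL hK hLK, fun hmax => ⟨⟨hL.1, fun K hK hLK => ?_⟩, hL.2⟩⟩
  exact hmax K (main hQ.2.2 T hL hK hLK) hLK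

end Cfsg.Agent.S1851
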