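import Cfsg.Statements.S1957
import Cfsg.Agent.Lib.H38.Stab
import Cfsg.Agent.Lib.H2.GenCent
import Cfsg.Agent.Lib.H30.Nil
open H38.Basic H38.WeakInd H38.Stab Cfsg

set_option autoImplicit false
open Cfsg

namespace Cfsg.Agent.S1957

/-- Let `G` be a finite non-abelian simple group in which every local subgroup is solvable and which is of characteristic 2 type. Let `P` be a Sylow 2-subgroup of `G` and `U` a normal subgroup of `P` that is a four-group, with `U` central in `P` if the centre of `P` is not cyclic. Then `U` centralizes every subgroup of odd order of `G` that it normalizes. -/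
theorem result {G : Type*} [Group G] [Finite G]
    [IsSimpleGroup G] (hna : ¬ IsMulCommutative G) (hN : Cfsg.IsNGroup G) (h2 : Cfsg.IsCharacteristicTwoType G)
    (P : Sylow 2 G) (U : Subgroup G) (hUP : U ≤ (P : Subgroup G)) (hUn : (P : Subgroup G) ≤ Subgroup.normalizer (U : Set G))
    (hU4 : IsKleinFour ↥U)
    (hUZ : ¬ IsCyclic ↥((P : Subgroup G) ⊓ Subgroup.centralizer ((P : Subgroup G) : Set G)) →
      U ≤ Subgroup.centralizer ((P : Subgroup G) : Set G))
    (K : Subgroup G) (hK : Odd (Nat.card K)) (hUK : U ≤ Subgroup.normalizer (K : Set G)) :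
    U ≤ Subgroup.centralizer (K : Set G) := by
  have hp2 : Fact (Nat.Prime 2) := ⟨Nat.prime_two⟩
  have hsq : ∀ a ∈ U, a * a = 1 := by
    intro a ha
    have h := hU4.exponent_two
    have h3 := Monoid.pow_exponent_eq_one (⟨a, ha⟩ : ↥U)
    rw [h] at h3
    have := congrArg Subtype.val h3
    simpa [pow_two] using this
  have hUcomm : ∀ a ∈ U, ∀ b ∈ U, a * b = b * a := by
    intro a ha b hb
    have h1 := hsq (a * b) (U.mul_mem ha hb)
    calc a * b = a * (a * b * (a * b)) * b := by rw [h1, mul_one]
      _ = (a * a) * (b * a) * (b * b) := by group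
      _ = b * a := by rw [hsq a ha, hsq b hb, one_mul, mul_one]
  have hcard : Nat.card ↥U = 4 := hU4.card_four
  have hUP' : IsPGroup 2 ↥U := P.isPGroup'.to_le hUP
  -- the local subgroups
  have hord : ∀ a ∈ U, a ≠ 1 → orderOf a = 2 := fun a ha h1 =>
    orderOf_eq_prime (by rw [pow_two]; exact hsq a ha) h1
  set N : G → Subgroup G := fun a => Subgroup.normalizer ((Subgroup.zpowers a : Subgroup G) : Set G) with hNdef
  have hNc : ∀ a ∈ U, a ≠ 1 → ∀ g ∈ N a, g * a = a * g := by
    intro a ha h1 g hg
    have h2 : g * a * g⁻¹ ∈ Subgroup.zpowers a := (Subgroup.mem_normalizer_iff.1 hg a).1 (Subgroup.mem_zpowers a)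
    obtain ⟨k, hk⟩ := h2
    simp only at hk
    have h3 : a ^ k = 1 ∨ a ^ k = a := by
      rcases Int.even_or_odd' k with ⟨m, rfl | rfl⟩
      · left
        rw [zpow_mul, zpow_ofNat, pow_two, hsq a ha, one_zpow]
      · right
        rw [zpow_add, zpow_mul, zpow_ofNat, pow_two, hsq a ha, one_zpow, one_mul, zpow_one]
    rw [hk] at h3
    rcases h3 with h3 | h3
    · exfalso; apply h1
      have : a = g⁻¹ * (g * a * g⁻¹) * g := by group
      rw [this, h3]; group
    · calc g * a = g * a * g⁻¹ * g := by group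
        _ = a * g := by rw [h3]
  have hcN : ∀ a g : G, g * a = a * g → g ∈ N a := by
    intro a g h
    rw [hNdef, mem_normalizer_iff', MonoidHom.map_zpowers]
    have : (MulAut.conj g).toMonoidHom a = a := by
      show g * a * g⁻¹ = a
      rw [h]; group
    rw [this]
  have hchar : ∀ a ∈ U, a ≠ 1 → N a ⊓ Subgroup.centralizer ((pCoreOf 2 (N a) : Subgroup G) : Set G) ≤ pCoreOf 2 (N a) := by
    intro a ha h1
    apply inf_centralizer_le
    refine h2.2 (Subgroup.zpowers a) ?_ ?_
    · exact IsPGroup.of_card (n := 1) (by rw [Nat.card_zpowers, hord a ha h1, pow_one])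
    · rw [Ne, Subgroup.zpowers_eq_bot]; exact h1
  have hself : ∀ a ∈ U, a ≠ 1 → a ∈ pCoreOf 2 (N a) := by
    intro a ha h1
    apply hchar a ha h1
    refine ⟨hcN a a rfl, Subgroup.mem_centralizer_iff.2 ?_⟩
    intro q hq
    exact hNc a ha h1 q (pCoreOf_le _ hq)
  have hUN : ∀ a ∈ U, U ≤ N a := fun a ha b hb => hcN a b (hUcomm b hb a ha)
  -- step 1
  have step1 : ∀ z ∈ U, z ≠ 1 → (∀ x ∈ (P : Subgroup G), x * z = z * x) → U ≤ pCoreOf 2 (N z) := by
    intro z hz hz1 hzP
    have hPN : (P : Subgroup G) ≤ N z := fun x hx => hcN z x (hzP x hx)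
    have hPs : IsSyl 2 (P : Subgroup G) (N z) := (isSyl_sylow P).of_le hPN le_top
    have hQP : pCoreOf 2 (N z) ≤ (P : Subgroup G) := pCoreOf_le_syl hPs
    by_contra hUQ
    have hcap : ∀ w ∈ U, w ∈ pCoreOf 2 (N z) → w ∈ Subgroup.zpowers z := by
      intro w hw hwQ
      by_contra hwz
      apply hUQ
      -- `⟨z, w⟩ = U`
      have h3 : 2 < Nat.card ↥(U ⊓ pCoreOf 2 (N z)) := by
        have h4 : Subgroup.zpowers z < U ⊓ pCoreOf 2 (N z) := by
          refine lt_of_le_of_ne ?_ ?_
          · rw [Subgroup.zpowers_le]; exact ⟨hz, hself z hz hz1⟩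
          · intro h; exact hwz (h ▸ ⟨hw, hwQ⟩)
        by_contra hle
        apply h4.ne
        exact Subgroup.eq_of_le_of_card_ge h4.le (by rw [Nat.card_zpowers, hord z hz hz1]; exact not_lt.1 hle)
      have h4 : Nat.card ↥(U ⊓ pCoreOf 2 (N z)) ∣ 4 := by
        rw [← hcard]; exact Subgroup.card_dvd_of_le inf_le_left
      have h5 : Nat.card ↥(U ⊓ pCoreOf 2 (N z)) = 4 := by
        have : Nat.card ↥(U ⊓ pCoreOf 2 (N z)) ≤ 4 := Nat.le_of_dvd (by norm_num) h4
        interval_cases Nat.card ↥(U ⊓ pCoreOf 2 (N z))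
        · omega
        · rfl
      have h6 : U ⊓ pCoreOf 2 (N z) = U := Subgroup.eq_of_le_of_card_ge inf_le_left (by rw [h5, hcard])
      rw [← h6]; exact inf_le_right
    apply hUQ
    refine le_pCoreOf_of_stable (Z := Subgroup.zpowers z) (hchar z hz hz1) (by
      rw [Subgroup.zpowers_le]; exact hself z hz hz1) ?_ (hUN z hz) ?_
    · rintro n hn _ ⟨k, rfl⟩
      have : Commute n z := hNc z hz hz1 n hn
      exact this.zpow_right k
    · intro u hu q hq
      apply hcap
      · have h3 : q * u * q⁻¹ ∈ U := (Subgroup.mem_normalizer_iff.1 (hUn (hQP hq)) u).1 hu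
        have h4 : u * q * u⁻¹ * q⁻¹ = u * (q * u * q⁻¹)⁻¹ := by group
        rw [h4]; exact U.mul_mem hu (U.inv_mem h3)
      · have h3 : u * q * u⁻¹ ∈ pCoreOf 2 (N z) :=
          (Subgroup.mem_normalizer_iff.1 (le_normalizer_pCoreOf (N z) (hUN z hz hu)) q).1 hq
        exact Subgroup.mul_mem _ h3 (Subgroup.inv_mem _ hq)
  -- step 2
  have step2 : ∀ u ∈ U, u ≠ 1 → U ≤ pCoreOf 2 (N u) := by
    intro u hu hu1
    by_cases huP : ∀ x ∈ (P : Subgroup G), x * u = u * x
    · exact step1 u hu hu1 huP
    push Not at huP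
    obtain ⟨g, hgP, hgu⟩ := huP
    by_contra hUQ
    obtain ⟨z, hzU, hz1, hzP⟩ : ∃ z ∈ U, z ≠ 1 ∧ ∀ x ∈ (P : Subgroup G), x * z = z * x := by
      have hn : (U.subgroupOf (P : Subgroup G)).Normal := Subgroup.normal_subgroupOf_of_le_normalizer hUn
      have : Group.IsNilpotent ↥(P : Subgroup G) := P.isPGroup'.isNilpotent
      have hne : U.subgroupOf (P : Subgroup G) ≠ ⊥ := by
        intro h
        rw [Subgroup.subgroupOf_eq_bot] at h
        have := h.le_bot ⟨hu, hUP hu⟩
        exact hu1 this
      have h3 := H30.Nil.inf_center_ne_bot _ hne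
      obtain ⟨w, hw, hw1⟩ := (Subgroup.bot_or_exists_ne_one _).resolve_left h3
      refine ⟨w, hw.1, fun h => hw1 (Subtype.ext h), fun x hx => ?_⟩
      exact congrArg Subtype.val (Subgroup.mem_center_iff.1 hw.2 ⟨x, hx⟩)
    have hzz := hsq z hzU
    have huu := hsq u hu
    have hzu : z ≠ u := by rintro rfl; exact hgu (hzP g hgP)
    have hUel : ∀ w ∈ U, w = 1 ∨ w = z ∨ w = u ∨ w = z * u := by
      intro w hw
      by_contra hcon
      push Not at hcon
      obtain ⟨hw1, hwz, hwu, hwzu⟩ := hcon
      classical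
      have hzu1 : z * u ≠ 1 := fun h => hzu (by
        calc z = z * (u * u) := by rw [huu, mul_one]
          _ = (z * u) * u := by group
          _ = u := by rw [h, one_mul])
      have hzuz : z * u ≠ z := fun h => hu1 (by simpa using h)
      have hzuu : z * u ≠ u := fun h => hz1 (by simpa using h)
      let s : Finset ↥U := {1, ⟨z, hzU⟩, ⟨u, hu⟩, ⟨z * u, U.mul_mem hzU hu⟩, ⟨w, hw⟩}
      have hs : s.card = 5 := by
        rw [Finset.card_insert_of_notMem, Finset.card_insert_of_notMem, Finset.card_insert_of_notMem,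
          Finset.card_insert_of_notMem, Finset.card_singleton]
        · simpa [Subtype.ext_iff] using hwzu.symm
        · simp only [Finset.mem_insert, Finset.mem_singleton, Subtype.mk.injEq, not_or]
          exact ⟨hzuu.symm, hwu.symm⟩
        · simp only [Finset.mem_insert, Finset.mem_singleton, Subtype.mk.injEq, not_or]
          exact ⟨hzu, hzuz.symm, hwz.symm⟩
        · simp only [Finset.mem_insert, Finset.mem_singleton, not_or]
          exact ⟨fun h => hz1 (congrArg Subtype.val h).symm, fun h => hu1 (congrArg Subtype.val h).symm,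
            fun h => hzu1 (congrArg Subtype.val h).symm, fun h => hw1 (congrArg Subtype.val h).symm⟩
      have : Fintype ↥U := Fintype.ofFinite _
      have h3 := Finset.card_le_univ s
      rw [hs, ← Nat.card_eq_fintype_card, hcard] at h3
      omega
    have hgen4 : ∀ V : Subgroup G, z ∈ V → u ∈ V → U ≤ V := by
      intro V hzV huV w hw
      rcases hUel w hw with rfl | rfl | rfl | rfl
      · exact V.one_mem
      · exact hzV
      · exact huV
      · exact V.mul_mem hzV huV
    have hcyc : IsCyclic ↥((P : Subgroup G) ⊓ Subgroup.centralizer ((P : Subgroup G) : Set G)) := by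
      by_contra hcon
      exact hgu (Subgroup.mem_centralizer_iff.1 (hUZ hcon hu) g hgP)
    have factA : ∀ x ∈ (P : Subgroup G), (∀ y ∈ (P : Subgroup G), y * x = x * y) → x * x = 1 → x = 1 ∨ x = z := by
      intro x hx hxc hxx
      by_contra hcon
      push Not at hcon
      obtain ⟨hx1, hxz⟩ := hcon
      classical
      have hxZ : x ∈ (P : Subgroup G) ⊓ Subgroup.centralizer ((P : Subgroup G) : Set G) :=
        ⟨hx, Subgroup.mem_centralizer_iff.2 hxc⟩
      have hzZ : z ∈ (P : Subgroup G) ⊓ Subgroup.centralizer ((P : Subgroup G) : Set G) :=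
        ⟨hUP hzU, Subgroup.mem_centralizer_iff.2 hzP⟩
      have : Fintype ↥((P : Subgroup G) ⊓ Subgroup.centralizer ((P : Subgroup G) : Set G)) := Fintype.ofFinite _
      have h3 := IsCyclic.card_pow_eq_one_le (α := ↥((P : Subgroup G) ⊓ Subgroup.centralizer ((P : Subgroup G) : Set G)))
        (n := 2) two_pos
      let s : Finset ↥((P : Subgroup G) ⊓ Subgroup.centralizer ((P : Subgroup G) : Set G)) := {1, ⟨z, hzZ⟩, ⟨x, hxZ⟩}
      have hs : s.card = 3 := by
        rw [Finset.card_insert_of_notMem, Finset.card_insert_of_notMem, Finset.card_singleton]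
        · simpa [Subtype.ext_iff] using hxz.symm
        · simp only [Finset.mem_insert, Finset.mem_singleton, not_or]
          exact ⟨fun h => hz1 (congrArg Subtype.val h).symm, fun h => hx1 (congrArg Subtype.val h).symm⟩
      have h4 : s ⊆ Finset.univ.filter (fun a => a ^ 2 = 1) := by
        intro a ha
        rw [Finset.mem_filter]
        refine ⟨Finset.mem_univ _, ?_⟩
        simp only [s, Finset.mem_insert, Finset.mem_singleton] at ha
        rcases ha with rfl | rfl | rfl
        · exact one_pow _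
        · exact Subtype.ext (by show z ^ 2 = 1; rw [pow_two, hzz])
        · exact Subtype.ext (by show x ^ 2 = 1; rw [pow_two, hxx])
      have h5 := (Finset.card_le_card h4).trans h3
      omega
    have factB : ∀ x ∈ (P : Subgroup G), x * u ≠ u * x → x * u * x⁻¹ = z * u := by
      intro x hx hxu
      have h3 : x * u * x⁻¹ ∈ U := (Subgroup.mem_normalizer_iff.1 (hUn hx) u).1 hu
      have h4 : x * u = (x * u * x⁻¹) * x := by group
      rcases hUel _ h3 with h5 | h5 | h5 | h5
      · exfalso; apply hu1
        have : u = x⁻¹ * (x * u * x⁻¹) * x := by group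
        rw [this, h5]; group
      · exfalso; apply hzu
        have h6 : u = x⁻¹ * (x * u * x⁻¹) * x := by group
        rw [h6, h5, mul_assoc, ← hzP x hx]; group
      · exfalso; apply hxu; rw [h4, h5]
      · exact h5
    have factB' : ∀ x ∈ (P : Subgroup G), x * u ≠ u * x → x⁻¹ * u * x = z * u := by
      intro x hx hxu
      have := factB x⁻¹ (P.inv_mem hx) (fun h => hxu (by
        calc x * u = x * (u * x⁻¹) * x := by group
          _ = x * (x⁻¹ * u) * x := by rw [h]
          _ = u * x := by group))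
      rwa [inv_inv] at this
    have factC : ∀ x ∈ (P : Subgroup G), ∀ y ∈ (P : Subgroup G), x * u ≠ u * x → y * u ≠ u * y →
        (x * y) * u = u * (x * y) := by
      intro x hx y hy hxu hyu
      have h3 := factB' x hx hxu
      have h4 := factB y hy hyu
      calc (x * y) * u = x * (y * u * y⁻¹) * y := by group
        _ = x * (z * u) * y := by rw [h4]
        _ = x * (x⁻¹ * u * x) * y := by rw [h3]
        _ = u * (x * y) := by group
    set P0 := (P : Subgroup G) ⊓ Subgroup.centralizer ({u} : Set G) with hP0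
    have hP0mem : ∀ x, x ∈ P0 ↔ x ∈ (P : Subgroup G) ∧ x * u = u * x := by
      intro x; rw [hP0, Subgroup.mem_inf, Subgroup.mem_centralizer_singleton_iff]
    have hP0P : P0 ≤ (P : Subgroup G) := inf_le_left
    have hinvu : ∀ x : G, x * u ≠ u * x → x⁻¹ * u ≠ u * x⁻¹ := by
      intro x hx h
      apply hx
      calc x * u = x * (u * x⁻¹) * x := by group
        _ = x * (x⁻¹ * u) * x := by rw [h]
        _ = u * x := by group
    have hP0N : P0 ≤ N u := fun x hx => hcN u x ((hP0mem x).1 hx).2
    have hP0p : IsPGroup 2 ↥P0 := P.isPGroup'.to_le hP0P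
    obtain ⟨R, hR, hP0R⟩ := exists_isSyl_ge hP0p hP0N
    have hQR : pCoreOf 2 (N u) ≤ R := pCoreOf_le_syl hR
    have hzP' : z ∈ (P : Subgroup G) := hUP hzU
    have hzP0 : z ∈ P0 := (hP0mem z).2 ⟨hzP', hUcomm z hzU u hu⟩
    have huP0 : u ∈ P0 := (hP0mem u).2 ⟨hUP hu, rfl⟩
    have hzQ : z ∉ pCoreOf 2 (N u) := fun h => hUQ (hgen4 _ h (hself u hu hu1))
    obtain ⟨r, hrR, hrz⟩ : ∃ r ∈ R, r * z ≠ z * r := by
      by_contra hcon
      push Not at hcon
      apply hzQ
      apply hchar u hu hu1
      refine ⟨hP0N hzP0, Subgroup.mem_centralizer_iff.2 fun q hq => ?_⟩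
      exact hcon q (hQR hq)
    have hru : r * u = u * r := hNc u hu hu1 r (hR.1 hrR)
    have hrP0 : r ∉ P0 := fun h => hrz (hzP r (hP0P h))
    -- indices
    have hPidx : P0.relIndex (P : Subgroup G) = 2 := by
      rw [Subgroup.relIndex, Subgroup.index_eq_two_iff]
      refine ⟨⟨g, hgP⟩, fun b => ?_⟩
      rw [Subgroup.mem_subgroupOf, Subgroup.mem_subgroupOf, hP0mem, hP0mem]
      by_cases hb : (b : G) * u = u * (b : G)
      · right
        refine ⟨⟨b.2, hb⟩, fun h => ?_⟩
        have h3 : (b : G) * g * u = u * ((b : G) * g) := h.2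
        apply hgu
        calc g * u = (b : G)⁻¹ * ((b : G) * g * u) := by group
          _ = (b : G)⁻¹ * (u * (b : G)) * g := by rw [h3]; group
          _ = (b : G)⁻¹ * ((b : G) * u) * g := by rw [hb]
          _ = u * g := by group
      · left
        exact ⟨⟨(b * ⟨g, hgP⟩ : ↥(P : Subgroup G)).2, factC b b.2 g hgP hb hgu⟩, fun h => hb h.2⟩
    have cardrel : ∀ A B : Subgroup G, A ≤ B → A.relIndex B * Nat.card ↥A = Nat.card ↥B := by
      intro A B hAB
      rw [mul_comm, ← Subgroup.relIndex_bot_left, ← Subgroup.relIndex_bot_left]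
      exact Subgroup.relIndex_mul_relIndex _ _ _ bot_le hAB
    have hRidx : P0.relIndex R = 2 := by
      obtain ⟨T, hT, hRT⟩ := exists_isSyl_ge (p := 2) (H := (⊤ : Subgroup G)) hR.2.1 le_top
      have h3 : Nat.card ↥T = Nat.card ↥(P : Subgroup G) := hT.card_eq (isSyl_sylow P)
      have h4 : Nat.card ↥R ≤ Nat.card ↥T := Subgroup.card_le_of_le hRT
      have h5 := cardrel P0 R hP0R
      have h6 := cardrel P0 (P : Subgroup G) hP0P
      rw [hPidx] at h6
      have h7 : P0.relIndex R ≤ 2 := by
        apply Nat.le_of_mul_le_mul_right (c := Nat.card ↥P0) _ Nat.card_pos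
        rw [h5, h6, ← h3]; exact h4
      have h8 : P0.relIndex R ≠ 1 := fun h => hrP0 (Subgroup.relIndex_eq_one.1 h hrR)
      have h9 : P0.relIndex R ≠ 0 := by
        intro h; rw [h, zero_mul] at h5; exact Nat.card_pos.ne' h5.symm
      omega
    have hnormP : ∀ x ∈ (P : Subgroup G), ∀ y ∈ P0, x * y * x⁻¹ ∈ P0 := by
      have hn : (P0.subgroupOf (P : Subgroup G)).Normal := Subgroup.normal_of_index_eq_two hPidx
      intro x hx y hy
      exact hn.conj_mem ⟨y, hP0P hy⟩ hy ⟨x, hx⟩
    have hnormR : ∀ x ∈ R, ∀ y ∈ P0, x * y * x⁻¹ ∈ P0 := by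
      have hn : (P0.subgroupOf R).Normal := Subgroup.normal_of_index_eq_two hRidx
      intro x hx y hy
      exact hn.conj_mem ⟨y, hP0R hy⟩ hy ⟨x, hx⟩
    have hgg : g * g ∈ P0 := (hP0mem _).2 ⟨(P : Subgroup G).mul_mem hgP hgP, factC g hgP g hgP hgu hgu⟩
    -- an element commuting with `P0` and `g` is central in `P`
    have hcentral : ∀ v, (∀ y ∈ P0, y * v = v * y) → g * v = v * g → ∀ y ∈ (P : Subgroup G), y * v = v * y := by
      intro v hv hgv y hy
      by_cases hyu : y * u = u * y
      · exact hv y ((hP0mem y).2 ⟨hy, hyu⟩)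
      · have h3 : g⁻¹ * y ∈ P0 := (hP0mem _).2 ⟨(P : Subgroup G).mul_mem (P.inv_mem hgP) hy,
          factC g⁻¹ (P.inv_mem hgP) y hy (hinvu g hgu) hyu⟩
        have h4 := hv _ h3
        calc y * v = g * (g⁻¹ * y * v) := by group
          _ = (g * v) * g⁻¹ * y := by rw [h4]; group
          _ = v * y := by rw [hgv]; group
    have factD : ∀ x ∈ P0, (∀ y ∈ P0, y * x = x * y) → x * x = 1 → x ∈ U := by
      intro x hx hxc hxx
      set x' := g * x * g⁻¹ with hx'
      have hx'P0 : x' ∈ P0 := hnormP g hgP x hx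
      have hx'c : ∀ y ∈ P0, y * x' = x' * y := by
        intro y hy
        have h3 := hxc _ (hnormP g⁻¹ (P.inv_mem hgP) y hy)
        rw [inv_inv] at h3
        calc y * x' = g * ((g⁻¹ * y * g) * x) * g⁻¹ := by rw [hx']; group
          _ = g * (x * (g⁻¹ * y * g)) * g⁻¹ := by rw [h3]
          _ = x' * y := by rw [hx']; group
      have hgx' : g * x' * g⁻¹ = x := by
        have h3 := hxc _ hgg
        calc g * x' * g⁻¹ = (g * g * x) * (g * g)⁻¹ := by rw [hx']; group
          _ = x := by rw [h3]; group
      have hx'x' : x' * x' = 1 := by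
        calc x' * x' = g * (x * x) * g⁻¹ := by rw [hx']; group
          _ = 1 := by rw [hxx]; group
      have hxP := hP0P hx
      have hx'P := hP0P hx'P0
      have hxx' : x' * x = x * x' := hxc x' hx'P0
      rcases factA (x * x') (P.mul_mem hxP hx'P) (hcentral _ (fun y hy => by
          calc y * (x * x') = (y * x) * x' := by rw [mul_assoc]
            _ = x * (y * x') := by rw [hxc y hy, mul_assoc]
            _ = x * x' * y := by rw [hx'c y hy, ← mul_assoc]) (by
          calc g * (x * x') = (g * x * g⁻¹) * (g * x' * g⁻¹) * g := by group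
            _ = x' * x * g := by rw [← hx', hgx']
            _ = x * x' * g := by rw [hxx'])) (by
          calc x * x' * (x * x') = x * (x' * x) * x' := by group
            _ = (x * x) * (x' * x') := by rw [hxx']; group
            _ = 1 := by rw [hxx, hx'x', one_mul]) with h | h
      · -- `x' = x`
        have h3 : x' = x := by
          calc x' = (x * x) * x' := by rw [hxx, one_mul]
            _ = x * (x * x') := by group
            _ = x := by rw [h, mul_one]
        rcases factA x hxP (hcentral _ hxc (by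
          calc g * x = x' * g := by rw [hx']; group
            _ = x * g := by rw [h3])) hxx with h4 | h4
        · rw [h4]; exact U.one_mem
        · rw [h4]; exact hzU
      · have hwP : x * u ∈ (P : Subgroup G) := P.mul_mem hxP (hUP hu)
        have hux : x * u = u * x := ((hP0mem x).1 hx).2
        have hux' : x' * u = u * x' := ((hP0mem x').1 hx'P0).2
        have h3 := factB g hgP hgu
        have h5 : x' = x * z := by
          calc x' = (x * x) * x' := by rw [hxx, one_mul]
            _ = x * (x * x') := by group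
            _ = x * z := by rw [h]
        have h4 : g * (x * u) = x * u * g := by
          calc g * (x * u) = x' * (g * u * g⁻¹) * g := by rw [hx']; group
            _ = x * (z * z) * u * g := by rw [h3, h5]; group
            _ = x * u * g := by rw [hzz, mul_one]
        rcases factA (x * u) hwP (hcentral _ (fun y hy => by
            calc y * (x * u) = (y * x) * u := by rw [mul_assoc]
              _ = x * (y * u) := by rw [hxc y hy, mul_assoc]
              _ = x * u * y := by rw [((hP0mem y).1 hy).2, mul_assoc]) h4) (by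
            calc x * u * (x * u) = x * (u * x) * u := by group
              _ = (x * x) * (u * u) := by rw [← hux]; group
              _ = 1 := by rw [hxx, huu, one_mul]) with h6 | h6
        · have : x = u := by
            calc x = (x * u) * u := by rw [mul_assoc, huu, mul_one]
              _ = u := by rw [h6, one_mul]
          rw [this]; exact hu
        · have : x = z * u := by
            calc x = (x * u) * u := by rw [mul_assoc, huu, mul_one]
              _ = z * u := by rw [h6]
          rw [this]; exact U.mul_mem hzU hu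
    -- the conjugate of `z` under `r`
    have hrzr : r * z * r⁻¹ = z * u := by
      have h3 : r * z * r⁻¹ ∈ U := by
        apply factD _ (hnormR r hrR z hzP0)
        · intro y hy
          have h4 := hnormR r⁻¹ (R.inv_mem hrR) y hy
          rw [inv_inv] at h4
          have h5 := hzP _ (hP0P h4)
          calc y * (r * z * r⁻¹) = r * ((r⁻¹ * y * r) * z) * r⁻¹ := by group
            _ = r * (z * (r⁻¹ * y * r)) * r⁻¹ := by rw [h5]
            _ = _ := by group
        · calc r * z * r⁻¹ * (r * z * r⁻¹) = r * (z * z) * r⁻¹ := by group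
            _ = 1 := by rw [hzz]; group
      rcases hUel _ h3 with h5 | h5 | h5 | h5
      · exfalso; apply hz1
        have : z = r⁻¹ * (r * z * r⁻¹) * r := by group
        rw [this, h5]; group
      · exfalso; apply hrz
        calc r * z = (r * z * r⁻¹) * r := by group
          _ = z * r := by rw [h5]
      · exfalso; apply hzu
        have : z = r⁻¹ * (r * z * r⁻¹) * r := by group
        rw [this, h5, mul_assoc, ← hru]; group
      · exact h5
    set n := g⁻¹ * r with hn
    have hgu' := factB' g hgP hgu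
    have hzg := hzP g hgP
    have hnz : n * z * n⁻¹ = u := by
      calc n * z * n⁻¹ = g⁻¹ * (r * z * r⁻¹) * g := by rw [hn]; group
        _ = (g⁻¹ * z * g) * (g⁻¹ * u * g) := by rw [hrzr]; group
        _ = (g⁻¹ * (z * g)) * (z * u) := by rw [hgu']; group
        _ = (g⁻¹ * (g * z)) * (z * u) := by rw [hzg]
        _ = (z * z) * u := by group
        _ = u := by rw [hzz, one_mul]
    have hnu : n * u * n⁻¹ = z * u := by
      calc n * u * n⁻¹ = g⁻¹ * (r * u) * r⁻¹ * g := by rw [hn]; group
        _ = g⁻¹ * u * g := by rw [hru]; group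
        _ = z * u := hgu'
    have hNconj : (N z).map (MulAut.conj n).toMonoidHom = N u := by
      rw [hNdef]
      simp only
      rw [conj_normalizer, MonoidHom.map_zpowers]
      have : (MulAut.conj n).toMonoidHom z = u := hnz
      rw [this]
    have hUconj : U.map (MulAut.conj n).toMonoidHom = U := by
      refine Subgroup.eq_of_le_of_card_ge ?_ (by rw [card_conj])
      have h3 : U ≤ U.comap (MulAut.conj n).toMonoidHom := by
        apply hgen4
        · show n * z * n⁻¹ ∈ U
          rw [hnz]; exact hu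
        · show n * u * n⁻¹ ∈ U
          rw [hnu]; exact U.mul_mem hzU hu
      exact Subgroup.map_le_iff_le_comap.2 h3
    apply hUQ
    have h3 := step1 z hzU hz1 hzP
    have h4 := conj_mono h3 n
    rw [hUconj] at h4
    refine h4.trans (le_pCoreOf ?_ ?_ (isPGroup_conj (isPGroup_pCoreOf _) n))
    · rw [← hNconj]; exact conj_mono (pCoreOf_le _) n
    · rw [← hNconj, ← conj_normalizer]; exact conj_mono (le_normalizer_pCoreOf _) n
  -- step 3
  have hodd := hK
  have hnc : ¬ IsCyclic ↥U := hU4.not_isCyclic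
  have hgen := H2.GenCent.main U K ⟨⟨fun a b => Subtype.ext (hUcomm a a.2 b b.2)⟩⟩ hnc hUK (by
    rw [hcard]
    exact (Nat.Coprime.pow_left 2 (Nat.coprime_two_left.2 hK) : Nat.Coprime (2 ^ 2) _))
  rw [Subgroup.le_centralizer_iff, ← hgen]
  refine iSup₂_le fun a ha => ?_
  rintro x ⟨hxK, hxa⟩
  refine Subgroup.mem_centralizer_iff.2 fun w hw => ?_
  replace hxa := Subgroup.mem_centralizer_singleton_iff.1 hxa
  have hxN : x ∈ N a := hcN a x hxa
  set c := w * x * w⁻¹ * x⁻¹ with hc
  have h3 : c ∈ K := K.mul_mem ((Subgroup.mem_normalizer_iff.1 (hUK hw) x).1 hxK) (K.inv_mem hxK)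
  have h4 : c ∈ pCoreOf 2 (N a) := by
    have h5 := step2 a ha.1 ha.2 hw
    have h6 := (Subgroup.mem_normalizer_iff.1 (le_normalizer_pCoreOf (N a) hxN) w⁻¹).1 (Subgroup.inv_mem _ h5)
    have h7 : c = w * (x * w⁻¹ * x⁻¹) := by rw [hc]; group
    rw [h7]; exact Subgroup.mul_mem _ h5 h6
  have h5 : c = 1 := by
    obtain ⟨j, hj⟩ := (isPGroup_pCoreOf (p := 2) (N a)) ⟨c, h4⟩
    have hj : c ^ 2 ^ j = 1 := congrArg Subtype.val hj
    have h6 : orderOf c ∣ Nat.card ↥K := by
      have := orderOf_dvd_natCard (⟨c, h3⟩ : ↥K)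
      rwa [Subgroup.orderOf_mk] at this
    have h7 : orderOf c ∣ 1 := by
      have hcop : (Nat.card ↥K).Coprime (2 ^ j) := Nat.Coprime.pow_right j (Nat.coprime_two_right.2 hK)
      rw [← hcop.gcd_eq_one]
      exact Nat.dvd_gcd h6 (orderOf_dvd_of_pow_eq_one hj)
    exact orderOf_eq_one_iff.1 (Nat.dvd_one.1 h7)
  have h6 : w * x * w⁻¹ = x := mul_inv_eq_one.1 h5
  calc w * x = w * x * w⁻¹ * w := by group
    _ = x * w := by rw [h6]

end Cfsg.Agent.S1957
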