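import Cfsg.Statements.S1958
import Cfsg.Agent.Lib.H26.SolvBal
import Cfsg.Agent.Lib.H38.Basic
import Cfsg.Agent.Lib.H1.Solv

set_option autoImplicit false
open Cfsg

namespace Cfsg.Agent.S1958

/-- Let `G` be a finite group, `p` a prime, and `x, y` commuting elements of order `p` whose centralizers `C_G(x)` and `C_G(y)` are both solvable. Then `O_{p'}(C_G(x)) ∩ C_G(y) = O_{p'}(C_G(y)) ∩ C_G(x)` (balance). -/
theorem result {G : Type*} [Group G] [Finite G]
    (p : ℕ) [Fact p.Prime] (x y : G) (hx : orderOf x = p) (hy : orderOf y = p) (hxy : x * y = y * x)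
    (hCx : Group.IsSolvable ↥(Subgroup.centralizer ({x} : Set G))) (hCy : Group.IsSolvable ↥(Subgroup.centralizer ({y} : Set G))) :
    Cfsg.centralizerPPrimeCore p x ⊓ Subgroup.centralizer {y} = Cfsg.centralizerPPrimeCore p y ⊓ Subgroup.centralizer {x} := by
  have key : ∀ x y : G, orderOf x = p → x * y = y * x →
      Group.IsSolvable ↥(Subgroup.centralizer ({y} : Set G)) →
      Cfsg.centralizerPPrimeCore p x ⊓ Subgroup.centralizer {y} ≤ Cfsg.centralizerPPrimeCore p y := by
    intro x y hx hxy hCy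
    set C := Subgroup.centralizer ({y} : Set G) with hC
    have hxC : x ∈ C := by
      rw [hC, Subgroup.mem_centralizer_singleton_iff]; exact hxy
    set D := Cfsg.centralizerPPrimeCore p x with hD
    have hDx : D ≤ Subgroup.centralizer ({x} : Set G) := Subgroup.map_subtype_le _
    have hDcard : (Nat.card ↥D).Coprime p := by
      have h1 : Nat.card ↥D = Nat.card ↥(Cfsg.pPrimeCore p ↥(Subgroup.centralizer ({x} : Set G))) :=
        Subgroup.card_map_of_injective (Subgroup.subtype_injective _)
      rw [h1]; exact H1.Cores.coprime_card_pPrimeCore p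
    have hDn : Subgroup.centralizer ({x} : Set G) ≤ Subgroup.normalizer (D : Set G) := by
      intro c hc
      rw [H38.Basic.mem_normalizer_iff']
      refine Subgroup.eq_of_le_of_card_ge ?_ (by rw [H38.Basic.card_conj])
      rintro _ ⟨_, ⟨d, hd, rfl⟩, rfl⟩
      exact ⟨_, (inferInstance : (Cfsg.pPrimeCore p ↥(Subgroup.centralizer ({x} : Set G))).Normal).conj_mem d hd ⟨c, hc⟩, rfl⟩
    set P : Subgroup ↥C := Subgroup.zpowers ⟨x, hxC⟩ with hP
    have hPp : IsPGroup p ↥P := by
      rw [IsPGroup.iff_card]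
      refine ⟨1, ?_⟩
      rw [hP, Nat.card_zpowers, Subgroup.orderOf_mk, hx, pow_one]
    have hcentP : ∀ z : ↥C, z ∈ Subgroup.centralizer (P : Set ↥C) → (z : G) ∈ Subgroup.centralizer ({x} : Set G) := by
      intro z hz
      rw [Subgroup.mem_centralizer_singleton_iff]
      have := Subgroup.mem_centralizer_iff.1 hz ⟨x, hxC⟩ (Subgroup.mem_zpowers _)
      exact (congrArg Subtype.val this).symm
    have h1 := H26.SolvBal.le_pPrimeCore_of_normal_in_centralizer (G := ↥C) (p := p)
      (H1.Solv.centralizer_pCore_le (inferInstance : Group.IsSolvable (↥C ⧸ Cfsg.pPrimeCore p ↥C)) p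
        (H1.Cores.pPrimeCore_quotient_pPrimeCore p)) (P := P) (X := D.subgroupOf C) hPp ?_ ?_ ?_
    · rintro d ⟨hd, hdC⟩
      exact ⟨⟨d, hdC⟩, h1 hd, rfl⟩
    · have h2 : Nat.card ↥(D.subgroupOf C) ∣ Nat.card ↥D := by
        have h3 : Nat.card ↥(D.subgroupOf C) = Nat.card ↥((D.subgroupOf C).map C.subtype) :=
          (Subgroup.card_map_of_injective C.subtype_injective).symm
        rw [h3]
        exact Subgroup.card_dvd_of_le (by rw [Subgroup.subgroupOf_map_subtype]; exact inf_le_left)
      exact Nat.Coprime.coprime_dvd_left h2 hDcard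
    · rintro d hd
      rw [Subgroup.mem_centralizer_iff]
      rintro _ ⟨k, rfl⟩
      have h2 := Subgroup.mem_centralizer_singleton_iff.1 (hDx hd)
      have h3 : Commute (⟨x, hxC⟩ : ↥C) d := Subtype.ext h2.symm
      exact h3.zpow_left k
    · intro z hz
      rw [H38.Basic.mem_normalizer_iff']
      refine Subgroup.eq_of_le_of_card_ge ?_ (by rw [H38.Basic.card_conj])
      rintro _ ⟨d, hd, rfl⟩
      show (z : G) * (d : G) * (z : G)⁻¹ ∈ D
      exact (Subgroup.mem_normalizer_iff.1 (hDn (hcentP z hz)) _).1 hd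
  apply le_antisymm
  · refine le_inf (key x y hx hxy hCy) (inf_le_left.trans (Subgroup.map_subtype_le _))
  · refine le_inf (key y x hy hxy.symm hCx) (inf_le_left.trans (Subgroup.map_subtype_le _))

end Cfsg.Agent.S1958
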