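import Cfsg.Statements.S1966
import Cfsg.Agent.Lib.H38.Functor
import Cfsg.Agent.Lib.H1.Cores

set_option autoImplicit false
open Cfsg

namespace Cfsg.Agent.S1966

/-- Let p be a prime, G a finite group with Sylow p-subgroup S and 𝓕 a conjugation family for S in G. Then the members of 𝓕 containing O_p(G) still form a conjugation family for S in G. -/
theorem result {G : Type*} [Group G] [Finite G] {p : ℕ} [Fact p.Prime] (S : Sylow p G) (𝓕 : Set (Subgroup G)) (h : Cfsg.IsConjugationFamily 𝓕 (S : Subgroup G)) : Cfsg.IsConjugationFamily {T : Subgroup G | T ∈ 𝓕 ∧ Cfsg.pCore p G ≤ T} (S : Subgroup G) := by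
  rw [H38.Alperin.isConjugationFamily_iff] at h ⊢
  refine ⟨fun T hT => h.1 T hT.1, fun A g hne hA hg => ?_⟩
  have hQ : Cfsg.pCore p G ≤ (S : Subgroup G) := H1.Cores.pCore_le_sylow S
  haveI : (Cfsg.pCore p G).Normal := H1.Cores.pCore_normal p
  have h1 := h.2 (A ∪ (Cfsg.pCore p G : Set G)) g (hne.mono Set.subset_union_left) (Set.union_subset hA hQ) (by
    have e : H38.Alperin.cj g (A ∪ (Cfsg.pCore p G : Set G)) =
      H38.Alperin.cj g A ∪ H38.Alperin.cj g (Cfsg.pCore p G : Set G) := Set.image_union _ _ _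
    rw [e, H38.Alperin.cj_coe, H38.Basic.conj_normal]
    exact Set.union_subset hg hQ)
  exact (h1.of_normal_subset Set.subset_union_right).mono Set.subset_union_left

end Cfsg.Agent.S1966
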