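import Cfsg.Statements.S1970
import Cfsg.Agent.Lib.H38.SecClass
import Cfsg.Agent.Lib.H38.SectionTR
open H38.Basic H38.Functor H38.Section H38.SecClass H38.SectionTR H38.Control

set_option autoImplicit false
universe u
open Cfsg

namespace Cfsg.Agent.S1970

/-- Let p be a prime, G a finite group and W an isomorphism-invariant p-group functor (W assigns to every group Q a subgroup W(Q), nontrivial whenever Q is a nontrivial finite p-group, and every isomorphism from a finite p-group Q onto a group R carries W(Q) onto W(R)). Suppose that for every section G* = K/R of G with C_{G*}(O_p(G*)) ≤ O_p(G*) and every Sylow p-subgroup S* of G*, one has O_p(G*) ∩ (G*)' = O_p(G*) ∩ (N_{G*}(W(S*)))'. Then W controls transfer in every section G* of G: S* ∩ (G*)' = S* ∩ (N_{G*}(W(S*)))' for a Sylow p-subgroup S* of G*. -/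
theorem result {G : Type u} [Group G] [Finite G] {p : ℕ} [Fact p.Prime] (W : ∀ (Q : Type u) [Group Q], Subgroup Q) (hW : Cfsg.IsCharPFunctor.{u} p W) (hloc : ∀ (K R : Subgroup G) [hR : (R.subgroupOf K).Normal], Subgroup.centralizer ((Cfsg.pCore p (↥K ⧸ R.subgroupOf K) : Subgroup (↥K ⧸ R.subgroupOf K)) : Set (↥K ⧸ R.subgroupOf K)) ≤ Cfsg.pCore p (↥K ⧸ R.subgroupOf K) → ∀ T : Sylow p (↥K ⧸ R.subgroupOf K), Cfsg.pCore p (↥K ⧸ R.subgroupOf K) ⊓ commutator (↥K ⧸ R.subgroupOf K) = Cfsg.pCore p (↥K ⧸ R.subgroupOf K) ⊓ ⁅Subgroup.normalizer ((Cfsg.inducedFunctor (G := (↥K ⧸ R.subgroupOf K)) W ((T : Subgroup (↥K ⧸ R.subgroupOf K))) : Subgroup (↥K ⧸ R.subgroupOf K)) : Set (↥K ⧸ R.subgroupOf K)), Subgroup.normalizer ((Cfsg.inducedFunctor (G := (↥K ⧸ R.subgroupOf K)) W ((T : Subgroup (↥K ⧸ R.subgroupOf K))) : Subgroup (↥K ⧸ R.subgroupOf K)) : Set (↥K ⧸ R.subgroupOf K))⁆) : ∀ (K R : Subgroup G) [hR : (R.subgroupOf K).Normal], Cfsg.ControlsTransferIn p (Cfsg.inducedFunctor (G :=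 (↥K ⧸ R.subgroupOf K)) W) ⊤ := by
  have main := TR_of_class hW (fun X _ => IsSec G X) (fun X _ H h => h.sub H) (fun X _ N _ h => h.quo N)
    (by
      intro X _ _ hX _ hc S
      obtain ⟨K, R, hR, ⟨e⟩⟩ := hX.exists_equiv
      have hc' := constrained_of_equiv e hc
      obtain ⟨T, hT⟩ := exists_sylow_map e S
      have h1 := hloc K R hc' T
      have h2 := Subgroup.map_mono (f := (e : (↥K ⧸ R.subgroupOf K) →* X)) (h1.le.trans inf_le_right)
      rw [Subgroup.map_inf_eq _ _ _ e.injective, commutator_def, Subgroup.map_commutator, Subgroup.map_commutator,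
        map_normalizer_equiv, map_induced_equiv hW e T.2, hT, H1.Cores.map_equiv_pCore,
        Subgroup.map_top_of_surjective _ e.surjective] at h2
      exact h2)
  intro K R hR
  exact controls_of_tr hW (main (↥K ⧸ R.subgroupOf K) (isSec_quotient K R))

end Cfsg.Agent.S1970
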