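import Cfsg.Statements.S1972
import Cfsg.Agent.Lib.H38.SecClass
import Cfsg.Agent.Lib.H38.TransferNorm
open H38.Basic H38.Functor H38.Section H38.SecClass H38.SectionTR H38.Control H38.NormFix H38.TransferNorm

set_option autoImplicit false
universe u
open Cfsg

namespace Cfsg.Agent.S1972

/-- Let p be a prime, G a finite group and W an isomorphism-invariant p-group functor (W assigns to every group Q a subgroup W(Q), nontrivial whenever Q is a nontrivial finite p-group, and every isomorphism from a finite p-group Q onto a group R carries W(Q) onto W(R)). Suppose that whenever G* = K/R is a section of G with C_{G*}(O_p(G*)) ≤ O_p(G*) and S* is a Sylow p-subgroup of G* with W(S*) not normal in G*, there is an element g of S* outside O_p(G*) such that [X, g, …, g] ≤ Y with p − 1 entries g, for every chief factor X/Y of G* with X ≤ O_p(G*). Then W controls transfer in every section of G. -/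
theorem result {G : Type u} [Group G] [Finite G] {p : ℕ} [Fact p.Prime] (W : ∀ (Q : Type u) [Group Q], Subgroup Q) (hW : Cfsg.IsCharPFunctor.{u} p W) (hloc : ∀ (K R : Subgroup G) [hR : (R.subgroupOf K).Normal], Subgroup.centralizer ((Cfsg.pCore p (↥K ⧸ R.subgroupOf K) : Subgroup (↥K ⧸ R.subgroupOf K)) : Set (↥K ⧸ R.subgroupOf K)) ≤ Cfsg.pCore p (↥K ⧸ R.subgroupOf K) → ∀ T : Sylow p (↥K ⧸ R.subgroupOf K), ¬ (Cfsg.inducedFunctor (G := (↥K ⧸ R.subgroupOf K)) W ((T : Subgroup (↥K ⧸ R.subgroupOf K)))).Normal → ∃ g : (↥K ⧸ R.subgroupOf K), g ∈ (T : Subgroup (↥K ⧸ R.subgroupOf K)) ∧ g ∉ Cfsg.pCore p (↥K ⧸ R.subgroupOf K) ∧ ∀ U V : Subgroup (↥K ⧸ R.subgroupOf K), Cfsg.IsChiefFactor U V → U ≤ Cfsg.pCore p (↥K ⧸ R.subgroupOf K) → Cfsg.iterCommutator U (Subgroup.zpowers g) (p - 1) ≤ V) : ∀ (K R : Subgroup G) [hR : (R.subgroupOf K).Normal], Cfsg.ControlsTransferIn p (Cfsg.inducedFunctor (G := (↥K ⧸ R.subgroupOf K)) W) ⊤ := by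
  have main := TR_of_class hW (fun X _ => IsSec G X) (fun X _ H h => h.sub H) (fun X _ N _ h => h.quo N)
    (by
      intro X _ _ hX hprop hc S
      have hWf : IsConjugacyFunctor p (inducedFunctor W : Subgroup X → Subgroup X) := isConjugacyFunctor_induced hW
      set D := inducedFunctor W (S : Subgroup X) with hD
      by_cases hDn : D.Normal
      · rw [Subgroup.normalizer_eq_top_iff.2 hDn]; exact inf_le_right
      obtain ⟨K, R, hR, ⟨e⟩⟩ := hX.exists_equiv
      have hc' := constrained_of_equiv e hc
      obtain ⟨T, hT⟩ := exists_sylow_map e S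
      have hTn : ¬ (Cfsg.inducedFunctor (G := (↥K ⧸ R.subgroupOf K)) W ((T : Subgroup (↥K ⧸ R.subgroupOf K)))).Normal := by
        intro h
        apply hDn
        rw [hD, ← hT, ← map_induced_equiv hW e T.2]
        exact Subgroup.Normal.map h _ e.surjective
      obtain ⟨g₀, hg₀T, hg₀Q, hg₀⟩ := hloc K R hc' T hTn
      set g := e g₀ with hg
      have hgS : g ∈ (S : Subgroup X) := by rw [← hT]; exact ⟨g₀, hg₀T, rfl⟩
      have hgQ : g ∉ Cfsg.pCore p X := by
        intro h
        apply hg₀Q
        rw [← H1.Cores.map_equiv_pCore p e] at h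
        obtain ⟨y, hy, hyg⟩ := h
        rwa [← e.injective hyg]
      -- chief factors
      have hchief : ∀ U Y : Subgroup X, Cfsg.IsChiefFactor U Y → U ≤ Cfsg.pCore p X →
          Cfsg.iterCommutator U (Subgroup.zpowers g) (p - 1) ≤ Y := by
        intro U Y hUY hU
        set f : (↥K ⧸ R.subgroupOf K) →* X := (e : (↥K ⧸ R.subgroupOf K) →* X) with hf
        have hfs : Function.Surjective f := e.surjective
        have hfi : Function.Injective f := e.injective
        have hmc : ∀ N : Subgroup X, (N.comap f).map f = N := fun N => Subgroup.map_comap_eq_self_of_surjective hfs N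
        have hcm : ∀ N : Subgroup (↥K ⧸ R.subgroupOf K), (N.map f).comap f = N :=
          fun N => Subgroup.comap_map_eq_self_of_injective hfi N
        have h1 : Cfsg.IsChiefFactor (U.comap f) (Y.comap f) := by
          obtain ⟨hlt, hUn, hYn, hmin⟩ := hUY
          refine ⟨?_, hUn.comap f, hYn.comap f, ?_⟩
          · refine lt_of_le_of_ne (Subgroup.comap_mono hlt.le) ?_
            intro h
            apply hlt.ne
            rw [← hmc U, ← hmc Y, h]
          · intro N hN hYN hNU
            rcases hmin (N.map f) (Subgroup.Normal.map hN f hfs) (by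
              rw [← hmc Y]; exact Subgroup.map_mono hYN) (by
              rw [← hmc U]; exact Subgroup.map_mono hNU) with h | h
            · left; rw [← h, hcm]
            · right; rw [← h, hcm]
        have h2 := hg₀ _ _ h1 (by
          rw [← hcm (Cfsg.pCore p (↥K ⧸ R.subgroupOf K)), H1.Cores.map_equiv_pCore]
          exact Subgroup.comap_mono hU)
        have h3 : ∀ n, (Cfsg.iterCommutator (U.comap f) (Subgroup.zpowers g₀) n).map f =
            Cfsg.iterCommutator U (Subgroup.zpowers g) n := by
          intro n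
          induction n with
          | zero => exact hmc U
          | succ n ih =>
            show (⁅_, _⁆ : Subgroup (↥K ⧸ R.subgroupOf K)).map f = ⁅_, _⁆
            rw [Subgroup.map_commutator, ih, MonoidHom.map_zpowers]
            rfl
        have h4 := Subgroup.map_mono (f := f) h2
        rwa [h3, hmc] at h4
      set T₀ : Subgroup X := Subgroup.closure {x | x ∈ (S : Subgroup X) ∧ ∃ h, h * g * h⁻¹ = x} with hT₀
      have h1 := transfer_engel (p := p) (isSyl_sylow S) (Q := Cfsg.pCore p X) inferInstance
        (H1.Cores.pCore_le_sylow S) hchief hT₀ rfl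
      have hSM : (S : Subgroup X) ≤ Subgroup.normalizer (T₀ : Set X) := le_normalizer_T0 hT₀
      have hMtop : Subgroup.normalizer (T₀ : Set X) ≠ ⊤ := by
        intro h
        apply hgQ
        have h2 : T₀.Normal := Subgroup.normalizer_eq_top_iff.1 h
        have h3 : T₀ ≤ (S : Subgroup X) := by
          rw [hT₀, Subgroup.closure_le]; exact fun x hx => hx.1
        have h4 : T₀ ≤ Cfsg.pCore p X := H1.Cores.le_pCore h2 (S.2.to_le h3)
        apply h4
        rw [hT₀]
        exact Subgroup.subset_closure ⟨hgS, 1, by simp⟩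
      intro x hx
      have h2 := (hprop _ hMtop).relative hW ((isSyl_sylow S).of_le hSM le_top)
      refine Subgroup.commutator_mono inf_le_right inf_le_right (h2 ?_)
      exact Subgroup.mem_inf.2 ⟨H1.Cores.pCore_le_sylow S hx.1, h1 hx⟩)
  intro K R hR
  exact controls_of_tr hW (main (↥K ⧸ R.subgroupOf K) (isSec_quotient K R))

end Cfsg.Agent.S1972
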