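import Cfsg.Statements.S1981
import Cfsg.Agent.Lib.H39.KInf

set_option autoImplicit false
open Cfsg

namespace Cfsg.Agent.S1981

/-- Let P be a finite p-group generated by its abelian normal subgroups. Then both K-infinity subgroups of P equal P. -/
theorem result {P : Type*} [Group P] [Finite P] {p : ℕ} [Fact p.Prime] (hP : IsPGroup p P) (hgen : ⨆ A ∈ {A : Subgroup P | A.Normal ∧ IsMulCommutative ↥A}, A = ⊤) : Cfsg.kInfLower P = ⊤ ∧ Cfsg.kInfUpper P = ⊤ := by
  have hlow : ∀ Q : Subgroup P, sSup (Cfsg.kLowerStarFamily Q) = ⊤ := by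
    intro Q
    rw [eq_top_iff, ← hgen]
    exact iSup₂_le fun A hA => le_sSup (by
      have := hA.1
      exact H39.KInf.normal_comm_mem_lower A hA.2 Q)
  have hupp : ∀ Q : Subgroup P, sSup (Cfsg.kUpperStarFamily Q) = ⊤ := by
    intro Q
    rw [eq_top_iff, ← hgen]
    exact iSup₂_le fun A hA => le_sSup (by
      have := hA.1
      exact H39.KInf.normal_comm_mem_upper A hA.2 Q)
  constructor
  · rw [eq_top_iff]
    refine le_trans ?_ (H39.KInf.kSeqEven_le_kInfLower 0)
    exact (hlow _).ge
  · rw [eq_top_iff]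
    refine le_iInf fun n => ?_
    rcases n with _ | n
    · exact le_top
    · exact (hupp _).ge

end Cfsg.Agent.S1981
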