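import Cfsg.Statements.S1997
import Cfsg.Agent.Lib.H39.Triple

set_option autoImplicit false
universe u
open Cfsg

namespace Cfsg.Agent.S1997

/-- Let p be a prime, G a finite group with Sylow p-subgroup S, and W₁, W₂ two isomorphism-invariant p-group functors (W assigns to every group Q a subgroup W(Q), nontrivial whenever Q is a nontrivial finite p-group, and every isomorphism from a finite p-group Q onto a group R carries W(Q) onto W(R)). Suppose that G* = C_{G*}(Ω₁Z(S*)) N_{G*}(W₁(S*)) = C_{G*}(Ω₁Z(S*)) N_{G*}(W₂(S*)) = N_{G*}(W₁(S*)) N_{G*}(W₂(S*)) whenever G* = K/R is a section of G with C_{G*}(O_p(G*)) ≤ O_p(G*) and S* is a Sylow p-subgroup of G*, where Ω₁Z denotes the subgroup generated by the elements of order dividing p in the centre. Suppose also Ω₁Z(S) ≤ W₁(S) ∩ W₂(S), and let A be the normal closure of Ω₁Z(S) in N_G(W₁(S)). Then A is an elementary abelian subgroup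 of S, strongly closed in S with respect to G, and A controls strong fusion in G. -/
theorem result {G : Type u} [Group G] [Finite G] {p : ℕ} [Fact p.Prime] (S : Sylow p G) (W₁ W₂ : ∀ (Q : Type u) [Group Q], Subgroup Q) (hW₁ : Cfsg.IsCharPFunctor.{u} p W₁) (hW₂ : Cfsg.IsCharPFunctor.{u} p W₂) (hfac : ∀ (K R : Subgroup G) [hR : (R.subgroupOf K).Normal], Subgroup.centralizer ((Cfsg.pCore p (↥K ⧸ R.subgroupOf K) : Subgroup (↥K ⧸ R.subgroupOf K)) : Set (↥K ⧸ R.subgroupOf K)) ≤ Cfsg.pCore p (↥K ⧸ R.subgroupOf K) → ∀ T : Sylow p (↥K ⧸ R.subgroupOf K), (∀ x : (↥K ⧸ R.subgroupOf K), ∃ a ∈ Subgroup.centralizer ((Cfsg.omegaOne p ((T : Subgroup (↥K ⧸ R.subgroupOf K)) ⊓ Subgroup.centralizer (((T : Subgroup (↥K ⧸ R.subgroupOf K)) : Subgroup (↥K ⧸ R.subgroupOf K)) : Set (↥K ⧸ R.subgroupOf K))) : Subgroup (↥K ⧸ R.subgroupOf K)) : Set (↥K ⧸ R.subgroupOf K)), ∃ b ∈ Subgroup.normalizer ((Cfsg.inducedFunctor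 (G := (↥K ⧸ R.subgroupOf K)) W₁ (T : Subgroup (↥K ⧸ R.subgroupOf K)) : Subgroup (↥K ⧸ R.subgroupOf K)) : Set (↥K ⧸ R.subgroupOf K)), x = a * b) ∧ (∀ x : (↥K ⧸ R.subgroupOf K), ∃ a ∈ Subgroup.centralizer ((Cfsg.omegaOne p ((T : Subgroup (↥K ⧸ R.subgroupOf K)) ⊓ Subgroup.centralizer (((T : Subgroup (↥K ⧸ R.subgroupOf K)) : Subgroup (↥K ⧸ R.subgroupOf K)) : Set (↥K ⧸ R.subgroupOf K))) : Subgroup (↥K ⧸ R.subgroupOf K)) : Set (↥K ⧸ R.subgroupOf K)), ∃ b ∈ Subgroup.normalizer ((Cfsg.inducedFunctor (G := (↥K ⧸ R.subgroupOf K)) W₂ (T : Subgroup (↥K ⧸ R.subgroupOf K)) : Subgroup (↥K ⧸ R.subgroupOf K)) : Set (↥K ⧸ R.subgroupOf K)), x = a * b) ∧ (∀ x : (↥K ⧸ R.subgroupOf K), ∃ a ∈ Subgroup.normalizer ((Cfsg.inducedFunctor (G := (↥K ⧸ R.subgroupOf K)) W₁ (T : Subgroup (↥K ⧸ R.subgroupOf K)) : Subgroup (↥K ⧸ R.subgroupOf K)) : Set (↥K ⧸ R.subgroupOf K)), ∃ b ∈ Subgroup.normalizer ((Cfsg.inducedFunctor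 (G := (↥K ⧸ R.subgroupOf K)) W₂ (T : Subgroup (↥K ⧸ R.subgroupOf K)) : Subgroup (↥K ⧸ R.subgroupOf K)) : Set (↥K ⧸ R.subgroupOf K)), x = a * b)) (hZ : Cfsg.omegaOne p ((S : Subgroup G) ⊓ Subgroup.centralizer (((S : Subgroup G) : Subgroup G) : Set G)) ≤ Cfsg.inducedFunctor (G := G) W₁ (S : Subgroup G) ⊓ Cfsg.inducedFunctor (G := G) W₂ (S : Subgroup G)) (N₁ : Subgroup G) (hN₁ : N₁ = Subgroup.normalizer ((Cfsg.inducedFunctor (G := G) W₁ (S : Subgroup G) : Subgroup G) : Set G)) (A : Subgroup G) (hA : A = (Subgroup.normalClosure (((Cfsg.omegaOne p ((S : Subgroup G) ⊓ Subgroup.centralizer (((S : Subgroup G) : Subgroup G) : Set G))).subgroupOf N₁ : Subgroup ↥N₁) : Set ↥N₁)).map N₁.subtype) : A ≤ (S : Subgroup G) ∧ Cfsg.IsElementaryAbelian p A ∧ Cfsg.IsStronglyClosed A (S : Subgroup G) ∧ Cfsg.ControlsStrongFusion p A := by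
  obtain ⟨hZ1, hZ2⟩ := le_inf_iff.1 hZ
  set V₁ := Cfsg.inducedFunctor (G := G) W₁ (S : Subgroup G) with hV₁
  set V₂ := Cfsg.inducedFunctor (G := G) W₂ (S : Subgroup G) with hV₂
  have hc₁ := H39.Sect.ind_isConjugacyFunctor (G := G) hW₁
  have hc₂ := H39.Sect.ind_isConjugacyFunctor (G := G) hW₂
  have hV₁S : V₁ ≤ (S : Subgroup G) := H39.Sect.ind_le W₁ _
  have hV₂S : V₂ ≤ (S : Subgroup G) := H39.Sect.ind_le W₂ _
  have hSV₁ : (S : Subgroup G) ≤ Subgroup.normalizer (V₁ : Set G) := H38.Functor.le_normalizer_W hc₁ S.2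
  have hSV₂ : (S : Subgroup G) ≤ Subgroup.normalizer (V₂ : Set G) := H38.Functor.le_normalizer_W hc₂ S.2
  have f₁ := H39.Triple.factor_normalizer hW₂ S hV₁S hSV₁ hZ1 (fun K R _ h T => (hfac K R h T).2.1)
  have f₂ := H39.Triple.factor_normalizer hW₁ S hV₂S hSV₂ hZ2 (fun K R _ h T => (hfac K R h T).1)
  rw [← hV₂] at f₁
  rw [← hV₁] at f₂
  set N₂ := Subgroup.normalizer (V₂ : Set G) with hN₂
  rw [← hN₁] at f₁ f₂ hSV₁
  set Z := Cfsg.omegaOne p ((S : Subgroup G) ⊓ Subgroup.centralizer (((S : Subgroup G) : Subgroup G) : Set G)) with hZdef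
  have hZS : Z ≤ (S : Subgroup G) ⊓ Subgroup.centralizer (((S : Subgroup G) : Subgroup G) : Set G) := H39.Triple.OZ_le _
  let X : Set G := {x | ∃ g ∈ N₁ ⊓ N₂, ∃ z ∈ Z, x = g * z * g⁻¹}
  have hXN₁ : ∀ n ∈ N₁, ∀ z ∈ Z, n * z * n⁻¹ ∈ X := by
    intro n hn z hz
    obtain ⟨a, ha, b, hb, hab⟩ := f₁ n⁻¹ (inv_mem hn)
    refine ⟨b⁻¹, inv_mem hb, z, hz, ?_⟩
    have h1 := Subgroup.mem_centralizer_iff.1 ha z hz
    have h2 : n = b⁻¹ * a⁻¹ := by rw [← mul_inv_rev, ← hab, inv_inv]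
    rw [h2]
    have h3 : a⁻¹ * z * a = z := by rw [mul_assoc, h1]; group
    calc b⁻¹ * a⁻¹ * z * (b⁻¹ * a⁻¹)⁻¹ = b⁻¹ * (a⁻¹ * z * a) * b := by group
      _ = b⁻¹ * z * b⁻¹⁻¹ := by rw [h3, inv_inv]
  have hXN₂ : ∀ n ∈ N₂, ∀ z ∈ Z, n * z * n⁻¹ ∈ X := by
    intro n hn z hz
    obtain ⟨a, ha, b, hb, hab⟩ := f₂ n⁻¹ (inv_mem hn)
    refine ⟨b⁻¹, inv_mem (Subgroup.mem_inf.2 ⟨(Subgroup.mem_inf.1 hb).2, (Subgroup.mem_inf.1 hb).1⟩), z, hz, ?_⟩
    have h1 := Subgroup.mem_centralizer_iff.1 ha z hz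
    have h2 : n = b⁻¹ * a⁻¹ := by rw [← mul_inv_rev, ← hab, inv_inv]
    rw [h2]
    have h3 : a⁻¹ * z * a = z := by rw [mul_assoc, h1]; group
    calc b⁻¹ * a⁻¹ * z * (b⁻¹ * a⁻¹)⁻¹ = b⁻¹ * (a⁻¹ * z * a) * b := by group
      _ = b⁻¹ * z * b⁻¹⁻¹ := by rw [h3, inv_inv]
  have hX₁ : ∀ n ∈ N₁, ∀ x ∈ X, n * x * n⁻¹ ∈ X := by
    rintro n hn _ ⟨g, hg, z, hz, rfl⟩
    have := hXN₁ (n * g) (mul_mem hn (Subgroup.mem_inf.1 hg).1) z hz
    convert this using 1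
    group
  have hX₂ : ∀ n ∈ N₂, ∀ x ∈ X, n * x * n⁻¹ ∈ X := by
    rintro n hn _ ⟨g, hg, z, hz, rfl⟩
    have := hXN₂ (n * g) (mul_mem hn (Subgroup.mem_inf.1 hg).2) z hz
    convert this using 1
    group
  have hZX : ∀ z ∈ Z, z ∈ X := fun z hz => ⟨1, one_mem _, z, hz, by group⟩
  have hXA : ∀ n : G, (∀ x ∈ X, n * x * n⁻¹ ∈ X) → ∀ a ∈ Subgroup.closure X, n * a * n⁻¹ ∈ Subgroup.closure X := by
    intro n hn a ha
    have h1 : Subgroup.closure X ≤ (Subgroup.closure X).comap (MulAut.conj n).toMonoidHom := by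
      rw [Subgroup.closure_le]
      intro x hx
      exact Subgroup.subset_closure (hn x hx)
    exact h1 ha
  have hNX : ∀ n : G, (∀ x ∈ X, n * x * n⁻¹ ∈ X) → (∀ x ∈ X, n⁻¹ * x * n ∈ X) →
      n ∈ Subgroup.normalizer ((Subgroup.closure X : Subgroup G) : Set G) := by
    intro n hn hn'
    rw [Subgroup.mem_normalizer_iff]
    intro a
    refine ⟨hXA n hn a, fun h => ?_⟩
    have := hXA n⁻¹ (by simpa using hn') _ h
    convert this using 1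
    group
  have hN₁A : N₁ ≤ Subgroup.normalizer ((Subgroup.closure X : Subgroup G) : Set G) := fun n hn =>
    hNX n (hX₁ n hn) (fun x hx => by simpa using hX₁ n⁻¹ (inv_mem hn) x hx)
  have hN₂A : N₂ ≤ Subgroup.normalizer ((Subgroup.closure X : Subgroup G) : Set G) := fun n hn =>
    hNX n (hX₂ n hn) (fun x hx => by simpa using hX₂ n⁻¹ (inv_mem hn) x hx)
  have hXV : ∀ x ∈ X, x ∈ V₁ := by
    rintro _ ⟨g, hg, z, hz, rfl⟩
    have h1 : g ∈ Subgroup.normalizer (V₁ : Set G) := by rw [← hN₁]; exact (Subgroup.mem_inf.1 hg).1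
    exact (Subgroup.mem_normalizer_iff.1 h1 z).1 (hZ1 hz)
  have hclS : Subgroup.closure X ≤ (S : Subgroup G) := (Subgroup.closure_le _).2 fun x hx => hV₁S (hXV x hx)
  have hAX : A = Subgroup.closure X := by
    apply le_antisymm
    · rw [hA, Subgroup.map_le_iff_le_comap]
      have hnorm : ((Subgroup.closure X).subgroupOf N₁).Normal := Subgroup.normal_subgroupOf_of_le_normalizer hN₁A
      refine Subgroup.normalClosure_le_normal (N := (Subgroup.closure X).subgroupOf N₁) ?_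
      intro z hz
      exact Subgroup.subset_closure (hZX _ hz)
    · rw [Subgroup.closure_le]
      rintro _ ⟨g, hg, z, hz, rfl⟩
      rw [hA]
      have hzN : z ∈ N₁ := hSV₁ (hV₁S (hZ1 hz))
      refine ⟨⟨g, (Subgroup.mem_inf.1 hg).1⟩ * ⟨z, hzN⟩ * ⟨g, (Subgroup.mem_inf.1 hg).1⟩⁻¹, ?_, rfl⟩
      exact (Subgroup.normalClosure_normal).conj_mem _ (Subgroup.subset_normalClosure (show (⟨z, hzN⟩ : ↥N₁) ∈ (Z.subgroupOf N₁ : Subgroup ↥N₁) from hz)) _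
  rw [hAX]
  have hXcomm : ∀ x ∈ X, ∀ y ∈ X, x * y = y * x := by
    rintro _ ⟨g, hg, z, hz, rfl⟩ _ ⟨h, hh, w, hw, rfl⟩
    have h1 : g⁻¹ * (h * w * h⁻¹) * g ∈ X := by
      have := hX₁ g⁻¹ (inv_mem (Subgroup.mem_inf.1 hg).1) _ ⟨h, hh, w, hw, rfl⟩
      simpa using this
    have h2 := Subgroup.mem_centralizer_iff.1 (Subgroup.mem_inf.1 (hZS hz)).2 _ (hV₁S (hXV _ h1))
    calc g * z * g⁻¹ * (h * w * h⁻¹) = g * (z * (g⁻¹ * (h * w * h⁻¹) * g)) * g⁻¹ := by group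
      _ = g * ((g⁻¹ * (h * w * h⁻¹) * g) * z) * g⁻¹ := by rw [h2]
      _ = _ := by group
  have hZp : ∀ z ∈ Z, z ^ p = 1 := by
    intro z hz
    rw [hZdef, Cfsg.omegaOne] at hz
    refine (Subgroup.closure_induction (p := fun z _ => z ^ p = 1 ∧ z ∈ Z) ?_ ⟨one_pow _, one_mem _⟩ ?_ ?_ hz).1
    · rintro x ⟨hx, hxp⟩
      exact ⟨hxp, Subgroup.subset_closure ⟨hx, hxp⟩⟩
    · rintro x y _ _ ⟨hx, hx'⟩ ⟨hy, hy'⟩
      refine ⟨?_, mul_mem hx' hy'⟩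
      have : Commute x y := hXcomm _ (hZX _ hx') _ (hZX _ hy')
      rw [this.mul_pow, hx, hy, one_mul]
    · rintro x _ ⟨hx, hx'⟩
      exact ⟨by rw [inv_pow, hx, inv_one], inv_mem hx'⟩
  have hab : IsMulCommutative (Subgroup.closure X) := Subgroup.isMulCommutative_closure hXcomm
  have hel : Cfsg.IsElementaryAbelian p (Subgroup.closure X) := by
    refine ⟨hab, fun a ha => ?_⟩
    refine Subgroup.closure_induction (p := fun z _ => z ^ p = 1) ?_ (one_pow _) ?_ ?_ ha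
    · rintro _ ⟨g, hg, z, hz, rfl⟩
      rw [conj_pow, hZp z hz]; group
    · intro x y hx hy hx1 hy1
      have : Commute x y := congrArg Subtype.val (hab.is_comm.comm ⟨x, hx⟩ ⟨y, hy⟩)
      rw [this.mul_pow, hx1, hy1, one_mul]
    · intro x _ hx
      rw [inv_pow, hx, inv_one]
  have hfam := Cfsg.Agent.S1996.result (G := G) W₁ W₂ hW₁ hW₂ (fun K R _ h T => (hfac K R h T).2.2)
  have h𝓦 : ∀ W ∈ ({Cfsg.inducedFunctor (G := G) W₁, Cfsg.inducedFunctor (G := G) W₂} : Set (Subgroup G → Subgroup G)),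
      Cfsg.IsConjugacyFunctor p W := by
    rintro W (rfl | rfl)
    · exact hc₁
    · exact hc₂
  rw [H38.FamilyControl.familyControls_iff h𝓦 (H38.Basic.isSyl_sylow S)] at hfam
  have hctrl : ∀ (B : Set G) (g : G), B ⊆ (S : Subgroup G) → (fun a => g * a * g⁻¹) '' B ⊆ (S : Subgroup G) →
      ∃ x ∈ Subgroup.normalizer ((Subgroup.closure X : Subgroup G) : Set G), ∀ a ∈ B, g * a * g⁻¹ = x * a * x⁻¹ := by
    intro B g hB hgB
    obtain ⟨k, hk, hkB⟩ := hfam B g (Subgroup.mem_top g) hB (by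
      rintro _ ⟨a, ha, rfl⟩
      exact hgB ⟨a, ha, rfl⟩)
    refine ⟨k, ?_, fun a ha => (hkB a ha).symm⟩
    clear hkB
    induction hk with
    | nil _ => exact one_mem _
    | snoc x g hx _ _ ih =>
      refine mul_mem ?_ ih
      obtain ⟨W, hW, hxW⟩ := hx
      rcases hW with rfl | rfl
      · exact hN₁A (by rw [hN₁]; exact (Subgroup.mem_inf.1 hxW).2)
      · exact hN₂A (Subgroup.mem_inf.1 hxW).2
  refine ⟨hclS, hel, ⟨hclS, ?_⟩, S, hclS, fun B hB => ⟨hB, fun g hg => hctrl B g hB hg⟩⟩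
  intro x hx g hg
  obtain ⟨k, hk, hkx⟩ := hctrl {x} g (by rintro _ rfl; exact hclS hx) (by rintro _ ⟨_, rfl, rfl⟩; exact hg)
  rw [hkx x rfl]
  exact (Subgroup.mem_normalizer_iff.1 hk x).1 hx

end Cfsg.Agent.S1997
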