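import Cfsg.Statements.S1998
import Cfsg.Agent.Lib.H39.MinFail2

set_option autoImplicit false
universe u
open Cfsg

namespace Cfsg.Agent.S1998

/-- Let p be a prime, G a finite group with Sylow p-subgroup S, and 𝓦 a nonempty set of isomorphism-invariant p-group functors (W assigns to every group Q a subgroup W(Q), nontrivial whenever Q is a nontrivial finite p-group, and every isomorphism from a finite p-group Q onto a group R carries W(Q) onto W(R)). Suppose the induced conjugacy functors control transfer in every section of G other than G itself, but not in G. Let T be the subgroup generated by the S ∩ (N_G(W(S)))', W ∈ 𝓦, and M = N_G(T ∩ O_p(G)). Then: C_G(O_p(G)) ≤ O_p(G); M is a proper subgroup of G containing every proper subgroup of G that contains S (the unique maximal subgroup over S); [O_p(G), M] ≤ O_p(G) ∩ M' ≤ O_p(G) ∩ T; and every element u of S outside O_p(G) satisfies [X, u, …, u] ≰ Y with p − 1 entries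 u, for some chief factor X/Y of G with X ≤ O_p(G). -/
theorem result {G : Type u} [Group G] [Finite G] {p : ℕ} [Fact p.Prime] (S : Sylow p G) (𝓦 : Set (∀ (Q : Type u) [Group Q], Subgroup Q)) (h𝓦 : ∀ W ∈ 𝓦, Cfsg.IsCharPFunctor.{u} p W) (hne : 𝓦.Nonempty) (hsec : ∀ (K R : Subgroup G) [hR : (R.subgroupOf K).Normal], (K = ⊤ → R ≠ ⊥) → Cfsg.FamilyControlsTransferIn p ((fun W => Cfsg.inducedFunctor (G := (↥K ⧸ R.subgroupOf K)) W) '' 𝓦) ⊤) (hG : ¬ Cfsg.FamilyControlsTransferIn p ((fun W => Cfsg.inducedFunctor (G := G) W) '' 𝓦) ⊤) (T M : Subgroup G) (hT : T = (⨆ W ∈ 𝓦, (S : Subgroup G) ⊓ ⁅Subgroup.normalizer ((Cfsg.inducedFunctor (G := G) W (S : Subgroup G) : Subgroup G) : Set G), Subgroup.normalizer ((Cfsg.inducedFunctor (G := G) W (S : Subgroup G) : Subgroup G) : Set G)⁆)) (hM : M = Subgroup.normalizer ((T ⊓ Cfsg.pCore p G : Subgroup G) : Set G)) : Subgroup.centralizer ((Cfsg.pCore p G : Subgroup G) : Set G) ≤ Cfsg.pCore p G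 ∧ (M ≠ ⊤ ∧ ∀ H : Subgroup G, (S : Subgroup G) ≤ H → H ≠ ⊤ → H ≤ M) ∧ (⁅Cfsg.pCore p G, M⁆ ≤ Cfsg.pCore p G ⊓ ⁅M, M⁆ ∧ Cfsg.pCore p G ⊓ ⁅M, M⁆ ≤ Cfsg.pCore p G ⊓ T) ∧ ∀ u : G, u ∈ (S : Subgroup G) → u ∉ Cfsg.pCore p G → ∃ U V : Subgroup G, Cfsg.IsChiefFactor U V ∧ U ≤ Cfsg.pCore p G ∧ ¬ Cfsg.iterCommutator U (Subgroup.zpowers u) (p - 1) ≤ V := by
  have hmf : H39.MinFail.IsMinFail p 𝓦 G := by
    refine ⟨h𝓦, hne, fun K hK => ?_, fun R _ hR => ?_, hG⟩
    · rw [← H39.Sect.fc_sectBot h𝓦 K]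
      exact hsec K ⊥ (fun h => absurd h hK)
    · rw [← H39.Sect.fc_sectTop h𝓦 R]
      exact hsec ⊤ R (fun _ => hR)
  have hTT : T = H39.MinFail.TT 𝓦 (S : Subgroup G) := hT
  have hMM : M = H39.MinFail.MM p 𝓦 (S : Subgroup G) := by
    rw [hM, hTT]; rfl
  subst hTT
  subst hMM
  refine ⟨hmf.centralizer_le, ⟨hmf.MM_ne_top S, fun H hSH hH => hmf.le_MM S hSH hH⟩, ⟨?_, hmf.inf_commutator_MM_le S⟩,
    fun u hu huH => hmf.exists_chief S hu huH⟩
  have hSM : (S : Subgroup G) ≤ H39.MinFail.MM p 𝓦 (S : Subgroup G) :=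
    Subgroup.le_normalizer.trans (hmf.le_MM S Subgroup.le_normalizer (hmf.normalizer_ne_top S))
  exact le_inf (Subgroup.commutator_le_left _ _)
    (Subgroup.commutator_mono ((H52.PCore.pCore_le_sylow S).trans hSM) le_rfl)

end Cfsg.Agent.S1998
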