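import Cfsg.Statements.S2004
import Cfsg.Agent.Lib.H51.QdStab2
import Cfsg.Agent.Lib.H51.Involves
import Cfsg.Agent.Lib.H51.Qd

set_option autoImplicit false
open Cfsg

namespace Cfsg.Agent.S2004

/-- Let p be an odd prime and G a finite group such that SL₂(p) is not involved in N_G(P) for any nonidentity p-subgroup P of G. Then every section of G is p-stable in the normalizer form: in each section, whenever an element of the normalizer of a p-subgroup Q acts quadratically on Q, its image in N(Q)/C(Q) lies in O_p(N(Q)/C(Q)). -/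
theorem result {G : Type*} [Group G] [Finite G] {p : ℕ} [Fact p.Prime] (hp : p ≠ 2) (h : ∀ P : Subgroup G, IsPGroup p ↥P → P ≠ ⊥ → ¬ Cfsg.Involves (Matrix.SpecialLinearGroup (Fin 2) (ZMod p)) ↥(Subgroup.normalizer ((P : Subgroup G) : Set G))) : ∀ (K R : Subgroup G) [hR : (R.subgroupOf K).Normal], Cfsg.IsNormalizerPStable p (↥K ⧸ R.subgroupOf K) := by
  intro K R hR
  by_contra hns
  have h1 : Cfsg.Involves ↥(Cfsg.qd p) (↥K ⧸ R.subgroupOf K) := by
    by_contra h1
    exact hns (H51.QdStab2.stable hp h1)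
  have h2 : Cfsg.Involves ↥(Cfsg.qd p) G := H51.Involves.involves_trans h1 ⟨K, R, hR, ⟨MulEquiv.refl _⟩⟩
  obtain ⟨L, f, hf⟩ := H51.Involves.exists_surjective h2
  have hkp : IsPGroup p (H51.Qd.lin (F := ZMod p)).ker := H51.Qd.isPGroup_ker p
  let f' : ↥L →* ↥(Cfsg.qdOver (ZMod p)) := f
  have hf' : Function.Surjective f' := hf
  obtain ⟨P, hPp, hPmap, hPN, -, -⟩ := H51.Involves.exists_lift_normal (p := p) f' hf'
    (H51.Qd.lin (F := ZMod p)).ker hkp
  have hP1 : P ≠ ⊥ := by
    rintro rfl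
    rw [Subgroup.map_bot] at hPmap
    have h3 : H51.Qd.tr (1 : ZMod p) 0 ∈ (H51.Qd.lin (F := ZMod p)).ker :=
      H51.Qd.mem_ker_lin.2 ⟨1, 0, rfl⟩
    rw [← hPmap, Subgroup.mem_bot, ← H51.Qd.tr_zero, H51.Qd.tr, H51.Qd.tr, H51.Qd.mk_inj] at h3
    exact one_ne_zero h3.2.1
  refine h (P.map L.subtype) (hPp.map _) ?_ ?_
  · rwa [Ne, Subgroup.map_eq_bot_iff_of_injective _ L.subtype_injective]
  · let N := Subgroup.normalizer (P : Set ↥L)
    have hle : N.map L.subtype ≤ Subgroup.normalizer ((P.map L.subtype : Subgroup G) : Set G) :=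
      Subgroup.le_normalizer_map _
    let g : ↥N →* Matrix.SpecialLinearGroup (Fin 2) (ZMod p) :=
      (H51.Qd.lin (F := ZMod p)).comp (f'.comp N.subtype)
    have hg : Function.Surjective g := by
      intro y
      obtain ⟨x, rfl⟩ := H51.Qd.lin_surjective (F := ZMod p) y
      have hx : x ∈ N.map f' := by rw [hPN]; exact Subgroup.mem_top _
      obtain ⟨z, hz, rfl⟩ := hx
      exact ⟨⟨z, hz⟩, rfl⟩
    have h4 : Cfsg.Involves (Matrix.SpecialLinearGroup (Fin 2) (ZMod p)) ↥N :=
      H51.Involves.involves_of_hom g hg (H51.Involves.involves_refl _)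
    let ι : ↥N →* ↥(Subgroup.normalizer ((P.map L.subtype : Subgroup G) : Set G)) :=
      (Subgroup.inclusion hle).comp (L.subtype.subgroupMap N)
    exact H51.Involves.involves_of_injective ι (by
      intro a b hab
      have h5 : (((a : ↥L) : G)) = ((b : ↥L) : G) := congrArg (fun x : ↥(Subgroup.normalizer ((P.map L.subtype : Subgroup G) : Set G)) => (x : G)) hab
      exact Subtype.ext (Subtype.ext h5)) h4

end Cfsg.Agent.S2004
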