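import Cfsg.Statements.S2091
import Cfsg.Agent.Lib.H34.MulU6
import Cfsg.Agent.Lib.H40.StemFinish
import Cfsg.Agent.Lib.H17.PSU32

set_option autoImplicit false
open Cfsg

namespace Cfsg.Agent.S2091

/-- Exceptional Schur multiplier: PSU₆(2), realised over the field with 4 elements, has Schur multiplier isomorphic to the product of cyclic groups of orders 3, 2 and 2 (order 12, not cyclic; here the Schur multiplier is described through stem extensions, as in the definitions). -/
theorem result {F : Type*} [Field F] [Fintype F] (hF : Fintype.card F = 4) : Cfsg.HasSchurMultiplier (Cfsg.PSU 6 F 2) (Multiplicative (ZMod 3 × ZMod 2 × ZMod 2)) := by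
  obtain ⟨e⟩ := H17.F4.exists_ringEquiv hF
  have e1 : Cfsg.PSU 6 F 2 ≃* Cfsg.PSU 6 H17.F4 2 :=
    H6.Frame.quotCenterCongr (H64.U34.suCongr (by rw [hF]; rfl) (by rw [H34.U62.hK]; rfl) e.symm)
  exact H40.StemFinish.HasSchurMultiplier.congr e1.symm H34.MulU6.mult

end Cfsg.Agent.S2091
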