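import Cfsg.Statements.S2136
import Cfsg.Agent.Lib.H33.Oct9

set_option autoImplicit false
open Cfsg

namespace Cfsg.Agent.S2136

open Finset H9.Leech H9.ModTwo H9.LatticeIso H9.LeechGood H9.Trans H9.Cross H9.CoOrder H9.Co23
open H8.GolayCode H8.GolayBasic H8.GolayCount MulAction H32.OctadStab H32.Octad H32.M24Kit H33.SympRep H33.Oct

section
variable {O : Finset GolayPt} (e : Fin 8 ≃ {q // q ∈ O}) (hO : O ∈ octads) 

theorem vR_eq (h0 : (e 0 : GolayPt) = none) (h1 : (e 1 : GolayPt) = some 0) : (vR e hO).1 = Spor.leechU := by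
  apply Subtype.ext
  funext q
  show vO e (yp 0 1) q = Spor.vecU q
  unfold Spor.vecU
  by_cases hq : q ∈ O
  · obtain ⟨k, hk⟩ : ∃ k, q = (e k : GolayPt) := ⟨e.symm ⟨q, hq⟩, by rw [e.apply_symm_apply]⟩
    subst hk
    rw [vO_apply]
    have e0 : ((e k : GolayPt) = none) ↔ (k = 0) := ⟨fun h => e_inj e (h.trans h0.symm), fun h => by rw [h, h0]⟩
    have e1 : ((e k : GolayPt) = some 0) ↔ (k = 1) := ⟨fun h => e_inj e (h.trans h1.symm), fun h => by rw [h, h1]⟩
    simp only [e0, e1]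
    exact (by decide : ∀ k : Fin 8, 2 * yp 0 1 k = if k = 0 ∨ k = 1 then 4 else 0) k
  · rw [vO_off e _ hq, if_neg]
    rintro (h | h)
    · apply hq; rw [h, ← h0]; exact (e 0).2
    · apply hq; rw [h, ← h1]; exact (e 1).2

theorem card_ge : 743178240 ≤ Nat.card (stabilizer (CC hO) (vR e hO).1) := by
  have h1 := card_orb (H := CC hO) (vR e hO).1
  rw [card_CC hO] at h1
  have h2 : (orbit (CC hO) (vR e hO).1).ncard ≤ 240 := by
    rw [← H33.OctCnt.W8, ← ncard_MO e hO 8]
    apply Set.ncard_le_ncard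
    · rintro _ ⟨g, rfl⟩
      have hx : (fO hO (CC hO).subtype (fun g => g.2) g (vR e hO)).1 = g • (vR e hO).1 := rfl
      refine ⟨?_, (fO hO (CC hO).subtype (fun g => g.2) g (vR e hO)).2⟩
      have h3 : form (g.1 • (vR e hO).1) (g.1 • (vR e hO).1) = form (vR e hO).1 (vR e hO).1 := co0_form _ _ _
      have h4 := eight_form_self (g.1 • (vR e hO).1)
      have h5 := two_BO hO (vR e hO) (vR e hO)
      have h6 : BO hO (vR e hO) (vR e hO) = 2 := BO_yp e hO (by decide)
      show sqNorm ((g.1 • (vR e hO).1 : leechLattice) : GolayPt → ℤ) = 4 * 8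
      omega
    · apply Set.finite_of_ncard_ne_zero
      rw [ncard_MO e hO 8, H33.OctCnt.W8]; norm_num
  by_contra hcon
  push Not at hcon
  have : (orbit (CC hO) (vR e hO).1).ncard * Nat.card (stabilizer (CC hO) (vR e hO).1) ≤ 240 * 743178239 :=
    Nat.mul_le_mul h2 (by omega)
  omega
end

theorem main {G : Type*} [Group G] [Finite G] {O : Finset GolayPt} (e : Fin 8 ≃ {q // q ∈ O}) (hO : O ∈ octads)
    (φ : G →* Co0) (hinj : Function.Injective φ)
    (hr : ∀ g : Co0, g ∈ φ.range ↔ g ∈ CC hO ∧ g • (vR e hO).1 = (vR e hO).1) :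
    Cfsg.IsExtraspecial 2 (Cfsg.pCore 2 G) ∧ Nat.card (Cfsg.pCore 2 G) = 2 ^ 9 ∧
      Nonempty (G ⧸ Cfsg.pCore 2 G ≃* Matrix.symplecticGroup (Fin 3) (ZMod 2)) := by
  have : Fact (Nat.Prime 2) := ⟨Nat.prime_two⟩
  have hφ : ∀ g, φ g ∈ CC hO := fun g => ((hr _).1 ⟨g, rfl⟩).1
  have hv : ∀ g, φ g • (vR e hO).1 = (vR e hO).1 := fun g => ((hr _).1 ⟨g, rfl⟩).2
  have hD := datS e hO φ hφ hv
  have hKr : KO O ≤ φ.range := fun g hg => (hr g).2 ⟨KO_le_CC hO hg, KO_fix hO hg _⟩
  have hker : hD.rho.ker = (KO O).comap φ := by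
    apply le_antisymm
    · intro g hg
      exact ker_KO e hO φ hφ hv hg
    · intro g hg
      rw [MonoidHom.mem_ker]
      apply Subtype.ext
      show Dat.M (fO hO φ hφ) (BO hO) (XS e hO) g = 1
      rw [← hD.M_one]
      funext a b
      have h1 : fO hO φ hφ g (XS e hO b) = fO hO φ hφ 1 (XS e hO b) := by
        rw [hD.one]
        apply Subtype.ext
        rw [fO_coe]
        exact KO_fix hO hg _
      rw [Dat.M, Dat.M, h1]
  have hmap : ((KO O).comap φ).map φ = KO O := by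
    rw [Subgroup.map_comap_eq, inf_eq_right.2 hKr]
  let eK : (KO O).comap φ ≃* KO O :=
    (((KO O).comap φ).equivMapOfInjective φ hinj).trans (MulEquiv.subgroupCongr hmap)
  have hcK : Nat.card ((KO O).comap φ) = 512 := by
    rw [Nat.card_congr eK.toEquiv, card_KO hO]
  have hcG : 743178240 ≤ Nat.card G := by
    refine le_trans (card_ge e hO) ?_
    have h1 : ∀ g : stabilizer (CC hO) (vR e hO).1, ∃ x : G, φ x = g.1.1 := by
      intro g
      exact (hr _).2 ⟨g.1.2, g.2⟩
    choose f hf using h1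
    refine Nat.card_le_card_of_injective f (fun a b hab => ?_)
    apply Subtype.ext; apply Subtype.ext
    rw [← hf a, ← hf b, hab]
  have hcr : Nat.card hD.rho.range = 1451520 := by
    have h1 : Nat.card G = Nat.card hD.rho.range * 512 := by
      rw [← Subgroup.card_mul_index hD.rho.ker, hker, hcK, ← hker, Subgroup.index_ker, mul_comm]
    have h2 : Nat.card hD.rho.range ≤ 1451520 := by
      rw [← card_Sp6]
      exact Nat.card_le_card_of_injective _ Subtype.val_injective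
    omega
  have hsurj : Function.Surjective hD.rho := by
    rw [← MonoidHom.range_eq_top]
    apply Subgroup.eq_top_of_card_eq
    rw [hcr, card_Sp6]
  have hkp : IsPGroup 2 hD.rho.ker := by
    rw [hker]
    exact IsPGroup.of_card (n := 9) (by rw [hcK]; norm_num)
  have hcore : pCore 2 G = hD.rho.ker := core_eq_ker _ hsurj hkp simple_Sp6 not_two_Sp6
  have hcore' : pCore 2 G = (KO O).comap φ := by rw [hcore, hker]
  have hfin : Finite (KO O) := Nat.finite_of_card_ne_zero (by rw [card_KO hO]; norm_num)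
  refine ⟨?_, ?_, ⟨(QuotientGroup.quotientMulEquivOfEq hcore).trans
    (QuotientGroup.quotientKerEquivOfSurjective _ hsurj)⟩⟩
  · rw [hcore']
    exact H56.Heis.isExtraspecial_congr eK.symm (KO_extra hO)
  · rw [hcore', hcK]; norm_num

/-- The Conway group Co₂ (the stabiliser of a minimal vector of the rank-24 lattice) has an involution whose centraliser C has largest normal 2-subgroup extraspecial of order 2^9 with quotient C / O₂(C) isomorphic to the symplectic group Sp(6, 2) (shape 2^{1+8}Sp(6, 2)). -/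
theorem result : ∃ t : ↥Cfsg.Spor.Co2, orderOf t = 2 ∧ Cfsg.IsExtraspecial 2 (Cfsg.pCore 2 ↥(Subgroup.centralizer ({t} : Set ↥Cfsg.Spor.Co2))) ∧ Nat.card (Cfsg.pCore 2 ↥(Subgroup.centralizer ({t} : Set ↥Cfsg.Spor.Co2))) = 2 ^ 9 ∧ Nonempty (↥(Subgroup.centralizer ({t} : Set ↥Cfsg.Spor.Co2)) ⧸ Cfsg.pCore 2 ↥(Subgroup.centralizer ({t} : Set ↥Cfsg.Spor.Co2)) ≃* Matrix.symplecticGroup (Fin 3) (ZMod 2)) := by
  obtain ⟨O, hO, e, h0, h1⟩ := exists_O
  have hvU := vR_eq e hO h0 h1
  have hz : zO hO • (vR e hO).1 = (vR e hO).1 := KO_fix hO (zO_mem hO) _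
  let t : ↥Cfsg.Spor.Co2 := ⟨(zO hO).1, ⟨(zO hO).2, by
    show zO hO • Cfsg.Spor.leechU = Cfsg.Spor.leechU
    rw [← hvU]; exact hz⟩⟩
  have ht1 : t ≠ 1 := by
    intro h
    apply zO_ne hO
    apply Subtype.ext
    exact congrArg (fun y : ↥Cfsg.Spor.Co2 => y.1) h
  have ht2 : t ^ 2 = 1 := by
    rw [pow_two]
    apply Subtype.ext
    exact congrArg (fun y : Co0 => y.1) (zO_sq hO)
  refine ⟨t, orderOf_eq_prime ht2 ht1, ?_⟩
  let φ : ↥(Subgroup.centralizer ({t} : Set ↥Cfsg.Spor.Co2)) →* Co0 :=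
    { toFun := fun g => ⟨g.1.1, g.1.2.1⟩
      map_one' := rfl
      map_mul' := fun _ _ => rfl }
  have hinj : Function.Injective φ := by
    intro a b hab
    apply Subtype.ext; apply Subtype.ext
    exact congrArg (fun y : Co0 => y.1) hab
  have : Finite Co0 := finite_co0
  have : Finite ↥(Subgroup.centralizer ({t} : Set ↥Cfsg.Spor.Co2)) := Finite.of_injective φ hinj
  refine main e hO φ hinj ?_
  intro g
  rw [mem_CC_iff]
  constructor
  · rintro ⟨x, rfl⟩
    refine ⟨?_, ?_⟩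
    · have hx := Subgroup.mem_centralizer_singleton_iff.1 x.2
      have h2 := congrArg (fun y : ↥Cfsg.Spor.Co2 => y.1) hx
      apply Subtype.ext
      exact h2.symm
    · rw [hvU]
      exact x.1.2.2
  · rintro ⟨h2, h3⟩
    refine ⟨⟨⟨g.1, ⟨g.2, by
      show g • Cfsg.Spor.leechU = Cfsg.Spor.leechU
      rw [← hvU]; exact h3⟩⟩, ?_⟩, rfl⟩
    rw [Subgroup.mem_centralizer_singleton_iff]
    apply Subtype.ext
    exact (congrArg (fun y : Co0 => y.1) h2).symm

end Cfsg.Agent.S2136
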