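import Cfsg.Statements.S2140
import Cfsg.Agent.Lib.H41.SLMin

set_option autoImplicit false
open Cfsg

namespace Cfsg.Agent.S2140

/-- Minimal index of a proper subgroup of the linear groups: for n ≥ 3 and a field F with q elements, (n, q) ≠ (4, 2), every proper subgroup of PSL_n(F) has index at least (q^n − 1)/(q − 1), and some subgroup has exactly that index (the stabiliser of a point of the projective space). -/
theorem result {F : Type*} [Field F] [Fintype F] {q : ℕ} (hF : Fintype.card F = q) (n : ℕ) (hn : 3 ≤ n) (hexc : ¬ (n = 4 ∧ q = 2)) : (∀ H : Subgroup (Matrix.ProjectiveSpecialLinearGroup (Fin n) F), H ≠ ⊤ → (q ^ n - 1) / (q - 1) ≤ H.index) ∧ (∃ H : Subgroup (Matrix.ProjectiveSpecialLinearGroup (Fin n) F), H.index = (q ^ n - 1) / (q - 1)) := by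
  classical
  have hFc : Nat.card F = q := by rw [Nat.card_eq_fintype_card, hF]
  have hfr : Module.finrank F (Fin n → F) = n := by simp
  have hcV : Nat.card (Fin n → F) = q ^ n := by
    rw [Nat.card_eq_fintype_card, Fintype.card_fun, hF, Fintype.card_fin]
  have hP : Nat.card (Projectivization F (Fin n → F)) = (q ^ n - 1) / (q - 1) := by
    rw [Projectivization.card'', hcV, hFc]
  have hne : Nonempty (Fin n) := ⟨⟨0, by omega⟩⟩
  refine ⟨?_, ?_⟩
  · intro H hH
    let f : _root_.SpecialLinearGroup F (Fin n → F) →* Matrix.ProjectiveSpecialLinearGroup (Fin n) F :=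
      (QuotientGroup.mk' _).comp (Matrix.SpecialLinearGroup.toLin'_equiv (n := Fin n) (R := F)).symm.toMonoidHom
    have hf : Function.Surjective f :=
      (QuotientGroup.mk'_surjective _).comp (Matrix.SpecialLinearGroup.toLin'_equiv (n := Fin n) (R := F)).symm.surjective
    have h1 : (H.comap f).index = H.index := Subgroup.index_comap_of_surjective H hf
    rw [← h1, ← hP]
    apply H41.SLMin.min_index (F := F) (V := Fin n → F)
    · rw [hfr]; exact hn
    · rw [hfr, hFc]; exact hexc
    · intro h2
      apply hH
      rw [eq_top_iff]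
      intro x _
      obtain ⟨y, rfl⟩ := hf x
      have : y ∈ H.comap f := by rw [h2]; trivial
      exact this
  · have hpt : Nonempty (Projectivization F (Fin n → F)) := by
      have : Nontrivial (Fin n → F) := inferInstance
      infer_instance
    obtain ⟨p⟩ := hpt
    refine ⟨MulAction.stabilizer (Matrix.ProjectiveSpecialLinearGroup (Fin n) F) p, ?_⟩
    rw [← hP]
    exact MulAction.index_stabilizer_of_transitive _ _

end Cfsg.Agent.S2140
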