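import Cfsg.Statements.S2142
import Cfsg.Agent.Lib.H41.SpTwoForms
import Cfsg.Agent.Lib.H41.SpMatEquiv
import Cfsg.Agent.Lib.H6.SympPerfect

set_option autoImplicit false
open Cfsg

namespace Cfsg.Agent.S2142

/-- Minimal index of a proper subgroup of the symplectic groups over the field with 2 elements: for m ≥ 3, every proper subgroup of Sp_2m(2) has index at least 2^(m−1)(2^m − 1), and that index is attained. -/
theorem result {F : Type*} [Field F] [Fintype F] (hF : Fintype.card F = 2) (m : ℕ) (hm : 3 ≤ m) : (∀ H : Subgroup (Cfsg.PSp m F), H ≠ ⊤ → 2 ^ (m - 1) * (2 ^ m - 1) ≤ H.index) ∧ (∃ H : Subgroup (Cfsg.PSp m F), H.index = 2 ^ (m - 1) * (2 ^ m - 1)) := by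
  have hF' : Nat.card F = 2 := by rw [Nat.card_eq_fintype_card, hF]
  have hB : H41.SpA.Good (H16.Symp.sympBilin m F) := H41.SpMatEquiv.good m F
  have hfr : Module.finrank F (Fin m ⊕ Fin m → F) = 2 * m := by simp; ring
  refine ⟨?_, ?_⟩
  · intro H hH
    let f : H41.SpA.Sp (H16.Symp.sympBilin m F) →* Cfsg.PSp m F :=
      (QuotientGroup.mk' _).comp (H41.SpMatEquiv.equiv m F).symm.toMonoidHom
    have hf : Function.Surjective f :=
      (QuotientGroup.mk'_surjective _).comp (H41.SpMatEquiv.equiv m F).symm.surjective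
    have h1 : (H.comap f).index = H.index := Subgroup.index_comap_of_surjective H hf
    rw [← h1]
    apply H41.SpTwoMin.min_index hB hF' hm hfr
    intro h2
    apply hH
    rw [eq_top_iff]
    intro x _
    obtain ⟨y, rfl⟩ := hf x
    have : y ∈ H.comap f := by rw [h2]; trivial
    exact this
  · obtain ⟨K, hK⟩ := H41.SpTwoForms.exists_subgroup hB hF' (m := m) (by omega) hfr
    let e := (H41.SpMatEquiv.equiv m F).toMonoidHom
    have he : Function.Surjective e := (H41.SpMatEquiv.equiv m F).surjective
    refine ⟨(K.comap e).map (QuotientGroup.mk' _), ?_⟩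
    rw [Subgroup.index_map_eq _ (QuotientGroup.mk'_surjective _), Subgroup.index_comap_of_surjective K he, hK]
    rw [QuotientGroup.ker_mk']
    intro g hg
    have : Nonempty (Fin m) := ⟨⟨0, by omega⟩⟩
    obtain ⟨c, hc, hg'⟩ := H6.SympPerfect.mem_center_iff.mp hg
    have hc1 : c = 1 := by
      rcases H41.SpTwo.cases2 hF' c with h | h
      · rw [h] at hc; simp at hc
      · exact h
    have hg1 : g = 1 := by
      apply Subtype.ext
      apply H16.Symp.mulVec_ext
      intro x
      rw [hg' x, hc1, one_smul]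
      exact (Matrix.one_mulVec x).symm
    rw [hg1]
    exact one_mem _

end Cfsg.Agent.S2142
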