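import Cfsg.Statements.S2151
import Cfsg.Agent.Lib.H41.UnP

set_option autoImplicit false
open Cfsg

namespace Cfsg.Agent.S2151

/-- Minimal index of a proper subgroup of the unitary groups of odd dimension n ≥ 5: for a field F with q² elements, every proper subgroup of PSU_n(q) has index at least (q^n + 1)(q^(n−1) − 1)/(q² − 1), and that index is attained. -/
theorem result {F : Type*} [Field F] [Fintype F] (q : ℕ) (hF : Fintype.card F = q ^ 2) (hq : 2 ≤ q) (n : ℕ) (hn : 5 ≤ n) (hodd : Odd n) : (∀ H : Subgroup (Cfsg.PSU n F q), H ≠ ⊤ → (q ^ n + 1) * (q ^ (n - 1) - 1) / (q ^ 2 - 1) ≤ H.index) ∧ (∃ H : Subgroup (Cfsg.PSU n F q), H.index = (q ^ n + 1) * (q ^ (n - 1) - 1) / (q ^ 2 - 1)) := by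
  have hq1 : 0 < q ^ 2 - 1 := Nat.sub_pos_of_lt (Nat.one_lt_pow (by norm_num) (by omega))
  have h1 := H7.HermCount.M_iso hF n
  rw [if_neg (Nat.not_even_iff_odd.2 hodd)] at h1
  have hdvd : (q ^ 2 - 1) ∣ (q ^ n + 1) * (q ^ (n - 1) - 1) := by
    apply Dvd.dvd.mul_left
    obtain ⟨m, hm⟩ := hodd
    have e1 : n - 1 = 2 * m := by omega
    rw [e1, pow_mul]
    have h2 := Nat.sub_dvd_pow_sub_pow (q ^ 2) 1 m
    rwa [one_pow] at h2
  have h2 := Nat.mul_div_cancel' hdvd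
  exact H41.UnP.main_iso hF hn (Or.inl hodd) (by rw [h2, h1])

end Cfsg.Agent.S2151
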