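import Cfsg.Statements.S2153
import Cfsg.Agent.Lib.H41.UnP

set_option autoImplicit false
open Cfsg

namespace Cfsg.Agent.S2153

/-- Minimal index of a proper subgroup of the unitary groups PSU_n(2) with n divisible by 6, realised over the field with 4 elements: every proper subgroup has index at least 2^(n−1)(2^n − 1)/3, and that index is attained. -/
theorem result {F : Type*} [Field F] [Fintype F] (hF : Fintype.card F = 4) (n : ℕ) (hn : 6 ∣ n) (hpos : 6 ≤ n) : (∀ H : Subgroup (Cfsg.PSU n F 2), H ≠ ⊤ → 2 ^ (n - 1) * (2 ^ n - 1) / 3 ≤ H.index) ∧ (∃ H : Subgroup (Cfsg.PSU n F 2), H.index = 2 ^ (n - 1) * (2 ^ n - 1) / 3) := by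
  have hdvd : 3 ∣ 2 ^ (n - 1) * (2 ^ n - 1) := by
    apply Dvd.dvd.mul_left
    obtain ⟨m, hm⟩ := hn
    have e1 : n = 2 * (3 * m) := by omega
    rw [e1, pow_mul]
    have h2 := Nat.sub_dvd_pow_sub_pow (2 ^ 2) 1 (3 * m)
    rwa [one_pow] at h2
  have h2 := Nat.mul_div_cancel' hdvd
  exact H41.UnP.main_ani (by rw [hF]; norm_num) hpos (even_iff_two_dvd.2 (Dvd.dvd.trans (by norm_num) hn)) h2

end Cfsg.Agent.S2153
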