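import Cfsg.Statements.S2298
import Cfsg.Agent.Lib.H43.GLIrr

set_option autoImplicit false
open Cfsg

namespace Cfsg.Agent.S2298

/-- Over a finite field F with q elements, every irreducible complex character of GL₂ has degree 1, q − 1, q or q + 1; and when q ≥ 3 (so that these four numbers are distinct) there are exactly q − 1 irreducible characters of degree 1, exactly q − 1 of degree q, exactly (q − 1)(q − 2)/2 of degree q + 1 and exactly q(q − 1)/2 of degree q − 1. -/
theorem result {F : Type*} [Field F] [Fintype F] :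
    (∀ χ : Matrix.GeneralLinearGroup (Fin 2) F → ℂ, Cfsg.IsIrrCharacter (Matrix.GeneralLinearGroup (Fin 2) F) χ →
      χ 1 = 1 ∨ χ 1 = (Fintype.card F : ℂ) - 1 ∨ χ 1 = (Fintype.card F : ℂ) ∨ χ 1 = (Fintype.card F : ℂ) + 1) ∧
    (3 ≤ Fintype.card F →
      Nat.card {χ : Cfsg.IrrCharacter (Matrix.GeneralLinearGroup (Fin 2) F) // (χ : Matrix.GeneralLinearGroup (Fin 2) F → ℂ) 1 = 1} = Fintype.card F - 1 ∧
      Nat.card {χ : Cfsg.IrrCharacter (Matrix.GeneralLinearGroup (Fin 2) F) // (χ : Matrix.GeneralLinearGroup (Fin 2) F → ℂ) 1 = (Fintype.card F : ℂ)} = Fintype.card F - 1 ∧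
      Nat.card {χ : Cfsg.IrrCharacter (Matrix.GeneralLinearGroup (Fin 2) F) // (χ : Matrix.GeneralLinearGroup (Fin 2) F → ℂ) 1 = (Fintype.card F : ℂ) + 1} = (Fintype.card F - 1) * (Fintype.card F - 2) / 2 ∧
      Nat.card {χ : Cfsg.IrrCharacter (Matrix.GeneralLinearGroup (Fin 2) F) // (χ : Matrix.GeneralLinearGroup (Fin 2) F → ℂ) 1 = (Fintype.card F : ℂ) - 1} = Fintype.card F * (Fintype.card F - 1) / 2) := by
  classical
  constructor
  · intro χ hχ
    rcases H43.GLIrr.cases hχ with ⟨α, rfl⟩ | ⟨α, rfl⟩ | ⟨α, β, hab, rfl⟩ | ⟨c, rfl⟩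
    · exact Or.inl (H43.GLIrr.dl_one α)
    · exact Or.inr (Or.inr (Or.inl (H43.GLIrr.StT_one α)))
    · exact Or.inr (Or.inr (Or.inr (H43.GLIrr.ind_one α β)))
    · exact Or.inr (Or.inl (H43.GLIrr.cusp_degree c).1)
  · intro hq
    obtain ⟨n1, n2, n3⟩ := H43.GLIrr.q_ne (F := F)
    have n4 : (Fintype.card F : ℂ) - 1 ≠ 1 := by
      intro h
      have : (Fintype.card F : ℂ) = 2 := by linear_combination h
      have : Fintype.card F = 2 := by exact_mod_cast this
      omega
    have n5 : (Fintype.card F : ℂ) - 1 ≠ (Fintype.card F : ℂ) := by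
      intro h
      have : (1 : ℂ) = 0 := by linear_combination -h
      norm_num at this
    have n6 : (Fintype.card F : ℂ) - 1 ≠ (Fintype.card F : ℂ) + 1 := by
      intro h
      have : (2 : ℂ) = 0 := by linear_combination -h
      norm_num at this
    refine ⟨?_, ?_, ?_, ?_⟩
    · rw [H43.GLIrr.card_deg, if_pos rfl, if_neg n1.symm, if_neg n2.symm, if_neg n4, H43.GLIrr.card_mulChar]
      simp
    · rw [H43.GLIrr.card_deg, if_neg n1, if_pos rfl, if_neg n3.symm, if_neg n5, H43.GLIrr.card_mulChar]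
      simp
    · rw [H43.GLIrr.card_deg, if_neg n2, if_neg n3, if_pos rfl, if_neg n6, Nat.choose_two_right]
      simp only [zero_add, add_zero]
      rw [Nat.sub_sub]
    · rw [H43.GLIrr.card_deg, if_neg n4.symm, if_neg n5.symm, if_neg n6.symm, if_pos rfl]
      simp only [zero_add]
      have h := H43.GLIrr.card_CuspIrr (F := F)
      have h2 : 2 * Nat.card (H43.GLIrr.CuspIrr F) = Fintype.card F * (Fintype.card F - 1) := by
        have h3 : ((Fintype.card F - 1 : ℕ) : ℤ) = (Fintype.card F : ℤ) - 1 := by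
          rw [Nat.cast_sub (by omega)]; simp
        rw [← h3] at h
        exact_mod_cast h
      rw [← h2]
      simp

end Cfsg.Agent.S2298
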