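import Cfsg.Statements.S2299
import Cfsg.Agent.Lib.H43.SLOdd

set_option autoImplicit false
open Cfsg

namespace Cfsg.Agent.S2299

/-- Over a finite field F with q elements, q odd, every irreducible complex character of SL₂ has degree 1, q, q + 1, q − 1, (q + 1)/2 or (q − 1)/2; and when q ≥ 5 (so that these six numbers are distinct) there are exactly one irreducible character of degree 1, one of degree q, (q − 3)/2 of degree q + 1, (q − 1)/2 of degree q − 1, two of degree (q + 1)/2 and two of degree (q − 1)/2. -/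
theorem result {F : Type*} [Field F] [Fintype F] (hodd : Odd (Fintype.card F)) :
    (∀ χ : Matrix.SpecialLinearGroup (Fin 2) F → ℂ, Cfsg.IsIrrCharacter (Matrix.SpecialLinearGroup (Fin 2) F) χ →
      χ 1 = 1 ∨ χ 1 = (Fintype.card F : ℂ) ∨ χ 1 = (Fintype.card F : ℂ) + 1 ∨ χ 1 = (Fintype.card F : ℂ) - 1 ∨
        χ 1 = (((Fintype.card F + 1) / 2 : ℕ) : ℂ) ∨ χ 1 = (((Fintype.card F - 1) / 2 : ℕ) : ℂ)) ∧
    (5 ≤ Fintype.card F →
      Nat.card {χ : Cfsg.IrrCharacter (Matrix.SpecialLinearGroup (Fin 2) F) // (χ : Matrix.SpecialLinearGroup (Fin 2) F → ℂ) 1 = 1} = 1 ∧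
      Nat.card {χ : Cfsg.IrrCharacter (Matrix.SpecialLinearGroup (Fin 2) F) // (χ : Matrix.SpecialLinearGroup (Fin 2) F → ℂ) 1 = (Fintype.card F : ℂ)} = 1 ∧
      Nat.card {χ : Cfsg.IrrCharacter (Matrix.SpecialLinearGroup (Fin 2) F) // (χ : Matrix.SpecialLinearGroup (Fin 2) F → ℂ) 1 = (Fintype.card F : ℂ) + 1} = (Fintype.card F - 3) / 2 ∧
      Nat.card {χ : Cfsg.IrrCharacter (Matrix.SpecialLinearGroup (Fin 2) F) // (χ : Matrix.SpecialLinearGroup (Fin 2) F → ℂ) 1 = (Fintype.card F : ℂ) - 1} = (Fintype.card F - 1) / 2 ∧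
      Nat.card {χ : Cfsg.IrrCharacter (Matrix.SpecialLinearGroup (Fin 2) F) // (χ : Matrix.SpecialLinearGroup (Fin 2) F → ℂ) 1 = (((Fintype.card F + 1) / 2 : ℕ) : ℂ)} = 2 ∧
      Nat.card {χ : Cfsg.IrrCharacter (Matrix.SpecialLinearGroup (Fin 2) F) // (χ : Matrix.SpecialLinearGroup (Fin 2) F → ℂ) 1 = (((Fintype.card F - 1) / 2 : ℕ) : ℂ)} = 2) := by
  classical
  have hq1 : ((Fintype.card F - 1 : ℕ) : ℂ) = (Fintype.card F : ℂ) - 1 := by
    rw [Nat.cast_sub Fintype.card_pos]; simp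
  have hq2 : ((Fintype.card F + 1 : ℕ) : ℂ) = (Fintype.card F : ℂ) + 1 := by push_cast; ring
  have n1 : (1 : ℂ) = ((1 : ℕ) : ℂ) := by simp
  obtain ⟨m, hm⟩ := id hodd
  have hm' : (Fintype.card F : ℂ) = 2 * m + 1 := by exact_mod_cast hm
  refine ⟨?_, ?_⟩
  · intro χ hχ
    rcases H43.SLStruct.cases' hχ with h | h | ⟨γ, hγ, h⟩ | ⟨c, h⟩ | ⟨γ, φ, -, -, -, -, h, x, hx⟩ | ⟨c, φ, -, -, h, x, hx⟩
    · left; rw [h]
    · right; left; rw [h, H43.SLIrr.StS_one]
    · right; right; left; rw [h, H43.SLIrr.indS_one]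
    · right; right; right; left; rw [h, H43.SLStruct.cusp_one]
    · right; right; right; right; left
      have h2 := H43.SLStruct.half_degree h hx
      rw [H43.SLIrr.indS_one] at h2
      have : (Fintype.card F + 1) / 2 = m + 1 := by omega
      rw [this]
      push_cast
      linear_combination h2 / 2 + hm' / 2
    · right; right; right; right; right
      have h2 := H43.SLStruct.half_degree h hx
      rw [H43.SLStruct.cusp_one] at h2
      have : (Fintype.card F - 1) / 2 = m := by omega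
      rw [this]
      linear_combination h2 / 2 + hm' / 2
  · intro hq
    refine ⟨?_, ?_, ?_, ?_, ?_, ?_⟩
    · have h := H43.SLOdd.card_deg_odd hodd 1
      rw [← n1] at h
      rw [h]
      split_ifs <;> omega
    · rw [H43.SLOdd.card_deg_odd hodd]
      split_ifs <;> omega
    · rw [← hq2, H43.SLOdd.card_deg_odd hodd]
      split_ifs <;> omega
    · rw [← hq1, H43.SLOdd.card_deg_odd hodd]
      split_ifs <;> omega
    · rw [H43.SLOdd.card_deg_odd hodd]
      split_ifs <;> omega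
    · rw [H43.SLOdd.card_deg_odd hodd]
      split_ifs <;> omega

end Cfsg.Agent.S2299
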