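import Cfsg.Statements.S2300
import Cfsg.Agent.Lib.H43.SLStruct

set_option autoImplicit false
open Cfsg

namespace Cfsg.Agent.S2300

/-- Over a finite field F with q elements, q even, every irreducible complex character of SL₂ has degree 1, q − 1, q or q + 1; and when q ≥ 4 (so that these four numbers are distinct) there are exactly one irreducible character of degree 1, one of degree q, (q − 2)/2 of degree q + 1 and q/2 of degree q − 1. -/
theorem result {F : Type*} [Field F] [Fintype F] [CharP F 2] :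
    (∀ χ : Matrix.SpecialLinearGroup (Fin 2) F → ℂ, Cfsg.IsIrrCharacter (Matrix.SpecialLinearGroup (Fin 2) F) χ →
      χ 1 = 1 ∨ χ 1 = (Fintype.card F : ℂ) - 1 ∨ χ 1 = (Fintype.card F : ℂ) ∨ χ 1 = (Fintype.card F : ℂ) + 1) ∧
    (4 ≤ Fintype.card F →
      Nat.card {χ : Cfsg.IrrCharacter (Matrix.SpecialLinearGroup (Fin 2) F) // (χ : Matrix.SpecialLinearGroup (Fin 2) F → ℂ) 1 = 1} = 1 ∧
      Nat.card {χ : Cfsg.IrrCharacter (Matrix.SpecialLinearGroup (Fin 2) F) // (χ : Matrix.SpecialLinearGroup (Fin 2) F → ℂ) 1 = (Fintype.card F : ℂ)} = 1 ∧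
      Nat.card {χ : Cfsg.IrrCharacter (Matrix.SpecialLinearGroup (Fin 2) F) // (χ : Matrix.SpecialLinearGroup (Fin 2) F → ℂ) 1 = (Fintype.card F : ℂ) + 1} = (Fintype.card F - 2) / 2 ∧
      Nat.card {χ : Cfsg.IrrCharacter (Matrix.SpecialLinearGroup (Fin 2) F) // (χ : Matrix.SpecialLinearGroup (Fin 2) F → ℂ) 1 = (Fintype.card F : ℂ) - 1} = Fintype.card F / 2) := by
  classical
  have h2 : (2 : F) = 0 := by exact_mod_cast CharP.cast_eq_zero F 2
  refine ⟨?_, ?_⟩
  · intro χ hχ
    rcases H43.SLCount.cases_even h2 hχ with h | h | ⟨γ, hγ, h⟩ | ⟨c, h⟩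
    · left; rw [h]
    · right; right; left; rw [h, H43.SLIrr.StS_one]
    · right; right; right; rw [h, H43.SLIrr.indS_one]
    · right; left; rw [h, H43.SLStruct.cusp_one]
  · intro hq
    obtain ⟨hr, hp⟩ := H43.SLCount.card_rest_even (F := F)
    have hev := H43.SLCount.even_card h2
    have e : ∀ a b : ℕ, a ≠ b → ((a : ℂ) = (b : ℂ)) = False := fun a b h => by
      rw [eq_iff_iff, iff_false]; exact_mod_cast h
    have hq1 : ((Fintype.card F - 1 : ℕ) : ℂ) = (Fintype.card F : ℂ) - 1 := by
      rw [Nat.cast_sub (by omega)]; simp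
    have hq2 : ((Fintype.card F + 1 : ℕ) : ℂ) = (Fintype.card F : ℂ) + 1 := by push_cast; ring
    have n1 : (1 : ℂ) = ((1 : ℕ) : ℂ) := by simp
    obtain ⟨k, hk⟩ := hev
    refine ⟨?_, ?_, ?_, ?_⟩
    · rw [H43.SLCount.card_deg_even h2]
      rw [← hq1, ← hq2, n1]
      simp only [e (Fintype.card F) 1 (by omega), e (Fintype.card F + 1) 1 (by omega),
        e (Fintype.card F - 1) 1 (by omega), if_false, if_true]
    · rw [H43.SLCount.card_deg_even h2]
      rw [← hq1, ← hq2, n1]
      simp only [e 1 (Fintype.card F) (by omega), e (Fintype.card F + 1) (Fintype.card F) (by omega),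
        e (Fintype.card F - 1) (Fintype.card F) (by omega), if_false, if_true]
    · rw [H43.SLCount.card_deg_even h2]
      rw [← hq1, ← hq2, n1]
      simp only [e 1 (Fintype.card F + 1) (by omega), e (Fintype.card F) (Fintype.card F + 1) (by omega),
        e (Fintype.card F - 1) (Fintype.card F + 1) (by omega), if_false, if_true]
      omega
    · rw [H43.SLCount.card_deg_even h2]
      rw [← hq1, ← hq2, n1]
      simp only [e 1 (Fintype.card F - 1) (by omega), e (Fintype.card F) (Fintype.card F - 1) (by omega),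
        e (Fintype.card F + 1) (Fintype.card F - 1) (by omega), if_false, if_true]
      omega

end Cfsg.Agent.S2300
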