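import Cfsg.Statements.S2301
import Cfsg.Agent.Lib.H43.SL2Order

set_option autoImplicit false
open Cfsg

namespace Cfsg.Agent.S2301

open H43.GL2Basic H43.GL2Card H43.SL2Conj H43.SL2Order in
/-- Over a finite field with q elements of odd characteristic p, the elements of order p of SL₂ (the non-identity unipotent elements) fall into exactly two conjugacy classes, each of size (q² − 1)/2; two upper unitriangular matrices with non-zero off-diagonal entries b and b′ are conjugate exactly when bb′ is a square. -/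
theorem result {F : Type*} [Field F] [Fintype F] (p : ℕ) [Fact p.Prime] [CharP F p] (hp : p ≠ 2) :
    Nat.card {C : ConjClasses (Matrix.SpecialLinearGroup (Fin 2) F) // ∃ g : Matrix.SpecialLinearGroup (Fin 2) F, orderOf g = p ∧ ConjClasses.mk g = C} = 2 ∧
    (∀ g : Matrix.SpecialLinearGroup (Fin 2) F, orderOf g = p → Nat.card (ConjClasses.mk g).carrier = (Fintype.card F ^ 2 - 1) / 2) ∧
    ∀ g h : Matrix.SpecialLinearGroup (Fin 2) F, (g : Matrix (Fin 2) (Fin 2) F) 0 0 = 1 → (g : Matrix (Fin 2) (Fin 2) F) 1 1 = 1 → (g : Matrix (Fin 2) (Fin 2) F) 1 0 = 0 → (g : Matrix (Fin 2) (Fin 2) F) 0 1 ≠ 0 →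
      (h : Matrix (Fin 2) (Fin 2) F) 0 0 = 1 → (h : Matrix (Fin 2) (Fin 2) F) 1 1 = 1 → (h : Matrix (Fin 2) (Fin 2) F) 1 0 = 0 → (h : Matrix (Fin 2) (Fin 2) F) 0 1 ≠ 0 →
      (IsConj g h ↔ IsSquare ((g : Matrix (Fin 2) (Fin 2) F) 0 1 * (h : Matrix (Fin 2) (Fin 2) F) 0 1)) := by
  classical
  have hchar : ringChar F ≠ 2 := by
    rw [ringChar.eq F p]; exact hp
  have h2 : (2 : F) ≠ 0 := Ring.two_ne_zero hchar
  obtain ⟨n, hn⟩ := FiniteField.exists_nonsquare hchar
  have hn0 : n ≠ 0 := by rintro rfl; exact hn (IsSquare.zero)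
  have h11 : (1 : F) * 1 = 1 := by norm_num
  have hord : ∀ g : Matrix.SpecialLinearGroup (Fin 2) F, orderOf g = p →
      ¬ IsScal (g : Matrix (Fin 2) (Fin 2) F) ∧ (g : Matrix (Fin 2) (Fin 2) F).trace = 2 := by
    intro g hg
    obtain ⟨h1, h3⟩ := (sl_isScal_trace_iff g p).1 hg
    exact ⟨not_isScal_of_trace_two h2 g h3 h1, h3⟩
  have hoc : orderOf (cSL (2 : F)) = p := by
    rw [sl_isScal_trace_iff]
    refine ⟨?_, trace_cSL 2⟩
    intro h
    have := not_isScal_cSL (2 : F)
    rw [h] at this
    exact this (by simp [IsScal])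
  have hou : orderOf (uSL (1 : F) n h11) = p := by
    rw [sl_isScal_trace_iff]
    refine ⟨?_, by rw [trace_uSL]; norm_num⟩
    intro h
    have := not_isScal_uSL (1 : F) n h11 hn0
    rw [h] at this
    exact this (by simp [IsScal])
  refine ⟨?_, ?_, ?_⟩
  · let f : Bool → {C : ConjClasses (Matrix.SpecialLinearGroup (Fin 2) F) //
      ∃ g : Matrix.SpecialLinearGroup (Fin 2) F, orderOf g = p ∧ ConjClasses.mk g = C} := fun b =>
      match b with
      | true => ⟨ConjClasses.mk (cSL 2), cSL 2, hoc, rfl⟩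
      | false => ⟨ConjClasses.mk (uSL 1 n h11), uSL 1 n h11, hou, rfl⟩
    have hnc : ¬ IsConj (cSL (2 : F)) (uSL (1 : F) n h11) := by
      intro h1
      obtain ⟨x, y, hxy⟩ := Q_of_conj h1 1 0
      rw [Q_cSL, Q_uSL] at hxy
      apply hn
      have hy : y ≠ 0 := by rintro rfl; simp at hxy
      refine ⟨y⁻¹, ?_⟩
      field_simp
      linear_combination hxy
    have hf : Function.Bijective f := by
      constructor
      · rintro (_ | _) (_ | _) hbb
        · rfl
        · exact absurd (ConjClasses.mk_eq_mk_iff_isConj.1 (congrArg Subtype.val hbb)).symm hnc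
        · exact absurd (ConjClasses.mk_eq_mk_iff_isConj.1 (congrArg Subtype.val hbb)) hnc
        · rfl
      · rintro ⟨_, g, hg, rfl⟩
        obtain ⟨h1, h3⟩ := hord g hg
        rcases conj_of_trace_two h2 g h1 1 n h11 hn (by rw [h3]; norm_num) with h | h
        · refine ⟨true, Subtype.ext ?_⟩
          rw [mul_one] at h
          exact (ConjClasses.mk_eq_mk_iff_isConj.2 h).symm
        · exact ⟨false, Subtype.ext (ConjClasses.mk_eq_mk_iff_isConj.2 h).symm⟩
    rw [← Nat.card_congr (Equiv.ofBijective f hf)]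
    simp
  · intro g hg
    obtain ⟨h1, h3⟩ := hord g hg
    have hc := class_card_mul g
    have hcent := H43.GL2Count.sl_card_centralizer_unip g 1 h1 (by rw [h3]; norm_num) (by norm_num)
    have htwo : Nat.card {x : F // x ^ 2 = 1} = 2 := by
      have e : Bool ≃ {x : F // x ^ 2 = 1} := Equiv.ofBijective (fun b => ⟨if b then 1 else -1, by
        cases b <;> simp⟩) ⟨by
          rintro (_ | _) (_ | _) hbb <;> simp at hbb ⊢
          · apply h2; linear_combination -hbb
          · apply h2; linear_combination hbb, by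
          rintro ⟨x, hx⟩
          have : (x - 1) * (x + 1) = 0 := by linear_combination hx
          rcases mul_eq_zero.1 this with h | h
          · refine ⟨true, Subtype.ext ?_⟩
            simp; linear_combination -h
          · refine ⟨false, Subtype.ext ?_⟩
            simp; linear_combination -h⟩
      rw [← Nat.card_congr e]
      simp
    rw [hcent, htwo, card_SL] at hc
    have h5 : Nat.card (ConjClasses.mk g).carrier * 2 = Fintype.card F ^ 2 - 1 := by
      apply Nat.eq_of_mul_eq_mul_left (Fintype.card_pos (α := F))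
      rw [← hc]; ring
    omega
  · intro g h g00 g11 g10 g01 h00 h11' h10 h01
    have tg : (g : Matrix (Fin 2) (Fin 2) F).trace = 2 := by rw [Matrix.trace_fin_two, g00, g11]; norm_num
    have th : (h : Matrix (Fin 2) (Fin 2) F).trace = 2 := by rw [Matrix.trace_fin_two, h00, h11']; norm_num
    have Qg : ∀ x y, Q (g : Matrix (Fin 2) (Fin 2) F) x y = - (g : Matrix (Fin 2) (Fin 2) F) 0 1 * y ^ 2 := by
      intro x y; simp [Q, g00, g11, g10]
    have Qh : ∀ x y, Q (h : Matrix (Fin 2) (Fin 2) F) x y = - (h : Matrix (Fin 2) (Fin 2) F) 0 1 * y ^ 2 := by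
      intro x y; simp [Q, h00, h11', h10]
    constructor
    · intro hc
      obtain ⟨x, y, hxy⟩ := Q_of_conj hc 0 1
      rw [Qg, Qh] at hxy
      refine ⟨(h : Matrix (Fin 2) (Fin 2) F) 0 1 * y, ?_⟩
      linear_combination ((h : Matrix (Fin 2) (Fin 2) F) 0 1) * hxy
    · rintro ⟨r, hr⟩
      refine conj_of_Q g h (by rw [tg, th]) (x := 0) (y := 1) (x' := 0)
        (y' := r / (h : Matrix (Fin 2) (Fin 2) F) 0 1) ?_ ?_
      · rw [Qg]; simpa using g01
      · rw [Qg, Qh]
        field_simp
        linear_combination -hr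

end Cfsg.Agent.S2301
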