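import Cfsg.Statements.S2302
import Cfsg.Agent.Lib.H43.SL2Order

set_option autoImplicit false
open Cfsg

namespace Cfsg.Agent.S2302

open H43.GL2Basic H43.GL2Card H43.SL2Conj H43.SL2Order in
/-- Over a finite field with q elements of characteristic 2, the involutions of SL₂ (the non-identity unipotent elements) form a single conjugacy class, of size q² − 1. -/
theorem result {F : Type*} [Field F] [Fintype F] [CharP F 2] (g h : Matrix.SpecialLinearGroup (Fin 2) F) (hg : orderOf g = 2) (hh : orderOf h = 2) :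
    IsConj g h ∧ Nat.card (ConjClasses.mk g).carrier = Fintype.card F ^ 2 - 1 := by
  classical
  have h2 : (2 : F) = 0 := by exact_mod_cast CharP.cast_eq_zero F 2
  have hns : ∀ g : Matrix.SpecialLinearGroup (Fin 2) F, g ≠ 1 → ¬ IsScal (g : Matrix (Fin 2) (Fin 2) F) := by
    intro g hg1 hs
    rcases eq_one_or_neg_one_of_isScal g hs with h | h
    · exact hg1 h
    · apply hg1
      rw [h]
      ext i j
      have h3 : (-1 : F) = 1 := by linear_combination -h2
      fin_cases i <;> fin_cases j <;> simp [h3]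
  obtain ⟨g1, gt⟩ := (sl_isScal_trace_iff g 2).1 hg
  obtain ⟨h1, ht⟩ := (sl_isScal_trace_iff h 2).1 hh
  have cg := conj_cSL_of_char_two h2 g (hns g g1)
  have ch := conj_cSL_of_char_two h2 h (hns h h1)
  rw [gt] at cg
  rw [ht] at ch
  refine ⟨cg.trans ch.symm, ?_⟩
  have hc := class_card_mul g
  have hcent := H43.GL2Count.sl_card_centralizer_unip g 1 (hns g g1) (by rw [gt]; norm_num) (by norm_num)
  have hone : Nat.card {x : F // x ^ 2 = 1} = 1 := by
    rw [Nat.card_eq_one_iff_unique]
    refine ⟨⟨?_⟩, ⟨⟨1, by simp⟩⟩⟩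
    rintro ⟨a, ha⟩ ⟨b, hb⟩
    apply Subtype.ext
    have key : ∀ a : F, a ^ 2 = 1 → a = 1 := by
      intro a ha
      have : (a - 1) ^ 2 = 0 := by linear_combination ha - (a - 1) * h2
      exact sub_eq_zero.1 (pow_eq_zero_iff two_ne_zero |>.1 this)
    exact (key a ha).trans (key b hb).symm
  rw [hcent, hone, one_mul, card_SL, mul_comm] at hc
  exact Nat.eq_of_mul_eq_mul_left Fintype.card_pos hc

end Cfsg.Agent.S2302
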