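import Cfsg.Statements.S2307
import Cfsg.Agent.Lib.H43.SLStruct

set_option autoImplicit false
open Cfsg

namespace Cfsg.Agent.S2307

/-- Over a finite field F with q elements, q odd, let α be the multiplicative character of F of order 2. The character of SL₂ induced from the linear character b ↦ α(b₁₁) of the upper triangular subgroup is the sum of two distinct irreducible characters, each of degree (q + 1)/2, which are conjugate under GL₂: some fixed element of GL₂ conjugates the one into the other. -/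
theorem result {F : Type*} [Field F] [Fintype F] [DecidableEq F] (hodd : Odd (Fintype.card F)) (α : MulChar F ℂ)
    (hα : α ^ 2 = 1) (hα1 : α ≠ 1) :
    ∃ χ₁ χ₂ : Matrix.SpecialLinearGroup (Fin 2) F → ℂ, Cfsg.IsIrrCharacter (Matrix.SpecialLinearGroup (Fin 2) F) χ₁ ∧ Cfsg.IsIrrCharacter (Matrix.SpecialLinearGroup (Fin 2) F) χ₂ ∧ χ₁ ≠ χ₂ ∧
      Cfsg.indFun ((Cfsg.upperTriangularGL 2 F).comap Matrix.SpecialLinearGroup.toGL) (fun b => α (((b : Matrix.SpecialLinearGroup (Fin 2) F) : Matrix (Fin 2) (Fin 2) F) 0 0)) = χ₁ + χ₂ ∧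
      χ₁ 1 = (((Fintype.card F + 1) / 2 : ℕ) : ℂ) ∧ χ₂ 1 = (((Fintype.card F + 1) / 2 : ℕ) : ℂ) ∧
      ∃ x : Matrix.GeneralLinearGroup (Fin 2) F, ∀ g h : Matrix.SpecialLinearGroup (Fin 2) F,
        Matrix.SpecialLinearGroup.toGL h = x * Matrix.SpecialLinearGroup.toGL g * x⁻¹ → χ₂ h = χ₁ g := by
  classical
  have hirr : Cfsg.IsIrrCharacter (Matrix.GeneralLinearGroup (Fin 2) F)
      (Cfsg.indFun (Cfsg.upperTriangularGL 2 F) (H43.Principal.th α 1)) := H43.Principal.isIrr_ind hα1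
  have hres : H43.SLIrr.res (Cfsg.indFun (Cfsg.upperTriangularGL 2 F) (H43.Principal.th α 1)) =
      Cfsg.indFun (H43.Lines.BSL F) (H43.Principal.thS α) := by
    rw [H43.SLIrr.res_ind, inv_one, mul_one]
  have hn : Cfsg.classInner (Cfsg.indFun (H43.Lines.BSL F) (H43.Principal.thS α))
      (Cfsg.indFun (H43.Lines.BSL F) (H43.Principal.thS α)) = 2 := by
    rw [H43.Principal.inner_indS, if_pos rfl, if_pos ((H43.Principal.eq_inv_iff α).2 hα)]
    norm_num
  have hf0 : Cfsg.indFun (H43.Lines.BSL F) (H43.Principal.thS α) ≠ 0 := by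
    intro h0
    rw [h0] at hn
    have : Cfsg.classInner (0 : Matrix.SpecialLinearGroup (Fin 2) F → ℂ) 0 = 0 := by simp [Cfsg.classInner]
    rw [this] at hn
    norm_num at hn
  obtain ⟨θ, hθ, hne⟩ := H18.CharQuot.exists_constituent (H43.Principal.isCharacter_indS α) hf0
  obtain ⟨φ, hφ, hne2, hs, x, hx⟩ := H43.SLIrr.split_structure hirr (by rw [hres]; exact hn) hθ (by rw [hres]; exact hne)
  rw [hres] at hs
  have hd := H43.SLStruct.half_degree hs hx
  rw [H43.SLIrr.indS_one] at hd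
  have hd1 : θ 1 = (((Fintype.card F + 1) / 2 : ℕ) : ℂ) := by
    obtain ⟨k, hk⟩ := hodd
    rw [hk] at hd ⊢
    have : (2 * k + 1 + 1) / 2 = k + 1 := by omega
    rw [this]
    push_cast at hd ⊢
    linear_combination hd / 2
  refine ⟨θ, φ, hθ, hφ, hne2, hs, hd1, ?_, x⁻¹, ?_⟩
  · rw [hx, H43.SLStruct.cjg_one, hd1]
  · intro g h hgh
    have : h = H43.SLIrr.cjg x⁻¹ g := by
      apply Matrix.SpecialLinearGroup.toGL_injective
      rw [H43.SLIrr.toGL_cjg, hgh]
    rw [hx, this, H43.SLStruct.cjg_cjg, mul_inv_cancel]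
    congr 1
    apply Matrix.SpecialLinearGroup.toGL_injective
    rw [H43.SLIrr.toGL_cjg]
    simp

end Cfsg.Agent.S2307
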