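import Cfsg.Statements.S2308
import Cfsg.Agent.Lib.H43.Lines

set_option autoImplicit false
open Cfsg

namespace Cfsg.Agent.S2308

open H43.GL2Basic H43.Lines in
/-- Values of the permutation character of GL₂ over a finite field F with q elements on the cosets of its upper triangular subgroup (equivalently, the number of lines of F² that an element maps to themselves): q + 1 at a scalar matrix, 2 at a diagonal matrix with two different diagonal entries, 0 at an element with no eigenvector in F², and 1 at an upper triangular matrix with equal diagonal entries and non-zero upper right entry. -/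
theorem result {F : Type*} [Field F] [Fintype F] (g : Matrix.GeneralLinearGroup (Fin 2) F) :
    ((∃ a : F, (g : Matrix (Fin 2) (Fin 2) F) = a • (1 : Matrix (Fin 2) (Fin 2) F)) → Cfsg.fixedPointCharacter (Cfsg.upperTriangularGL 2 F) g = Fintype.card F + 1) ∧
    ((g : Matrix (Fin 2) (Fin 2) F) 0 1 = 0 → (g : Matrix (Fin 2) (Fin 2) F) 1 0 = 0 → (g : Matrix (Fin 2) (Fin 2) F) 0 0 ≠ (g : Matrix (Fin 2) (Fin 2) F) 1 1 →
      Cfsg.fixedPointCharacter (Cfsg.upperTriangularGL 2 F) g = 2) ∧
    ((∀ (c : F) (v : Fin 2 → F), v ≠ 0 → (g : Matrix (Fin 2) (Fin 2) F).mulVec v ≠ c • v) → Cfsg.fixedPointCharacter (Cfsg.upperTriangularGL 2 F) g = 0) ∧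
    ((g : Matrix (Fin 2) (Fin 2) F) 1 0 = 0 → (g : Matrix (Fin 2) (Fin 2) F) 0 0 = (g : Matrix (Fin 2) (Fin 2) F) 1 1 → (g : Matrix (Fin 2) (Fin 2) F) 0 1 ≠ 0 →
      Cfsg.fixedPointCharacter (Cfsg.upperTriangularGL 2 F) g = 1) := by
  classical
  have hfix : Cfsg.fixedPointCharacter (Cfsg.upperTriangularGL 2 F) g =
      (Nat.card {o : Option F // (rGL o)⁻¹ * g * rGL o ∈ upperTriangularGL 2 F} : ℂ) := by
    unfold fixedPointCharacter
    rw [fixedPoint_eq _ rGL rGL_bijective]
  rw [hfix]
  refine ⟨?_, ?_, ?_, ?_⟩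
  · intro h
    rw [← isScal_iff] at h
    obtain ⟨h1, h2, h3⟩ := h
    have : ∀ o : Option F, (rGL o)⁻¹ * g * rGL o ∈ upperTriangularGL 2 F := by
      intro o
      rw [fixedGL]
      match o with
      | none => exact h2
      | some a => simp [Q, h1, h2, h3]
    have e : {o : Option F // (rGL o)⁻¹ * g * rGL o ∈ upperTriangularGL 2 F} ≃ Option F :=
      Equiv.subtypeUnivEquiv this
    rw [Nat.card_congr e]
    simp
  · intro h1 h2 h3
    have : ∀ o : Option F, (rGL o)⁻¹ * g * rGL o ∈ upperTriangularGL 2 F ↔ o ∈ ({none, some 0} : Finset (Option F)) := by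
      intro o
      rw [fixedGL]
      match o with
      | none => simp [h2]
      | some a =>
        simp [Q, h1, h2]
        intro h
        exact absurd (sub_eq_zero.1 h).symm h3
    have e : {o : Option F // (rGL o)⁻¹ * g * rGL o ∈ upperTriangularGL 2 F} ≃
        {o // o ∈ ({none, some 0} : Finset (Option F))} := Equiv.subtypeEquivRight this
    rw [Nat.card_congr e, Nat.card_eq_fintype_card, Fintype.card_coe, Finset.card_pair (by simp)]
    norm_num
  · intro h
    rw [not_hasEig_iff] at h
    have : ∀ o : Option F, ¬ (rGL o)⁻¹ * g * rGL o ∈ upperTriangularGL 2 F := by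
      intro o
      rw [fixedGL]
      match o with
      | none => exact fun h2 => h (hasEig_of_zero h2)
      | some a => exact fun h2 => h (hasEig_of_Q h2)
    have e : IsEmpty {o : Option F // (rGL o)⁻¹ * g * rGL o ∈ upperTriangularGL 2 F} :=
      ⟨fun o => this o.1 o.2⟩
    rw [Nat.card_of_isEmpty]
    simp
  · intro h1 h2 h3
    have : ∀ o : Option F, (rGL o)⁻¹ * g * rGL o ∈ upperTriangularGL 2 F ↔ o ∈ ({none} : Finset (Option F)) := by
      intro o
      rw [fixedGL]
      match o with
      | none => simp [h1]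
      | some a => simp [Q, h1, h2, h3]
    have e : {o : Option F // (rGL o)⁻¹ * g * rGL o ∈ upperTriangularGL 2 F} ≃
        {o // o ∈ ({none} : Finset (Option F))} := Equiv.subtypeEquivRight this
    rw [Nat.card_congr e]
    simp

end Cfsg.Agent.S2308
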