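import Cfsg.Statements.S2309
import Cfsg.Agent.Lib.H43.GLIrr

set_option autoImplicit false
open Cfsg

namespace Cfsg.Agent.S2309

/-- Over a finite field F with q elements: every irreducible complex character of GL₂ of degree q − 1 vanishes at every diagonal matrix with two distinct entries, and every irreducible complex character of degree q + 1 vanishes at every element with no eigenvector in F². -/
theorem result {F : Type*} [Field F] [Fintype F] (χ : Matrix.GeneralLinearGroup (Fin 2) F → ℂ) (hχ : Cfsg.IsIrrCharacter (Matrix.GeneralLinearGroup (Fin 2) F) χ) (g : Matrix.GeneralLinearGroup (Fin 2) F) :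
    (χ 1 = (Fintype.card F : ℂ) - 1 → (g : Matrix (Fin 2) (Fin 2) F) 0 1 = 0 → (g : Matrix (Fin 2) (Fin 2) F) 1 0 = 0 → (g : Matrix (Fin 2) (Fin 2) F) 0 0 ≠ (g : Matrix (Fin 2) (Fin 2) F) 1 1 → χ g = 0) ∧
    (χ 1 = (Fintype.card F : ℂ) + 1 → (∀ (c : F) (v : Fin 2 → F), v ≠ 0 → (g : Matrix (Fin 2) (Fin 2) F).mulVec v ≠ c • v) → χ g = 0) := by
  classical
  constructor
  · intro h1 h01 h10 hne
    by_cases hq : 3 ≤ Fintype.card F
    · obtain ⟨c, rfl⟩ := H43.GLIrr.cases_q_sub_one hχ hq h1
      exact H43.GLIrr.split_of_orth (H18.CharBasic.isClassFunction_of_isIrr hχ) (H43.GLIrr.orth_of_notMem c.2) g h10 hne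
    · exfalso
      have hq2 : Fintype.card F = 2 := by
        have := Fintype.one_lt_card (α := F)
        omega
      obtain ⟨g0, g1⟩ := H43.Principal.B_diag_ne_zero ⟨g, (H43.Lines.mem_B g).2 h10⟩
      have h3 : Fintype.card Fˣ = 1 := by rw [Fintype.card_units, hq2]
      rw [Fintype.card_eq_one_iff] at h3
      obtain ⟨v, hv⟩ := h3
      have e1 := hv (Units.mk0 _ g0)
      have e2 := hv (Units.mk0 _ g1)
      exact hne (congrArg Units.val (e1.trans e2.symm))
  · intro h1 hg
    obtain ⟨α, β, hab, rfl⟩ := H43.GLIrr.cases_q_add_one hχ h1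
    exact H43.Principal.ind_apply_not α β g ((H43.GL2Basic.not_hasEig_iff _).1 hg)

end Cfsg.Agent.S2309
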