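import Cfsg.Statements.S2315
import Cfsg.Agent.Lib.H86.GLUnip
import Cfsg.Agent.Lib.H86.NilCount

set_option autoImplicit false
open Cfsg

namespace Cfsg.Agent.S2315

/-- Steinberg's count of unipotent elements for the general linear group: over a finite field with q elements of characteristic p, the number of elements of GL_n of p-power order (the unipotent matrices) is q^(n(n−1)). -/
theorem result {F : Type*} [Field F] [Fintype F] (p : ℕ) [Fact p.Prime] [CharP F p] (n : ℕ) :
    Nat.card {g : Matrix.GeneralLinearGroup (Fin n) F // ∃ k : ℕ, orderOf g = p ^ k} = Fintype.card F ^ (n * (n - 1)) := by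
  classical
  have h1 := H86.NilCount.card_nil (F := F) (V := Fin n → F)
  have hV : Nat.card (Fin n → F) = Fintype.card F ^ n := by
    rw [Nat.card_eq_fintype_card, Fintype.card_fun, Fintype.card_fin]
  have hE : Nat.card (Module.End F (Fin n → F)) = Fintype.card F ^ (n * n) := by
    rw [Nat.card_congr (LinearMap.toMatrix' (R := F) (m := Fin n) (n := Fin n)).toEquiv,
      Nat.card_eq_fintype_card]
    show Fintype.card (Fin n → Fin n → F) = _
    rw [Fintype.card_fun, Fintype.card_fun, Fintype.card_fin, pow_mul]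
  rw [hV, hE] at h1
  have h2 : Nat.card {g : Matrix.GeneralLinearGroup (Fin n) F // ∃ k : ℕ, orderOf g = p ^ k} =
      Nat.card {T : Module.End F (Fin n → F) // IsNilpotent T} := by
    refine Nat.card_congr (Equiv.ofBijective (fun g => ⟨Matrix.toLin' ((g.1 : Matrix (Fin n) (Fin n) F) - 1), ?_⟩) ⟨?_, ?_⟩)
    · obtain ⟨k, hk⟩ := (H86.GLUnip.order_iff p g.1).mp g.2
      refine ⟨k, ?_⟩
      rw [← Matrix.toLin'_pow, hk, map_zero]
    · rintro ⟨g, hg⟩ ⟨h, hh⟩ he
      simp only [Subtype.mk.injEq] at he
      have h3 := Matrix.toLin'.injective he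
      apply Subtype.ext
      apply Units.ext
      exact sub_left_injective h3
    · rintro ⟨T, k, hk⟩
      have h3 : ((1 + LinearMap.toMatrix' T : Matrix (Fin n) (Fin n) F) - 1) ^ k = 0 := by
        rw [add_sub_cancel_left]
        apply Matrix.toLin'.injective
        rw [Matrix.toLin'_pow, Matrix.toLin'_toMatrix', hk, map_zero]
      obtain ⟨g, hg⟩ := H86.GLUnip.isUnit_of_unip h3
      refine ⟨⟨g, (H86.GLUnip.order_iff p g).mpr ⟨k, by
        rw [show ((g : Matrix.GeneralLinearGroup (Fin n) F) : Matrix (Fin n) (Fin n) F) =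
          1 + LinearMap.toMatrix' T from hg]
        exact h3⟩⟩, ?_⟩
      apply Subtype.ext
      show Matrix.toLin' ((g : Matrix (Fin n) (Fin n) F) - 1) = T
      rw [show ((g : Matrix.GeneralLinearGroup (Fin n) F) : Matrix (Fin n) (Fin n) F) =
          1 + LinearMap.toMatrix' T from hg, add_sub_cancel_left, Matrix.toLin'_toMatrix']
  rw [h2]
  have hq : 0 < Fintype.card F ^ n := pow_pos Fintype.card_pos n
  apply Nat.eq_of_mul_eq_mul_right hq
  rw [h1, ← pow_add]
  congr 1
  rcases Nat.eq_zero_or_pos n with h0 | h0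
  · subst h0; rfl
  · obtain ⟨m, rfl⟩ : ∃ m, n = m + 1 := ⟨n - 1, by omega⟩
    simp only [Nat.add_sub_cancel]
    ring

end Cfsg.Agent.S2315
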