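import Cfsg.Statements.S2317
import Cfsg.Agent.Lib.H86.GLUnip
import Cfsg.Agent.Lib.H47.JordanCount

set_option autoImplicit false
open Cfsg

namespace Cfsg.Agent.S2317

/-- Over a finite field of characteristic p, the conjugacy classes of GL_n consisting of elements of p-power order (the unipotent classes) are as many as the partitions of n. -/
theorem result {F : Type*} [Field F] [Fintype F] (p : ℕ) [Fact p.Prime] [CharP F p] (n : ℕ) :
    Nat.card {C : ConjClasses (Matrix.GeneralLinearGroup (Fin n) F) //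
      ∃ g : Matrix.GeneralLinearGroup (Fin n) F, (∃ k : ℕ, orderOf g = p ^ k) ∧ ConjClasses.mk g = C} =
      Fintype.card (Nat.Partition n) := by
  classical
  rw [← Nat.card_eq_fintype_card]
  have hex : ∀ g : Matrix.GeneralLinearGroup (Fin n) F, (∃ k : ℕ, orderOf g = p ^ k) →
      ∃ s : Multiset ℕ, H47.JordanCount.HasType (g : Matrix (Fin n) (Fin n) F) s := by
    intro g hg
    obtain ⟨k, hk⟩ := (H86.GLUnip.order_iff p g).mp hg
    obtain ⟨s, hs, -⟩ := H47.JordanCount.exists_type _ hk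
    exact ⟨s, hs⟩
  have hinj : ∀ (g h : Matrix.GeneralLinearGroup (Fin n) F) (s t : Multiset ℕ),
      H47.JordanCount.HasType (g : Matrix (Fin n) (Fin n) F) s →
      H47.JordanCount.HasType (h : Matrix (Fin n) (Fin n) F) t →
      (ConjClasses.mk g = ConjClasses.mk h ↔ s = t) := by
    intro g h s t hs ht
    rw [ConjClasses.mk_eq_mk_iff_isConj, H47.JordanCount.isConj_gl_iff, H47.JordanCount.isConj_iff hs ht]
  let rep : {C : ConjClasses (Matrix.GeneralLinearGroup (Fin n) F) //
      ∃ g : Matrix.GeneralLinearGroup (Fin n) F, (∃ k : ℕ, orderOf g = p ^ k) ∧ ConjClasses.mk g = C} →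
      Matrix.GeneralLinearGroup (Fin n) F := fun C => C.2.choose
  have hrep : ∀ C, (∃ k : ℕ, orderOf (rep C) = p ^ k) ∧ ConjClasses.mk (rep C) = C.1 :=
    fun C => C.2.choose_spec
  let φ : {C : ConjClasses (Matrix.GeneralLinearGroup (Fin n) F) //
      ∃ g : Matrix.GeneralLinearGroup (Fin n) F, (∃ k : ℕ, orderOf g = p ^ k) ∧ ConjClasses.mk g = C} →
      Nat.Partition n := fun C =>
    ⟨(hex (rep C) (hrep C).1).choose, fun {i} hi => (hex (rep C) (hrep C).1).choose_spec.1 i hi,
      (hex (rep C) (hrep C).1).choose_spec.2.1⟩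
  have hφ : ∀ C, H47.JordanCount.HasType ((rep C : Matrix.GeneralLinearGroup (Fin n) F) :
      Matrix (Fin n) (Fin n) F) (φ C).parts := fun C => (hex (rep C) (hrep C).1).choose_spec
  refine Nat.card_congr (Equiv.ofBijective φ ⟨?_, ?_⟩)
  · intro C D h
    apply Subtype.ext
    rw [← (hrep C).2, ← (hrep D).2, hinj _ _ _ _ (hφ C) (hφ D), h]
  · intro P
    obtain ⟨M, hM⟩ := H47.JordanCount.exists_matrix (F := F) P.parts (fun a ha => P.parts_pos ha)
      P.parts_sum
    obtain ⟨k, hk⟩ : ∃ k, ∀ a ∈ P.parts, a ≤ k := by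
      refine ⟨n, fun a ha => ?_⟩
      rw [← P.parts_sum]
      exact Multiset.single_le_sum (fun _ _ => Nat.zero_le _) a ha
    have h0 := (H47.JordanCount.pow_eq_zero_iff_type hM k).2 hk
    obtain ⟨g, hg⟩ := H86.GLUnip.isUnit_of_unip h0
    have hg' : ∃ k : ℕ, orderOf g = p ^ k := (H86.GLUnip.order_iff p g).mpr ⟨k, by
      rw [show ((g : Matrix.GeneralLinearGroup (Fin n) F) : Matrix (Fin n) (Fin n) F) = M from hg]
      exact h0⟩
    refine ⟨⟨ConjClasses.mk g, g, hg', rfl⟩, ?_⟩
    have h1 := hφ ⟨ConjClasses.mk g, g, hg', rfl⟩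
    have h2 := (hrep ⟨ConjClasses.mk g, g, hg', rfl⟩).2
    have h3 : H47.JordanCount.HasType ((g : Matrix.GeneralLinearGroup (Fin n) F) :
      Matrix (Fin n) (Fin n) F) P.parts := by
      rw [show ((g : Matrix.GeneralLinearGroup (Fin n) F) : Matrix (Fin n) (Fin n) F) = M from hg]
      exact hM
    exact Nat.Partition.ext ((hinj _ _ _ _ h1 h3).mp h2)

end Cfsg.Agent.S2317
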