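import Cfsg.Statements.S2319
import Cfsg.Agent.Lib.H47.HeckeFin

set_option autoImplicit false
open Cfsg

namespace Cfsg.Agent.S2319

/-- In a Chevalley group of type G₂, B₂, D₄, F₄, E₆, E₇ or E₈ over a finite field, the number of distinct irreducible constituents of the permutation character on the cosets of B = UH equals the number of conjugacy classes (equivalently, of irreducible characters) of the Weyl group, the Coxeter group of the type with nodes numbered as the fundamental roots. -/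
theorem result {F : Type*} [Field F] [Fintype F]
    (dw : Cfsg.Lie.ChevalleyDatum × (Σ n : ℕ, CoxeterMatrix (Fin n)))
    (hdw : dw ∈ [(Cfsg.Lie.chevG2, ⟨2, CoxeterMatrix.G₂⟩), (Cfsg.Lie.chevB2, ⟨2, CoxeterMatrix.B 2⟩), (Cfsg.Lie.chevD4, ⟨4, Cfsg.Lie.coxeterD4⟩), (Cfsg.Lie.chevF4, ⟨4, CoxeterMatrix.F₄⟩),
      (Cfsg.Lie.chevE6, ⟨6, CoxeterMatrix.E₆⟩), (Cfsg.Lie.chevE7, ⟨7, CoxeterMatrix.E₇⟩), (Cfsg.Lie.chevE8, ⟨8, CoxeterMatrix.E₈⟩)]) :
    Nat.card {χ : Cfsg.IrrCharacter ↥(dw.1.group F) //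
      ∃ φ : ↥(dw.1.group F) → ℂ, Cfsg.IsCharacter ↥(dw.1.group F) φ ∧
        Cfsg.fixedPointCharacter ((dw.1.borelSubgroup F).subgroupOf (dw.1.group F)) = (χ : ↥(dw.1.group F) → ℂ) + φ} =
      Nat.card (ConjClasses dw.2.2.Group) := by
  simp only [List.mem_cons, List.not_mem_nil, or_false] at hdw
  rcases hdw with rfl | rfl | rfl | rfl | rfl | rfl | rfl
  · exact H47.HeckeFin.s2319 (H22.ChevAll.rel _ (by simp) F) H22.PoinG2.rcxG2
      (fun p _ => H22.ChevAll.rel _ (by simp) (ZMod p)) H22.CoxCalc.weylG2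
  · exact H47.HeckeFin.s2319 (H22.ChevAll.rel _ (by simp) F) H22.PoinB2.rcxB2
      (fun p _ => H22.ChevAll.rel _ (by simp) (ZMod p)) H22.CoxCalc.weylB2
  · exact H47.HeckeFin.s2319 (H22.ChevAll.rel _ (by simp) F) H22.PoinD4.rcxD4
      (fun p _ => H22.ChevAll.rel _ (by simp) (ZMod p)) H22.CoxCalc.weylD4
  · exact H47.HeckeFin.s2319 (H22.ChevAll.rel _ (by simp) F) H22.PoinF4.rcxF4
      (fun p _ => H22.ChevAll.rel _ (by simp) (ZMod p)) H22.CoxCalc.weylF4
  · exact H47.HeckeFin.s2319 (H22.ChevAll.rel _ (by simp) F) H22.PoinE6.rcxE6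
      (fun p _ => H22.ChevAll.rel _ (by simp) (ZMod p)) H22.CoxCalc.weylE6
  · exact H47.HeckeFin.s2319 (H22.ChevAll.rel _ (by simp) F) H22.PoinE7.rcxE7
      (fun p _ => H22.ChevAll.rel _ (by simp) (ZMod p)) H22.CoxCalc.weylE7
  · exact H47.HeckeFin.s2319 (H22.ChevAll.rel _ (by simp) F) H22.PoinE8.rcxE8
      (fun p _ => H22.ChevAll.rel _ (by simp) (ZMod p)) H22.CoxCalc.weylE8

end Cfsg.Agent.S2319
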