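import Cfsg.Statements.S2320
import Cfsg.Agent.Lib.H43.GLIrr

set_option autoImplicit false
open Cfsg

namespace Cfsg.Agent.S2320

/-- Over a finite field F with q elements, every irreducible complex character of GL₂ of degree q takes a value of absolute value 1 at every diagonal matrix with two different diagonal entries and at every element with no eigenvector in F². -/
theorem result {F : Type*} [Field F] [Fintype F] (χ : Matrix.GeneralLinearGroup (Fin 2) F → ℂ) (hχ : Cfsg.IsIrrCharacter (Matrix.GeneralLinearGroup (Fin 2) F) χ) (hdeg : χ 1 = (Fintype.card F : ℂ)) (g : Matrix.GeneralLinearGroup (Fin 2) F) :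
    ((g : Matrix (Fin 2) (Fin 2) F) 0 1 = 0 → (g : Matrix (Fin 2) (Fin 2) F) 1 0 = 0 → (g : Matrix (Fin 2) (Fin 2) F) 0 0 ≠ (g : Matrix (Fin 2) (Fin 2) F) 1 1 → ‖χ g‖ = 1) ∧
    ((∀ (c : F) (v : Fin 2 → F), v ≠ 0 → (g : Matrix (Fin 2) (Fin 2) F).mulVec v ≠ c • v) → ‖χ g‖ = 1) := by
  classical
  obtain ⟨α, rfl⟩ := H43.GLIrr.cases_q hχ hdeg
  have hn : ‖H43.GLIrr.dl α g‖ = 1 := by
    rw [← H43.GLIrr.dlHom_coe]
    exact H18.CharBasic.hom_norm_one _ g
  constructor
  · intro h01 h10 hne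
    simp only [H43.GLIrr.StT, H43.GLIrr.St_diag g h10 hne, mul_one]
    exact hn
  · intro hg
    simp only [H43.GLIrr.StT, H43.GLIrr.St_apply_not g ((H43.GL2Basic.not_hasEig_iff _).1 hg)]
    rw [mul_neg, mul_one, norm_neg, hn]

end Cfsg.Agent.S2320
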