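import Cfsg.Statements.S2321
import Cfsg.Agent.Lib.H43.SLStruct

set_option autoImplicit false
open Cfsg

namespace Cfsg.Agent.S2321

/-- Over a finite field F with q elements, an irreducible complex character of SL₂ of degree q (the Steinberg character) takes the value 1 at every diagonal matrix whose diagonal entry a has a² ≠ 1, the value −1 at every element with no eigenvector in F², and the value 0 at every upper triangular matrix with equal diagonal entries and non-zero upper right entry. -/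
theorem result {F : Type*} [Field F] [Fintype F] (χ : Matrix.SpecialLinearGroup (Fin 2) F → ℂ) (hχ : Cfsg.IsIrrCharacter (Matrix.SpecialLinearGroup (Fin 2) F) χ) (hdeg : χ 1 = (Fintype.card F : ℂ)) (g : Matrix.SpecialLinearGroup (Fin 2) F) :
    ((g : Matrix (Fin 2) (Fin 2) F) 0 1 = 0 → (g : Matrix (Fin 2) (Fin 2) F) 1 0 = 0 → (g : Matrix (Fin 2) (Fin 2) F) 0 0 ^ 2 ≠ 1 → χ g = 1) ∧
    ((∀ (c : F) (v : Fin 2 → F), v ≠ 0 → (g : Matrix (Fin 2) (Fin 2) F).mulVec v ≠ c • v) → χ g = -1) ∧
    ((g : Matrix (Fin 2) (Fin 2) F) 1 0 = 0 → (g : Matrix (Fin 2) (Fin 2) F) 0 0 = (g : Matrix (Fin 2) (Fin 2) F) 1 1 → (g : Matrix (Fin 2) (Fin 2) F) 0 1 ≠ 0 → χ g = 0) := by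
  classical
  have h := H43.SLStruct.eq_StS hχ hdeg
  subst h
  have hd := g.det_coe
  rw [Matrix.det_fin_two] at hd
  refine ⟨?_, ?_, ?_⟩
  · intro h01 h10 h2
    rw [H43.SLIrr.StS_apply_B g h10, H43.Principal.N_of_ne, Nat.cast_one]
    intro heq
    apply h2
    rw [h10, ← heq] at hd
    linear_combination hd
  · intro hg
    exact H43.SLIrr.StS_apply_not g ((H43.GL2Basic.not_hasEig_iff _).1 hg)
  · intro h10 h00 h01
    rw [H43.SLIrr.StS_apply_B g h10, ← h00, H43.Principal.N_self_ne _ h01, Nat.cast_zero]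

end Cfsg.Agent.S2321
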