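import Cfsg.Statements.S2322
import Cfsg.Agent.Lib.H43.SLVals

set_option autoImplicit false
open Cfsg

namespace Cfsg.Agent.S2322

/-- Over a finite field F with q elements, q odd: every irreducible complex character of SL₂ of degree q − 1 or (q − 1)/2 vanishes at every diagonal matrix whose diagonal entry a has a² ≠ 1, and every irreducible complex character of degree q + 1 or (q + 1)/2 vanishes at every element with no eigenvector in F². -/
theorem result {F : Type*} [Field F] [Fintype F] (hodd : Odd (Fintype.card F)) (χ : Matrix.SpecialLinearGroup (Fin 2) F → ℂ) (hχ : Cfsg.IsIrrCharacter (Matrix.SpecialLinearGroup (Fin 2) F) χ) (g : Matrix.SpecialLinearGroup (Fin 2) F) :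
    ((χ 1 = (Fintype.card F : ℂ) - 1 ∨ χ 1 = (((Fintype.card F - 1) / 2 : ℕ) : ℂ)) →
      (g : Matrix (Fin 2) (Fin 2) F) 0 1 = 0 → (g : Matrix (Fin 2) (Fin 2) F) 1 0 = 0 → (g : Matrix (Fin 2) (Fin 2) F) 0 0 ^ 2 ≠ 1 → χ g = 0) ∧
    ((χ 1 = (Fintype.card F : ℂ) + 1 ∨ χ 1 = (((Fintype.card F + 1) / 2 : ℕ) : ℂ)) →
      (∀ (c : F) (v : Fin 2 → F), v ≠ 0 → (g : Matrix (Fin 2) (Fin 2) F).mulVec v ≠ c • v) → χ g = 0) := by
  classical
  have hq3 : 3 ≤ Fintype.card F := by
    have h1 := Fintype.one_lt_card (α := F)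
    obtain ⟨m, hm⟩ := hodd
    omega
  have hI : ∀ γ : MulChar F ℂ, ¬ H43.GL2Basic.HasEig (g : Matrix (Fin 2) (Fin 2) F) →
      Cfsg.indFun (H43.Lines.BSL F) (H43.Principal.thS γ) g = 0 := fun γ hg =>
    H43.Principal.indS_apply_not γ g hg
  have hdisc : ¬ H43.GL2Basic.HasEig (g : Matrix (Fin 2) (Fin 2) F) →
      (g : Matrix (Fin 2) (Fin 2) F).trace ^ 2 - 4 ≠ 0 := by
    intro hg h0
    apply hg
    rw [H43.GL2Basic.hasEig_iff, g.det_coe]
    have h2 := H43.SLOdd.two_ne_zero' hodd
    refine ⟨(g : Matrix (Fin 2) (Fin 2) F).trace / 2, ?_⟩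
    field_simp
    linear_combination -h0
  have hsplit : ∀ c : H43.GLIrr.CuspIrr F, (g : Matrix (Fin 2) (Fin 2) F) 1 0 = 0 →
      (g : Matrix (Fin 2) (Fin 2) F) 0 0 ≠ (g : Matrix (Fin 2) (Fin 2) F) 1 1 →
      H43.SLIrr.res (c.1 : Matrix.GeneralLinearGroup (Fin 2) F → ℂ) g = 0 := by
    intro c h10 hne
    exact H43.GLIrr.split_of_orth (H18.CharBasic.isClassFunction_of_isIrr c.1.2) (H43.GLIrr.orth_of_notMem c.2)
      (Matrix.SpecialLinearGroup.toGL g) h10 hne
  refine ⟨?_, ?_⟩
  · intro hd h01 h10 ha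
    have hdet := g.det_coe
    rw [Matrix.det_fin_two, h01, zero_mul, sub_zero] at hdet
    have hne : (g : Matrix (Fin 2) (Fin 2) F) 0 0 ≠ (g : Matrix (Fin 2) (Fin 2) F) 1 1 := by
      intro h
      rw [← h] at hdet
      exact ha (by rw [sq]; exact hdet)
    by_cases hq5 : 5 ≤ Fintype.card F
    · rcases hd with hd | hd
      · obtain ⟨c, rfl⟩ := H43.SLStruct.eq_cusp (by omega) hχ hd
        exact hsplit c h10 hne
      · obtain ⟨c, φ, hp, hs⟩ := H43.SLVals.eq_half_cusp hodd hq5 hχ hd
        have h1 := hsplit c h10 hne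
        have h2 := hp.eq_of_disc (g := g) (by
          intro h0
          rw [Matrix.trace_fin_two] at h0
          apply hne
          have h3 : ((g : Matrix (Fin 2) (Fin 2) F) 0 0 - (g : Matrix (Fin 2) (Fin 2) F) 1 1) ^ 2 = 0 := by
            linear_combination h0 - 4 * hdet
          exact sub_eq_zero.1 (pow_eq_zero_iff two_ne_zero |>.1 h3))
        rw [hs, Pi.add_apply, ← h2] at h1
        linear_combination h1 / 2
    · exfalso
      have hq : Fintype.card F = 3 := by
        obtain ⟨m, hm⟩ := hodd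
        omega
      apply ha
      have h0 : (g : Matrix (Fin 2) (Fin 2) F) 0 0 ≠ 0 := left_ne_zero_of_mul_eq_one hdet
      have h3 := FiniteField.pow_card_sub_one_eq_one _ h0
      rwa [hq] at h3
  · intro hd hg
    have hg' := (H43.GL2Basic.not_hasEig_iff _).1 hg
    rcases hd with hd | hd
    · obtain ⟨γ, hγ, rfl⟩ := H43.SLStruct.eq_ps hχ hd
      exact hI γ hg'
    · by_cases hq5 : 5 ≤ Fintype.card F
      · obtain ⟨γ, φ, -, -, hp, hs⟩ := H43.SLVals.eq_half_ps hodd hq5 hχ hd
        have h1 := hI γ hg'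
        have h2 := hp.eq_of_disc (g := g) (hdisc hg')
        rw [hs, Pi.add_apply, ← h2] at h1
        linear_combination h1 / 2
      · -- q = 3
        have hq : Fintype.card F = 3 := by
          obtain ⟨m, hm⟩ := hodd
          omega
        rw [hq] at hd
        norm_num at hd
        -- column orthogonality
        have : Fintype (Cfsg.IrrCharacter (Matrix.SpecialLinearGroup (Fin 2) F)) := Fintype.ofFinite _
        have hcol := H18.CharInd.column_orthogonality g g
        rw [if_pos (IsConj.refl g), H43.GL2Count.sl_card_centralizer_aniso g hg', hq] at hcol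
        have hterm : ∀ χ : Cfsg.IrrCharacter (Matrix.SpecialLinearGroup (Fin 2) F),
            (χ : Matrix.SpecialLinearGroup (Fin 2) F → ℂ) g * (starRingEnd ℂ) ((χ : Matrix.SpecialLinearGroup (Fin 2) F → ℂ) g) =
            ((Complex.normSq ((χ : Matrix.SpecialLinearGroup (Fin 2) F → ℂ) g) : ℝ) : ℂ) := fun χ =>
          Complex.mul_conj _
        simp only [hterm] at hcol
        have hcolR : ∑ χ : Cfsg.IrrCharacter (Matrix.SpecialLinearGroup (Fin 2) F),
            Complex.normSq ((χ : Matrix.SpecialLinearGroup (Fin 2) F → ℂ) g) = 4 := by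
          have h1 : ((∑ χ : Cfsg.IrrCharacter (Matrix.SpecialLinearGroup (Fin 2) F),
            Complex.normSq ((χ : Matrix.SpecialLinearGroup (Fin 2) F → ℂ) g) : ℝ) : ℂ) = ((4 : ℝ) : ℂ) := by
            push_cast
            rw [hcol]
            norm_num
          exact_mod_cast h1
        -- the linear characters : three of them (1 and the two halves), and Steinberg
        have hlin : ∀ θ : Cfsg.IrrCharacter (Matrix.SpecialLinearGroup (Fin 2) F),
            (θ : Matrix.SpecialLinearGroup (Fin 2) F → ℂ) 1 = 1 →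
            Complex.normSq ((θ : Matrix.SpecialLinearGroup (Fin 2) F → ℂ) g) = 1 := by
          intro θ hθ
          obtain ⟨f, hf⟩ := H18.CharQuot.linear_iff.1 ⟨H18.CharBasic.isCharacter_of_isIrr θ.2, hθ⟩
          have h1 : (θ : Matrix.SpecialLinearGroup (Fin 2) F → ℂ) g = ((f g : ℂˣ) : ℂ) := by rw [hf]
          rw [h1, Complex.normSq_eq_norm_sq, H18.CharBasic.hom_norm_one, one_pow]
        have hc3 : Nat.card {χ : Cfsg.IrrCharacter (Matrix.SpecialLinearGroup (Fin 2) F) //
            (χ : Matrix.SpecialLinearGroup (Fin 2) F → ℂ) 1 = ((1 : ℕ) : ℂ)} = 3 := by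
          rw [H43.SLOdd.card_deg_odd hodd, hq]
          simp
        simp only [Nat.cast_one] at hc3
        rw [Nat.card_eq_fintype_card, Fintype.card_subtype] at hc3
        set L := Finset.univ.filter (fun θ : Cfsg.IrrCharacter (Matrix.SpecialLinearGroup (Fin 2) F) =>
          (θ : Matrix.SpecialLinearGroup (Fin 2) F → ℂ) 1 = 1) with hL
        let S : Cfsg.IrrCharacter (Matrix.SpecialLinearGroup (Fin 2) F) := ⟨H43.SLIrr.StS F, H43.SLIrr.isIrr_StS⟩
        let X : Cfsg.IrrCharacter (Matrix.SpecialLinearGroup (Fin 2) F) := ⟨χ, hχ⟩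
        have hS1 : (S : Matrix.SpecialLinearGroup (Fin 2) F → ℂ) 1 = 3 := by
          change H43.SLIrr.StS F 1 = 3
          rw [H43.SLIrr.StS_one, hq]; norm_num
        have hX1 : (X : Matrix.SpecialLinearGroup (Fin 2) F → ℂ) 1 = 2 := hd
        have hSL : S ∉ L := by
          rw [hL, Finset.mem_filter]
          rintro ⟨-, h⟩
          rw [hS1] at h
          norm_num at h
        have hXL : X ∉ insert S L := by
          rw [Finset.mem_insert]
          rintro (h | h)
          · rw [h, hS1] at hX1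
            norm_num at hX1
          · rw [hL, Finset.mem_filter] at h
            rw [h.2] at hX1
            norm_num at hX1
        have hle : ∑ θ ∈ insert X (insert S L), Complex.normSq ((θ : Matrix.SpecialLinearGroup (Fin 2) F → ℂ) g) ≤ 4 := by
          rw [← hcolR]
          exact Finset.sum_le_sum_of_subset_of_nonneg (Finset.subset_univ _) (fun _ _ _ => Complex.normSq_nonneg _)
        rw [Finset.sum_insert hXL, Finset.sum_insert hSL] at hle
        have hsumL : ∑ θ ∈ L, Complex.normSq ((θ : Matrix.SpecialLinearGroup (Fin 2) F → ℂ) g) = 3 := by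
          rw [Finset.sum_congr rfl (g := fun _ => (1 : ℝ))]
          · rw [Finset.sum_const, hc3]; norm_num
          · intro θ hθ
            rw [hL, Finset.mem_filter] at hθ
            exact hlin θ hθ.2
        have hSg : Complex.normSq ((S : Matrix.SpecialLinearGroup (Fin 2) F → ℂ) g) = 1 := by
          change Complex.normSq (H43.SLIrr.StS F g) = 1
          rw [H43.SLIrr.StS_apply_not g hg']
          simp
        rw [hsumL, hSg] at hle
        have h0 := Complex.normSq_nonneg ((X : Matrix.SpecialLinearGroup (Fin 2) F → ℂ) g)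
        have h00 : Complex.normSq ((X : Matrix.SpecialLinearGroup (Fin 2) F → ℂ) g) = 0 := by linarith
        exact Complex.normSq_eq_zero.1 h00

end Cfsg.Agent.S2322
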