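import Cfsg.Statements.S2323
import Cfsg.Agent.Lib.H43.SLStruct

set_option autoImplicit false
open Cfsg

namespace Cfsg.Agent.S2323

/-- Over a finite field F with q ≥ 4 elements, let u be the upper unitriangular matrix of SL₂ with off-diagonal entry 1. An irreducible complex character of SL₂ takes at u the value 1 if its degree is q + 1 and the value −1 if its degree is q − 1. -/
theorem result {F : Type*} [Field F] [Fintype F] (hq : 4 ≤ Fintype.card F) (χ : Matrix.SpecialLinearGroup (Fin 2) F → ℂ) (hχ : Cfsg.IsIrrCharacter (Matrix.SpecialLinearGroup (Fin 2) F) χ)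
    (u : Matrix.SpecialLinearGroup (Fin 2) F) (hu : (u : Matrix (Fin 2) (Fin 2) F) = !![1, 1; 0, 1]) :
    (χ 1 = (Fintype.card F : ℂ) + 1 → χ u = 1) ∧ (χ 1 = (Fintype.card F : ℂ) - 1 → χ u = -1) := by
  classical
  refine ⟨?_, ?_⟩
  · intro hd
    obtain ⟨γ, hγ, rfl⟩ := H43.SLStruct.eq_ps hχ hd
    rw [H43.Principal.indS_apply_B _ _ (by rw [hu]; rfl), hu]
    simp [H43.Principal.N_self_ne]
  · intro hd
    obtain ⟨c, rfl⟩ := H43.SLStruct.eq_cusp hq hχ hd
    have h1 := (H43.GLIrr.cusp_degree c).2 1 one_ne_zero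
    have h2 : Matrix.SpecialLinearGroup.toGL u = H43.GLIrr.u 1 := by
      apply Units.ext
      rw [H43.GLIrr.u_coe]
      exact hu
    simp only [H43.SLIrr.res]
    rw [h2, h1]

end Cfsg.Agent.S2323
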