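import Cfsg.Statements.S2324
import Cfsg.Agent.Lib.H43.SLVals

set_option autoImplicit false
open Cfsg

namespace Cfsg.Agent.S2324

/-- Over a finite field F with q elements, q odd and q ≥ 5, let u be the upper unitriangular matrix of SL₂ with off-diagonal entry 1 and let δ = (−1)^((q−1)/2). Every irreducible complex character χ of SL₂ of degree (q + 1)/2 satisfies (2χ(u) − 1)² = δq, and every irreducible complex character χ of degree (q − 1)/2 satisfies (2χ(u) + 1)² = δq; that is, χ(u) = (1 ± √(δq))/2 in the first case and χ(u) = (−1 ± √(δq))/2 in the second. Moreover two different irreducible characters of degree (q + 1)/2 take the two different values (their values at u add up to 1), and likewise for degree (q − 1)/2 (values adding up to −1). -/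
theorem result {F : Type*} [Field F] [Fintype F] (hodd : Odd (Fintype.card F)) (hq : 5 ≤ Fintype.card F)
    (u : Matrix.SpecialLinearGroup (Fin 2) F) (hu : (u : Matrix (Fin 2) (Fin 2) F) = !![1, 1; 0, 1]) :
    (∀ χ : Matrix.SpecialLinearGroup (Fin 2) F → ℂ, Cfsg.IsIrrCharacter (Matrix.SpecialLinearGroup (Fin 2) F) χ → χ 1 = (((Fintype.card F + 1) / 2 : ℕ) : ℂ) → (2 * χ u - 1) ^ 2 = (-1 : ℂ) ^ ((Fintype.card F - 1) / 2) * (Fintype.card F : ℂ)) ∧
    (∀ χ : Matrix.SpecialLinearGroup (Fin 2) F → ℂ, Cfsg.IsIrrCharacter (Matrix.SpecialLinearGroup (Fin 2) F) χ → χ 1 = (((Fintype.card F - 1) / 2 : ℕ) : ℂ) → (2 * χ u + 1) ^ 2 = (-1 : ℂ) ^ ((Fintype.card F - 1) / 2) * (Fintype.card F : ℂ)) ∧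
    (∀ χ₁ χ₂ : Matrix.SpecialLinearGroup (Fin 2) F → ℂ, Cfsg.IsIrrCharacter (Matrix.SpecialLinearGroup (Fin 2) F) χ₁ → Cfsg.IsIrrCharacter (Matrix.SpecialLinearGroup (Fin 2) F) χ₂ → χ₁ ≠ χ₂ →
      χ₁ 1 = (((Fintype.card F + 1) / 2 : ℕ) : ℂ) → χ₂ 1 = (((Fintype.card F + 1) / 2 : ℕ) : ℂ) → χ₁ u + χ₂ u = 1) ∧
    (∀ χ₁ χ₂ : Matrix.SpecialLinearGroup (Fin 2) F → ℂ, Cfsg.IsIrrCharacter (Matrix.SpecialLinearGroup (Fin 2) F) χ₁ → Cfsg.IsIrrCharacter (Matrix.SpecialLinearGroup (Fin 2) F) χ₂ → χ₁ ≠ χ₂ →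
      χ₁ 1 = (((Fintype.card F - 1) / 2 : ℕ) : ℂ) → χ₂ 1 = (((Fintype.card F - 1) / 2 : ℕ) : ℂ) → χ₁ u + χ₂ u = -1) := by
  classical
  have hI : ∀ γ : MulChar F ℂ, Cfsg.indFun (H43.Lines.BSL F) (H43.Principal.thS γ) u = 1 := by
    intro γ
    rw [H43.Principal.indS_apply_B _ _ (by rw [hu]; rfl), hu]
    simp [H43.Principal.N_self_ne]
  have hc : ∀ c : H43.GLIrr.CuspIrr F, H43.SLIrr.res (c.1 : Matrix.GeneralLinearGroup (Fin 2) F → ℂ) u = -1 := by
    intro c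
    have h1 := (H43.GLIrr.cusp_degree c).2 1 one_ne_zero
    have h2 : Matrix.SpecialLinearGroup.toGL u = H43.GLIrr.u 1 := by
      apply Units.ext
      rw [H43.GLIrr.u_coe]
      exact hu
    simp only [H43.SLIrr.res]
    rw [h2, h1]
  have hcard1 : Nat.card {χ : Cfsg.IrrCharacter (Matrix.SpecialLinearGroup (Fin 2) F) //
      (χ : Matrix.SpecialLinearGroup (Fin 2) F → ℂ) 1 = (((Fintype.card F + 1) / 2 : ℕ) : ℂ)} = 2 := by
    rw [H43.SLOdd.card_deg_odd hodd]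
    split_ifs <;> omega
  have hcard2 : Nat.card {χ : Cfsg.IrrCharacter (Matrix.SpecialLinearGroup (Fin 2) F) //
      (χ : Matrix.SpecialLinearGroup (Fin 2) F → ℂ) 1 = (((Fintype.card F - 1) / 2 : ℕ) : ℂ)} = 2 := by
    rw [H43.SLOdd.card_deg_odd hodd]
    split_ifs <;> omega
  refine ⟨?_, ?_, ?_, ?_⟩
  · intro χ hχ hd
    obtain ⟨γ, φ, -, -, hp, hs⟩ := H43.SLVals.eq_half_ps hodd hq hχ hd
    have h1 := hI γ
    rw [hs, Pi.add_apply] at h1
    rw [← hp.D_sq hodd u hu]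
    congr 1
    linear_combination h1
  · intro χ hχ hd
    obtain ⟨c, φ, hp, hs⟩ := H43.SLVals.eq_half_cusp hodd hq hχ hd
    have h1 := hc c
    rw [hs, Pi.add_apply] at h1
    rw [← hp.D_sq hodd u hu]
    congr 1
    linear_combination h1
  · intro χ χ' hχ hχ' hne hd hd'
    obtain ⟨γ, φ, -, -, hp, hs⟩ := H43.SLVals.eq_half_ps hodd hq hχ hd
    have h1 := hI γ
    obtain rfl := H43.SLVals.eq_other hcard1 hp hd hχ' hd' hne
    rw [hs, Pi.add_apply] at h1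
    exact h1
  · intro χ χ' hχ hχ' hne hd hd'
    obtain ⟨c, φ, hp, hs⟩ := H43.SLVals.eq_half_cusp hodd hq hχ hd
    have h1 := hc c
    obtain rfl := H43.SLVals.eq_other hcard2 hp hd hχ' hd' hne
    rw [hs, Pi.add_apply] at h1
    exact h1

end Cfsg.Agent.S2324
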