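import Cfsg.Statements.S2329
import Cfsg.Agent.Lib.H43.GL2Basic

set_option autoImplicit false
open Cfsg

namespace Cfsg.Agent.S2329

open H43.GL2Basic in
theorem aux {F : Type*} [Field F] (p : ℕ) [Fact p.Prime] [CharP F p] (g : Matrix.GeneralLinearGroup (Fin 2) F)
    (hg : orderOf g = p) : ¬ IsScal (g : Matrix (Fin 2) (Fin 2) F) ∧ (g : Matrix (Fin 2) (Fin 2) F).trace = 2 ∧
      (g : Matrix (Fin 2) (Fin 2) F).det = 1 := by
  have hg1 : g ^ p = 1 := by rw [← hg]; exact pow_orderOf_eq_one g
  have hp : p.Prime := Fact.out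
  have hN : ((g : Matrix (Fin 2) (Fin 2) F) - 1) ^ p = 0 := by
    rw [sub_pow_char_of_commute p (Commute.one_right _), one_pow, ← Units.val_pow_eq_pow_val, hg1]
    simp
  have hnil : IsNilpotent ((g : Matrix (Fin 2) (Fin 2) F) - 1) := ⟨p, hN⟩
  have htr : ((g : Matrix (Fin 2) (Fin 2) F) - 1).trace = 0 :=
    (Matrix.isNilpotent_trace_of_isNilpotent hnil).eq_zero
  have hdet : ((g : Matrix (Fin 2) (Fin 2) F) - 1).det = 0 := by
    have := congrArg Matrix.det hN
    rw [Matrix.det_pow, Matrix.det_zero] at this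
    exact pow_eq_zero_iff hp.ne_zero |>.1 this
  have htr' : (g : Matrix (Fin 2) (Fin 2) F).trace = 2 := by
    rw [Matrix.trace_fin_two] at htr ⊢
    simp at htr
    linear_combination htr
  have hdet' : (g : Matrix (Fin 2) (Fin 2) F).det = 1 := by
    rw [Matrix.det_fin_two] at hdet ⊢
    rw [Matrix.trace_fin_two] at htr'
    simp at hdet
    linear_combination hdet + htr'
  refine ⟨?_, htr', hdet'⟩
  rintro ⟨h1, h2, h3⟩
  have h4 : (g : Matrix (Fin 2) (Fin 2) F) 0 0 = 1 := by
    have : ((g : Matrix (Fin 2) (Fin 2) F) 0 0 - 1) ^ 2 = 0 := by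
      rw [Matrix.det_fin_two] at hdet
      simp [h1, h3] at hdet
      rw [h3, hdet]
      simp
    exact sub_eq_zero.1 (pow_eq_zero_iff (two_ne_zero) |>.1 this)
  have : g = 1 := by
    ext i j
    fin_cases i <;> fin_cases j <;> simp [h1, h2, h4]
    rw [← h3, h4]
  rw [this] at hg
  simp at hg
  exact hp.one_lt.ne hg

/-- Over a finite field of characteristic p, any two elements of order p of GL₂ are conjugate: there is a single conjugacy class of non-identity unipotent elements. -/
theorem result {F : Type*} [Field F] [Fintype F] (p : ℕ) [Fact p.Prime] [CharP F p] (g h : Matrix.GeneralLinearGroup (Fin 2) F)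
    (hg : orderOf g = p) (hh : orderOf h = p) : IsConj g h := by
  obtain ⟨h1, h2, h3⟩ := aux p g hg
  obtain ⟨k1, k2, k3⟩ := aux p h hh
  exact H43.GL2Basic.gl_conj_of_trace_det g h h1 k1 (by rw [h2, k2]) (by rw [h3, k3])

end Cfsg.Agent.S2329
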