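import Cfsg.Statements.S2362
import Cfsg.Agent.Lib.H17.SpecOrd2

set_option autoImplicit false
open Cfsg

namespace Cfsg.Agent.S2362

/-- Let F be a finite field of odd order and n ≥ 3. The simple orthogonal group PΩ(2n+1, F) (type B_n) and the projective symplectic group PSp(2n, F) (type C_n), which have the same order, do not have the same set of element orders. -/
theorem result {F : Type*} [Field F] [Fintype F] (hodd : Odd (Fintype.card F)) (n : ℕ) (hn : 3 ≤ n) :
    Set.range (orderOf : Cfsg.POmega F (Cfsg.quadFormOdd n F) → ℕ) ≠ Set.range (orderOf : Cfsg.PSp n F → ℕ) := by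
  obtain ⟨p, hp⟩ := CharP.exists F
  have hpP : Fact p.Prime := ⟨CharP.char_is_prime F p⟩
  have h2 : (2 : F) ≠ 0 := H7.OmegaIso.two_ne_zero_of_odd hodd
  obtain ⟨m, rfl⟩ : ∃ m, n = m + 1 := ⟨n - 1, by omega⟩
  intro h
  have h3 := H17.SpecOrd2.mem_sp h2 p (m := m) (by omega)
  have h4 := H17.SpecOrd2.not_mem_o h2 p (m := m) (by omega)
  apply h4
  change _ ∈ Set.range (orderOf : Cfsg.POmega F (Cfsg.quadFormOdd (m + 1) F) → ℕ)
  rw [h]
  exact h3

end Cfsg.Agent.S2362
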