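import Cfsg.Statements.S2366
import Cfsg.Agent.Lib.H49.PSUOrd4

set_option autoImplicit false
open Cfsg

namespace Cfsg.Agent.S2366

/-- The set of element orders of PSU(3, q) for an odd prime power q = p^n: writing d = gcd(3, q + 1), a positive integer is the order of some element exactly when it divides one of q + 1, p(q + 1)/d, (q² − 1)/d, (q² − q + 1)/d. -/
theorem result {F : Type*} [Field F] [Fintype F] (p : ℕ) [Fact p.Prime] [CharP F p] (hp : p ≠ 2) (q : ℕ) (hF : Fintype.card F = q ^ 2) :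
    Set.range (orderOf : Cfsg.PSU 3 F q → ℕ) =
      {s : ℕ | s ∣ q + 1} ∪ {s : ℕ | s ∣ p * (q + 1) / Nat.gcd 3 (q + 1)} ∪
        {s : ℕ | s ∣ (q ^ 2 - 1) / Nat.gcd 3 (q + 1)} ∪ {s : ℕ | s ∣ (q ^ 2 - q + 1) / Nat.gcd 3 (q + 1)} := by
  obtain ⟨p', hp', hpc, f, hf, hq⟩ := H49.Unitary.exists_char_pow (H49.SUSS.natcard hF)
  have hpp : p' = p := CharP.eq F hpc ‹CharP F p›
  subst hpp
  have hq3 : 3 ≤ q := by
    rw [hq]
    have h1 := hp'.out.two_le
    have h2 : 3 ≤ p' := by omega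
    calc 3 ≤ p' := h2
      _ = p' ^ 1 := (pow_one _).symm
      _ ≤ p' ^ f := Nat.pow_le_pow_right (by omega) hf
  have hdiv : ∀ {N s : ℕ}, N ∈ Set.range (orderOf : Cfsg.PSU 3 F q → ℕ) → s ∣ N → N ≠ 0 →
      s ∈ Set.range (orderOf : Cfsg.PSU 3 F q → ℕ) := by
    rintro N s ⟨x, hx⟩ hs h0
    refine ⟨x ^ (N / s), ?_⟩
    rw [← hx]
    exact orderOf_pow_orderOf_div (by rw [hx]; exact h0) (by rw [hx]; exact hs)
  have hpos : 0 < Nat.gcd 3 (q + 1) := Nat.gcd_pos_of_pos_left _ (by norm_num)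
  obtain ⟨d1, d2, d3⟩ := H49.PSUOrd.d_dvd q (by omega)
  have hq2 : q + 1 ≤ q ^ 2 := by nlinarith
  ext s
  simp only [Set.mem_union, Set.mem_setOf_eq]
  constructor
  · rintro ⟨x, rfl⟩
    obtain ⟨u, rfl⟩ := QuotientGroup.mk_surjective x
    rcases H49.PSUOrd.upper_psu hF p' hp u with h | h | h | h
    · exact Or.inl (Or.inl (Or.inl h))
    · exact Or.inl (Or.inl (Or.inr h))
    · exact Or.inl (Or.inr h)
    · exact Or.inr h
  · rintro (((h | h) | h) | h)
    · exact hdiv (H49.PSUOrd.exists_E1 hF (by omega)) h (by omega)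
    · refine hdiv (H49.PSUOrd.exists_E2 hF (by omega) p' f hf hq) h ?_
      rw [Nat.mul_div_assoc _ d3]
      exact mul_ne_zero hp'.out.ne_zero (Nat.div_pos (Nat.le_of_dvd (by omega) d3) hpos).ne'
    · exact hdiv (H49.PSUOrd.exists_E3 hF (by omega)) h
        (Nat.div_pos (Nat.le_of_dvd (by omega) d1) hpos).ne'
    · exact hdiv (H49.PSUOrd.exists_E4 hF (by omega) p' f hf hq) h
        (Nat.div_pos (Nat.le_of_dvd (by omega) d2) hpos).ne'

end Cfsg.Agent.S2366
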