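import Cfsg.Statements.S2367
import Cfsg.Agent.Lib.H44.Cube

set_option autoImplicit false
open Cfsg

namespace Cfsg.Agent.S2367

/-- Let G be an alternating group of degree at least 5 or a simple group with the order of one of the 26 sporadic groups, and let p be an odd prime such that p³ is the exact power of p dividing the order of G. Then p³ is less than the 2-part of the order of G. -/
theorem result {G : Type*} [Group G] [Finite G] (hG : Cfsg.IsAlternating G ∨ Cfsg.IsSporadic G)
    (p : ℕ) (hp : p.Prime) (hodd : p ≠ 2) (h3 : (Nat.card G).factorization p = 3) :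
    p ^ 3 < 2 ^ (Nat.card G).factorization 2 := by
  rcases hG with ⟨n, hn, ⟨e⟩⟩ | hG
  · have : Nontrivial (Fin n) := Fin.nontrivial_iff_two_le.mpr (by omega)
    have h1 : Nat.card G = n.factorial / 2 := by
      rw [Nat.card_congr e.toEquiv]
      have h2 := two_mul_nat_card_alternatingGroup (α := Fin n)
      rw [Nat.card_perm, Nat.card_fin] at h2
      omega
    rw [h1] at h3 ⊢
    exact H44.Cube.alt n p hp hodd h3
  · exact H44.Cube.sporadic hG p hp hodd h3

end Cfsg.Agent.S2367
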