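import Cfsg.Statements.S2369
import Cfsg.Agent.Lib.H47.ReeMain

set_option autoImplicit false
open Cfsg

namespace Cfsg.Agent.S2369

/-- Let q = 2^(2m+1) with m ≥ 1 and let a, b be commuting elements of the large Ree group ²F₄(q) with a an involution. Then every prime divisor of the order of b divides q(q⁴ − 1). -/
theorem result {K : Type*} [Field K] [Fintype K] (m : ℕ) (hm : 1 ≤ m) (hK : Fintype.card K = 2 ^ (2 * m + 1))
    (a b : ↥(Cfsg.Lie.twistedF4 K (2 ^ m))) (ha : orderOf a = 2) (hab : Commute a b) :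
    (orderOf b).primeFactors ⊆ (2 ^ (2 * m + 1) * ((2 ^ (2 * m + 1)) ^ 4 - 1)).primeFactors := by
  intro s hsb
  have hs : s.Prime := Nat.prime_of_mem_primeFactors hsb
  have hsd : s ∣ orderOf b := Nat.dvd_of_mem_primeFactors hsb
  have hq8 : 2 ^ 3 ≤ 2 ^ (2 * m + 1) := Nat.pow_le_pow_right (by norm_num) (by omega)
  have hcard := H22.TwF4.s1068 hK
  have h2q : 2 ∣ 2 ^ (2 * m + 1) := dvd_pow_self 2 (by omega)
  have hq1 : 1 ≤ (2 ^ (2 * m + 1)) ^ 4 := Nat.one_le_pow _ _ (by omega)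
  have hq2 : 1 < (2 ^ (2 * m + 1)) ^ 4 := Nat.one_lt_pow (by norm_num) (by omega)
  rw [Nat.mem_primeFactors]
  refine ⟨hs, ?_, Nat.mul_ne_zero (by omega) (by omega)⟩
  by_contra hno
  have hsq : ¬ s ∣ 2 ^ (2 * m + 1) := fun h => hno (h.mul_right _)
  have hs4 : ¬ s ∣ (2 ^ (2 * m + 1)) ^ 4 - 1 := fun h => hno (h.mul_left _)
  have hs2 : s ≠ 2 := fun h => hsq (h ▸ h2q)
  have hs4' : ¬ (s : ℤ) ∣ ((2 ^ (2 * m + 1) : ℕ) : ℤ) ^ 4 - 1 := by
    intro h
    apply hs4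
    rw [← Int.natCast_dvd_natCast, Nat.cast_sub hq1]
    push_cast at h ⊢
    exact h
  have hsp := Nat.prime_iff_prime_int.1 hs
  have hs3 : s ≠ 3 := by
    rintro rfl
    apply hs4'
    have h3 : ¬ (3 : ℤ) ∣ ((2 ^ (2 * m + 1) : ℕ) : ℤ) := fun h => hsq (by exact_mod_cast h)
    generalize ((2 ^ (2 * m + 1) : ℕ) : ℤ) = z at *
    have h4 : (3 : ℤ) ∣ z ^ 2 - 1 := by
      have h5 : z % 3 = 1 ∨ z % 3 = 2 := by omega
      rcases h5 with h5 | h5
      · obtain ⟨k, hk⟩ : ∃ k, z = 3 * k + 1 := ⟨z / 3, by omega⟩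
        rw [hk]; exact ⟨3 * k ^ 2 + 2 * k, by ring⟩
      · obtain ⟨k, hk⟩ : ∃ k, z = 3 * k + 2 := ⟨z / 3, by omega⟩
        rw [hk]; exact ⟨3 * k ^ 2 + 4 * k + 1, by ring⟩
    have h5 : z ^ 4 - 1 = (z ^ 2 - 1) * (z ^ 2 + 1) := by ring
    show ((3 : ℕ) : ℤ) ∣ z ^ 4 - 1
    rw [h5]; exact h4.mul_right _
  have hs5 : 5 ≤ s := by
    have := hs.two_le
    have h4 : s ≠ 4 := by rintro rfl; exact absurd hs (by decide)
    omega
  -- elements of order `s`
  have hb0 : 0 < orderOf b := orderOf_pos b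
  obtain ⟨k, hk⟩ := hsd
  have hk0 : 0 < k := Nat.pos_of_ne_zero (by rintro rfl; omega)
  set c := b ^ k with hc
  have hcs : orderOf c = s := by
    rw [hc, orderOf_pow_of_dvd hk0.ne' ⟨s, by rw [hk, mul_comm]⟩, hk, Nat.mul_div_cancel _ hk0]
  have hac : Commute a c := hab.pow_right k
  have hdvd : s ∣ Nat.card ↥(Cfsg.Lie.twistedF4 K (2 ^ m)) := by rw [← hcs]; exact orderOf_dvd_natCard c
  have hfac : (s : ℤ) ∣ ((2 ^ (2 * m + 1) : ℕ) : ℤ) ^ 2 - (2 ^ (2 * m + 1) : ℕ) + 1 ∨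
      (s : ℤ) ∣ ((2 ^ (2 * m + 1) : ℕ) : ℤ) ^ 4 - ((2 ^ (2 * m + 1) : ℕ) : ℤ) ^ 2 + 1 := by
    have hc2 := (H22.TwF4.all hK).choose_spec.2.2.2.2.2
    rw [hc2] at hdvd
    have h1 : (s : ℤ) ∣ ((2 ^ (2 * m + 1) : ℕ) : ℤ) ^ 12 *
        ((((2 ^ (2 * m + 1) : ℕ) : ℤ) - 1) * (((2 ^ (2 * m + 1) : ℕ) : ℤ) - 1)) *
        ((1 + ((2 ^ (2 * m + 1) : ℕ) : ℤ)) * (1 + ((2 ^ (2 * m + 1) : ℕ) : ℤ) ^ 2) *
          (1 + ((2 ^ (2 * m + 1) : ℕ) : ℤ) ^ 3) * (1 + ((2 ^ (2 * m + 1) : ℕ) : ℤ) ^ 6)) := by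
      have h2 := Int.natCast_dvd_natCast.2 hdvd
      have h3 : 1 ≤ 2 ^ (2 * m + 1) := by omega
      rw [Nat.cast_mul, Nat.cast_mul, Nat.cast_mul, Nat.cast_sub h3] at h2
      push_cast at h2 ⊢
      exact h2
    have hq' : ¬ (s : ℤ) ∣ ((2 ^ (2 * m + 1) : ℕ) : ℤ) := fun h => hsq (Int.natCast_dvd_natCast.1 h)
    generalize ((2 ^ (2 * m + 1) : ℕ) : ℤ) = z at *
    have h4 : z ^ 4 - 1 = (z - 1) * ((z + 1) * (z ^ 2 + 1)) := by ring
    have ha1 : ¬ (s : ℤ) ∣ z - 1 := fun h => hs4' (by rw [h4]; exact h.mul_right _)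
    have ha2 : ¬ (s : ℤ) ∣ 1 + z := fun h => hs4' (by
      rw [h4]; exact ((show (s : ℤ) ∣ z + 1 by rwa [add_comm]).mul_right _).mul_left _)
    have ha3 : ¬ (s : ℤ) ∣ 1 + z ^ 2 := fun h => hs4' (by
      rw [h4]; exact ((show (s : ℤ) ∣ z ^ 2 + 1 by rwa [add_comm]).mul_left _).mul_left _)
    rcases hsp.dvd_mul.1 h1 with h | h
    · rcases hsp.dvd_mul.1 h with h | h
      · exact absurd (hsp.dvd_of_dvd_pow h) hq'
      · rcases hsp.dvd_mul.1 h with h | h <;> exact absurd h ha1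
    · rcases hsp.dvd_mul.1 h with h | h
      · rcases hsp.dvd_mul.1 h with h | h
        · rcases hsp.dvd_mul.1 h with h | h
          · exact absurd h ha2
          · exact absurd h ha3
        · left
          have e : 1 + z ^ 3 = (1 + z) * (z ^ 2 - z + 1) := by ring
          rw [e] at h
          exact (hsp.dvd_mul.1 h).resolve_left ha2
      · right
        have e : 1 + z ^ 6 = (1 + z ^ 2) * (z ^ 4 - z ^ 2 + 1) := by ring
        rw [e] at h
        exact (hsp.dvd_mul.1 h).resolve_left ha3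
  rcases hfac with h | h
  · -- primes dividing `q² - q + 1`
    have h1 := H47.ReeMain.main hK a.2 c.2
      (by
        have := pow_orderOf_eq_one a
        rw [ha] at this
        rw [← Subgroup.coe_pow, this]; rfl) hs hs5
      (by rw [← hcs]; exact orderOf_injective (Subgroup.subtype _) Subtype.val_injective c)
      (by
        have := congrArg Subtype.val hac.eq
        exact this) h
    have h2 : a = 1 := Subtype.ext h1
    rw [h2, orderOf_one] at ha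
    exact absurd ha (by norm_num)
  · -- primes dividing `q⁴ - q² + 1`
    have : Fact s.Prime := ⟨hs⟩
    have hle : Cfsg.Lie.twistedF4 K (2 ^ m) ≤ Cfsg.Lie.chevF4.group K :=
      H44.F4Ideal.twisted_le (H22.ChevAll.rel _ (by simp) K) _
    have hord : orderOf (a * c) = s * 2 := by
      rw [hac.orderOf_mul_eq_mul_orderOf_of_coprime (by
        rw [ha, hcs]; exact (Nat.coprime_primes Nat.prime_two hs).2 hs2.symm), ha, hcs, mul_comm]
    refine H47.SpecF4.no_two hK hs2 (Or.inr ?_) ⟨_, hle (a * c).2⟩ ?_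
    · refine H47.SpecF4.e12 hs2 ?_
      rw [H47.SpecF4.cyc12]
      simp only [Polynomial.eval_add, Polynomial.eval_sub, Polynomial.eval_pow, Polynomial.eval_X,
        Polynomial.eval_one]
      exact h
    · rw [← hord]
      exact orderOf_injective (Subgroup.inclusion hle) (Subgroup.inclusion_injective hle) (a * c)

end Cfsg.Agent.S2369
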