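import Cfsg.Statements.S2378
import Cfsg.Agent.Lib.H47.HomoG2
import Cfsg.Agent.Lib.H47.HomoB2
import Cfsg.Agent.Lib.H47.HomoD4
import Cfsg.Agent.Lib.H47.HomoF4
import Cfsg.Agent.Lib.H47.HomoE6
import Cfsg.Agent.Lib.H47.HomoE7
import Cfsg.Agent.Lib.H47.HomoE8
-- import your own Cfsg.Agent.* helpers here

set_option autoImplicit false
open Cfsg

namespace Cfsg.Agent.S2378

/-- Sylow subgroups for primes away from the characteristic and the Weyl group. Let `G` be the Chevalley group of type G₂, B₂, D₄, F₄, E₆, E₇ or E₈ over a field with `q` elements, with the degrees of its Weyl group listed beside the type (their product is the order of the Weyl group), and let `r` be a prime dividing the order of `G`, not dividing `q` and not dividing the order of the Weyl group. Let `d` be the multiplicative order of `q` modulo `r`, `a` the number of degrees divisible by `d`, and `m` the `r`-part of the value at `q` of the `d`-th cyclotomic polynomial. Then every Sylow `r`-subgroup of `G` is homocyclic: a direct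 product of `a` cyclic groups of order `m` (in particular abelian). -/
theorem result {F : Type*} [Field F] [Fintype F] {q : ℕ} (hq : Fintype.card F = q)
    (c : Cfsg.Lie.ChevalleyDatum × List ℕ)
    (hc : c ∈ [(Cfsg.Lie.chevG2, [2, 6]), (Cfsg.Lie.chevB2, [2, 4]), (Cfsg.Lie.chevD4, [2, 4, 4, 6]), (Cfsg.Lie.chevF4, [2, 6, 8, 12]),
      (Cfsg.Lie.chevE6, [2, 5, 6, 8, 9, 12]), (Cfsg.Lie.chevE7, [2, 6, 8, 10, 12, 14, 18]), (Cfsg.Lie.chevE8, [2, 8, 12, 14, 18, 20, 24, 30])])
    (r : ℕ) [Fact r.Prime] (hrq : ¬ r ∣ q) (hrW : ¬ r ∣ c.2.prod) (hrG : r ∣ Nat.card ↥(c.1.group F)) (P : Sylow r ↥(c.1.group F)) :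
    Nonempty (↥(P : Subgroup ↥(c.1.group F)) ≃*
      (Fin (c.2.filter (fun e => orderOf (q : ZMod r) ∣ e)).length →
        Multiplicative (ZMod (r ^ padicValNat r ((Polynomial.cyclotomic (orderOf (q : ZMod r)) ℤ).eval (q : ℤ)).natAbs)))) := by
  simp only [List.mem_cons, List.not_mem_nil, or_false] at hc
  rcases hc with rfl | rfl | rfl | rfl | rfl | rfl | rfl
  · exact H47.HomoG2.sylow hq hrq hrW hrG P
  · exact H47.HomoB2.sylow hq hrq hrW hrG P
  · exact H47.HomoD4.sylow hq hrq hrW hrG P
  · exact H47.HomoF4.sylow hq hrq hrW hrG P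
  · exact H47.HomoE6.sylow hq hrq hrW hrG P
  · exact H47.HomoE7.sylow hq hrq hrW hrG P
  · exact H47.HomoE8.sylow hq hrq hrW hrG P

end Cfsg.Agent.S2378
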