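import Cfsg.Statements.S2392
import Cfsg.Agent.Lib.H44.LSSL
import Cfsg.Agent.Lib.H44.LSExt

set_option autoImplicit false
open scoped MatrixGroups
open Cfsg

namespace Cfsg.Agent.S2392

/-- A lower bound for representations in cross characteristic: for `n ≥ 3` and a field `F` with `q` elements, every homomorphism from `SL_n(F)` to `GL_d(K)`, `K` a field of characteristic different from that of `F`, whose kernel is central has `d ≥ q^(n-1) - 1`. -/
theorem result {F : Type*} [Field F] [Fintype F] {q : ℕ} (hq : Fintype.card F = q) (n : ℕ) (hn : 3 ≤ n)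
    {K : Type*} [Field K] (hK : ringChar K ≠ ringChar F) {d : ℕ}
    (ρ : Matrix.SpecialLinearGroup (Fin n) F →* GL (Fin d) K) (hker : ρ.ker ≤ Subgroup.center (Matrix.SpecialLinearGroup (Fin n) F)) :
    q ^ (n - 1) - 1 ≤ d := by
  classical
  subst hq
  have hp := H44.LSExt.natCast_ne_zero' hK
  obtain ⟨m, rfl⟩ : ∃ m, n = m + 1 := ⟨n - 1, by omega⟩
  obtain ⟨e⟩ : Nonempty (Fin m ⊕ Unit ≃ Fin (m + 1)) :=
    ⟨Fintype.equivOfCardEq (by simp)⟩
  have hm : 2 ≤ Fintype.card (Fin m) := by rw [Fintype.card_fin]; omega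
  have hτ : ∃ a, ((H44.LSExt.ext ρ).comp (H44.Laws.slReindex e)) (H44.LSSL.slJ (Fin m) F a) ≠ 1 := by
    by_contra hcon
    push Not at hcon
    have h1 := H44.LSExt.ext_eq_one ρ _ (hcon (Multiplicative.ofAdd (fun _ => 1)))
    have h2 := hker h1
    rw [Matrix.SpecialLinearGroup.mem_center_iff] at h2
    obtain ⟨r, _, hr⟩ := h2
    have h3 := congrFun (congrFun hr (e (Sum.inl ⟨0, by omega⟩))) (e (Sum.inr ()))
    have h4 : ((H44.Laws.slReindex e (H44.LSSL.slJ (Fin m) F (Multiplicative.ofAdd (fun _ => 1)))).1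
      (e (Sum.inl ⟨0, by omega⟩)) (e (Sum.inr ()))) = 1 := by
      change (H44.LSSL.slJ (Fin m) F (Multiplicative.ofAdd (fun _ => 1))).1.submatrix e.symm e.symm
        _ _ = 1
      rw [Matrix.submatrix_apply, e.symm_apply_apply, e.symm_apply_apply, H44.LSSL.slJ_coe]
      simp
    rw [← h3, Matrix.scalar_apply, Matrix.diagonal_apply_ne] at h4
    · exact zero_ne_one h4
    · intro h5
      exact Sum.inl_ne_inr (e.injective h5)
  have h1 := H44.LSSL.lower hm hp ((H44.LSExt.ext ρ).comp (H44.Laws.slReindex e)) hτ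
  rw [Module.finrank_fintype_fun_eq_card, Fintype.card_fin, Fintype.card_fin] at h1
  rwa [Nat.add_sub_cancel]

end Cfsg.Agent.S2392
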