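import Cfsg.Statements.S2393
import Cfsg.Agent.Lib.H44.LSSp
import Cfsg.Agent.Lib.H44.LSExt

set_option autoImplicit false
open scoped MatrixGroups
open Cfsg

namespace Cfsg.Agent.S2393

/-- A lower bound for representations in cross characteristic: for `n ≥ 2` and a field `F` with `q` elements, `q` odd, every homomorphism from the symplectic group `Sp_{2n}(F)` to `GL_d(K)`, `K` a field of characteristic different from that of `F`, whose kernel is central has `d ≥ q^(n-1)(q-1)/2`. -/
theorem result {F : Type*} [Field F] [Fintype F] {q : ℕ} (hq : Fintype.card F = q) (hodd : Odd q) (n : ℕ) (hn : 2 ≤ n)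
    {K : Type*} [Field K] (hK : ringChar K ≠ ringChar F) {d : ℕ}
    (ρ : ↥(Matrix.symplecticGroup (Fin n) F) →* GL (Fin d) K) (hker : ρ.ker ≤ Subgroup.center ↥(Matrix.symplecticGroup (Fin n) F)) :
    q ^ (n - 1) * (q - 1) / 2 ≤ d := by
  classical
  subst hq
  have hp := H44.LSExt.natCast_ne_zero' hK
  have hne : Nonempty (Fin n) := ⟨⟨0, by omega⟩⟩
  have hτ : ∃ g, H44.LSExt.ext ρ g ≠ 1 := by
    by_contra hcon
    push Not at hcon
    apply H6.SympSimple.center_ne_top (F := F) (l := Fin n)
    rw [eq_top_iff]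
    intro g _
    apply hker
    exact H44.LSExt.ext_eq_one ρ g (hcon g)
  obtain ⟨m, rfl⟩ : ∃ m, n = m + 1 := ⟨n - 1, by omega⟩
  have h1 := H44.LSSp.lower hodd (l := Fin (m + 1)) (Fintype.card_fin _) hp (H44.LSExt.ext ρ) hτ
  rw [Module.finrank_fintype_fun_eq_card, Fintype.card_fin] at h1
  have h2 : 1 ≤ Fintype.card F ^ m := Nat.one_le_pow _ _ Fintype.card_pos
  rw [Nat.add_sub_cancel, Nat.div_le_iff_le_mul_add_pred (by norm_num), Nat.mul_sub, mul_one,
    ← pow_succ]
  omega

end Cfsg.Agent.S2393
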