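import Cfsg.Statements.S2405
import Cfsg.Agent.Lib.H45.Gen2C

set_option autoImplicit false
open Cfsg

namespace Cfsg.Agent.S2405

/-- Each Chevalley group of type G₂, B₂, D₄, F₄, E₆, E₇ or E₈ over a finite field is generated by two of its elements (types B₂ and G₂ over the field with two elements, where the group is not simple, excepted). -/
theorem result {F : Type*} [Field F] [Finite F] (D : Cfsg.Lie.ChevalleyDatum) (hD : D ∈ [Cfsg.Lie.chevG2, Cfsg.Lie.chevB2, Cfsg.Lie.chevD4, Cfsg.Lie.chevF4, Cfsg.Lie.chevE6, Cfsg.Lie.chevE7, Cfsg.Lie.chevE8])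
    (hF : D ∈ [Cfsg.Lie.chevB2, Cfsg.Lie.chevG2] → ∃ x : F, x ≠ 0 ∧ x ≠ 1) :
    ∃ a b : ↥(D.group F), Subgroup.closure ({a, b} : Set ↥(D.group F)) = ⊤ := by
  have R := H22.ChevAll.rel D hD F
  obtain ⟨X, -⟩ := H22.ChevRC.exists_rcx hD
  by_cases h : ∃ x : F, x ≠ 0 ∧ x ≠ 1
  · simp only [List.mem_cons, List.not_mem_nil, or_false] at hD
    rcases hD with rfl | rfl | rfl | rfl | rfl | rfl | rfl
    · exact H45.Gen2.g3G2 R X h
    · exact H45.Gen2.g3B2 R X h
    · exact H45.Gen2.g3D4 R X h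
    · exact H45.Gen2.g3F4 R X h
    · exact H45.Gen2.g3E6 R X h
    · exact H45.Gen2.g3E7 R X h
    · exact H45.Gen2.g3E8 R X h
  · have h2 : ∀ x : F, x = 0 ∨ x = 1 := by
      intro x
      by_contra hx
      push Not at hx
      exact h ⟨x, hx⟩
    simp only [List.mem_cons, List.not_mem_nil, or_false] at hD
    rcases hD with rfl | rfl | rfl | rfl | rfl | rfl | rfl
    · exact absurd (hF (by simp)) h
    · exact absurd (hF (by simp)) h
    · exact H45.Gen2.g2D4 R X h2
    · exact H45.Gen2.g2F4 R X h2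
    · exact H45.Gen2.g2E6 R X h2
    · exact H45.Gen2.g2E7 R X h2
    · exact H45.Gen2.g2E8 R X h2


end Cfsg.Agent.S2405
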