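import Cfsg.Statements.S2410
import Cfsg.Agent.Lib.H42.SuzMax7
import Mathlib

set_option autoImplicit false
open Cfsg

namespace Cfsg.Agent.S2410

/-- The Suzuki group over the field with `2^(2m+1)` elements, `m ≥ 1` (realised as the stabiliser in `SL₄` of the Suzuki–Tits ovoid), is generated by two of its elements. -/
theorem result {F : Type*} [Field F] [Fintype F] {m : ℕ} (hm : 1 ≤ m) (hF : Fintype.card F = 2 ^ (2 * m + 1)) :
    ∃ a b : ↥(Cfsg.Sz F m), Subgroup.closure ({a, b} : Set ↥(Cfsg.Sz F m)) = ⊤ := by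
  classical
  obtain ⟨A, B, hA, -, hcA, -, hnA, -⟩ := H42.SuzPart.exists_tori hm hF
  have hcyc := H8.SuzTorus.Tor.isCyclic hF hA
  obtain ⟨⟨y, hyA⟩, hy⟩ := hcyc.exists_generator
  have hoy : orderOf y = Nat.card A := by
    have h1 : orderOf (⟨y, hyA⟩ : A) = Nat.card A := orderOf_eq_card_of_forall_mem_zpowers hy
    rw [← h1]
    exact Subgroup.orderOf_coe (⟨y, hyA⟩ : A)
  have hodd : ¬ 2 ∣ Nat.card A := fun h2 =>
    H8.SuzTorus.ne_two (m := m) Nat.prime_two (hA.dvd_of_prime hm hF Nat.prime_two h2) rfl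
  have hA1 : Nat.card A ≠ 1 := by
    rw [hcA]
    have h1 : 0 < 2 ^ (2 * m + 1) := by positivity
    generalize 2 ^ (2 * m + 1) = q at h1 ⊢
    generalize 2 ^ (m + 1) = r
    omega
  have hq8 : 8 ≤ 2 ^ (2 * m + 1) := by
    calc 8 = 2 ^ 3 := by norm_num
      _ ≤ 2 ^ (2 * m + 1) := Nat.pow_le_pow_right (by norm_num) (by omega)
  have hr0 : 0 ≤ 2 ^ (m + 1) := Nat.zero_le _
  -- A is not normal
  obtain ⟨z, hz⟩ : ∃ z : Cfsg.Sz F m, z ∉ Subgroup.normalizer (A : Set (Cfsg.Sz F m)) := by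
    by_contra hno
    push Not at hno
    have h1 : Subgroup.normalizer (A : Set (Cfsg.Sz F m)) = ⊤ := by
      rw [Subgroup.eq_top_iff']
      exact hno
    rw [h1, Subgroup.card_top, H8.SuzGroup.card_Sz hm hF] at hnA
    have h2 : (2 ^ (2 * m + 1)) ^ 2 ∣ 4 * Nat.card A := by
      rw [← hnA, mul_assoc]
      exact dvd_mul_right _ _
    have h3 : Nat.Coprime ((2 ^ (2 * m + 1)) ^ 2) (Nat.card A) := by
      apply Nat.Coprime.pow_left
      apply Nat.Coprime.pow_left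
      exact (Nat.Prime.coprime_iff_not_dvd Nat.prime_two).2 hodd
    have h4 := Nat.le_of_dvd (by norm_num) (h3.dvd_of_dvd_mul_right h2)
    nlinarith
  refine ⟨y, z, ?_⟩
  by_contra hne
  have hyM : y ∈ Subgroup.closure ({y, z} : Set ↥(Cfsg.Sz F m)) := Subgroup.subset_closure (by simp)
  have hzM : z ∈ Subgroup.closure ({y, z} : Set ↥(Cfsg.Sz F m)) := Subgroup.subset_closure (by simp)
  have hy1 : y ≠ 1 := by
    rintro rfl
    rw [orderOf_one] at hoy
    exact hA1 hoy.symm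
  rcases H42.SuzMax.good_all hm hF _ hne with ⟨g, hg⟩ | ⟨V, hV, hM⟩ | ⟨k, hk1, hkm, hdiv, S, ⟨e⟩, hS⟩
  · -- point stabilizer
    have h1 := hg hyM
    obtain ⟨r, hr, hrA⟩ := Nat.exists_prime_and_dvd hA1
    have hrq := hA.dvd_of_prime hm hF hr hrA
    have h2 : r ∣ Nat.card ((H42.SuzSol.Ginf F m).map (MulAut.conj g).toMonoidHom) := by
      have h3 := orderOf_dvd_natCard (⟨y, h1⟩ : (H42.SuzSol.Ginf F m).map (MulAut.conj g).toMonoidHom)
      rw [← Subgroup.orderOf_coe, hoy] at h3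
      exact hrA.trans h3
    have h3 : Nat.card ((H42.SuzSol.Ginf F m).map (MulAut.conj g).toMonoidHom) = (2 ^ (2 * m + 1)) ^ 2 * (2 ^ (2 * m + 1) - 1) := by
      rw [← H8.SuzGroup.card_stab hm hF]
      exact (Nat.card_congr ((H42.SuzSol.Ginf F m).equivMapOfInjective (MulAut.conj g).toMonoidHom
        (MulAut.conj g).injective).toEquiv).symm
    rw [h3] at h2
    rcases (Nat.Prime.dvd_mul hr).1 h2 with h4 | h4
    · exact H8.SuzTorus.not_dvd_sq hr hrq h4
    · exact H8.SuzTorus.not_dvd_sub hr hrq h4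
  · -- torus normalizer
    obtain ⟨c, hc⟩ := hV.isTorus hm hF
    have h1 : y ∈ V := hc.mem_of_odd (hM hyM) (by rw [hoy]; exact hodd)
    have h2 : V = A := by rw [← hc.cent y h1 hy1, hA.centralizer hm hF hyA hy1]
    exact hz (h2 ▸ hM hzM)
  · -- subfield
    have hyS := hS hyM
    have h1 := orderOf_dvd_natCard (⟨y, hyS⟩ : S)
    rw [← Subgroup.orderOf_coe, hoy, Nat.card_congr e.toEquiv] at h1
    have : Fintype (GaloisField 2 (2 * k + 1)) := Fintype.ofFinite _
    have hF' : Fintype.card (GaloisField 2 (2 * k + 1)) = 2 ^ (2 * k + 1) := by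
      rw [← Nat.card_eq_fintype_card, GaloisField.card 2 _ (by omega)]
    rw [H8.SuzGroup.card_Sz hk1 hF', mul_assoc] at h1
    have h3 : Nat.Coprime (Nat.card A) ((2 ^ (2 * k + 1)) ^ 2) := by
      apply Nat.Coprime.pow_right
      apply Nat.Coprime.pow_right
      exact ((Nat.Prime.coprime_iff_not_dvd Nat.prime_two).2 hodd).symm
    have h4 := h3.dvd_of_dvd_mul_left h1
    have hq0 : 2 ≤ 2 ^ (2 * k + 1) := by
      calc 2 = 2 ^ 1 := by norm_num
        _ ≤ 2 ^ (2 * k + 1) := Nat.pow_le_pow_right (by norm_num) (by omega)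
    have h5 := Nat.le_of_dvd (Nat.mul_pos (by positivity) (by omega)) h4
    have h6 : (2 ^ (2 * k + 1)) ^ 3 ≤ 2 ^ (2 * m + 1) := by
      rw [← pow_mul]
      apply Nat.pow_le_pow_right (by norm_num)
      obtain ⟨j, hj⟩ := hdiv
      have hj3 : 3 ≤ j := by
        by_contra h
        have : j = 0 ∨ j = 1 ∨ j = 2 := by omega
        rcases this with rfl | rfl | rfl <;> omega
      rw [hj]
      exact Nat.mul_le_mul_left _ hj3
    rw [hcA] at h5
    obtain ⟨a, ha⟩ : ∃ a, 2 ^ (2 * k + 1) = a + 1 := ⟨2 ^ (2 * k + 1) - 1, by omega⟩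
    rw [ha] at h5 h6
    rw [Nat.add_sub_cancel] at h5
    have h7 : (a + 1) ^ 3 < ((a + 1) ^ 2 + 1) * a := by omega
    have h8 : ((a + 1) ^ 2 + 1) * a ≤ (a + 1) ^ 3 := by nlinarith [sq_nonneg a]
    omega

end Cfsg.Agent.S2410
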