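import Cfsg.Statements.S2416
import Cfsg.Agent.Lib.H45.ChevGen
import Cfsg.Agent.Lib.H22.PoinG2
import Cfsg.Agent.Lib.H22.PoinB2
import Cfsg.Agent.Lib.H22.PoinD4
import Cfsg.Agent.Lib.H22.PoinF4
import Cfsg.Agent.Lib.H22.PoinE6
import Cfsg.Agent.Lib.H22.PoinE7
import Cfsg.Agent.Lib.H22.PoinE8

set_option autoImplicit false
open scoped MatrixGroups
open Cfsg

namespace Cfsg.Agent.S2416

open H22.ChevRel H22.ChevAll H45.ChevGen in
theorem aux_sl {K : Type*} [Field K] {D : Cfsg.Lie.ChevalleyDatum} (R : Rel D K)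
    (X : H22.RCComb.RCX D) (i : ℕ) (hi : i < D.rank)
    (hr : ∀ i < D.rank, ∀ j < D.rank, j ∈ reach D D.rank [i]) :
    D.group K ≤ D.monomialSubgroup K ⊔ D.rootSubgroup K (D.simple i) := by
  refine group_le_of_reach R X (fun j hj => ns_mem R X le_sup_left hj) [i] ?_ D.rank (hr i hi)
  intro k hk
  rw [List.mem_singleton] at hk
  subst hk
  exact ⟨hi, le_sup_right⟩

theorem cast_ne_zero {K : Type*} [Field K] {p : ℕ} (hp : p.Prime) (h : ringChar K ≠ p) :
    ((p : ℤ) : K) ≠ 0 := by
  intro hc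
  apply h
  have h1 : ringChar K ∣ p := by
    rw [← CharP.cast_eq_zero_iff K (ringChar K)]
    exact_mod_cast hc
  rcases (Nat.dvd_prime hp).1 h1 with h2 | h2
  · exact absurd h2 (CharP.ringChar_ne_one)
  · exact h2

open H22.ChevRel H22.ChevAll H45.ChevGen in
theorem aux_dl {K : Type*} [Field K] {D : Cfsg.Lie.ChevalleyDatum} (R : Rel D K)
    (X : H22.RCComb.RCX D) (i j₀ : ℕ) (hi : i < D.rank) (hj₀ : j₀ < D.rank)
    (hr : ∀ j < D.rank, j ∈ reach D D.rank [i, j₀])
    (hP : (∀ j < D.rank, H22.ChevSys.ns R j ∈ D.monomialSubgroup K ⊔ D.rootSubgroup K (D.simple i)) →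
      P (D.monomialSubgroup K ⊔ D.rootSubgroup K (D.simple i)) (D.simple i) →
      P (D.monomialSubgroup K ⊔ D.rootSubgroup K (D.simple i)) (D.simple j₀)) :
    D.group K ≤ D.monomialSubgroup K ⊔ D.rootSubgroup K (D.simple i) := by
  have hn : ∀ j < D.rank, H22.ChevSys.ns R j ∈ D.monomialSubgroup K ⊔ D.rootSubgroup K (D.simple i) :=
    fun j hj => ns_mem R X le_sup_left hj
  refine group_le_of_reach R X hn [i, j₀] ?_ D.rank hr
  intro k hk
  simp only [List.mem_cons, List.not_mem_nil, or_false] at hk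
  rcases hk with rfl | rfl
  · exact ⟨hi, le_sup_right⟩
  · exact ⟨hj₀, hP hn le_sup_right⟩

open H22.ChevRel H22.ChevAll H45.ChevGen in
theorem aux_F4 {K : Type*} [Field K] (R : Rel Cfsg.Lie.chevF4 K) (h2 : ringChar K ≠ 2)
    (G' : Subgroup (GL Cfsg.Lie.chevF4.Idx K))
    (hn : ∀ j < Cfsg.Lie.chevF4.rank, H22.ChevSys.ns R j ∈ G')
    (h : P G' (Cfsg.Lie.chevF4.simple 1)) : P G' (Cfsg.Lie.chevF4.simple 2) := by
  have h1 : P G' 27 := h
  have h3 : P G' 28 := by
    have := P_refl R H22.PoinF4.rcxF4 hn (i := 2) (r := 27) (by decide) (by decide) h1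
    have e : Cfsg.Lie.chevF4.reflectRoot 2 27 = 28 := by decide +kernel
    rwa [e] at this
  have h4 : P G' 30 := P_comm R H22.PoinF4.rcxF4 (r := 27) (s := 28) (k := 30) (c := 2)
    (by decide) (by decide) (by decide) (by decide +kernel) (by decide +kernel)
    (cast_ne_zero Nat.prime_two h2) h1 h3
  have := P_refl R H22.PoinF4.rcxF4 hn (i := 1) (r := 30) (by decide) (by decide) h4
  have e : Cfsg.Lie.chevF4.reflectRoot 1 30 = Cfsg.Lie.chevF4.simple 2 := by decide +kernel
  rwa [e] at this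

open H22.ChevRel H22.ChevAll H45.ChevGen in
theorem aux_B2 {K : Type*} [Field K] (R : Rel Cfsg.Lie.chevB2 K) (h2 : ringChar K ≠ 2)
    (G' : Subgroup (GL Cfsg.Lie.chevB2.Idx K))
    (hn : ∀ j < Cfsg.Lie.chevB2.rank, H22.ChevSys.ns R j ∈ G')
    (h : P G' (Cfsg.Lie.chevB2.simple 0)) : P G' (Cfsg.Lie.chevB2.simple 1) := by
  have h1 : P G' 5 := h
  have h3 : P G' 6 := by
    have := P_refl R H22.PoinB2.rcxB2 hn (i := 1) (r := 5) (by decide) (by decide) h1
    have e : Cfsg.Lie.chevB2.reflectRoot 1 5 = 6 := by decide +kernel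
    rwa [e] at this
  have h4 : P G' 7 := P_comm R H22.PoinB2.rcxB2 (r := 5) (s := 6) (k := 7) (c := 2)
    (by decide) (by decide) (by decide) (by decide +kernel) (by decide +kernel)
    (cast_ne_zero Nat.prime_two h2) h1 h3
  have := P_refl R H22.PoinB2.rcxB2 hn (i := 0) (r := 7) (by decide) (by decide) h4
  have e : Cfsg.Lie.chevB2.reflectRoot 0 7 = Cfsg.Lie.chevB2.simple 1 := by decide +kernel
  rwa [e] at this

open H22.ChevRel H22.ChevAll H45.ChevGen in
theorem aux_G2 {K : Type*} [Field K] (R : Rel Cfsg.Lie.chevG2 K) (h2 : ringChar K ≠ 3)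
    (G' : Subgroup (GL Cfsg.Lie.chevG2.Idx K))
    (hn : ∀ j < Cfsg.Lie.chevG2.rank, H22.ChevSys.ns R j ∈ G')
    (h : P G' (Cfsg.Lie.chevG2.simple 0)) : P G' (Cfsg.Lie.chevG2.simple 1) := by
  have h1 : P G' 7 := h
  have h3 : P G' 8 := by
    have := P_refl R H22.PoinG2.rcxG2 hn (i := 1) (r := 7) (by decide) (by decide) h1
    have e : Cfsg.Lie.chevG2.reflectRoot 1 7 = 8 := by decide +kernel
    rwa [e] at this
  have h5 : P G' 9 := by
    have := P_refl R H22.PoinG2.rcxG2 hn (i := 0) (r := 8) (by decide) (by decide) h3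
    have e : Cfsg.Lie.chevG2.reflectRoot 0 8 = 9 := by decide +kernel
    rwa [e] at this
  have h4 : P G' 10 := P_comm R H22.PoinG2.rcxG2 (r := 7) (s := 9) (k := 10) (c := 3)
    (by decide) (by decide) (by decide) (by decide +kernel) (by decide +kernel)
    (cast_ne_zero Nat.prime_three h2) h1 h5
  have := P_refl R H22.PoinG2.rcxG2 hn (i := 0) (r := 10) (by decide) (by decide) h4
  have e : Cfsg.Lie.chevG2.reflectRoot 0 10 = Cfsg.Lie.chevG2.simple 1 := by decide +kernel
  rwa [e] at this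


/-- A Chevalley group of type G₂, B₂, D₄, F₄, E₆, E₇ or E₈ over a finite field lies in (indeed equals) the subgroup generated by its monomial subgroup `N` and a single fundamental root subgroup `X_p`, where `p` is a short fundamental root if there are two root lengths (any fundamental root otherwise), provided the characteristic is not 2 for types B₂, F₄ and not 3 for type G₂ (and the field has more than two elements for B₂, G₂). -/
theorem result {K : Type*} [Field K] [Finite K] (D : Cfsg.Lie.ChevalleyDatum) (hD : D ∈ [Cfsg.Lie.chevG2, Cfsg.Lie.chevB2, Cfsg.Lie.chevD4, Cfsg.Lie.chevF4, Cfsg.Lie.chevE6, Cfsg.Lie.chevE7, Cfsg.Lie.chevE8])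
    (hK : D ∈ [Cfsg.Lie.chevB2, Cfsg.Lie.chevG2] → ∃ x : K, x ≠ 0 ∧ x ≠ 1)
    (h2 : D ∈ [Cfsg.Lie.chevB2, Cfsg.Lie.chevF4] → ringChar K ≠ 2) (h3 : D = Cfsg.Lie.chevG2 → ringChar K ≠ 3)
    (i : ℕ) (hi : i < D.rank) (hshort : D.isLong (D.simple i) = false) :
    D.group K ≤ D.monomialSubgroup K ⊔ D.rootSubgroup K (D.simple i) := by
  have R := H22.ChevAll.rel D hD K
  simp only [List.mem_cons, List.not_mem_nil, or_false] at hD
  rcases hD with rfl | rfl | rfl | rfl | rfl | rfl | rfl
  · have hi' : i < 2 := hi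
    interval_cases i
    · exact aux_dl R H22.PoinG2.rcxG2 0 1 (by decide) (by decide) (by decide +kernel)
        (fun hn h => aux_G2 R (h3 rfl) _ hn h)
    · exact absurd hshort (by decide +kernel)
  · have hi' : i < 2 := hi
    have h2' := h2 (by simp)
    interval_cases i
    · exact aux_dl R H22.PoinB2.rcxB2 0 1 (by decide) (by decide) (by decide +kernel)
        (fun hn h => aux_B2 R h2' _ hn h)
    · exact absurd hshort (by decide +kernel)
  · exact aux_sl R H22.PoinD4.rcxD4 i hi (by decide +kernel)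
  · have hi' : i < 4 := hi
    have h2' := h2 (by simp)
    interval_cases i
    · refine aux_dl R H22.PoinF4.rcxF4 0 2 (by decide) (by decide) (by decide +kernel)
        (fun hn h => aux_F4 R h2' _ hn ?_)
      exact H45.ChevGen.P_adj R H22.PoinF4.rcxF4 hn (i := 0) (j := 1) (by decide) (by decide)
        (by decide +kernel) h
    · exact aux_dl R H22.PoinF4.rcxF4 1 2 (by decide) (by decide) (by decide +kernel)
        (fun hn h => aux_F4 R h2' _ hn h)
    · exact absurd hshort (by decide +kernel)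
    · exact absurd hshort (by decide +kernel)
  · exact aux_sl R H22.PoinE6.rcxE6 i hi (by decide +kernel)
  · exact aux_sl R H22.PoinE7.rcxE7 i hi (by decide +kernel)
  · exact aux_sl R H22.PoinE8.rcxE8 i hi (by decide +kernel)


end Cfsg.Agent.S2416
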