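import Cfsg.Statements.S2417
import Cfsg.Agent.Lib.H45.ChevGen
import Cfsg.Agent.Lib.H22.PoinG2
import Cfsg.Agent.Lib.H22.PoinB2
import Cfsg.Agent.Lib.H22.PoinF4

set_option autoImplicit false
open scoped MatrixGroups
open Cfsg

namespace Cfsg.Agent.S2417

open H22.ChevRel H22.ChevAll H45.ChevGen in
theorem aux {K : Type*} [Field K] {D : Cfsg.Lie.ChevalleyDatum} (R : Rel D K)
    (X : H22.RCComb.RCX D) (i j : ℕ) (hi : i < D.rank) (hj : j < D.rank)
    (hr : ∀ k < D.rank, k ∈ reach D D.rank [i, j]) :
    D.group K ≤ D.monomialSubgroup K ⊔ D.rootSubgroup K (D.simple i) ⊔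
      D.rootSubgroup K (D.simple j) := by
  refine group_le_of_reach R X (fun k hk => ns_mem R X (le_sup_left.trans le_sup_left) hk)
    [i, j] ?_ D.rank hr
  intro k hk
  simp only [List.mem_cons, List.not_mem_nil, or_false] at hk
  rcases hk with rfl | rfl
  · exact ⟨hi, le_sup_right.trans le_sup_left⟩
  · exact ⟨hj, le_sup_right⟩


/-- In the characteristics with an exceptional graph symmetry — type B₂ or F₄ in characteristic 2 (field of more than two elements for B₂) and type G₂ in characteristic 3 — the Chevalley group lies in the subgroup generated by its monomial subgroup `N` and the two fundamental root subgroups `X_a`, `X_b` of a short root `a` and a long root `b` joined in the Dynkin diagram. -/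
theorem result {K : Type*} [Field K] [Finite K] (e : Cfsg.Lie.ChevalleyDatum × ℕ)
    (he : e ∈ [(Cfsg.Lie.chevB2, 2), (Cfsg.Lie.chevF4, 2), (Cfsg.Lie.chevG2, 3)]) [CharP K e.2]
    (hK : e.1 = Cfsg.Lie.chevB2 → ∃ x : K, x ≠ 0 ∧ x ≠ 1)
    (i j : ℕ) (hi : i < e.1.rank) (hj : j < e.1.rank) (hshort : e.1.isLong (e.1.simple i) = false)
    (hlong : e.1.isLong (e.1.simple j) = true) (hbond : e.1.bonds i j ≠ 0) :
    e.1.group K ≤ e.1.monomialSubgroup K ⊔ e.1.rootSubgroup K (e.1.simple i) ⊔ e.1.rootSubgroup K (e.1.simple j) := by
  simp only [List.mem_cons, List.not_mem_nil, or_false] at he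
  rcases he with rfl | rfl | rfl
  · have R := H22.ChevAll.rel Cfsg.Lie.chevB2 (by simp) K
    have hi' : i < 2 := hi
    have hj' : j < 2 := hj
    interval_cases i
    · interval_cases j
      · exact absurd hlong (by decide +kernel)
      · exact aux R H22.PoinB2.rcxB2 0 1 (by decide) (by decide) (by decide +kernel)
    · exact absurd hshort (by decide +kernel)
  · have R := H22.ChevAll.rel Cfsg.Lie.chevF4 (by simp) K
    have hi' : i < 4 := hi
    have hj' : j < 4 := hj
    interval_cases i
    · interval_cases j
      · exact absurd hlong (by decide +kernel)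
      · exact absurd hlong (by decide +kernel)
      · exact absurd hbond (by decide +kernel)
      · exact absurd hbond (by decide +kernel)
    · interval_cases j
      · exact absurd hlong (by decide +kernel)
      · exact absurd hlong (by decide +kernel)
      · exact aux R H22.PoinF4.rcxF4 1 2 (by decide) (by decide) (by decide +kernel)
      · exact absurd hbond (by decide +kernel)
    · exact absurd hshort (by decide +kernel)
    · exact absurd hshort (by decide +kernel)
  · have R := H22.ChevAll.rel Cfsg.Lie.chevG2 (by simp) K
    have hi' : i < 2 := hi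
    have hj' : j < 2 := hj
    interval_cases i
    · interval_cases j
      · exact absurd hlong (by decide +kernel)
      · exact aux R H22.PoinG2.rcxG2 0 1 (by decide) (by decide) (by decide +kernel)
    · exact absurd hshort (by decide +kernel)


end Cfsg.Agent.S2417
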