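import Cfsg.Statements.S2419

set_option autoImplicit false
open Cfsg

namespace Cfsg.Agent.S2419

section gen

variable {B : Type*} (M : CoxeterMatrix B)

theorem rel (i j : B) : (M.simple i * M.simple j) ^ M i j = 1 :=
  M.toCoxeterSystem.simple_mul_simple_pow i j

theorem sq (i : B) : M.simple i * M.simple i = 1 := M.toCoxeterSystem.simple_mul_simple_self i

theorem inv (i : B) : (M.simple i)⁻¹ = M.simple i := M.toCoxeterSystem.inv_simple i

theorem comm {i j : B} (h : M i j = 2) : M.simple i * M.simple j = M.simple j * M.simple i := by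
  have h1 := rel M i j
  rw [h, pow_two] at h1
  have h2 : M.simple i * M.simple j = (M.simple i * M.simple j)⁻¹ := eq_inv_of_mul_eq_one_left h1
  rw [h2, mul_inv_rev, inv, inv]

theorem braid {i j : B} (h : M i j = 3) : M.simple i * M.simple j * M.simple i = M.simple j * M.simple i * M.simple j := by
  have h1 := rel M i j
  rw [h] at h1
  have h2 : (M.simple i * M.simple j * M.simple i) * (M.simple j * M.simple i * M.simple j) = 1 := by
    rw [← h1, pow_succ, pow_two]; group
  have h3 := eq_inv_of_mul_eq_one_left h2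
  rw [h3, mul_inv_rev, mul_inv_rev, inv, inv]; group

theorem simple_mem_top (H : Subgroup M.Group) (h : ∀ i, M.simple i ∈ H) : H = ⊤ := by
  rw [eq_top_iff, ← M.toCoxeterSystem.subgroup_closure_range_simple, Subgroup.closure_le]
  rintro _ ⟨i, rfl⟩
  exact h i

end gen

section abs

variable {G : Type*} [Group G]

theorem shift (A B a b : G) (hb : Commute B a) (ha : Commute A b) (hbr : a * b * a = b * a * b) :
    (A * a * b * B) * a * (A * a * b * B)⁻¹ = b := by
  rw [mul_inv_eq_iff_eq_mul]
  calc A * a * b * B * a = A * (a * b * (B * a)) := by group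
    _ = A * (a * b * a) * B := by rw [hb.eq]; group
    _ = (A * b) * a * b * B := by rw [hbr]; group
    _ = b * (A * a * b * B) := by rw [ha.eq]; group

/-- the branch node argument -/
theorem core (H : Subgroup G) (s0 s1 s2 s3 : G) (h0 : s0⁻¹ = s0) (h1 : s1⁻¹ = s1) (h2 : s2⁻¹ = s2)
    (h01 : Commute s0 s1) (h12 : Commute s1 s2) (h03 : Commute s0 s3) (h02 : (s0 * s2) ^ 3 = 1)
    (h23 : s2 * s3 * s2 = s3 * s2 * s3) (hd : s0 * s1 * s2 ∈ H) (h3 : s3 ∈ H) : s0 ∈ H ∧ s1 ∈ H ∧ s2 ∈ H := by
  have hs1 : s1 * s1 = 1 := by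
    nth_rewrite 1 [← h1]; exact inv_mul_cancel s1
  have e1 : s0 * s1 * s2 = (s0 * s2) * s1 := by rw [mul_assoc, h12.eq, ← mul_assoc]
  have hc : Commute (s0 * s2) s1 := h01.mul_left h12.symm
  have m1 : s1 ∈ H := by
    have h := H.pow_mem hd 3
    rw [e1, hc.mul_pow, h02, one_mul, pow_succ, pow_two, hs1, one_mul] at h
    exact h
  have m2 : s2 ∈ H := by
    have h := H.mul_mem (H.mul_mem (H.inv_mem hd) h3) hd
    have e2 : (s0 * s1 * s2)⁻¹ * s3 * (s0 * s1 * s2) = s2 * s1 * s3 * s1 * s2 := by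
      calc (s0 * s1 * s2)⁻¹ * s3 * (s0 * s1 * s2) = s2⁻¹ * s1⁻¹ * (s0⁻¹ * (s3 * s0)) * s1 * s2 := by group
        _ = s2⁻¹ * s1⁻¹ * (s0⁻¹ * (s0 * s3)) * s1 * s2 := by rw [h03.eq]
        _ = s2⁻¹ * s1⁻¹ * s3 * s1 * s2 := by group
        _ = _ := by rw [h1, h2]
    rw [e2] at h
    have e3 : s2 * s1 * s3 * s1 * s2 = s1 * (s2 * s3 * s2) * s1 := by
      calc s2 * s1 * s3 * s1 * s2 = (s2 * s1) * s3 * (s1 * s2) := by group
        _ = (s1 * s2) * s3 * (s2 * s1) := by rw [h12.eq]
        _ = _ := by group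
    rw [e3, h23] at h
    have h' := H.mul_mem (H.mul_mem (H.inv_mem m1) h) (H.inv_mem m1)
    have e4 : s1⁻¹ * (s1 * (s3 * s2 * s3) * s1) * s1⁻¹ = s3 * s2 * s3 := by group
    rw [e4] at h'
    have h'' := H.mul_mem (H.mul_mem (H.inv_mem h3) h') (H.inv_mem h3)
    have e5 : s3⁻¹ * (s3 * s2 * s3) * s3⁻¹ = s2 := by group
    rw [e5] at h''
    exact h''
  refine ⟨?_, m1, m2⟩
  have h := H.mul_mem (H.mul_mem hd (H.inv_mem m2)) (H.inv_mem m1)
  have e5 : s0 * s1 * s2 * s2⁻¹ * s1⁻¹ = s0 := by group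
  rw [e5] at h
  exact h

end abs

theorem conj_mem {G : Type*} [Group G] (H : Subgroup G) {c a b : G} (hc : c ∈ H) (ha : a ∈ H) (h : c * a * c⁻¹ = b) : b ∈ H := by
  rw [← h]; exact H.mul_mem (H.mul_mem hc ha) (H.inv_mem hc)

theorem rankTwo (M : CoxeterMatrix (Fin 2)) :
    ∃ T : Finset M.Group, T.card = 1 ∧ (∀ t ∈ T, ∃ (g : M.Group) (i : Fin 2), t = g * M.simple i * g⁻¹) ∧
      Subgroup.closure (({((List.finRange 2).map M.simple).prod} : Set M.Group) ∪ ↑T) = ⊤ := by
  classical
  refine ⟨{M.simple 0}, Finset.card_singleton _, ?_, ?_⟩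
  · intro t ht
    rw [Finset.mem_singleton] at ht
    exact ⟨1, 0, by rw [ht]; group⟩
  · apply simple_mem_top
    set H := Subgroup.closure (({((List.finRange 2).map M.simple).prod} : Set M.Group) ∪ ↑({M.simple 0} : Finset M.Group))
    have m0 : M.simple 0 ∈ H := Subgroup.subset_closure (Or.inr (by simp))
    have mc : ((List.finRange 2).map M.simple).prod ∈ H := Subgroup.subset_closure (Or.inl rfl)
    have ec : ((List.finRange 2).map M.simple).prod = M.simple 0 * M.simple 1 := by
      simp [List.finRange_succ]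
    rw [ec] at mc
    have m1 : M.simple 1 ∈ H := by
      have := H.mul_mem (H.inv_mem m0) mc
      rwa [inv_mul_cancel_left] at this
    intro i
    fin_cases i
    · exact m0
    · exact m1

theorem caseE6 :
    ∃ T : Finset CoxeterMatrix.E₆.Group, T.card = 1 ∧ (∀ t ∈ T, ∃ (g : CoxeterMatrix.E₆.Group) (i : Fin 6), t = g * CoxeterMatrix.E₆.simple i * g⁻¹) ∧
      Subgroup.closure (({((List.finRange 6).map CoxeterMatrix.E₆.simple).prod} : Set CoxeterMatrix.E₆.Group) ∪ ↑T) = ⊤ := by
  classical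
  set M := CoxeterMatrix.E₆ with hM
  refine ⟨{M.simple 3}, Finset.card_singleton _, ?_, ?_⟩
  · intro t ht
    rw [Finset.mem_singleton] at ht
    exact ⟨1, 3, by rw [ht]; group⟩
  · apply simple_mem_top
    set H := Subgroup.closure (({((List.finRange 6).map M.simple).prod} : Set M.Group) ∪ ↑({M.simple 3} : Finset M.Group))
    have m3 : M.simple 3 ∈ H := Subgroup.subset_closure (Or.inr (by simp))
    have mc : ((List.finRange 6).map M.simple).prod ∈ H := Subgroup.subset_closure (Or.inl rfl)
    have ec : ((List.finRange 6).map M.simple).prod = M.simple 0 * M.simple 1 * M.simple 2 * M.simple 3 * M.simple 4 * M.simple 5 := by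
      simp [List.finRange_succ, mul_assoc]
    rw [ec] at mc
    have C : ∀ i j : Fin 6, M i j = 2 → Commute (M.simple i) (M.simple j) := fun i j h => comm M h
    have m4 : M.simple 4 ∈ H := by
      apply conj_mem H mc m3
      exact shift (M.simple 0 * M.simple 1 * M.simple 2) (M.simple 5) (M.simple 3) (M.simple 4)
        (C _ _ rfl) (((C _ _ rfl).mul_left (C _ _ rfl)).mul_left (C _ _ rfl)) (braid M rfl)
    have m5 : M.simple 5 ∈ H := by
      apply conj_mem H mc m4
      have := shift (M.simple 0 * M.simple 1 * M.simple 2 * M.simple 3) 1 (M.simple 4) (M.simple 5)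
        (Commute.one_left _) ((((C _ _ rfl).mul_left (C _ _ rfl)).mul_left (C _ _ rfl)).mul_left (C _ _ rfl)) (braid M rfl)
      simpa only [mul_one] using this
    have md : M.simple 0 * M.simple 1 * M.simple 2 ∈ H := by
      have := H.mul_mem (H.mul_mem (H.mul_mem mc (H.inv_mem m5)) (H.inv_mem m4)) (H.inv_mem m3)
      simpa only [mul_inv_cancel_right] using this
    obtain ⟨m0, m1, m2⟩ := core H _ _ _ _ (inv M 0) (inv M 1) (inv M 2) (C 0 1 rfl) (C 1 2 rfl) (C 0 3 rfl) (rel M 0 2) (braid M rfl) md m3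
    intro i
    fin_cases i
    · exact m0
    · exact m1
    · exact m2
    · exact m3
    · exact m4
    · exact m5

theorem caseE7 :
    ∃ T : Finset CoxeterMatrix.E₇.Group, T.card = 1 ∧ (∀ t ∈ T, ∃ (g : CoxeterMatrix.E₇.Group) (i : Fin 7), t = g * CoxeterMatrix.E₇.simple i * g⁻¹) ∧
      Subgroup.closure (({((List.finRange 7).map CoxeterMatrix.E₇.simple).prod} : Set CoxeterMatrix.E₇.Group) ∪ ↑T) = ⊤ := by
  classical
  set M := CoxeterMatrix.E₇ with hM
  refine ⟨{M.simple 3}, Finset.card_singleton _, ?_, ?_⟩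
  · intro t ht
    rw [Finset.mem_singleton] at ht
    exact ⟨1, 3, by rw [ht]; group⟩
  · apply simple_mem_top
    set H := Subgroup.closure (({((List.finRange 7).map M.simple).prod} : Set M.Group) ∪ ↑({M.simple 3} : Finset M.Group))
    have m3 : M.simple 3 ∈ H := Subgroup.subset_closure (Or.inr (by simp))
    have mc : ((List.finRange 7).map M.simple).prod ∈ H := Subgroup.subset_closure (Or.inl rfl)
    have ec : ((List.finRange 7).map M.simple).prod = M.simple 0 * M.simple 1 * M.simple 2 * M.simple 3 * M.simple 4 * M.simple 5 * M.simple 6 := by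
      simp [List.finRange_succ, mul_assoc]
    rw [ec] at mc
    have C : ∀ i j : Fin 7, M i j = 2 → Commute (M.simple i) (M.simple j) := fun i j h => comm M h
    have m4 : M.simple 4 ∈ H := by
      apply conj_mem H mc m3
      have := shift (M.simple 0 * M.simple 1 * M.simple 2) (M.simple 5 * M.simple 6) (M.simple 3) (M.simple 4)
        ((C _ _ rfl).mul_left (C _ _ rfl)) (((C _ _ rfl).mul_left (C _ _ rfl)).mul_left (C _ _ rfl)) (braid M rfl)
      simpa only [mul_one, ← mul_assoc] using this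
    have m5 : M.simple 5 ∈ H := by
      apply conj_mem H mc m4
      have := shift (M.simple 0 * M.simple 1 * M.simple 2 * M.simple 3) (M.simple 6) (M.simple 4) (M.simple 5)
        (C _ _ rfl) ((((C _ _ rfl).mul_left (C _ _ rfl)).mul_left (C _ _ rfl)).mul_left (C _ _ rfl)) (braid M rfl)
      simpa only [mul_one, ← mul_assoc] using this
    have m6 : M.simple 6 ∈ H := by
      apply conj_mem H mc m5
      have := shift (M.simple 0 * M.simple 1 * M.simple 2 * M.simple 3 * M.simple 4) 1 (M.simple 5) (M.simple 6)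
        (Commute.one_left _) (((((C _ _ rfl).mul_left (C _ _ rfl)).mul_left (C _ _ rfl)).mul_left (C _ _ rfl)).mul_left (C _ _ rfl)) (braid M rfl)
      simpa only [mul_one, ← mul_assoc] using this
    have md : M.simple 0 * M.simple 1 * M.simple 2 ∈ H := by
      have := (H.mul_mem (H.mul_mem (H.mul_mem (H.mul_mem mc (H.inv_mem m6)) (H.inv_mem m5)) (H.inv_mem m4)) (H.inv_mem m3))
      simpa only [mul_inv_cancel_right] using this
    obtain ⟨m0, m1, m2⟩ := core H _ _ _ _ (inv M 0) (inv M 1) (inv M 2) (C 0 1 rfl) (C 1 2 rfl) (C 0 3 rfl) (rel M 0 2) (braid M rfl) md m3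
    intro i
    fin_cases i
    · exact m0
    · exact m1
    · exact m2
    · exact m3
    · exact m4
    · exact m5
    · exact m6

theorem caseE8 :
    ∃ T : Finset CoxeterMatrix.E₈.Group, T.card = 1 ∧ (∀ t ∈ T, ∃ (g : CoxeterMatrix.E₈.Group) (i : Fin 8), t = g * CoxeterMatrix.E₈.simple i * g⁻¹) ∧
      Subgroup.closure (({((List.finRange 8).map CoxeterMatrix.E₈.simple).prod} : Set CoxeterMatrix.E₈.Group) ∪ ↑T) = ⊤ := by
  classical
  set M := CoxeterMatrix.E₈ with hM
  refine ⟨{M.simple 3}, Finset.card_singleton _, ?_, ?_⟩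
  · intro t ht
    rw [Finset.mem_singleton] at ht
    exact ⟨1, 3, by rw [ht]; group⟩
  · apply simple_mem_top
    set H := Subgroup.closure (({((List.finRange 8).map M.simple).prod} : Set M.Group) ∪ ↑({M.simple 3} : Finset M.Group))
    have m3 : M.simple 3 ∈ H := Subgroup.subset_closure (Or.inr (by simp))
    have mc : ((List.finRange 8).map M.simple).prod ∈ H := Subgroup.subset_closure (Or.inl rfl)
    have ec : ((List.finRange 8).map M.simple).prod = M.simple 0 * M.simple 1 * M.simple 2 * M.simple 3 * M.simple 4 * M.simple 5 * M.simple 6 * M.simple 7 := by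
      simp [List.finRange_succ, mul_assoc]
    rw [ec] at mc
    have C : ∀ i j : Fin 8, M i j = 2 → Commute (M.simple i) (M.simple j) := fun i j h => comm M h
    have m4 : M.simple 4 ∈ H := by
      apply conj_mem H mc m3
      have := shift (M.simple 0 * M.simple 1 * M.simple 2) (M.simple 5 * M.simple 6 * M.simple 7) (M.simple 3) (M.simple 4)
        (((C _ _ rfl).mul_left (C _ _ rfl)).mul_left (C _ _ rfl)) (((C _ _ rfl).mul_left (C _ _ rfl)).mul_left (C _ _ rfl)) (braid M rfl)
      simpa only [mul_one, ← mul_assoc] using this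
    have m5 : M.simple 5 ∈ H := by
      apply conj_mem H mc m4
      have := shift (M.simple 0 * M.simple 1 * M.simple 2 * M.simple 3) (M.simple 6 * M.simple 7) (M.simple 4) (M.simple 5)
        ((C _ _ rfl).mul_left (C _ _ rfl)) ((((C _ _ rfl).mul_left (C _ _ rfl)).mul_left (C _ _ rfl)).mul_left (C _ _ rfl)) (braid M rfl)
      simpa only [mul_one, ← mul_assoc] using this
    have m6 : M.simple 6 ∈ H := by
      apply conj_mem H mc m5
      have := shift (M.simple 0 * M.simple 1 * M.simple 2 * M.simple 3 * M.simple 4) (M.simple 7) (M.simple 5) (M.simple 6)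
        (C _ _ rfl) (((((C _ _ rfl).mul_left (C _ _ rfl)).mul_left (C _ _ rfl)).mul_left (C _ _ rfl)).mul_left (C _ _ rfl)) (braid M rfl)
      simpa only [mul_one, ← mul_assoc] using this
    have m7 : M.simple 7 ∈ H := by
      apply conj_mem H mc m6
      have := shift (M.simple 0 * M.simple 1 * M.simple 2 * M.simple 3 * M.simple 4 * M.simple 5) 1 (M.simple 6) (M.simple 7)
        (Commute.one_left _) ((((((C _ _ rfl).mul_left (C _ _ rfl)).mul_left (C _ _ rfl)).mul_left (C _ _ rfl)).mul_left (C _ _ rfl)).mul_left (C _ _ rfl)) (braid M rfl)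
      simpa only [mul_one, ← mul_assoc] using this
    have md : M.simple 0 * M.simple 1 * M.simple 2 ∈ H := by
      have := (H.mul_mem (H.mul_mem (H.mul_mem (H.mul_mem (H.mul_mem mc (H.inv_mem m7)) (H.inv_mem m6)) (H.inv_mem m5)) (H.inv_mem m4)) (H.inv_mem m3))
      simpa only [mul_inv_cancel_right] using this
    obtain ⟨m0, m1, m2⟩ := core H _ _ _ _ (inv M 0) (inv M 1) (inv M 2) (C 0 1 rfl) (C 1 2 rfl) (C 0 3 rfl) (rel M 0 2) (braid M rfl) md m3
    intro i
    fin_cases i
    · exact m0
    · exact m1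
    · exact m2
    · exact m3
    · exact m4
    · exact m5
    · exact m6
    · exact m7

theorem fourCase (M : CoxeterMatrix (Fin 4)) (h01 : M 0 1 = 3) (h20 : M 2 0 = 2) (h30 : M 3 0 = 2) (hne : M.simple 0 ≠ M.simple 2) :
    ∃ T : Finset M.Group, T.card = 2 ∧ (∀ t ∈ T, ∃ (g : M.Group) (i : Fin 4), t = g * M.simple i * g⁻¹) ∧
      Subgroup.closure (({((List.finRange 4).map M.simple).prod} : Set M.Group) ∪ ↑T) = ⊤ := by
  classical
  refine ⟨{M.simple 0, M.simple 2}, Finset.card_pair hne, ?_, ?_⟩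
  · intro t ht
    rw [Finset.mem_insert, Finset.mem_singleton] at ht
    rcases ht with rfl | rfl
    · exact ⟨1, 0, by group⟩
    · exact ⟨1, 2, by group⟩
  · apply simple_mem_top
    set H := Subgroup.closure (({((List.finRange 4).map M.simple).prod} : Set M.Group) ∪ ↑({M.simple 0, M.simple 2} : Finset M.Group))
    have m0 : M.simple 0 ∈ H := Subgroup.subset_closure (Or.inr (by simp))
    have m2 : M.simple 2 ∈ H := Subgroup.subset_closure (Or.inr (by simp))
    have mc : ((List.finRange 4).map M.simple).prod ∈ H := Subgroup.subset_closure (Or.inl rfl)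
    have ec : ((List.finRange 4).map M.simple).prod = M.simple 0 * M.simple 1 * M.simple 2 * M.simple 3 := by
      simp [List.finRange_succ, mul_assoc]
    rw [ec] at mc
    have m1 : M.simple 1 ∈ H := by
      apply conj_mem H mc m0
      have := shift 1 (M.simple 2 * M.simple 3) (M.simple 0) (M.simple 1)
        (Commute.mul_left (comm M h20) (comm M h30)) (Commute.one_left _) (braid M h01)
      simpa only [one_mul, ← mul_assoc] using this
    have m3 : M.simple 3 ∈ H := by
      have := H.mul_mem (H.inv_mem (H.mul_mem (H.mul_mem m0 m1) m2)) mc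
      rwa [inv_mul_cancel_left] at this
    intro i
    fin_cases i
    · exact m0
    · exact m1
    · exact m2
    · exact m3

theorem ne_of_lift {B G : Type*} [Group G] (M : CoxeterMatrix B) (f : B → G) (hf : M.IsLiftable f) {i j : B} (h : f i ≠ f j) :
    M.simple i ≠ M.simple j := by
  intro he
  apply h
  have h1 := M.toCoxeterSystem.lift_apply_simple hf i
  have h2 := M.toCoxeterSystem.lift_apply_simple hf j
  rw [← h1, ← h2]
  exact congrArg _ he

theorem neD4 : Cfsg.Lie.coxeterD4.simple 0 ≠ Cfsg.Lie.coxeterD4.simple 2 := by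
  apply ne_of_lift (G := Equiv.Perm (Fin 4)) _ ![Equiv.swap 0 1, Equiv.swap 1 2, Equiv.swap 2 3, Equiv.swap 2 3]
  · intro i j
    fin_cases i <;> fin_cases j <;> decide
  · decide

theorem neF4 : CoxeterMatrix.F₄.simple 0 ≠ CoxeterMatrix.F₄.simple 2 := by
  apply ne_of_lift (G := ℤˣ) _ ![1, 1, -1, -1]
  · intro i j
    fin_cases i <;> fin_cases j <;> decide
  · decide

/-- The Coxeter groups of types B₂, G₂, E₆, E₇, E₈ are generated by the Coxeter element `s₁ s₂ ⋯ s_l` together with one suitable reflection (a conjugate of a simple reflection); for types D₄ and F₄ the Coxeter element together with two suitable reflections suffices. -/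
theorem result (c : (Σ n : ℕ, CoxeterMatrix (Fin n)) × ℕ)
    (hc : c ∈ [(⟨2, CoxeterMatrix.B 2⟩, 1), (⟨2, CoxeterMatrix.G₂⟩, 1), (⟨4, Cfsg.Lie.coxeterD4⟩, 2), (⟨4, CoxeterMatrix.F₄⟩, 2),
      (⟨6, CoxeterMatrix.E₆⟩, 1), (⟨7, CoxeterMatrix.E₇⟩, 1), (⟨8, CoxeterMatrix.E₈⟩, 1)]) :
    ∃ T : Finset c.1.2.Group, T.card = c.2 ∧ (∀ t ∈ T, ∃ (g : c.1.2.Group) (i : Fin c.1.1), t = g * c.1.2.simple i * g⁻¹) ∧
      Subgroup.closure (({((List.finRange c.1.1).map c.1.2.simple).prod} : Set c.1.2.Group) ∪ ↑T) = ⊤ := by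
  simp only [List.mem_cons, List.not_mem_nil, or_false] at hc
  rcases hc with rfl | rfl | rfl | rfl | rfl | rfl | rfl
  · exact rankTwo _
  · exact rankTwo _
  · exact fourCase _ rfl rfl rfl neD4
  · exact fourCase _ rfl rfl rfl neF4
  · exact caseE6
  · exact caseE7
  · exact caseE8

end Cfsg.Agent.S2419
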