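import Cfsg.Statements.S2427

set_option autoImplicit false
open Cfsg

namespace Cfsg.Agent.S2427

abbrev G := Matrix.SpecialLinearGroup (Fin 2) (ZMod 3)

set_option maxRecDepth 100000 in
theorem card_G : Fintype.card G = 24 := by decide +kernel

set_option maxRecDepth 100000 in
theorem mul_closed : ∀ a b : G, a ^ 4 = 1 → b ^ 4 = 1 → (a * b) ^ 4 = 1 := by decide +kernel

def Q : Subgroup G where
  carrier := {g | g ^ 4 = 1}
  mul_mem' := fun {a b} ha hb => mul_closed a b ha hb
  one_mem' := one_pow 4
  inv_mem' := fun {a} ha => by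
    change (a⁻¹) ^ 4 = 1
    rw [inv_pow]
    rw [show a ^ 4 = 1 from ha, inv_one]

instance : DecidablePred (· ∈ Q) := fun g => inferInstanceAs (Decidable (g ^ 4 = 1))

set_option maxRecDepth 100000 in
theorem card_Q : Fintype.card Q = 8 := by decide +kernel

set_option maxRecDepth 100000 in
theorem comm_mem : ∀ a b : G, (a * b * a⁻¹ * b⁻¹) ^ 4 = 1 := by decide +kernel

set_option maxRecDepth 100000 in
theorem mem_comm : ∀ g : G, g ^ 4 = 1 → ∃ a b : G, a * b * a⁻¹ * b⁻¹ = g := by decide +kernel

theorem commutator_eq : commutator G = Q := by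
  apply le_antisymm
  · rw [commutator_def, Subgroup.commutator_le]
    intro a _ b _
    exact comm_mem a b
  · intro g hg
    obtain ⟨a, b, hab⟩ := mem_comm g hg
    rw [← hab, commutator_def]
    exact Subgroup.commutator_mem_commutator (Subgroup.mem_top a) (Subgroup.mem_top b)

set_option maxRecDepth 100000 in
theorem center_iff : ∀ g : G, (∀ h : G, h * g = g * h) ↔ (g = 1 ∨ g = -1) := by decide +kernel

theorem mem_center_iff (g : G) : g ∈ Subgroup.center G ↔ (g = 1 ∨ g = -1) := by
  rw [Subgroup.mem_center_iff]; exact center_iff g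

instance : DecidablePred (· ∈ Subgroup.center G) := fun g => decidable_of_iff _ (mem_center_iff g).symm

set_option maxRecDepth 100000 in
theorem card_center : Nat.card (Subgroup.center G) = 2 := by
  rw [Nat.card_eq_fintype_card]
  rw [Fintype.card_subtype]
  decide +kernel

def A : G := ⟨!![0, 1; 2, 0], by decide⟩
def X : G := ⟨!![1, 1; 1, 2], by decide⟩

def f : QuaternionGroup 2 → G
  | .a i => A ^ i.val
  | .xa i => X * A ^ i.val

set_option maxRecDepth 100000 in
theorem f_mul : ∀ x y : QuaternionGroup 2, f (x * y) = f x * f y := by decide +kernel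

set_option maxRecDepth 100000 in
theorem f_inj : ∀ x y : QuaternionGroup 2, f x = f y → x = y := by decide +kernel

set_option maxRecDepth 100000 in
theorem f_mem : ∀ x : QuaternionGroup 2, (f x) ^ 4 = 1 := by decide +kernel

def fHom : QuaternionGroup 2 →* Q where
  toFun x := ⟨f x, f_mem x⟩
  map_one' := by
    apply Subtype.ext
    change f 1 = 1
    decide +kernel
  map_mul' x y := by
    apply Subtype.ext
    exact f_mul x y

theorem fHom_bij : Function.Bijective fHom := by
  rw [Fintype.bijective_iff_injective_and_card]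
  constructor
  · intro x y h
    exact f_inj x y (congrArg Subtype.val h)
  · rw [card_Q]
    decide +kernel

set_option maxRecDepth 100000 in
theorem key : ∀ g : G, g ≠ 1 → g ≠ -1 → ∀ x : G, x ^ 4 = 1 → x ^ 2 ≠ 1 →
    ∃ u v : G, x = (u * g * u⁻¹) * (v * g * v⁻¹)⁻¹ := by decide +kernel

set_option maxRecDepth 100000 in
theorem key2 : ∀ x : G, x ^ 4 = 1 → x ^ 2 = 1 → ∃ y : G, y ^ 4 = 1 ∧ (y ^ 2 ≠ 1) ∧ (x = y ^ 2 ∨ x = 1) := by
  decide +kernel

/-- main -/
theorem result :
    Nat.card (Matrix.SpecialLinearGroup (Fin 2) (ZMod 3)) = 24 ∧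
    Nat.card (Subgroup.center (Matrix.SpecialLinearGroup (Fin 2) (ZMod 3))) = 2 ∧
    Nat.card (commutator (Matrix.SpecialLinearGroup (Fin 2) (ZMod 3))) = 8 ∧
    Nonempty (commutator (Matrix.SpecialLinearGroup (Fin 2) (ZMod 3)) ≃* QuaternionGroup 2) ∧
    (∀ P : Sylow 3 (Matrix.SpecialLinearGroup (Fin 2) (ZMod 3)),
      Subgroup.IsComplement' (commutator (Matrix.SpecialLinearGroup (Fin 2) (ZMod 3)))
        (P : Subgroup (Matrix.SpecialLinearGroup (Fin 2) (ZMod 3)))) ∧
    ∀ N : Subgroup (Matrix.SpecialLinearGroup (Fin 2) (ZMod 3)), N.Normal →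
      N = ⊥ ∨ N = ⊤ ∨ N = Subgroup.center (Matrix.SpecialLinearGroup (Fin 2) (ZMod 3)) ∨
        N = commutator (Matrix.SpecialLinearGroup (Fin 2) (ZMod 3)) := by
  have hG : Nat.card G = 24 := by rw [Nat.card_eq_fintype_card, card_G]
  have hQ : Nat.card Q = 8 := by rw [Nat.card_eq_fintype_card, card_Q]
  refine ⟨hG, card_center, ?_, ?_, ?_, ?_⟩
  · rw [commutator_eq, hQ]
  · rw [commutator_eq]
    exact ⟨(MulEquiv.ofBijective fHom fHom_bij).symm⟩
  · intro P
    have : Fact (Nat.Prime 3) := ⟨by norm_num⟩
    have hP : Nat.card P = 3 := by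
      rw [Sylow.card_eq_multiplicity, hG]
      have : (24 : ℕ).factorization 3 = 1 := by
        rw [show (24 : ℕ) = 3 * 8 by norm_num, Nat.factorization_mul (by norm_num) (by norm_num)]
        rw [Finsupp.add_apply, Nat.Prime.factorization_self (by norm_num)]
        rw [Nat.factorization_eq_zero_of_not_dvd (by norm_num)]
      rw [this]; norm_num
    rw [commutator_eq]
    apply Subgroup.isComplement'_of_coprime
    · rw [hQ, hG]
      rw [hP]
    · rw [hQ]
      rw [hP]; norm_num
  · intro N hN
    by_cases hc : ∀ g ∈ N, g = 1 ∨ g = -1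
    · have hle : N ≤ Subgroup.center G := fun g hg => (mem_center_iff g).2 (hc g hg)
      have hdvd := Subgroup.card_dvd_of_le hle
      rw [card_center] at hdvd
      rcases (Nat.dvd_prime Nat.prime_two).1 hdvd with h1 | h2
      · left; exact Subgroup.card_eq_one.1 h1
      · right; right; left
        apply Subgroup.eq_of_le_of_card_ge hle
        rw [card_center]; exact h2.symm.le
    · push Not at hc
      obtain ⟨g, hg, hg1, hg2⟩ := hc
      have hQN : Q ≤ N := by
        have hA : ∀ x : G, x ^ 4 = 1 → x ^ 2 ≠ 1 → x ∈ N := by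
          intro x hx hx2
          obtain ⟨u, v, h⟩ := key g hg1 hg2 x hx hx2
          rw [h]
          exact N.mul_mem (hN.conj_mem g hg u) (N.inv_mem (hN.conj_mem g hg v))
        intro x hx
        by_cases hx2 : x ^ 2 = 1
        · obtain ⟨y, hy4, hy2, h | h⟩ := key2 x hx hx2
          · rw [h]; exact N.pow_mem (hA y hy4 hy2) 2
          · rw [h]; exact N.one_mem
        · exact hA x hx hx2
      right
      have h1 := Subgroup.card_dvd_of_le hQN
      have h2 := Subgroup.card_subgroup_dvd_card N
      rw [hQ] at h1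
      rw [hG] at h2
      obtain ⟨k, hk⟩ := h1
      rw [hk] at h2
      have h3 : k ∣ 3 := by
        rw [show (24 : ℕ) = 8 * 3 by norm_num] at h2
        exact Nat.dvd_of_mul_dvd_mul_left (by norm_num) h2
      rcases (Nat.dvd_prime Nat.prime_three).1 h3 with rfl | rfl
      · right; right
        rw [commutator_eq]
        symm
        apply Subgroup.eq_of_le_of_card_ge hQN
        rw [hQ, hk]
      · left
        apply Subgroup.eq_top_of_card_eq
        rw [hk, hG]

end Cfsg.Agent.S2427
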