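import Cfsg.Statements.S2428
import Cfsg.Agent.Lib.H45.SL2TorusCard

set_option autoImplicit false
open Cfsg

namespace Cfsg.Agent.S2428

open H45.SL2

/-- the diagonal torus -/
def diagT (F : Type*) [Field F] : Subgroup (Matrix.SpecialLinearGroup (Fin 2) F) where
  carrier := {g | g.1 0 1 = 0 ∧ g.1 1 0 = 0}
  mul_mem' := by
    rintro a b ⟨ha1, ha2⟩ ⟨hb1, hb2⟩
    constructor
    · rw [mul_01, ha1, hb1]; ring
    · rw [mul_10, ha2, hb2]; ring
  one_mem' := ⟨one_01, one_10⟩
  inv_mem' := by
    rintro a ⟨ha1, ha2⟩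
    constructor
    · rw [inv_01, ha1, neg_zero]
    · rw [inv_10, ha2, neg_zero]

variable {F : Type*} [Field F]

theorem nonscalar_diag {g : Matrix.SpecialLinearGroup (Fin 2) F} (hg : g ∈ diagT F) (hns : NonScalar g) :
    g.1 0 0 ≠ g.1 1 1 := by
  intro h
  rcases scalar_iff hg.1 hg.2 h with h3 | h3
  · exact hns.1 h3
  · exact hns.2 h3

theorem cent_diag {g : Matrix.SpecialLinearGroup (Fin 2) F} (hg : g ∈ diagT F) (hns : NonScalar g) :
    Subgroup.centralizer ({g} : Set (Matrix.SpecialLinearGroup (Fin 2) F)) = diagT F := by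
  have hne := sub_ne_zero.2 (nonscalar_diag hg hns)
  obtain ⟨hg1, hg2⟩ := hg
  ext h
  rw [Subgroup.mem_centralizer_singleton_iff]
  constructor
  · intro hc
    have e1 : (h * g).1 0 1 = (g * h).1 0 1 := by rw [hc]
    have e2 : (h * g).1 1 0 = (g * h).1 1 0 := by rw [hc]
    rw [mul_01, mul_01, hg1] at e1
    rw [mul_10, mul_10, hg2] at e2
    constructor
    · apply mul_left_cancel₀ hne; linear_combination -e1
    · apply mul_left_cancel₀ hne; linear_combination e2
  · rintro ⟨h1, h2⟩
    apply ext4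
    · rw [mul_00, mul_00, hg1, h1]; ring
    · rw [mul_01, mul_01, hg1, h1]; ring
    · rw [mul_10, mul_10, hg2, h2]; ring
    · rw [mul_11, mul_11, hg2, h2]; ring

theorem torusLike_diag (h2 : (2 : F) ≠ 0) : TorusLike (diagT F) where
  neg_one_mem := by
    constructor
    · rw [neg_ij, one_01, neg_zero]
    · rw [neg_ij, one_10, neg_zero]
  centralizer_eq := fun g hg hns => cent_diag hg hns
  outside := by
    intro t ht hns g hg hgt
    have hne := sub_ne_zero.2 (nonscalar_diag ht hns)
    obtain ⟨ht1, ht2⟩ := ht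
    obtain ⟨e1, e2⟩ := hgt
    rw [mul_01, mul_00, mul_01, inv_01, inv_11, ht1, ht2] at e1
    rw [mul_10, mul_10, mul_11, inv_00, inv_10, ht1, ht2] at e2
    have hd := det_eq g
    have h1 : g.1 0 0 * g.1 0 1 = 0 := by
      apply mul_left_cancel₀ hne; linear_combination -e1
    have h3 : g.1 1 0 * g.1 1 1 = 0 := by
      apply mul_left_cancel₀ hne; linear_combination e2
    have h00 : g.1 0 0 = 0 := by
      rcases mul_eq_zero.1 h1 with h | h
      · exact h
      · exfalso
        apply hg
        refine ⟨h, ?_⟩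
        rcases mul_eq_zero.1 h3 with h4 | h4
        · exact h4
        · rw [h, h4] at hd; simp at hd
    have h11 : g.1 1 1 = 0 := by
      rcases mul_eq_zero.1 h3 with h | h
      · rw [h00, h] at hd; simp at hd
      · exact h
    constructor
    · apply sq_of_tr_zero
      unfold tr; rw [h00, h11, add_zero]
    · rintro s ⟨hs1, hs2⟩
      rw [mul_inv_eq_iff_eq_mul]
      apply ext4
      · rw [mul_00, mul_00, inv_00, inv_01, h00, hs1, hs2]; ring
      · rw [mul_01, mul_01, inv_00, inv_01, h00, hs1]; ring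
      · rw [mul_10, mul_10, inv_10, inv_11, h11, hs2]; ring
      · rw [mul_11, mul_11, inv_10, inv_11, h11, hs1, hs2]; ring
  exists_w := by
    refine ⟨mk2 0 (-1) 1 0 (by ring), ?_, ?_⟩
    · rintro ⟨h, _⟩
      rw [mk2_01] at h
      exact neg_ne_zero.2 one_ne_zero h
    · rintro s ⟨hs1, hs2⟩
      rw [mul_inv_eq_iff_eq_mul]
      apply ext4
      · rw [mul_00, mul_00, inv_00, inv_01, hs1, hs2]; simp
      · rw [mul_01, mul_01, inv_00, inv_01, hs1]; simp
      · rw [mul_10, mul_10, inv_10, inv_11, hs2]; simp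
      · rw [mul_11, mul_11, inv_10, inv_11, hs1, hs2]; simp
  sq_iff := by
    rintro t ⟨ht1, ht2⟩
    constructor
    · intro h
      have e : t = t⁻¹ := by rw [eq_inv_iff_mul_eq_one]; exact h
      have e0 : t.1 0 0 = t.1 1 1 := by rw [← inv_00, ← e]
      exact scalar_iff ht1 ht2 e0
    · rintro (rfl | rfl)
      · rw [one_mul]
      · rw [neg_mul_neg, one_mul]

theorem card_diag [Fintype F] : Nat.card (diagT F) = Fintype.card F - 1 := by
  classical
  rw [← Fintype.card_units, ← Nat.card_eq_fintype_card]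
  apply Nat.card_congr
  refine
    { toFun := fun g => Units.mkOfMulEqOne (g.1.1 0 0) (g.1.1 1 1) ?_
      invFun := fun u => ⟨mk2 u 0 0 (u⁻¹ : Fˣ) (by simp), rfl, rfl⟩
      left_inv := ?_
      right_inv := ?_ }
  · have hd := det_eq g.1
    rw [g.2.1] at hd
    linear_combination hd
  · rintro ⟨g, hg⟩
    apply Subtype.ext
    apply ext4
    · rfl
    · exact hg.1.symm
    · exact hg.2.symm
    · rfl
  · intro u
    apply Units.ext
    rfl

/-- Let F be a finite field with q elements, q odd, and let d be a diagonal element of SL₂ over F whose diagonal entry a has a² ≠ 1 (such d exist exactly when q > 3). Then the centraliser of d is precisely the diagonal subgroup T; the normaliser of T has order 2(q − 1) and exactly (q + 5)/2 conjugacy classes; and every element of that normaliser outside T has square equal to −1. -/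
theorem result {F : Type*} [Field F] [Fintype F] (hodd : Odd (Fintype.card F))
    (d : Matrix.SpecialLinearGroup (Fin 2) F) (hd01 : (d : Matrix (Fin 2) (Fin 2) F) 0 1 = 0) (hd10 : (d : Matrix (Fin 2) (Fin 2) F) 1 0 = 0) (hda : (d : Matrix (Fin 2) (Fin 2) F) 0 0 ^ 2 ≠ 1) :
    (∀ g : Matrix.SpecialLinearGroup (Fin 2) F, g ∈ Subgroup.centralizer ({d} : Set (Matrix.SpecialLinearGroup (Fin 2) F)) ↔ ((g : Matrix (Fin 2) (Fin 2) F) 0 1 = 0 ∧ (g : Matrix (Fin 2) (Fin 2) F) 1 0 = 0)) ∧
    Nat.card (Subgroup.normalizer ((Subgroup.centralizer ({d} : Set (Matrix.SpecialLinearGroup (Fin 2) F))) : Set (Matrix.SpecialLinearGroup (Fin 2) F))) = 2 * (Fintype.card F - 1) ∧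
    Nat.card (ConjClasses (Subgroup.normalizer ((Subgroup.centralizer ({d} : Set (Matrix.SpecialLinearGroup (Fin 2) F))) : Set (Matrix.SpecialLinearGroup (Fin 2) F)))) = (Fintype.card F + 5) / 2 ∧
    ∀ g : Matrix.SpecialLinearGroup (Fin 2) F, g ∈ Subgroup.normalizer ((Subgroup.centralizer ({d} : Set (Matrix.SpecialLinearGroup (Fin 2) F))) : Set (Matrix.SpecialLinearGroup (Fin 2) F)) →
      g ∉ Subgroup.centralizer ({d} : Set (Matrix.SpecialLinearGroup (Fin 2) F)) → ((g * g) : Matrix (Fin 2) (Fin 2) F) = -1 := by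
  have hrc : ringChar F ≠ 2 := by
    intro h
    have h3 := FiniteField.even_card_of_char_two h
    rw [Nat.odd_iff] at hodd
    omega
  have h2 : (2 : F) ≠ 0 := two_ne_zero_of_ringChar hrc
  have hdT : d ∈ diagT F := ⟨hd01, hd10⟩
  have hns : NonScalar d := by
    constructor
    · rintro rfl; apply hda; change (1 : F) ^ 2 = 1; ring
    · rintro rfl; apply hda; change (-1 : F) ^ 2 = 1; ring
  have hT := torusLike_diag h2
  have hc := cent_diag hdT hns
  rw [hc]
  refine ⟨fun g => Iff.rfl, ?_, ?_, ?_⟩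
  · rw [(hT.card_normalizer hdT hns).1, card_diag]
  · rw [hT.card_conjClasses_normalizer h2 hdT hns, card_diag]
    have : 1 < Fintype.card F := Fintype.one_lt_card
    obtain ⟨k, hk⟩ := hodd
    omega
  · intro g hg hgT
    have h3 := (hT.outside d hdT hns g hgT ((hT.mem_normalizer_iff hdT hns g).1 hg)).1
    have h4 : ((g * g : Matrix.SpecialLinearGroup (Fin 2) F)).1 = (-1 : Matrix.SpecialLinearGroup (Fin 2) F).1 := by rw [h3]
    exact h4

end Cfsg.Agent.S2428
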