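import Cfsg.Statements.S2429
import Cfsg.Agent.Lib.H45.SL2TorusConj

set_option autoImplicit false
open Cfsg

namespace Cfsg.Agent.S2429

open H45.SL2

/-- Let F be a finite field with q elements, q odd. Then SL₂ over F contains a cyclic subgroup T′ of order q + 1 (a non-split torus) with the following properties: T′ is its own centraliser, and indeed the centraliser of each element of T′ other than 1 and −1 is exactly T′; every element of SL₂ having no eigenvector in F² is conjugate to an element of T′; the normaliser of T′ has order 2(q + 1) and exactly (q + 7)/2 conjugacy classes; and every element of that normaliser outside T′ has square −1. -/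
theorem result {F : Type*} [Field F] [Fintype F] (hodd : Odd (Fintype.card F)) :
    ∃ T' : Subgroup (Matrix.SpecialLinearGroup (Fin 2) F), IsCyclic T' ∧ Nat.card T' = Fintype.card F + 1 ∧
      Subgroup.centralizer ((T' : Set (Matrix.SpecialLinearGroup (Fin 2) F))) = T' ∧
      (∀ g : Matrix.SpecialLinearGroup (Fin 2) F, g ∈ T' → (g : Matrix (Fin 2) (Fin 2) F) ≠ 1 → (g : Matrix (Fin 2) (Fin 2) F) ≠ -1 → Subgroup.centralizer ({g} : Set (Matrix.SpecialLinearGroup (Fin 2) F)) = T') ∧
      (∀ g : Matrix.SpecialLinearGroup (Fin 2) F, (∀ (c : F) (v : Fin 2 → F), v ≠ 0 → (g : Matrix (Fin 2) (Fin 2) F).mulVec v ≠ c • v) → ∃ h : Matrix.SpecialLinearGroup (Fin 2) F, h * g * h⁻¹ ∈ T') ∧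
      Nat.card (Subgroup.normalizer (T' : Set (Matrix.SpecialLinearGroup (Fin 2) F))) = 2 * (Fintype.card F + 1) ∧
      Nat.card (ConjClasses (Subgroup.normalizer (T' : Set (Matrix.SpecialLinearGroup (Fin 2) F)))) = (Fintype.card F + 7) / 2 ∧
      ∀ g : Matrix.SpecialLinearGroup (Fin 2) F, g ∈ Subgroup.normalizer (T' : Set (Matrix.SpecialLinearGroup (Fin 2) F)) → g ∉ T' → ((g * g) : Matrix (Fin 2) (Fin 2) F) = -1 := by
  have h2 : (2 : F) ≠ 0 := two_ne_zero_of_odd hodd
  obtain ⟨δ, hδ⟩ := exists_nonsquare (F := F) hodd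
  have hδ0 : δ ≠ 0 := by rintro rfl; exact hδ ⟨0, by ring⟩
  have hT := torusLike_torus hδ0 h2
  have hcard := card_torus_nonsplit hδ h2
  have hq : 1 < Fintype.card F := Fintype.one_lt_card
  obtain ⟨t, ht, hns⟩ := exists_nonscalar (torus δ) (by rw [hcard]; omega)
  refine ⟨torus δ, isCyclic_torus hδ0 h2, hcard, ?_, ?_, ?_, ?_, ?_, ?_⟩
  · apply le_antisymm
    · intro x hx
      rw [← hT.centralizer_eq t ht hns]
      rw [Subgroup.mem_centralizer_iff] at hx ⊢
      intro y hy
      rw [Set.mem_singleton_iff] at hy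
      rw [hy]; exact hx t ht
    · intro x hx
      rw [Subgroup.mem_centralizer_iff]
      intro y hy
      exact hT.comm y hy x hx
  · intro g hg h1 h3
    apply hT.centralizer_eq g hg
    constructor
    · rintro rfl; exact h1 rfl
    · rintro rfl; exact h3 rfl
  · intro g hg
    have hnsq : ¬ IsSquare ((tr g) ^ 2 - 4) := by
      intro h
      obtain ⟨c, v, hv, hcv⟩ := exists_eigenvector h2 g h
      exact hg c v hv hcv
    obtain ⟨c, hc, hac⟩ := exists_ratio_square hodd hnsq hδ
    exact exists_conj_mem_torus h2 hδ0 hc g hac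
  · rw [(hT.card_normalizer ht hns).1, hcard]
  · rw [hT.card_conjClasses_normalizer h2 ht hns, hcard]
    obtain ⟨k, hk⟩ := hodd
    omega
  · intro g hg hgT
    have h3 := (hT.outside t ht hns g hgT ((hT.mem_normalizer_iff ht hns g).1 hg)).1
    have h4 : ((g * g : Matrix.SpecialLinearGroup (Fin 2) F)).1 = (-1 : Matrix.SpecialLinearGroup (Fin 2) F).1 := by rw [h3]
    exact h4

end Cfsg.Agent.S2429
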