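import Cfsg.Statements.S2434
import Cfsg.Agent.Lib.H43.SLCusp2
import Cfsg.Agent.S2322

set_option autoImplicit false
open Cfsg

namespace Cfsg.Agent.S2434

open Matrix H43.GL2Basic H43.GL2Card H43.GL2Count H43.Lines H43.IndTrans H43.Principal H43.GLIrr H43.SL2Conj
open H43.SLIrr H43.SLCount H43.SLStruct H43.SLOdd H43.SLVals H43.SLTorus H43.SLCusp H43.SLCusp2
open H18.CharBasic H18.CharOrtho H18.CharInd H18.CharQuot

theorem isScal_of_mem_center {F : Type*} [Field F] {g : Matrix.SpecialLinearGroup (Fin 2) F}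
    (h : g ∈ Subgroup.center (Matrix.SpecialLinearGroup (Fin 2) F)) : IsScal (g : Matrix (Fin 2) (Fin 2) F) := by
  rw [Matrix.SpecialLinearGroup.mem_center_iff] at h
  obtain ⟨r, -, hr⟩ := h
  rw [isScal_iff]
  exact ⟨r, by rw [← hr]; simp [Matrix.smul_one_eq_diagonal]⟩

theorem mem_center_of_isScal {F : Type*} [Field F] {g : Matrix.SpecialLinearGroup (Fin 2) F}
    (h : IsScal (g : Matrix (Fin 2) (Fin 2) F)) : g ∈ Subgroup.center (Matrix.SpecialLinearGroup (Fin 2) F) := by
  rw [isScal_iff] at h
  obtain ⟨r, hr⟩ := h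
  rw [Subgroup.mem_center_iff]
  intro x
  apply Subtype.ext
  change (x : Matrix (Fin 2) (Fin 2) F) * (g : Matrix (Fin 2) (Fin 2) F) = (g : Matrix (Fin 2) (Fin 2) F) * x
  rw [hr]; simp

/-- Let F be a finite field with q elements, q odd, and C a cyclic subgroup of order q + 1 of SL₂ over F (a non-split torus; it contains the centre). For every homomorphism θ from C to the non-zero complex numbers with θ² ≠ 1 there is an irreducible complex character χ of degree q − 1 such that χ(c) = −θ(c) − θ(c)⁻¹ for every non-central c in C, χ(zg) = θ(z)χ(g) for central z in C, χ vanishes at diagonal elements with entry a, a² ≠ 1, and χ takes the value −1 at every upper unitriangular element other than 1. Conversely every irreducible character of degree q − 1 has, for some such θ, the values −θ(c) − θ(c)⁻¹ at the non-central elements c of C (for q ≥ 5 these are exactly the cuspidal characters of degree q − 1). -/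
theorem result {F : Type*} [Field F] [Fintype F] (hodd : Odd (Fintype.card F))
    (C : Subgroup (Matrix.SpecialLinearGroup (Fin 2) F)) (hC : IsCyclic C) (hcard : Nat.card C = Fintype.card F + 1) :
    (∀ θ : C →* ℂˣ, (∃ c : C, θ c ^ 2 ≠ 1) →
      ∃ χ : Matrix.SpecialLinearGroup (Fin 2) F → ℂ, Cfsg.IsIrrCharacter (Matrix.SpecialLinearGroup (Fin 2) F) χ ∧ χ 1 = (Fintype.card F : ℂ) - 1 ∧
        (∀ c : C, (c : Matrix.SpecialLinearGroup (Fin 2) F) ∉ Subgroup.center (Matrix.SpecialLinearGroup (Fin 2) F) → χ c = -((θ c).val + (θ c)⁻¹.val)) ∧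
        (∀ c : C, (c : Matrix.SpecialLinearGroup (Fin 2) F) ∈ Subgroup.center (Matrix.SpecialLinearGroup (Fin 2) F) → ∀ g : Matrix.SpecialLinearGroup (Fin 2) F, χ ((c : Matrix.SpecialLinearGroup (Fin 2) F) * g) = (θ c).val * χ g) ∧
        (∀ g : Matrix.SpecialLinearGroup (Fin 2) F, (g : Matrix (Fin 2) (Fin 2) F) 0 1 = 0 → (g : Matrix (Fin 2) (Fin 2) F) 1 0 = 0 → (g : Matrix (Fin 2) (Fin 2) F) 0 0 ^ 2 ≠ 1 → χ g = 0) ∧
        (∀ g : Matrix.SpecialLinearGroup (Fin 2) F, (g : Matrix (Fin 2) (Fin 2) F) 1 0 = 0 → (g : Matrix (Fin 2) (Fin 2) F) 0 0 = 1 → (g : Matrix (Fin 2) (Fin 2) F) 1 1 = 1 → (g : Matrix (Fin 2) (Fin 2) F) 0 1 ≠ 0 → χ g = -1)) ∧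
    (∀ χ : Matrix.SpecialLinearGroup (Fin 2) F → ℂ, Cfsg.IsIrrCharacter (Matrix.SpecialLinearGroup (Fin 2) F) χ → χ 1 = (Fintype.card F : ℂ) - 1 →
      ∃ θ : C →* ℂˣ, (∃ c : C, θ c ^ 2 ≠ 1) ∧
        ∀ c : C, (c : Matrix.SpecialLinearGroup (Fin 2) F) ∉ Subgroup.center (Matrix.SpecialLinearGroup (Fin 2) F) → χ c = -((θ c).val + (θ c)⁻¹.val)) := by
  classical
  have hT : Tor C := ⟨hodd, hC, hcard⟩
  have hFC : Fintype C := Fintype.ofFinite _
  refine ⟨?_, ?_⟩
  · intro θ hθ
    have hinv : θ⁻¹ ≠ θ := by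
      intro h
      obtain ⟨c, hc⟩ := hθ
      apply hc
      have h1 := DFunLike.congr_fun h c
      rw [MonoidHom.inv_apply] at h1
      rw [sq]
      nth_rewrite 1 [← h1]
      exact inv_mul_cancel _
    have hsq : ((θ ⟨-1, hT.neg_one_mem⟩ : ℂˣ) : ℂ) ^ 2 = 1 := by
      rw [← Units.val_pow_eq_pow_val, ← map_pow]
      have : (⟨-1, hT.neg_one_mem⟩ : C) ^ 2 = 1 := Subtype.ext (by simp)
      rw [this, map_one, Units.val_one]
    obtain ⟨α, hα⟩ := exists_alpha hodd hsq
    refine ⟨vc C α θ, isIrr_vc hT α θ hα.symm hinv, vc_one hT α θ, ?_, ?_, ?_, ?_⟩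
    · intro c hc
      exact vc_tor hT α θ c (fun h => hc (mem_center_of_isScal h))
    · intro c hc g
      rcases (isScal_iff' _).1 (isScal_of_mem_center hc) with h | h
      · have hc1 : c = 1 := Subtype.ext h
        rw [hc1, map_one, Units.val_one, one_mul]
        simp
      · have hc1 : c = ⟨-1, hT.neg_one_mem⟩ := Subtype.ext h
        rw [hc1, ← hα]
        exact vc_neg hT α θ hα.symm g
    · intro g h01 h10 ha
      apply vc_split hT α θ h10
      intro h
      have hdet := g.det_coe
      rw [Matrix.det_fin_two, h01, zero_mul, sub_zero, ← h] at hdet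
      exact ha (by rw [sq]; exact hdet)
    · intro g h10 h00 h11 h01
      have : g = uS ((g : Matrix (Fin 2) (Fin 2) F) 0 1) := by
        ext i j
        rw [uS_coe]
        fin_cases i <;> fin_cases j <;> simp [h10, h00, h11]
      rw [this]
      exact vc_uS hT α θ h01
  · intro χ hχ hd
    have hpow2 : ∀ c : C, (c : Matrix.SpecialLinearGroup (Fin 2) F) ∉ Subgroup.center (Matrix.SpecialLinearGroup (Fin 2) F) →
        ¬ IsScal ((c : Matrix.SpecialLinearGroup (Fin 2) F) : Matrix (Fin 2) (Fin 2) F) :=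
      fun c hc h => hc (mem_center_of_isScal h)
    have hinv : ∀ θ : C →* ℂˣ, θ⁻¹ ≠ θ → ∃ c : C, θ c ^ 2 ≠ 1 := by
      intro θ h
      by_contra hcon
      push Not at hcon
      apply h
      ext c
      rw [MonoidHom.inv_apply]
      have h1 := hcon c
      rw [sq] at h1
      rw [inv_eq_of_mul_eq_one_left h1]
    by_cases hq4 : 4 ≤ Fintype.card F
    · obtain ⟨c, rfl⟩ := eq_cusp hq4 hχ hd
      obtain ⟨w, hw1⟩ := exists_omega hχ (-1) neg_comm
      have hd0 : res (c.1 : Matrix.GeneralLinearGroup (Fin 2) F → ℂ) 1 ≠ 0 := by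
        obtain ⟨n, hn, hn1⟩ := exists_degree_pos hχ
        rw [hn1]
        exact_mod_cast hn.ne'
      have hw : w ^ 2 = 1 := by
        have h2 := hw1 (-1)
        have h3 := hw1 1
        rw [mul_one] at h3
        rw [h3] at h2
        have h4 : (-1 : Matrix.SpecialLinearGroup (Fin 2) F) * -1 = 1 := by simp
        rw [h4] at h2
        apply mul_right_cancel₀ hd0
        linear_combination -h2
      have hBL : BLike w (res (c.1 : Matrix.GeneralLinearGroup (Fin 2) F → ℂ)) :=
        ⟨isClassFunction_of_isIrr hχ, cusp_one c, hw1, fun x hx => res_cusp_uS c hx⟩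
      by_contra hcon
      push Not at hcon
      have hm := main hT hw hBL ?_ ?_ ?_
      · have hn1 := congrFun hm ⟨-1, hT.neg_one_mem⟩
        simp only [Pi.sub_apply, R] at hn1
        have hne := one_ne_neg_one hodd
        rw [if_neg hne.symm, if_pos trivial] at hn1
        have h3 := hw1 1
        rw [mul_one, cusp_one] at h3
        rw [h3] at hn1
        have hth : ((th0 hT ⟨-1, hT.neg_one_mem⟩ : ℂˣ) : ℂ) = w := by linear_combination hn1 / 2
        obtain ⟨α, hα⟩ := exists_alpha hodd hw
        have hin := BLike.inner (α := α) (by rw [hα]; exact hBL) hT (th0 hT)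
        have h20 : (fun c : C => 2 * ((th0 hT c : ℂˣ) : ℂ)) = (2 : ℂ) • fun c : C => ((th0 hT c : ℂˣ) : ℂ) := rfl
        rw [hm, H18.CharOrtho.inner_sub_left, inner_R hT, h20, H18.CharOrtho.inner_smul_left, inner_hom, if_pos rfl,
          map_one, Units.val_one, map_one, hth, conj_of_sq hw] at hin
        have hnv := norm_vc hT α (th0 hT) (by rw [hth, hα])
        rw [if_pos (th0_inv hT)] at hnv
        have hnf := inner_irr_self hχ
        have hsym : Cfsg.classInner (vc C α (th0 hT)) (res (c.1 : Matrix.GeneralLinearGroup (Fin 2) F → ℂ)) = 2 := by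
          rw [← H18.CharOrtho.inner_conj_symm, hin]
          have : 2 - (1 + w * w - 2 * 1) = (2 : ℂ) := by linear_combination -hw
          rw [this]; exact map_ofNat _ 2
        have hneg := H18.CharOrtho.inner_self_re_nonneg ((2 : ℂ) • res (c.1 : Matrix.GeneralLinearGroup (Fin 2) F → ℂ) - vc C α (th0 hT))
        rw [H18.CharOrtho.inner_sub_left, H18.CharOrtho.inner_sub_right, H18.CharOrtho.inner_sub_right,
          H18.CharOrtho.inner_smul_left, H18.CharOrtho.inner_smul_left, H18.CharOrtho.inner_smul_right,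
          H18.CharOrtho.inner_smul_right, hsym, hin, hnv, hnf] at hneg
        have : 2 * ((starRingEnd ℂ) 2 * 1) - 2 * (2 - (1 + w * w - 2 * 1)) - ((starRingEnd ℂ) 2 * 2 - (1 + 1)) = (-2 : ℂ) := by
          rw [map_ofNat]
          linear_combination 2 * hw
        rw [this] at hneg
        norm_num at hneg
      · apply inner_irr_ne hχ isIrrCharacter_one
        intro h
        have h1 := congrFun h 1
        rw [hd] at h1
        have h2 : (Fintype.card F : ℂ) = 2 := by linear_combination h1
        have h3 : Fintype.card F = 2 := by exact_mod_cast h2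
        omega
      · apply inner_irr_ne hχ isIrr_StS
        intro h
        have h1 := congrFun h 1
        rw [hd, StS_one] at h1
        have h2 : (1 : ℂ) = 0 := by linear_combination -h1
        norm_num at h2
      · intro α θ hθ h1 _
        apply inner_irr_ne hχ (isIrr_vc hT α θ h1 hθ)
        intro h
        obtain ⟨d, hdc, hdne⟩ := hcon θ (hinv θ hθ)
        apply hdne
        rw [h]
        exact vc_tor hT α θ d (hpow2 d hdc)
    · -- q = 3
      have hq3 : Fintype.card F = 3 := by
        have h1 := Fintype.one_lt_card (α := F)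
        obtain ⟨m, hm⟩ := hodd
        omega
      have hcard4 : Nat.card C = 4 := by rw [hcard, hq3]
      have hpow4 : ∀ c : C, ((c : Matrix.SpecialLinearGroup (Fin 2) F) * c) * (c * c) = 1 := by
        intro c
        have h1 := hT.pow c.2
        rw [hq3] at h1
        rw [← h1, pow_succ, pow_succ, pow_succ, pow_one]; group
      obtain ⟨θ, hθ⟩ : ∃ θ : C →* ℂˣ, θ⁻¹ ≠ θ := by
        by_contra hcon
        push Not at hcon
        have h1 := card_hom_eq_index (G := C)
        have hcomm : commutator C = ⊥ := by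
          rw [commutator_eq_bot_iff_center_eq_top, Subgroup.eq_top_iff']
          intro x
          rw [Subgroup.mem_center_iff]
          intro y
          exact Subtype.ext (hT.comm y.2 x.2)
        rw [hcomm, Subgroup.index_bot, hcard4] at h1
        have h2 : Nat.card (C →* ℂˣ) ≤ 2 := by
          have hs : ∀ θ : C →* ℂˣ, θ = 1 ∨ θ = th0 hT := fun θ => eq_of_inv hT (hcon θ)
          have : Function.Surjective (fun b : Bool => cond b (1 : C →* ℂˣ) (th0 hT)) := by
            intro θ
            rcases hs θ with h | h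
            · exact ⟨true, h.symm⟩
            · exact ⟨false, h.symm⟩
          have h3 := Nat.card_le_card_of_surjective _ this
          simpa using h3
        omega
      refine ⟨θ, hinv θ hθ, ?_⟩
      intro c hc
      have hs := hpow2 c hc
      have hel := hT.no_eig c.2 hs
      have hz := (Cfsg.Agent.S2322.result hodd χ hχ (c : Matrix.SpecialLinearGroup (Fin 2) F)).2 (by
        right
        rw [hd, hq3]; norm_num) ((not_hasEig_iff _).2 hel)
      rw [hz]
      obtain ⟨c0, hc0⟩ := hinv θ hθ
      have hsq1 : ∀ c : C, (c : Matrix.SpecialLinearGroup (Fin 2) F) * c = 1 ∨ (c : Matrix.SpecialLinearGroup (Fin 2) F) * c = -1 :=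
        fun c => eq_of_sq hodd (hpow4 c)
      have hc0' : c0 ^ 2 = ⟨-1, hT.neg_one_mem⟩ := by
        rcases hsq1 c0 with h | h
        · exfalso
          apply hc0
          rw [← map_pow]
          have : c0 ^ 2 = 1 := Subtype.ext (by rw [Subgroup.coe_pow, sq]; exact h)
          rw [this, map_one]
        · exact Subtype.ext (by rw [Subgroup.coe_pow, sq]; exact h)
      have hcc : c ^ 2 = ⟨-1, hT.neg_one_mem⟩ := by
        rcases hsq1 c with h | h
        · exfalso
          apply hs
          rw [isScal_iff']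
          exact eq_of_sq hodd h
        · exact Subtype.ext (by rw [Subgroup.coe_pow, sq]; exact h)
      have hm1 : ((θ ⟨-1, hT.neg_one_mem⟩ : ℂˣ) : ℂ) = -1 := by
        have h1 : ((θ ⟨-1, hT.neg_one_mem⟩ : ℂˣ) : ℂ) ^ 2 = 1 := by
          rw [← Units.val_pow_eq_pow_val, ← map_pow]
          have : (⟨-1, hT.neg_one_mem⟩ : C) ^ 2 = 1 := Subtype.ext (by simp)
          rw [this, map_one, Units.val_one]
        have h2 : ((θ ⟨-1, hT.neg_one_mem⟩ : ℂˣ) : ℂ) ≠ 1 := by
          intro h
          apply hc0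
          rw [← map_pow, hc0']
          exact Units.ext h
        have h3 : (((θ ⟨-1, hT.neg_one_mem⟩ : ℂˣ) : ℂ) - 1) * (((θ ⟨-1, hT.neg_one_mem⟩ : ℂˣ) : ℂ) + 1) = 0 := by
          linear_combination h1
        exact eq_neg_of_add_eq_zero_left ((mul_eq_zero.1 h3).resolve_left (sub_ne_zero.2 h2))
      have h4 : ((θ c : ℂˣ) : ℂ) ^ 2 = -1 := by
        rw [← Units.val_pow_eq_pow_val, ← map_pow, hcc, hm1]
      have h5 : ((θ c : ℂˣ) : ℂ) ≠ 0 := Units.ne_zero _
      rw [Units.val_inv_eq_inv_val]
      field_simp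
      linear_combination h4

end Cfsg.Agent.S2434
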