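import Cfsg.Statements.S2435
import Cfsg.Agent.Lib.H43.SLCusp2
import Cfsg.Agent.S2429

set_option autoImplicit false
open Cfsg

namespace Cfsg.Agent.S2435

open Matrix H43.GL2Basic H43.GL2Card H43.GL2Count H43.Lines H43.IndTrans H43.Principal H43.GLIrr H43.SL2Conj
open H43.SLIrr H43.SLCount H43.SLStruct H43.SLOdd H43.SLVals H43.SLTorus H43.SLCusp H43.SLCusp2
open H18.CharBasic H18.CharOrtho H18.CharInd H18.CharQuot

/-- Let F be a finite field with q elements, q odd and q ≥ 5, and χ an irreducible complex character of SL₂ over F. If χ has degree (q + 1)/2, then at a diagonal element with entry a, a² ≠ 1, χ takes the value 1 when a is a square in F and −1 otherwise. If χ has degree (q − 1)/2, then at an element g with no eigenvector in F² (so g has order dividing q + 1), χ takes the value −1 when g raised to the power (q + 1)/2 is the identity and the value 1 otherwise. -/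
theorem result {F : Type*} [Field F] [Fintype F] (hodd : Odd (Fintype.card F)) (hq : 5 ≤ Fintype.card F)
    (χ : Matrix.SpecialLinearGroup (Fin 2) F → ℂ) (hχ : Cfsg.IsIrrCharacter (Matrix.SpecialLinearGroup (Fin 2) F) χ) (g : Matrix.SpecialLinearGroup (Fin 2) F) :
    (χ 1 = (((Fintype.card F + 1) / 2 : ℕ) : ℂ) → (g : Matrix (Fin 2) (Fin 2) F) 0 1 = 0 → (g : Matrix (Fin 2) (Fin 2) F) 1 0 = 0 → (g : Matrix (Fin 2) (Fin 2) F) 0 0 ^ 2 ≠ 1 →
      (IsSquare ((g : Matrix (Fin 2) (Fin 2) F) 0 0) → χ g = 1) ∧ (¬ IsSquare ((g : Matrix (Fin 2) (Fin 2) F) 0 0) → χ g = -1)) ∧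
    (χ 1 = (((Fintype.card F - 1) / 2 : ℕ) : ℂ) → (∀ (c : F) (v : Fin 2 → F), v ≠ 0 → (g : Matrix (Fin 2) (Fin 2) F).mulVec v ≠ c • v) →
      (((g ^ ((Fintype.card F + 1) / 2)) : Matrix (Fin 2) (Fin 2) F) = 1 → χ g = -1) ∧ (((g ^ ((Fintype.card F + 1) / 2)) : Matrix (Fin 2) (Fin 2) F) ≠ 1 → χ g = 1)) := by
  classical
  refine ⟨?_, ?_⟩
  · intro hd h01 h10 ha
    obtain ⟨γ, φ, hγ, hγ1, hp, hs⟩ := eq_half_ps hodd hq hχ hd
    obtain ⟨γ', hγ', hγ1', hsq, hnsq⟩ := exists_gamma hodd
    obtain rfl := gamma_unique hγ hγ1 hγ' hγ1'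
    have hdet := g.det_coe
    rw [Matrix.det_fin_two, h01, zero_mul, sub_zero] at hdet
    have hne : (g : Matrix (Fin 2) (Fin 2) F) 0 0 ≠ (g : Matrix (Fin 2) (Fin 2) F) 1 1 := by
      intro h
      rw [← h] at hdet
      exact ha (by rw [sq]; exact hdet)
    have h0 : (g : Matrix (Fin 2) (Fin 2) F) 0 0 ≠ 0 := left_ne_zero_of_mul_eq_one hdet
    have h11 : γ ((g : Matrix (Fin 2) (Fin 2) F) 1 1) = γ ((g : Matrix (Fin 2) (Fin 2) F) 0 0) := by
      have h1 : γ ((g : Matrix (Fin 2) (Fin 2) F) 0 0) * γ ((g : Matrix (Fin 2) (Fin 2) F) 1 1) = 1 := by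
        rw [← map_mul, hdet, map_one]
      by_cases hsa : IsSquare ((g : Matrix (Fin 2) (Fin 2) F) 0 0)
      · rw [hsq _ h0 hsa] at h1 ⊢
        linear_combination h1
      · rw [hnsq _ hsa] at h1 ⊢
        linear_combination -h1
    have h1 := indS_apply_B γ g h10
    rw [hs, N_of_ne hne, Pi.add_apply, h11] at h1
    have h2 := hp.eq_of_disc (g := g) (by
      intro h3
      rw [Matrix.trace_fin_two] at h3
      apply hne
      have h4 : ((g : Matrix (Fin 2) (Fin 2) F) 0 0 - (g : Matrix (Fin 2) (Fin 2) F) 1 1) ^ 2 = 0 := by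
        linear_combination h3 - 4 * hdet
      exact sub_eq_zero.1 (pow_eq_zero_iff two_ne_zero |>.1 h4))
    rw [← h2] at h1
    have h3 : χ g = γ ((g : Matrix (Fin 2) (Fin 2) F) 0 0) := by
      push_cast at h1
      linear_combination h1 / 2
    rw [h3]
    exact ⟨fun h => hsq _ h0 h, fun h => hnsq _ h⟩
  · intro hd hg
    have hg' := (not_hasEig_iff _).1 hg
    obtain ⟨c, φ, hp, hs⟩ := eq_half_cusp hodd hq hχ hd
    obtain ⟨C, hcyc, hcard, -, -, hconj, -⟩ := Cfsg.Agent.S2429.result (F := F) hodd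
    have hC : Tor C := ⟨hodd, hcyc, hcard⟩
    have : Fintype C := Fintype.ofFinite _
    obtain ⟨h, hh⟩ := hconj g hg
    obtain ⟨w, hw, hw1, hw2⟩ := hp.omega
    have hBL : BLike w (res (c.1 : Matrix.GeneralLinearGroup (Fin 2) F → ℂ)) := by
      refine ⟨?_, cusp_one c, ?_, ?_⟩
      · exact isClassFunction_of_isCharacter (isCharacter_res (isCharacter_of_isIrr c.1.2))
      · intro g
        rw [hs, Pi.add_apply, Pi.add_apply, hw1, hw2]; ring
      · intro x hx
        exact res_cusp_uS c hx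
    have hphi : φ 1 = (((Fintype.card F - 1) / 2 : ℕ) : ℂ) := hp.degree.trans hd
    have hkey : ∀ ψ : Matrix.SpecialLinearGroup (Fin 2) F → ℂ, Cfsg.IsIrrCharacter (Matrix.SpecialLinearGroup (Fin 2) F) ψ →
        ψ 1 ≠ (((Fintype.card F - 1) / 2 : ℕ) : ℂ) → Cfsg.classInner (res (c.1 : Matrix.GeneralLinearGroup (Fin 2) F → ℂ)) ψ = 0 := by
      intro ψ hψ hne
      rw [hs, H18.CharOrtho.inner_add_left, inner_irr_ne hχ hψ, inner_irr_ne hp.h2 hψ, add_zero]
      · rintro rfl; exact hne hphi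
      · rintro rfl; exact hne hd
    have hm := main hC hw hBL ?_ ?_ ?_
    · have hs' : ¬ IsScal ((h * g * h⁻¹ : Matrix.SpecialLinearGroup (Fin 2) F) : Matrix (Fin 2) (Fin 2) F) := by
        intro h'
        apply not_isScal_of_not_hasEig hg'
        exact (isScal_of_conj (isConj_iff.2 ⟨h, rfl⟩)).2 h'
      have h1 := congrFun hm ⟨h * g * h⁻¹, hh⟩
      simp only [Pi.sub_apply, R] at h1
      have hn1 : h * g * h⁻¹ ≠ 1 := fun h => hs' (by rw [h]; exact isScal_one)
      have hn2 : h * g * h⁻¹ ≠ -1 := fun h => hs' (by rw [h]; exact isScal_neg_one)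
      rw [if_neg hn1, if_neg hn2, hs, Pi.add_apply] at h1
      have h2 := classFunction_isConj (isClassFunction_of_isIrr hχ) (isConj_iff.2 ⟨h, rfl⟩ : IsConj g (h * g * h⁻¹))
      have h3 := classFunction_isConj (isClassFunction_of_isIrr hp.h2) (isConj_iff.2 ⟨h, rfl⟩ : IsConj g (h * g * h⁻¹))
      rw [← h2, ← h3, ← hp.eq_of_disc (disc_of_no_eig hodd hg')] at h1
      have h4 : χ g = -((th0 hC ⟨h * g * h⁻¹, hh⟩ : ℂˣ) : ℂ) := by
        linear_combination h1 / 2
      have hpow : (h * g * h⁻¹) ^ ((Fintype.card F + 1) / 2) = h * g ^ ((Fintype.card F + 1) / 2) * h⁻¹ := conj_pow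
      have hcoe : (((g ^ ((Fintype.card F + 1) / 2)) : Matrix (Fin 2) (Fin 2) F)) =
          ((g ^ ((Fintype.card F + 1) / 2) : Matrix.SpecialLinearGroup (Fin 2) F) : Matrix (Fin 2) (Fin 2) F) := by
        rw [Matrix.SpecialLinearGroup.coe_pow]
      constructor
      · intro h5
        rw [hcoe] at h5
        have h6 : g ^ ((Fintype.card F + 1) / 2) = 1 := Subtype.ext h5
        rw [h4, th0_pos hC (by rw [hpow, h6]; group)]
        simp
      · intro h5
        rw [hcoe] at h5
        rw [h4, th0_neg hC]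
        · simp
        · intro h6
          apply h5
          rw [hpow, mul_inv_eq_one] at h6
          have h7 : g ^ ((Fintype.card F + 1) / 2) = 1 := by
            apply mul_left_cancel (a := h)
            rw [h6, mul_one]
          rw [h7]; rfl
    · apply hkey _ isIrrCharacter_one
      intro h1
      have h2 : (1 : ℕ) = (Fintype.card F - 1) / 2 := by exact_mod_cast h1
      omega
    · apply hkey _ isIrr_StS
      intro h1
      rw [StS_one] at h1
      have h2 : Fintype.card F = (Fintype.card F - 1) / 2 := by exact_mod_cast h1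
      omega
    · intro α θ hθ h1 _
      apply hkey _ (isIrr_vc hC α θ h1 hθ)
      rw [vc_one hC]
      intro h2
      have h3 : ((Fintype.card F - 1 : ℕ) : ℂ) = (((Fintype.card F - 1) / 2 : ℕ) : ℂ) := by
        rw [← h2, Nat.cast_sub Fintype.card_pos]; simp
      have h4 : Fintype.card F - 1 = (Fintype.card F - 1) / 2 := by exact_mod_cast h3
      omega

end Cfsg.Agent.S2435
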