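import Cfsg.Statements.S2438
import Cfsg.Agent.Lib.H43.SLVals

set_option autoImplicit false
open Cfsg

namespace Cfsg.Agent.S2438

open Matrix H43.GL2Basic H43.GL2Card H43.GL2Count H43.Lines H43.IndTrans H43.Principal H43.GLIrr H43.SL2Conj
open H43.SLIrr H43.SLCount H43.SLStruct H43.SLOdd H43.SLVals
open H18.CharBasic H18.CharOrtho H18.CharInd H18.CharQuot

/-- upper unitriangular elements -/
def uS {F : Type*} [Field F] (x : F) : Matrix.SpecialLinearGroup (Fin 2) F := ⟨!![1, x; 0, 1], by simp [det_fin_two]⟩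

theorem uS_coe {F : Type*} [Field F] (x : F) : (uS x : Matrix (Fin 2) (Fin 2) F) = !![1, x; 0, 1] := rfl

theorem sum_U {F : Type*} [Field F] [Fintype F] [DecidableEq F] (f : Matrix.SpecialLinearGroup (Fin 2) F → ℂ) :
    (∑ g : Matrix.SpecialLinearGroup (Fin 2) F, if (g : Matrix (Fin 2) (Fin 2) F) 1 0 = 0 ∧
      (g : Matrix (Fin 2) (Fin 2) F) 0 0 = 1 ∧ (g : Matrix (Fin 2) (Fin 2) F) 1 1 = 1 then f g else 0) =
    ∑ x : F, f (uS x) := by
  rw [← Finset.sum_filter]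
  symm
  refine Finset.sum_bij (fun x _ => uS x) ?_ ?_ ?_ ?_
  · intro x _
    rw [Finset.mem_filter]
    exact ⟨Finset.mem_univ _, rfl, rfl, rfl⟩
  · intro a _ b _ hab
    have := congrArg (fun g : Matrix.SpecialLinearGroup (Fin 2) F => (g : Matrix (Fin 2) (Fin 2) F) 0 1) hab
    simpa [uS] using this
  · intro g hg
    simp only [Finset.mem_filter, Finset.mem_univ, true_and] at hg
    refine ⟨(g : Matrix (Fin 2) (Fin 2) F) 0 1, Finset.mem_univ _, ?_⟩
    ext i j
    rw [uS_coe]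
    fin_cases i <;> fin_cases j <;> simp [hg]
  · intro x _
    rfl

theorem sum_of_const {F : Type*} [Field F] [Fintype F] [DecidableEq F] (f : Matrix.SpecialLinearGroup (Fin 2) F → ℂ)
    (a b : ℂ) (h1 : f 1 = a) (h2 : ∀ x : F, x ≠ 0 → f (uS x) = b) :
    ∑ x : F, f (uS x) = a + ((Fintype.card F : ℂ) - 1) * b := by
  rw [← Finset.add_sum_erase _ _ (Finset.mem_univ (0 : F))]
  have h0 : uS (0 : F) = 1 := by
    ext i j
    rw [uS_coe]
    fin_cases i <;> fin_cases j <;> simp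
  rw [h0, h1]
  congr 1
  rw [Finset.sum_congr rfl (fun x hx => h2 x (Finset.ne_of_mem_erase hx)), Finset.sum_const,
    Finset.card_erase_of_mem (Finset.mem_univ _), Finset.card_univ, nsmul_eq_mul, Nat.cast_sub Fintype.card_pos]
  simp

theorem sum_pair {F : Type*} [Field F] [Fintype F] [DecidableEq F] (hodd : Odd (Fintype.card F))
    {θ φ : Matrix.SpecialLinearGroup (Fin 2) F → ℂ} (hp : Pair θ φ) :
    ∑ x : F, θ (uS x) = ∑ x : F, φ (uS x) := by
  obtain ⟨n, hn⟩ : ∃ n : F, ¬ IsSquare n := FiniteField.exists_nonsquare (ringChar_ne hodd)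
  have hn0 : n ≠ 0 := by rintro rfl; exact hn IsSquare.zero
  let y : Matrix.GeneralLinearGroup (Fin 2) F := Matrix.GeneralLinearGroup.mkOfDetNeZero !![n, 0; 0, 1]
    (by rw [det_fin_two]; simp [hn0])
  have hy : (y : Matrix (Fin 2) (Fin 2) F) = !![n, 0; 0, 1] := rfl
  have hyd : (y : Matrix (Fin 2) (Fin 2) F).det = n := by rw [hy]; simp [det_fin_two]
  refine Fintype.sum_equiv (Equiv.mulLeft₀ n hn0) _ _ (fun x => ?_)
  have h1 := (hp.conj_eq (y := y) (by rw [hyd]; exact hn) (uS x)).2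
  rw [← h1]
  congr 1
  apply Matrix.SpecialLinearGroup.toGL_injective
  rw [toGL_cjg, mul_inv_eq_iff_eq_mul]
  apply Units.ext
  rw [Units.val_mul, Units.val_mul, hy]
  change !![n, 0; 0, 1] * !![1, x; 0, 1] = !![1, n * x; 0, 1] * !![n, 0; 0, 1]
  ext i j
  fin_cases i <;> fin_cases j <;> simp [Matrix.mul_apply, Fin.sum_univ_two]

/-- Let F be a finite field with q elements, q odd, q ≥ 5, U the upper unitriangular subgroup of SL₂ over F, and χ an irreducible complex character. The sum of the values of χ over U equals 2q, q, 0, q, 0 according as the degree of χ is q + 1, q, q − 1, (q + 1)/2, (q − 1)/2; so among these five degrees the sum vanishes exactly for the degrees q − 1 and (q − 1)/2, i.e. the irreducible characters of those two degrees are the ones whose restriction to U does not contain the trivial character (the cuspidal characters), while those of degree q + 1, q and (q + 1)/2 are not cuspidal. -/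
theorem result {F : Type*} [Field F] [Fintype F] [DecidableEq F] (hodd : Odd (Fintype.card F)) (hq : 5 ≤ Fintype.card F)
    (χ : Matrix.SpecialLinearGroup (Fin 2) F → ℂ) (hχ : Cfsg.IsIrrCharacter (Matrix.SpecialLinearGroup (Fin 2) F) χ) :
    (χ 1 = (Fintype.card F : ℂ) + 1 →
      (∑ g : Matrix.SpecialLinearGroup (Fin 2) F, if (g : Matrix (Fin 2) (Fin 2) F) 1 0 = 0 ∧ (g : Matrix (Fin 2) (Fin 2) F) 0 0 = 1 ∧ (g : Matrix (Fin 2) (Fin 2) F) 1 1 = 1 then χ g else 0) = 2 * (Fintype.card F : ℂ)) ∧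
    (χ 1 = (Fintype.card F : ℂ) →
      (∑ g : Matrix.SpecialLinearGroup (Fin 2) F, if (g : Matrix (Fin 2) (Fin 2) F) 1 0 = 0 ∧ (g : Matrix (Fin 2) (Fin 2) F) 0 0 = 1 ∧ (g : Matrix (Fin 2) (Fin 2) F) 1 1 = 1 then χ g else 0) = (Fintype.card F : ℂ)) ∧
    (χ 1 = (Fintype.card F : ℂ) - 1 →
      (∑ g : Matrix.SpecialLinearGroup (Fin 2) F, if (g : Matrix (Fin 2) (Fin 2) F) 1 0 = 0 ∧ (g : Matrix (Fin 2) (Fin 2) F) 0 0 = 1 ∧ (g : Matrix (Fin 2) (Fin 2) F) 1 1 = 1 then χ g else 0) = 0) ∧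
    (χ 1 = (((Fintype.card F + 1) / 2 : ℕ) : ℂ) →
      (∑ g : Matrix.SpecialLinearGroup (Fin 2) F, if (g : Matrix (Fin 2) (Fin 2) F) 1 0 = 0 ∧ (g : Matrix (Fin 2) (Fin 2) F) 0 0 = 1 ∧ (g : Matrix (Fin 2) (Fin 2) F) 1 1 = 1 then χ g else 0) = (Fintype.card F : ℂ)) ∧
    (χ 1 = (((Fintype.card F - 1) / 2 : ℕ) : ℂ) →
      (∑ g : Matrix.SpecialLinearGroup (Fin 2) F, if (g : Matrix (Fin 2) (Fin 2) F) 1 0 = 0 ∧ (g : Matrix (Fin 2) (Fin 2) F) 0 0 = 1 ∧ (g : Matrix (Fin 2) (Fin 2) F) 1 1 = 1 then χ g else 0) = 0) := by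
  classical
  have hI : ∀ γ : MulChar F ℂ, ∀ x : F, x ≠ 0 → Cfsg.indFun (H43.Lines.BSL F) (H43.Principal.thS γ) (uS x) = 1 := by
    intro γ x hx
    rw [H43.Principal.indS_apply_B _ _ (by rw [uS_coe]; rfl), uS_coe]
    simp [H43.Principal.N_self_ne, hx]
  have hc : ∀ c : H43.GLIrr.CuspIrr F, ∀ x : F, x ≠ 0 →
      H43.SLIrr.res (c.1 : Matrix.GeneralLinearGroup (Fin 2) F → ℂ) (uS x) = -1 := by
    intro c x hx
    have h1 := (H43.GLIrr.cusp_degree c).2 x hx
    have h2 : Matrix.SpecialLinearGroup.toGL (uS x) = H43.GLIrr.u x := by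
      apply Units.ext
      rw [H43.GLIrr.u_coe]
      rfl
    simp only [H43.SLIrr.res]
    rw [h2, h1]
  simp only [sum_U]
  refine ⟨?_, ?_, ?_, ?_, ?_⟩
  · intro hd
    obtain ⟨γ, hγ, rfl⟩ := H43.SLStruct.eq_ps hχ hd
    rw [sum_of_const _ _ _ hd (hI γ)]; ring
  · intro hd
    obtain rfl := H43.SLStruct.eq_StS hχ hd
    rw [sum_of_const _ _ 0 hd]
    · ring
    · intro x hx
      rw [H43.SLIrr.StS_apply_B _ (by rw [uS_coe]; rfl), uS_coe]
      simp [H43.Principal.N_self_ne, hx]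
  · intro hd
    obtain ⟨c, rfl⟩ := H43.SLStruct.eq_cusp (by omega) hχ hd
    rw [sum_of_const _ _ _ hd (hc c)]; ring
  · intro hd
    obtain ⟨γ, φ, -, -, hp, hs⟩ := H43.SLVals.eq_half_ps hodd hq hχ hd
    have h1 := sum_of_const _ _ _ (H43.SLIrr.indS_one γ) (hI γ)
    rw [hs] at h1
    simp only [Pi.add_apply] at h1
    rw [Finset.sum_add_distrib, ← sum_pair hodd hp] at h1
    linear_combination h1 / 2
  · intro hd
    obtain ⟨c, φ, hp, hs⟩ := H43.SLVals.eq_half_cusp hodd hq hχ hd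
    have h1 := sum_of_const _ _ _ (H43.SLStruct.cusp_one c) (hc c)
    rw [hs] at h1
    simp only [Pi.add_apply] at h1
    rw [Finset.sum_add_distrib, ← sum_pair hodd hp] at h1
    linear_combination h1 / 2

end Cfsg.Agent.S2438
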