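import Cfsg.Statements.S2439
import Cfsg.Agent.Lib.H45.SL2Blk

set_option autoImplicit false
open Cfsg

namespace Cfsg.Agent.S2439

/-- Let F be a finite field with q elements of odd characteristic p, and M a maximal ideal of the algebraic integers containing p. Then SL₂ over F has exactly three p-blocks relative to M: the irreducible character of degree q (the Steinberg character) alone; the other irreducible characters taking the same value at −1 as at 1 (the principal block); and the irreducible characters χ with χ(−1) = −χ(1). Every Sylow p-subgroup is a defect group of each of the last two blocks. -/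
theorem result {F : Type*} [Field F] [Fintype F] (p : ℕ) [Fact p.Prime] [CharP F p] (hp : p ≠ 2)
    (M : Ideal Cfsg.AlgInt) (hM : Cfsg.IsPModular p M) :
    (∀ B : Set (Cfsg.IrrCharacter (Matrix.SpecialLinearGroup (Fin 2) F)), Cfsg.IsPBlock M B ↔
      (B = {χ : Cfsg.IrrCharacter (Matrix.SpecialLinearGroup (Fin 2) F) | (χ : Matrix.SpecialLinearGroup (Fin 2) F → ℂ) 1 = (Fintype.card F : ℂ)} ∨
       B = {χ : Cfsg.IrrCharacter (Matrix.SpecialLinearGroup (Fin 2) F) | (χ : Matrix.SpecialLinearGroup (Fin 2) F → ℂ) (-1) = (χ : Matrix.SpecialLinearGroup (Fin 2) F → ℂ) 1 ∧ (χ : Matrix.SpecialLinearGroup (Fin 2) F → ℂ) 1 ≠ (Fintype.card F : ℂ)} ∨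
       B = {χ : Cfsg.IrrCharacter (Matrix.SpecialLinearGroup (Fin 2) F) | (χ : Matrix.SpecialLinearGroup (Fin 2) F → ℂ) (-1) = -(χ : Matrix.SpecialLinearGroup (Fin 2) F → ℂ) 1})) ∧
    Nat.card {B : Set (Cfsg.IrrCharacter (Matrix.SpecialLinearGroup (Fin 2) F)) // Cfsg.IsPBlock M B} = 3 ∧
    ∀ P : Sylow p (Matrix.SpecialLinearGroup (Fin 2) F),
      Cfsg.IsDefectGroup p M {χ : Cfsg.IrrCharacter (Matrix.SpecialLinearGroup (Fin 2) F) | (χ : Matrix.SpecialLinearGroup (Fin 2) F → ℂ) (-1) = (χ : Matrix.SpecialLinearGroup (Fin 2) F → ℂ) 1 ∧ (χ : Matrix.SpecialLinearGroup (Fin 2) F → ℂ) 1 ≠ (Fintype.card F : ℂ)} (P : Subgroup (Matrix.SpecialLinearGroup (Fin 2) F)) ∧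
      Cfsg.IsDefectGroup p M {χ : Cfsg.IrrCharacter (Matrix.SpecialLinearGroup (Fin 2) F) | (χ : Matrix.SpecialLinearGroup (Fin 2) F → ℂ) (-1) = -(χ : Matrix.SpecialLinearGroup (Fin 2) F → ℂ) 1} (P : Subgroup (Matrix.SpecialLinearGroup (Fin 2) F)) := by
  obtain ⟨Bp, Bm, hBp, hBm, hp1, hm1, hfp, hfm, hall⟩ := H45.SL2Blk.main (F := F) hp hM
  rw [Nat.card_eq_fintype_card] at hp1
  have hst : {χ : Cfsg.IrrCharacter (Matrix.SpecialLinearGroup (Fin 2) F) |
      (χ : Matrix.SpecialLinearGroup (Fin 2) F → ℂ) 1 = (Fintype.card F : ℂ)} = {H45.SL2Blk.st2' F} := by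
    ext χ
    rw [Set.mem_ofPred_eq, Set.mem_singleton_iff, ← H45.SL2Blk.eq_st2 (p := p), Nat.card_eq_fintype_card]
  have hIs : Cfsg.IsPBlock M ({H45.SL2Blk.st2' F} : Set (Cfsg.IrrCharacter (Matrix.SpecialLinearGroup (Fin 2) F))) :=
    ⟨_, (H45.SL2Blk.blockOf_st2 hM).symm⟩
  rw [hst, ← hp1, ← hm1]
  refine ⟨?_, ?_, ?_⟩
  · intro B
    constructor
    · intro hB; exact hall B hB
    · rintro (h | h | h)
      · rw [h]; exact hIs
      · rw [h]; exact hBp
      · rw [h]; exact hBm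
  · rw [H45.SLDef.card_all (p := p) 2 le_rfl M hM, H45.SL2Blk.card_gcd (p := p) hp]
  · intro P
    exact ⟨H45.SL2Blk.sylow_defect hM hBp hfp P, H45.SL2Blk.sylow_defect hM hBm hfm P⟩


end Cfsg.Agent.S2439
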