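import Cfsg.Statements.S2442
import Cfsg.Agent.Lib.H45.CuspCount

set_option autoImplicit false
open scoped MatrixGroups
open Cfsg

namespace Cfsg.Agent.S2442

open Classical in
/-- Let F be a finite field with q elements and n ≥ 2. Call a complex character χ of GL_n over F cuspidal when, for every 0 < m < n, the sum of χ over the subgroup of matrices that agree with the identity outside the upper right m × (n − m) block vanishes (the restriction of χ to the unipotent radical of each maximal standard parabolic subgroup contains no principal constituent). Then GL_n has at least φ(qⁿ − 1)/n distinct cuspidal irreducible characters of degree (q − 1)(q² − 1)⋯(q^(n−1) − 1), φ being Euler's function (in particular at least one). -/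
theorem result {F : Type*} [Field F] [Fintype F] [DecidableEq F] (n : ℕ) (hn : 2 ≤ n) :
    Nat.totient (Fintype.card F ^ n - 1) / n ≤
      Nat.card {χ : Cfsg.IrrCharacter (GL (Fin n) F) //
        (χ : GL (Fin n) F → ℂ) 1 = ∏ i ∈ Finset.Ico 1 n, ((Fintype.card F : ℂ) ^ i - 1) ∧
        ∀ m : ℕ, 0 < m → m < n →
          (∑ g : GL (Fin n) F,
            if (∀ i j : Fin n, ¬ (i.val < m ∧ m ≤ j.val) → (g : Matrix (Fin n) (Fin n) F) i j = (1 : Matrix (Fin n) (Fin n) F) i j)
            then (χ : GL (Fin n) F → ℂ) g else 0) = 0} := by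
  set q := Fintype.card F with hq
  have hq1 : 1 < q := Fintype.one_lt_card
  have hn0 : 0 < n := by omega
  set N := q ^ n - 1 with hN
  obtain ⟨L, iL1, iL2, iL3, hsplit, hdvd⟩ := H45.CuspCount.exists_field F n hn0
  obtain ⟨γ₀, θ₀, hγ, hθ⟩ := H45.CuspCount.exists_char (L := L) hdvd
  set A := (Finset.range N).filter N.Coprime with hA
  have hAcard : A.card = Nat.totient N := rfl
  let f : ℕ → (GL (Fin n) F → ℂ) := fun k => H45.CuspCount.chi (θ₀ ^ k) n
  have hnorm : ∀ k ∈ A, classInner (f k) (f k) = 1 := by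
    intro k hk
    rw [hA, Finset.mem_filter] at hk
    have h1 := H45.CuspCount.inner_chi (F := F) hn0 hsplit hγ hθ k k
    rw [H45.CuspCount.card_norm hq1 hn hk.2.symm] at h1
    have h2 : (n : ℂ) ≠ 0 := by exact_mod_cast hn0.ne'
    rw [inv_mul_cancel₀ h2] at h1
    convert h1
  have hirr : ∀ k ∈ A, IsIrrCharacter (GL (Fin n) F) (f k) := fun k hk =>
    H18.CharOrtho.isIrr_of_gen_norm_one (H45.CuspCount.isGen_chi (θ₀ ^ k) hsplit) (hnorm k hk)
      (H45.CuspCount.chi_one_pos (θ₀ ^ k) hn0)
  have hfib : ∀ b ∈ A.image f, (A.filter (fun a => f a = b)).card ≤ n := by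
    intro b hb
    obtain ⟨k, hk, rfl⟩ := Finset.mem_image.1 hb
    have hsub : A.filter (fun a => f a = f k) ⊆
        (Finset.range n).image (fun l => (k * q ^ l) % N) := by
      intro k' hk'
      rw [Finset.mem_filter] at hk'
      have h1 : classInner (f k) (f k') = 1 := by rw [hk'.2]; exact hnorm k hk
      have h2 := H45.CuspCount.inner_chi (F := F) hn0 hsplit hγ hθ k k'
      have h3 : ((Finset.range n ×ˢ Finset.range n).filter (fun x : ℕ × ℕ =>
        k * Fintype.card F ^ x.1 ≡ k' * Fintype.card F ^ x.2 [MOD Fintype.card F ^ n - 1])).Nonempty := by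
        rw [Finset.nonempty_iff_ne_empty]
        intro h4
        have h5 : classInner (f k) (f k') = 0 := by
          rw [h4, Finset.card_empty, Nat.cast_zero, mul_zero] at h2
          convert h2
        rw [h1] at h5
        exact one_ne_zero h5
      obtain ⟨⟨i, j⟩, hij⟩ := h3
      simp only [Finset.mem_filter, Finset.mem_product, Finset.mem_range] at hij
      obtain ⟨⟨hi, hj⟩, hmod⟩ := hij
      have hk'A := hk'.1
      rw [hA, Finset.mem_filter, Finset.mem_range] at hk'A
      obtain ⟨l, hl, h6⟩ := H45.CuspCount.modEq_of hq1 hi hj hmod hk'A.1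
      exact Finset.mem_image.2 ⟨l, Finset.mem_range.2 hl, h6.symm⟩
    refine (Finset.card_le_card hsub).trans (Finset.card_image_le.trans ?_)
    rw [Finset.card_range]
  have hle := Finset.card_le_mul_card_image A n hfib
  rw [hAcard] at hle
  refine Nat.div_le_of_le_mul (hle.trans (Nat.mul_le_mul_left n ?_))
  -- injection of the image
  have : Finite (Cfsg.IrrCharacter (GL (Fin n) F)) := inferInstance
  have hprop : ∀ ψ ∈ A.image f, ∃ h : IsIrrCharacter (GL (Fin n) F) ψ,
      ((⟨ψ, h⟩ : Cfsg.IrrCharacter (GL (Fin n) F)) : GL (Fin n) F → ℂ) 1 =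
        ∏ i ∈ Finset.Ico 1 n, ((q : ℂ) ^ i - 1) ∧
        ∀ m : ℕ, 0 < m → m < n →
          (∑ g : GL (Fin n) F,
            if (∀ i j : Fin n, ¬ (i.val < m ∧ m ≤ j.val) → (g : Matrix (Fin n) (Fin n) F) i j = (1 : Matrix (Fin n) (Fin n) F) i j)
            then ((⟨ψ, h⟩ : Cfsg.IrrCharacter (GL (Fin n) F)) : GL (Fin n) F → ℂ) g else 0) = 0 := by
    intro ψ hψ
    obtain ⟨k, hk, rfl⟩ := Finset.mem_image.1 hψ
    refine ⟨hirr k hk, H45.CuspCount.chi_one (θ₀ ^ k) hn0, fun m hm hmn => ?_⟩
    have h1 := H45.CuspCount.cuspidal_chi (F := F) (θ₀ ^ k) hm hmn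
    refine Eq.trans (Finset.sum_congr rfl fun g _ => ?_) h1
    split_ifs <;> rfl
  choose h1 h2 using hprop
  rw [← Fintype.card_coe, ← Nat.card_eq_fintype_card]
  refine Nat.card_le_card_of_injective (fun ψ : A.image f => ⟨⟨ψ.1, h1 ψ.1 ψ.2⟩, h2 ψ.1 ψ.2⟩) ?_
  intro a b hab
  exact Subtype.ext (congrArg (fun z => (z.1.1 : GL (Fin n) F → ℂ)) hab)


end Cfsg.Agent.S2442
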