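import Cfsg.Statements.S2531
import Mathlib

set_option autoImplicit false
set_option linter.unusedVariables false
open Cfsg

namespace Cfsg.Agent.S2531

open scoped LinearAlgebra.Projectivization

open Projectivization

theorem submodule_mk_le {F V : Type*} [Field F] [AddCommGroup V] [Module F V] (W : Submodule F V) (v : V) (hv : v ≠ 0) :
    (mk F v hv).submodule ≤ W ↔ v ∈ W := by
  rw [submodule_mk, Submodule.span_singleton_le_iff_mem]

theorem card_sub {F V : Type*} [Field F] [Finite F] [AddCommGroup V] [Module F V] [Module.Finite F V]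
    (W : Submodule F V) (hW : W ≠ ⊥) :
    Nat.card {p : ℙ F V // p.submodule ≤ W} ≡ 1 [MOD Nat.card F] := by
  have e : ℙ F W ≃ {p : ℙ F V // p.submodule ≤ W} := by
    refine Equiv.ofBijective (fun p => ⟨map W.subtype W.injective_subtype p, ?_⟩) ⟨?_, ?_⟩
    · induction p using ind with
      | h v hv =>
        rw [map_mk, submodule_mk_le]
        exact v.2
    · intro p p' h
      exact map_injective W.subtype W.injective_subtype (congrArg Subtype.val h)
    · rintro ⟨p, hp⟩
      induction p using ind with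
      | h v hv =>
        rw [submodule_mk_le] at hp
        refine ⟨mk F (⟨v, hp⟩ : W) (fun h => hv (congrArg Subtype.val h)), ?_⟩
        apply Subtype.ext
        rfl
  rw [← Nat.card_congr e, card_of_finrank F W rfl]
  have hd : 1 ≤ Module.finrank F W := by
    rw [Nat.one_le_iff_ne_zero]
    intro h
    exact hW (Submodule.finrank_eq_zero.1 h)
  obtain ⟨k, hk⟩ := Nat.exists_eq_add_of_le' hd
  rw [hk, Finset.sum_range_succ', pow_zero]
  have : Nat.card F ∣ ∑ i ∈ Finset.range k, Nat.card F ^ (i + 1) := by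
    apply Finset.dvd_sum
    intro i _
    exact dvd_pow_self _ (Nat.succ_ne_zero i)
  have h2 := (Nat.modEq_zero_iff_dvd.2 this).add_right 1
  rwa [zero_add] at h2

/-- Let `F` be a finite field and `n ≥ 3`. No set of permutations of the points of the projective space of `Fⁿ`, each induced by an invertible semilinear transformation of `Fⁿ` (so a subset of the full projective semilinear group), is sharply 2-transitive on the points: it is impossible that for all pairs of distinct points `(a, b)` and `(c, d)` exactly one member of the set sends `a` to `c` and `b` to `d`. -/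
theorem result {F : Type*} [Field F] [Finite F]
    (n : ℕ) (hn : 3 ≤ n) (S : Set (Equiv.Perm (Projectivization F (Fin n → F))))
    (hS : ∀ s ∈ S, ∃ (σ : F ≃+* F) (f : (Fin n → F) →ₛₗ[(σ : F →+* F)] (Fin n → F)) (hf : Function.Injective f),
      ∀ x, s x = Projectivization.map f hf x) :
    ¬ (∀ a b c d : Projectivization F (Fin n → F), a ≠ b → c ≠ d →
        ∃! s, s ∈ S ∧ s a = c ∧ s b = d) := by
  intro hsh
  classical
  set q := Nat.card F with hq
  have hq1 : 1 < q := Finite.one_lt_card
  set i0 : Fin n := ⟨0, by omega⟩ with hi0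
  set i1 : Fin n := ⟨1, by omega⟩ with hi1
  set i2 : Fin n := ⟨2, by omega⟩ with hi2
  have h01 : i0 ≠ i1 := by simp [hi0, hi1]
  have h02 : i0 ≠ i2 := by simp [hi0, hi2]
  have h12 : i1 ≠ i2 := by simp [hi1, hi2]
  let H : Submodule F (Fin n → F) := LinearMap.ker (LinearMap.proj i0 : (Fin n → F) →ₗ[F] F)
  have hH : ∀ v, v ∈ H ↔ v i0 = 0 := fun v => LinearMap.mem_ker
  let ω : Projectivization F (Fin n → F) := mk F (Pi.single i0 1) (Pi.single_ne_zero_iff.2 one_ne_zero)
  have hω : ¬ ω.submodule ≤ H := by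
    rw [submodule_mk_le, hH, Pi.single_eq_same]
    exact one_ne_zero
  let Hs : Set (Projectivization F (Fin n → F)) := {p | p.submodule ≤ H}
  have hHsω : ∀ x ∈ Hs, x ≠ ω := by
    rintro x hx rfl
    exact hω hx
  have hfin : Finite (Equiv.Perm (Projectivization F (Fin n → F))) := inferInstance
  let Sω := {s : Equiv.Perm (Projectivization F (Fin n → F)) // s ∈ S ∧ s ω = ω}
  have hfinS : Finite Sω := inferInstance
  let hft : Fintype Sω := Fintype.ofFinite _
  -- the double counting bijection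
  have E1 : (Σ s : Sω, {x // x ∈ Hs ∧ s.1 x ∈ Hs}) ≃ Hs × Hs := by
    refine Equiv.ofBijective (fun t => (⟨t.2.1, t.2.2.1⟩, ⟨t.1.1 t.2.1, t.2.2.2⟩)) ⟨?_, ?_⟩
    · rintro ⟨⟨s, hs1, hs2⟩, ⟨x, hx1, hx2⟩⟩ ⟨⟨s', hs1', hs2'⟩, ⟨x', hx1', hx2'⟩⟩ h
      simp only [Prod.mk.injEq, Subtype.mk.injEq] at h
      obtain ⟨rfl, h2⟩ := h
      obtain ⟨t, -, ht⟩ := hsh ω x ω (s x) (hHsω x hx1).symm (hHsω _ hx2).symm
      have e1 := ht s ⟨hs1, hs2, rfl⟩
      have e2 := ht s' ⟨hs1', hs2', h2.symm⟩
      have : s = s' := e1.trans e2.symm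
      subst this
      rfl
    · rintro ⟨⟨x, hx⟩, ⟨y, hy⟩⟩
      obtain ⟨s, ⟨h1, h2, h3⟩, -⟩ := hsh ω x ω y (hHsω x hx).symm (hHsω y hy).symm
      refine ⟨⟨⟨s, h1, h2⟩, ⟨x, hx, ?_⟩⟩, ?_⟩
      · rw [h3]; exact hy
      · simp only [h3]
  -- intersections
  have hint : ∀ s : Sω, Nat.card {x // x ∈ Hs ∧ s.1 x ∈ Hs} ≡ 1 [MOD q] := by
    rintro ⟨s, hs, -⟩
    obtain ⟨σ, f, hf, hsf⟩ := hS s hs
    have hset : ∀ x, (x ∈ Hs ∧ s x ∈ Hs) ↔ x.submodule ≤ H ⊓ H.comap f := by
      intro x
      rw [hsf]
      induction x using ind with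
      | h v hv =>
        rw [map_mk]
        show (mk F v hv).submodule ≤ H ∧ (mk F (f v) _).submodule ≤ H ↔ _
        rw [submodule_mk_le, submodule_mk_le, submodule_mk_le, Submodule.mem_inf, Submodule.mem_comap]
    have hcong : Nat.card {x // x ∈ Hs ∧ s x ∈ Hs} = Nat.card {p : Projectivization F (Fin n → F) // p.submodule ≤ H ⊓ H.comap f} :=
      Nat.card_congr (Equiv.subtypeEquivRight hset)
    show Nat.card {x // x ∈ Hs ∧ s x ∈ Hs} ≡ 1 [MOD q]
    rw [hcong]
    apply card_sub
    -- nonzero vector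
    let g : F × F → F := fun ab => f (Pi.single i1 ab.1 + Pi.single i2 ab.2) i0
    have hg : ¬ Function.Injective g := by
      intro hinj
      have h1 := Nat.card_le_card_of_injective g hinj
      rw [Nat.card_prod] at h1
      nlinarith
    rw [Function.Injective] at hg
    push Not at hg
    obtain ⟨⟨a, b⟩, ⟨a', b'⟩, hab, hne⟩ := hg
    intro hbot
    have hmem : (Pi.single i1 (a - a') + Pi.single i2 (b - b') : Fin n → F) ∈ H ⊓ H.comap f := by
      rw [Submodule.mem_inf, Submodule.mem_comap, hH, hH]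
      constructor
      · simp [h01, h02]
      · have e : (Pi.single i1 (a - a') + Pi.single i2 (b - b') : Fin n → F) =
            (Pi.single i1 a + Pi.single i2 b) - (Pi.single i1 a' + Pi.single i2 b') := by
          rw [Pi.single_sub, Pi.single_sub]
          abel
        rw [e, map_sub, Pi.sub_apply]
        exact sub_eq_zero.2 hab
    rw [hbot, Submodule.mem_bot] at hmem
    apply hne
    have e1 := congrFun hmem i1
    have e2 := congrFun hmem i2
    simp only [Pi.add_apply, Pi.single_eq_same, Pi.zero_apply, Pi.single_eq_of_ne h12, Pi.single_eq_of_ne h12.symm,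
      add_zero, zero_add] at e1 e2
    rw [sub_eq_zero.1 e1, sub_eq_zero.1 e2]
  -- count of `Sω`
  have hVne : (Pi.single i1 1 : Fin n → F) ≠ 0 := Pi.single_ne_zero_iff.2 one_ne_zero
  let x0 : Projectivization F (Fin n → F) := mk F (Pi.single i1 1) hVne
  have hx0 : x0 ∈ Hs := by
    show x0.submodule ≤ H
    rw [submodule_mk_le, hH]
    exact Pi.single_eq_of_ne h01 1
  have E2 : Sω ≃ {y // y ≠ ω} := by
    refine Equiv.ofBijective (fun s => ⟨s.1 x0, ?_⟩) ⟨?_, ?_⟩
    · intro h
      have h2 := s.2.2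
      exact hHsω x0 hx0 (s.1.injective (h.trans h2.symm))
    · rintro ⟨s, hs1, hs2⟩ ⟨s', hs1', hs2'⟩ h
      have h' : s x0 = s' x0 := congrArg Subtype.val h
      have hne : s x0 ≠ ω := by
        intro h3
        have : s x0 = s ω := by rw [h3, hs2]
        exact hHsω x0 hx0 (s.injective this)
      obtain ⟨t, -, ht⟩ := hsh ω x0 ω (s x0) (hHsω x0 hx0).symm hne.symm
      have e1 := ht s ⟨hs1, hs2, rfl⟩
      have e2 := ht s' ⟨hs1', hs2', h'.symm⟩
      exact Subtype.ext (e1.trans e2.symm)
    · rintro ⟨y, hy⟩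
      obtain ⟨s, ⟨h1, h2, h3⟩, -⟩ := hsh ω x0 ω y (hHsω x0 hx0).symm hy.symm
      exact ⟨⟨s, h1, h2⟩, Subtype.ext h3⟩
  have hcardS : Nat.card Sω ≡ 0 [MOD q] := by
    rw [Nat.card_congr E2]
    have h1 : Nat.card (Projectivization F (Fin n → F)) ≡ 1 [MOD q] := by
      have h2 := card_sub (F := F) (V := Fin n → F) ⊤ (by
        intro h
        have : (Pi.single i1 1 : Fin n → F) ∈ (⊤ : Submodule F (Fin n → F)) := trivial
        rw [h, Submodule.mem_bot] at this
        exact hVne this)
      have h3 : Nat.card {p : Projectivization F (Fin n → F) // p.submodule ≤ ⊤} = Nat.card (Projectivization F (Fin n → F)) :=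
        Nat.card_congr (Equiv.subtypeUnivEquiv (fun x => le_top))
      rwa [h3] at h2
    have h4 : Nat.card {y : Projectivization F (Fin n → F) // y ≠ ω} + 1 = Nat.card (Projectivization F (Fin n → F)) := by
      let hft2 : Fintype (Projectivization F (Fin n → F)) := Fintype.ofFinite _
      rw [Nat.card_eq_fintype_card, Nat.card_eq_fintype_card, Fintype.card_subtype_compl, Fintype.card_subtype_eq]
      have : 0 < Fintype.card (Projectivization F (Fin n → F)) := Fintype.card_pos_iff.2 ⟨ω⟩
      omega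
    rw [← h4] at h1
    exact Nat.ModEq.add_right_cancel' 1 h1
  have hcardH : Nat.card Hs ≡ 1 [MOD q] := by
    apply card_sub H
    intro h
    have : (Pi.single i1 1 : Fin n → F) ∈ H := by
      rw [hH]
      exact Pi.single_eq_of_ne h01 1
    rw [h, Submodule.mem_bot] at this
    exact hVne this
  have h1 := Nat.card_congr E1
  rw [Nat.card_prod, Nat.card_sigma] at h1
  have h2 : ∑ s : Sω, Nat.card {x // x ∈ Hs ∧ s.1 x ∈ Hs} ≡ ∑ s : Sω, 1 [MOD q] := by
    rw [Nat.ModEq, Finset.sum_nat_mod, Finset.sum_nat_mod (f := fun _ => 1)]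
    congr 1
    apply Finset.sum_congr rfl
    intro s _
    exact hint s
  rw [h1, Finset.sum_const, Finset.card_univ, smul_eq_mul, mul_one, ← Nat.card_eq_fintype_card] at h2
  have h3 : 1 * 1 ≡ 0 [MOD q] := ((hcardH.mul hcardH).symm.trans h2).trans hcardS
  rw [Nat.modEq_zero_iff_dvd] at h3
  have := Nat.le_of_dvd (by norm_num) h3
  omega

end Cfsg.Agent.S2531
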