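import Cfsg.Statements.S2532
import Mathlib

set_option autoImplicit false
set_option linter.unusedVariables false
open Cfsg

namespace Cfsg.Agent.S2532

theorem exists_permuting {G X : Type*} [Group G] [MulAction G X] {r : ℕ} (x : Fin r → X)
    (hst : ∀ i j, MulAction.stabilizer G (x i) = MulAction.stabilizer G (x j))
    (horb : ∀ i j (g : G), g • x i = x j → i = j) :
    ∃ φ : Equiv.Perm (Fin r) →* Equiv.Perm X, Function.Injective φ ∧ ∀ σ (g : G) y, φ σ (g • y) = g • φ σ y := by
  classical
  let F : Equiv.Perm (Fin r) → X → X := fun σ y =>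
    if h : ∃ p : G × Fin r, y = p.1 • x p.2 then h.choose.1 • x (σ h.choose.2) else y
  have hF1 : ∀ σ (g : G) i, F σ (g • x i) = g • x (σ i) := by
    intro σ g i
    have h : ∃ p : G × Fin r, g • x i = p.1 • x p.2 := ⟨(g, i), rfl⟩
    have h1 : F σ (g • x i) = h.choose.1 • x (σ h.choose.2) := dif_pos h
    rw [h1]
    have h2 := h.choose_spec
    set p := h.choose with hp
    have h3 : i = p.2 := by
      apply horb i p.2 (p.1⁻¹ * g)
      rw [mul_smul, h2, inv_smul_smul]
    rw [← h3] at h2 ⊢
    have h4 : p.1⁻¹ * g ∈ MulAction.stabilizer G (x (σ i)) := by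
      rw [hst (σ i) i, MulAction.mem_stabilizer_iff, mul_smul, h2, inv_smul_smul]
    rw [MulAction.mem_stabilizer_iff, mul_smul, inv_smul_eq_iff] at h4
    exact h4.symm
  have hF2 : ∀ σ y, (¬ ∃ p : G × Fin r, y = p.1 • x p.2) → F σ y = y := fun σ y h => dif_neg h
  have hmul : ∀ σ τ y, F (σ * τ) y = F σ (F τ y) := by
    intro σ τ y
    by_cases h : ∃ p : G × Fin r, y = p.1 • x p.2
    · obtain ⟨⟨g, i⟩, rfl⟩ := h
      rw [hF1, hF1, hF1]
      rfl
    · rw [hF2 _ _ h, hF2 τ y h, hF2 _ _ h]
  have hone : ∀ y, F 1 y = y := by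
    intro y
    by_cases h : ∃ p : G × Fin r, y = p.1 • x p.2
    · obtain ⟨⟨g, i⟩, rfl⟩ := h
      rw [hF1]
      rfl
    · exact hF2 _ _ h
  let φ : Equiv.Perm (Fin r) →* Equiv.Perm X :=
    { toFun := fun σ => ⟨F σ, F σ⁻¹, fun y => by rw [← hmul, inv_mul_cancel, hone], fun y => by rw [← hmul, mul_inv_cancel, hone]⟩
      map_one' := Equiv.ext hone
      map_mul' := fun σ τ => Equiv.ext (hmul σ τ) }
  refine ⟨φ, ?_, ?_⟩
  · intro σ τ h
    ext i
    have h1 := Equiv.congr_fun h (x i)
    have h2 : F σ (x i) = F τ (x i) := h1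
    have h3 : F σ ((1 : G) • x i) = F τ ((1 : G) • x i) := by rw [one_smul]; exact h2
    rw [hF1, hF1, one_smul, one_smul] at h3
    congr 1
    apply horb (σ i) (τ i) 1
    rw [one_smul]
    exact h3
  · intro σ g y
    change F σ (g • y) = g • F σ y
    by_cases h : ∃ p : G × Fin r, y = p.1 • x p.2
    · obtain ⟨⟨g', i⟩, rfl⟩ := h
      rw [← mul_smul, hF1, hF1, mul_smul]
    · have h' : ¬ ∃ p : G × Fin r, g • y = p.1 • x p.2 := by
        rintro ⟨⟨g', i⟩, h2⟩
        apply h
        refine ⟨(g⁻¹ * g', i), ?_⟩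
        simp only at h2 ⊢
        rw [mul_smul, ← h2, inv_smul_smul]
      rw [hF2 _ _ h, hF2 _ _ h']

theorem exists_points {G X : Type*} [Group G] [Finite G] [Fintype X] [MulAction G X] {r : ℕ}
    (hX : Nat.card G * (2 ^ Nat.card G * r) ≤ Fintype.card X) :
    ∃ x : Fin r → X, (∀ i j, MulAction.stabilizer G (x i) = MulAction.stabilizer G (x j)) ∧
      (∀ i j (g : G), g • x i = x j → i = j) := by
  classical
  have := Fintype.ofFinite G
  let Ω := MulAction.orbitRel.Quotient G X
  have : Fintype Ω := Fintype.ofFinite Ω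
  have hGpos : 0 < Nat.card G := Nat.card_pos
  -- number of orbits
  have h1 : Fintype.card X ≤ Nat.card G * Fintype.card Ω := by
    have := Finset.card_le_mul_card_image (s := (Finset.univ : Finset X)) (f := fun x => (Quotient.mk'' x : Ω)) (Nat.card G) (by
      intro b _
      induction b using Quotient.inductionOn' with | _ y => ?_
      have : (Finset.univ.filter (fun a : X => (Quotient.mk'' a : Ω) = Quotient.mk'' y)) ⊆ Finset.univ.image (fun g : G => g • y) := by
        intro a ha
        rw [Finset.mem_filter] at ha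
        have h2 := Quotient.eq''.mp ha.2
        obtain ⟨g, hg⟩ := h2
        exact Finset.mem_image.mpr ⟨g, Finset.mem_univ _, hg⟩
      calc _ ≤ _ := Finset.card_le_card this
        _ ≤ (Finset.univ : Finset G).card := Finset.card_image_le
        _ = Nat.card G := by rw [Finset.card_univ, Nat.card_eq_fintype_card])
    calc Fintype.card X = (Finset.univ : Finset X).card := rfl
      _ ≤ _ := this
      _ ≤ Nat.card G * Fintype.card Ω := Nat.mul_le_mul_left _ (Finset.card_le_univ _)
  have h2 : 2 ^ Nat.card G * r ≤ Fintype.card Ω := Nat.le_of_mul_le_mul_left (hX.trans h1) hGpos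
  have : Fintype (Subgroup G) := Fintype.ofFinite _
  have h3 : Fintype.card (Subgroup G) ≤ 2 ^ Nat.card G := by
    have := Fintype.card_le_of_injective (fun H : Subgroup G => (H : Set G)) SetLike.coe_injective
    rwa [Fintype.card_set, ← Nat.card_eq_fintype_card (α := G)] at this
  let s : Ω → Subgroup G := fun ω => MulAction.stabilizer G (Quotient.out ω)
  have h4 : Fintype.card (Subgroup G) * r ≤ Fintype.card Ω := (Nat.mul_le_mul_right r h3).trans h2
  have hne : Nonempty (Subgroup G) := ⟨⊥⟩
  obtain ⟨L, hL⟩ := Fintype.exists_le_card_fiber_of_mul_le_card s h4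
  obtain ⟨t, ht1, ht2⟩ := Finset.exists_subset_card_eq hL
  let e : Fin r ≃ t := (t.equivFinOfCardEq ht2).symm
  refine ⟨fun i => Quotient.out (e i).1, ?_, ?_⟩
  · intro i j
    have hi := (Finset.mem_filter.mp (ht1 (e i).2)).2
    have hj := (Finset.mem_filter.mp (ht1 (e j).2)).2
    exact hi.trans hj.symm
  · intro i j g hg
    change g • Quotient.out (e i).1 = Quotient.out (e j).1 at hg
    apply e.injective
    apply Subtype.ext
    rw [← Quotient.out_eq (e i).1, ← Quotient.out_eq (e j).1, ← hg]
    symm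
    apply Quotient.sound
    exact ⟨g, rfl⟩

theorem hom_trivial_on_alternating {r : ℕ} (f : Equiv.Perm (Fin r) →* ℤˣ) (σ : Equiv.Perm (Fin r)) (hσ : σ ∈ alternatingGroup (Fin r)) : f σ = 1 := by
  rw [← Equiv.Perm.closure_three_cycles_eq_alternating] at hσ
  induction hσ using Subgroup.closure_induction with
  | mem x hx =>
    have h1 : x ^ 3 = 1 := by
      have := hx.orderOf
      rw [← this, pow_orderOf_eq_one]
    have h2 : f x ^ 3 = 1 := by rw [← map_pow, h1, map_one]
    have h3 : f x ^ 2 = 1 := by rw [Int.units_sq]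
    rw [pow_succ, h3, one_mul] at h2
    exact h2
  | one => exact map_one f
  | mul a b _ _ iha ihb => rw [map_mul, iha, ihb, one_mul]
  | inv a _ iha => rw [map_inv, iha, inv_one]

/-- There is a function `f` of two natural-number arguments such that, whenever `m ≥ f(n, r)`, every subgroup of order `n` of the alternating group of degree `m` centralizes some subgroup of that alternating group isomorphic to the alternating group of degree `r`. -/
theorem result :
    ∃ f : ℕ → ℕ → ℕ, ∀ (m r : ℕ) (H : Subgroup ↥(alternatingGroup (Fin m))), f (Nat.card H) r ≤ m →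
      ∃ K : Subgroup ↥(alternatingGroup (Fin m)), Nonempty (↥K ≃* ↥(alternatingGroup (Fin r))) ∧
        K ≤ Subgroup.centralizer (H : Set ↥(alternatingGroup (Fin m))) := by
  refine ⟨fun n r => n * (2 ^ n * r), fun m r H hm => ?_⟩
  obtain ⟨x, hx1, hx2⟩ := exists_points (G := H) (X := Fin m) (r := r) (by rw [Fintype.card_fin]; exact hm)
  obtain ⟨φ, hφ, hc⟩ := exists_permuting (G := H) x hx1 hx2
  let ψ : ↥(alternatingGroup (Fin r)) →* ↥(alternatingGroup (Fin m)) :=
    { toFun := fun σ => ⟨φ σ, by
        rw [Equiv.Perm.mem_alternatingGroup]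
        exact hom_trivial_on_alternating (Equiv.Perm.sign.comp φ) σ.1 σ.2⟩
      map_one' := Subtype.ext (map_one φ)
      map_mul' := fun a b => Subtype.ext (map_mul φ _ _) }
  have hψ : Function.Injective ψ := by
    intro a b hab
    exact Subtype.ext (hφ (congrArg Subtype.val hab))
  refine ⟨ψ.range, ⟨(MonoidHom.ofInjective hψ).symm⟩, ?_⟩
  rintro _ ⟨σ, rfl⟩
  rw [Subgroup.mem_centralizer_iff]
  intro h hh
  apply Subtype.ext
  apply Equiv.ext
  intro y
  exact (hc σ.1 ⟨h, hh⟩ y).symm

end Cfsg.Agent.S2532
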