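import Cfsg.Statements.S2533
import Mathlib

set_option autoImplicit false
set_option linter.unusedVariables false
open Cfsg

namespace Cfsg.Agent.S2533

open Matrix

section group

/-- units of the integers acting on a commutative group by powers -/
def θ (N : Type*) [CommGroup N] : ℤˣ →* MulAut N where
  toFun ε :=
    { toFun := fun x => x ^ (ε : ℤ)
      invFun := fun x => x ^ (ε : ℤ)
      left_inv := fun x => by
        change (x ^ (ε : ℤ)) ^ (ε : ℤ) = x
        rw [← _root_.zpow_mul, ← Units.val_mul, Int.units_mul_self, Units.val_one, zpow_one]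
      right_inv := fun x => by
        change (x ^ (ε : ℤ)) ^ (ε : ℤ) = x
        rw [← _root_.zpow_mul, ← Units.val_mul, Int.units_mul_self, Units.val_one, zpow_one]
      map_mul' := fun x y => mul_zpow x y _ }
  map_one' := by
    ext x
    simp
  map_mul' a b := by
    ext x
    simp only [MulAut.mul_apply, MulEquiv.coe_mk, Equiv.coe_fn_mk, Units.val_mul]
    rw [mul_comm, _root_.zpow_mul]

/-- the group of order `2 p ^ 3` -/
abbrev HH (p : ℕ) : Type := Multiplicative (Fin 3 → ZMod p) ⋊[θ (Multiplicative (Fin 3 → ZMod p))] ℤˣ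

end group

variable {F : Type*} [Field F]

/-- the lower left block -/
def Lm (k : ℕ) (a : Fin 3 → F) : Matrix (Fin (k + 1)) (Fin k) F := Matrix.of fun i j =>
  (if i.val = j.val then a 0 else 0) + (if i.val = j.val + 1 then a 1 else 0) + (if i.val = k ∧ j.val = 0 then a 2 else 0)

theorem Lm_add (k : ℕ) (a b : Fin 3 → F) : Lm k (a + b) = Lm k a + Lm k b := by
  ext i j
  simp only [Lm, Matrix.of_apply, Matrix.add_apply, Pi.add_apply]
  split_ifs <;> ring

theorem Lm_zero (k : ℕ) : Lm k (0 : Fin 3 → F) = 0 := by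
  ext i j
  simp [Lm]

theorem Lm_smul (k : ℕ) (c : F) (a : Fin 3 → F) : Lm k (c • a) = c • Lm k a := by
  ext i j
  simp only [Lm, Matrix.of_apply, Matrix.smul_apply, Pi.smul_apply, smul_eq_mul]
  split_ifs <;> ring

theorem Lm_injective (k : ℕ) (hk : 2 ≤ k) (a : Fin 3 → F) (h : Lm k a = 0) : a = 0 := by
  have h0 := congrFun (congrFun h ⟨0, by omega⟩) ⟨0, by omega⟩
  have h1 := congrFun (congrFun h ⟨1, by omega⟩) ⟨0, by omega⟩
  have h2 := congrFun (congrFun h ⟨k, by omega⟩) ⟨0, by omega⟩
  have n1 : ¬ (0 = k) := by omega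
  have n2 : ¬ (1 = k) := by omega
  have n3 : ¬ (k = 0) := by omega
  have n4 : ¬ (k = 1) := by omega
  simp [Lm, n1] at h0
  simp [Lm, n2] at h1
  simp [Lm, n3, n4] at h2
  ext i
  fin_cases i
  · exact h0
  · exact h1
  · exact h2

/-- the matrix of an element -/
def Mm (k : ℕ) (a : Fin 3 → F) (ε : F) : Matrix (Fin k ⊕ Fin (k + 1)) (Fin k ⊕ Fin (k + 1)) F :=
  fromBlocks 1 0 (Lm k a) (ε • 1)

theorem Mm_mul (k : ℕ) (a b : Fin 3 → F) (ε δ : F) : Mm k a ε * Mm k b δ = Mm k (a + ε • b) (ε * δ) := by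
  unfold Mm
  rw [fromBlocks_multiply, Lm_add, Lm_smul]
  simp only [Matrix.one_mul, Matrix.zero_mul, add_zero, zero_add, Matrix.mul_one, Matrix.mul_zero, Matrix.smul_mul, mul_smul]

theorem Mm_det (k : ℕ) (a : Fin 3 → F) (ε : F) : (Mm k a ε).det = ε ^ (k + 1) := by
  unfold Mm
  rw [det_fromBlocks_zero₁₂, det_one, one_mul, det_smul, det_one, mul_one, Fintype.card_fin]

theorem Lm_e1 (k : ℕ) (i : Fin (k + 1)) (j : Fin k) : Lm k ![(1 : F), 0, 0] i j = if i.val = j.val then 1 else 0 := by
  simp [Lm]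

theorem Lm_e2 (k : ℕ) (i : Fin (k + 1)) (j : Fin k) : Lm k ![(0 : F), 1, 0] i j = if i.val = j.val + 1 then 1 else 0 := by
  simp [Lm]

/-- rigidity of the Kronecker module -/
theorem kron_rigid (k : ℕ) (hk : 1 ≤ k) (α : Matrix (Fin k) (Fin k) F) (δ : Matrix (Fin (k + 1)) (Fin (k + 1)) F)
    (h : ∀ a : Fin 3 → F, δ * Lm k a = Lm k a * α) : ∃ c : F, α = c • 1 ∧ δ = c • 1 := by
  -- consequences for the first two arrows
  have h1 : ∀ (i : Fin (k + 1)) (j : Fin k), δ i j.castSucc = if hi : i.val < k then α ⟨i.val, hi⟩ j else 0 := by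
    intro i j
    have e := congrFun (congrFun (h ![1, 0, 0]) i) j
    rw [Matrix.mul_apply, Matrix.mul_apply] at e
    simp only [Lm_e1] at e
    rw [Finset.sum_eq_single j.castSucc (fun b _ hb => by rw [if_neg (fun h => hb (Fin.ext (by simpa using h))), mul_zero]) (by simp),
      if_pos (by simp), mul_one] at e
    rw [e]
    split_ifs with hi
    · rw [Finset.sum_eq_single (⟨i.val, hi⟩ : Fin k) (fun b _ hb => by rw [if_neg (fun h => hb (Fin.ext h.symm)), zero_mul]) (by simp),
        if_pos rfl, one_mul]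
    · apply Finset.sum_eq_zero
      intro b _
      rw [if_neg (by have := b.2; omega), zero_mul]
  have h2 : ∀ (i : Fin (k + 1)) (j : Fin k), δ i j.succ = if hi : 1 ≤ i.val then α ⟨i.val - 1, by omega⟩ j else 0 := by
    intro i j
    have e := congrFun (congrFun (h ![0, 1, 0]) i) j
    rw [Matrix.mul_apply, Matrix.mul_apply] at e
    simp only [Lm_e2] at e
    rw [Finset.sum_eq_single j.succ (fun b _ hb => by rw [if_neg (fun h => hb (Fin.ext (by simpa using h))), mul_zero]) (by simp),
      if_pos (by simp), mul_one] at e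
    rw [e]
    split_ifs with hi
    · rw [Finset.sum_eq_single (⟨i.val - 1, by omega⟩ : Fin k) (fun b _ hb => by
          rw [if_neg (fun h => hb (Fin.ext (by change b.val = i.val - 1; omega))), zero_mul]) (by simp),
        if_pos (by change i.val = i.val - 1 + 1; omega), one_mul]
    · apply Finset.sum_eq_zero
      intro b _
      rw [if_neg (by omega), zero_mul]
  let D : ℕ → ℕ → F := fun i j => if h : i < k + 1 ∧ j < k + 1 then δ ⟨i, h.1⟩ ⟨j, h.2⟩ else 0
  have hD : ∀ i j (hi : i < k + 1) (hj : j < k + 1), D i j = δ ⟨i, hi⟩ ⟨j, hj⟩ := fun i j hi hj => dif_pos ⟨hi, hj⟩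
  have r1 : ∀ i j, i < k → j < k → D (i + 1) (j + 1) = D i j := by
    intro i j hi hj
    rw [hD _ _ (by omega) (by omega), hD _ _ (by omega) (by omega)]
    have e1 := h1 ⟨i, by omega⟩ ⟨j, hj⟩
    have e2 := h2 ⟨i + 1, by omega⟩ ⟨j, hj⟩
    rw [dif_pos (by simpa using hi)] at e1
    rw [dif_pos (by simp)] at e2
    exact e2.trans e1.symm
  have r2 : ∀ j, j < k → D 0 (j + 1) = 0 := by
    intro j hj
    rw [hD _ _ (by omega) (by omega)]
    have e2 := h2 ⟨0, by omega⟩ ⟨j, hj⟩
    rw [dif_neg (by simp)] at e2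
    exact e2
  have r3 : ∀ j, j < k → D k j = 0 := by
    intro j hj
    rw [hD _ _ (by omega) (by omega)]
    have e1 := h1 ⟨k, by omega⟩ ⟨j, hj⟩
    rw [dif_neg (by simp)] at e1
    exact e1
  have s1 : ∀ t i j, i + t ≤ k → j + t ≤ k → D (i + t) (j + t) = D i j := by
    intro t
    induction t with
    | zero => intro i j _ _; rfl
    | succ t ih =>
      intro i j hi hj
      rw [← add_assoc, ← add_assoc, r1 _ _ (by omega) (by omega), ih i j (by omega) (by omega)]
  have s2 : ∀ i j, i ≤ k → j ≤ k → D i j = if i = j then D 0 0 else 0 := by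
    intro i j hi hj
    rcases lt_trichotomy i j with hij | hij | hij
    · rw [if_neg (by omega)]
      have := s1 i 0 (j - i) (by omega) (by omega)
      rw [zero_add, Nat.sub_add_cancel hij.le] at this
      rw [this]
      have e := r2 (j - i - 1) (by omega)
      rwa [Nat.sub_add_cancel (by omega)] at e
    · subst hij
      rw [if_pos rfl]
      have := s1 i 0 0 (by omega) (by omega)
      rw [zero_add] at this
      exact this
    · rw [if_neg (by omega)]
      have := s1 (k - i) i j (by omega) (by omega)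
      rw [Nat.add_sub_cancel' hi] at this
      rw [← this]
      exact r3 _ (by omega)
  refine ⟨D 0 0, ?_, ?_⟩
  · ext i j
    have e1 := h1 i.castSucc j
    rw [dif_pos (by simp)] at e1
    have e2 := s2 i.val j.val (by omega) (by omega)
    rw [hD i.val j.val (by omega) (by omega)] at e2
    have e3 : α i j = δ ⟨i.val, by omega⟩ ⟨j.val, by omega⟩ := e1.symm
    rw [e3, e2, Matrix.smul_apply, Matrix.one_apply]
    by_cases hij : i = j
    · rw [if_pos (congrArg Fin.val hij), if_pos hij, smul_eq_mul, mul_one]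
    · rw [if_neg (fun h => hij (Fin.ext h)), if_neg hij, smul_zero]
  · ext i j
    have e2 := s2 i.val j.val (by omega) (by omega)
    rw [hD i.val j.val i.2 j.2] at e2
    rw [show δ i j = δ ⟨i.val, i.2⟩ ⟨j.val, j.2⟩ from rfl, e2, Matrix.smul_apply, Matrix.one_apply]
    by_cases hij : i = j
    · rw [if_pos (congrArg Fin.val hij), if_pos hij, smul_eq_mul, mul_one]
    · rw [if_neg (fun h => hij (Fin.ext h)), if_neg hij, smul_zero]

theorem det_eq_zero_of_offdiag (k : ℕ) (β : Matrix (Fin k) (Fin (k + 1)) F) (γ : Matrix (Fin (k + 1)) (Fin k) F) :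
    (fromBlocks 0 β γ 0).det = 0 := by
  -- the kernel of β is nontrivial
  obtain ⟨v, hv, hv0⟩ : ∃ v : Fin (k + 1) → F, β *ᵥ v = 0 ∧ v ≠ 0 := by
    by_contra hcon
    push Not at hcon
    have hinj : Function.Injective (Matrix.mulVecLin β) := by
      rw [injective_iff_map_eq_zero]
      intro v hv
      exact hcon v hv
    have := LinearMap.finrank_le_finrank_of_injective hinj
    simp at this
  have h : (fromBlocks 0 β γ 0) *ᵥ (Sum.elim 0 v) = 0 := by
    rw [Matrix.fromBlocks_mulVec]
    ext i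
    rcases i with i | i
    · simp [hv]
    · simp
  exact Matrix.exists_mulVec_eq_zero_iff.mp ⟨Sum.elim 0 v, fun h0 => hv0 (by
    ext i
    exact congrFun h0 (Sum.inr i)), h⟩

/-- the centralizer modulo scalars is trivial -/
theorem key (k : ℕ) (hk : 1 ≤ k) (h2 : (2 : F) ≠ 0) (x : Matrix (Fin k ⊕ Fin (k + 1)) (Fin k ⊕ Fin (k + 1)) F) (hx : x.det ≠ 0)
    (h : ∀ (a : Fin 3 → F) (ε : F), ε = 1 ∨ ε = -1 → ∃ r : F, Mm k a ε * x = r • (x * Mm k a ε)) : ∃ c : F, x = c • 1 := by
  obtain ⟨α, β, γ, δ, rfl⟩ : ∃ α β γ δ, x = fromBlocks α β γ δ := ⟨_, _, _, _, (fromBlocks_toBlocks x).symm⟩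
  obtain ⟨r, hr⟩ := h 0 (-1) (Or.inr rfl)
  unfold Mm at hr
  rw [fromBlocks_multiply, fromBlocks_multiply, fromBlocks_smul, Lm_zero] at hr
  simp only [Matrix.one_mul, Matrix.zero_mul, add_zero, zero_add, Matrix.mul_one, Matrix.mul_zero, neg_smul, one_smul,
    Matrix.neg_mul, Matrix.mul_neg] at hr
  rw [fromBlocks_inj] at hr
  obtain ⟨e1, e2, e3, e4⟩ := hr
  -- case analysis on r
  by_cases hr1 : r = 1
  · subst hr1
    rw [one_smul] at e1 e2 e3 e4
    have hβ : β = 0 := by
      have : (2 : F) • β = 0 := by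
        rw [two_smul]
        nth_rw 1 [e2]
        simp
      exact (smul_eq_zero.mp this).resolve_left h2
    have hγ : γ = 0 := by
      have : (2 : F) • γ = 0 := by
        rw [two_smul]
        nth_rw 1 [← e3]
        simp
      exact (smul_eq_zero.mp this).resolve_left h2
    subst hβ hγ
    have hα : α ≠ 0 := by
      rintro rfl
      apply hx
      rw [det_fromBlocks_zero₁₂]
      have : Nonempty (Fin k) := ⟨⟨0, hk⟩⟩
      rw [det_zero, zero_mul]
    have hL : ∀ a : Fin 3 → F, δ * Lm k a = Lm k a * α := by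
      intro a
      obtain ⟨s, hs⟩ := h a 1 (Or.inl rfl)
      unfold Mm at hs
      rw [fromBlocks_multiply, fromBlocks_multiply, fromBlocks_smul] at hs
      simp only [Matrix.one_mul, Matrix.zero_mul, add_zero, zero_add, Matrix.mul_one, Matrix.mul_zero, one_smul] at hs
      rw [fromBlocks_inj] at hs
      obtain ⟨f1, f2, f3, f4⟩ := hs
      have hs1 : s = 1 := by
        have : (s - 1) • α = 0 := by
          rw [sub_smul, one_smul, ← f1, sub_self]
        rcases smul_eq_zero.mp this with h0 | h0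
        · exact sub_eq_zero.mp h0
        · exact absurd h0 hα
      rw [hs1, one_smul] at f3
      exact f3.symm
    obtain ⟨c, hc1, hc2⟩ := kron_rigid k hk α δ hL
    refine ⟨c, ?_⟩
    rw [hc1, hc2, ← fromBlocks_one, fromBlocks_smul, smul_zero, smul_zero]
  · exfalso
    have hα : α = 0 := by
      have : (r - 1) • α = 0 := by
        rw [sub_smul, one_smul, ← e1, sub_self]
      exact (smul_eq_zero.mp this).resolve_left (sub_ne_zero.mpr hr1)
    have hδ : δ = 0 := by
      have : (r - 1) • δ = 0 := by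
        rw [sub_smul, one_smul]
        rw [smul_neg] at e4
        rw [neg_inj] at e4
        rw [← e4, sub_self]
      exact (smul_eq_zero.mp this).resolve_left (sub_ne_zero.mpr hr1)
    subst hα hδ
    exact hx (det_eq_zero_of_offdiag k β γ)


/-- reindexing of special linear groups -/
def slReindex {ι κ : Type*} [Fintype ι] [DecidableEq ι] [Fintype κ] [DecidableEq κ] {R : Type*} [CommRing R] (e : ι ≃ κ) :
    SpecialLinearGroup ι R ≃* SpecialLinearGroup κ R where
  toFun A := ⟨Matrix.reindex e e (A : Matrix ι ι R), by rw [det_reindex_self]; exact A.2⟩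
  invFun A := ⟨Matrix.reindex e.symm e.symm (A : Matrix κ κ R), by rw [det_reindex_self]; exact A.2⟩
  left_inv A := by
    apply Subtype.ext
    ext i j
    simp
  right_inv A := by
    apply Subtype.ext
    ext i j
    simp
  map_mul' A B := by
    apply Subtype.ext
    change Matrix.reindex e e ((A : Matrix ι ι R) * (B : Matrix ι ι R)) = Matrix.reindex e e (A : Matrix ι ι R) * Matrix.reindex e e (B : Matrix ι ι R)
    simp only [Matrix.reindex_apply]
    rw [Matrix.submatrix_mul_equiv]

theorem slReindex_coe {ι κ : Type*} [Fintype ι] [DecidableEq ι] [Fintype κ] [DecidableEq κ] {R : Type*} [CommRing R] (e : ι ≃ κ)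
    (A : SpecialLinearGroup ι R) : ((slReindex e A : SpecialLinearGroup κ R) : Matrix κ κ R) = Matrix.reindex e e (A : Matrix ι ι R) := rfl

/-- the homomorphism -/
def Ψ (p : ℕ) [Fact p.Prime] (k : ℕ) (hk : Even (k + 1)) : HH p →* SpecialLinearGroup (Fin k ⊕ Fin (k + 1)) (ZMod p) where
  toFun h := ⟨Mm k (Multiplicative.toAdd h.left) ((h.right : ℤ) : ZMod p), by
    rw [Mm_det]
    rcases Int.units_eq_one_or h.right with h1 | h1
    · rw [h1]; simp
    · rw [h1]; simp [hk.neg_one_pow]⟩
  map_one' := by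
    apply Subtype.ext
    change Mm k (Multiplicative.toAdd (1 : HH p).left) (((1 : HH p).right : ℤ) : ZMod p) = 1
    rw [SemidirectProduct.one_left, SemidirectProduct.one_right, toAdd_one]
    unfold Mm
    rw [Lm_zero]
    simp
  map_mul' g h := by
    apply Subtype.ext
    change Mm k (Multiplicative.toAdd (g * h).left) (((g * h).right : ℤ) : ZMod p) =
      Mm k (Multiplicative.toAdd g.left) ((g.right : ℤ) : ZMod p) * Mm k (Multiplicative.toAdd h.left) ((h.right : ℤ) : ZMod p)
    rw [Mm_mul, SemidirectProduct.mul_left, SemidirectProduct.mul_right, toAdd_mul]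
    congr 1
    · congr 1
      change Multiplicative.toAdd (h.left ^ (g.right : ℤ)) = _
      rw [toAdd_zpow, ← Int.cast_smul_eq_zsmul (ZMod p)]
    · simp

theorem Ψ_coe (p : ℕ) [Fact p.Prime] (k : ℕ) (hk : Even (k + 1)) (h : HH p) :
    ((Ψ p k hk h : SpecialLinearGroup (Fin k ⊕ Fin (k + 1)) (ZMod p)) : Matrix (Fin k ⊕ Fin (k + 1)) (Fin k ⊕ Fin (k + 1)) (ZMod p)) =
      Mm k (Multiplicative.toAdd h.left) ((h.right : ℤ) : ZMod p) := rfl

/-- For every odd prime `p` there is a finite group `H` of order `2p³` which, for infinitely many `n`, embeds in the projective special linear group `PSL(n, p)` as a subgroup with trivial centralizer. -/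
theorem result
    (p : ℕ) [Fact p.Prime] (hp : p ≠ 2) :
    ∃ (H : Type) (_ : Group H) (_ : Finite H), Nat.card H = 2 * p ^ 3 ∧
      ∀ N : ℕ, ∃ n, N ≤ n ∧ ∃ φ : H →* Matrix.ProjectiveSpecialLinearGroup (Fin n) (ZMod p),
        Function.Injective φ ∧ Subgroup.centralizer (φ.range : Set (Matrix.ProjectiveSpecialLinearGroup (Fin n) (ZMod p))) = ⊥ := by
  have hcard : Nat.card (HH p) = 2 * p ^ 3 := by
    rw [SemidirectProduct.card]
    have h1 : Nat.card (Multiplicative (Fin 3 → ZMod p)) = p ^ 3 := by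
      rw [Nat.card_eq_fintype_card, Fintype.card_multiplicative]
      simp [ZMod.card]
    have h2 : Nat.card ℤˣ = 2 := by rw [Nat.card_eq_fintype_card]; rfl
    rw [h1, h2, mul_comm]
  have hfin : Finite (HH p) := by
    apply Nat.finite_of_card_ne_zero
    rw [hcard]
    have := (Fact.out : p.Prime).pos
    positivity
  refine ⟨HH p, inferInstance, hfin, hcard, fun N => ?_⟩
  have h2 : (2 : ZMod p) ≠ 0 := by
    intro h
    have : ((2 : ℕ) : ZMod p) = 0 := by exact_mod_cast h
    rw [ZMod.natCast_eq_zero_iff] at this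
    have h3 := (Nat.prime_dvd_prime_iff_eq (Fact.out : p.Prime) Nat.prime_two).mp this
    exact hp h3
  set k := 2 * N + 3 with hk
  have hkeven : Even (k + 1) := ⟨N + 2, by omega⟩
  let e : Fin k ⊕ Fin (k + 1) ≃ Fin (k + (k + 1)) := finSumFinEquiv
  let Φ : HH p →* SpecialLinearGroup (Fin (k + (k + 1))) (ZMod p) := (slReindex e).toMonoidHom.comp (Ψ p k hkeven)
  let π : SpecialLinearGroup (Fin (k + (k + 1))) (ZMod p) →* Matrix.ProjectiveSpecialLinearGroup (Fin (k + (k + 1))) (ZMod p) := QuotientGroup.mk' _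
  have hΦ : ∀ h, Φ h = slReindex e (Ψ p k hkeven h) := fun h => rfl
  refine ⟨k + (k + 1), by omega, π.comp Φ, ?_, ?_⟩
  · rw [injective_iff_map_eq_one]
    intro h hh
    have h1 : Φ h ∈ Subgroup.center (SpecialLinearGroup (Fin (k + (k + 1))) (ZMod p)) := (QuotientGroup.eq_one_iff _).mp hh
    rw [Matrix.SpecialLinearGroup.mem_center_iff] at h1
    obtain ⟨r, _, hr⟩ := h1
    have h3 : Mm k (Multiplicative.toAdd h.left) ((h.right : ℤ) : ZMod p) = r • 1 := by
      have h4 : (Matrix.reindex e e) (Mm k (Multiplicative.toAdd h.left) ((h.right : ℤ) : ZMod p)) = scalar (Fin (k + (k + 1))) r := hr.symm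
      have h5 := congrArg (Matrix.reindex e e).symm h4
      rw [Equiv.symm_apply_apply] at h5
      rw [h5]
      ext i j
      simp [Matrix.diagonal_apply, Matrix.one_apply]
    unfold Mm at h3
    rw [← fromBlocks_one, fromBlocks_smul, fromBlocks_inj] at h3
    obtain ⟨e1, e2, e3, e4⟩ := h3
    have hr1 : r = 1 := by
      have := congrFun (congrFun e1 ⟨0, by omega⟩) ⟨0, by omega⟩
      simpa using this.symm
    have ha : Multiplicative.toAdd h.left = 0 := Lm_injective k (by omega) _ (by rw [e3, smul_zero])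
    have he : h.right = 1 := by
      rcases Int.units_eq_one_or h.right with h6 | h6
      · exact h6
      · exfalso
        have := congrFun (congrFun e4 ⟨0, by omega⟩) ⟨0, by omega⟩
        rw [h6, hr1] at this
        simp at this
        apply h2
        have h7 : (1 : ZMod p) + 1 = 0 := by
          nth_rw 1 [← this]
          ring
        rw [← h7]
        norm_num
    exact SemidirectProduct.ext ha he
  · rw [eq_bot_iff]
    intro x hx
    rw [Subgroup.mem_bot]
    obtain ⟨y, rfl⟩ := QuotientGroup.mk_surjective x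
    rw [Subgroup.mem_centralizer_iff] at hx
    have h1 : ∀ h : HH p, ∃ r : ZMod p, (Φ h).1 * (y : Matrix _ _ (ZMod p)) =
        r • ((y : Matrix _ _ (ZMod p)) * (Φ h).1) := by
      intro h
      have h3 := hx (π (Φ h)) ⟨h, rfl⟩
      have h4 : (QuotientGroup.mk (Φ h * y) : Matrix.ProjectiveSpecialLinearGroup (Fin (k + (k + 1))) (ZMod p)) = QuotientGroup.mk (y * Φ h) := h3
      rw [QuotientGroup.eq] at h4
      have h5 := Subgroup.inv_mem _ h4
      rw [Matrix.SpecialLinearGroup.mem_center_iff] at h5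
      obtain ⟨r, _, hr⟩ := h5
      refine ⟨r, ?_⟩
      have h6 : Φ h * y = (y * Φ h) * ((Φ h * y)⁻¹ * (y * Φ h))⁻¹ := by group
      have h7 := congrArg (fun z : Matrix.SpecialLinearGroup (Fin (k + (k + 1))) (ZMod p) => z.1) h6
      simp only [Matrix.SpecialLinearGroup.coe_mul] at h7
      rw [h7, ← hr]
      ext i j
      rw [Matrix.scalar_apply, Matrix.mul_diagonal, Matrix.smul_apply, smul_eq_mul, mul_comm]
    let X := Matrix.reindex e.symm e.symm (y : Matrix _ _ (ZMod p))
    have hyX : (y : Matrix _ _ (ZMod p)) = Matrix.reindex e e X := by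
      ext i j
      simp [X]
    have hXdet : X.det ≠ 0 := by
      rw [det_reindex_self, y.2]
      exact one_ne_zero
    obtain ⟨c, hc⟩ := key k (by omega) h2 X hXdet (by
      intro a ε hε
      obtain ⟨ε', hε'⟩ : ∃ ε' : ℤˣ, ((ε' : ℤ) : ZMod p) = ε := by
        rcases hε with rfl | rfl
        · exact ⟨1, by simp⟩
        · exact ⟨-1, by simp⟩
      obtain ⟨r, hr⟩ := h1 ⟨Multiplicative.ofAdd a, ε'⟩
      refine ⟨r, ?_⟩
      rw [hΦ, slReindex_coe, Ψ_coe, hyX] at hr
      simp only [toAdd_ofAdd, hε'] at hr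
      simp only [Matrix.reindex_apply] at hr
      rw [Matrix.submatrix_mul_equiv, Matrix.submatrix_mul_equiv] at hr
      have h8 := congrArg (Matrix.reindex e e).symm hr
      have h9 : ∀ Z : Matrix (Fin k ⊕ Fin (k + 1)) (Fin k ⊕ Fin (k + 1)) (ZMod p), (Matrix.reindex e e).symm (Z.submatrix e.symm e.symm) = Z := fun Z =>
        (Matrix.reindex e e).symm_apply_apply Z
      have h10 : ∀ Z : Matrix (Fin k ⊕ Fin (k + 1)) (Fin k ⊕ Fin (k + 1)) (ZMod p), (Matrix.reindex e e).symm (r • Z.submatrix e.symm e.symm) = r • Z := by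
        intro Z
        ext i j
        simp
      rw [h9, h10] at h8
      exact h8)
    have hy : y ∈ Subgroup.center (SpecialLinearGroup (Fin (k + (k + 1))) (ZMod p)) := by
      rw [Matrix.SpecialLinearGroup.mem_center_iff]
      have hy1 : scalar (Fin (k + (k + 1))) c = (y : Matrix _ _ (ZMod p)) := by
        rw [hyX, hc]
        ext i j
        simp [Matrix.diagonal_apply, Matrix.one_apply]
      refine ⟨c, ?_, hy1⟩
      have := y.2
      rw [← hy1] at this
      simpa using this
    exact (QuotientGroup.eq_one_iff y).mpr hy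

end Cfsg.Agent.S2533
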