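import Cfsg.Statements.S2534
import Cfsg.Agent.Lib.H36.HSk

set_option autoImplicit false
open Cfsg

namespace Cfsg.Agent.S2534

/-- For `n ≥ 5` and a set of primes `π`, the alternating group of degree `n` satisfies the full Sylow analogue for `π` (its maximal `π`-subgroups are pairwise conjugate; for a finite group this says Hall `π`-subgroups exist, are all conjugate, and contain every `π`-subgroup up to conjugacy) if and only if either at most one prime of `π` divides its order or every prime dividing its order lies in `π`. -/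
theorem result (n : ℕ) (hn : 5 ≤ n) (π : Set ℕ) :
    Cfsg.IsDPiGroup π ↥(alternatingGroup (Fin n)) ↔
      ((∀ r s : ℕ, r.Prime → s.Prime → r ∈ π → s ∈ π → r ∣ Nat.card ↥(alternatingGroup (Fin n)) → s ∣ Nat.card ↥(alternatingGroup (Fin n)) → r = s) ∨
        ∀ r : ℕ, r.Prime → r ∣ Nat.card ↥(alternatingGroup (Fin n)) → r ∈ π) := by
  have hcard : Fintype.card (Fin n) = n := Fintype.card_fin n
  have hpa : ∀ p : ℕ, p.Prime → (p ∣ Nat.card ↥(alternatingGroup (Fin n)) ↔ p ≤ n) := by
    intro p hp
    rw [H36.HS.prime_dvd_alt (by omega) hp, hcard]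
  constructor
  · intro hD
    by_contra hcon
    push Not at hcon
    obtain ⟨⟨r, s, hr, hs, hrπ, hsπ, hrd, hsd, hne⟩, t, ht, htd, htπ⟩ := hcon
    obtain ⟨c, hc, hK⟩ := H36.HS.D_cases (by omega) hD
      ⟨r, s, hr, hs, hne, hrπ, hsπ, by rw [hcard]; exact (hpa r hr).1 hrd,
        by rw [hcard]; exact (hpa s hs).1 hsd⟩ ⟨t, ht, by rw [hcard]; exact (hpa t ht).1 htd, htπ⟩
    rcases hc with ⟨h1, h2, rfl⟩ | ⟨h1, h2, rfl⟩ | ⟨h1, h2, rfl⟩
    · exact H36.HS.D_prime (by omega) h1 h2 hK
    · rw [hcard] at h1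
      subst h1
      rw [hcard] at h2
      exact H36.HS.D_seven h2 hK
    · rw [hcard] at h1
      subst h1
      rw [hcard] at h2
      exact H36.HS.D_eight h2 hK
  · rintro (h | h)
    · exact H36.HS.D_of_one h
    · exact H36.HS.D_of_all h

end Cfsg.Agent.S2534
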