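import Cfsg.Statements.S2537
import Cfsg.Agent.Lib.H98.DicksonSub
import Cfsg.Agent.Lib.H98.DicksonSolv
import Cfsg.Agent.Lib.H28.RelHall
import Cfsg.Agent.S0802
import Cfsg.Agent.S0803

set_option autoImplicit false
open Cfsg

namespace Cfsg.Agent.S2537

open H98.Dickson H98.DicksonIdx H98.DicksonDih H98.DicksonSolv H98.DicksonPSL

/-- a number with only the primes `2`, `3` -/
theorem eq_of_primes {h : ℕ} (h0 : h ≠ 0) (hp : ∀ r : ℕ, r.Prime → r ∣ h → r = 2 ∨ r = 3) :
    h = 2 ^ h.factorization 2 * 3 ^ h.factorization 3 := by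
  apply Nat.eq_of_factorization_eq h0 (by positivity)
  intro r
  rw [Nat.factorization_mul (by positivity) (by positivity), Nat.Prime.factorization_pow Nat.prime_two,
    Nat.Prime.factorization_pow Nat.prime_three, Finsupp.add_apply, Finsupp.single_apply, Finsupp.single_apply]
  by_cases hr : r.Prime ∧ r ∣ h
  · rcases hp r hr.1 hr.2 with rfl | rfl <;> simp
  · have h1 : h.factorization r = 0 := by
      by_cases hr1 : r.Prime
      · exact Nat.factorization_eq_zero_of_not_dvd (fun h2 => hr ⟨hr1, h2⟩)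
      · exact Nat.factorization_eq_zero_of_not_prime _ hr1
    rw [h1]
    by_cases h2 : 2 = r
    · subst h2; rw [h1]; simp
    · by_cases h3 : 3 = r
      · subst h3; rw [h1]; simp
      · simp [h2, h3]

theorem part_eq {q h m : ℕ} (hq2 : ¬ 2 ∣ q) (hq3 : ¬ 3 ∣ q) (hm2 : ¬ 2 ∣ m) (hm3 : ¬ 3 ∣ m) (hq1 : 1 < q)
    (hp : ∀ r : ℕ, r.Prime → r ∣ h → r = 2 ∨ r = 3) (he : 2 * (h * m) = q * (q ^ 2 - 1)) :
    2 * h = 2 ^ (q ^ 2 - 1).factorization 2 * 3 ^ (q ^ 2 - 1).factorization 3 := by
  have hq0 : q ^ 2 - 1 ≠ 0 := by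
    have : 1 < q ^ 2 := Nat.one_lt_pow (by norm_num) hq1
    omega
  have hh0 : h ≠ 0 := by
    rintro rfl
    rw [zero_mul, mul_zero] at he
    rcases mul_eq_zero.mp he.symm with h1 | h1 <;> omega
  have hm0 : m ≠ 0 := by rintro rfl; exact hm2 (dvd_zero _)
  have key : ∀ r : ℕ, ¬ r ∣ q → ¬ r ∣ m → (2 * h).factorization r = (q ^ 2 - 1).factorization r := by
    intro r h1 h2
    have h3 : ((2 * h) * m).factorization r = (q * (q ^ 2 - 1)).factorization r := by rw [mul_assoc, he]
    rw [Nat.factorization_mul (by positivity) hm0, Nat.factorization_mul (by omega) hq0, Finsupp.add_apply, Finsupp.add_apply,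
      Nat.factorization_eq_zero_of_not_dvd h1, Nat.factorization_eq_zero_of_not_dvd h2] at h3
    omega
  have h1 := eq_of_primes (h := 2 * h) (by omega) (by
    intro r hr hrd
    rcases (Nat.Prime.dvd_mul hr).mp hrd with h2 | h2
    · left; exact (Nat.prime_dvd_prime_iff_eq hr Nat.prime_two).mp h2
    · exact hp r hr h2)
  rw [key 2 hq2 hm2, key 3 hq3 hm3] at h1
  exact h1

/-- Let `F` be a finite field with `q` elements of characteristic `p ≥ 5`, and `ε = 1` if `q ≡ 1 (mod 4)`, `ε = -1` otherwise. Then `PSL(2, F)` has a Hall `{2, 3}`-subgroup if and only if `3` divides `q − ε`, or the `{2,3}`-part of `q² − 1` is 24, or the `{2,3}`-part of `q² − 1` is 48 (the `{2,3}`-part of `m` being the largest divisor of `m` with no prime factor other than 2 and 3). -/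
theorem result {F : Type*} [Field F] [Fintype F] {p : ℕ} [Fact p.Prime] [CharP F p]
    (hp : 5 ≤ p) (q : ℕ) (hq : Fintype.card F = q) :
    (∃ H : Subgroup (Matrix.ProjectiveSpecialLinearGroup (Fin 2) F), Cfsg.IsPiHall ({2, 3} : Set ℕ) H) ↔
      (3 ∣ q - 1 ∧ q % 4 = 1) ∨ (3 ∣ q + 1 ∧ q % 4 = 3) ∨
        2 ^ (q ^ 2 - 1).factorization 2 * 3 ^ (q ^ 2 - 1).factorization 3 = 24 ∨
        2 ^ (q ^ 2 - 1).factorization 2 * 3 ^ (q ^ 2 - 1).factorization 3 = 48 := by
  classical
  have hpp : p.Prime := Fact.out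
  haveI hfG : Finite (Matrix.ProjectiveSpecialLinearGroup (Fin 2) F) := inferInstanceAs (Finite (_ ⧸ _))
  have hcF : Nat.card F = q := by rw [Nat.card_eq_fintype_card, hq]
  obtain ⟨n, hn1, hn⟩ := char_dvd (F := F) p
  rw [hcF] at hn
  have hq2 : ¬ 2 ∣ q := by
    rw [hn]; intro h
    have := (Nat.prime_dvd_prime_iff_eq Nat.prime_two hpp).mp (Nat.prime_two.dvd_of_dvd_pow h)
    omega
  have hq3 : ¬ 3 ∣ q := by
    rw [hn]; intro h
    have := (Nat.prime_dvd_prime_iff_eq Nat.prime_three hpp).mp (Nat.prime_three.dvd_of_dvd_pow h)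
    omega
  have hqp : p ≤ q := by rw [hn]; exact Nat.le_self_pow (by omega) p
  have hq5 : 5 ≤ q := hp.trans hqp
  have hodd : Odd q := Nat.not_even_iff_odd.mp (fun h => hq2 h.two_dvd)
  have hG := card_G (F := F)
  rw [hcF, gcd_odd hodd] at hG
  have hG2 : 2 * Nat.card (Matrix.ProjectiveSpecialLinearGroup (Fin 2) F) = q * (q ^ 2 - 1) := by
    rw [hG]
    obtain ⟨k, hk⟩ := hodd
    have h1 : q - 1 = 2 * k := by omega
    rw [h1, Nat.mul_div_cancel_left k (by norm_num), hk]
    have h2 : (2 * k + 1) ^ 2 - 1 = 4 * k * (k + 1) := by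
      have : (2 * k + 1) ^ 2 = 4 * k * (k + 1) + 1 := by ring
      omega
    rw [h2]; ring
  have hq20 : q ^ 2 - 1 ≠ 0 := by
    have : 1 < q ^ 2 := Nat.one_lt_pow (by norm_num) (by omega)
    omega
  have hfac : q ^ 2 - 1 = (q + 1) * (q - 1) := by
    obtain ⟨k, hk⟩ := hodd
    have h1 : q - 1 = 2 * k := by omega
    rw [h1, hk]
    have : (2 * k + 1) ^ 2 = (2 * k + 1 + 1) * (2 * k) + 1 := by ring
    omega
  constructor
  · rintro ⟨H, hH1, hH2⟩
    have hH3 : ∀ r : ℕ, r.Prime → r ∣ Nat.card H → r = 2 ∨ r = 3 := fun r hr h => hH1 r hr h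
    have hm2 : ¬ 2 ∣ H.index := hH2 2 Nat.prime_two (by simp)
    have hm3 : ¬ 3 ∣ H.index := hH2 3 Nat.prime_three (by simp)
    have hcard := Subgroup.card_mul_index H
    have hpart := part_eq hq2 hq3 hm2 hm3 (by omega) hH3 (by rw [hcard, hG2])
    have hpH : ¬ p ∣ Nat.card H := by
      intro h
      rcases hH3 p hpp h with h | h <;> omega
    have ho : ∀ c : Matrix.ProjectiveSpecialLinearGroup (Fin 2) F, ¬ p ∣ orderOf c →
        (2 * orderOf c ∣ q - 1 ∨ 2 * orderOf c ∣ q + 1) := by
      intro c hc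
      have h1 := H46.PSL2Orders.order_trichotomy (F := F) p c
      rw [hcF, gcd_odd hodd] at h1
      rcases h1 with h1 | h1 | h1
      · left
        rcases (Nat.dvd_prime hpp).mp h1 with h2 | h2
        · rw [h2]
          obtain ⟨k, hk⟩ := hodd
          exact ⟨k, by omega⟩
        · exact absurd (by rw [h2]) hc
      · left
        obtain ⟨k, hk⟩ := hodd
        rw [show q - 1 = 2 * k by omega, Nat.mul_div_cancel_left k (by norm_num)] at h1
        rw [show q - 1 = 2 * k by omega]
        exact Nat.mul_dvd_mul_left 2 h1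
      · right
        obtain ⟨k, hk⟩ := hodd
        rw [show q + 1 = 2 * (k + 1) by omega, Nat.mul_div_cancel_left (k + 1) (by norm_num)] at h1
        rw [show q + 1 = 2 * (k + 1) by omega]
        exact Nat.mul_dvd_mul_left 2 h1
    set a := (q ^ 2 - 1).factorization 2 with ha
    set b := (q ^ 2 - 1).factorization 3 with hb
    have hno : ¬ 2 ^ (a + 1) ∣ q ^ 2 - 1 := Nat.pow_succ_factorization_not_dvd hq20 Nat.prime_two
    have hb1 : 1 ≤ b := by
      have h1 : 3 ∣ q ^ 2 - 1 := by
        have h2 : q % 3 = 1 ∨ q % 3 = 2 := by omega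
        rw [hfac]
        rcases h2 with h2 | h2
        · exact Dvd.dvd.mul_left (by omega) _
        · exact Dvd.dvd.mul_right (by omega) _
      exact (Nat.Prime.dvd_iff_one_le_factorization Nat.prime_three hq20).mp h1
    have ha3 : 3 ≤ a := by
      have h1 : 2 ^ 3 ∣ q ^ 2 - 1 := by
        obtain ⟨k, hk⟩ := hodd
        have h2 : q ^ 2 - 1 = 4 * (k * (k + 1)) := by
          have : q ^ 2 = 4 * (k * (k + 1)) + 1 := by rw [hk]; ring
          omega
        rw [h2]
        obtain ⟨j, hj⟩ := (Nat.even_mul_succ_self k)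
        exact ⟨j, by rw [hj]; ring⟩
      exact (Nat.Prime.pow_dvd_iff_le_factorization Nat.prime_two hq20).mp h1
    rcases dickson_pgl p ((ιP F).comp H.subtype) (Matrix.ProjectiveSpecialLinearGroup.toPGL_injective.comp H.subtype_injective) with
      ⟨-, hcyc⟩ | ⟨c, hc2, hcp, -, hd⟩ | ⟨h1, -⟩ | ⟨-, h1, -⟩ | ⟨-, h1, -⟩ | ⟨-, h1, -⟩ | ⟨P, K, g, hK, -⟩
    · exfalso
      obtain ⟨g, hg⟩ := hcyc.exists_generator
      have hog : orderOf (g : Matrix.ProjectiveSpecialLinearGroup (Fin 2) F) = Nat.card H := by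
        rw [Subgroup.orderOf_coe, ← orderOf_eq_card_of_forall_mem_zpowers hg]
      have h1 := ho g (by rw [hog]; exact hpH)
      rw [hog, hpart] at h1
      apply hno
      rw [hfac, pow_succ]
      rcases h1 with h1 | h1
      · rw [mul_comm (q + 1)]
        exact mul_dvd_mul ((Dvd.intro _ rfl).trans h1) (by omega)
      · exact mul_dvd_mul ((Dvd.intro _ rfl).trans h1) (by omega)
    · have hcd : Nat.card H = 2 * orderOf c := by
        obtain ⟨e⟩ := hd
        rw [Nat.card_congr e.toEquiv, DihedralGroup.nat_card]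
      have hcp' : ¬ p ∣ orderOf (c : Matrix.ProjectiveSpecialLinearGroup (Fin 2) F) := by
        rw [Subgroup.orderOf_coe]; exact hcp
      have h1 := ho c hcp'
      rw [Subgroup.orderOf_coe, ← hcd] at h1
      have h3 : 3 ∣ Nat.card H := by
        have h4 : 3 ∣ 2 * Nat.card H := by
          rw [hpart]
          exact Dvd.dvd.mul_left (dvd_pow_self 3 (by omega)) _
        exact (Nat.Coprime.dvd_of_dvd_mul_left (by norm_num) h4)
      have h5 : 2 ^ (a - 1) ∣ Nat.card H := by
        have h4 : 2 * 2 ^ (a - 1) ∣ 2 * Nat.card H := by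
          rw [hpart, ← pow_succ', show a - 1 + 1 = a by omega]
          exact Dvd.intro _ rfl
        exact Nat.dvd_of_mul_dvd_mul_left (by norm_num) h4
      have hpw : 2 ^ (a + 1) = 2 ^ (a - 1) * 4 := by
        rw [show (4 : ℕ) = 2 ^ 2 by norm_num, ← pow_add]; congr 1; omega
      rcases h1 with h1 | h1
      · left
        refine ⟨h3.trans h1, ?_⟩
        by_contra h4
        apply hno
        rw [hfac, hpw, mul_comm (q + 1)]
        exact mul_dvd_mul (h5.trans h1) (by omega)
      · right; left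
        refine ⟨h3.trans h1, ?_⟩
        by_contra h4
        apply hno
        rw [hfac, hpw]
        exact mul_dvd_mul (h5.trans h1) (by omega)
    · exact absurd h1 hpH
    · right; right; left
      rw [← hpart, h1]
    · right; right; right
      rw [← hpart, h1]
    · exfalso
      have := hH3 5 (by norm_num) (by rw [h1]; norm_num)
      omega
    · exfalso
      have h2 : Nat.card (P : Subgroup H) = 1 := by
        rw [P.card_eq_multiplicity, Nat.factorization_eq_zero_of_not_dvd hpH, pow_zero]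
      haveI : Finite K := inferInstance
      have : 1 < Nat.card K := Finite.one_lt_card
      omega
  · have hall_of_dih : ∀ D : Subgroup (Matrix.ProjectiveSpecialLinearGroup (Fin 2) F), ∀ k : ℕ, Nonempty (D ≃* DihedralGroup k) →
        ¬ 2 ∣ D.index → ¬ 3 ∣ D.index →
        ∃ H : Subgroup (Matrix.ProjectiveSpecialLinearGroup (Fin 2) F), Cfsg.IsPiHall ({2, 3} : Set ℕ) H := by
      intro D k hD h2 h3
      obtain ⟨e⟩ := hD
      obtain ⟨H, hHD, hH1, hH2⟩ := H28.RelHall.exists_isPiHallOf ({2, 3} : Set ℕ) (H := D) (solvable_of_equiv e (dihedral_solvable k))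
      refine ⟨H, hH1, ?_⟩
      intro r hr hr2 hdvd
      rw [← Subgroup.relIndex_mul_index hHD] at hdvd
      rcases (Nat.Prime.dvd_mul hr).mp hdvd with h | h
      · exact hH2 r hr hr2 h
      · rcases hr2 with rfl | hr2
        · exact h2 h
        · rw [Set.mem_singleton_iff] at hr2
          subst hr2
          exact h3 h
    have hall_of_card : ∀ H : Subgroup (Matrix.ProjectiveSpecialLinearGroup (Fin 2) F), (∀ r : ℕ, r.Prime → r ∣ Nat.card H → r = 2 ∨ r = 3) →
        2 * Nat.card H = 2 ^ (q ^ 2 - 1).factorization 2 * 3 ^ (q ^ 2 - 1).factorization 3 →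
        Cfsg.IsPiHall ({2, 3} : Set ℕ) H := by
      intro H hH hc
      refine ⟨fun r hr h => hH r hr h, ?_⟩
      have h1 : 2 * Nat.card H * H.index = q * (q ^ 2 - 1) := by rw [mul_assoc, Subgroup.card_mul_index, hG2]
      have hi0 : H.index ≠ 0 := Subgroup.index_ne_zero_of_finite
      have key : ∀ r : ℕ, r.Prime → ¬ r ∣ q → (r = 2 ∨ r = 3) → ¬ r ∣ H.index := by
        intro r hr hrq hr23 hd
        have h2 : (2 * Nat.card H * H.index).factorization r = (q * (q ^ 2 - 1)).factorization r := by rw [h1]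
        have hH0 : Nat.card H ≠ 0 := Nat.card_pos.ne'
        rw [Nat.factorization_mul (by omega) hi0, Nat.factorization_mul (by omega) hq20, Finsupp.add_apply, Finsupp.add_apply,
          Nat.factorization_eq_zero_of_not_dvd hrq, hc, Nat.factorization_mul (by positivity) (by positivity),
          Nat.Prime.factorization_pow Nat.prime_two, Nat.Prime.factorization_pow Nat.prime_three, Finsupp.add_apply,
          Finsupp.single_apply, Finsupp.single_apply] at h2
        have h3 := (Nat.Prime.dvd_iff_one_le_factorization hr hi0).mp hd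
        rcases hr23 with rfl | rfl
        · rw [if_pos rfl, if_neg (by norm_num)] at h2; omega
        · rw [if_neg (by norm_num), if_pos rfl] at h2; omega
      intro r hr hr2
      rcases hr2 with rfl | hr2
      · exact key 2 Nat.prime_two hq2 (Or.inl rfl)
      · rw [Set.mem_singleton_iff] at hr2
        subst hr2
        exact key 3 Nat.prime_three hq3 (Or.inr rfl)
    rintro (⟨h3, h4⟩ | ⟨h3, h4⟩ | h | h)
    · obtain ⟨D, ⟨e⟩⟩ := exists_dih_minus (F := F) (by omega)
      rw [hcF, gcd_odd hodd] at e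
      have hD : Nat.card D = q - 1 := by
        rw [Nat.card_congr e.toEquiv, DihedralGroup.nat_card]; omega
      have hind : 2 * D.index = q * (q + 1) := by
        have h5 : (q - 1) * (2 * D.index) = (q - 1) * (q * (q + 1)) := by
          have h6 := Subgroup.card_mul_index D
          rw [hD] at h6
          rw [show (q - 1) * (2 * D.index) = 2 * ((q - 1) * D.index) by ring, h6, hG2, hfac]; ring
        exact Nat.eq_of_mul_eq_mul_left (by omega) h5
      refine hall_of_dih D _ ⟨e⟩ ?_ ?_
      · rintro ⟨j, hj⟩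
        rw [hj] at hind
        have h7 : 4 ∣ q * (q + 1) := ⟨j, by rw [← hind]; ring⟩
        have h8 : Nat.Coprime 4 q := by
          rw [show (4 : ℕ) = 2 ^ 2 by norm_num]
          exact Nat.Coprime.pow_left 2 ((Nat.Prime.coprime_iff_not_dvd Nat.prime_two).mpr hq2)
        have h9 := h8.dvd_of_dvd_mul_left h7
        omega
      · intro hd
        have h7 : 3 ∣ q * (q + 1) := by rw [← hind]; exact Dvd.dvd.mul_left hd 2
        rcases (Nat.Prime.dvd_mul Nat.prime_three).mp h7 with h8 | h8 <;> omega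
    · obtain ⟨D, ⟨e⟩⟩ := exists_dih_plus (F := F)
      rw [hcF, gcd_odd hodd] at e
      have hD : Nat.card D = q + 1 := by
        rw [Nat.card_congr e.toEquiv, DihedralGroup.nat_card]; omega
      have hind : 2 * D.index = q * (q - 1) := by
        have h5 : (q + 1) * (2 * D.index) = (q + 1) * (q * (q - 1)) := by
          have h6 := Subgroup.card_mul_index D
          rw [hD] at h6
          rw [show (q + 1) * (2 * D.index) = 2 * ((q + 1) * D.index) by ring, h6, hG2, hfac]; ring
        exact Nat.eq_of_mul_eq_mul_left (by omega) h5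
      refine hall_of_dih D _ ⟨e⟩ ?_ ?_
      · rintro ⟨j, hj⟩
        rw [hj] at hind
        have h7 : 4 ∣ q * (q - 1) := ⟨j, by rw [← hind]; ring⟩
        have h8 : Nat.Coprime 4 q := by
          rw [show (4 : ℕ) = 2 ^ 2 by norm_num]
          exact Nat.Coprime.pow_left 2 ((Nat.Prime.coprime_iff_not_dvd Nat.prime_two).mpr hq2)
        have h9 := h8.dvd_of_dvd_mul_left h7
        omega
      · intro hd
        have h7 : 3 ∣ q * (q - 1) := by rw [← hind]; exact Dvd.dvd.mul_left hd 2
        rcases (Nat.Prime.dvd_mul Nat.prime_three).mp h7 with h8 | h8 <;> omega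
    · obtain ⟨H, hH⟩ := (Cfsg.Agent.S0802.result (F := F) p n (by rw [hq, hn])).mpr (by rintro ⟨h2, -⟩; omega)
      refine ⟨H, hall_of_card H ?_ ?_⟩
      · intro r hr hd
        rw [card_A4 hH, show (12 : ℕ) = 2 ^ 2 * 3 by norm_num] at hd
        rcases (Nat.Prime.dvd_mul hr).mp hd with h5 | h5
        · left; exact (Nat.prime_dvd_prime_iff_eq hr Nat.prime_two).mp (hr.dvd_of_dvd_pow h5)
        · right; exact (Nat.prime_dvd_prime_iff_eq hr Nat.prime_three).mp h5
      · rw [card_A4 hH, h]
    · have h16 : q ^ 2 % 16 = 1 := by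
        have h5 : 2 ^ 4 ∣ q ^ 2 - 1 := by
          have h6 : 2 ^ (q ^ 2 - 1).factorization 2 ∣ q ^ 2 - 1 := Nat.ordProj_dvd _ _
          have h7 : 4 ≤ (q ^ 2 - 1).factorization 2 := by
            by_contra h8
            have h9 : (2 ^ (q ^ 2 - 1).factorization 2 * 3 ^ (q ^ 2 - 1).factorization 3).factorization 2 = (2 ^ 4 * 3).factorization 2 := by
              rw [h]; norm_num
            rw [Nat.factorization_mul (by positivity) (by positivity), Nat.factorization_mul (by positivity) (by positivity),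
              Nat.Prime.factorization_pow Nat.prime_two, Nat.Prime.factorization_pow Nat.prime_three,
              Nat.Prime.factorization_pow Nat.prime_two, Nat.Prime.factorization Nat.prime_three] at h9
            simp at h9
            omega
          exact (pow_dvd_pow 2 h7).trans h6
        omega
      obtain ⟨H, hH⟩ := (Cfsg.Agent.S0803.result (F := F) hq).mpr h16
      refine ⟨H, hall_of_card H ?_ ?_⟩
      · intro r hr hd
        rw [card_S4 hH, show (24 : ℕ) = 2 ^ 3 * 3 by norm_num] at hd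
        rcases (Nat.Prime.dvd_mul hr).mp hd with h5 | h5
        · left; exact (Nat.prime_dvd_prime_iff_eq hr Nat.prime_two).mp (hr.dvd_of_dvd_pow h5)
        · right; exact (Nat.prime_dvd_prime_iff_eq hr Nat.prime_three).mp h5
      · rw [card_S4 hH, h]

end Cfsg.Agent.S2537
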