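import Cfsg.Statements.S2541

set_option autoImplicit false
set_option linter.unusedVariables false
open Cfsg

namespace Cfsg.Agent.S2541

theorem perm_six_no_order_eight (σ : Equiv.Perm (Fin 6)) : orderOf σ ≠ 8 := by
  intro h
  have h4 : σ ^ 4 ≠ 1 := by
    intro h4
    have := orderOf_dvd_of_pow_eq_one h4
    rw [h] at this
    omega
  have : ∃ a, (σ ^ 4) a ≠ a := by
    by_contra hcon
    push Not at hcon
    exact h4 (Equiv.ext hcon)
  obtain ⟨a, ha⟩ := this
  have h8 : Function.IsPeriodicPt σ 8 a := by
    unfold Function.IsPeriodicPt Function.IsFixedPt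
    rw [Equiv.Perm.iterate_eq_pow, ← h, pow_orderOf_eq_one]
    rfl
  have hn4 : ¬ Function.IsPeriodicPt σ 4 a := by
    unfold Function.IsPeriodicPt Function.IsFixedPt
    rw [Equiv.Perm.iterate_eq_pow]
    exact ha
  have hdvd : Function.minimalPeriod σ a ∣ 8 := h8.minimalPeriod_dvd
  have hndvd : ¬ Function.minimalPeriod σ a ∣ 4 := fun hd => hn4 ((Function.isPeriodicPt_minimalPeriod σ a).trans_dvd hd)
  have heq : Function.minimalPeriod σ a = 8 := by
    have : Function.minimalPeriod σ a ∈ Nat.divisors 8 := by simp [hdvd]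
    have h8' : Nat.divisors 8 = {1, 2, 4, 8} := by decide
    rw [h8'] at this
    simp only [Finset.mem_insert, Finset.mem_singleton] at this
    rcases this with h | h | h | h
    · exact absurd (by rw [h]; norm_num) hndvd
    · exact absurd (by rw [h]; norm_num) hndvd
    · exact absurd (by rw [h]) hndvd
    · exact h
  have hle : Function.minimalPeriod σ a ≤ Fintype.card (Fin 6) := by
    have hinj : Function.Injective (fun i : Fin (Function.minimalPeriod σ a) => (σ^[i.1]) a) := by
      intro i j hij
      have := Function.iterate_injOn_Iio_minimalPeriod (f := σ) (x := a) (Set.mem_Iio.mpr i.2) (Set.mem_Iio.mpr j.2) hij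
      exact Fin.ext this
    simpa using Fintype.card_le_of_injective _ hinj
  rw [heq] at hle
  simp at hle

/-- Let F be a field with 9 elements. The symmetric group S_6 is not isomorphic to PGL_2(F) (although both have index-2 subgroups isomorphic to A_6). -/
theorem result {F : Type*} [Field F] [Fintype F] (hF : Fintype.card F = 9) : ¬ Nonempty (Equiv.Perm (Fin 6) ≃* Matrix.ProjGenLinGroup (Fin 2) F) := by
  rintro ⟨φ⟩
  classical
  obtain ⟨g, hg⟩ := IsCyclic.exists_generator (α := Fˣ)
  have hord : orderOf g = 8 := by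
    rw [orderOf_eq_card_of_forall_mem_zpowers hg, Nat.card_eq_fintype_card, Fintype.card_units, hF]
  let d : GL (Fin 2) F := Matrix.GeneralLinearGroup.mkOfDetNeZero !![(g : F), 0; 0, 1] (by simp)
  have hd : ∀ k : ℕ, ((d ^ k : GL (Fin 2) F) : Matrix (Fin 2) (Fin 2) F) = !![(g : F) ^ k, 0; 0, 1] := by
    intro k
    induction k with
    | zero => ext i j; fin_cases i <;> fin_cases j <;> simp
    | succ k ih =>
      rw [pow_succ, Units.val_mul, ih]
      ext i j
      fin_cases i <;> fin_cases j <;> simp [d, Matrix.mul_apply, Fin.sum_univ_two, pow_succ, Matrix.GeneralLinearGroup.mkOfDetNeZero]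
  have hx : orderOf (Matrix.ProjGenLinGroup.mk d) = 8 := by
    have key : ∀ k : ℕ, (Matrix.ProjGenLinGroup.mk d) ^ k = 1 ↔ g ^ k = 1 := by
      intro k
      rw [← map_pow, Matrix.ProjGenLinGroup.mk_eq_one, Matrix.GeneralLinearGroup.center_eq_range_scalar]
      constructor
      · rintro ⟨u, hu⟩
        have h0 := congrArg (fun M : GL (Fin 2) F => (M : Matrix (Fin 2) (Fin 2) F) 0 0) hu
        have h1 := congrArg (fun M : GL (Fin 2) F => (M : Matrix (Fin 2) (Fin 2) F) 1 1) hu
        simp only [hd] at h0 h1
        simp at h0 h1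
        apply Units.ext
        simp only [Units.val_pow_eq_pow_val, Units.val_one]
        rw [← h0, h1, Units.val_one]
      · intro h
        refine ⟨1, ?_⟩
        rw [map_one]
        apply Units.ext
        rw [hd]
        have : (g : F) ^ k = 1 := by
          rw [← Units.val_pow_eq_pow_val, h, Units.val_one]
        rw [this]
        ext i j
        fin_cases i <;> fin_cases j <;> simp
    rw [← hord]
    apply Nat.dvd_antisymm
    · rw [orderOf_dvd_iff_pow_eq_one, key, pow_orderOf_eq_one]
    · rw [orderOf_dvd_iff_pow_eq_one, ← key, pow_orderOf_eq_one]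
  apply perm_six_no_order_eight (φ.symm (Matrix.ProjGenLinGroup.mk d))
  rw [← hx]
  exact MulEquiv.orderOf_eq φ.symm _

end Cfsg.Agent.S2541
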