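import Cfsg.Statements.S2542
import Mathlib
import Cfsg.Agent.Lib.H47.PSL11c
import Cfsg.Agent.Lib.H47.PrimeIndexTwoTrans
import Cfsg.Agent.Lib.H6.Frame

set_option autoImplicit false
set_option linter.unusedVariables false
open Cfsg

namespace Cfsg.Agent.S2542

open H47.PSL11 H47.PSL11b H47.PSL11c

/-- Let F be a field with 11 elements. PSL_2(F) has a subgroup H of index 11 isomorphic to the alternating group A_5, and the action of PSL_2(F) on the cosets of H is 2-transitive (of degree 11). -/
theorem result {F : Type*} [Field F] [Fintype F] (hF : Fintype.card F = 11) : ∃ H : Subgroup (Matrix.ProjectiveSpecialLinearGroup (Fin 2) F), H.index = 11 ∧ Nonempty (H ≃* alternatingGroup (Fin 5)) ∧ MulAction.IsMultiplyPretransitive (Matrix.ProjectiveSpecialLinearGroup (Fin 2) F) ((Matrix.ProjectiveSpecialLinearGroup (Fin 2) F) ⧸ H) 2 := by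
  have hp11 : Nat.Prime 11 := by norm_num
  have : Fact (Nat.Prime 11) := ⟨hp11⟩
  have e : F ≃+* ZMod 11 := FiniteField.ringEquivOfCardEq (by rw [hF, ZMod.card])
  let E : Matrix.ProjectiveSpecialLinearGroup (Fin 2) F ≃* G := H6.Frame.pslCongr e
  have hsimple : IsSimpleGroup (Matrix.ProjectiveSpecialLinearGroup (Fin 2) F) := by
    apply Matrix.ProjectiveSpecialLinearGroup.rank_two_simple
    rw [Nat.card_eq_fintype_card, hF]
    norm_num
  obtain ⟨φ, hφ, ha, hb⟩ := exists_hom_p
  set H : Subgroup (Matrix.ProjectiveSpecialLinearGroup (Fin 2) F) := φ.range.comap E.toMonoidHom with hH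
  have hEs : Function.Surjective E.toMonoidHom := E.surjective
  have hHm : H.map E.toMonoidHom = φ.range := Subgroup.map_comap_eq_self_of_surjective hEs _
  have hHi : H.index = 11 := by
    rw [hH, Subgroup.index_comap_of_surjective _ hEs, index_range φ hφ]
  refine ⟨H, hHi, ⟨(E.subgroupMap H).trans ((MulEquiv.subgroupCongr hHm).trans (MonoidHom.ofInjective hφ).symm)⟩,
    H47.PrimeIndexTwoTrans.two_trans ?_ H hp11 hHi⟩
  rw [← IsSimpleGroup.comm_iff_isSolvable]
  intro hcomm
  have h1 : a0 * b0 = b0 * a0 := by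
    apply hφ
    have := hcomm (E.symm (φ a0)) (E.symm (φ b0))
    rw [← map_mul E.symm, ← map_mul E.symm] at this
    have h2 := E.symm.injective this
    rw [map_mul, map_mul]
    exact h2
  revert h1
  decide +kernel

end Cfsg.Agent.S2542
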