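import Cfsg.Statements.S2543
import Mathlib
import Cfsg.Agent.Lib.H47.PSL11c
import Cfsg.Agent.Lib.H6.Frame

set_option autoImplicit false
set_option linter.unusedVariables false
open scoped Pointwise
open Cfsg

namespace Cfsg.Agent.S2543

open H47.PSL11 H47.PSL11b H47.PSL11c

theorem conj_map {Γ Δ : Type*} [Group Γ] [Group Δ] (E : Γ ≃* Δ) (g : Γ) (L : Subgroup Γ) :
    (MulAut.conj g • L).map E.toMonoidHom = (L.map E.toMonoidHom).map (MulAut.conj (E g)).toMonoidHom := by
  ext x
  constructor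
  · rintro ⟨_, ⟨y, hy, rfl⟩, rfl⟩
    refine ⟨E y, ⟨y, hy, rfl⟩, ?_⟩
    show E g * E y * (E g)⁻¹ = E (g * y * g⁻¹)
    simp
  · rintro ⟨_, ⟨y, hy, rfl⟩, rfl⟩
    refine ⟨g * y * g⁻¹, ⟨y, hy, rfl⟩, ?_⟩
    show E (g * y * g⁻¹) = E g * E y * (E g)⁻¹
    simp

/-- Let F be a field with 11 elements. PSL_2(F) has exactly 22 subgroups isomorphic to the alternating group A_5, and they form two conjugacy classes: there are two such subgroups that are not conjugate, and every such subgroup is conjugate to one of these two. -/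
theorem result {F : Type*} [Field F] [Fintype F] (hF : Fintype.card F = 11) : Nat.card {H : Subgroup (Matrix.ProjectiveSpecialLinearGroup (Fin 2) F) // Nonempty (H ≃* alternatingGroup (Fin 5))} = 22 ∧ ∃ H K : Subgroup (Matrix.ProjectiveSpecialLinearGroup (Fin 2) F), Nonempty (H ≃* alternatingGroup (Fin 5)) ∧ Nonempty (K ≃* alternatingGroup (Fin 5)) ∧ (∀ g : Matrix.ProjectiveSpecialLinearGroup (Fin 2) F, MulAut.conj g • H ≠ K) ∧ ∀ L : Subgroup (Matrix.ProjectiveSpecialLinearGroup (Fin 2) F), Nonempty (L ≃* alternatingGroup (Fin 5)) → ∃ g : Matrix.ProjectiveSpecialLinearGroup (Fin 2) F, MulAut.conj g • L = H ∨ MulAut.conj g • L = K := by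
  have hp11 : Nat.Prime 11 := by norm_num
  have : Fact (Nat.Prime 11) := ⟨hp11⟩
  have e : F ≃+* ZMod 11 := FiniteField.ringEquivOfCardEq (by rw [hF, ZMod.card])
  let E : Matrix.ProjectiveSpecialLinearGroup (Fin 2) F ≃* G := H6.Frame.pslCongr e
  have hsimple : IsSimpleGroup (Matrix.ProjectiveSpecialLinearGroup (Fin 2) F) := by
    apply Matrix.ProjectiveSpecialLinearGroup.rank_two_simple
    rw [Nat.card_eq_fintype_card, hF]
    norm_num
  obtain ⟨φ, hφ, ha, hb⟩ := exists_hom_p
  obtain ⟨ψ, hψ, ha', hb'⟩ := exists_hom_m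
  set H : Subgroup (Matrix.ProjectiveSpecialLinearGroup (Fin 2) F) := φ.range.comap E.toMonoidHom with hH
  set K : Subgroup (Matrix.ProjectiveSpecialLinearGroup (Fin 2) F) := ψ.range.comap E.toMonoidHom with hK
  have hEs : Function.Surjective E.toMonoidHom := E.surjective
  have hEi : Function.Injective E.toMonoidHom := E.injective
  have hHm : H.map E.toMonoidHom = φ.range := Subgroup.map_comap_eq_self_of_surjective hEs _
  have hKm : K.map E.toMonoidHom = ψ.range := Subgroup.map_comap_eq_self_of_surjective hEs _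
  have hHe : Nonempty (H ≃* alternatingGroup (Fin 5)) :=
    ⟨(E.subgroupMap H).trans ((MulEquiv.subgroupCongr hHm).trans (MonoidHom.ofInjective hφ).symm)⟩
  have hKe : Nonempty (K ≃* alternatingGroup (Fin 5)) :=
    ⟨(E.subgroupMap K).trans ((MulEquiv.subgroupCongr hKm).trans (MonoidHom.ofInjective hψ).symm)⟩
  have hHi : H.index = 11 := by
    rw [hH, Subgroup.index_comap_of_surjective _ hEs, index_range φ hφ]
  have hKi : K.index = 11 := by
    rw [hK, Subgroup.index_comap_of_surjective _ hEs, index_range ψ hψ]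
  have hnc : ∀ g : Matrix.ProjectiveSpecialLinearGroup (Fin 2) F, MulAut.conj g • H ≠ K := by
    intro g hg
    apply not_conj φ ψ hφ hψ ha hb ha' hb' (E g)
    rw [← hHm, ← conj_map, hg, hKm]
  have hall : ∀ L : Subgroup (Matrix.ProjectiveSpecialLinearGroup (Fin 2) F), Nonempty (L ≃* alternatingGroup (Fin 5)) → ∃ g : Matrix.ProjectiveSpecialLinearGroup (Fin 2) F, MulAut.conj g • L = H ∨ MulAut.conj g • L = K := by
    rintro L ⟨eL⟩
    obtain ⟨g, hg⟩ := exists_conj (L.map E.toMonoidHom) (eL.symm.trans (E.subgroupMap L))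
    refine ⟨E.symm g, ?_⟩
    have h1 := conj_map E (E.symm g) L
    rw [MulEquiv.apply_symm_apply] at h1
    have hp : Hp = φ.range := (range_eq φ ha hb).symm
    have hm : Hm = ψ.range := (range_eq ψ ha' hb').symm
    rcases hg with hg | hg
    · left
      apply Subgroup.map_injective hEi
      rw [h1, hg, hHm, hp]
    · right
      apply Subgroup.map_injective hEi
      rw [h1, hg, hKm, hm]
  refine ⟨?_, H, K, hHe, hKe, hnc, hall⟩
  have hbotH : H ≠ ⊥ := by
    intro h
    obtain ⟨f⟩ := hHe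
    rw [h] at f
    have h1 := Nat.card_congr f.toEquiv
    rw [card_A5, Subgroup.card_bot] at h1
    omega
  have hbotK : K ≠ ⊥ := by
    intro h
    obtain ⟨f⟩ := hKe
    rw [h] at f
    have h1 := Nat.card_congr f.toEquiv
    rw [card_A5, Subgroup.card_bot] at h1
    omega
  have e1 := ncard_conj H hp11 hHi hbotH
  have e2 := ncard_conj K hp11 hKi hbotK
  have hconj : ∀ (M : Subgroup (Matrix.ProjectiveSpecialLinearGroup (Fin 2) F)) (g : Matrix.ProjectiveSpecialLinearGroup (Fin 2) F),
      Nonempty (M ≃* alternatingGroup (Fin 5)) → Nonempty (↥(MulAut.conj g • M) ≃* alternatingGroup (Fin 5)) := by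
    rintro M g ⟨f⟩
    exact ⟨(Subgroup.equivSMul (MulAut.conj g) M).symm.trans f⟩
  have hset : {L : Subgroup (Matrix.ProjectiveSpecialLinearGroup (Fin 2) F) | Nonempty (L ≃* alternatingGroup (Fin 5))} =
      {L | ∃ g : Matrix.ProjectiveSpecialLinearGroup (Fin 2) F, MulAut.conj g • H = L} ∪ {L | ∃ g : Matrix.ProjectiveSpecialLinearGroup (Fin 2) F, MulAut.conj g • K = L} := by
    ext L
    constructor
    · intro hL
      obtain ⟨g, hg⟩ := hall L hL
      rcases hg with hg | hg
      · left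
        refine ⟨g⁻¹, ?_⟩
        rw [← hg, map_inv, inv_smul_smul]
      · right
        refine ⟨g⁻¹, ?_⟩
        rw [← hg, map_inv, inv_smul_smul]
    · rintro (⟨g, rfl⟩ | ⟨g, rfl⟩)
      · exact hconj H g hHe
      · exact hconj K g hKe
  have hdisj : Disjoint {L | ∃ g : Matrix.ProjectiveSpecialLinearGroup (Fin 2) F, MulAut.conj g • H = L} {L | ∃ g : Matrix.ProjectiveSpecialLinearGroup (Fin 2) F, MulAut.conj g • K = L} := by
    rw [Set.disjoint_left]
    rintro L ⟨g, rfl⟩ ⟨h, hh⟩
    apply hnc (h⁻¹ * g)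
    rw [map_mul, mul_smul, ← hh, map_inv, inv_smul_smul]
  have : Nat.card {H : Subgroup (Matrix.ProjectiveSpecialLinearGroup (Fin 2) F) // Nonempty (H ≃* alternatingGroup (Fin 5))} =
      {L : Subgroup (Matrix.ProjectiveSpecialLinearGroup (Fin 2) F) | Nonempty (L ≃* alternatingGroup (Fin 5))}.ncard := rfl
  rw [this, hset, Set.ncard_union_eq hdisj (Set.toFinite _) (Set.toFinite _), e1, e2]

end Cfsg.Agent.S2543
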