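import Cfsg.Statements.S2548
import Cfsg.Agent.Lib.H97.PolO42

set_option autoImplicit false
open Cfsg

namespace Cfsg.Agent.S2548

/-- Let F be a finite field of characteristic p and consider the group PΩ⁺_{2m}(F) of the hyperbolic quadratic form Σ x_i y_i with m ≥ 1, where Ω denotes the commutator subgroup of the full isometry group. This group has an irreducible complex character χ whose degree equals the order of a Sylow p-subgroup (equal to q^(m(m−1)) when #F = q, except in the degenerate case m = 2, q = 2, where this commutator subgroup has order 18 and its Sylow 2-subgroups have order 2) and whose restriction to any Sylow p-subgroup P is the regular character of P: χ vanishes on the non-identity elements of P. (This is the Steinberg character.) -/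
theorem result {F : Type*} [Field F] [Fintype F] (p : ℕ) [Fact p.Prime] [CharP F p] (m : ℕ) (hm : 1 ≤ m) : ∃ χ : Cfsg.POmega F (Cfsg.quadFormPlus m F) → ℂ, Cfsg.IsIrrCharacter (Cfsg.POmega F (Cfsg.quadFormPlus m F)) χ ∧ ∀ P : Sylow p (Cfsg.POmega F (Cfsg.quadFormPlus m F)), χ 1 = Nat.card P ∧ ∀ x : Cfsg.POmega F (Cfsg.quadFormPlus m F), x ∈ P → x ≠ 1 → χ x = 0 := by
  by_cases hF : ∃ c : F, c ≠ 0 ∧ c ≠ 1
  · rcases Nat.lt_or_ge m 2 with h | h
    · obtain rfl : m = 1 := by omega
      exact H97.PolInst.hasSt_triv (H97.PolInst.plusQF 1 F) (H97.PolInst.plus_one_reg p)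
    · exact H97.PolInst.hasSt_OD (H97.PolInst.plusQF m F) h (H97.PolInst.plusOD m F (Or.inl hF))
        (H97.PolInst.plusOD_reg m F (Or.inl hF) p)
  · rcases Nat.lt_or_ge m 3 with h | h
    · rcases Nat.lt_or_ge m 2 with h' | h'
      · obtain rfl : m = 1 := by omega
        exact H97.PolInst.hasSt_triv (H97.PolInst.plusQF 1 F) (H97.PolInst.plus_one_reg p)
      · obtain rfl : m = 2 := by omega
        exact H97.PolInst.hasSt_O42 hF p
    · exact H97.PolInst.hasSt_OD (H97.PolInst.plusQF m F) (by omega) (H97.PolInst.plusOD m F (Or.inr h))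
        (H97.PolInst.plusOD_reg m F (Or.inr h) p)

end Cfsg.Agent.S2548
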