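import Cfsg.Statements.S2550
import Mathlib
import Cfsg.Agent.Lib.H6.SLCard
import Cfsg.Agent.Lib.H6.SmallIsoB

set_option autoImplicit false
set_option linter.unusedVariables false
open Cfsg

namespace Cfsg.Agent.S2550

open Matrix

/-- key: over a field with four elements, a `3 × 3` matrix of determinant one commuting with a
nonzero square-zero matrix has scalar fourth power. -/
theorem pow_four_scalar {K : Type*} [Field K] [Fintype K] (hK : Fintype.card K = 4)
    (A N : Matrix (Fin 3) (Fin 3) K) (hA : A.det = 1) (hN : N ≠ 0) (hNN : N * N = 0)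
    (hAN : A * N = N * A) : ∃ c : K, A ^ 4 = c • (1 : Matrix (Fin 3) (Fin 3) K) := by
  classical
  set V := Fin 3 → K
  set f : V →ₗ[K] V := Matrix.toLin' A with hf
  set n : V →ₗ[K] V := Matrix.toLin' N with hn
  have hnn : ∀ v, n (n v) = 0 := by
    intro v
    rw [hn, Matrix.toLin'_apply, Matrix.toLin'_apply, Matrix.mulVec_mulVec, hNN, Matrix.zero_mulVec]
  have hfn : ∀ v, f (n v) = n (f v) := by
    intro v
    rw [hn, hf, Matrix.toLin'_apply, Matrix.toLin'_apply, Matrix.mulVec_mulVec, hAN,
      Matrix.toLin'_apply, Matrix.toLin'_apply, Matrix.mulVec_mulVec]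
  have hn0 : n ≠ 0 := by
    intro h
    apply hN
    have : Matrix.toLin' N = Matrix.toLin' 0 := by rw [← hn, h, map_zero]
    exact Matrix.toLin'.injective this
  obtain ⟨v, hv⟩ : ∃ v, n v ≠ 0 := by
    by_contra hcon
    push Not at hcon
    exact hn0 (LinearMap.ext hcon)
  -- kernel of `n` has dimension ≥ 2
  have hle : LinearMap.range n ≤ LinearMap.ker n := by
    rintro _ ⟨w, rfl⟩
    exact hnn w
  have hrn := LinearMap.finrank_range_add_finrank_ker n
  have hle' := Submodule.finrank_mono hle
  have h3 : Module.finrank K V = 3 := by simp [V]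
  rw [h3] at hrn
  have hker : 2 ≤ Module.finrank K (LinearMap.ker n) := by omega
  obtain ⟨w, hwk, hws⟩ : ∃ w, w ∈ LinearMap.ker n ∧ w ∉ Submodule.span K {n v} := by
    by_contra hcon
    push Not at hcon
    have h1 : LinearMap.ker n ≤ Submodule.span K {n v} := fun w hw => hcon w hw
    have h2 := Submodule.finrank_mono h1
    have h4 := finrank_span_singleton (K := K) hv
    omega
  have hw0 : n w = 0 := hwk
  have hli : LinearIndependent K ![n v, w, v] := by
    rw [Fintype.linearIndependent_iff]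
    intro g hg
    rw [Fin.sum_univ_three] at hg
    simp only [Matrix.cons_val_zero, Matrix.cons_val_one, Matrix.cons_val] at hg
    have h1 := congrArg n hg
    simp only [map_add, map_smul, map_zero, hnn, hw0, smul_zero, zero_add] at h1
    have h2 : g 2 = 0 := (smul_eq_zero.1 h1).resolve_right hv
    rw [h2, zero_smul, add_zero] at hg
    have h5 : g 1 = 0 := by
      by_contra h5
      apply hws
      rw [Submodule.mem_span_singleton]
      refine ⟨-(g 1)⁻¹ * g 0, ?_⟩
      have h6 : g 1 • w = -(g 0 • n v) := by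
        rw [eq_neg_iff_add_eq_zero, add_comm]; exact hg
      have h7 : w = (g 1)⁻¹ • (g 1 • w) := by rw [smul_smul, inv_mul_cancel₀ h5, one_smul]
      rw [h7, h6, smul_neg, smul_smul, neg_mul, neg_smul]
    rw [h5, zero_smul, add_zero] at hg
    have h6 : g 0 = 0 := (smul_eq_zero.1 hg).resolve_right hv
    intro i
    fin_cases i
    · exact h6
    · exact h5
    · exact h2
  let b : Module.Basis (Fin 3) K V := basisOfLinearIndependentOfCardEqFinrank hli (by rw [h3]; rfl)
  have hb : ⇑b = ![n v, w, v] := coe_basisOfLinearIndependentOfCardEqFinrank hli _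
  have hb0 : b 0 = n v := by rw [hb]; rfl
  have hb1 : b 1 = w := by rw [hb]; rfl
  have hb2 : b 2 = v := by rw [hb]; rfl
  -- expansions
  have hexp : ∀ x : V, x = b.repr x 0 • n v + b.repr x 1 • w + b.repr x 2 • v := by
    intro x
    conv_lhs => rw [← b.sum_repr x]
    rw [Fin.sum_univ_three, hb0, hb1, hb2]
  set x := b.repr (f v) 0 with hx
  set y := b.repr (f v) 1 with hy
  set z := b.repr (f v) 2 with hz
  have hfv : f v = x • n v + y • w + z • v := hexp (f v)
  have hfnv : f (n v) = z • n v := by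
    rw [hfn, hfv]
    simp only [map_add, map_smul, hnn, hw0, smul_zero, zero_add]
  set p := b.repr (f w) 0 with hp
  set q := b.repr (f w) 1 with hq
  have hfw : f w = p • n v + q • w := by
    have h1 := hexp (f w)
    have h2 : n (f w) = 0 := by rw [← hfn, hw0, map_zero]
    rw [h1] at h2
    simp only [map_add, map_smul, hnn, hw0, smul_zero, zero_add] at h2
    have h3' : b.repr (f w) 2 = 0 := (smul_eq_zero.1 h2).resolve_right hv
    rw [h3', zero_smul, add_zero] at h1
    exact h1
  -- determinant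
  have hM : LinearMap.toMatrix b b f = !![z, p, x; 0, q, y; 0, 0, z] := by
    ext i j
    rw [LinearMap.toMatrix_apply]
    have key : ∀ a c d : K, b.repr (a • n v + c • w + d • v) = Finsupp.single 0 a + Finsupp.single 1 c + Finsupp.single 2 d := by
      intro a c d
      rw [← hb0, ← hb1]
      conv_lhs => rw [← hb2]
      simp [map_add, Finsupp.smul_single]
    have k0 : f (b 0) = z • n v + (0:K) • w + (0:K) • v := by rw [hb0, hfnv]; simp
    have k1 : f (b 1) = p • n v + q • w + (0:K) • v := by rw [hb1, hfw]; simp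
    have k2 : f (b 2) = x • n v + y • w + z • v := by rw [hb2, hfv]
    fin_cases j
    · show b.repr (f (b 0)) i = _
      rw [k0, key]
      fin_cases i <;> simp
    · show b.repr (f (b 1)) i = _
      rw [k1, key]
      fin_cases i <;> simp
    · show b.repr (f (b 2)) i = _
      rw [k2, key]
      fin_cases i <;> simp
  have hdet : z * q * z = 1 := by
    have h1 : LinearMap.det f = A.det := by rw [hf, LinearMap.det_toLin']
    rw [hA, ← LinearMap.det_toMatrix b, hM, Matrix.det_fin_three] at h1
    simpa using h1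
  have hz0 : z ≠ 0 := by
    rintro h
    rw [h] at hdet
    simp at hdet
  have hz3 : z ^ 3 = 1 := by
    have := FiniteField.pow_card_sub_one_eq_one z hz0
    rwa [hK] at this
  have hqz : q = z := by
    have : z * (z * q * z) = z * 1 := by rw [hdet]
    have h2 : z * (z * q * z) = z ^ 3 * q := by ring
    rw [h2, hz3, one_mul, mul_one] at this
    exact this
  have h2 : (2 : K) = 0 := by
    have hc := FiniteField.cast_card_eq_zero K
    rw [hK] at hc
    have : (2 : K) * 2 = 0 := by
      push_cast at hc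
      linear_combination hc
    rcases mul_eq_zero.1 this with h | h <;> exact h
  refine ⟨z, ?_⟩
  -- compute the fourth power
  have hpow : (LinearMap.toMatrix b b f) ^ 4 = z ^ 4 • (1 : Matrix (Fin 3) (Fin 3) K) := by
    rw [hM, hqz]
    ext i j
    fin_cases i <;> fin_cases j <;>
      simp [pow_succ, Matrix.mul_apply, Fin.sum_univ_three] <;>
      first
        | ring1
        | (linear_combination (2 * z ^ 3 * p) * h2)
        | (linear_combination (2 * z ^ 3 * y) * h2)
        | (linear_combination (2 * z ^ 3 * x + 3 * z ^ 2 * p * y) * h2)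
  have h4 : z ^ 4 = z := by
    calc z ^ 4 = z ^ 3 * z := by ring
      _ = z := by rw [hz3, one_mul]
  have hfpow : f ^ 4 = z • LinearMap.id := by
    apply (LinearMap.toMatrixAlgEquiv b).injective
    rw [map_pow, map_smul]
    have e1 : (LinearMap.toMatrixAlgEquiv b) f = LinearMap.toMatrix b b f := rfl
    have e2 : (LinearMap.toMatrixAlgEquiv b) (LinearMap.id : V →ₗ[K] V) = 1 := by
      exact map_one (LinearMap.toMatrixAlgEquiv b)
    rw [e1, e2, hpow, h4]
  have : Matrix.toLin' (A ^ 4) = Matrix.toLin' (z • (1 : Matrix (Fin 3) (Fin 3) K)) := by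
    rw [map_smul, Matrix.toLin'_one, ← hfpow, hf, Matrix.toLin'_pow]
  exact Matrix.toLin'.injective this

theorem mk_eq_one_iff {K : Type*} [Field K] {n : ℕ} (A : SpecialLinearGroup (Fin n) K) :
    (QuotientGroup.mk A : ProjectiveSpecialLinearGroup (Fin n) K) = 1 ↔
      ∃ c : K, (A : Matrix (Fin n) (Fin n) K) = c • (1 : Matrix (Fin n) (Fin n) K) := by
  have h0 : (QuotientGroup.mk A : ProjectiveSpecialLinearGroup (Fin n) K) = 1 ↔
      A ∈ Subgroup.center (SpecialLinearGroup (Fin n) K) := QuotientGroup.eq_one_iff A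
  rw [h0]
  rw [Matrix.SpecialLinearGroup.mem_center_iff]
  constructor
  · rintro ⟨r, hr, h⟩
    refine ⟨r, ?_⟩
    rw [← h, Matrix.scalar_apply, Matrix.smul_one_eq_diagonal]
  · rintro ⟨c, hc⟩
    refine ⟨c, ?_, ?_⟩
    · have := A.2
      rw [hc, Matrix.det_smul, Matrix.det_one, mul_one] at this
      exact this
    · rw [hc, Matrix.scalar_apply, Matrix.smul_one_eq_diagonal]

/-- `PSL_3(4)` has no element of order `6`. -/
theorem no_order_six {K : Type*} [Field K] [Fintype K] (hK : Fintype.card K = 4)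
    (g : ProjectiveSpecialLinearGroup (Fin 3) K) (hg6 : g ^ 6 = 1) (hg3 : g ^ 3 ≠ 1) : g ^ 2 = 1 := by
  obtain ⟨A, rfl⟩ := QuotientGroup.mk_surjective g
  have h2 : (2 : K) = 0 := by
    have hc := FiniteField.cast_card_eq_zero K
    rw [hK] at hc
    have : (2 : K) * 2 = 0 := by
      push_cast at hc
      linear_combination hc
    rcases mul_eq_zero.1 this with h | h <;> exact h
  have hg6' : (QuotientGroup.mk (A ^ 6) : ProjectiveSpecialLinearGroup (Fin 3) K) = 1 := hg6
  have hg3' : ¬ (QuotientGroup.mk (A ^ 3) : ProjectiveSpecialLinearGroup (Fin 3) K) = 1 := hg3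
  rw [mk_eq_one_iff] at hg6' hg3'
  obtain ⟨c, hc⟩ := hg6'
  have hpow : ((A ^ 6 : SpecialLinearGroup (Fin 3) K) : Matrix (Fin 3) (Fin 3) K) = (A : Matrix (Fin 3) (Fin 3) K) ^ 6 :=
    Matrix.SpecialLinearGroup.coe_pow _ _
  have hpow3 : ((A ^ 3 : SpecialLinearGroup (Fin 3) K) : Matrix (Fin 3) (Fin 3) K) = (A : Matrix (Fin 3) (Fin 3) K) ^ 3 :=
    Matrix.SpecialLinearGroup.coe_pow _ _
  rw [hpow] at hc
  rw [hpow3] at hg3'
  set M : Matrix (Fin 3) (Fin 3) K := (A : Matrix (Fin 3) (Fin 3) K) with hM
  have hMdet : M.det = 1 := A.2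
  -- square root of `c`
  have hc4 : c ^ 4 = c := by
    have := FiniteField.pow_card c
    rwa [hK] at this
  set d : K := c ^ 2 with hd
  have hdd : d * d = c := by rw [hd, ← pow_add]; exact hc4
  set N : Matrix (Fin 3) (Fin 3) K := M ^ 3 - d • 1 with hN
  have hN0 : N ≠ 0 := by
    intro h
    apply hg3'
    exact ⟨d, sub_eq_zero.1 h⟩
  have h2M : ∀ X : Matrix (Fin 3) (Fin 3) K, X + X = 0 := by
    intro X
    rw [← two_smul K X, h2, zero_smul]
  have hNN : N * N = 0 := by
    have e : N * N = M ^ 6 + c • 1 - (d • M ^ 3 + d • M ^ 3) := by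
      rw [hN, sub_mul, mul_sub, mul_sub]
      rw [← pow_add]
      simp only [smul_mul_assoc, one_mul, mul_smul_comm, mul_one, smul_smul, hdd]
      abel
    rw [e, h2M, hc, h2M, sub_zero]
  have hMN : M * N = N * M := by
    rw [hN, mul_sub, sub_mul]
    simp only [smul_mul_assoc, one_mul, mul_smul_comm, mul_one]
    rw [← pow_succ', ← pow_succ]
  obtain ⟨e, he⟩ := pow_four_scalar hK M N hMdet hN0 hNN hMN
  have h4 : (QuotientGroup.mk (A ^ 4) : ProjectiveSpecialLinearGroup (Fin 3) K) = 1 := by
    rw [mk_eq_one_iff]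
    refine ⟨e, ?_⟩
    rw [Matrix.SpecialLinearGroup.coe_pow]
    exact he
  have h4' : (QuotientGroup.mk A : ProjectiveSpecialLinearGroup (Fin 3) K) ^ 4 = 1 := h4
  have : (QuotientGroup.mk A : ProjectiveSpecialLinearGroup (Fin 3) K) ^ 6 = (QuotientGroup.mk A) ^ 4 * (QuotientGroup.mk A) ^ 2 := by
    rw [← pow_add]
  rw [hg6, h4', one_mul] at this
  exact this.symm

theorem six_alt : ∃ σ : alternatingGroup (Fin 8), σ ^ 6 = 1 ∧ σ ^ 3 ≠ 1 ∧ σ ^ 2 ≠ 1 := by
  refine ⟨⟨c[0, 1, 2] * c[3, 4] * c[5, 6], Equiv.Perm.mem_alternatingGroup.2 (by decide +kernel)⟩, ?_, ?_, ?_⟩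
  · apply Subtype.ext
    show (c[0, 1, 2] * c[3, 4] * c[5, 6] : Equiv.Perm (Fin 8)) ^ 6 = 1
    decide +kernel
  · intro h
    have h2 := congrArg (Subtype.val) h
    revert h2
    show ¬ (c[0, 1, 2] * c[3, 4] * c[5, 6] : Equiv.Perm (Fin 8)) ^ 3 = 1
    decide +kernel
  · intro h
    have h2 := congrArg (Subtype.val) h
    revert h2
    show ¬ (c[0, 1, 2] * c[3, 4] * c[5, 6] : Equiv.Perm (Fin 8)) ^ 2 = 1
    decide +kernel

/-- Let F be a field with 2 elements and K a field with 4 elements. PSL_4(F) and PSL_3(K) have the same order (20160) but are not isomorphic. -/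
theorem result {F K : Type*} [Field F] [Fintype F] [Field K] [Fintype K] (hF : Fintype.card F = 2) (hK : Fintype.card K = 4) : Nat.card (Matrix.ProjectiveSpecialLinearGroup (Fin 4) F) = Nat.card (Matrix.ProjectiveSpecialLinearGroup (Fin 3) K) ∧ ¬ Nonempty (Matrix.ProjectiveSpecialLinearGroup (Fin 4) F ≃* Matrix.ProjectiveSpecialLinearGroup (Fin 3) K) := by
  constructor
  · have h1 := H6.SLCard.card_psl (F := F) (n := 4) (by norm_num)
    have h2 := H6.SLCard.card_psl (F := K) (n := 3) (by norm_num)
    rw [hF, Fin.prod_univ_four] at h1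
    rw [hK, Fin.prod_univ_three] at h2
    norm_num at h1 h2
    omega
  · rintro ⟨φ⟩
    obtain ⟨ψ⟩ := H6.SmallIsoB.psl4_two hF
    obtain ⟨σ, h6, h3, h2⟩ := six_alt
    set g := φ (ψ.symm σ) with hg
    have e : ∀ k : ℕ, g ^ k = 1 ↔ σ ^ k = 1 := by
      intro k
      rw [hg, ← map_pow, ← map_pow]
      constructor
      · intro h
        have := φ.injective (h.trans (map_one φ).symm)
        exact ψ.symm.injective (this.trans (map_one ψ.symm).symm)
      · intro h
        rw [h, map_one, map_one]
    exact h2 ((e 2).1 (no_order_six hK g ((e 6).2 h6) (fun h => h3 ((e 3).1 h))))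

end Cfsg.Agent.S2550
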