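import Cfsg.Statements.S2551
import Cfsg.Agent.Lib.H47.A8GL4
import Cfsg.Agent.Lib.H47.IsoGrp

set_option autoImplicit false
set_option linter.unusedVariables false
open Cfsg

namespace Cfsg.Agent.S2551

open H47.AltHom H47.A8GL4 H47.IsoGrp

theorem exists_hom7 : ∃ φ : alternatingGroup (Fin 7) →* GL (Fin 4) (ZMod 2), Function.Injective φ := by
  obtain ⟨φ, hφ⟩ := exists_alt_hom (n := 6) (fun i => a i.castSucc) (by
    intro i j hij
    apply Units.ext
    rw [pow_two]
    exact rel2 i.castSucc j.castSucc hij) (by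
    intro i j hij
    apply Units.ext
    rw [pow_succ, pow_two]
    exact rel3 i.castSucc j.castSucc hij)
  refine ⟨φ, ?_⟩
  have hsimple : IsSimpleGroup (alternatingGroup (Fin 7)) := alternatingGroup.isSimpleGroup (by simp)
  rw [← MonoidHom.ker_eq_bot_iff]
  rcases hsimple.eq_bot_or_eq_top_of_normal φ.ker inferInstance with h | h
  · exact h
  · exfalso
    have hm : Equiv.swap (0 : Fin 6).castSucc (0 : Fin 6).succ * Equiv.swap (1 : Fin 6).castSucc (1 : Fin 6).succ ∈ alternatingGroup (Fin 7) := by
      rw [Equiv.Perm.mem_alternatingGroup, map_mul, Equiv.Perm.sign_swap (by decide), Equiv.Perm.sign_swap (by decide)]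
      decide
    have h1 := hφ 0 1 hm
    have h2 : (⟨_, hm⟩ : alternatingGroup (Fin 7)) ∈ φ.ker := by rw [h]; trivial
    rw [MonoidHom.mem_ker] at h2
    rw [h2] at h1
    have h3 := congrArg (fun x : GL (Fin 4) (ZMod 2) => (x : Matrix (Fin 4) (Fin 4) (ZMod 2))) h1
    exact ne01 h3.symm

section counting

variable {α : Type*}

/-- counting modulo a prime -/
theorem card_mod (q : ℕ) [Fact q.Prime] (g : α → α) (hg : ∀ x, g^[q] x = x) (S : Finset α) (hS : ∀ x ∈ S, g x ∈ S) [DecidableEq α] :
    S.card ≡ (S.filter (fun x => g x = x)).card [MOD q] := by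
  classical
  let f : Function.End S := fun x => ⟨g x.1, hS x.1 x.2⟩
  have hf : f ^ q ^ 1 = 1 := by
    rw [pow_one]
    funext x
    have h1 : ∀ (n : ℕ) (x : S), ((f ^ n) x : α) = g^[n] x.1 := by
      intro n
      induction n with
      | zero => intro x; rfl
      | succ n ih =>
        intro x
        rw [pow_succ]
        change ((f ^ n) (f x) : α) = _
        rw [ih, Function.iterate_succ_apply]
    apply Subtype.ext
    rw [h1, hg]
    rfl
  have := Equiv.Perm.card_fixedPoints_modEq (f := f) (p := q) (n := 1) hf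
  rw [Fintype.card_coe] at this
  refine this.trans ?_
  have : Fintype.card (Function.fixedPoints f) = (S.filter (fun x => g x = x)).card := by
    rw [← Fintype.card_coe]
    apply Fintype.card_congr
    refine ⟨fun x => ⟨x.1.1, ?_⟩, fun x => ⟨⟨x.1, (Finset.mem_filter.mp x.2).1⟩, ?_⟩, fun x => rfl, fun x => rfl⟩
    · rw [Finset.mem_filter]
      exact ⟨x.1.2, congrArg Subtype.val x.2⟩
    · exact Subtype.ext (Finset.mem_filter.mp x.2).2
  rw [this]

end counting

section abstract2

variable {F V : Type*} [Field F] [Fintype F] [AddCommGroup V] [Module F V] [Fintype V] [DecidableEq V]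

omit [Fintype F] [Fintype V] [DecidableEq V] in
theorem iterate_eq (g : V ≃ₗ[F] V) (q : ℕ) (hg : g ^ q = 1) (x : V) : g^[q] x = x := by
  have h1 : ∀ (n : ℕ) (x : V), g^[n] x = (g ^ n) x := by
    intro n
    induction n with
    | zero => intro x; rfl
    | succ n ih => intro x; rw [Function.iterate_succ_apply, ih, pow_succ]; rfl
  rw [h1, hg]
  rfl

/-- number of fixed vectors is a power of two -/
theorem card_fix (hF : Fintype.card F = 2) (hV : Fintype.card V = 16) (g : V ≃ₗ[F] V) :
    ∃ k ≤ 4, (Finset.univ.filter (fun x => g x = x)).card = 2 ^ k := by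
  let W : Submodule F V := LinearMap.ker ((g : V →ₗ[F] V) - LinearMap.id)
  have h1 : (Finset.univ.filter (fun x => g x = x)).card = Nat.card W := by
    rw [← Fintype.card_subtype, ← Nat.card_eq_fintype_card]
    apply Nat.card_congr
    apply Equiv.subtypeEquivRight
    intro x
    simp only [W, LinearMap.mem_ker, LinearMap.sub_apply, LinearMap.id_apply, sub_eq_zero]
    rfl
  have h2 := Module.natCard_eq_pow_finrank (K := F) (V := W)
  rw [Nat.card_eq_fintype_card (α := F), hF] at h2
  have h3 : Nat.card W ≤ 16 := by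
    rw [← hV, ← Nat.card_eq_fintype_card]
    exact Nat.card_le_card_of_injective _ Subtype.val_injective
  refine ⟨Module.finrank F W, ?_, by rw [h1, h2]⟩
  by_contra hcon
  push Not at hcon
  have : 2 ^ 5 ≤ 2 ^ Module.finrank F W := Nat.pow_le_pow_right (by norm_num) hcon
  rw [← h2] at this
  omega

theorem fix5 (hF : Fintype.card F = 2) (hV : Fintype.card V = 16) (g : V ≃ₗ[F] V) (h5 : g ^ 5 = 1) (h1 : g ≠ 1) (x : V) (hx : g x = x) : x = 0 := by
  have : Fact (Nat.Prime 5) := ⟨by norm_num⟩
  have hm := card_mod 5 g (iterate_eq g 5 h5) Finset.univ (fun x _ => Finset.mem_univ _)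
  obtain ⟨k, hk, hc⟩ := card_fix hF hV g
  rw [Finset.card_univ, hV, hc] at hm
  have hk' : k = 0 ∨ k = 4 := by
    interval_cases k <;> simp_all [Nat.ModEq]
  rcases hk' with rfl | rfl
  · rw [pow_zero, Finset.card_eq_one] at hc
    obtain ⟨y, hy⟩ := hc
    have e1 : x ∈ ({y} : Finset V) := by rw [← hy]; simp [hx]
    have e2 : (0 : V) ∈ ({y} : Finset V) := by rw [← hy]; simp
    rw [Finset.mem_singleton] at e1 e2
    rw [e1, ← e2]
  · exfalso
    apply h1
    ext y
    have : Finset.univ.filter (fun x => g x = x) = Finset.univ := by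
      apply Finset.eq_univ_of_card
      rw [hc, hV]
      norm_num
    have hy : y ∈ Finset.univ.filter (fun x => g x = x) := by rw [this]; exact Finset.mem_univ _
    exact (Finset.mem_filter.mp hy).2

theorem fix7 (hF : Fintype.card F = 2) (hV : Fintype.card V = 16) (g : V ≃ₗ[F] V) (h7 : g ^ 7 = 1) (h1 : g ≠ 1) :
    ∃ v : V, v ≠ 0 ∧ g v = v ∧ ∀ x, g x = x → x = 0 ∨ x = v := by
  have : Fact (Nat.Prime 7) := ⟨by norm_num⟩
  have hm := card_mod 7 g (iterate_eq g 7 h7) Finset.univ (fun x _ => Finset.mem_univ _)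
  obtain ⟨k, hk, hc⟩ := card_fix hF hV g
  rw [Finset.card_univ, hV, hc] at hm
  have hk' : k = 1 ∨ k = 4 := by
    interval_cases k <;> simp_all [Nat.ModEq]
  rcases hk' with rfl | rfl
  · rw [pow_one, Finset.card_eq_two] at hc
    obtain ⟨a, b, hab, hy⟩ := hc
    have e2 : (0 : V) ∈ ({a, b} : Finset V) := by rw [← hy]; simp
    have ha : g a = a := by
      have : a ∈ Finset.univ.filter (fun x => g x = x) := by rw [hy]; simp
      exact (Finset.mem_filter.mp this).2
    have hb : g b = b := by
      have : b ∈ Finset.univ.filter (fun x => g x = x) := by rw [hy]; simp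
      exact (Finset.mem_filter.mp this).2
    have hall : ∀ x, g x = x → x = a ∨ x = b := by
      intro x hx
      have : x ∈ ({a, b} : Finset V) := by rw [← hy]; simp [hx]
      simpa using this
    rw [Finset.mem_insert, Finset.mem_singleton] at e2
    rcases e2 with rfl | rfl
    · exact ⟨b, hab.symm, hb, hall⟩
    · exact ⟨a, hab, ha, fun x hx => (hall x hx).symm⟩
  · exfalso
    apply h1
    ext y
    have : Finset.univ.filter (fun x => g x = x) = Finset.univ := by
      apply Finset.eq_univ_of_card
      rw [hc, hV]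
      norm_num
    have hy : y ∈ Finset.univ.filter (fun x => g x = x) := by rw [this]; exact Finset.mem_univ _
    exact (Finset.mem_filter.mp hy).2

theorem two_trans (hF : Fintype.card F = 2) (hV : Fintype.card V = 16) (H : Subgroup (V ≃ₗ[F] V)) [Finite H]
    (h2 : 2 ∣ Nat.card H) (h5 : 5 ∣ Nat.card H) (h7 : 7 ∣ Nat.card H)
    (v w v' w' : V) (hv : v ≠ 0) (hw : w ≠ 0) (hvw : v ≠ w) (hv' : v' ≠ 0) (hw' : w' ≠ 0) (hvw' : v' ≠ w') :
    ∃ g ∈ H, g v = v' ∧ g w = w' := by
  classical
  have hchar : ∀ x : V, x + x = 0 := by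
    intro x
    have h : (1 : F) + 1 = 0 := by
      have := ZMod.ringEquivOfPrime F Nat.prime_two hF
      have h3 : this (1 + 1) = 0 := by
        rw [show (1 : ZMod 2) + 1 = 0 from rfl, map_zero]
      rwa [map_add, map_one] at h3
    rw [← one_smul F x, ← add_smul, h, zero_smul]
  have hadd_ne : ∀ a b : V, a ≠ b → a + b ≠ 0 := by
    intro a b hab h
    apply hab
    rw [← add_zero a, ← hchar b, ← add_assoc, h, zero_add]
  have hcancel : ∀ a b : V, a + (a + b) = b := by
    intro a b
    rw [← add_assoc, hchar, zero_add]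
  -- elements of prime order
  have : Fact (Nat.Prime 5) := ⟨by norm_num⟩
  have : Fact (Nat.Prime 7) := ⟨by norm_num⟩
  have : Fact (Nat.Prime 2) := ⟨by norm_num⟩
  obtain ⟨x5, hx5⟩ := exists_prime_orderOf_dvd_card' 5 h5
  obtain ⟨y7, hy7⟩ := exists_prime_orderOf_dvd_card' 7 h7
  obtain ⟨t2, ht2⟩ := exists_prime_orderOf_dvd_card' 2 h2
  have px : ∀ {q : ℕ} {z : H}, orderOf z = q → (z : V ≃ₗ[F] V) ^ q = 1 := by
    intro q z hz
    have : z ^ q = 1 := by rw [← hz, pow_orderOf_eq_one]
    have := congrArg Subtype.val this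
    simpa using this
  have pn : ∀ {q : ℕ} {z : H}, orderOf z = q → q ≠ 1 → (z : V ≃ₗ[F] V) ≠ 1 := by
    intro q z hz hq h
    apply hq
    rw [← hz, orderOf_eq_one_iff]
    exact Subtype.ext h
  have f5 := fix5 hF hV (x5 : V ≃ₗ[F] V) (px hx5) (pn hx5 (by norm_num))
  obtain ⟨v0, hv0, hv0f, f7⟩ := fix7 hF hV (y7 : V ≃ₗ[F] V) (px hy7) (pn hy7 (by norm_num))
  have hne0 : ∀ (g : V ≃ₗ[F] V) (a : V), a ≠ 0 → g a ≠ 0 := fun g a ha h => ha ((LinearEquiv.map_eq_zero_iff g).mp h)
  -- transitivity
  have htrans : ∀ a b : V, a ≠ 0 → b ≠ 0 → ∃ g ∈ H, g a = b := by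
    intro a b ha hb
    let O : Finset V := Finset.univ.filter (fun b => ∃ g ∈ H, g a = b)
    have hO : ∀ z ∈ H, ∀ x ∈ O, z x ∈ O := by
      intro z hz x hx
      rw [Finset.mem_filter] at hx ⊢
      obtain ⟨_, g, hg, rfl⟩ := hx
      exact ⟨Finset.mem_univ _, z * g, H.mul_mem hz hg, rfl⟩
    have hO0 : (0 : V) ∉ O := by
      intro h
      obtain ⟨_, g, hg, h⟩ := Finset.mem_filter.mp h
      exact hne0 g a ha h
    have haO : a ∈ O := Finset.mem_filter.mpr ⟨Finset.mem_univ _, 1, H.one_mem, rfl⟩
    have m5 := card_mod 5 _ (iterate_eq _ 5 (px hx5)) O (hO _ x5.2)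
    have e5 : (O.filter (fun x => (x5 : V ≃ₗ[F] V) x = x)).card = 0 := by
      rw [Finset.card_eq_zero, Finset.filter_eq_empty_iff]
      intro x hx h
      exact hO0 (f5 x h ▸ hx)
    rw [e5] at m5
    have m7 := card_mod 7 _ (iterate_eq _ 7 (px hy7)) O (hO _ y7.2)
    have e7 : (O.filter (fun x => (y7 : V ≃ₗ[F] V) x = x)).card ≤ 1 := by
      rw [Finset.card_le_one]
      intro x hx y hy
      rw [Finset.mem_filter] at hx hy
      rcases f7 x hx.2 with rfl | rfl
      · exact absurd hx.1 hO0
      · rcases f7 y hy.2 with rfl | rfl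
        · exact absurd hy.1 hO0
        · rfl
    have hle : O.card ≤ 15 := by
      have : O ⊆ Finset.univ.erase 0 := by
        intro x hx
        rw [Finset.mem_erase]
        exact ⟨fun h => hO0 (h ▸ hx), Finset.mem_univ _⟩
      have := Finset.card_le_card this
      rw [Finset.card_erase_of_mem (Finset.mem_univ _), Finset.card_univ, hV] at this
      exact this
    have hpos : 0 < O.card := Finset.card_pos.mpr ⟨a, haO⟩
    have h15 : O.card = 15 := by
      unfold Nat.ModEq at m5 m7
      rcases Nat.le_one_iff_eq_zero_or_eq_one.mp e7 with e8 | e8 <;> rw [e8] at m7 <;> omega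
    have hall : O = Finset.univ.erase 0 := by
      apply Finset.eq_of_subset_of_card_le
      · intro x hx
        rw [Finset.mem_erase]
        exact ⟨fun h => hO0 (h ▸ hx), Finset.mem_univ _⟩
      · rw [Finset.card_erase_of_mem (Finset.mem_univ _), Finset.card_univ, hV, h15]
    have hbO : b ∈ O := by rw [hall]; exact Finset.mem_erase.mpr ⟨hb, Finset.mem_univ _⟩
    exact (Finset.mem_filter.mp hbO).2
  -- element of order seven fixing exactly a given vector
  have hy : ∀ a : V, a ≠ 0 → ∃ y ∈ H, y ^ 7 = 1 ∧ y a = a ∧ ∀ x, y x = x → x = 0 ∨ x = a := by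
    intro a ha
    obtain ⟨h, hh, hha⟩ := htrans v0 a hv0 ha
    refine ⟨h * y7 * h⁻¹, H.mul_mem (H.mul_mem hh y7.2) (H.inv_mem hh), ?_, ?_, ?_⟩
    · rw [conj_pow, px hy7, mul_one, mul_inv_cancel]
    · rw [LinearEquiv.mul_apply, LinearEquiv.mul_apply]
      have : h⁻¹ a = v0 := by
        rw [← hha, ← LinearEquiv.mul_apply, inv_mul_cancel]; rfl
      rw [this, hv0f, hha]
    · intro x hx
      rw [LinearEquiv.mul_apply, LinearEquiv.mul_apply] at hx
      have h3 : (y7 : V ≃ₗ[F] V) (h⁻¹ x) = h⁻¹ x := by
        have := congrArg (fun z => h⁻¹ z) hx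
        simp only [← LinearEquiv.mul_apply, ← mul_assoc, inv_mul_cancel, one_mul] at this
        exact this
      have h4 : h (h⁻¹ x) = x := by rw [← LinearEquiv.mul_apply, mul_inv_cancel]; rfl
      rcases f7 _ h3 with h5 | h5
      · left
        rw [← h4, h5, map_zero]
      · right
        rw [← h4, h5, hha]
  -- the orbital
  let R : V → V → Prop := fun a b => ∃ g ∈ H, g v = a ∧ g w = b
  have hRinv : ∀ g ∈ H, ∀ a b, R a b → R (g a) (g b) := by
    rintro g hg a b ⟨h, hh, rfl, rfl⟩
    exact ⟨g * h, H.mul_mem hg hh, rfl, rfl⟩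
  have hRinv' : ∀ g ∈ H, ∀ a b, R (g a) (g b) → R a b := by
    intro g hg a b h
    have := hRinv g⁻¹ (H.inv_mem hg) _ _ h
    rwa [← LinearEquiv.mul_apply, ← LinearEquiv.mul_apply, inv_mul_cancel] at this
  have hRne : ∀ a b, R a b → a ≠ 0 ∧ b ≠ 0 ∧ a ≠ b := by
    rintro a b ⟨g, hg, rfl, rfl⟩
    exact ⟨hne0 g v hv, hne0 g w hw, fun h => hvw (g.injective h)⟩
  let RS : V → Finset V := fun a => Finset.univ.filter (fun b => R a b)
  have hRS : ∀ a b, b ∈ RS a ↔ R a b := fun a b => by simp [RS]
  have hcardle : ∀ a, a ≠ 0 → RS a ⊆ (Finset.univ.erase 0).erase a := by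
    intro a ha b hb
    rw [hRS] at hb
    obtain ⟨h1, h2, h3⟩ := hRne a b hb
    rw [Finset.mem_erase, Finset.mem_erase]
    exact ⟨h3.symm, h2, Finset.mem_univ _⟩
  have hcard14 : ∀ a : V, a ≠ 0 → ((Finset.univ.erase (0 : V)).erase a).card = 14 := by
    intro a ha
    rw [Finset.card_erase_of_mem (Finset.mem_erase.mpr ⟨ha, Finset.mem_univ _⟩), Finset.card_erase_of_mem (Finset.mem_univ _),
      Finset.card_univ, hV]
  have hmod7 : ∀ a, a ≠ 0 → (RS a).card = 7 ∨ (RS a).card = 14 := by
    intro a ha
    obtain ⟨y, hyH, hy7', hya, hyf⟩ := hy a ha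
    have m7 := card_mod 7 _ (iterate_eq _ 7 hy7') (RS a) (by
      intro b hb
      rw [hRS] at hb ⊢
      have := hRinv y hyH _ _ hb
      rwa [hya] at this)
    have e7 : ((RS a).filter (fun x => y x = x)).card = 0 := by
      rw [Finset.card_eq_zero, Finset.filter_eq_empty_iff]
      intro x hx h
      rw [hRS] at hx
      obtain ⟨h1, h2, h3⟩ := hRne a x hx
      rcases hyf x h with h | h
      · exact h2 h
      · exact h3 h.symm
    rw [e7] at m7
    have hpos : 0 < (RS a).card := by
      rw [Finset.card_pos]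
      obtain ⟨g, hg, hga⟩ := htrans v a hv ha
      exact ⟨g w, by rw [hRS]; exact ⟨g, hg, hga, rfl⟩⟩
    have hle := Finset.card_le_card (hcardle a ha)
    rw [hcard14 a ha] at hle
    unfold Nat.ModEq at m7
    omega
  rcases hmod7 v' hv' with h7' | h14
  swap
  · have hall : RS v' = (Finset.univ.erase 0).erase v' := by
      apply Finset.eq_of_subset_of_card_le (hcardle v' hv')
      rw [hcard14 v' hv', h14]
    have hmem : w' ∈ RS v' := by
      rw [hall, Finset.mem_erase, Finset.mem_erase]
      exact ⟨hvw'.symm, hw', Finset.mem_univ _⟩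
    rw [hRS] at hmem
    exact hmem
  · exfalso
    -- all the sets have seven elements
    have h7all : ∀ a, a ≠ 0 → (RS a).card = 7 := by
      intro a ha
      obtain ⟨g, hg, hga⟩ := htrans v' a hv' ha
      rw [← h7']
      symm
      apply Finset.card_bij (fun b _ => g b)
      · intro b hb
        rw [hRS] at hb ⊢
        rw [← hga]
        exact hRinv g hg _ _ hb
      · intro b _ c _ h
        exact g.injective h
      · intro c hc
        rw [hRS] at hc
        refine ⟨g⁻¹ c, ?_, ?_⟩
        · rw [hRS]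
          apply hRinv' g hg
          rw [hga, ← LinearEquiv.mul_apply, mul_inv_cancel]
          exact hc
        · rw [← LinearEquiv.mul_apply, mul_inv_cancel]
          rfl
    -- exactly one of b, a + b
    have hnot : ∀ a b, R a b → ¬ R a (a + b) := by
      intro a b hab hab'
      obtain ⟨ha0, hb0, hne⟩ := hRne a b hab
      -- element g of the stabiliser of a mapping b to a + b
      obtain ⟨h, hh, hhv, hhw⟩ := hab
      obtain ⟨h', hh', hhv', hhw'⟩ := hab'
      have hstab : ∀ c ∈ RS a, a + c ∈ RS a := by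
        intro c hc
        rw [hRS] at hc ⊢
        obtain ⟨k, hk, hkv, hkw⟩ := hc
        refine ⟨k * h⁻¹ * h', H.mul_mem (H.mul_mem hk (H.inv_mem hh)) hh', ?_, ?_⟩
        · rw [LinearEquiv.mul_apply, LinearEquiv.mul_apply, hhv', ← hhv, ← LinearEquiv.mul_apply h⁻¹, inv_mul_cancel]
          rw [hhv, ← hkv]; rfl
        · rw [LinearEquiv.mul_apply, LinearEquiv.mul_apply, hhw', map_add, ← hhv, ← hhw, ← LinearEquiv.mul_apply h⁻¹, ← LinearEquiv.mul_apply h⁻¹, inv_mul_cancel, map_add]
          rw [hhv]
          change k v + k w = a + c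
          rw [hkv, hkw]
      have : Even (RS a).card := by
        have := card_mod 2 (fun c => a + c) (by
          intro x
          simp only [Function.iterate_succ, Function.iterate_zero, Function.comp_apply, id_eq]
          exact hcancel a x) (RS a) hstab
        have e : ((RS a).filter (fun x => a + x = x)).card = 0 := by
          rw [Finset.card_eq_zero, Finset.filter_eq_empty_iff]
          intro x _ hx
          rw [add_eq_right] at hx
          exact ha0 hx
        rw [e] at this
        exact Nat.even_iff.mpr this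
      rw [h7all a ha0] at this
      exact absurd this (by decide)
    have hor : ∀ a b, a ≠ 0 → b ≠ 0 → a ≠ b → ¬ R a b → R a (a + b) := by
      intro a b ha hb hab hn
      by_contra hcon
      have hdisj : Disjoint (RS a) ((RS a).image (fun c => a + c)) := by
        rw [Finset.disjoint_left]
        intro c hc hc'
        rw [Finset.mem_image] at hc'
        obtain ⟨d, hd, rfl⟩ := hc'
        rw [hRS] at hc hd
        exact hnot a d hd hc
      have hcard : (RS a ∪ (RS a).image (fun c => a + c)).card = 14 := by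
        rw [Finset.card_union_of_disjoint hdisj, Finset.card_image_of_injective _ (add_right_injective a), h7all a ha]
      have hsub : RS a ∪ (RS a).image (fun c => a + c) ⊆ (Finset.univ.erase 0).erase a := by
        apply Finset.union_subset (hcardle a ha)
        intro c hc
        rw [Finset.mem_image] at hc
        obtain ⟨d, hd, rfl⟩ := hc
        rw [hRS] at hd
        obtain ⟨h1, h2, h3⟩ := hRne a d hd
        rw [Finset.mem_erase, Finset.mem_erase]
        exact ⟨fun h => h2 (add_eq_left.mp h), hadd_ne a d h3, Finset.mem_univ _⟩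
      have heq := Finset.eq_of_subset_of_card_le hsub (by rw [hcard, hcard14 a ha])
      have hbm : b ∈ RS a ∪ (RS a).image (fun c => a + c) := by
        rw [heq, Finset.mem_erase, Finset.mem_erase]
        exact ⟨hab.symm, hb, Finset.mem_univ _⟩
      rw [Finset.mem_union, Finset.mem_image] at hbm
      rcases hbm with h | ⟨d, hd, rfl⟩
      · rw [hRS] at h
        exact hn h
      · rw [hcancel] at hcon
        rw [hRS] at hd
        exact hcon hd
    -- the involution
    have ht1 := pn ht2 (by norm_num)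
    have htt : ∀ x, (t2 : V ≃ₗ[F] V) ((t2 : V ≃ₗ[F] V) x) = x := by
      intro x
      have := px ht2
      rw [pow_two] at this
      rw [← LinearEquiv.mul_apply, this]
      rfl
    obtain ⟨a, ha⟩ : ∃ a, (t2 : V ≃ₗ[F] V) a ≠ a := by
      by_contra hcon
      push Not at hcon
      exact ht1 (LinearEquiv.ext hcon)
    set b := (t2 : V ≃ₗ[F] V) a with hb
    have htb : (t2 : V ≃ₗ[F] V) b = a := htt a
    have ha0 : a ≠ 0 := by
      rintro rfl
      rw [map_zero] at hb
      exact ha hb
    have hb0 : b ≠ 0 := hne0 _ a ha0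
    have hab : a ≠ b := fun h => ha h.symm
    have hab0 : a + b ≠ 0 := hadd_ne a b hab
    have hac : a ≠ a + b := fun h => hb0 (add_eq_left.mp h.symm)
    have hbc : b ≠ a + b := fun h => ha0 (add_eq_right.mp h.symm)
    -- symmetry of R
    have hsymm : ∀ x y, x ≠ 0 → y ≠ 0 → x ≠ y → (R x y ↔ R y x) := by
      -- R a b ↔ R b a
      have h1 : R a b ↔ R b a := by
        constructor
        · intro h
          have := hRinv t2 t2.2 _ _ h
          rwa [htb] at this
        · intro h
          have := hRinv t2 t2.2 _ _ h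
          rwa [htb] at this
      by_cases hR : R a b
      · have hRba := h1.mp hR
        have key : ∀ x y, R x y → R y x := by
          rintro x y ⟨g, hg, rfl, rfl⟩
          obtain ⟨g1, hg1, e1, e2⟩ := hR
          have e1' : v = g1⁻¹ a := by rw [← e1, ← LinearEquiv.mul_apply, inv_mul_cancel]; rfl
          have e2' : w = g1⁻¹ b := by rw [← e2, ← LinearEquiv.mul_apply, inv_mul_cancel]; rfl
          rw [e1', e2']
          exact hRinv g hg _ _ (hRinv _ (H.inv_mem hg1) _ _ hRba)
        exact fun x y _ _ _ => ⟨key x y, key y x⟩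
      · have hRba : ¬ R b a := fun h => hR (h1.mpr h)
        have hRac := hor a b ha0 hb0 hab hR
        have key : ∀ x y, x ≠ 0 → y ≠ 0 → x ≠ y → ¬ R x y → ¬ R y x := by
          intro x y hx hy hxy hn hcon
          have h2 := hor x y hx hy hxy hn
          obtain ⟨g, hg, e1, e2⟩ := h2
          obtain ⟨g1, hg1, e3, e4⟩ := hRac
          have e3' : v = g1⁻¹ a := by rw [← e3, ← LinearEquiv.mul_apply, inv_mul_cancel]; rfl
          have e4' : w = g1⁻¹ (a + b) := by rw [← e4, ← LinearEquiv.mul_apply, inv_mul_cancel]; rfl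
          have e5 : (g * g1⁻¹) a = x := by rw [LinearEquiv.mul_apply, ← e3', e1]
          have e6 : (g * g1⁻¹) b = y := by
            have : (g * g1⁻¹) (a + b) = x + y := by rw [LinearEquiv.mul_apply, ← e4', e2]
            rw [map_add, e5] at this
            exact add_left_cancel this
          have hm : g * g1⁻¹ ∈ H := H.mul_mem hg (H.inv_mem hg1)
          rw [← e5, ← e6] at hcon
          exact hRba (hRinv' _ hm _ _ hcon)
        intro x y hx hy hxy
        constructor
        · intro h
          by_contra hcon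
          exact key y x hy hx hxy.symm hcon h
        · intro h
          by_contra hcon
          exact key x y hx hy hxy hcon h
    -- triangle
    have hsumc : (a + b) + a = b := by rw [add_comm a b, add_assoc, hchar, add_zero]
    have hsumc' : (a + b) + b = a := by rw [add_assoc, hchar, add_zero]
    by_cases hR : R a b
    · have n1 := hnot a b hR
      have n2 : ¬ R b (a + b) := by
        rw [add_comm a b]
        exact hnot b a ((hsymm a b ha0 hb0 hab).mp hR)
      have n3 : ¬ R (a + b) a := fun h => n1 ((hsymm a (a + b) ha0 hab0 hac).mpr h)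
      have n4 : ¬ R (a + b) b := fun h => n2 ((hsymm b (a + b) hb0 hab0 hbc).mpr h)
      have := hor (a + b) a hab0 ha0 hac.symm n3
      rw [hsumc] at this
      exact n4 this
    · have n1 := hor a b ha0 hb0 hab hR
      have n2 : R b (a + b) := by
        rw [add_comm a b]
        exact hor b a hb0 ha0 hab.symm (fun h => hR ((hsymm a b ha0 hb0 hab).mpr h))
      have n3 : R (a + b) a := (hsymm a (a + b) ha0 hab0 hac).mp n1
      have n4 : R (a + b) b := (hsymm b (a + b) hb0 hab0 hbc).mp n2
      have := hnot (a + b) a n3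
      rw [hsumc] at this
      exact this n4

end abstract2

theorem card_A7 : Nat.card (alternatingGroup (Fin 7)) = 2520 := by
  rw [nat_card_alternatingGroup, Nat.card_fin]
  rfl

/-- Let F be the field with 2 elements. GL_4(F) (≅ A_8) has a subgroup isomorphic to the alternating group A_7, and every such subgroup acts 2-transitively on the 15 non-zero vectors of F⁴: any ordered pair of distinct non-zero vectors is carried to any other by some element of the subgroup. -/
theorem result {F : Type*} [Field F] [Fintype F] (hF : Fintype.card F = 2) : (∃ H : Subgroup (Matrix.GeneralLinearGroup (Fin 4) F), Nonempty (H ≃* alternatingGroup (Fin 7))) ∧ ∀ H : Subgroup (Matrix.GeneralLinearGroup (Fin 4) F), Nonempty (H ≃* alternatingGroup (Fin 7)) → ∀ v w v' w' : Fin 4 → F, v ≠ 0 → w ≠ 0 → v ≠ w → v' ≠ 0 → w' ≠ 0 → v' ≠ w' → ∃ g ∈ H, (g : Matrix (Fin 4) (Fin 4) F).mulVec v = v' ∧ (g : Matrix (Fin 4) (Fin 4) F).mulVec w = w' := by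
  classical
  constructor
  · obtain ⟨φ, hφ⟩ := exists_hom7
    let e := ZMod.ringEquivOfPrime F Nat.prime_two hF
    let E : GL (Fin 4) (ZMod 2) ≃* GL (Fin 4) F := Units.mapEquiv (e.mapMatrix).toMulEquiv
    let ψ : alternatingGroup (Fin 7) →* GL (Fin 4) F := E.toMonoidHom.comp φ
    have hψ : Function.Injective ψ := fun x y h => hφ (E.injective h)
    exact ⟨ψ.range, ⟨(MonoidHom.ofInjective hψ).symm⟩⟩
  · rintro H ⟨e⟩ v w v' w' hv hw hvw hv' hw' hvw'
    have hcard : Nat.card H = 2520 := by rw [Nat.card_congr e.toEquiv, card_A7]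
    let H' : Subgroup ((Fin 4 → F) ≃ₗ[F] (Fin 4 → F)) := H.map (toGL (Fin 4) F).symm.toMonoidHom
    have eH : H ≃* H' := (toGL (Fin 4) F).symm.subgroupMap H
    have hcard' : Nat.card H' = 2520 := by rw [← Nat.card_congr eH.toEquiv, hcard]
    have hfin : Finite H' := by
      apply Nat.finite_of_card_ne_zero
      rw [hcard']
      norm_num
    have hV : Fintype.card (Fin 4 → F) = 16 := by
      simp [hF]
    obtain ⟨g', hg', h1, h2⟩ := two_trans hF hV H' (by rw [hcard']; norm_num) (by rw [hcard']; norm_num) (by rw [hcard']; norm_num)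
      v w v' w' hv hw hvw hv' hw' hvw'
    obtain ⟨g, hg, rfl⟩ := hg'
    refine ⟨g, hg, ?_, ?_⟩
    · rw [← h1]
      exact (toGL_symm_apply g v).symm
    · rw [← h2]
      exact (toGL_symm_apply g w).symm

end Cfsg.Agent.S2551
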