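import Cfsg.Statements.S2552

set_option autoImplicit false
set_option linter.unusedVariables false
open Cfsg

namespace Cfsg.Agent.S2552

theorem exists_det {F V : Type*} [Field F] [AddCommGroup V] [Module F V] [FiniteDimensional F V] (c : F) (hc : c ≠ 0)
    (v : V) (hv : v ≠ 0) : ∃ s : V ≃ₗ[F] V, LinearMap.det (s : V →ₗ[F] V) = c ∧ ∀ x, ∃ a : F, s x = x + a • v := by
  obtain ⟨f, hf⟩ := Module.Projective.exists_dual_eq_one F hv
  have hu : IsUnit (1 + ((c - 1) • f) v) := by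
    simp [hf, hc]
  refine ⟨LinearEquiv.dilatransvection hu, ?_, ?_⟩
  · rw [LinearEquiv.dilatransvection.coe_toLinearMap, LinearMap.transvection.det]
    simp [hf]
  · intro x
    exact ⟨_, LinearEquiv.dilatransvection.apply⟩

/-- Let F be a finite field and n ≥ 1. For every k, the special linear group SL_n(F) acts transitively on the set of k-dimensional subspaces of F^n: any two subspaces of the same dimension are carried onto each other by some matrix of determinant 1. -/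
theorem result {F : Type*} [Field F] [Fintype F] (n : ℕ) (hn : 1 ≤ n) (U₁ U₂ : Submodule F (Fin n → F)) (h : Module.finrank F U₁ = Module.finrank F U₂) : ∃ g : Matrix.SpecialLinearGroup (Fin n) F, U₁.map ((Matrix.SpecialLinearGroup.toLin' g : (Fin n → F) ≃ₗ[F] (Fin n → F)) : (Fin n → F) →ₗ[F] (Fin n → F)) = U₂ := by
  classical
  obtain ⟨W₁, hW₁⟩ := Submodule.exists_isCompl U₁
  obtain ⟨W₂, hW₂⟩ := Submodule.exists_isCompl U₂
  have hW : Module.finrank F W₁ = Module.finrank F W₂ := by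
    have h1 := Submodule.finrank_add_eq_of_isCompl hW₁
    have h2 := Submodule.finrank_add_eq_of_isCompl hW₂
    omega
  let e₁ : U₁ ≃ₗ[F] U₂ := LinearEquiv.ofFinrankEq _ _ h
  let e₂ : W₁ ≃ₗ[F] W₂ := LinearEquiv.ofFinrankEq _ _ hW
  let L : (Fin n → F) ≃ₗ[F] (Fin n → F) := (Submodule.prodEquivOfIsCompl U₁ W₁ hW₁).symm.trans
        ((LinearEquiv.prodCongr e₁ e₂).trans (Submodule.prodEquivOfIsCompl U₂ W₂ hW₂))
  have hL : U₁.map (L : (Fin n → F) →ₗ[F] (Fin n → F)) = U₂ := by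
    ext x
    simp only [Submodule.mem_map, L]
    constructor
    · rintro ⟨y, hy, rfl⟩
      have : (Submodule.prodEquivOfIsCompl U₁ W₁ hW₁).symm y = (⟨y, hy⟩, 0) := by
        rw [LinearEquiv.symm_apply_eq]
        simp
      simp [this]
    · intro hx
      refine ⟨(e₁.symm ⟨x, hx⟩ : U₁), Subtype.coe_prop _, ?_⟩
      simp
  -- choose a vector
  have hv : ∃ v : Fin n → F, v ≠ 0 ∧ (U₂ ≠ ⊥ → v ∈ U₂) := by
    by_cases hU : U₂ = ⊥
    · refine ⟨fun _ => 1, ?_, fun h => absurd hU h⟩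
      intro h0
      have := congrFun h0 ⟨0, hn⟩
      simp at this
    · obtain ⟨v, hv, hv0⟩ := Submodule.exists_mem_ne_zero_of_ne_bot hU
      exact ⟨v, hv0, fun _ => hv⟩
  obtain ⟨v, hv0, hvU⟩ := hv
  have hdetL : LinearMap.det (L : (Fin n → F) →ₗ[F] (Fin n → F)) ≠ 0 := (LinearEquiv.isUnit_det' L).ne_zero
  obtain ⟨s, hs, hsx⟩ := exists_det (LinearMap.det (L : (Fin n → F) →ₗ[F] (Fin n → F)))⁻¹ (inv_ne_zero hdetL) v hv0
  have hsU : U₂.map (s : (Fin n → F) →ₗ[F] (Fin n → F)) = U₂ := by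
    by_cases hU : U₂ = ⊥
    · rw [hU]; simp
    · have hle : U₂.map (s : (Fin n → F) →ₗ[F] (Fin n → F)) ≤ U₂ := by
        rintro _ ⟨x, hx, rfl⟩
        obtain ⟨a, ha⟩ := hsx x
        simp only [LinearEquiv.coe_coe, ha]
        exact U₂.add_mem hx (U₂.smul_mem a (hvU hU))
      apply Submodule.eq_of_le_of_finrank_eq hle
      exact LinearEquiv.finrank_map_eq s U₂
  let M : Matrix (Fin n) (Fin n) F := LinearMap.toMatrix' ((s : (Fin n → F) →ₗ[F] (Fin n → F)) ∘ₗ (L : (Fin n → F) →ₗ[F] (Fin n → F)))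
  have hM : M.det = 1 := by
    rw [LinearMap.det_toMatrix', LinearMap.det_comp, hs, inv_mul_cancel₀ hdetL]
  refine ⟨⟨M, hM⟩, ?_⟩
  change U₁.map (Matrix.toLin' M) = U₂
  simp only [M, Matrix.toLin'_toMatrix']
  rw [Submodule.map_comp, hL, hsU]

end Cfsg.Agent.S2552
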