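import Cfsg.Statements.S2561
import Cfsg.Agent.Lib.H47.F2Quad2

set_option autoImplicit false
set_option linter.unusedVariables false
open Cfsg

namespace Cfsg.Agent.S2561

open H47.F2Quad H47.F2Quad2

/-- Fix the non-singular alternating form on the 2m-dimensional space over the field of two elements obtained by polarizing the plus-type form Σ xᵢyᵢ (m ≥ 1). The functions q on the space with q(u + v) = q(u) + q(v) + f(u, v) (the quadratic forms polarizing to f) number 2^(2m); each is equivalent under an invertible linear map either to the plus-type form or to the minus-type form Σ xᵢyᵢ + (z₁² + z₁z₂ + z₂²); and those of plus type number 2^(2m−1) + 2^(m−1), those of minus type 2^(2m−1) − 2^(m−1). -/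
theorem result (m : ℕ) (hm : 1 ≤ m) :
    Nat.card {q : (Fin m ⊕ Fin m → ZMod 2) → ZMod 2 // (∀ u v : (Fin m ⊕ Fin m → ZMod 2), q (u + v) = q u + q v + (Cfsg.quadFormPlus m (ZMod 2) (u + v) - Cfsg.quadFormPlus m (ZMod 2) u - Cfsg.quadFormPlus m (ZMod 2) v))} = 2 ^ (2 * m) ∧
    (∀ q : (Fin m ⊕ Fin m → ZMod 2) → ZMod 2, (∀ u v : (Fin m ⊕ Fin m → ZMod 2), q (u + v) = q u + q v + (Cfsg.quadFormPlus m (ZMod 2) (u + v) - Cfsg.quadFormPlus m (ZMod 2) u - Cfsg.quadFormPlus m (ZMod 2) v)) →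
      (∃ g : (Fin m ⊕ Fin m → ZMod 2) ≃ₗ[ZMod 2] (Fin m ⊕ Fin m → ZMod 2), ∀ v, q v = Cfsg.quadFormPlus m (ZMod 2) (g v)) ∨
      (∃ g : (Fin m ⊕ Fin m → ZMod 2) ≃ₗ[ZMod 2] ((Fin (m - 1) ⊕ Fin (m - 1)) ⊕ Fin 2 → ZMod 2), ∀ v, q v = Cfsg.quadFormMinus (m - 1) (ZMod 2) 1 1 (g v))) ∧
    Nat.card {q : (Fin m ⊕ Fin m → ZMod 2) → ZMod 2 // (∀ u v : (Fin m ⊕ Fin m → ZMod 2), q (u + v) = q u + q v + (Cfsg.quadFormPlus m (ZMod 2) (u + v) - Cfsg.quadFormPlus m (ZMod 2) u - Cfsg.quadFormPlus m (ZMod 2) v)) ∧ ∃ g : (Fin m ⊕ Fin m → ZMod 2) ≃ₗ[ZMod 2] (Fin m ⊕ Fin m → ZMod 2), ∀ v, q v = Cfsg.quadFormPlus m (ZMod 2) (g v)} = 2 ^ (2 * m - 1) + 2 ^ (m - 1) ∧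
    Nat.card {q : (Fin m ⊕ Fin m → ZMod 2) → ZMod 2 // (∀ u v : (Fin m ⊕ Fin m → ZMod 2), q (u + v) = q u + q v + (Cfsg.quadFormPlus m (ZMod 2) (u + v) - Cfsg.quadFormPlus m (ZMod 2) u - Cfsg.quadFormPlus m (ZMod 2) v)) ∧ ∃ g : (Fin m ⊕ Fin m → ZMod 2) ≃ₗ[ZMod 2] ((Fin (m - 1) ⊕ Fin (m - 1)) ⊕ Fin 2 → ZMod 2), ∀ v, q v = Cfsg.quadFormMinus (m - 1) (ZMod 2) 1 1 (g v)} = 2 ^ (2 * m - 1) - 2 ^ (m - 1) := by
  obtain ⟨k, rfl⟩ : ∃ k, m = k + 1 := ⟨m - 1, by omega⟩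
  simp only [polar_eq]
  have e1 : 2 * (k + 1) - 1 = 2 * k + 1 := by omega
  have e2 : k + 1 - 1 = k := rfl
  have h4 : (4 : ℕ) ^ (k + 1) = 2 * 2 ^ (2 * k + 1) := by
    rw [show (4 : ℕ) = 2 ^ 2 from rfl, ← pow_mul, ← pow_succ']
    congr 1
  have h5 : (2 : ℕ) ^ (k + 1) = 2 * 2 ^ k := by rw [pow_succ']
  refine ⟨?_, ?_, ?_, ?_⟩
  · have h := card_forms (m := k + 1) (fun _ => True) (fun _ => True) (fun _ => Iff.rfl)
    have h2 : Nat.card {q : V (k + 1) → ZMod 2 // Pol q ∧ True} = Nat.card {q : V (k + 1) → ZMod 2 // Pol q} :=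
      Nat.card_congr (Equiv.subtypeEquivRight (fun q => by simp))
    have h3 : Nat.card {w : V (k + 1) // True} = Nat.card (V (k + 1)) :=
      Nat.card_congr (Equiv.subtypeUnivEquiv (fun _ => trivial))
    rw [h2, h3] at h
    refine Eq.trans h ?_
    rw [Nat.card_eq_fintype_card]
    simp [ZMod.card]
    ring
  · intro q hq
    exact isPlus_or_isMinus hq
  · have h := card_forms (m := k + 1) IsPlus (fun w => Q0 (k + 1) w = 0) isPlus_iff
    refine Eq.trans h ?_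
    have := (card_Q0 (k + 1)).1
    rw [e1, e2]
    omega
  · have h := card_forms (m := k + 1) IsMinus (fun w => Q0 (k + 1) w = 1) isMinus_iff
    refine Eq.trans h ?_
    have := (card_Q0 (k + 1)).2
    rw [e1, e2]
    omega

end Cfsg.Agent.S2561
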