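import Cfsg.Statements.S2562

set_option autoImplicit false
set_option linter.unusedVariables false
open Cfsg

namespace Cfsg.Agent.S2562

open Module

variable {F : Type*} [Field F] {n : ℕ}

/-- Two subspaces orthogonal under the standard dot product. -/
theorem finrank_add_le_of_dot (R S : Submodule F (Fin n → F)) (h : ∀ x ∈ R, ∀ y ∈ S, x ⬝ᵥ y = 0) :
    finrank F R + finrank F S ≤ n := by
  have h1 := Subspace.finrank_add_finrank_dualAnnihilator_eq R
  rw [Module.finrank_fin_fun] at h1
  let f : (Fin n → F) →ₗ[F] Module.Dual F (Fin n → F) :=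
    LinearMap.mk₂ F (fun y x => x ⬝ᵥ y) (fun a b c => dotProduct_add _ _ _) (fun a b c => dotProduct_smul _ _ _)
      (fun a b c => add_dotProduct _ _ _) (fun a b c => smul_dotProduct _ _ _)
  have hf : Function.Injective f := by
    rw [injective_iff_map_eq_zero]
    intro y hy
    ext i
    have := LinearMap.congr_fun hy (Pi.single i 1)
    simpa [f] using this
  have h2 : finrank F (S.map f) = finrank F S := (LinearEquiv.finrank_eq (Submodule.equivMapOfInjective f hf S)).symm
  have h3 : S.map f ≤ R.dualAnnihilator := by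
    rintro _ ⟨y, hy, rfl⟩
    rw [Submodule.mem_dualAnnihilator]
    intro x hx
    exact h x hx y hy
  have h4 := Submodule.finrank_mono h3
  omega

/-- general bound: totally singular subspaces of hyperbolic ⊥ anisotropic -/
theorem finrank_le_of_totally_singular {W : Type*} [AddCommGroup W] [Module F W] [FiniteDimensional F W]
    (px py : W →ₗ[F] (Fin n → F)) (U : Submodule F W)
    (hinj : ∀ u ∈ U, px u = 0 → py u = 0 → u = 0)
    (horth : ∀ u ∈ U, ∀ v ∈ U, px v = 0 → px u ⬝ᵥ py v = 0) : finrank F U ≤ n := by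
  have h1 := LinearMap.finrank_range_add_finrank_ker (px.domRestrict U)
  let K := LinearMap.ker (px.domRestrict U)
  let g : K →ₗ[F] (Fin n → F) := (py ∘ₗ U.subtype) ∘ₗ K.subtype
  have hg : Function.Injective g := by
    rw [injective_iff_map_eq_zero]
    intro u hu
    have hu1 : px ((u : U) : W) = 0 := u.2
    have := hinj ((u : U) : W) (u : U).2 hu1 hu
    exact Subtype.ext (Subtype.ext this)
  have h2 : finrank F (LinearMap.range g) = finrank F K := LinearMap.finrank_range_of_inj hg
  have h3 := finrank_add_le_of_dot (LinearMap.range (px.domRestrict U)) (LinearMap.range g) (by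
    rintro _ ⟨u, rfl⟩ _ ⟨v, rfl⟩
    exact horth u.1 u.2 _ (v : U).2 v.2)
  rw [h2] at h3
  have h4 : finrank F K = finrank F (LinearMap.ker (px.domRestrict U)) := rfl
  omega

theorem aniso : ∀ a b : ZMod 2, a ^ 2 + 1 * a * b + 1 * b ^ 2 = 0 → a = 0 ∧ b = 0 := by decide

/-- Witt indices over the field of two elements, m ≥ 1: for the plus-type form Σ xᵢyᵢ in dimension 2m some m-dimensional subspace is totally singular and no totally singular subspace has larger dimension; for the minus-type form Σ xᵢyᵢ + (z₁² + z₁z₂ + z₂²) in dimension 2m the maximal dimension of a totally singular subspace is m − 1. -/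
theorem result (m : ℕ) (hm : 1 ≤ m) :
    (∃ U : Submodule (ZMod 2) (Fin m ⊕ Fin m → ZMod 2), (∀ u ∈ U, Cfsg.quadFormPlus m (ZMod 2) u = 0) ∧ Module.finrank (ZMod 2) ↥U = m) ∧
    (∀ U : Submodule (ZMod 2) (Fin m ⊕ Fin m → ZMod 2), (∀ u ∈ U, Cfsg.quadFormPlus m (ZMod 2) u = 0) → Module.finrank (ZMod 2) ↥U ≤ m) ∧
    (∃ U : Submodule (ZMod 2) ((Fin (m - 1) ⊕ Fin (m - 1)) ⊕ Fin 2 → ZMod 2), (∀ u ∈ U, Cfsg.quadFormMinus (m - 1) (ZMod 2) 1 1 u = 0) ∧ Module.finrank (ZMod 2) ↥U = m - 1) ∧
    (∀ U : Submodule (ZMod 2) ((Fin (m - 1) ⊕ Fin (m - 1)) ⊕ Fin 2 → ZMod 2), (∀ u ∈ U, Cfsg.quadFormMinus (m - 1) (ZMod 2) 1 1 u = 0) → Module.finrank (ZMod 2) ↥U ≤ m - 1) := by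
  refine ⟨?_, ?_, ?_, ?_⟩
  · let e : (Fin m → ZMod 2) →ₗ[ZMod 2] (Fin m ⊕ Fin m → ZMod 2) :=
      LinearMap.pi (Sum.elim (fun i => LinearMap.proj i) (fun _ => 0))
    refine ⟨LinearMap.range e, ?_, ?_⟩
    · rintro _ ⟨x, rfl⟩
      simp [Cfsg.quadFormPlus, e]
    · rw [LinearMap.finrank_range_of_inj]
      · simp
      · intro x y hxy
        ext i
        have := congrFun hxy (Sum.inl i)
        simpa [e] using this
  · intro U hU
    let px : (Fin m ⊕ Fin m → ZMod 2) →ₗ[ZMod 2] (Fin m → ZMod 2) := LinearMap.funLeft _ _ Sum.inl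
    let py : (Fin m ⊕ Fin m → ZMod 2) →ₗ[ZMod 2] (Fin m → ZMod 2) := LinearMap.funLeft _ _ Sum.inr
    apply finrank_le_of_totally_singular px py U
    · intro u _ h1 h2
      ext i
      rcases i with i | i
      · exact congrFun h1 i
      · exact congrFun h2 i
    · intro u hu v hv hv0
      have h1 := hU _ (U.add_mem hu hv)
      have h2 := hU _ hu
      have h3 : ∀ i, v (Sum.inl i) = 0 := fun i => congrFun hv0 i
      unfold Cfsg.quadFormPlus at h1 h2
      simp only [Pi.add_apply, h3, add_zero, mul_add, Finset.sum_add_distrib, h2, zero_add] at h1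
      exact h1
  · let e : (Fin (m - 1) → ZMod 2) →ₗ[ZMod 2] ((Fin (m - 1) ⊕ Fin (m - 1)) ⊕ Fin 2 → ZMod 2) :=
      LinearMap.pi (Sum.elim (Sum.elim (fun i => LinearMap.proj i) (fun _ => 0)) (fun _ => 0))
    refine ⟨LinearMap.range e, ?_, ?_⟩
    · rintro _ ⟨x, rfl⟩
      simp [Cfsg.quadFormMinus, e]
    · rw [LinearMap.finrank_range_of_inj]
      · simp
      · intro x y hxy
        ext i
        have := congrFun hxy (Sum.inl (Sum.inl i))
        simpa [e] using this
  · intro U hU
    let px : ((Fin (m - 1) ⊕ Fin (m - 1)) ⊕ Fin 2 → ZMod 2) →ₗ[ZMod 2] (Fin (m - 1) → ZMod 2) :=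
      LinearMap.funLeft _ _ (fun i => Sum.inl (Sum.inl i))
    let py : ((Fin (m - 1) ⊕ Fin (m - 1)) ⊕ Fin 2 → ZMod 2) →ₗ[ZMod 2] (Fin (m - 1) → ZMod 2) :=
      LinearMap.funLeft _ _ (fun i => Sum.inl (Sum.inr i))
    -- the anisotropic coordinates vanish when px = 0
    have hz : ∀ u ∈ U, px u = 0 → u (Sum.inr 0) = 0 ∧ u (Sum.inr 1) = 0 := by
      intro u hu h1
      have h2 := hU u hu
      have h3 : ∀ i, u (Sum.inl (Sum.inl i)) = 0 := fun i => congrFun h1 i
      unfold Cfsg.quadFormMinus at h2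
      simp only [h3, zero_mul, Finset.sum_const_zero, zero_add] at h2
      exact aniso _ _ h2
    apply finrank_le_of_totally_singular px py U
    · intro u hu h1 h2
      obtain ⟨h3, h4⟩ := hz u hu h1
      ext i
      rcases i with (i | i) | i
      · exact congrFun h1 i
      · exact congrFun h2 i
      · fin_cases i
        · exact h3
        · exact h4
    · intro u hu v hv hv0
      have h1 := hU _ (U.add_mem hu hv)
      have h2 := hU _ hu
      obtain ⟨h4, h5⟩ := hz v hv hv0
      have h3 : ∀ i, v (Sum.inl (Sum.inl i)) = 0 := fun i => congrFun hv0 i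
      unfold Cfsg.quadFormMinus at h1 h2
      simp only [Pi.add_apply, h3, h4, h5, add_zero, mul_add, Finset.sum_add_distrib] at h1
      have h6 : ∑ i : Fin (m - 1), u (Sum.inl (Sum.inl i)) * v (Sum.inl (Sum.inr i)) = 0 := by
        linear_combination h1 - h2
      exact h6

end Cfsg.Agent.S2562
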