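import Cfsg.Statements.S2563
import Cfsg.Agent.Lib.H47.F2Sym

set_option autoImplicit false
set_option linter.unusedVariables false
open Cfsg

namespace Cfsg.Agent.S2563

open H47.F2Quad H47.F2Quad2 H47.IsoGrp H47.F2Sym

/-- For k ≥ 1 the symmetric group of degree 4k + 4 embeds in a full orthogonal group in dimension 4k + 2 over the field of two elements: in the isometry group of the plus-type form Σ xᵢyᵢ when k is odd, and in that of the minus-type form Σ xᵢyᵢ + (z₁² + z₁z₂ + z₂²) when k is even (through its action on even partitions of a (4k+4)-set, with the form 'half the size of a part, modulo 2'). -/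
theorem result (k : ℕ) (hk : 1 ≤ k) :
    (Odd k → ∃ φ : Equiv.Perm (Fin (4 * k + 4)) →* ↥(Cfsg.isometryGroup (ZMod 2) (Cfsg.quadFormPlus (2 * k + 1) (ZMod 2))), Function.Injective φ) ∧
    (Even k → ∃ φ : Equiv.Perm (Fin (4 * k + 4)) →* ↥(Cfsg.isometryGroup (ZMod 2) (Cfsg.quadFormMinus (2 * k) (ZMod 2) 1 1)), Function.Injective φ) := by
  obtain ⟨φ, hφ⟩ := exists_perm_hom_injective (m := 2 * k + 1) (by omega) (by omega)
  have e : 4 * k + 4 = 2 * (2 * k + 1) + 1 + 1 := by ring
  let ψ : Equiv.Perm (Fin (4 * k + 4)) ≃* Equiv.Perm (Fin (2 * (2 * k + 1) + 1 + 1)) := (finCongr e).permCongrHom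
  constructor
  · intro hodd
    have h1 : Q0 (2 * k + 1) (ww (2 * k + 1)) = 0 := by
      rw [Q0_ww]
      have : (((k + 1 : ℕ)) : ZMod 2) = 0 := by
        rw [ZMod.natCast_eq_zero_iff_even]
        exact hodd.add_one
      exact_mod_cast this
    obtain ⟨g, hg⟩ := (isPlus_iff (ww (2 * k + 1))).mpr h1
    let τ := (transport (q := qq (2 * k + 1)) (q' := Cfsg.quadFormPlus (2 * k + 1) (ZMod 2)) g hg).trans (isoEquiv (Cfsg.quadFormPlus (2 * k + 1) (ZMod 2)))
    refine ⟨(τ.toMonoidHom.comp φ).comp ψ.toMonoidHom, ?_⟩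
    intro x y hxy
    exact ψ.injective (hφ (τ.injective hxy))
  · intro heven
    have h1 : Q0 (2 * k + 1) (ww (2 * k + 1)) = 1 := by
      rw [Q0_ww]
      have : ((k : ℕ) : ZMod 2) = 0 := by
        rw [ZMod.natCast_eq_zero_iff_even]
        exact heven
      rw [this, zero_add]
    obtain ⟨g, hg⟩ := (isMinus_iff (ww (2 * k + 1))).mpr h1
    let τ := (transport (q := qq (2 * k + 1)) (q' := Cfsg.quadFormMinus (2 * k) (ZMod 2) 1 1) g hg).trans (isoEquiv (Cfsg.quadFormMinus (2 * k) (ZMod 2) 1 1))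
    refine ⟨(τ.toMonoidHom.comp φ).comp ψ.toMonoidHom, ?_⟩
    intro x y hxy
    exact ψ.injective (hφ (τ.injective hxy))

end Cfsg.Agent.S2563
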