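import Cfsg.Statements.S2566
import Cfsg.Agent.Lib.H47.F2Sym
import Cfsg.Agent.Lib.H47.F2Ord

set_option autoImplicit false
set_option linter.unusedVariables false
open Cfsg

namespace Cfsg.Agent.S2566

open H47.F2Quad H47.F2Quad2 H47.IsoGrp H47.F2Sym H47.F2Ord H47.SymCox

theorem center_perm3 : ∀ σ : Equiv.Perm (Fin 3), (∀ τ : Equiv.Perm (Fin 3), σ * τ = τ * σ) → σ = 1 := by decide

theorem abstract_wreath {G : Type*} [Group G] [Finite G] (hG : Nat.card G ≤ 72) (φA φB : Equiv.Perm (Fin 3) →* G)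
    (hA : Function.Injective φA) (hB : Function.Injective φB) (hcomm : ∀ σ τ, φA σ * φB τ = φB τ * φA σ)
    (g : G) (hg : ∀ σ, g * φA σ * g⁻¹ = φB σ) :
    Nat.card G = 72 ∧ ∃ (A B : Subgroup G),
      Nonempty (↥A ≃* Equiv.Perm (Fin 3)) ∧ Nonempty (↥B ≃* Equiv.Perm (Fin 3)) ∧ A ⊓ B = ⊥ ∧ (∀ a ∈ A, ∀ b ∈ B, a * b = b * a) ∧
      (A ⊔ B).index = 2 ∧ ∃ g : G, A.map (MulAut.conj g).toMonoidHom = B := by
  have hinf : ∀ σ τ, φA σ = φB τ → σ = 1 := by
    intro σ τ h
    apply center_perm3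
    intro ρ
    apply hA
    rw [map_mul, map_mul, h, hcomm]
  have hinter : φA.range ⊓ φB.range = ⊥ := by
    rw [eq_bot_iff]
    rintro x ⟨⟨σ, rfl⟩, ⟨τ, hτ⟩⟩
    rw [hinf σ τ hτ.symm, map_one]
    exact one_mem _
  let Φ := φA.noncommCoprod φB (fun m n => hcomm m n)
  have hΦ : Function.Injective Φ := by
    rw [injective_iff_map_eq_one]
    rintro ⟨σ, τ⟩ h
    have h1 : φA σ * φB τ = 1 := h
    have h2 : φA σ = φB τ⁻¹ := by rw [map_inv]; exact eq_inv_of_mul_eq_one_left h1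
    have h3 := hinf _ _ h2
    rw [h3, map_one, one_mul] at h1
    have h4 : τ = 1 := hB (by rw [h1, map_one])
    rw [h3, h4]
    rfl
  have hrange : Φ.range = φA.range ⊔ φB.range := MonoidHom.noncommCoprod_range _ _ _
  have hcardp : Nat.card (Equiv.Perm (Fin 3) × Equiv.Perm (Fin 3)) = 36 := by
    rw [Nat.card_prod, Nat.card_eq_fintype_card, Fintype.card_perm, Fintype.card_fin]
    rfl
  have hcard : Nat.card (φA.range ⊔ φB.range : Subgroup G) = 36 := by
    rw [← hrange, ← hcardp]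
    exact (Nat.card_congr (Equiv.ofInjective Φ hΦ)).symm
  have hmul := Subgroup.card_mul_index (φA.range ⊔ φB.range : Subgroup G)
  rw [hcard] at hmul
  have hidx : (φA.range ⊔ φB.range : Subgroup G).index = 2 := by
    have hle : (φA.range ⊔ φB.range : Subgroup G).index ≤ 2 := by omega
    have hpos : (φA.range ⊔ φB.range : Subgroup G).index ≠ 0 := Subgroup.index_ne_zero_of_finite
    have hne : (φA.range ⊔ φB.range : Subgroup G).index ≠ 1 := by
      intro h1
      rw [Subgroup.index_eq_one, ← hrange] at h1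
      have hgm : g ∈ Φ.range := by rw [h1]; trivial
      obtain ⟨⟨σ, τ⟩, h⟩ := hgm
      have h2 : φA σ * φB τ = g := h
      let ρ : Equiv.Perm (Fin 3) := Equiv.swap 0 1
      have h3 : φA (σ * ρ * σ⁻¹) = φB ρ := by
        rw [← hg ρ, ← h2]
        calc φA (σ * ρ * σ⁻¹) = φA σ * φA ρ * (φA σ)⁻¹ := by rw [map_mul, map_mul, map_inv]
          _ = φA σ * (φA ρ * φB τ * (φB τ)⁻¹) * (φA σ)⁻¹ := by group
          _ = φA σ * (φB τ * φA ρ * (φB τ)⁻¹) * (φA σ)⁻¹ := by rw [hcomm]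
          _ = φA σ * φB τ * φA ρ * (φA σ * φB τ)⁻¹ := by group
      have h4 := hinf _ _ h3
      have h5 : σ * ρ * σ⁻¹ ≠ 1 := by
        rw [ne_eq, conj_eq_one_iff]
        decide
      exact h5 h4
    omega
  refine ⟨by omega, φA.range, φB.range, ⟨(MonoidHom.ofInjective hA).symm⟩, ⟨(MonoidHom.ofInjective hB).symm⟩, hinter, ?_, hidx, g, ?_⟩
  · rintro _ ⟨σ, rfl⟩ _ ⟨τ, rfl⟩
    exact hcomm σ τ
  · ext x
    constructor
    · rintro ⟨_, ⟨σ, rfl⟩, rfl⟩
      exact ⟨σ, (hg σ).symm⟩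
    · rintro ⟨σ, rfl⟩
      exact ⟨φA σ, ⟨σ, rfl⟩, hg σ⟩

/-- a homomorphism `S₃ → O₄⁺(2)` -/
theorem exists_s3 (a b : V 2) (ha : Q0 2 a = 1) (hb : Q0 2 b = 1) (hab : f a b = 1) :
    ∃ φ : Equiv.Perm (Fin 3) →* linIsom (ZMod 2) (Q0 2),
      ((φ (Equiv.swap 0 1) : linIsom (ZMod 2) (Q0 2)) : V 2 ≃ₗ[ZMod 2] V 2) = tv a ∧
      ((φ (Equiv.swap 1 2) : linIsom (ZMod 2) (Q0 2)) : V 2 ≃ₗ[ZMod 2] V 2) = tv b ∧ Function.Injective φ := by
  let t : Fin 2 → linIsom (ZMod 2) (Q0 2) := ![⟨tv a, pol_Q0.tv_of_one ha⟩, ⟨tv b, pol_Q0.tv_of_one hb⟩]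
  have hr : RelF t := by
    refine ⟨?_, ?_, ?_⟩
    · intro i
      fin_cases i
      · exact Subtype.ext (tv_sq _)
      · exact Subtype.ext (tv_sq _)
    · intro i j hij
      have := j.2
      omega
    · intro i j hij
      have h1 := j.2
      obtain rfl : i = 0 := by ext; simp; omega
      obtain rfl : j = 1 := by ext; simp; omega
      exact Subtype.ext (tv_braid hab)
  obtain ⟨φ, hφ⟩ := exists_hom t hr
  have h0 : ((φ (Equiv.swap 0 1) : linIsom (ZMod 2) (Q0 2)) : V 2 ≃ₗ[ZMod 2] V 2) = tv a := congrArg Subtype.val (hφ 0)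
  have h1 : ((φ (Equiv.swap 1 2) : linIsom (ZMod 2) (Q0 2)) : V 2 ≃ₗ[ZMod 2] V 2) = tv b := congrArg Subtype.val (hφ 1)
  refine ⟨φ, h0, h1, ?_⟩
  -- injectivity: the product of the two generators has order 3
  have hker : ∀ σ : Equiv.Perm (Fin 3), φ σ = 1 → σ = 1 := by
    have key : ∀ σ : Equiv.Perm (Fin 3), σ = 1 ∨ σ = Equiv.swap 0 1 ∨ σ = Equiv.swap 1 2 ∨
        σ = Equiv.swap 0 1 * Equiv.swap 1 2 * Equiv.swap 0 1 ∨ σ = Equiv.swap 0 1 * Equiv.swap 1 2 ∨
        σ = Equiv.swap 1 2 * Equiv.swap 0 1 := by decide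
    have hne_a : tv a ≠ 1 := by
      intro h
      have := LinearEquiv.congr_fun h b
      rw [tv_apply, f_comm, hab, one_smul] at this
      change b + a = b at this
      rw [add_eq_left] at this
      rw [this] at ha
      rw [pol_Q0.zero] at ha
      exact zero_ne_one ha
    have hne_b : tv b ≠ 1 := by
      intro h
      have := LinearEquiv.congr_fun h a
      rw [tv_apply, hab, one_smul] at this
      change a + b = a at this
      rw [add_eq_left] at this
      rw [this] at hb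
      rw [pol_Q0.zero] at hb
      exact zero_ne_one hb
    have hne_ab : tv a ≠ tv b := by
      intro h
      have := LinearEquiv.congr_fun h a
      rw [tv_apply, tv_apply, f_self, zero_smul, hab, one_smul, add_left_cancel_iff] at this
      rw [← this, pol_Q0.zero] at hb
      exact zero_ne_one hb
    intro σ hσ
    rcases key σ with h | h | h | h | h | h
    · exact h
    · rw [h] at hσ
      rw [hσ] at h0
      exact absurd h0.symm hne_a
    · rw [h] at hσ
      rw [hσ] at h1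
      exact absurd h1.symm hne_b
    · rw [h, map_mul, map_mul] at hσ
      have h2 := congrArg Subtype.val hσ
      have h3 : tv a * tv b * tv a = 1 := by rw [← h0, ← h1]; exact h2
      have h4 : tv b = 1 := by
        calc tv b = (tv a * tv a) * tv b * (tv a * tv a) := by rw [tv_sq, one_mul, mul_one]
          _ = tv a * (tv a * tv b * tv a) * tv a := by simp only [mul_assoc]
          _ = 1 := by rw [h3, mul_one, tv_sq]
      exact absurd h4 hne_b
    · rw [h, map_mul] at hσ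
      have h2 := congrArg Subtype.val hσ
      have h3 : tv a * tv b = 1 := by rw [← h0, ← h1]; exact h2
      exact absurd (mul_left_cancel (h3.trans (tv_sq a).symm)).symm hne_ab
    · rw [h, map_mul] at hσ
      have h2 := congrArg Subtype.val hσ
      have h3 : tv b * tv a = 1 := by rw [← h0, ← h1]; exact h2
      exact absurd (mul_left_cancel (h3.trans (tv_sq b).symm)) hne_ab
  exact (injective_iff_map_eq_one φ).mpr hker

theorem closure_s3 : Subgroup.closure ({Equiv.swap 0 1, Equiv.swap 1 2} : Set (Equiv.Perm (Fin 3))) = ⊤ := by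
  rw [eq_top_iff]
  intro σ _
  have key : ∀ σ : Equiv.Perm (Fin 3), σ = 1 ∨ σ = Equiv.swap 0 1 ∨ σ = Equiv.swap 1 2 ∨
      σ = Equiv.swap 0 1 * Equiv.swap 1 2 * Equiv.swap 0 1 ∨ σ = Equiv.swap 0 1 * Equiv.swap 1 2 ∨
      σ = Equiv.swap 1 2 * Equiv.swap 0 1 := by decide
  have h0 : Equiv.swap 0 1 ∈ Subgroup.closure ({Equiv.swap 0 1, Equiv.swap 1 2} : Set (Equiv.Perm (Fin 3))) :=
    Subgroup.subset_closure (by simp)
  have h1 : Equiv.swap 1 2 ∈ Subgroup.closure ({Equiv.swap 0 1, Equiv.swap 1 2} : Set (Equiv.Perm (Fin 3))) :=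
    Subgroup.subset_closure (by simp)
  rcases key σ with h | h | h | h | h | h <;> rw [h]
  · exact one_mem _
  · exact h0
  · exact h1
  · exact mul_mem (mul_mem h0 h1) h0
  · exact mul_mem h0 h1
  · exact mul_mem h1 h0

/-- vectors -/
def mk4 (a b c d : ZMod 2) : V 2 := Sum.elim ![a, b] ![c, d]

theorem Q0_mk4 (a b c d : ZMod 2) : Q0 2 (mk4 a b c d) = a * c + b * d := by
  simp [Q0, Cfsg.quadFormPlus, mk4, Fin.sum_univ_two]

theorem f_mk4 (a b c d a' b' c' d' : ZMod 2) : f (mk4 a b c d) (mk4 a' b' c' d') = a * c' + c * a' + (b * d' + d * b') := by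
  simp [f, mk4, Fin.sum_univ_two]

/-- the coordinate swap -/
noncomputable def sw : V 2 ≃ₗ[ZMod 2] V 2 :=
  LinearEquiv.funCongrLeft (ZMod 2) (ZMod 2) (Equiv.sumCongr (Equiv.swap 0 1) (Equiv.swap 0 1))

theorem sw_inl (v : V 2) (i : Fin 2) : sw v (.inl i) = v (.inl (Equiv.swap 0 1 i)) := rfl
theorem sw_inr (v : V 2) (i : Fin 2) : sw v (.inr i) = v (.inr (Equiv.swap 0 1 i)) := rfl

theorem sw_isom (v : V 2) : Q0 2 (sw v) = Q0 2 v := by
  simp only [Q0, Cfsg.quadFormPlus, Fin.sum_univ_two, sw_inl, sw_inr, Equiv.swap_apply_left, Equiv.swap_apply_right]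
  ring

theorem sw_mk4 (a b c d : ZMod 2) : sw (mk4 a b c d) = mk4 b a d c := by
  ext i
  rcases i with i | i
  · rw [sw_inl]; fin_cases i <;> simp [mk4]
  · rw [sw_inr]; fin_cases i <;> simp [mk4]

theorem sw_sw (v : V 2) : sw (sw v) = v := by
  ext i
  rcases i with i | i
  · rw [sw_inl, sw_inl]; simp
  · rw [sw_inr, sw_inr]; simp

theorem sw_conj (w : V 2) : sw * tv w * sw⁻¹ = tv (sw w) := by
  rw [mul_inv_eq_iff_eq_mul]
  ext v : 1
  rw [LinearEquiv.mul_apply, LinearEquiv.mul_apply, tv_apply, tv_apply, map_add, map_smul]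
  congr 2
  exact (f_isom ⟨sw, sw_isom⟩ v w).symm

theorem result :
    Nat.card ↥(Cfsg.isometryGroup (ZMod 2) (Cfsg.quadFormPlus 2 (ZMod 2))) = 72 ∧
    ∃ (A B : Subgroup ↥(Cfsg.isometryGroup (ZMod 2) (Cfsg.quadFormPlus 2 (ZMod 2)))),
      Nonempty (↥A ≃* Equiv.Perm (Fin 3)) ∧ Nonempty (↥B ≃* Equiv.Perm (Fin 3)) ∧ A ⊓ B = ⊥ ∧ (∀ a ∈ A, ∀ b ∈ B, a * b = b * a) ∧
      (A ⊔ B).index = 2 ∧ ∃ g : ↥(Cfsg.isometryGroup (ZMod 2) (Cfsg.quadFormPlus 2 (ZMod 2))), A.map (MulAut.conj g).toMonoidHom = B := by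
  have hfin : Finite (linIsom (ZMod 2) (Q0 2)) :=
    Finite.of_injective (fun g : linIsom (ZMod 2) (Q0 2) => (g : V 2 → V 2))
      (fun g h hgh => Subtype.ext (LinearEquiv.ext (fun v => congrFun hgh v)))
  let E := isoEquiv (F := ZMod 2) (Q0 2)
  have hfin2 : Finite ↥(Cfsg.isometryGroup (ZMod 2) (Cfsg.quadFormPlus 2 (ZMod 2))) := Finite.of_equiv _ E.toEquiv
  have hcard : Nat.card ↥(Cfsg.isometryGroup (ZMod 2) (Cfsg.quadFormPlus 2 (ZMod 2))) ≤ 72 := by
    rw [← Nat.card_congr E.toEquiv]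
    exact card_two_le
  -- the vectors
  obtain ⟨φA, hA0, hA1, hAi⟩ := exists_s3 (mk4 1 0 1 0) (mk4 1 1 0 1) (by rw [Q0_mk4]; decide) (by rw [Q0_mk4]; decide) (by rw [f_mk4]; decide)
  obtain ⟨φB, hB0, hB1, hBi⟩ := exists_s3 (mk4 0 1 0 1) (mk4 1 1 1 0) (by rw [Q0_mk4]; decide) (by rw [Q0_mk4]; decide) (by rw [f_mk4]; decide)
  have hcomm : ∀ σ τ, φA σ * φB τ = φB τ * φA σ := by
    have hAB : ∀ x ∈ ({Equiv.swap 0 1, Equiv.swap 1 2} : Set (Equiv.Perm (Fin 3))), ∀ y ∈ ({Equiv.swap 0 1, Equiv.swap 1 2} : Set (Equiv.Perm (Fin 3))),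
        φA x * φB y = φB y * φA x := by
      rintro x (rfl | rfl) y (rfl | rfl) <;> apply Subtype.ext <;> rw [Subgroup.coe_mul, Subgroup.coe_mul] <;>
        simp only [hA0, hA1, hB0, hB1] <;> apply tv_comm <;> rw [f_mk4] <;> decide
    have h1 : ∀ σ, ∀ y ∈ ({Equiv.swap 0 1, Equiv.swap 1 2} : Set (Equiv.Perm (Fin 3))), φA σ * φB y = φB y * φA σ := by
      intro σ y hy
      have hσ : σ ∈ Subgroup.closure ({Equiv.swap 0 1, Equiv.swap 1 2} : Set (Equiv.Perm (Fin 3))) := by rw [closure_s3]; trivial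
      induction hσ using Subgroup.closure_induction with
      | mem x hx => exact hAB x hx y hy
      | one => rw [map_one, one_mul, mul_one]
      | mul a b _ _ iha ihb => rw [map_mul, mul_assoc, ihb, ← mul_assoc, iha, mul_assoc]
      | inv a _ iha =>
        rw [map_inv]
        exact (Commute.inv_left (show Commute (φA a) (φB y) from iha)).eq
    intro σ τ
    have hτ : τ ∈ Subgroup.closure ({Equiv.swap 0 1, Equiv.swap 1 2} : Set (Equiv.Perm (Fin 3))) := by rw [closure_s3]; trivial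
    induction hτ using Subgroup.closure_induction with
    | mem x hx => exact h1 σ x hx
    | one => rw [map_one, one_mul, mul_one]
    | mul a b _ _ iha ihb => rw [map_mul, ← mul_assoc, iha, mul_assoc, ihb, mul_assoc]
    | inv a _ iha =>
      rw [map_inv]
      exact (Commute.inv_right (show Commute (φA σ) (φB a) from iha)).eq
  let g0 : linIsom (ZMod 2) (Q0 2) := ⟨sw, sw_isom⟩
  have hg0 : ∀ σ, g0 * φA σ * g0⁻¹ = φB σ := by
    have hAB : ∀ x ∈ ({Equiv.swap 0 1, Equiv.swap 1 2} : Set (Equiv.Perm (Fin 3))), g0 * φA x * g0⁻¹ = φB x := by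
      rintro x (rfl | rfl) <;> apply Subtype.ext <;> rw [Subgroup.coe_mul, Subgroup.coe_mul] <;>
        simp only [hA0, hA1, hB0, hB1]
      · change sw * tv (mk4 1 0 1 0) * sw⁻¹ = _
        rw [sw_conj, sw_mk4]
      · change sw * tv (mk4 1 1 0 1) * sw⁻¹ = _
        rw [sw_conj, sw_mk4]
    intro σ
    have hσ : σ ∈ Subgroup.closure ({Equiv.swap 0 1, Equiv.swap 1 2} : Set (Equiv.Perm (Fin 3))) := by rw [closure_s3]; trivial
    induction hσ using Subgroup.closure_induction with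
    | mem x hx => exact hAB x hx
    | one => rw [map_one, map_one, mul_one, mul_inv_cancel]
    | mul a b _ _ iha ihb => rw [map_mul, map_mul, ← iha, ← ihb]; group
    | inv a _ iha => rw [map_inv, map_inv, ← iha]; group
  refine abstract_wreath hcard (E.toMonoidHom.comp φA) (E.toMonoidHom.comp φB) (fun x y h => hAi (E.injective h)) (fun x y h => hBi (E.injective h)) ?_ (E g0) ?_
  · intro σ τ
    change E (φA σ) * E (φB τ) = E (φB τ) * E (φA σ)
    rw [← map_mul, hcomm, map_mul]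
  · intro σ
    change E g0 * E (φA σ) * (E g0)⁻¹ = E (φB σ)
    rw [← map_mul, ← map_inv, ← map_mul, hg0]

end Cfsg.Agent.S2566
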