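import Cfsg.Statements.S2567

set_option autoImplicit false
set_option linter.unusedVariables false
open Cfsg

namespace Cfsg.Agent.S2567

/-- Lifting elements of prime order from PGL to GL: let F be a finite field with q elements, r a prime not dividing q − 1, and x an element of order r in GL_n(F) modulo its centre (the scalar matrices). Then x has exactly one preimage in GL_n(F) of order r. -/
theorem result {F : Type*} [Field F] [Fintype F] {q n r : ℕ} (hF : Fintype.card F = q) (hr : r.Prime) (hdiv : ¬ r ∣ q - 1) (x : GL (Fin n) F ⧸ Subgroup.center (GL (Fin n) F)) (hx : orderOf x = r) : ∃! g : GL (Fin n) F, (QuotientGroup.mk g : GL (Fin n) F ⧸ Subgroup.center (GL (Fin n) F)) = x ∧ orderOf g = r := by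
  classical
  have hexp : ∀ z ∈ Subgroup.center (GL (Fin n) F), z ^ (q - 1) = 1 := by
    intro z hz
    rw [Matrix.GeneralLinearGroup.center_eq_range_scalar] at hz
    obtain ⟨u, rfl⟩ := hz
    rw [← map_pow]
    have : u ^ (q - 1) = 1 := by
      have := pow_card_eq_one' (x := u)
      rwa [Nat.card_eq_fintype_card, Fintype.card_units, hF] at this
    rw [this, map_one]
  have hcop : IsCoprime ((q - 1 : ℕ) : ℤ) (r : ℤ) := by
    rw [Nat.isCoprime_iff_coprime]
    exact ((Nat.Prime.coprime_iff_not_dvd hr).mpr hdiv).symm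
  obtain ⟨a, b, hab⟩ := hcop
  have hroot : ∀ z ∈ Subgroup.center (GL (Fin n) F), (z ^ b) ^ r = z := by
    intro z hz
    have h1 : z ^ (a * ((q - 1 : ℕ) : ℤ) + b * (r : ℤ)) = z := by rw [hab, zpow_one]
    rw [zpow_add, mul_comm a, zpow_mul, zpow_natCast, hexp z hz, one_zpow, one_mul, zpow_mul, zpow_natCast] at h1
    exact h1
  obtain ⟨g0, rfl⟩ := QuotientGroup.mk_surjective x
  have hg0 : g0 ^ r ∈ Subgroup.center (GL (Fin n) F) := by
    rw [← QuotientGroup.eq_one_iff, QuotientGroup.mk_pow, ← hx, pow_orderOf_eq_one]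
  set z := ((g0 ^ r)⁻¹) ^ b with hz
  have hzc : z ∈ Subgroup.center (GL (Fin n) F) := Subgroup.zpow_mem _ (Subgroup.inv_mem _ hg0) b
  have hzr : z ^ r = (g0 ^ r)⁻¹ := hroot _ (Subgroup.inv_mem _ hg0)
  have hcomm : Commute g0 z := (Subgroup.mem_center_iff.mp hzc g0)
  have hmk : (QuotientGroup.mk (g0 * z) : GL (Fin n) F ⧸ Subgroup.center (GL (Fin n) F)) = QuotientGroup.mk g0 := by
    rw [QuotientGroup.mk_mul, (QuotientGroup.eq_one_iff z).mpr hzc, mul_one]
  refine ⟨g0 * z, ⟨hmk, ?_⟩, ?_⟩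
  · apply orderOf_eq_prime_iff (hp := ⟨hr⟩) |>.mpr
    constructor
    · rw [hcomm.mul_pow, hzr, mul_inv_cancel]
    · intro h1
      rw [h1] at hmk
      rw [← hmk] at hx
      rw [QuotientGroup.mk_one, orderOf_one] at hx
      exact hr.one_lt.ne hx
  · rintro g ⟨hg, hgo⟩
    have h1 : (g0 * z)⁻¹ * g ∈ Subgroup.center (GL (Fin n) F) := by
      rw [← QuotientGroup.eq, hmk, hg]
    set w := (g0 * z)⁻¹ * g with hw
    have hgw : g = (g0 * z) * w := by rw [hw]; group
    have hcomm2 : Commute (g0 * z) w := (Subgroup.mem_center_iff.mp h1 _)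
    have h2 : w ^ r = 1 := by
      have : g ^ r = 1 := by rw [← hgo, pow_orderOf_eq_one]
      rw [hgw, hcomm2.mul_pow, hcomm.mul_pow, hzr, mul_inv_cancel, one_mul] at this
      exact this
    have h3 : w = 1 := by
      rw [← hroot w h1, ← zpow_natCast, ← zpow_mul, mul_comm, zpow_mul, zpow_natCast, h2, one_zpow]
    rw [hgw, h3, mul_one]

end Cfsg.Agent.S2567
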