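import Cfsg.Statements.S2568
import Cfsg.Agent.Lib.H49.GLClasses

set_option autoImplicit false
open Cfsg

namespace Cfsg.Agent.S2568

open H49.RootMult H49.RootCount H49.RootGroup H49.GLClasses

/-- Number of conjugacy classes of elements of a given prime order r, coprime to the characteristic, in GL_n(q): if i is the multiplicative order of q modulo r and t = (r − 1)/i, the classes correspond to the non-zero t-tuples of natural numbers (a_1, …, a_t) with i(a_1 + ⋯ + a_t) ≤ n (a_j is the multiplicity of the j-th Frobenius orbit of nontrivial r-th roots of unity among the eigenvalues), so there are exactly C(⌊n/i⌋ + t, t) − 1 of them. -/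
theorem result {F : Type*} [Field F] [Fintype F] {p q : ℕ} [Fact p.Prime] [CharP F p] (hF : Fintype.card F = q) (n r i t : ℕ) (hr : r.Prime) (hrp : r ≠ p) (hi : i = orderOf (q : ZMod r)) (ht : t * i = r - 1) : Nat.card {C : ConjClasses (GL (Fin n) F) // ∃ g : GL (Fin n) F, ConjClasses.mk g = C ∧ orderOf g = r} = Nat.choose (n / i + t) t - 1 := by
  have : Fact r.Prime := ⟨hr⟩
  have hrF : (r : F) ≠ 0 := cast_ne_zero_of_ne hr hrp
  obtain ⟨ζ, hζ⟩ := exists_primitive (K := F) hrF
  set φ := algebraMap F (AlgebraicClosure F) with hφ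
  have hqF : Nat.card F = q := by rw [Nat.card_eq_fintype_card, hF]
  have hq0 : (q : ZMod r) ≠ 0 := by
    have := card_ne_zero' (K := F) φ hζ
    rwa [hqF] at this
  set H := Subgroup.zpowers (Units.mk0 (q : ZMod r) hq0) with hH
  have hHc : Nat.card H = i := by rw [hH, card_zpowers_mk0, hi]
  have hT : t * Nat.card H = r - 1 := by rw [hHc, ht]
  have hcount := ncard_nontriv H n t hT
  rw [hHc] at hcount
  rw [← hcount]
  have hpow : ∀ g : GL (Fin n) F, g ^ r = 1 → ((g : Matrix (Fin n) (Fin n) F)) ^ r = 1 := by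
    intro g hg
    rw [← Units.val_pow_eq_pow_val, hg, Units.val_one]
  refine card_classes (fun (g : GL (Fin n) F) k => rm φ ζ (g : Matrix (Fin n) (Fin n) F) k) _
    ((finite_Inv H n).subset fun m hm => hm.1) ?_ ?_ ?_ ?_
  · intro g hg hg1
    refine ⟨(mem_Inv_zpowers _ _ _).mpr ⟨fun k => ?_, ?_⟩, ?_⟩
    · have := rm_frob (K := F) φ hζ (g : Matrix (Fin n) (Fin n) F) k
      rwa [hqF] at this
    · have := sum_rm hζ (φ := φ) (g : Matrix (Fin n) (Fin n) F) (hpow g hg)
      rwa [Fintype.card_fin] at this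
    · intro h
      apply hg1
      apply Units.ext
      have := (eq_one_iff_rm (φ := φ) hζ (g : Matrix (Fin n) (Fin n) F) (hpow g hg)).mpr
        (by rw [Fintype.card_fin]; exact h)
      rw [this]; rfl
  · rintro m ⟨hm, hm1⟩
    obtain ⟨hm2, hm3⟩ := (mem_Inv_zpowers _ _ _).mp hm
    obtain ⟨A, hA, hAm⟩ := exists_matrix' (K := F) (ι := Fin n) φ hζ m
      (by rw [hqF]; exact hm2) (by rw [Fintype.card_fin]; exact hm3)
    obtain ⟨g, hg, hgr⟩ := exists_unit hr.one_le hA
    refine ⟨g, hgr, ?_, ?_⟩
    · rintro rfl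
      apply hm1
      have := (eq_one_iff_rm (φ := φ) hζ A hA).mp hg.symm
      rw [Fintype.card_fin] at this
      rw [← this]
      funext k
      exact (hAm k).symm
    · funext k
      change rm φ ζ (g : Matrix (Fin n) (Fin n) F) k = m k
      rw [hg, hAm]
  · intro g h hg hh _ _ he
    exact isConj_units.mpr (isConj_of_rm hζ (hpow g hg) (hpow h hh) fun k => congrFun he k)
  · intro g h _ _ hc
    funext k
    exact rm_conj (isConj_units.mp hc) k

end Cfsg.Agent.S2568
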