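import Cfsg.Statements.S2569
import Cfsg.Agent.Lib.H47.SemiDet
import Cfsg.Agent.Lib.H47.IsoGrp

set_option autoImplicit false
set_option linter.unusedVariables false
open Cfsg

namespace Cfsg.Agent.S2569

open H47.IsoGrp H47.SemiDet

/-- In GL_n over a finite field of characteristic p, the conjugacy class of a semisimple element (an element of order prime to p) under the special linear group is its whole GL-conjugacy class: for every such x and every invertible g there is h of determinant one with h x h⁻¹ = g x g⁻¹. -/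
theorem result {F : Type*} [Field F] [Fintype F] {p : ℕ} [Fact p.Prime] [CharP F p] {n : ℕ} (x g : GL (Fin n) F) (hx : (orderOf x).Coprime p) : ∃ h : GL (Fin n) F, (h : Matrix (Fin n) (Fin n) F).det = 1 ∧ h * x * h⁻¹ = g * x * g⁻¹ := by
  rcases Nat.eq_zero_or_pos n with hn | hn
  · subst hn
    exact ⟨g, by simp, rfl⟩
  · have : Nonempty (Fin n) := ⟨⟨0, hn⟩⟩
    let e : (Fin n → F) ≃ₗ[F] (Fin n → F) := (toGL (Fin n) F).symm x
    have hm : ((orderOf x : ℕ) : F) ≠ 0 := by
      rw [ne_eq, CharP.cast_eq_zero_iff F p]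
      intro hd
      have h1 := Nat.Coprime.eq_one_of_dvd hx.symm hd
      exact (Fact.out : p.Prime).one_lt.ne' h1
    have hpow : ((e : (Fin n → F) →ₗ[F] (Fin n → F)) : Module.End F (Fin n → F)) ^ (orderOf x) = 1 := by
      have h1 : e ^ (orderOf x) = 1 := by
        rw [← map_pow, pow_orderOf_eq_one, map_one]
      have h2 : ∀ k : ℕ, ((e : (Fin n → F) →ₗ[F] (Fin n → F)) : Module.End F (Fin n → F)) ^ k = ((e ^ k : (Fin n → F) ≃ₗ[F] (Fin n → F)) : (Fin n → F) →ₗ[F] (Fin n → F)) := by
        intro k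
        induction k with
        | zero => rfl
        | succ k ih => rw [pow_succ, pow_succ, ih]; rfl
      rw [h2, h1]
      rfl
    have hss := isSemisimple_of_pow_eq_one (e : (Fin n → F) →ₗ[F] (Fin n → F)) (orderOf x) hm hpow
    have hdet : (g : Matrix (Fin n) (Fin n) F).det ≠ 0 := by
      have h1 : IsUnit (g : Matrix (Fin n) (Fin n) F).det := (Matrix.isUnit_iff_isUnit_det _).mp g.isUnit
      exact h1.ne_zero
    obtain ⟨s, hs1, hs2⟩ := exists_commuting_det (e : (Fin n → F) →ₗ[F] (Fin n → F)) hss ((g : Matrix (Fin n) (Fin n) F).det)⁻¹ (inv_ne_zero hdet)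
    have hcomm : s * e = e * s := by
      apply LinearEquiv.ext
      exact hs1
    let S : GL (Fin n) F := toGL (Fin n) F s
    have hSx : S * x = x * S := by
      have h1 : toGL (Fin n) F e = x := (toGL (Fin n) F).apply_symm_apply x
      rw [← h1, ← map_mul, ← map_mul, hcomm]
    have hSdet : (S : Matrix (Fin n) (Fin n) F).det = ((g : Matrix (Fin n) (Fin n) F).det)⁻¹ := by
      rw [← hs2]
      exact LinearMap.det_toMatrix' (s : (Fin n → F) →ₗ[F] (Fin n → F))
    refine ⟨g * S, ?_, ?_⟩
    · rw [Units.val_mul, Matrix.det_mul, hSdet, mul_inv_cancel₀ hdet]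
    · calc g * S * x * (g * S)⁻¹ = g * (S * x) * S⁻¹ * g⁻¹ := by group
        _ = g * (x * S) * S⁻¹ * g⁻¹ := by rw [hSx]
        _ = g * x * g⁻¹ := by group

end Cfsg.Agent.S2569
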