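import Cfsg.Statements.S2570
import Mathlib
import Cfsg.Agent.Lib.H47.JordanCount

set_option autoImplicit false
set_option linter.unusedVariables false
open Cfsg

namespace Cfsg.Agent.S2570

open H47.JordanCount

/-- Number of conjugacy classes of elements of order p in GL_n over a finite field of characteristic p: they correspond to the Jordan types, that is, to the partitions of n with all parts at most p other than the partition into ones, so there are (number of partitions of n with parts ≤ p) − 1 of them. -/
theorem result {F : Type*} [Field F] [Fintype F] {p : ℕ} [Fact p.Prime] [CharP F p] (n : ℕ) : Nat.card {C : ConjClasses (GL (Fin n) F) // ∃ g : GL (Fin n) F, ConjClasses.mk g = C ∧ orderOf g = p} = (Finset.univ.filter (fun μ : Nat.Partition n => ∀ a ∈ μ.parts, a ≤ p)).card - 1 := by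
  classical
  have hp : p.Prime := Fact.out
  have hinj : Function.Injective (fun μ : Nat.Partition n => μ.parts) := fun μ ν h => Nat.Partition.ext h
  set A := (Finset.univ.filter (fun μ : Nat.Partition n => ∀ a ∈ μ.parts, a ≤ p)) with hA
  set T := (A.image (fun μ : Nat.Partition n => μ.parts)).erase (Multiset.replicate n 1) with hT
  have hones : Multiset.replicate n 1 ∈ A.image (fun μ : Nat.Partition n => μ.parts) := by
    rw [Finset.mem_image]
    refine ⟨⟨Multiset.replicate n 1, ?_, ?_⟩, ?_, rfl⟩
    · intro i hi
      rw [Multiset.eq_of_mem_replicate hi]; exact one_pos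
    · simp
    · rw [hA, Finset.mem_filter]
      refine ⟨Finset.mem_univ _, fun a ha => ?_⟩
      rw [Multiset.eq_of_mem_replicate ha]
      exact hp.one_lt.le
  have hcard : T.card = A.card - 1 := by
    rw [hT, Finset.card_erase_of_mem hones, Finset.card_image_of_injective _ hinj]
  rw [← hcard]
  -- elements of order `p`
  have hpow : ∀ g : GL (Fin n) F, orderOf g = p → ((g : Matrix (Fin n) (Fin n) F) - 1) ^ p = 0 := by
    intro g hg
    have h1 : g ^ p = 1 := by rw [← hg]; exact pow_orderOf_eq_one g
    have h2 : (g : Matrix (Fin n) (Fin n) F) ^ p = 1 := by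
      rw [← Units.val_pow_eq_pow_val, h1, Units.val_one]
    rcases isEmpty_or_nonempty (Fin n) with he | he
    · ext i; exact he.elim i
    · have : CharP (Matrix (Fin n) (Fin n) F) p := inferInstance
      rw [sub_pow_char_of_commute p (Commute.one_right _), h2, one_pow, sub_self]
  have hex : ∀ g : GL (Fin n) F, ∃ s : Multiset ℕ, orderOf g = p → HasType (g : Matrix (Fin n) (Fin n) F) s ∧ ∀ a ∈ s, a ≤ p := by
    intro g
    by_cases hg : orderOf g = p
    · obtain ⟨s, hs⟩ := exists_type _ (hpow g hg)
      exact ⟨s, fun _ => hs⟩
    · exact ⟨0, fun h => absurd h hg⟩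
  choose inv hinv using hex
  -- type of the identity
  have hone : HasType (1 : Matrix (Fin n) (Fin n) F) (Multiset.replicate n 1) := by
    refine ⟨fun a ha => by rw [Multiset.eq_of_mem_replicate ha]; exact one_pos, by simp, fun j => ?_⟩
    rw [sub_self, Multiset.map_replicate, Multiset.sum_replicate]
    rcases Nat.eq_zero_or_pos j with hj | hj
    · subst hj
      simp
    · rw [zero_pow hj.ne', Matrix.rank_zero]
      have : 1 - j = 0 := by omega
      rw [this, smul_zero]
  refine H48.ClassCount.card_classes_inv (fun g : GL (Fin n) F => orderOf g = p) inv T ?_ ?_ ?_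
  · intro g hg
    obtain ⟨h1, h2⟩ := hinv g hg
    rw [hT, Finset.mem_erase]
    constructor
    · intro h
      rw [h] at h1
      have h3 := (isConj_iff h1 hone).2 rfl
      obtain ⟨c, hc⟩ := h3
      have hc' : (c : Matrix (Fin n) (Fin n) F) * g = 1 * c := hc
      rw [one_mul] at hc'
      have h4 : g = 1 := by
        have : c * g = c := Units.ext hc'
        exact mul_eq_left.1 this
      rw [h4, orderOf_one] at hg
      exact hp.one_lt.ne hg
    · rw [Finset.mem_image]
      refine ⟨⟨inv g, fun {i} hi => h1.1 i hi, h1.2.1⟩, ?_, rfl⟩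
      rw [hA, Finset.mem_filter]
      exact ⟨Finset.mem_univ _, h2⟩
  · intro s hs
    rw [hT, Finset.mem_erase, Finset.mem_image] at hs
    obtain ⟨hs1, μ, hμ, rfl⟩ := hs
    rw [hA, Finset.mem_filter] at hμ
    obtain ⟨M, hM⟩ := exists_matrix (F := F) μ.parts (fun a ha => μ.parts_pos ha) μ.parts_sum
    have hM0 : (M - 1) ^ p = 0 := (pow_eq_zero_iff_type hM p).2 hμ.2
    have hMp : M ^ p = 1 := by
      rcases isEmpty_or_nonempty (Fin n) with he | he
      · ext i; exact he.elim i
      · have : CharP (Matrix (Fin n) (Fin n) F) p := inferInstance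
        rw [sub_pow_char_of_commute p (Commute.one_right _), one_pow] at hM0
        exact sub_eq_zero.1 hM0
    have hu : IsUnit M := IsUnit.of_pow_eq_one hMp hp.ne_zero
    obtain ⟨g, rfl⟩ := hu
    have hg : orderOf g = p := by
      apply orderOf_eq_prime
      · apply Units.ext
        rw [Units.val_pow_eq_pow_val, hMp, Units.val_one]
      · rintro rfl
        exact hs1 (hasType_unique hM hone)
    exact ⟨g, hg, hasType_unique (hinv g hg).1 hM⟩
  · intro g h hg hh
    rw [isConj_gl_iff]
    exact isConj_iff (hinv g hg).1 (hinv h hh).1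

end Cfsg.Agent.S2570
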