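import Cfsg.Statements.S2571
import Cfsg.Agent.Lib.H47.RegNilp

set_option autoImplicit false
set_option linter.unusedVariables false
open Cfsg

namespace Cfsg.Agent.S2571

/-- Centraliser of a regular unipotent element in GL_n(q): if u is an invertible n × n matrix over the field with q elements, n ≥ 1, with (u − 1)^n = 0 and rank(u − 1) = n − 1 (a single unipotent Jordan block), then its centraliser in GL_n(q) has order (q − 1) q^(n−1). -/
theorem result {F : Type*} [Field F] [Fintype F] {q n : ℕ} (hF : Fintype.card F = q) (hn : 1 ≤ n) (u : GL (Fin n) F) (hnil : ((u : Matrix (Fin n) (Fin n) F) - 1) ^ n = 0) (hreg : ((u : Matrix (Fin n) (Fin n) F) - 1).rank = n - 1) : Nat.card ↥(Subgroup.centralizer ({u} : Set (GL (Fin n) F))) = (q - 1) * q ^ (n - 1) := by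
  classical
  set N : Module.End F (Fin n → F) := Matrix.toLin' ((u : Matrix (Fin n) (Fin n) F) - 1) with hN
  have hpow : ∀ k : ℕ, Matrix.toLin' (((u : Matrix (Fin n) (Fin n) F) - 1) ^ k) = N ^ k := fun k => Matrix.toLin'_pow _ _
  have h1 : Module.finrank F (Fin n → F) = n := by simp
  have h2 : Module.finrank F (LinearMap.ker N) ≤ 1 := by
    have := LinearMap.finrank_range_add_finrank_ker N
    rw [h1] at this
    have h3 : Module.finrank F (LinearMap.range N) = n - 1 := by
      rw [← hreg, Matrix.rank, ← Matrix.toLin'_apply']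
    omega
  have h3 : N ^ (Module.finrank F (Fin n → F)) = 0 := by
    rw [h1, ← hpow, hnil, map_zero]
  have hpos : 0 < Module.finrank F (Fin n → F) := by rw [h1]; exact hn
  obtain ⟨v, hv⟩ := H47.RegNilp.exists_cyclic N h2 h3 hpos
  -- commuting condition
  have hcomm : ∀ g : GL (Fin n) F, g ∈ Subgroup.centralizer ({u} : Set (GL (Fin n) F)) ↔
      ∀ x, Matrix.toLin' (g : Matrix (Fin n) (Fin n) F) (N x) = N (Matrix.toLin' (g : Matrix (Fin n) (Fin n) F) x) := by
    intro g
    rw [Subgroup.mem_centralizer_singleton_iff]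
    constructor
    · intro h x
      have h' : (g : Matrix (Fin n) (Fin n) F) * (u : Matrix (Fin n) (Fin n) F) = (u : Matrix (Fin n) (Fin n) F) * g := by
        rw [← Units.val_mul, ← Units.val_mul, h]
      rw [hN, ← LinearMap.comp_apply, ← LinearMap.comp_apply, ← Matrix.toLin'_mul, ← Matrix.toLin'_mul, mul_sub, sub_mul, h', mul_one, one_mul]
    · intro h
      have h' : Matrix.toLin' ((g : Matrix (Fin n) (Fin n) F) * ((u : Matrix (Fin n) (Fin n) F) - 1)) = Matrix.toLin' (((u : Matrix (Fin n) (Fin n) F) - 1) * (g : Matrix (Fin n) (Fin n) F)) := by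
        rw [Matrix.toLin'_mul, Matrix.toLin'_mul]
        exact LinearMap.ext h
      have h'' := Matrix.toLin'.injective h'
      rw [mul_sub, sub_mul, mul_one, one_mul, sub_left_inj] at h''
      exact Units.ext h''
  have hginj : ∀ g : GL (Fin n) F, Function.Injective (Matrix.toLin' (g : Matrix (Fin n) (Fin n) F)) := by
    intro g
    have : Matrix.toLin' ((g⁻¹ : GL (Fin n) F) : Matrix (Fin n) (Fin n) F) ∘ₗ Matrix.toLin' (g : Matrix (Fin n) (Fin n) F) = LinearMap.id := by
      rw [← Matrix.toLin'_mul, ← Units.val_mul, inv_mul_cancel, Units.val_one, Matrix.toLin'_one]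
    intro x y hxy
    have h := congrArg (Matrix.toLin' ((g⁻¹ : GL (Fin n) F) : Matrix (Fin n) (Fin n) F)) hxy
    rw [← LinearMap.comp_apply, ← LinearMap.comp_apply, this] at h
    exact h
  let f : ↥(Subgroup.centralizer ({u} : Set (GL (Fin n) F))) → {w : Fin n → F // w ∉ LinearMap.ker (N ^ (Module.finrank F (Fin n → F) - 1))} :=
    fun g => ⟨Matrix.toLin' (g.1 : Matrix (Fin n) (Fin n) F) v, by
      have := (H47.RegNilp.commuting_injective_iff N h2 h3 hpos v hv _ ((hcomm g.1).mp g.2)).mp (hginj g.1)
      rwa [LinearMap.mem_ker]⟩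
  have hf : Function.Bijective f := by
    constructor
    · intro g g' hgg
      have h := congrArg Subtype.val hgg
      have h0 : Matrix.toLin' (g.1 : Matrix (Fin n) (Fin n) F) - Matrix.toLin' (g'.1 : Matrix (Fin n) (Fin n) F) = 0 := by
        apply H47.RegNilp.commuting_eq_zero N h2 h3 v hv
        · intro x
          rw [LinearMap.sub_apply, LinearMap.sub_apply, map_sub, (hcomm g.1).mp g.2, (hcomm g'.1).mp g'.2]
        · rw [LinearMap.sub_apply, sub_eq_zero]
          exact h
      rw [sub_eq_zero] at h0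
      exact Subtype.ext (Units.ext (Matrix.toLin'.injective h0))
    · rintro ⟨w, hw⟩
      obtain ⟨A, hA, hAv⟩ := H47.RegNilp.exists_commuting N h2 h3 v hv w
      have hAinj : Function.Injective A := by
        rw [H47.RegNilp.commuting_injective_iff N h2 h3 hpos v hv A hA, hAv]
        exact hw
      let e := LinearEquiv.ofInjectiveEndo A hAinj
      let g : GL (Fin n) F := ⟨LinearMap.toMatrix' A, LinearMap.toMatrix' (e.symm : (Fin n → F) →ₗ[F] (Fin n → F)), by
          rw [← LinearMap.toMatrix'_comp]
          have : A ∘ₗ (e.symm : (Fin n → F) →ₗ[F] (Fin n → F)) = LinearMap.id := by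
            ext1 x
            exact congrFun (congrArg _ (LinearMap.ext fun x => e.apply_symm_apply x)) _
          rw [this, LinearMap.toMatrix'_id], by
          rw [← LinearMap.toMatrix'_comp]
          have : (e.symm : (Fin n → F) →ₗ[F] (Fin n → F)) ∘ₗ A = LinearMap.id := by
            exact (LinearMap.ext fun x => e.symm_apply_apply x)
          rw [this, LinearMap.toMatrix'_id]⟩
      have hgA : Matrix.toLin' (g : Matrix (Fin n) (Fin n) F) = A := Matrix.toLin'_toMatrix' A
      refine ⟨⟨g, ?_⟩, ?_⟩
      · rw [hcomm, hgA]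
        exact hA
      · apply Subtype.ext
        change Matrix.toLin' (g : Matrix (Fin n) (Fin n) F) v = w
        rw [hgA, hAv]
  rw [Nat.card_congr (Equiv.ofBijective f hf)]
  have hcard : Nat.card {w : Fin n → F // w ∉ LinearMap.ker (N ^ (Module.finrank F (Fin n → F) - 1))} + Nat.card (LinearMap.ker (N ^ (Module.finrank F (Fin n → F) - 1))) = Nat.card (Fin n → F) := by
    have := Fintype.card_subtype_compl (fun w : Fin n → F => w ∈ LinearMap.ker (N ^ (Module.finrank F (Fin n → F) - 1)))
    rw [Nat.card_eq_fintype_card, Nat.card_eq_fintype_card, Nat.card_eq_fintype_card, this]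
    have hle := Fintype.card_subtype_le (fun w : Fin n → F => w ∈ LinearMap.ker (N ^ (Module.finrank F (Fin n → F) - 1)))
    exact Nat.sub_add_cancel hle
  rw [Module.natCard_eq_pow_finrank (K := F) (V := LinearMap.ker (N ^ (Module.finrank F (Fin n → F) - 1))),
    H47.RegNilp.finrank_ker_pow_eq N h2 h3 (Nat.sub_le _ _), Module.natCard_eq_pow_finrank (K := F) (V := Fin n → F), h1, Nat.card_eq_fintype_card (α := F), hF] at hcard
  rw [h1]
  obtain ⟨k, rfl⟩ := Nat.exists_eq_add_of_le hn
  rw [Nat.add_sub_cancel_left] at hcard ⊢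
  have hq : 1 ≤ q := by rw [← hF]; exact Fintype.card_pos
  obtain ⟨q', rfl⟩ := Nat.exists_eq_add_of_le hq
  rw [Nat.add_sub_cancel_left]
  have : (1 + q') ^ (1 + k) = q' * (1 + q') ^ k + (1 + q') ^ k := by ring
  omega

end Cfsg.Agent.S2571
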