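import Cfsg.Statements.S2572
import Cfsg.Agent.Lib.H47.RankOneCent
import Cfsg.Agent.Lib.H47.IsoGrp

set_option autoImplicit false
set_option linter.unusedVariables false
open Cfsg

namespace Cfsg.Agent.S2572

open H47.IsoGrp H47.RankOneCent Module

/-- Centraliser of a transvection in GL_n(q), n ≥ 2: if t − 1 has rank one and square zero, the centraliser of t in GL_n(q) has order q^(2n−3) (q − 1) |GL_(n−2)(q)| (a group of order q^(2n−3) extended by GL_1(q) × GL_(n−2)(q)). -/
theorem result {F : Type*} [Field F] [Fintype F] {q n : ℕ} (hF : Fintype.card F = q) (hn : 2 ≤ n) (t : GL (Fin n) F) (ht : Cfsg.IsTransvection (t : Matrix (Fin n) (Fin n) F)) : Nat.card ↥(Subgroup.centralizer ({t} : Set (GL (Fin n) F))) = q ^ (2 * n - 3) * (q - 1) * ∏ i : Fin (n - 2), (q ^ (n - 2) - q ^ (i : ℕ)) := by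
  classical
  obtain ⟨m, rfl⟩ := Nat.exists_eq_add_of_le hn
  obtain ⟨hr, hsq⟩ := ht
  set N : Module.End F (Fin (2 + m) → F) := Matrix.toLin' ((t : Matrix (Fin (2 + m)) (Fin (2 + m)) F) - 1) with hN
  have hNr : finrank F (LinearMap.range N) = 1 := by
    rw [← hr, Matrix.rank, ← Matrix.toLin'_apply']
  have hN2 : ∀ x, N (N x) = 0 := by
    intro x
    rw [← Module.End.mul_apply, hN, Module.End.mul_eq_comp, ← Matrix.toLin'_mul, hsq, map_zero]
    rfl
  obtain ⟨e, he⟩ := exists_model m (by simp; ring) N hNr hN2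
  have hte : ∀ x, (toGL (Fin (2 + m)) F).symm t x = x + N x := by
    intro x
    rw [toGL_symm_apply, hN, Matrix.toLin'_apply, Matrix.sub_mulVec, Matrix.one_mulVec]
    abel
  -- the centralizer in terms of linear equivalences
  have h1 : ∀ g : (Fin (2 + m) → F) ≃ₗ[F] (Fin (2 + m) → F),
      toGL (Fin (2 + m)) F g ∈ Subgroup.centralizer ({t} : Set (GL (Fin (2 + m)) F)) ↔ ∀ x, g (N x) = N (g x) := by
    intro g
    rw [Subgroup.mem_centralizer_singleton_iff]
    have h2 : (toGL (Fin (2 + m)) F) ((toGL (Fin (2 + m)) F).symm t) = t := (toGL (Fin (2 + m)) F).apply_symm_apply t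
    constructor
    · intro h x
      rw [← h2, ← map_mul, ← map_mul] at h
      have h3 := LinearEquiv.congr_fun ((toGL (Fin (2 + m)) F).injective h) x
      rw [LinearEquiv.mul_apply, LinearEquiv.mul_apply, hte, hte, map_add] at h3
      exact add_left_cancel h3
    · intro h
      rw [← h2, ← map_mul, ← map_mul]
      congr 1
      apply LinearEquiv.ext
      intro x
      rw [LinearEquiv.mul_apply, LinearEquiv.mul_apply, hte, hte, map_add, h]
  let E1 : ↥(Subgroup.centralizer ({t} : Set (GL (Fin (2 + m)) F))) ≃ {g : (Fin (2 + m) → F) ≃ₗ[F] (Fin (2 + m) → F) // ∀ x, g (N x) = N (g x)} :=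
    ((toGL (Fin (2 + m)) F).toEquiv.subtypeEquiv (fun g => (h1 g).symm)).symm
  let E2 : {g : (Fin (2 + m) → F) ≃ₗ[F] (Fin (2 + m) → F) // ∀ x, g (N x) = N (g x)} ≃ {g : W F m ≃ₗ[F] W F m // ∀ x, g (N0 F m x) = N0 F m (g x)} :=
    { toFun := fun g => ⟨(e.symm.trans g.1).trans e, fun x => by
        simp only [LinearEquiv.trans_apply]
        rw [← he, ← g.2, ← e.apply_symm_apply x, ← he]
        simp⟩
      invFun := fun g => ⟨(e.trans g.1).trans e.symm, fun x => by
        simp only [LinearEquiv.trans_apply]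
        rw [he, g.2, LinearEquiv.symm_apply_eq, he, e.apply_symm_apply]⟩
      left_inv := fun g => by
        apply Subtype.ext
        ext1 x
        simp
      right_inv := fun g => by
        apply Subtype.ext
        ext1 x
        simp }
  rw [Nat.card_congr (E1.trans E2), card_model, Nat.card_congr (toGL (Fin m) F).toEquiv, Matrix.card_GL_field, hF]
  have e1 : 2 + m - 2 = m := by omega
  have e2 : 2 * (2 + m) - 3 = m + 1 + m := by omega
  rw [e2, e1]
  ring

end Cfsg.Agent.S2572
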