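import Cfsg.Statements.S2573
import Cfsg.Agent.Lib.H47.RegNilp

set_option autoImplicit false
set_option linter.unusedVariables false
open Cfsg

namespace Cfsg.Agent.S2573

/-- The invariant subspaces of a regular unipotent matrix form a chain: over a finite field, if u is an n × n matrix with (u − 1)^n = 0 and rank(u − 1) = n − 1, then every subspace W of F^n with u W ⊆ W is the kernel of (u − 1)^(dim W); so u has at most one invariant subspace of each dimension. -/
theorem result {F : Type*} [Field F] [Finite F] {n : ℕ} (u : Matrix (Fin n) (Fin n) F) (hnil : (u - 1) ^ n = 0) (hreg : (u - 1).rank = n - 1) (W : Submodule F (Fin n → F)) (hW : ∀ v ∈ W, u.mulVec v ∈ W) : W = LinearMap.ker (Matrix.mulVecLin ((u - 1) ^ Module.finrank F W)) := by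
  classical
  set N : (Fin n → F) →ₗ[F] (Fin n → F) := Matrix.toLin' (u - 1) with hN
  have hpow : ∀ k : ℕ, Matrix.toLin' ((u - 1) ^ k) = N ^ k := fun k => Matrix.toLin'_pow _ _
  have h1 : Module.finrank F (Fin n → F) = n := by simp
  have h2 : Module.finrank F (LinearMap.ker N) ≤ 1 := by
    have := LinearMap.finrank_range_add_finrank_ker N
    rw [h1] at this
    have h3 : Module.finrank F (LinearMap.range N) = n - 1 := by
      rw [← hreg, Matrix.rank, ← Matrix.toLin'_apply']
    omega
  have h3 : N ^ (Module.finrank F (Fin n → F)) = 0 := by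
    rw [h1, ← hpow, hnil, map_zero]
  have h4 : ∀ v ∈ W, N v ∈ W := by
    intro v hv
    rw [hN, Matrix.toLin'_apply, Matrix.sub_mulVec, Matrix.one_mulVec]
    exact W.sub_mem (hW v hv) hv
  have h5 := H47.RegNilp.invariant_eq_ker_pow N h2 h3 W h4
  rw [← Matrix.toLin'_apply', hpow]
  exact h5

end Cfsg.Agent.S2573
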