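import Cfsg.Statements.S2574
import Cfsg.Agent.Lib.H47.RegNilp

set_option autoImplicit false
set_option linter.unusedVariables false
open Cfsg

namespace Cfsg.Agent.S2574

open Matrix

theorem form_inv {F : Type*} [Field F] {m : ℕ} (u : Matrix.symplecticGroup (Fin m) F)
    (v w : Fin m ⊕ Fin m → F) :
    Cfsg.sympForm m F ((u : Matrix (Fin m ⊕ Fin m) (Fin m ⊕ Fin m) F) *ᵥ v)
      ((u : Matrix (Fin m ⊕ Fin m) (Fin m ⊕ Fin m) F) *ᵥ w) = Cfsg.sympForm m F v w := by
  have h := SymplecticGroup.mem_iff'.mp u.2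
  unfold Cfsg.sympForm
  rw [← Matrix.vecMul_transpose, ← Matrix.dotProduct_mulVec, Matrix.mulVec_mulVec, Matrix.mulVec_mulVec, h]

theorem form_sub_left {F : Type*} [Field F] {m : ℕ} (x y z : Fin m ⊕ Fin m → F) :
    Cfsg.sympForm m F (x - y) z = Cfsg.sympForm m F x z - Cfsg.sympForm m F y z := by
  unfold Cfsg.sympForm
  rw [sub_dotProduct]

theorem form_sub_right {F : Type*} [Field F] {m : ℕ} (x y z : Fin m ⊕ Fin m → F) :
    Cfsg.sympForm m F x (y - z) = Cfsg.sympForm m F x y - Cfsg.sympForm m F x z := by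
  unfold Cfsg.sympForm
  rw [Matrix.mulVec_sub, dotProduct_sub]

/-- A regular unipotent element of the symplectic group has totally isotropic small invariant subspaces: over a finite field, if u ∈ Sp_2m(F) satisfies (u − 1)^(2m) = 0 and rank(u − 1) = 2m − 1, and W is a u-invariant subspace with 2 dim W ≤ 2m, then the alternating form vanishes identically on W. -/
theorem result {F : Type*} [Field F] [Finite F] {m : ℕ} (u : Matrix.symplecticGroup (Fin m) F) (hnil : ((u : Matrix (Fin m ⊕ Fin m) (Fin m ⊕ Fin m) F) - 1) ^ (2 * m) = 0) (hreg : ((u : Matrix (Fin m ⊕ Fin m) (Fin m ⊕ Fin m) F) - 1).rank = 2 * m - 1) (W : Submodule F (Fin m ⊕ Fin m → F)) (hW : ∀ v ∈ W, (u : Matrix (Fin m ⊕ Fin m) (Fin m ⊕ Fin m) F).mulVec v ∈ W) (hdim : 2 * Module.finrank F W ≤ 2 * m) : ∀ v ∈ W, ∀ w ∈ W, Cfsg.sympForm m F v w = 0 := by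
  classical
  set A : Matrix (Fin m ⊕ Fin m) (Fin m ⊕ Fin m) F := (u : Matrix (Fin m ⊕ Fin m) (Fin m ⊕ Fin m) F) with hA
  set N : Module.End F (Fin m ⊕ Fin m → F) := Matrix.toLin' (A - 1) with hN
  set U : Module.End F (Fin m ⊕ Fin m → F) := Matrix.toLin' A with hU
  set Ui : Module.End F (Fin m ⊕ Fin m → F) := Matrix.toLin' ((u⁻¹ : Matrix.symplecticGroup (Fin m) F) : Matrix (Fin m ⊕ Fin m) (Fin m ⊕ Fin m) F) with hUi
  have hUUi : U * Ui = 1 := by
    rw [hU, hUi, Module.End.mul_eq_comp, ← Matrix.toLin'_mul, hA, ← Submonoid.coe_mul, mul_inv_cancel]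
    simp
    rfl
  have hUiU : Ui * U = 1 := by
    rw [hU, hUi, Module.End.mul_eq_comp, ← Matrix.toLin'_mul, hA, ← Submonoid.coe_mul, inv_mul_cancel]
    simp
    rfl
  have hNU : N = U - 1 := by
    rw [hN, hU, map_sub, Matrix.toLin'_one]
    rfl
  have hpow : ∀ k : ℕ, Matrix.toLin' ((A - 1) ^ k) = N ^ k := fun k => Matrix.toLin'_pow _ _
  have h1 : Module.finrank F (Fin m ⊕ Fin m → F) = 2 * m := by simp; ring
  have h2 : Module.finrank F (LinearMap.ker N) ≤ 1 := by
    have := LinearMap.finrank_range_add_finrank_ker N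
    rw [h1] at this
    have h3 : Module.finrank F (LinearMap.range N) = 2 * m - 1 := by
      rw [← hreg, Matrix.rank, ← Matrix.toLin'_apply']
    omega
  have h3 : N ^ (Module.finrank F (Fin m ⊕ Fin m → F)) = 0 := by
    rw [h1, ← hpow, hnil, map_zero]
  have h4 : ∀ v ∈ W, N v ∈ W := by
    intro v hv
    rw [hN, Matrix.toLin'_apply, Matrix.sub_mulVec, Matrix.one_mulVec]
    exact W.sub_mem (hW v hv) hv
  have h5 := H47.RegNilp.invariant_eq_ker_pow N h2 h3 W h4
  set k := Module.finrank F W with hk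
  have hk2 : k ≤ Module.finrank F (Fin m ⊕ Fin m → F) := Submodule.finrank_le W
  have h6 := H47.RegNilp.range_pow_eq_ker_pow N h2 h3 hk2
  rw [h1] at h6
  -- the key identity
  have key : ∀ j : ℕ, ∀ x y, Cfsg.sympForm m F ((N ^ j) x) ((U ^ j) y) = (-1) ^ j * Cfsg.sympForm m F x ((N ^ j) y) := by
    intro j
    induction j with
    | zero => intro x y; simp
    | succ j ih =>
      intro x y
      have hb : ∀ a b, Cfsg.sympForm m F (N a) (U b) = - Cfsg.sympForm m F a (N b) := by
        intro a b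
        have e1 : N a = U a - a := by rw [hNU]; rfl
        have e2 : N b = U b - b := by rw [hNU]; rfl
        rw [e1, e2, form_sub_left, form_sub_right]
        have := form_inv u a b
        rw [hU, Matrix.toLin'_apply, Matrix.toLin'_apply, this]
        ring
      have hcomm : N * U ^ j = U ^ j * N := by
        have : Commute N U := by
          rw [hNU]
          exact (Commute.refl U).sub_left (Commute.one_left U)
        exact (this.pow_right j).eq
      rw [pow_succ' N, pow_succ' U, Module.End.mul_apply, Module.End.mul_apply, hb, ← Module.End.mul_apply N, hcomm,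
        Module.End.mul_apply, ih, ← Module.End.mul_apply, ← pow_succ, ← pow_succ']
      ring
  intro v hv w hw
  have hv' : v ∈ LinearMap.range (N ^ (2 * m - k)) := by rw [h6, ← h5]; exact hv
  obtain ⟨x, rfl⟩ := hv'
  set j := 2 * m - k with hj
  have hw' : (N ^ k) w = 0 := by
    rw [h5] at hw
    exact hw
  have hUj : (U ^ j) ((Ui ^ j) w) = w := by
    have : Commute U Ui := by rw [commute_iff_eq, hUUi, hUiU]
    rw [← Module.End.mul_apply, ← this.mul_pow, hUUi, one_pow]
    rfl
  have hNj : (N ^ j) ((Ui ^ j) w) = 0 := by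
    have hc : Commute N Ui := by
      rw [hNU]
      have : Commute U Ui := by rw [commute_iff_eq, hUUi, hUiU]
      exact this.sub_left (Commute.one_left Ui)
    rw [← Module.End.mul_apply, (hc.pow_pow j j).eq, Module.End.mul_apply]
    have hjk : j = (j - k) + k := by omega
    rw [show N ^ j = N ^ (j - k) * N ^ k by rw [← pow_add, ← hjk], Module.End.mul_apply, hw', map_zero, map_zero]
  rw [← hUj, key, hNj]
  unfold Cfsg.sympForm
  simp

end Cfsg.Agent.S2574
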