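import Cfsg.Statements.S2575
import Cfsg.Agent.Lib.H48.TwoPart

set_option autoImplicit false
open Cfsg

namespace Cfsg.Agent.S2575

theorem aux_det {F : Type*} [Field F] {n : ℕ} (i : ℕ) (hi : i ≤ n) (c : F) :
    (c • Matrix.diagonal (fun j : Fin n => if (j : ℕ) < i then (-1 : F) else 1)).det = c ^ n * (-1) ^ i := by
  rw [Matrix.det_smul, Matrix.det_diagonal, Fintype.card_fin]
  congr 1
  rw [Finset.prod_ite]
  simp only [Finset.prod_const, one_pow, mul_one]
  congr 1
  rw [Fin.card_filter_val_lt]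
  exact min_eq_right hi

theorem result {F : Type*} [Field F] [Fintype F] {q : ℕ} (hF : Fintype.card F = q) (hq : Odd q) {n : ℕ} (hn : 1 ≤ n) (i : ℕ) (hi : i ≤ n) : (∃ c : F, c ≠ 0 ∧ (c • Matrix.diagonal (fun j : Fin n => if (j : ℕ) < i then (-1 : F) else 1)).det = 1) ↔ (Even i ∨ padicValNat 2 n < padicValNat 2 (q - 1)) := by
  simp only [aux_det i hi]
  rw [← H48.TwoPart.neg_one_pow_iff hF hq hn]
  rcases Nat.even_or_odd i with h | h
  · simp only [h, true_or, iff_true]
    exact ⟨1, one_ne_zero, by rw [h.neg_one_pow]; simp⟩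
  · have h' : ¬ Even i := Nat.not_even_iff_odd.2 h
    simp only [h', false_or, h.neg_one_pow]
    constructor
    · rintro ⟨c, -, hc⟩
      exact ⟨c, by linear_combination -hc⟩
    · rintro ⟨c, hc⟩
      refine ⟨c, ?_, by rw [hc]; ring⟩
      rintro rfl
      rw [zero_pow (by omega)] at hc
      exact (neg_ne_zero.2 (one_ne_zero (α := F))) hc.symm

end Cfsg.Agent.S2575
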