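import Cfsg.Statements.S2576
import Cfsg.Agent.Lib.H48.TwoPart

set_option autoImplicit false
open Cfsg

namespace Cfsg.Agent.S2576

theorem aux_det {F : Type*} [Field F] (m : ℕ) (μ c : F) :
    (c • Matrix.blockDiagonal (fun _ : Fin m => !![(0 : F), 1; μ, 0])).det = c ^ (2 * m) * (-μ) ^ m := by
  rw [Matrix.det_smul, Matrix.det_blockDiagonal]
  simp [Matrix.det_fin_two]

theorem result {F : Type*} [Field F] [Fintype F] {q : ℕ} (hF : Fintype.card F = q) (hq : Odd q) {m : ℕ} (hm : 1 ≤ m) (μ : F) (hμ : orderOf μ = 2 ^ padicValNat 2 (q - 1)) : (∃ c : F, c ≠ 0 ∧ (c • Matrix.blockDiagonal (fun _ : Fin m => !![(0 : F), 1; μ, 0])).det = 1) ↔ (q % 4 = 3 ∨ padicValNat 2 (q - 1) < padicValNat 2 (2 * m)) := by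
  simp only [aux_det]
  have hq1 : 1 < q := by rw [← hF]; exact Fintype.one_lt_card
  have hne : q - 1 ≠ 0 := by omega
  set s := padicValNat 2 (q - 1) with hs
  have hs1 : 1 ≤ s := by
    have : 2 ^ 1 ∣ q - 1 := by
      obtain ⟨k, hk⟩ := hq; exact ⟨k, by omega⟩
    exact (padicValNat_dvd_iff_le hne).1 this
  have hμ1 : μ ^ 2 ^ s = 1 := by rw [← hμ]; exact pow_orderOf_eq_one μ
  have hμ2 : μ ^ 2 ^ (s - 1) = -1 := by
    have h1 : μ ^ 2 ^ (s - 1) * μ ^ 2 ^ (s - 1) = 1 := by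
      rw [← pow_add, ← two_mul, ← pow_succ']
      rw [Nat.sub_add_cancel hs1]; exact hμ1
    refine (mul_self_eq_one_iff.1 h1).resolve_left fun h => ?_
    have h2 := orderOf_dvd_of_pow_eq_one h
    rw [hμ] at h2
    have h3 := Nat.le_of_dvd (by positivity) h2
    have h4 : 2 ^ s = 2 ^ (s - 1) * 2 := by rw [← pow_succ, Nat.sub_add_cancel hs1]
    have : 0 < 2 ^ (s - 1) := by positivity
    omega
  obtain ⟨r, hr, hqr⟩ := H48.TwoPart.decomp hne
  rw [← hs] at hqr
  obtain ⟨m', hm', hmm⟩ := H48.TwoPart.decomp (n := m) (by omega)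
  set t := padicValNat 2 m with ht
  have h2m : padicValNat 2 (2 * m) = t + 1 := by
    rw [padicValNat.mul (by norm_num) (by omega), padicValNat_self, ← ht]; ring
  rw [h2m]
  constructor
  · rintro ⟨c, hc0, hc⟩
    by_contra hcon
    push Not at hcon
    obtain ⟨h4, hst⟩ := hcon
    have hs2 : 2 ≤ s := by
      have : 2 ^ 2 ∣ q - 1 := by
        have h1 : q % 4 = 1 := by
          rw [Nat.odd_iff] at hq; omega
        exact ⟨q / 4, by omega⟩
      exact (padicValNat_dvd_iff_le hne).1 this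
    -- raise to the power 2^(s-t-1) * r
    have h5 : (c ^ (2 * m) * (-μ) ^ m) ^ (2 ^ (s - t - 1) * r) = 1 := by rw [hc, one_pow]
    rw [mul_pow, ← pow_mul, ← pow_mul] at h5
    have e0 : 2 ^ s = 2 ^ t * 2 ^ (s - t - 1) * 2 := by
      rw [← pow_add, ← pow_succ]; congr 1; omega
    have e0' : 2 ^ (s - 1) = 2 ^ t * 2 ^ (s - t - 1) := by
      rw [← pow_add]; congr 1; omega
    have e1 : 2 * m * (2 ^ (s - t - 1) * r) = (q - 1) * m' := by
      rw [hqr, e0, hmm]; ring
    have e2 : m * (2 ^ (s - t - 1) * r) = 2 ^ (s - 1) * (m' * r) := by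
      rw [e0']; nth_rewrite 1 [hmm]; ring
    rw [e1, e2, pow_mul, H48.TwoPart.pow_card_sub_one hF hc0, one_pow, one_mul, pow_mul] at h5
    have e3 : (-μ) ^ 2 ^ (s - 1) = -1 := by
      rw [Even.neg_pow]
      · exact hμ2
      · exact (Nat.even_pow.2 ⟨even_two, by omega⟩)
    rw [e3, (hm'.mul hr).neg_one_pow] at h5
    exact H48.TwoPart.one_ne_neg_one hF hq h5.symm
  · rintro (h | h)
    · have hs' : s = 1 := by
        by_contra h1
        have h2 : 2 ^ 2 ∣ q - 1 := (padicValNat_dvd_iff_le hne).2 (by omega)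
        obtain ⟨k, hk⟩ := h2
        omega
      refine ⟨1, one_ne_zero, ?_⟩
      rw [hs'] at hμ2
      simp at hμ2
      rw [hμ2]; simp
    · refine ⟨1, one_ne_zero, ?_⟩
      have hst : s ≤ t := by omega
      have hm2 : m = 2 ^ s * (2 ^ (t - s) * m') := by
        rw [← mul_assoc, ← pow_add, Nat.add_sub_cancel' hst]; exact hmm
      rw [hm2, pow_mul (-μ), Even.neg_pow (Nat.even_pow.2 ⟨even_two, by omega⟩), hμ1]
      simp

end Cfsg.Agent.S2576
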