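import Cfsg.Statements.S2670
import Cfsg.Agent.Lib.H49.ProjMatrix

set_option autoImplicit false
open Cfsg

namespace Cfsg.Agent.S2670

open H49.RootMult H49.GLClasses

theorem main {F : Type*} [Field F] [Fintype F] {q : ℕ} (hF : Fintype.card F = q) {n r : ℕ} (hn : 1 ≤ n) (hr : r.Prime) (hrq : r ∣ q - 1) : Nat.card {C : ConjClasses (GL (Fin n) F ⧸ Subgroup.center (GL (Fin n) F)) // ∃ g : GL (Fin n) F ⧸ Subgroup.center (GL (Fin n) F), ConjClasses.mk g = C ∧ orderOf g = r} = (Nat.choose (n + r - 1) (r - 1) - r - (if r ∣ n then 1 else 0)) / r + r * (if r ∣ n then 1 else 0) := by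
  classical
  have : Fact r.Prime := ⟨hr⟩
  have hne : Nonempty (Fin n) := ⟨⟨0, by omega⟩⟩
  obtain ⟨x, hx⟩ := exists_prime_orderOf_dvd_card (G := Fˣ) r
    (by rw [Fintype.card_units, hF]; exact hrq)
  have hscal : ∀ c : Fˣ, ∃ g : GL (Fin n) F,
      g.val = (c : F) • (1 : Matrix (Fin n) (Fin n) F) := by
    intro c
    refine ⟨⟨(c : F) • 1, ((c⁻¹ : Fˣ) : F) • 1, ?_, ?_⟩, rfl⟩
    · rw [smul_mul_assoc, one_mul, smul_smul, Units.mul_inv, one_smul]
    · rw [smul_mul_assoc, one_mul, smul_smul, Units.inv_mul, one_smul]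
  refine H49.ProjMatrix.card_proj_matrix (K := F) hn ⊤ x hx trivial
    (fun γ _ b hb => ⟨b, trivial, hb⟩) (MonoidHom.id (GL (Fin n) F)) Function.injective_id
    ?_ (fun c _ => hscal c) (fun g h hc => isConj_units.mpr hc) ?_
  · intro g
    rw [Matrix.GeneralLinearGroup.mem_center_iff_val_mem_range_scalar]
    constructor
    · rintro ⟨a, ha⟩
      have ha0 : a ≠ 0 := by
        rintro rfl
        rw [map_zero] at ha
        have h1 := g.isUnit
        rw [← ha] at h1
        exact not_isUnit_zero h1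
      refine ⟨Units.mk0 a ha0, trivial, ?_⟩
      change g.val = a • 1
      rw [← ha, Matrix.scalar_apply, Matrix.smul_one_eq_diagonal]
    · rintro ⟨c, _, hc⟩
      refine ⟨c, ?_⟩
      change _ = g.val
      have hc' : g.val = (c : F) • (1 : Matrix (Fin n) (Fin n) F) := hc
      rw [hc', Matrix.scalar_apply, Matrix.smul_one_eq_diagonal]
  · intro γ _ A hA _
    have hu : IsUnit A := by
      rw [Matrix.isUnit_iff_isUnit_det]
      have h1 := congrArg Matrix.det hA
      rw [Matrix.det_pow, Matrix.det_smul, Matrix.det_one, mul_one] at h1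
      refine (isUnit_pow_iff hr.ne_zero).mp ?_
      rw [h1]
      exact IsUnit.mk0 _ (pow_ne_zero _ γ.ne_zero)
    obtain ⟨u, rfl⟩ := hu
    exact ⟨u, IsConj.refl _⟩

/-- Number of conjugacy classes of elements of prime order r in PGL_n(q) = GL_n(q)/scalars when r divides q − 1 (n ≥ 2): the classes of elements with a diagonalisable lift correspond to the orbits of the cyclic rotation on the r-tuples of eigenvalue multiplicities (a_0, …, a_(r−1)) summing to n with every a_j < n, and when r divides n there are r − 1 further classes (lifts acting irreducibly on blocks of size r); in all (C(n+r−1, r−1) − r − [r ∣ n])/r + r·[r ∣ n] classes. -/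
theorem result {F : Type*} [Field F] [Fintype F] {q : ℕ} (hF : Fintype.card F = q) {n r : ℕ} (hn : 2 ≤ n) (hr : r.Prime) (hrq : r ∣ q - 1) : Nat.card {C : ConjClasses (GL (Fin n) F ⧸ Subgroup.center (GL (Fin n) F)) // ∃ g : GL (Fin n) F ⧸ Subgroup.center (GL (Fin n) F), ConjClasses.mk g = C ∧ orderOf g = r} = (Nat.choose (n + r - 1) (r - 1) - r - (if r ∣ n then 1 else 0)) / r + r * (if r ∣ n then 1 else 0) := by
  exact main hF (by omega) hr hrq

end Cfsg.Agent.S2670
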