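import Cfsg.Statements.S2578
import Cfsg.Agent.Lib.H48.SLClasses
import Cfsg.Agent.Lib.H48.Jordan

set_option autoImplicit false
open Cfsg

namespace Cfsg.Agent.S2578


theorem result {F : Type*} [Field F] [Fintype F] {q : ℕ} (hF : Fintype.card F = q) {n : ℕ} (hn : 2 ≤ n) : Nat.card {C : ConjClasses (Matrix.SpecialLinearGroup (Fin n) F) // ∃ u : Matrix.SpecialLinearGroup (Fin n) F, ConjClasses.mk u = C ∧ ((u : Matrix (Fin n) (Fin n) F) - 1) ^ n = 0 ∧ ((u : Matrix (Fin n) (Fin n) F) - 1).rank = n - 1} = Nat.gcd n (q - 1) := by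
  classical
  haveI : Nonempty (Fin n) := ⟨⟨0, by omega⟩⟩
  -- the reference element
  have hdet : (Cfsg.jordanBlock n F).det = 1 := by
    have h1 : Cfsg.jordanBlock n F = (1 : F) • (1 : Matrix (Fin n) (Fin n) F) + H48.Jordan.J0 n F := by
      rw [← H48.Jordan.jordanBlock_sub_one, one_smul]; abel
    rw [h1, H48.Unip.det_smul_one_add ⟨n, H48.Jordan.J0_pow_self n⟩, one_pow]
  let u0 : Matrix.SpecialLinearGroup (Fin n) F := ⟨Cfsg.jordanBlock n F, hdet⟩
  have hu0 : (u0 : Matrix (Fin n) (Fin n) F) - 1 = H48.Jordan.J0 n F := H48.Jordan.jordanBlock_sub_one n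
  have hN : (H48.Jordan.J0 n F) ^ n = 0 := H48.Jordan.J0_pow_self n
  have hr : (H48.Jordan.J0 n F).rank = n - 1 := by
    have := H48.Jordan.rank_J0_pow (F := F) n 1
    rwa [pow_one] at this
  have h := H48.SLClasses.card_classes (F := F) (n := Fin n)
    (fun u => ((u : Matrix (Fin n) (Fin n) F) - 1) ^ n = 0 ∧ ((u : Matrix (Fin n) (Fin n) F) - 1).rank = n - 1)
    u0 (fun u => ?_) (powMonoidHom n : Fˣ →* Fˣ).range (fun d => ?_)
  · rw [h, IsCyclic.index_powMonoidHom_range, Nat.card_units, Nat.card_eq_fintype_card, hF, Nat.gcd_comm]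
  · constructor
    · rintro ⟨h1, h2⟩
      exact H48.Unip.isConj_regular (by simp) (by rw [hu0]; exact hN) h1 (by rw [hu0]; exact hr) h2
    · intro hc
      have h3 : ∀ k, (((u : Matrix (Fin n) (Fin n) F) - 1) ^ k).rank = ((H48.Jordan.J0 n F) ^ k).rank := by
        intro k
        have := H48.SimMatrix.rank_aeval_of_isConj hc ((Polynomial.X - 1 : Polynomial F) ^ k)
        simp only [map_pow, map_sub, Polynomial.aeval_X, map_one] at this
        rw [← this, hu0]
      refine ⟨?_, ?_⟩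
      · have h4 := h3 n
        rw [hN, Matrix.rank_zero] at h4
        exact H48.Jordan.eq_zero_of_rank h4
      · have h4 := h3 1
        rwa [pow_one, pow_one, hr] at h4
  · constructor
    · rintro ⟨c, rfl⟩
      refine ⟨(c : F) • 1, ?_, ?_⟩
      · rw [smul_mul_assoc, one_mul, mul_smul_comm, mul_one]
      · rw [Matrix.det_smul, Matrix.det_one, Fintype.card_fin, mul_one]
        simp
    · rintro ⟨D, hD, hDd⟩
      have hD' : D * H48.Jordan.J0 n F = H48.Jordan.J0 n F * D := by
        rw [← hu0, mul_sub, sub_mul, hD, mul_one, one_mul]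
      obtain ⟨a, ha⟩ := H48.Unip.commutant_regular_matrix (by simp) hN hr (by omega) hD'
      have h5 := H48.Unip.det_poly_nilpotent (N := H48.Jordan.J0 n F) ⟨n, hN⟩ (by omega : 0 < n) a
      rw [← ha, hDd, Fintype.card_fin] at h5
      have ha0 : a ⟨0, by omega⟩ ≠ 0 := by
        intro h0
        rw [h0, zero_pow (by omega)] at h5
        exact d.ne_zero h5
      refine ⟨Units.mk0 _ ha0, ?_⟩
      ext
      simp [h5]

end Cfsg.Agent.S2578
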