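import Cfsg.Statements.S2585
import Cfsg.Agent.Lib.H48.CharTwoQ

set_option autoImplicit false
open Cfsg

namespace Cfsg.Agent.S2585

theorem aux_symp {F : Type*} [Field F] [CharP F 2] {m : ℕ} (u v : Fin m ⊕ Fin m → F) :
    QuadraticMap.polar (H48.QuadStd.qPlus m F) u v = Cfsg.sympForm m F u v := by
  rw [H48.QuadStd.polar_qPlus]
  have h : Cfsg.sympForm m F u v = ∑ i : Fin m, (u (.inr i) * v (.inl i) - u (.inl i) * v (.inr i)) := by
    simp only [Cfsg.sympForm, Matrix.J, dotProduct, Matrix.mulVec, Fintype.sum_sum_type,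
      Matrix.fromBlocks_apply₁₁, Matrix.fromBlocks_apply₁₂, Matrix.fromBlocks_apply₂₁,
      Matrix.fromBlocks_apply₂₂, Matrix.zero_apply, Matrix.neg_apply, Matrix.one_apply]
    simp only [zero_mul, Finset.sum_const_zero, zero_add, add_zero, neg_mul, ite_mul, one_mul,
      Finset.sum_neg_distrib, Finset.sum_ite_eq, Finset.mem_univ, if_true, mul_neg]
    rw [Finset.sum_sub_distrib]; ring
  rw [h]
  refine Finset.sum_congr rfl fun i _ => ?_
  rw [CharTwo.sub_eq_add, add_comm]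

theorem result {F : Type*} [Field F] [Fintype F] [CharP F 2] {m : ℕ} (A : Matrix.symplecticGroup (Fin m) F) : ∃ Q : QuadraticForm F (Fin m ⊕ Fin m → F), (∀ u v : Fin m ⊕ Fin m → F, QuadraticMap.polar ⇑Q u v = Cfsg.sympForm m F u v) ∧ ∀ v : Fin m ⊕ Fin m → F, Q ((A : Matrix (Fin m ⊕ Fin m) (Fin m ⊕ Fin m) F).mulVec v) = Q v := by
  have hA : (A : Matrix (Fin m ⊕ Fin m) (Fin m ⊕ Fin m) F).transpose * Matrix.J (Fin m) F * A = Matrix.J (Fin m) F :=
    SymplecticGroup.mem_iff'.1 A.2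
  obtain ⟨l, hl⟩ := H48.CharTwoQ.exists_invariant (H48.QuadStd.qPlus m F)
    (Matrix.mulVecLin (A : Matrix (Fin m ⊕ Fin m) (Fin m ⊕ Fin m) F)) (fun u v => by
      rw [aux_symp, aux_symp]
      simp only [Matrix.mulVecLin_apply, Cfsg.sympForm]
      rw [← Matrix.vecMul_transpose, Matrix.mulVec_mulVec, ← Matrix.dotProduct_mulVec,
        Matrix.mulVec_mulVec, ← mul_assoc, hA])
  refine ⟨H48.CharTwoQ.addSq (H48.QuadStd.qPlus m F) l, fun u v => ?_, fun v => hl v⟩
  rw [H48.CharTwoQ.polar_addSq, aux_symp]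

end Cfsg.Agent.S2585
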