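import Cfsg.Statements.S2590
import Cfsg.Agent.Lib.H49.FormConj3
import Cfsg.Agent.Lib.H49.OrthAdj
import Cfsg.Agent.Lib.H48.SimMatrix

set_option autoImplicit false
open Cfsg

namespace Cfsg.Agent.S2590

open H49.FormConj3 H49.FormConj2 H49.OrthAdj H48.QuadSplit

/-- Two semisimple elements of odd order of a finite orthogonal group (isometry group of a quadratic form on F^n with non-degenerate polar form, F finite of characteristic p; the elements have odd order prime to p) are conjugate in the orthogonal group if and only if they are conjugate in GL_n(F). -/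
theorem result {F : Type*} [Field F] [Fintype F] {p : ℕ} [Fact p.Prime] [CharP F p] {n : ℕ} (Q : QuadraticForm F (Fin n → F)) (hQ : (QuadraticMap.polarBilin Q).Nondegenerate) (A B : ↥(Cfsg.isometryGroup F ⇑Q)) (hodd : Odd (orderOf A)) (hA : (orderOf A).Coprime p) : IsConj A B ↔ IsConj ((A : Matrix.GeneralLinearGroup (Fin n) F) : Matrix (Fin n) (Fin n) F) ((B : Matrix.GeneralLinearGroup (Fin n) F) : Matrix (Fin n) (Fin n) F) := by
  constructor
  · intro h
    exact ((Units.coeHom (Matrix (Fin n) (Fin n) F)).comp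
      (Cfsg.isometryGroup F (⇑Q)).subtype).map_isConj h
  · intro hconj
    obtain ⟨cl, hcl⟩ := H48.SimMatrix.exists_equiv_of_isConj hconj
    set N := orderOf A with hNdef
    have hN : (N : F) ≠ 0 := by
      rw [Ne, CharP.cast_eq_zero_iff F p N]
      intro hd
      have := Nat.Coprime.eq_one_of_dvd hA.symm hd
      exact (Fact.out : p.Prime).one_lt.ne' this
    let g : (Fin n → F) →ₗ[F] (Fin n → F) := Matrix.toLin' (mt A)
    have hgA : ∀ v, g v = (mt A).mulVec v := fun v => rfl
    have hgN : g ^ N = 1 := by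
      have h1 : (mt A) ^ N = 1 := by
        let φ : G Q →* Matrix (Fin n) (Fin n) F := (Units.coeHom (Matrix (Fin n) (Fin n) F)).comp
          (Cfsg.isometryGroup F (⇑Q)).subtype
        have h2 : φ (A ^ N) = φ 1 := by rw [hNdef, pow_orderOf_eq_one]
        rw [map_pow, map_one] at h2
        exact h2
      rw [← Matrix.toLin'_pow, h1, Matrix.toLin'_one]
      rfl
    let Q' : QuadraticForm F (Fin n → F) := Q.comp cl.toLinearMap
    have hQ'a : ∀ v, Q' v = Q (cl v) := fun v => rfl
    have hAB : ∀ v, cl (g v) = (mt B).mulVec (cl v) := hcl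
    have hND : ND Q := nd_iff.mpr hQ
    have hE : Q'.Equivalent Q := ⟨⟨cl, fun v => rfl⟩⟩
    obtain ⟨y, hy1, hy2⟩ := orth_conj g Q Q' hND (nd_of_equivalent hE.symm hND) hE.symm
      (fun v => isom A v) (fun v => by
        rw [hQ'a, hQ'a, hAB]; exact isom B _) N hodd hN hgN
    have hy2' : ∀ v, Q (y v) = Q (cl v) := hy2
    obtain ⟨h, hh⟩ := exists_coe Q (y.symm.trans cl) (fun v => by
      rw [LinearEquiv.trans_apply, ← hy2', y.apply_symm_apply])
    rw [isConj_iff]
    refine ⟨h, ?_⟩
    rw [mul_inv_eq_iff_eq_mul]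
    apply mt_ext
    intro x
    rw [mt_mul, mt_mul, ← Matrix.mulVec_mulVec, ← Matrix.mulVec_mulVec, hh, hh,
      LinearEquiv.trans_apply, LinearEquiv.trans_apply, ← hAB, ← hgA]
    congr 1
    apply y.injective
    rw [hy1, y.apply_symm_apply, y.apply_symm_apply]

end Cfsg.Agent.S2590
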