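import Cfsg.Statements.S2593
import Cfsg.Agent.Lib.H48.SpInvol

set_option autoImplicit false
open Cfsg

namespace Cfsg.Agent.S2593


theorem result {F : Type*} [Field F] [Fintype F] [CharP F 2] {m : ℕ} (hm : 1 ≤ m) : Nat.card {C : ConjClasses ↥(Matrix.symplecticGroup (Fin m) F) // ∃ g : Matrix.symplecticGroup (Fin m) F, ConjClasses.mk g = C ∧ orderOf g = 2} = m + m / 2 := by
  exact H48.SpInvol.card_classes hm


end Cfsg.Agent.S2593
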