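import Cfsg.Statements.S2594
import Cfsg.Agent.Lib.H48.SpTransv

set_option autoImplicit false
open Cfsg

namespace Cfsg.Agent.S2594


theorem result {F : Type*} [Field F] [Fintype F] [CharP F 2] {q : ℕ} (hF : Fintype.card F = q) {m : ℕ} (hm : 1 ≤ m) (t : Matrix.symplecticGroup (Fin m) F) (ht : ((t : Matrix (Fin m ⊕ Fin m) (Fin m ⊕ Fin m) F) - 1).rank = 1) : Nat.card ↥(Subgroup.centralizer ({t} : Set ↥(Matrix.symplecticGroup (Fin m) F))) = q ^ (2 * m - 1) * (q ^ ((m - 1) ^ 2) * ∏ i : Fin (m - 1), (q ^ (2 * ((i : ℕ) + 1)) - 1)) := by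
  have h1 := H48.SpTransv.card_centralizer hF t ht
  rw [Cfsg.Agent.S0245.result hF m] at h1
  obtain ⟨k, rfl⟩ : ∃ k, m = k + 1 := ⟨m - 1, by omega⟩
  have hq : 2 ≤ q := by rw [← hF]; exact Fintype.one_lt_card
  have hpos : 0 < q ^ (2 * (k + 1)) - 1 := by
    have : 1 < q ^ (2 * (k + 1)) := Nat.one_lt_pow (by omega) (by omega)
    omega
  apply Nat.eq_of_mul_eq_mul_right hpos
  rw [h1, Finset.prod_range_succ, Nat.add_sub_cancel, Finset.prod_range]
  have e1 : q ^ (k + 1) ^ 2 = q ^ (2 * (k + 1) - 1) * q ^ k ^ 2 := by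
    rw [← pow_add]
    congr 1
    rw [show 2 * (k + 1) - 1 = 2 * k + 1 by omega]
    ring
  rw [e1]
  ring


end Cfsg.Agent.S2594
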