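import Cfsg.Statements.S2595
import Cfsg.Agent.Lib.H48.OInvMat

set_option autoImplicit false
open Cfsg

namespace Cfsg.Agent.S2595


theorem result {F : Type*} [Field F] [Fintype F] [CharP F 2] {m : ℕ} (hm : 1 ≤ m) : Nat.card {C : ConjClasses ↥(Cfsg.isometryGroup F (Cfsg.quadFormPlus m F)) // ∃ g : ↥(Cfsg.isometryGroup F (Cfsg.quadFormPlus m F)), ConjClasses.mk g = C ∧ orderOf g = 2} = m + m / 2 := by
  rw [← H48.QuadStd.coe_qPlus]
  exact H48.OInv.card_classes (H48.QuadStd.nd_qPlus m) (by simp [two_mul])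
    H48.OInv.plus_hn H48.OInv.plus_ha H48.OInv.plus_hna


end Cfsg.Agent.S2595
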