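import Cfsg.Statements.S2596
import Cfsg.Agent.Lib.H48.OInvMat

set_option autoImplicit false
open Cfsg

namespace Cfsg.Agent.S2596


theorem result {F : Type*} [Field F] [Fintype F] [CharP F 2] {m : ℕ} (hm : 1 ≤ m) (a b : F) (hab : ∀ z₁ z₂ : F, z₁ ^ 2 + a * z₁ * z₂ + b * z₂ ^ 2 = 0 → z₁ = 0 ∧ z₂ = 0) : Nat.card {C : ConjClasses ↥(Cfsg.isometryGroup F (Cfsg.quadFormMinus (m - 1) F a b)) // ∃ g : ↥(Cfsg.isometryGroup F (Cfsg.quadFormMinus (m - 1) F a b)), ConjClasses.mk g = C ∧ orderOf g = 2} = m + (m - 1) / 2 := by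
  obtain ⟨r, rfl⟩ : ∃ r, m = r + 1 := ⟨m - 1, by omega⟩
  rw [Nat.add_sub_cancel, ← H48.QuadStd.coe_qMinus]
  exact H48.OInv.card_classes
    (H48.QuadStd.nd_qMinus r (H48.QuadStd.disc_ne_zero hab)) (by
      simp only [Fintype.card_sum, Fintype.card_fin]; ring)
    (H48.OInv.minus_hn hab) (H48.OInv.minus_ha a b) (H48.OInv.minus_hna hab)


end Cfsg.Agent.S2596
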