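import Cfsg.Statements.S2597
import Cfsg.Agent.Lib.H48.OInvCount

set_option autoImplicit false
open Cfsg

namespace Cfsg.Agent.S2597


theorem result {F : Type*} [Field F] [Fintype F] [CharP F 2] {m : ℕ} (hm : 1 ≤ m) (h : Fintype.card F ≠ 2 ∨ m ≠ 2) : Nat.card {C : ConjClasses ↥(Cfsg.Omega F (Cfsg.quadFormPlus m F)) // ∃ g : ↥(Cfsg.Omega F (Cfsg.quadFormPlus m F)), ConjClasses.mk g = C ∧ orderOf g = 2} = 2 * (m / 2) + (if Even m then 1 else 0) := by
  rw [← H48.QuadStd.coe_qPlus]
  have hidx : (Cfsg.Omega F (⇑(H48.QuadStd.qPlus m F))).index = 2 :=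
    (H17.DicksonInv.main_even (H48.QuadSplit.nd_iff.mp (H48.QuadStd.nd_qPlus m)) (by simp; omega)
      (by
        rcases h with h | h
        · exact Or.inl h
        · right
          simp only [Fintype.card_sum, Fintype.card_fin]
          omega)).1
  rcases Nat.even_or_odd m with he | ho
  · rw [H48.OInv.card_classes_Omega_plus hm he hidx, if_pos he]
    ring
  · rw [if_neg (by rwa [Nat.not_even_iff_odd])]
    rw [H48.OInv.card_classes_Omega (H48.QuadStd.nd_qPlus m) (m := m) (n := m / 2)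
      (by simp [two_mul]) hidx H48.OInv.plus_hn (by obtain ⟨k, hk⟩ := ho; omega)
      H48.OInv.plus_ha H48.OInv.plus_hna]
    ring


end Cfsg.Agent.S2597
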