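import Cfsg.Statements.S2599
import Cfsg.Agent.Lib.H48.CharTwoQ

set_option autoImplicit false
open Cfsg

namespace Cfsg.Agent.S2599

theorem aux {F V : Type*} [Field F] [Fintype F] {p : ℕ} [Fact p.Prime] [CharP F p]
    [AddCommGroup V] [Module F V] [FiniteDimensional F V] (Q : QuadraticForm F V) (g : V →ₗ[F] V)
    (hg : Function.Injective g) (hgQ : ∀ v, Q (g v) = Q v)
    (U : Submodule F V) (hU0 : U ≠ ⊥) (hUx : ∀ u ∈ U, g u ∈ U)
    (hirr : ∀ W : Submodule F V, W ≤ U → (∀ w ∈ W, g w ∈ W) → W = ⊥ ∨ W = U) :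
    U ⊓ LinearMap.BilinForm.orthogonal (QuadraticMap.polarBilin Q) U = ⊥ ∨ (∀ u ∈ U, Q u = 0) ∨
      (p = 2 ∧ Module.finrank F U = 1 ∧ (∃ u ∈ U, Q u ≠ 0) ∧ ∀ u ∈ U, g u = u) := by
  classical
  have hpol : ∀ u v, QuadraticMap.polar Q (g u) (g v) = QuadraticMap.polar Q u v := fun u v =>
    H48.QuadWitt.polar_isom (g := g) (fun _ _ => map_add g _ _) hgQ u v
  have hmap : U.map g = U := by
    apply Submodule.eq_of_le_of_finrank_eq
    · rintro _ ⟨u, hu, rfl⟩; exact hUx u hu
    · exact (Submodule.equivMapOfInjective g hg U).finrank_eq.symm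
  rw [← H48.QuadSplit.orth_eq]
  rcases hirr (U ⊓ H48.QuadSplit.orth Q U) inf_le_left (by
    rintro w ⟨hw1, hw2⟩
    refine ⟨hUx w hw1, fun u hu => ?_⟩
    rw [← hmap] at hu
    obtain ⟨u', hu', rfl⟩ := hu
    rw [hpol]
    exact hw2 u' hu') with h | h
  · exact Or.inl h
  · right
    have hperp : ∀ u ∈ U, ∀ v ∈ U, QuadraticMap.polar Q u v = 0 := by
      intro u hu v hv
      have : v ∈ U ⊓ H48.QuadSplit.orth Q U := by rw [h]; exact hv
      exact this.2 u hu
    by_cases hp : p = 2
    · subst hp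
      let l : U →ₗ[F] F := H48.CharTwoQ.sqrtLin (fun u : U => Q (u : V))
        (fun u v => by
          change Q ((u : V) + (v : V)) = _
          rw [QuadraticMap.map_add Q, hperp _ u.2 _ v.2, add_zero])
        (fun c v => by
          change Q (c • (v : V)) = _
          rw [QuadraticMap.map_smul, smul_eq_mul]; ring)
      have hl : ∀ u : U, l u ^ 2 = Q (u : V) := fun u => H48.CharTwoQ.sqrtLin_sq _ _ _ u
      have hl0 : ∀ u : U, l u = 0 ↔ Q (u : V) = 0 := fun u => by
        rw [← hl]; exact (pow_eq_zero_iff two_ne_zero).symm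
      rcases hirr ((LinearMap.ker l).map U.subtype) (Submodule.map_subtype_le _ _) (by
        rintro _ ⟨u, hu, rfl⟩
        refine ⟨⟨g u, hUx u u.2⟩, ?_, rfl⟩
        have hu' : l u = 0 := hu
        change l _ = 0
        rw [hl0] at hu' ⊢
        change Q (g u) = 0
        rw [hgQ]; exact hu') with h1 | h1
      · right
        have hinj : Function.Injective l := by
          rw [← LinearMap.ker_eq_bot]
          exact Submodule.map_injective_of_injective U.subtype_injective (h1.trans (Submodule.map_bot _).symm)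
        have hle : Module.finrank F U ≤ 1 := by
          have := LinearMap.finrank_le_finrank_of_injective hinj
          rwa [Module.finrank_self] at this
        have hpos : 0 < Module.finrank F U := by
          rw [Nat.pos_iff_ne_zero]
          intro h0
          exact hU0 (Submodule.finrank_eq_zero.1 h0)
        have h1' : Module.finrank F U = 1 := by omega
        obtain ⟨u, hu, hu0⟩ := Submodule.exists_mem_ne_zero_of_ne_bot hU0
        have hQu : Q u ≠ 0 := by
          intro h0
          have h2 : l ⟨u, hu⟩ = 0 := (hl0 _).2 h0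
          have h3 := hinj (h2.trans (map_zero l).symm)
          exact hu0 (congrArg Subtype.val h3)
        refine ⟨rfl, h1', ⟨u, hu, hQu⟩, ?_⟩
        have hspan : ∀ w : U, ∃ c : F, c • (⟨u, hu⟩ : U) = w := fun w =>
          exists_smul_eq_of_finrank_eq_one h1' (fun h0 => hu0 (congrArg Subtype.val h0)) w
        have hgu : g u = u := by
          obtain ⟨c, hc⟩ := hspan ⟨g u, hUx u hu⟩
          have hc' : c • u = g u := congrArg Subtype.val hc
          have h2 := hgQ u
          rw [← hc', QuadraticMap.map_smul, smul_eq_mul] at h2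
          have h3 : c * c = 1 := by
            apply mul_right_cancel₀ hQu
            rw [h2, one_mul]
          have h4 : c = 1 := H48.CharTwoQ.sq_inj (by rw [pow_two, h3, one_pow])
          rw [← hc', h4, one_smul]
        intro w hw
        obtain ⟨c, hc⟩ := hspan ⟨w, hw⟩
        have hc' : c • u = w := congrArg Subtype.val hc
        rw [← hc', map_smul, hgu]
      · left
        intro u hu
        rw [← h1] at hu
        obtain ⟨v, hv, rfl⟩ := hu
        exact (hl0 v).1 hv
    · left
      intro u hu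
      have h1 := hperp u hu u hu
      rw [QuadraticMap.polar_self, ← Nat.cast_smul_eq_nsmul F, Nat.cast_ofNat] at h1
      refine (smul_eq_zero.1 h1).resolve_left fun h2 => hp ?_
      have h3 : p ∣ 2 := (CharP.cast_eq_zero_iff F p 2).1 (by exact_mod_cast h2)
      exact (Nat.prime_dvd_prime_iff_eq Fact.out Nat.prime_two).1 h3

theorem result {F : Type*} [Field F] [Fintype F] {p : ℕ} [Fact p.Prime] [CharP F p] {n : ℕ} (Q : QuadraticForm F (Fin n → F)) (hQ : (QuadraticMap.polarBilin Q).Nondegenerate) (x : ↥(Cfsg.isometryGroup F ⇑Q)) (hx : (orderOf x).Coprime p) (U : Submodule F (Fin n → F)) (hU0 : U ≠ ⊥) (hUx : ∀ u ∈ U, ((x : Matrix.GeneralLinearGroup (Fin n) F) : Matrix (Fin n) (Fin n) F).mulVec u ∈ U) (hirr : ∀ W : Submodule F (Fin n → F), W ≤ U → (∀ w ∈ W, ((x : Matrix.GeneralLinearGroup (Fin n) F) : Matrix (Fin n) (Fin n) F).mulVec w ∈ W) → W = ⊥ ∨ W = U) : U ⊓ LinearMap.BilinForm.orthogonal (QuadraticMap.polarBilin Q) U = ⊥ ∨ (∀ u ∈ U, Q u = 0) ∨ (p = 2 ∧ Module.finrank F U = 1 ∧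 (∃ u ∈ U, Q u ≠ 0) ∧ ∀ u ∈ U, ((x : Matrix.GeneralLinearGroup (Fin n) F) : Matrix (Fin n) (Fin n) F).mulVec u = u) := by
  refine aux (p := p) Q (Matrix.mulVecLin ((x : Matrix.GeneralLinearGroup (Fin n) F) : Matrix (Fin n) (Fin n) F))
    ?_ (fun v => ?_) U hU0 hUx hirr
  · intro u v huv
    have h1 := congrArg (fun w => (((x : Matrix.GeneralLinearGroup (Fin n) F)⁻¹ : Matrix.GeneralLinearGroup (Fin n) F) : Matrix (Fin n) (Fin n) F).mulVec w) huv
    simpa [Matrix.mulVec_mulVec] using h1
  · exact x.2 v 0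

end Cfsg.Agent.S2599
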