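import Cfsg.Statements.S2600
import Cfsg.Agent.Lib.H17.SpCount

set_option autoImplicit false
open Cfsg

namespace Cfsg.Agent.S2600

open Matrix H50.SpBasic H50.SpField H50.SpFieldClass H17.SpGraph H17.SpGraph4 H17.SpCount

variable {F : Type*} [Field F] [Finite F] [CharP F 2]

theorem conj_injective : Function.Injective (MulAut.conj : Cfsg.PSp 2 F →* MulAut (Cfsg.PSp 2 F)) := by
  rw [injective_iff_map_eq_one]
  intro x hx
  obtain ⟨s, rfl⟩ := QuotientGroup.mk_surjective x
  rw [conj_eq_psiSp, psiSp_eq_one_iff le_rfl] at hx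
  obtain ⟨-, u, hu⟩ := hx
  have h1 : lam (toG s) = lam (scS u : Cfsg.GSp 2 F) := by rw [hu]
  rw [lam_toG (by norm_num), lam_scS (by norm_num)] at h1
  have h2 : u = 1 := by
    apply Units.ext
    have h3 : ((u : F) - 1) ^ 2 = 0 := by
      have h4 : (u : F) ^ 2 = 1 := by
        have := congrArg Units.val h1
        rw [Units.val_one, Units.val_pow_eq_pow_val] at this
        exact this.symm
      have h5 : (2 : F) = 0 := CharTwo.two_eq_zero
      linear_combination h4 + (1 - (u : F)) * h5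
    have := pow_eq_zero_iff (two_ne_zero) |>.mp h3
    rw [Units.val_one]
    exact sub_eq_zero.mp this
  rw [h2, map_one] at hu
  have h3 : s = 1 := by
    apply Subtype.ext
    have := congrArg (fun g : Cfsg.GSp 2 F =>
      ((g : GL (Fin 2 ⊕ Fin 2) F) : Matrix (Fin 2 ⊕ Fin 2) (Fin 2 ⊕ Fin 2) F)) hu
    exact this
  rw [h3]; rfl

theorem frob_pow (j : ℕ) (x : F) : (frob F ^ j) x = x ^ (2 ^ j) := by
  induction j with
  | zero => rw [pow_zero, pow_zero, pow_one]; rfl
  | succ j ih =>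
    rw [pow_succ']
    change frob F ((frob F ^ j) x) = _
    rw [ih, frob_apply, ← pow_mul, pow_succ]

theorem le_of_frob_pow {f j : ℕ} (hF : Nat.card F = 2 ^ f) (hj : 1 ≤ j) (h : frob F ^ j = 1) : f ≤ j := by
  obtain ⟨u, hu⟩ := IsCyclic.exists_generator (α := Fˣ)
  have hord : orderOf u = 2 ^ f - 1 := by
    rw [orderOf_eq_card_of_forall_mem_zpowers hu, Nat.card_units, hF]
  have h1 : (u : F) ^ (2 ^ j) = u := by
    rw [← frob_pow, h]; rfl
  have h2 : u ^ (2 ^ j - 1) = 1 := by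
    apply Units.ext
    rw [Units.val_pow_eq_pow_val, Units.val_one]
    have h3 : (u : F) ^ (2 ^ j) = u * (u : F) ^ (2 ^ j - 1) := by
      rw [← pow_succ']
      congr 1
      have : 1 ≤ 2 ^ j := Nat.one_le_two_pow
      omega
    rw [h3] at h1
    exact mul_left_cancel₀ u.ne_zero (by rw [h1, mul_one])
  have h3 := orderOf_dvd_of_pow_eq_one h2
  rw [hord] at h3
  have h4 : 0 < 2 ^ j - 1 := by
    have : 2 ^ 1 ≤ 2 ^ j := Nat.pow_le_pow_right (by norm_num) hj
    omega
  have h5 := Nat.le_of_dvd h4 h3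
  have h6 : 2 ^ f ≤ 2 ^ j := by
    have : 1 ≤ 2 ^ f := Nat.one_le_two_pow
    omega
  exact (Nat.pow_le_pow_iff_right (by norm_num)).mp h6

/-- Outer automorphism group of PSp_4(q) for q = 2^f even: it is cyclic of order 2f, generated by the class of the exceptional (graph-field) automorphism whose square is the Frobenius field automorphism. -/
theorem result {F : Type*} [Field F] [Fintype F] {f : ℕ} (hf : 1 ≤ f) (hF : Fintype.card F = 2 ^ f) : IsCyclic (Cfsg.Out (Cfsg.PSp 2 F)) ∧ Nat.card (Cfsg.Out (Cfsg.PSp 2 F)) = 2 * f := by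
  classical
  have hch : CharP F 2 := H50.FieldAut.charP_of_card 2 (f := f) (by rw [Nat.card_eq_fintype_card, hF])
  have hcardσ : Nat.card (F ≃+* F) = f :=
    H50.FieldAut.card_ringAut 2 (by rw [Nat.card_eq_fintype_card, hF])
  have hfin : Finite (MulAut (Cfsg.PSp 2 F)) := finite_mulAut _
  have hnF : Nat.card F = 2 ^ f := by rw [Nat.card_eq_fintype_card, hF]
  -- the order of `Out`
  have hout : Nat.card (Cfsg.Out (Cfsg.PSp 2 F)) = 2 * f := by
    have h1 := card_aut_two (F := F)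
    have h2 : Nat.card (SG 2 F) = Nat.card (Cfsg.PSp 2 F) :=
      Nat.card_congr (mkE F).toEquiv
    rw [h2, hcardσ] at h1
    have h3 : Nat.card (Cfsg.Inn (Cfsg.PSp 2 F)) = Nat.card (Cfsg.PSp 2 F) :=
      (Nat.card_congr (MonoidHom.ofInjective conj_injective).toEquiv).symm
    have h4 := Subgroup.card_eq_card_quotient_mul_card_subgroup (Cfsg.Inn (Cfsg.PSp 2 F))
    rw [h1, h3] at h4
    have hpos : 0 < Nat.card (Cfsg.PSp 2 F) := Nat.card_pos
    apply Nat.eq_of_mul_eq_mul_right hpos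
    rw [← h4]; ring
  -- the order of the class of the exceptional automorphism
  let t : Cfsg.Out (Cfsg.PSp 2 F) := QuotientGroup.mk (tau F)
  have hpow2 : ∀ j : ℕ, (tau F) ^ (2 * j) = psiSp 1 (frob F ^ j) := by
    intro j
    rw [pow_mul, pow_two, tau_sq, psiSp_pow, nm_one_left]
  have hinn : ∀ x ∈ Cfsg.Inn (Cfsg.PSp 2 F), ∃ g : Cfsg.GSp 2 F, x = psiSp g 1 := by
    rintro _ ⟨y, rfl⟩
    obtain ⟨s, rfl⟩ := QuotientGroup.mk_surjective y
    exact ⟨toG s, conj_eq_psiSp s⟩
  have hord : ∀ k : ℕ, 1 ≤ k → t ^ k = 1 → 2 * f ≤ k := by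
    intro k hk htk
    have h1 : (tau F) ^ k ∈ Cfsg.Inn (Cfsg.PSp 2 F) := (QuotientGroup.eq_one_iff _).mp htk
    obtain ⟨g, hg⟩ := hinn _ h1
    rcases Nat.even_or_odd' k with ⟨j, rfl | rfl⟩
    · rw [hpow2] at hg
      have h2 := ((psiSp_eq_iff' le_rfl).mp hg).1
      have := le_of_frob_pow hnF (by omega) h2
      omega
    · exfalso
      rw [pow_succ', hpow2] at hg
      refine tau_ne (g * gspMap 1 (gspMap (frob F ^ j)⁻¹ (1 : Cfsg.GSp 2 F)⁻¹)) (1 * (frob F ^ j)⁻¹) ?_
      rw [← psiSp_mul, ← psiSp_inv, ← hg, mul_inv_cancel_right]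
  have horder : orderOf t = 2 * f := by
    apply le_antisymm
    · rw [← hout]
      exact orderOf_le_card
    · exact hord _ (orderOf_pos t) (pow_orderOf_eq_one t)
  exact ⟨isCyclic_of_orderOf_eq_card t (by rw [horder, hout]), hout⟩

end Cfsg.Agent.S2600
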