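import Cfsg.Statements.S2601
import Cfsg.Agent.Lib.H50.PSLOut

set_option autoImplicit false
open Cfsg

namespace Cfsg.Agent.S2601

/-- Structure of the outer automorphism group of PSL_n(q), n ≥ 3, q = p^f: it has a normal cyclic subgroup of order gcd(n, q − 1) (the diagonal automorphisms) whose quotient is the direct product of a cyclic group of order f (field automorphisms) and a group of order 2 (the inverse-transpose graph automorphism). -/
theorem result {F : Type*} [Field F] [Fintype F] {p f n : ℕ} [Fact p.Prime] (hf : 1 ≤ f) (hF : Fintype.card F = p ^ f) (hn : 3 ≤ n) : ∃ φ : Cfsg.Out (Matrix.ProjectiveSpecialLinearGroup (Fin n) F) →* Multiplicative (ZMod f × ZMod 2), Function.Surjective φ ∧ IsCyclic φ.ker ∧ Nat.card φ.ker = Nat.gcd n (p ^ f - 1) := by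
  have h0 : 0 < n := by omega
  have hFn : Nat.card F = p ^ f := by rw [Nat.card_eq_fintype_card, hF]
  have hchar : CharP F p := H50.FieldAut.charP_of_card p hFn
  have hcyc : IsCyclic (F ≃+* F) := H50.FieldAut.isCyclic_ringAut p
  have hcard : Nat.card (F ≃+* F) = Nat.card (Multiplicative (ZMod f)) := by
    rw [H50.FieldAut.card_ringAut p hFn, Nat.card_congr Multiplicative.toAdd, Nat.card_zmod]
  have : NeZero f := ⟨by omega⟩
  let e : (F ≃+* F) ≃* Multiplicative (ZMod f) := mulEquivOfCyclicCardEq hcard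
  obtain ⟨Φ, hΦ1, hΦ2⟩ := H50.PSLOut.exists_fieldPart (F := F) p (n := n) (by omega)
  obtain ⟨Ψ, hΨ1, hΨ2⟩ := H50.PSLOut.exists_graphPart (F := F) p hn
  have hΨ3 : ∀ g σ, Ψ (H50.PSLBasic.psi g σ * H50.PSLBasic.iota) = Multiplicative.ofAdd 1 := by
    intro g σ
    rw [map_mul, hΨ1, hΨ2, one_mul]
  let φ₀ : MulAut (Matrix.ProjectiveSpecialLinearGroup (Fin n) F) →* Multiplicative (ZMod f × ZMod 2) :=
    { toFun := fun α => Multiplicative.ofAdd (Multiplicative.toAdd (e (Φ α)), Multiplicative.toAdd (Ψ α))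
      map_one' := by simp only [map_one]; rfl
      map_mul' := by intro α β; simp only [map_mul]; rfl }
  have hφ₀ : ∀ α, φ₀ α = Multiplicative.ofAdd (Multiplicative.toAdd (e (Φ α)), Multiplicative.toAdd (Ψ α)) :=
    fun _ => rfl
  have hφ₀1 : ∀ α, φ₀ α = 1 ↔ Φ α = 1 ∧ Ψ α = 1 := by
    intro α
    rw [hφ₀]
    constructor
    · intro h
      have h1 := congrArg Multiplicative.toAdd h
      rw [toAdd_ofAdd, toAdd_one, Prod.mk_eq_zero] at h1
      refine ⟨?_, ?_⟩
      · have : e (Φ α) = 1 := h1.1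
        rwa [map_eq_one_iff e e.injective] at this
      · exact h1.2
    · rintro ⟨h1, h2⟩
      rw [h1, h2, map_one]
      rfl
  have hinn : Cfsg.Inn (Matrix.ProjectiveSpecialLinearGroup (Fin n) F) ≤ φ₀.ker := by
    rintro _ ⟨a, rfl⟩
    obtain ⟨s, rfl⟩ := QuotientGroup.mk_surjective a
    rw [MonoidHom.mem_ker, H50.PSLPure.conj_eq_psi, hφ₀1, hΦ1, hΨ1]
    exact ⟨rfl, rfl⟩
  let φ : Cfsg.Out (Matrix.ProjectiveSpecialLinearGroup (Fin n) F) →* Multiplicative (ZMod f × ZMod 2) :=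
    QuotientGroup.lift _ φ₀ hinn
  have hφ : ∀ α, φ (QuotientGroup.mk α) = φ₀ α := fun _ => rfl
  have hker : φ.ker = (H50.PSLOut.diagOut (F := F) (⟨0, h0⟩ : Fin n)).range := by
    ext x
    rw [H50.PSLOut.diagOut_range (by omega)]
    obtain ⟨α, rfl⟩ := QuotientGroup.mk_surjective x
    rw [MonoidHom.mem_ker, hφ, hφ₀1]
    constructor
    · rintro ⟨h1, h2⟩
      obtain ⟨g, σ, h | ⟨-, h⟩⟩ := H50.AutPSL2.aut_psl (p := p) (by omega : 2 ≤ n) α
      · rw [h, hΦ1] at h1
        refine ⟨g, ?_⟩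
        rw [h, h1]; rfl
      · rw [h, hΨ3] at h2
        exact absurd h2 (by decide)
    · rintro ⟨g, hg⟩
      have h1 : φ₀ α = φ₀ (H50.PSLBasic.psi g (RingEquiv.refl F)) := by
        rw [← hφ, ← hφ, hg]
      rw [← hφ₀1, h1, hφ₀1, hΦ1, hΨ1]
      exact ⟨rfl, rfl⟩
  refine ⟨φ, ?_, ?_, ?_⟩
  · intro y
    obtain ⟨σ, hσ⟩ := e.surjective (Multiplicative.ofAdd (Multiplicative.toAdd y).1)
    have h2 : (Multiplicative.toAdd y).2 = 0 ∨ (Multiplicative.toAdd y).2 = 1 := by
      generalize (Multiplicative.toAdd y).2 = z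
      revert z; decide
    rcases h2 with h2 | h2
    · refine ⟨QuotientGroup.mk (H50.PSLBasic.psi 1 σ), ?_⟩
      rw [hφ, hφ₀, hΦ1, hΨ1, hσ]
      apply Multiplicative.toAdd.injective
      exact Prod.ext rfl h2.symm
    · refine ⟨QuotientGroup.mk (H50.PSLBasic.psi 1 σ * H50.PSLBasic.iota), ?_⟩
      rw [hφ, hφ₀, hΦ2, hΨ3, hσ]
      apply Multiplicative.toAdd.injective
      exact Prod.ext rfl h2.symm
  · rw [hker]
    exact isCyclic_of_surjective (H50.PSLOut.diagOut (F := F) (⟨0, h0⟩ : Fin n)).rangeRestrict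
      (MonoidHom.rangeRestrict_surjective _)
  · rw [hker, H50.PSLOut.card_diagOut_range (by omega) _ hFn]

end Cfsg.Agent.S2601
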