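import Cfsg.Statements.S2604
import Cfsg.Agent.Lib.H48.OutO9
import Cfsg.Agent.S2694

set_option autoImplicit false
open Cfsg

namespace Cfsg.Agent.S2604


theorem result {F : Type*} [Field F] [Fintype F] {p f m : ℕ} [Fact p.Prime] (hf : 1 ≤ f) (hF : Fintype.card F = p ^ f) (hp : p ≠ 2) (hm : 3 ≤ m) : Nonempty (Cfsg.Out (Cfsg.POmega F (Cfsg.quadFormOdd m F)) ≃* Multiplicative (ZMod 2 × ZMod f)) := by

  have hodd : Odd (Fintype.card F) := by
    rw [hF]
    exact ((Fact.out : p.Prime).odd_of_ne_two hp).pow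
  exact H48.OutO.odd_dim hf hF hm hp (Cfsg.Agent.S2694.result hodd hm)


end Cfsg.Agent.S2604
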