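import Cfsg.Statements.S2607
import Cfsg.Agent.Lib.H48.OutO9
import Cfsg.Agent.Lib.H48.Oct5
import Cfsg.Agent.S2695

set_option autoImplicit false
open Cfsg

namespace Cfsg.Agent.S2607


theorem result {F : Type*} [Field F] [Fintype F] {f m : ℕ} (hf : 1 ≤ f) (hF : Fintype.card F = 2 ^ f) (hm : 4 ≤ m) : if m = 4 then Nonempty (Cfsg.Out (Cfsg.POmega F (Cfsg.quadFormPlus m F)) ≃* Equiv.Perm (Fin 3) × Multiplicative (ZMod f)) else Nonempty (Cfsg.Out (Cfsg.POmega F (Cfsg.quadFormPlus m F)) ≃* Multiplicative (ZMod 2 × ZMod f)) := by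
  haveI : Fact (Nat.Prime 2) := ⟨Nat.prime_two⟩
  split_ifs with h
  · subst h
    have hF' : Nat.card F = 2 ^ f := by rw [Nat.card_eq_fintype_card, hF]
    haveI : CharP F 2 := H50.FieldAut.charP_of_card 2 hF'
    have h1 := H48.Oct.iso_two hF' (by omega)
    rwa [H48.QuadStd.coe_qPlus] at h1
  · exact H48.OutO.plus_two hf hF hm (Cfsg.Agent.S2695.result (by omega)) rfl


end Cfsg.Agent.S2607
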