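import Cfsg.Statements.S2608
import Cfsg.Agent.Lib.H48.OutO9
import Cfsg.Agent.Lib.H48.Oct5
import Cfsg.Agent.S2695

set_option autoImplicit false
open Cfsg

namespace Cfsg.Agent.S2608


theorem result {F : Type*} [Field F] [Fintype F] {p f m : ℕ} [Fact p.Prime] (hf : 1 ≤ f) (hF : Fintype.card F = p ^ f) (hp : p ≠ 2) (hm : 4 ≤ m) : if m = 4 then Nonempty (Cfsg.Out (Cfsg.POmega F (Cfsg.quadFormPlus m F)) ≃* Equiv.Perm (Fin 4) × Multiplicative (ZMod f)) else if p ^ f % 4 = 3 ∧ Odd m then Nonempty (Cfsg.Out (Cfsg.POmega F (Cfsg.quadFormPlus m F)) ≃* Multiplicative (ZMod 2 × ZMod 2 × ZMod f)) else Nonempty (Cfsg.Out (Cfsg.POmega F (Cfsg.quadFormPlus m F)) ≃* DihedralGroup 4 × Multiplicative (ZMod f)) := by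
  by_cases h : m = 4
  · rw [if_pos h]
    subst h
    have hF' : Nat.card F = p ^ f := by rw [Nat.card_eq_fintype_card, hF]
    have h1 := H48.Oct.iso_odd hF' (by omega) (H48.OutO.two_ne_of_card hF' hp)
    rwa [H48.QuadStd.coe_qPlus] at h1
  · rw [if_neg h]
    exact H48.OutO.fin_S2608 hf hF hp hm (Cfsg.Agent.S2695.result (by omega))


end Cfsg.Agent.S2608
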