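import Cfsg.Statements.S2609
import Cfsg.Agent.Lib.H48.OmegaQ

set_option autoImplicit false
open Cfsg

namespace Cfsg.Agent.S2609


theorem result {F : Type*} [Field F] [Fintype F] (h2 : (2 : F) ≠ 0) {n : ℕ} (hn : 2 ≤ n) (Q : QuadraticForm F (Fin n → F)) (hQ : (QuadraticMap.polarBilin Q).Nondegenerate) (g : ↥(Cfsg.isometryGroup F ⇑Q)) (vs : List (Fin n → F)) (hvs : ∀ v ∈ vs, Q v ≠ 0) (hg : ((g : Matrix.GeneralLinearGroup (Fin n) F) : Matrix (Fin n) (Fin n) F) = (vs.map (fun v => Cfsg.reflectionMatrix ⇑Q v)).prod) : g ∈ Cfsg.Omega F ⇑Q ↔ (Even vs.length ∧ IsSquare (vs.map (fun v => Q v)).prod) := by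
  exact H48.OmegaQ.mem_Omega_iff h2 (by simpa using hn) Q hQ g vs hvs hg


end Cfsg.Agent.S2609
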