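import Cfsg.Statements.S2610
import Cfsg.Agent.Lib.H48.OmegaNegOne
import Cfsg.Agent.Lib.H48.QuadSim

set_option autoImplicit false
open Cfsg

namespace Cfsg.Agent.S2610


theorem result {F : Type*} [Field F] [Fintype F] (h2 : (2 : F) ≠ 0) {n : ℕ} (hn : 2 ≤ n) (he : Even n) (Q : QuadraticForm F (Fin n → F)) (hQ : (QuadraticMap.polarBilin Q).Nondegenerate) : (∃ g : ↥(Cfsg.isometryGroup F ⇑Q), g ∈ Cfsg.Omega F ⇑Q ∧ ((g : Matrix.GeneralLinearGroup (Fin n) F) : Matrix (Fin n) (Fin n) F) = -1) ↔ IsSquare (Matrix.of (fun i j : Fin n => QuadraticMap.polar ⇑Q (Pi.single i 1) (Pi.single j 1))).det := by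
  obtain ⟨b, hb, ho⟩ := H48.OmegaNegOne.exists_ortho_basis h2 Q hQ
  have hfin : Module.finrank F (Fin n → F) = n := by simp
  have key := H48.OmegaNeg.exists_iff h2 (by simpa using hn) Q hQ
    ((List.finRange _).map b) (by
      intro v hv
      obtain ⟨i, -, rfl⟩ := List.mem_map.mp hv
      exact hb i) (-1) (by
      apply Matrix.toLin'.injective
      apply b.ext
      intro j
      rw [Matrix.toLin'_apply, Matrix.toLin'_apply,
        H48.OmegaPlus.rprod_ortho Q b hb ho _ (List.nodup_finRange _) j,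
        if_pos (List.mem_finRange j), Matrix.neg_mulVec, Matrix.one_mulVec])
  rw [key]
  have hstd : (Matrix.of (fun i j : Fin n => QuadraticMap.polar ⇑Q (Pi.single i 1) (Pi.single j 1))).det
      = H48.Gram.gdet Q (Pi.basisFun F (Fin n)) := by
    rw [H48.Gram.gdet]
    simp
  rw [hstd]
  obtain ⟨d, hd, hdd⟩ := H48.Gram.gdet_change Q (Pi.basisFun F (Fin n)) b
  rw [hdd, H48.QuadSim.isSquare_sq_mul_iff hd, H48.OmegaNegOne.gdet_ortho Q b ho]
  obtain ⟨k, hk⟩ := he
  rw [Fintype.card_fin]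
  rw [show (2 : F) ^ Module.finrank F (Fin n → F) = (2 ^ k) ^ 2 by
      rw [hfin, hk, ← pow_mul]; congr 1; ring,
    H48.QuadSim.isSquare_sq_mul_iff (pow_ne_zero k h2)]
  rw [List.length_map, List.length_finRange, List.map_map]
  have e1 : (List.map ((fun v => Q v) ∘ ⇑b) (List.finRange (Module.finrank F (Fin n → F)))).prod =
      ∏ i, Q (b i) := by
    rw [← List.ofFn_eq_map, List.prod_ofFn]
    rfl
  rw [e1]
  constructor
  · exact fun h => h.2
  · intro h
    refine ⟨?_, h⟩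
    rw [hfin]
    exact ⟨k, hk⟩


end Cfsg.Agent.S2610
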