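import Cfsg.Statements.S2611
import Cfsg.Agent.Lib.H48.OmegaTwo

set_option autoImplicit false
open Cfsg

namespace Cfsg.Agent.S2611


theorem result {F : Type*} [Field F] [Fintype F] {m : ℕ} (hm : 1 ≤ m) (h : Fintype.card F ≠ 2 ∨ m ≠ 2) (A : GL (Fin m) F) : (∃ g : ↥(Cfsg.isometryGroup F (Cfsg.quadFormPlus m F)), g ∈ Cfsg.Omega F (Cfsg.quadFormPlus m F) ∧ ((g : Matrix.GeneralLinearGroup (Fin m ⊕ Fin m) F) : Matrix (Fin m ⊕ Fin m) (Fin m ⊕ Fin m) F) = Matrix.fromBlocks (A : Matrix (Fin m) (Fin m) F) 0 0 ((A : Matrix (Fin m) (Fin m) F)⁻¹).transpose) ↔ IsSquare (A : Matrix (Fin m) (Fin m) F).det := by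
  rw [← H48.QuadStd.coe_qPlus, ← H48.OmegaTwo.lev_mem_iff hm h A]
  constructor
  · rintro ⟨g, hg, hgA⟩
    have : g = H48.OmegaLevi.lev A := H48.OmegaTwo.coe_injective _ hgA
    rwa [← this]
  · intro hA
    exact ⟨_, hA, rfl⟩


end Cfsg.Agent.S2611
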