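import Cfsg.Statements.S2613
import Cfsg.Agent.Lib.H48.OmegaNeg

set_option autoImplicit false
open Cfsg

namespace Cfsg.Agent.S2613


theorem result {F : Type*} [Field F] [Fintype F] {q : ℕ} (hF : Fintype.card F = q) (hq : Odd q) {m : ℕ} (i : ℕ) (hi : 1 ≤ i) (him : i ≤ m) : (∃ g : ↥(Cfsg.isometryGroup F (Cfsg.quadFormPlus m F)), g ∈ Cfsg.Omega F (Cfsg.quadFormPlus m F) ∧ ((g : Matrix.GeneralLinearGroup (Fin m ⊕ Fin m) F) : Matrix (Fin m ⊕ Fin m) (Fin m ⊕ Fin m) F) = Matrix.diagonal (fun k : Fin m ⊕ Fin m => if (Sum.elim (fun j : Fin m => (j : ℕ)) (fun j : Fin m => (j : ℕ)) k) < i then (-1 : F) else 1)) ↔ q ^ i % 4 = 1 := by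
  subst hF
  have h2 : (2 : F) ≠ 0 :=
    (H48.FinFieldSq.two_ne_zero_iff_odd_card (F := F)).mpr (by rwa [Nat.card_eq_fintype_card])
  rw [← H48.QuadStd.coe_qPlus]
  have key := H48.OmegaNeg.neg_iff (F := F) hq (κ := Fin m ⊕ Fin m) (by simp; omega)
    (H48.QuadStd.qPlus m F) (H48.QuadSplit.nd_iff.mp (H48.QuadStd.nd_qPlus m)) _ _
    (H48.OmegaNeg.hps_plus m) i him
    (fun k : Fin m ⊕ Fin m => if (Sum.elim (fun j : Fin m => (j : ℕ)) (fun j : Fin m => (j : ℕ)) k) < i then (-1 : F) else 1)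
    (by
      rintro (k | k)
      · simp only [Sum.elim_inl]
        refine if_congr ?_ rfl rfl
        constructor
        · intro h
          exact ⟨k, h, Or.inl rfl⟩
        · rintro ⟨j, hj, h | h⟩
          · rw [Sum.inl_injective h]; exact hj
          · exact absurd h Sum.inl_ne_inr
      · simp only [Sum.elim_inr]
        refine if_congr ?_ rfl rfl
        constructor
        · intro h
          exact ⟨k, h, Or.inr rfl⟩
        · rintro ⟨j, hj, h | h⟩
          · exact absurd h Sum.inr_ne_inl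
          · rw [Sum.inr_injective h]; exact hj)
  exact key


end Cfsg.Agent.S2613
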