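import Cfsg.Statements.S2614
import Cfsg.Agent.Lib.H48.OmegaNeg

set_option autoImplicit false
open Cfsg

namespace Cfsg.Agent.S2614


theorem result {F : Type*} [Field F] [Fintype F] {q : ℕ} (hF : Fintype.card F = q) (hq : Odd q) {m : ℕ} (i : ℕ) (hi : 1 ≤ i) (him : i ≤ m) : (∃ g : ↥(Cfsg.isometryGroup F (Cfsg.quadFormOdd m F)), g ∈ Cfsg.Omega F (Cfsg.quadFormOdd m F) ∧ ((g : Matrix.GeneralLinearGroup (Unit ⊕ (Fin m ⊕ Fin m)) F) : Matrix (Unit ⊕ (Fin m ⊕ Fin m)) (Unit ⊕ (Fin m ⊕ Fin m)) F) = Matrix.diagonal (fun k : Unit ⊕ (Fin m ⊕ Fin m) => if (Sum.elim (fun _ : Unit => i) (Sum.elim (fun j : Fin m => (j : ℕ)) (fun j : Fin m => (j : ℕ))) k) < i then (-1 : F) else 1)) ↔ q ^ i % 4 = 1 := by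
  subst hF
  have h2 : (2 : F) ≠ 0 :=
    (H48.FinFieldSq.two_ne_zero_iff_odd_card (F := F)).mpr (by rwa [Nat.card_eq_fintype_card])
  rw [← H48.QuadStd.coe_qOdd]
  have key := H48.OmegaNeg.neg_iff (F := F) hq (κ := Unit ⊕ (Fin m ⊕ Fin m)) (by simp; omega)
    (H48.QuadStd.qOdd m F 1) (H48.QuadSplit.nd_iff.mp (H48.QuadStd.nd_qOdd m h2 one_ne_zero)) _ _
    (H48.OmegaNeg.hps_odd m 1) i him
    (fun k : Unit ⊕ (Fin m ⊕ Fin m) => if (Sum.elim (fun _ : Unit => i) (Sum.elim (fun j : Fin m => (j : ℕ)) (fun j : Fin m => (j : ℕ))) k) < i then (-1 : F) else 1)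
    (by
      rintro (k | k | k)
      · simp
      · simp only [Sum.elim_inl, Sum.elim_inr]
        refine if_congr ?_ rfl rfl
        constructor
        · intro h
          exact ⟨k, h, Or.inl rfl⟩
        · rintro ⟨j, hj, h | h⟩
          · rw [Sum.inl_injective (Sum.inr_injective h)]; exact hj
          · exact absurd (Sum.inr_injective h) Sum.inl_ne_inr
      · simp only [Sum.elim_inr]
        refine if_congr ?_ rfl rfl
        constructor
        · intro h
          exact ⟨k, h, Or.inr rfl⟩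
        · rintro ⟨j, hj, h | h⟩
          · exact absurd (Sum.inr_injective h) Sum.inr_ne_inl
          · rw [Sum.inr_injective (Sum.inr_injective h)]; exact hj)
  exact key


end Cfsg.Agent.S2614
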