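import Cfsg.Statements.S2615
import Cfsg.Agent.Lib.H48.OmegaNeg

set_option autoImplicit false
open Cfsg

namespace Cfsg.Agent.S2615


theorem result {F : Type*} [Field F] [Fintype F] {q : ℕ} (hF : Fintype.card F = q) (hq : Odd q) {m : ℕ} (a b : F) (hab : ∀ z₁ z₂ : F, z₁ ^ 2 + a * z₁ * z₂ + b * z₂ ^ 2 = 0 → z₁ = 0 ∧ z₂ = 0) (i : ℕ) (hi : 1 ≤ i) (him : i + 1 ≤ m) : (∃ g : ↥(Cfsg.isometryGroup F (Cfsg.quadFormMinus (m - 1) F a b)), g ∈ Cfsg.Omega F (Cfsg.quadFormMinus (m - 1) F a b) ∧ ((g : Matrix.GeneralLinearGroup ((Fin (m - 1) ⊕ Fin (m - 1)) ⊕ Fin 2) F) : Matrix ((Fin (m - 1) ⊕ Fin (m - 1)) ⊕ Fin 2) ((Fin (m - 1) ⊕ Fin (m - 1)) ⊕ Fin 2) F) = Matrix.diagonal (fun k : (Fin (m - 1) ⊕ Fin (m - 1)) ⊕ Fin 2 => if (Sum.elim (Sum.elim (fun j : Fin (m - 1) => (j : ℕ)) (fun j : Fin (m - 1) => (j : ℕ))) (fun _ : Fin 2 => i) k) < i then (-1 : F) else 1)) ↔ q ^ i % 4 = 1 := by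
  subst hF
  have h2 : (2 : F) ≠ 0 :=
    (H48.FinFieldSq.two_ne_zero_iff_odd_card (F := F)).mpr (by rwa [Nat.card_eq_fintype_card])
  rw [← H48.QuadStd.coe_qMinus]
  have key := H48.OmegaNeg.neg_iff (F := F) hq (κ := (Fin (m - 1) ⊕ Fin (m - 1)) ⊕ Fin 2)
    (by simp)
    (H48.QuadStd.qMinus (m - 1) F a b)
    (H48.QuadSplit.nd_iff.mp (H48.QuadStd.nd_qMinus (m - 1) (H48.QuadStd.disc_ne_zero hab))) _ _
    (H48.OmegaNeg.hps_minus (m - 1) a b) i (by omega)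
    (fun k : (Fin (m - 1) ⊕ Fin (m - 1)) ⊕ Fin 2 => if (Sum.elim (Sum.elim (fun j : Fin (m - 1) => (j : ℕ)) (fun j : Fin (m - 1) => (j : ℕ))) (fun _ : Fin 2 => i) k) < i then (-1 : F) else 1)
    (by
      rintro ((k | k) | k)
      · simp only [Sum.elim_inl]
        refine if_congr ?_ rfl rfl
        constructor
        · intro h
          exact ⟨k, h, Or.inl rfl⟩
        · rintro ⟨j, hj, h | h⟩
          · rw [Sum.inl_injective (Sum.inl_injective h)]; exact hj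
          · exact absurd (Sum.inl_injective h) Sum.inl_ne_inr
      · simp only [Sum.elim_inl, Sum.elim_inr]
        refine if_congr ?_ rfl rfl
        constructor
        · intro h
          exact ⟨k, h, Or.inr rfl⟩
        · rintro ⟨j, hj, h | h⟩
          · exact absurd (Sum.inl_injective h) Sum.inr_ne_inl
          · rw [Sum.inr_injective (Sum.inl_injective h)]; exact hj
      · simp)
  exact key


end Cfsg.Agent.S2615
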