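import Cfsg.Statements.S2616
import Cfsg.Agent.Lib.H48.QuadStd

set_option autoImplicit false
open Cfsg

namespace Cfsg.Agent.S2616


theorem result {F V : Type*} [Field F] [Finite F] [AddCommGroup V] [Module F V] [FiniteDimensional F V] {m : ℕ} (hm : 1 ≤ m) (hV : Module.finrank F V = 2 * m) (Q : QuadraticForm F V) (hQ : (QuadraticMap.polarBilin Q).Nondegenerate) : (∃ b : Module.Basis (Fin m ⊕ Fin m) F V, (∀ i, Q (b (Sum.inl i)) = 0 ∧ Q (b (Sum.inr i)) = 0) ∧ (∀ i j, QuadraticMap.polar ⇑Q (b (Sum.inl i)) (b (Sum.inr j)) = if i = j then 1 else 0) ∧ (∀ i j, QuadraticMap.polar ⇑Q (b (Sum.inl i)) (b (Sum.inl j)) = 0 ∧ QuadraticMap.polar ⇑Q (b (Sum.inr i)) (b (Sum.inr j)) = 0)) ∨ (∃ (b : Module.Basis ((Fin (m - 1) ⊕ Fin (m - 1)) ⊕ Fin 2) F V) (ζ : F), (∀ t : F, t ^ 2 + t + ζ ≠ 0) ∧ (∀ i, Q (b (Sum.inl (Sum.inl i))) = 0 ∧ Q (b (Sum.inl (Sum.inr i))) = 0) ∧ (∀ i j, QuadraticMap.polar ⇑Q (b (Sum.inl (Sum.inl i))) (b (Sum.inl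 (Sum.inr j))) = if i = j then 1 else 0) ∧ (∀ i j, QuadraticMap.polar ⇑Q (b (Sum.inl (Sum.inl i))) (b (Sum.inl (Sum.inl j))) = 0 ∧ QuadraticMap.polar ⇑Q (b (Sum.inl (Sum.inr i))) (b (Sum.inl (Sum.inr j))) = 0) ∧ (∀ i (k : Fin 2), QuadraticMap.polar ⇑Q (b (Sum.inl (Sum.inl i))) (b (Sum.inr k)) = 0 ∧ QuadraticMap.polar ⇑Q (b (Sum.inl (Sum.inr i))) (b (Sum.inr k)) = 0) ∧ Q (b (Sum.inr 0)) = 1 ∧ QuadraticMap.polar ⇑Q (b (Sum.inr 0)) (b (Sum.inr 1)) = 1 ∧ Q (b (Sum.inr 1)) = ζ) := by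
  classical
  rcases H48.QuadStd.classify_even m V Q (H48.QuadSplit.nd_iff.2 hQ) hV with ⟨⟨e⟩⟩ | ⟨-, z, hz, ⟨e⟩⟩
  · left
    have hb : ∀ i, Module.Basis.ofEquivFun e.toLinearEquiv i = e.toLinearEquiv.symm (Pi.single i 1) :=
      fun i => by simp
    have hQ' : ∀ w, Q (e.toLinearEquiv.symm w) = H48.QuadStd.qPlus m F w := fun w => by
      have := e.map_app (e.toLinearEquiv.symm w)
      rw [← this]; congr 1; exact e.toLinearEquiv.apply_symm_apply w
    have hp : ∀ u v, QuadraticMap.polar ⇑Q (e.toLinearEquiv.symm u) (e.toLinearEquiv.symm v) =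
        QuadraticMap.polar (H48.QuadStd.qPlus m F) u v := fun u v =>
      H48.QuadWitt.polar_isom (fun _ _ => map_add _ _ _) hQ' u v
    refine ⟨Module.Basis.ofEquivFun e.toLinearEquiv, fun i => ?_, fun i j => ?_, fun i j => ?_⟩
    · simp only [hb, hQ', H48.QuadStd.qPlus_apply]
      simp
    · simp only [hb, hp, H48.QuadStd.polar_qPlus]
      simp [Pi.single_apply, Finset.sum_ite_eq, eq_comm]
    · simp only [hb, hp, H48.QuadStd.polar_qPlus]
      simp
  · right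
    have hb : ∀ i, Module.Basis.ofEquivFun e.toLinearEquiv i = e.toLinearEquiv.symm (Pi.single i 1) :=
      fun i => by simp
    have hQ' : ∀ w, Q (e.toLinearEquiv.symm w) = H48.QuadStd.qMinus (m - 1) F 1 z w := fun w => by
      have := e.map_app (e.toLinearEquiv.symm w)
      rw [← this]; congr 1; exact e.toLinearEquiv.apply_symm_apply w
    have hp : ∀ u v, QuadraticMap.polar ⇑Q (e.toLinearEquiv.symm u) (e.toLinearEquiv.symm v) =
        QuadraticMap.polar (H48.QuadStd.qMinus (m - 1) F 1 z) u v := fun u v =>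
      H48.QuadWitt.polar_isom (fun _ _ => map_add _ _ _) hQ' u v
    refine ⟨Module.Basis.ofEquivFun e.toLinearEquiv, z, hz, fun i => ?_, fun i j => ?_, fun i j => ?_,
      fun i k => ?_, ?_, ?_, ?_⟩
    · simp only [hb, hQ', H48.QuadStd.qMinus_apply]
      simp
    · simp only [hb, hp, H48.QuadStd.polar_qMinus]
      simp [Pi.single_apply, Finset.sum_ite_eq, eq_comm]
    · simp only [hb, hp, H48.QuadStd.polar_qMinus]
      simp
    · simp only [hb, hp, H48.QuadStd.polar_qMinus]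
      simp
    · simp only [hb, hQ', H48.QuadStd.qMinus_apply]
      simp
    · simp only [hb, hp, H48.QuadStd.polar_qMinus]
      simp
    · simp only [hb, hQ', H48.QuadStd.qMinus_apply]
      simp

end Cfsg.Agent.S2616
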