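import Cfsg.Statements.S2617
import Cfsg.Agent.Lib.H48.QuadStd

set_option autoImplicit false
open Cfsg

namespace Cfsg.Agent.S2617


theorem result {F : Type*} [Field F] [Finite F] {m : ℕ} (hm : 1 ≤ m) (ζ : F) (hζ : ∀ t : F, t ^ 2 + t + ζ ≠ 0) (g : (Fin m ⊕ Fin m → F) ≃ₗ[F] ((Fin (m - 1) ⊕ Fin (m - 1)) ⊕ Fin 2 → F)) : ¬ (∀ v : Fin m ⊕ Fin m → F, Cfsg.quadFormMinus (m - 1) F 1 ζ (g v) = Cfsg.quadFormPlus m F v) := by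
  intro h
  obtain ⟨k, rfl⟩ : ∃ k, m = k + 1 := ⟨m - 1, by omega⟩
  exact H48.QuadStd.not_equivalent k hζ ⟨⟨g, fun v => by
    rw [H48.QuadStd.coe_qPlus, ← h v]
    exact congrFun (H48.QuadStd.coe_qMinus k 1 ζ) (g v)⟩⟩

end Cfsg.Agent.S2617
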