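import Cfsg.Statements.S2618
import Cfsg.Agent.Lib.H48.QuadStd

set_option autoImplicit false
open Cfsg

namespace Cfsg.Agent.S2618


theorem result {F V : Type*} [Field F] [Finite F] [AddCommGroup V] [Module F V] [FiniteDimensional F V] {m : ℕ} (hV : Module.finrank F V = 2 * m + 1) (Q : QuadraticForm F V) (hQ : (QuadraticMap.polarBilin Q).Nondegenerate) : ∃ b : Module.Basis (Unit ⊕ (Fin m ⊕ Fin m)) F V, Q (b (Sum.inl ())) ≠ 0 ∧ (∀ i, QuadraticMap.polar ⇑Q (b (Sum.inl ())) (b (Sum.inr (Sum.inl i))) = 0 ∧ QuadraticMap.polar ⇑Q (b (Sum.inl ())) (b (Sum.inr (Sum.inr i))) = 0) ∧ (∀ i, Q (b (Sum.inr (Sum.inl i))) = 0 ∧ Q (b (Sum.inr (Sum.inr i))) = 0) ∧ (∀ i j, QuadraticMap.polar ⇑Q (b (Sum.inr (Sum.inl i))) (b (Sum.inr (Sum.inr j))) = if i = j then 1 else 0) ∧ (∀ i j, QuadraticMap.polar ⇑Q (b (Sum.inr (Sum.inl i))) (b (Sum.inr (Sum.inl j))) = 0 ∧ QuadraticMap.polar ⇑Q (b (Sum.inr (Sum.inr i))) (b (Sum.inr (Sum.inr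 j))) = 0) := by
  classical
  obtain ⟨h2, c, hc, ⟨e⟩⟩ := H48.QuadStd.classify_odd m V Q (H48.QuadSplit.nd_iff.2 hQ) hV
  have hb : ∀ i, Module.Basis.ofEquivFun e.toLinearEquiv i = e.toLinearEquiv.symm (Pi.single i 1) :=
    fun i => by simp
  have hQ' : ∀ w, Q (e.toLinearEquiv.symm w) = H48.QuadStd.qOdd m F c w := fun w => by
    have := e.map_app (e.toLinearEquiv.symm w)
    rw [← this]; congr 1; exact e.toLinearEquiv.apply_symm_apply w
  have hp : ∀ u v, QuadraticMap.polar ⇑Q (e.toLinearEquiv.symm u) (e.toLinearEquiv.symm v) =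
      QuadraticMap.polar (H48.QuadStd.qOdd m F c) u v := fun u v =>
    H48.QuadWitt.polar_isom (fun _ _ => map_add _ _ _) hQ' u v
  refine ⟨Module.Basis.ofEquivFun e.toLinearEquiv, ?_, fun i => ?_, fun i => ?_, fun i j => ?_,
    fun i j => ?_⟩
  · simp only [hb, hQ', H48.QuadStd.qOdd_apply]
    simpa using hc
  · simp only [hb, hp, H48.QuadStd.polar_qOdd]
    simp
  · simp only [hb, hQ', H48.QuadStd.qOdd_apply]
    simp
  · simp only [hb, hp, H48.QuadStd.polar_qOdd]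
    simp [Pi.single_apply, Finset.sum_ite_eq, eq_comm]
  · simp only [hb, hp, H48.QuadStd.polar_qOdd]
    simp

end Cfsg.Agent.S2618
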