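import Cfsg.Statements.S2619
set_option autoImplicit false
open Cfsg

namespace Cfsg.Agent.S2619

theorem aux_ext {F V ι : Type*} [Field F] [AddCommGroup V] [Module F V] [Fintype ι] (b : Module.Basis ι F V) (Q Q' : QuadraticForm F V) (h1 : QuadraticMap.polarBilin Q = QuadraticMap.polarBilin Q') (h2 : ∀ i, Q (b i) = Q' (b i)) : Q = Q' := by
  classical
  ext v
  have hp : ∀ x y, QuadraticMap.polar ⇑Q x y = QuadraticMap.polar ⇑Q' x y := fun x y => by
    have := congrArg (fun B => B x y) h1
    simpa using this
  have key : ∀ s : Finset ι, ∀ c : ι → F, Q (∑ i ∈ s, c i • b i) = Q' (∑ i ∈ s, c i • b i) := by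
    intro s c
    induction s using Finset.induction_on with
    | empty => simp
    | insert a s ha ih =>
      rw [Finset.sum_insert ha, QuadraticMap.map_add Q, QuadraticMap.map_add Q', ih, hp, QuadraticMap.map_smul, QuadraticMap.map_smul, h2]
  rw [← b.sum_repr v]
  exact key _ _

theorem aux_toBilin {F V ι : Type*} [Field F] [AddCommGroup V] [Module F V] [Fintype ι] [DecidableEq ι] (b : Module.Basis ι F V) (M : Matrix ι ι F) (i j : ι) : Matrix.toBilin b M (b i) (b j) = M i j := by
  rw [← LinearMap.BilinForm.toMatrix_apply b, LinearMap.BilinForm.toMatrix_toBilin]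

theorem result {F V ι : Type*} [Field F] [Finite F] [CharP F 2] [AddCommGroup V] [Module F V] [Fintype ι] (b : Module.Basis ι F V) (B : LinearMap.BilinForm F V) (hB : B.IsAlt) (c : ι → F) : ∃! Q : QuadraticForm F V, QuadraticMap.polarBilin Q = B ∧ ∀ i, Q (b i) = c i := by
  classical
  obtain ⟨e⟩ : Nonempty (ι ≃ Fin (Fintype.card ι)) := ⟨Fintype.equivFin ι⟩
  have h2 : ∀ x : F, x + x = 0 := fun x => CharTwo.add_self_eq_zero x
  have hsymm : ∀ x y, B x y = B y x := fun x y => by
    have := hB.neg_eq x y
    rw [← this]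
    exact (CharTwo.neg_eq _).symm
  have hex : QuadraticMap.polarBilin (Matrix.toBilin b (Matrix.of fun i j => if e i < e j then B (b i) (b j) else if i = j then c i else 0)).toQuadraticMap = B ∧ ∀ i, (Matrix.toBilin b (Matrix.of fun i j => if e i < e j then B (b i) (b j) else if i = j then c i else 0)).toQuadraticMap (b i) = c i := by
    refine ⟨?_, ?_⟩
    · refine b.ext fun i => b.ext fun j => ?_
      rw [QuadraticMap.polarBilin_apply_apply, LinearMap.BilinMap.polar_toQuadraticMap, aux_toBilin, aux_toBilin]
      rcases lt_trichotomy (e i) (e j) with h | h | h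
      · have h' : ¬ e j < e i := not_lt.mpr h.le
        have h'' : ¬ j = i := fun hh => by simp [hh] at h
        simp [h, h', h'']
      · have : i = j := e.injective h
        subst this
        simp [h2, hB.self_eq_zero]
      · have h' : ¬ e i < e j := not_lt.mpr h.le
        have h'' : ¬ i = j := fun hh => by simp [hh] at h
        simp [h, h', h'', hsymm]
    · intro i
      rw [LinearMap.BilinMap.toQuadraticMap_apply, aux_toBilin]
      simp
  refine ⟨_, hex, ?_⟩
  rintro Q' ⟨h1, h2'⟩
  exact aux_ext b _ _ (h1.trans hex.1.symm) (fun i => (h2' i).trans (hex.2 i).symm)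

end Cfsg.Agent.S2619
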