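import Cfsg.Statements.S2620
import Cfsg.Agent.Lib.H48.Gram

set_option autoImplicit false
open Cfsg

namespace Cfsg.Agent.S2620


theorem result {F : Type*} [Field F] [Fintype F] {q : ℕ} (hF : Fintype.card F = q) (hq : Odd q) {m : ℕ} (hm : 1 ≤ m) {ι : Type*} [Fintype ι] [DecidableEq ι] (b : Module.Basis ι F (Fin m ⊕ Fin m → F)) : IsSquare (Matrix.of (fun i j : ι => QuadraticMap.polar (Cfsg.quadFormPlus m F) (b i) (b j))).det ↔ Even (m * (q - 1) / 2) := by
  have h2 : Nat.card F = q := by rw [Nat.card_eq_fintype_card, hF]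
  obtain ⟨d, hd, h⟩ := H48.Gram.gdet_qPlus m b
  rw [H48.Gram.gdet, H48.QuadStd.coe_qPlus] at h
  rw [h, ← H48.FinFieldSq.isSquare_neg_one_pow_iff h2 hq m]
  constructor
  · intro hs
    have := hs.div (IsSquare.sq d)
    rwa [mul_div_cancel_left₀ _ (pow_ne_zero 2 hd)] at this
  · intro hs
    exact (IsSquare.sq d).mul hs

end Cfsg.Agent.S2620
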