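import Cfsg.Statements.S2621
import Cfsg.Agent.Lib.H48.Gram

set_option autoImplicit false
open Cfsg

namespace Cfsg.Agent.S2621


theorem result {F : Type*} [Field F] [Fintype F] {q : ℕ} (hF : Fintype.card F = q) (hq : Odd q) {m : ℕ} (hm : 1 ≤ m) (a c : F) (hac : ∀ z₁ z₂ : F, z₁ ^ 2 + a * z₁ * z₂ + c * z₂ ^ 2 = 0 → z₁ = 0 ∧ z₂ = 0) {ι : Type*} [Fintype ι] [DecidableEq ι] (b : Module.Basis ι F ((Fin (m - 1) ⊕ Fin (m - 1)) ⊕ Fin 2 → F)) : IsSquare (Matrix.of (fun i j : ι => QuadraticMap.polar (Cfsg.quadFormMinus (m - 1) F a c) (b i) (b j))).det ↔ ¬ Even (m * (q - 1) / 2) := by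
  have hcard : Nat.card F = q := by rw [Nat.card_eq_fintype_card, hF]
  have h2 : (2 : F) ≠ 0 := H48.FinFieldSq.two_ne_zero_iff_odd_card.2 (hcard ▸ hq)
  obtain ⟨k, rfl⟩ : ∃ k, m = k + 1 := ⟨m - 1, by omega⟩
  obtain ⟨d, hd, h⟩ := H48.Gram.gdet_qMinus k a c b
  rw [H48.Gram.gdet, H48.QuadStd.coe_qMinus] at h
  have hdisc := H48.QuadStd.disc_ne_zero hac
  have hns : ¬ IsSquare (a ^ 2 - 4 * c) := by
    rintro ⟨s, hs⟩
    have := hac ((s - a) / 2) 1 (by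
      field_simp
      linear_combination -hs)
    exact one_ne_zero this.2
  have e1 : (-1) ^ k * (4 * c - a ^ 2) = (-1) ^ (k + 1) * (a ^ 2 - 4 * c) := by ring
  change IsSquare (Matrix.of (fun i j : ι => QuadraticMap.polar (Cfsg.quadFormMinus k F a c) (b i) (b j))).det ↔ _
  rw [h, e1, ← H48.FinFieldSq.isSquare_neg_one_pow_iff hcard hq (k + 1)]
  have h3 : IsSquare (d ^ 2 * ((-1) ^ (k + 1) * (a ^ 2 - 4 * c))) ↔
      IsSquare ((-1) ^ (k + 1) * (a ^ 2 - 4 * c)) := by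
    constructor
    · intro hs
      have := hs.div (IsSquare.sq d)
      rwa [mul_div_cancel_left₀ _ (pow_ne_zero 2 hd)] at this
    · intro hs
      exact (IsSquare.sq d).mul hs
  have h4 : a ^ 2 - 4 * c ≠ 0 := by
    intro h; apply hdisc; linear_combination -h
  rw [h3, H48.FinFieldSq.isSquare_mul_iff (pow_ne_zero _ (neg_ne_zero.2 one_ne_zero)) h4]
  tauto

end Cfsg.Agent.S2621
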