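import Cfsg.Statements.S2622
import Cfsg.Agent.Lib.H48.FinFieldSq

set_option autoImplicit false
open Cfsg

namespace Cfsg.Agent.S2622

theorem aux {F : Type*} [Field F] [Finite F] [CharP F 2] : ∀ (n : ℕ) (V : Type*) [AddCommGroup V]
    [Module F V] [FiniteDimensional F V] (B : LinearMap.BilinForm F V), Module.finrank F V = n →
    (∀ x y, B x y = B y x) → (∀ x, (∀ y, B x y = 0) → x = 0) → (n = 0 ∨ ∃ v, B v v ≠ 0) →
    ∃ b : Fin n → V, ∀ i j, B (b i) (b j) = if i = j then 1 else 0 := by
  intro n
  induction n with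
  | zero =>
    intro V _ _ _ B _ _ _ _
    exact ⟨fun i => i.elim0, fun i => i.elim0⟩
  | succ n ih =>
    intro V _ _ _ B hV hS hB hna
    replace hna : ∃ v, B v v ≠ 0 := by
      rcases hna with h | h
      · omega
      · exact h
    have h2 : ∀ x : F, x + x = 0 := CharTwo.add_self_eq_zero
    -- a vector of norm one
    have hone : ∀ v, B v v ≠ 0 → ∃ c : F, B (c • v) (c • v) = 1 := by
      intro v hv
      obtain ⟨c, hc⟩ := H48.FinFieldSq.exists_sqrt (B v v)⁻¹
      refine ⟨c, ?_⟩
      simp only [map_smul, LinearMap.smul_apply, smul_eq_mul]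
      rw [← mul_assoc, ← pow_two, hc, inv_mul_cancel₀ hv]
    -- the good vector
    obtain ⟨v, hv, hgood⟩ : ∃ v, B v v = 1 ∧ (n = 0 ∨ ∃ w, B v w = 0 ∧ B w w ≠ 0) := by
      obtain ⟨v0, hv0⟩ := hna
      obtain ⟨c, hc⟩ := hone v0 hv0
      obtain ⟨v, hc⟩ : ∃ v, B v v = 1 := ⟨_, hc⟩
      by_cases hg : n = 0 ∨ ∃ w, B v w = 0 ∧ B w w ≠ 0
      · exact ⟨v, hc, hg⟩
      · push Not at hg
        obtain ⟨hn, halt⟩ := hg
        -- hyperbolic pair in v^⊥
        have hker := Module.Dual.finrank_ker_add_one_of_ne_zero (f := B v) (by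
          intro h0
          rw [h0] at hc; simp at hc)
        rw [hV] at hker
        have hpos : 0 < Module.finrank F (LinearMap.ker (B v)) := by omega
        haveI := Module.nontrivial_of_finrank_pos hpos
        obtain ⟨⟨x, hx⟩, hx0⟩ := exists_ne (0 : LinearMap.ker (B v))
        have hx' : B v x = 0 := hx
        have hxne : x ≠ 0 := fun h => hx0 (Subtype.ext h)
        obtain ⟨z, hz⟩ : ∃ z, B x z ≠ 0 := by
          by_contra h; push Not at h; exact hxne (hB x h)
        -- project z to v^⊥
        obtain ⟨y, hy⟩ : ∃ y, y = (B x z)⁻¹ • (z - B v z • v) := ⟨_, rfl⟩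
        have hvy : B v y = 0 := by
          rw [hy, map_smul, map_sub, map_smul, hc]; simp
        have hxy : B x y = 1 := by
          rw [hy, map_smul, map_sub, map_smul, hS x v, hx', smul_zero, sub_zero, smul_eq_mul,
            inv_mul_cancel₀ hz]
        have hxx : B x x = 0 := halt x hx'
        have hyy : B y y = 0 := halt y hvy
        have hxv : B x v = 0 := by rw [hS, hx']
        have hyv : B y v = 0 := by rw [hS, hvy]
        refine ⟨v + x, ?_, Or.inr ⟨v + y, ?_, ?_⟩⟩
        · simp only [map_add, LinearMap.add_apply, hc, hx', hxv, hxx, add_zero]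
        · simp only [map_add, LinearMap.add_apply, hc, hvy, hxv, hxy, add_zero, zero_add]
          exact h2 1
        · simp only [map_add, LinearMap.add_apply, hc, hvy, hyv, hyy, add_zero]
          exact one_ne_zero
    have hker := Module.Dual.finrank_ker_add_one_of_ne_zero (f := B v) (by
      intro h0; rw [h0] at hv; simp at hv)
    rw [hV] at hker
    obtain ⟨b, hb⟩ := ih (LinearMap.ker (B v)) (B.restrict (LinearMap.ker (B v))) (by omega)
      (fun x y => hS x y) (fun x hx => by
        apply Subtype.ext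
        refine hB x fun z => ?_
        have h1 : z - B v z • v ∈ LinearMap.ker (B v) := by
          rw [LinearMap.mem_ker, map_sub, map_smul, hv]; simp
        have h2' : B (x : V) (z - B v z • v) = 0 := hx ⟨_, h1⟩
        have h3 : B (x : V) v = 0 := by rw [hS]; exact x.2
        rw [map_sub, map_smul, h3, smul_zero, sub_zero] at h2'
        exact h2')
      (hgood.imp id fun ⟨w, hw, hww⟩ => ⟨⟨w, hw⟩, hww⟩)
    have hb' : ∀ i j, B (b i : V) (b j : V) = if i = j then 1 else 0 := hb
    have hvb : ∀ i, B v (b i : V) = 0 := fun i => (b i).2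
    refine ⟨Fin.cons v (fun i => (b i : V)), fun i j => ?_⟩
    refine Fin.cases ?_ (fun i => ?_) i <;> refine Fin.cases ?_ (fun j => ?_) j
    · simp [hv]
    · simp only [Fin.cons_zero, Fin.cons_succ, hvb]
      rw [if_neg (Fin.succ_ne_zero j).symm]
    · simp only [Fin.cons_zero, Fin.cons_succ]
      rw [hS, hvb, if_neg (Fin.succ_ne_zero i)]
    · simp only [Fin.cons_succ, hb', Fin.succ_inj]

theorem result {F V : Type*} [Field F] [Finite F] [CharP F 2] [AddCommGroup V] [Module F V] [FiniteDimensional F V] {n : ℕ} (hV : Module.finrank F V = n) (B : LinearMap.BilinForm F V) (hS : B.IsSymm) (hB : B.Nondegenerate) (hna : ∃ v : V, B v v ≠ 0) : ∃ b : Module.Basis (Fin n) F V, ∀ i j, B (b i) (b j) = if i = j then 1 else 0 := by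
  obtain ⟨b, hb⟩ := aux n V B hV (fun x y => hS.eq x y) (fun x hx => hB.1 x hx) (Or.inr hna)
  have hli : LinearIndependent F b := by
    rw [Fintype.linearIndependent_iff]
    intro g hg i
    have h1 := congrArg (B (b i)) hg
    rw [map_sum, map_zero] at h1
    simpa [hb, Finset.sum_ite_eq] using h1
  rcases Nat.eq_zero_or_pos n with hn | hn
  · subst hn
    haveI : Subsingleton V := Module.finrank_zero_iff.1 hV
    exact ⟨Module.Basis.empty V, fun i => i.elim0⟩
  · haveI : Nonempty (Fin n) := ⟨⟨0, hn⟩⟩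
    refine ⟨basisOfLinearIndependentOfCardEqFinrank hli (by simp [hV]), fun i j => ?_⟩
    simp only [coe_basisOfLinearIndependentOfCardEqFinrank]
    exact hb i j

end Cfsg.Agent.S2622
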