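import Cfsg.Statements.S2623
import Cfsg.Agent.Lib.H48.QuadSim

set_option autoImplicit false
open Cfsg

namespace Cfsg.Agent.S2623


theorem result {F : Type*} [Field F] [Fintype F] (h2 : (2 : F) ≠ 0) {n : ℕ} (Q₁ Q₂ : QuadraticForm F (Fin n → F)) (h₁ : (QuadraticMap.polarBilin Q₁).Nondegenerate) (h₂ : (QuadraticMap.polarBilin Q₂).Nondegenerate) : (∃ g : (Fin n → F) ≃ₗ[F] (Fin n → F), ∀ v, Q₂ (g v) = Q₁ v) ↔ IsSquare ((Matrix.of (fun i j : Fin n => QuadraticMap.polar ⇑Q₁ (Pi.single i 1) (Pi.single j 1))).det * (Matrix.of (fun i j : Fin n => QuadraticMap.polar ⇑Q₂ (Pi.single i 1) (Pi.single j 1))).det) := by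
  classical
  have e1 : ∀ Q : QuadraticForm F (Fin n → F), (Matrix.of (fun i j : Fin n => QuadraticMap.polar ⇑Q (Pi.single i 1) (Pi.single j 1))).det
      = H48.Gram.gdet Q (Pi.basisFun F (Fin n)) := by
    intro Q
    rw [H48.Gram.gdet]; congr 1; ext i j; simp
  rw [e1, e1, ← H48.QuadSim.equivalent_iff_gdet h2 (H48.QuadSplit.nd_iff.2 h₁)
    (H48.QuadSplit.nd_iff.2 h₂) rfl]
  constructor
  · rintro ⟨g, hg⟩
    exact ⟨⟨g, hg⟩⟩
  · rintro ⟨e⟩
    exact ⟨e.toLinearEquiv, fun v => e.map_app v⟩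

end Cfsg.Agent.S2623
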