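import Cfsg.Statements.S2624
import Cfsg.Agent.Lib.H48.QuadSim

set_option autoImplicit false
open Cfsg

namespace Cfsg.Agent.S2624


theorem result {F : Type*} [Field F] [Fintype F] {n : ℕ} (hn : 2 ≤ n) (he : Even n) (Q : QuadraticForm F (Fin n → F)) (hQ : (QuadraticMap.polarBilin Q).Nondegenerate) (c : F) (hc : c ≠ 0) : ∃ g : (Fin n → F) ≃ₗ[F] (Fin n → F), ∀ v, Q (g v) = c * Q v := by
  obtain ⟨m, hm⟩ := he
  obtain ⟨e⟩ := H48.QuadSim.smul_equivalent (m := m) (H48.QuadSplit.nd_iff.2 hQ)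
    (by simp [hm]; ring) hc
  exact ⟨e.toLinearEquiv, fun v => e.map_app v⟩

end Cfsg.Agent.S2624
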