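import Cfsg.Statements.S2625
import Cfsg.Agent.Lib.H48.Gram

set_option autoImplicit false
open Cfsg

namespace Cfsg.Agent.S2625


theorem result {F : Type*} [Field F] [Fintype F] {n : ℕ} (hn : Odd n) (Q : QuadraticForm F (Fin n → F)) (hQ : (QuadraticMap.polarBilin Q).Nondegenerate) (g : (Fin n → F) ≃ₗ[F] (Fin n → F)) (c : F) (hg : ∀ v, Q (g v) = c * Q v) : IsSquare c := by
  classical
  have hND := H48.QuadSplit.nd_iff.2 hQ
  by_cases hc : c = 0
  · rw [hc]; exact IsSquare.zero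
  have h1 := H48.Gram.gdet_smul Q c (Pi.basisFun F (Fin n))
  obtain ⟨d, hd, h2⟩ := H48.Gram.gdet_equivalent (Q := c • Q) (Q' := Q) ⟨⟨g, fun v => hg v⟩⟩
    (Pi.basisFun F (Fin n)) (Pi.basisFun F (Fin n))
  rw [h1] at h2
  have h3 := mul_right_cancel₀ (H48.Gram.gdet_ne_zero hND _) h2
  rw [Fintype.card_fin] at h3
  obtain ⟨k, hk⟩ := hn
  rw [hk, pow_succ] at h3
  have h4 : c = (d / c ^ k) ^ 2 := by
    field_simp
    rw [← h3]; ring
  rw [h4]
  exact IsSquare.sq _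

end Cfsg.Agent.S2625
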