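import Cfsg.Statements.S2627
import Cfsg.Agent.Lib.H49.SumForm

set_option autoImplicit false
open Cfsg

namespace Cfsg.Agent.S2627

open QuadraticMap Matrix H49.OrthAdj H49.SumForm

/-- For an orthogonal direct sum Q = Q₁ ⊕ Q₂ of quadratic forms with non-degenerate polar forms over a finite field, an isometry g₁ of Q₁ extended by the identity on the second summand lies in Ω(Q) (the commutator subgroup of the orthogonal group of Q) if and only if g₁ lies in Ω(Q₁). (Excluded: the field of two elements when the first summand or the whole space has dimension 4, where the commutator subgroup of O⁺₄(2) is smaller than the group usually called Ω.) -/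
theorem result {F : Type*} [Field F] [Fintype F] {k l : ℕ} (h : Fintype.card F ≠ 2 ∨ (k ≠ 4 ∧ k + l ≠ 4)) (Q₁ : QuadraticForm F (Fin k → F)) (Q₂ : QuadraticForm F (Fin l → F)) (h₁ : (QuadraticMap.polarBilin Q₁).Nondegenerate) (h₂ : (QuadraticMap.polarBilin Q₂).Nondegenerate) (g₁ : ↥(Cfsg.isometryGroup F ⇑Q₁)) : (∃ g : ↥(Cfsg.isometryGroup F (fun v : Fin k ⊕ Fin l → F => Q₁ (v ∘ Sum.inl) + Q₂ (v ∘ Sum.inr))), g ∈ Cfsg.Omega F (fun v : Fin k ⊕ Fin l → F => Q₁ (v ∘ Sum.inl) + Q₂ (v ∘ Sum.inr)) ∧ ((g : Matrix.GeneralLinearGroup (Fin k ⊕ Fin l) F) : Matrix (Fin k ⊕ Fin l) (Fin k ⊕ Fin l) F) = Matrix.fromBlocks ((g₁ : Matrix.GeneralLinearGroup (Fin k) F) : Matrix (Fin k) (Fin k) F) 0 0 1) ↔ g₁ ∈ Cfsg.Omega F ⇑Q₁ := by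
  have hS := nondeg Q₁ Q₂ h₁ h₂
  let f : G Q₁ →* G (sumForm Q₁ Q₂) := (blk Q₁ Q₂).comp (MonoidHom.inl _ _)
  have hfR : ∀ v hv, f (R Q₁ v hv) = R (sumForm Q₁ Q₂) (Sum.elim v 0)
      (by rw [sumForm_elim]; exact hv) := fun v hv => blk_inl_R Q₁ Q₂ v hv _
  constructor
  · rintro ⟨g, hg, hgm⟩
    have hgf : f g₁ = g := by
      apply Subtype.ext
      apply Units.ext
      rw [hgm]
      rfl
    have hgf' : f g₁ ∈ commutator (G (sumForm Q₁ Q₂)) := by rw [hgf]; exact hg
    by_cases h2 : (2 : F) = 0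
    · have : CharP F 2 := CharTwo.of_one_ne_zero_of_two_eq_zero one_ne_zero h2
      obtain ⟨D⟩ := H17.DicksonInv.exists_data Q₁
      obtain ⟨D'⟩ := H17.DicksonInv.exists_data (sumForm Q₁ Q₂)
      have hk : Fintype.card F ≠ 2 ∨ Fintype.card (Fin k) ≠ 4 := by
        rw [Fintype.card_fin]; tauto
      have key : (H17.DicksonInv.dickson D' hS).comp f = H17.DicksonInv.dickson D h₁ := by
        refine hom_ext Q₁ h₁ hk _ _ fun v hv => ?_
        rw [MonoidHom.comp_apply, hfR]
        exact (H17.DicksonInv.dickson_refl D' hS _ _).trans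
          (H17.DicksonInv.dickson_refl D h₁ _ _).symm
      refine (mem_iff_dickson Q₁ h₁ hk D g₁).mpr ?_
      rw [← key, MonoidHom.comp_apply]
      exact hom_commutator _ hgf'
    · refine mem_of_th h2 Q₁ h₁ g₁ fun c hc => ?_
      have hk : Fintype.card F ≠ 2 ∨ Fintype.card (Fin k) ≠ 4 :=
        Or.inl (H17.OrthSO.card_ne_two h2)
      have key : (th (sumForm Q₁ Q₂) c).comp f = th Q₁ c := by
        refine hom_ext Q₁ h₁ hk _ _ fun v hv => ?_
        rw [MonoidHom.comp_apply, hfR]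
        by_cases hcl : ∃ t : F, t ≠ 0 ∧ Q₁ v = c * t ^ 2
        · rw [th_of_class h2 Q₁ c hc v hv hcl]
          refine th_of_class h2 _ c hc _ _ ?_
          rw [sumForm_elim]; exact hcl
        · rw [th_of_not_class h2 Q₁ c hc v hv hcl]
          refine th_of_not_class h2 _ c hc _ _ ?_
          rw [sumForm_elim]; exact hcl
      rw [← key, MonoidHom.comp_apply]
      exact hom_commutator _ hgf'
  · intro hg
    exact ⟨f g₁, H49.IsomBasic.map_commutator_le f hg, rfl⟩

end Cfsg.Agent.S2627
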