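import Cfsg.Statements.S2628
import Cfsg.Agent.Lib.H49.SumForm

set_option autoImplicit false
open Cfsg

namespace Cfsg.Agent.S2628

open QuadraticMap Matrix H49.OrthAdj H49.SumForm

/-- For the orthogonal direct sum Q ⊕ Q of two copies of a quadratic form Q with non-degenerate polar form on F^k (F finite), every isometry g of Q acting diagonally, diag(g, g), lies in Ω(Q ⊕ Q), the commutator subgroup of the orthogonal group of Q ⊕ Q. (Excluded: k = 2 over the field of two elements, where Q ⊕ Q is the hyperbolic 4-space whose orthogonal group's commutator subgroup is smaller than the group usually called Ω.) -/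
theorem result {F : Type*} [Field F] [Fintype F] {k : ℕ} (h : Fintype.card F ≠ 2 ∨ k ≠ 2) (Q : QuadraticForm F (Fin k → F)) (hQ : (QuadraticMap.polarBilin Q).Nondegenerate) (g : ↥(Cfsg.isometryGroup F ⇑Q)) : ∃ x : ↥(Cfsg.isometryGroup F (fun v : Fin k ⊕ Fin k → F => Q (v ∘ Sum.inl) + Q (v ∘ Sum.inr))), x ∈ Cfsg.Omega F (fun v : Fin k ⊕ Fin k → F => Q (v ∘ Sum.inl) + Q (v ∘ Sum.inr)) ∧ ((x : Matrix.GeneralLinearGroup (Fin k ⊕ Fin k) F) : Matrix (Fin k ⊕ Fin k) (Fin k ⊕ Fin k) F) = Matrix.fromBlocks ((g : Matrix.GeneralLinearGroup (Fin k) F) : Matrix (Fin k) (Fin k) F) 0 0 ((g : Matrix.GeneralLinearGroup (Fin k) F) : Matrix (Fin k) (Fin k) F) := by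
  have hS := nondeg Q Q hQ hQ
  have hk : Fintype.card F ≠ 2 ∨ Fintype.card (Fin k ⊕ Fin k) ≠ 4 := by
    rw [Fintype.card_sum, Fintype.card_fin]
    rcases h with h | h
    · exact Or.inl h
    · right; omega
  -- the swap
  let sw : (Fin k ⊕ Fin k → F) ≃ₗ[F] (Fin k ⊕ Fin k → F) :=
    LinearEquiv.funCongrLeft F F (Equiv.sumComm (Fin k) (Fin k))
  obtain ⟨s, hs⟩ := exists_coe (sumForm Q Q) sw (fun v => by
    rw [sumForm_apply, sumForm_apply, add_comm]
    rfl)
  have hconj : s * blk Q Q (g, 1) = blk Q Q (1, g) * s := by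
    apply mt_ext
    intro x
    rw [mt_mul, mt_mul, ← Matrix.mulVec_mulVec, ← Matrix.mulVec_mulVec, hs, hs, mt_blk, mt_blk,
      fromBlocks_mulVec, fromBlocks_mulVec]
    have h1 : mt (1 : G Q) = 1 := rfl
    ext i
    rcases i with i | i
    · simp [sw, h1, LinearMap.funLeft]
    · simp only [Sum.elim_inr, sw, LinearEquiv.funCongrLeft_apply, LinearMap.funLeft_apply]
      simp [h1]
      rfl
  refine ⟨blk Q Q (g, g), ?_, rfl⟩
  have e1 : blk Q Q (g, g) = blk Q Q (g, 1) * blk Q Q (1, g) := by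
    rw [← map_mul]; simp
  refine (of_eq_one_iff (blk Q Q (g, g))).mp ?_
  have e2 : (Abelianization.of (blk Q Q (1, g)) : Abelianization (G (sumForm Q Q))) =
      Abelianization.of (blk Q Q (g, 1)) := by
    have := congrArg (Abelianization.of : G (sumForm Q Q) →* _) hconj
    rw [map_mul, map_mul, mul_comm] at this
    exact (mul_right_cancel this).symm
  rw [e1, map_mul, e2]
  exact sq_mem _ hS hk _

end Cfsg.Agent.S2628
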