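import Cfsg.Statements.S2629
import Cfsg.Agent.Lib.H49.OrthStab

set_option autoImplicit false
open Cfsg

namespace Cfsg.Agent.S2629

open QuadraticMap Matrix H49.OrthAdj H49.OrthStab H48.QuadSplit H48.QuadStd H18.MaxSing

/-- For the hyperbolic form Σ x_i y_i on F^(2m) over a finite field of odd order (m ≥ 1), an isometry g preserves the class of the maximal totally singular subspace U₀ = {y = 0} (that is, m − dim(U₀ ∩ gU₀) is even) if and only if det g = 1: the stabiliser of each of the two classes of maximal totally singular subspaces is SO. -/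
theorem result {F : Type*} [Field F] [Fintype F] (h2 : (2 : F) ≠ 0) {m : ℕ} (hm : 1 ≤ m) (g : ↥(Cfsg.isometryGroup F (Cfsg.quadFormPlus m F))) : Even (m - Module.finrank F ↥(LinearMap.ker (LinearMap.funLeft F F (Sum.inr : Fin m → Fin m ⊕ Fin m)) ⊓ (LinearMap.ker (LinearMap.funLeft F F (Sum.inr : Fin m → Fin m ⊕ Fin m))).map (Matrix.mulVecLin ((g : Matrix.GeneralLinearGroup (Fin m ⊕ Fin m) F) : Matrix (Fin m ⊕ Fin m) (Fin m ⊕ Fin m) F)))) ↔ ((g : Matrix.GeneralLinearGroup (Fin m ⊕ Fin m) F) : Matrix (Fin m ⊕ Fin m) (Fin m ⊕ Fin m) F).det = 1 := by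
  have hND := nd_qPlus (F := F) m
  have hQ := nd_iff.mp hND
  have hm2 : Fintype.card (Fin m ⊕ Fin m) = 2 * m := by
    rw [Fintype.card_sum, Fintype.card_fin]; ring
  have hU0 : (LinearMap.ker (LinearMap.funLeft F F (Sum.inr : Fin m → Fin m ⊕ Fin m))) =
      stdE m F := by
    ext v
    rw [mem_stdE, LinearMap.mem_ker]
    constructor
    · intro h i; exact congrFun h i
    · intro h; ext i; exact h i
  rw [hU0]
  revert g
  rw [← coe_qPlus]
  intro g
  have hTS := ts_stdE (F := F) m
  have hfin := finrank_stdE (F := F) m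
  let π := par hND hm2 (stdE m F) hTS hfin
  have e1 : (Units.map (Int.castRingHom F).toMonoidHom).comp π =
      (GeneralLinearGroup.det).comp (Cfsg.isometryGroup F (⇑(qPlus m F))).subtype := by
    refine hom_ext (qPlus m F) hQ (Or.inl (H17.OrthSO.card_ne_two h2)) _ _ fun v hv => ?_
    apply Units.ext
    have h3 := par_R hND hm2 (stdE m F) hTS hfin v hv
    change ((Int.castRingHom F) ((π (R (qPlus m F) v hv) : ℤˣ) : ℤ)) = (mt (R (qPlus m F) v hv)).det
    rw [show π (R (qPlus m F) v hv) = -1 from h3]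
    rw [show (mt (R (qPlus m F) v hv)).det = -1 from H17.OrthSO.det_refl _ v hv]
    simp
  have e2 : (((π g : ℤˣ) : ℤ) : F) = (mt g).det := by
    have := congrArg Units.val (DFunLike.congr_fun e1 g)
    exact this
  rw [← par_eq_one_iff hND hm2 (stdE m F) hTS hfin g]
  change π g = 1 ↔ (mt g).det = 1
  rw [← e2]
  rcases Int.units_eq_one_or (π g) with h3 | h3
  · simp [h3]
  · rw [h3]
    constructor
    · intro h4; exact absurd h4 (by decide)
    · intro h4
      exfalso
      apply h2
      have : (-1 : F) = 1 := by simpa using h4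
      calc (2 : F) = 1 - -1 := by ring
        _ = 0 := by rw [this]; ring

end Cfsg.Agent.S2629
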