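import Cfsg.Statements.S2630
import Cfsg.Agent.Lib.H49.OrthStab

set_option autoImplicit false
open Cfsg

namespace Cfsg.Agent.S2630

open QuadraticMap Matrix H49.OrthAdj H49.OrthStab H48.QuadSplit H48.QuadStd H18.MaxSing

/-- For the hyperbolic form Σ x_i y_i on F^(2m) over a finite field of characteristic two (m ≥ 1, excluding m = 2 over the field of two elements), an isometry g preserves the class of the maximal totally singular subspace U₀ = {y = 0} (m − dim(U₀ ∩ gU₀) even) if and only if g lies in Ω (the commutator subgroup of the orthogonal group): the stabiliser of each class is Ω. -/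
theorem result {F : Type*} [Field F] [Fintype F] [CharP F 2] {m : ℕ} (hm : 1 ≤ m) (h : Fintype.card F ≠ 2 ∨ m ≠ 2) (g : ↥(Cfsg.isometryGroup F (Cfsg.quadFormPlus m F))) : Even (m - Module.finrank F ↥(LinearMap.ker (LinearMap.funLeft F F (Sum.inr : Fin m → Fin m ⊕ Fin m)) ⊓ (LinearMap.ker (LinearMap.funLeft F F (Sum.inr : Fin m → Fin m ⊕ Fin m))).map (Matrix.mulVecLin ((g : Matrix.GeneralLinearGroup (Fin m ⊕ Fin m) F) : Matrix (Fin m ⊕ Fin m) (Fin m ⊕ Fin m) F)))) ↔ g ∈ Cfsg.Omega F (Cfsg.quadFormPlus m F) := by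
  have hND := nd_qPlus (F := F) m
  have hQ := nd_iff.mp hND
  have hm2 : Fintype.card (Fin m ⊕ Fin m) = 2 * m := by
    rw [Fintype.card_sum, Fintype.card_fin]; ring
  have hk : Fintype.card F ≠ 2 ∨ Fintype.card (Fin m ⊕ Fin m) ≠ 4 := by
    rw [hm2]
    rcases h with h | h
    · exact Or.inl h
    · right; omega
  have hU0 : (LinearMap.ker (LinearMap.funLeft F F (Sum.inr : Fin m → Fin m ⊕ Fin m))) =
      stdE m F := by
    ext v
    rw [mem_stdE, LinearMap.mem_ker]
    constructor
    · intro h i; exact congrFun h i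
    · intro h; ext i; exact h i
  rw [hU0]
  revert g
  rw [← coe_qPlus]
  intro g
  have hTS := ts_stdE (F := F) m
  have hfin := finrank_stdE (F := F) m
  rw [← par_eq_one_iff hND hm2 (stdE m F) hTS hfin g]
  constructor
  · intro hg
    obtain ⟨v, hv⟩ := exists_eq hND (by rw [finrank_space]; omega) (c := (1 : F)) one_ne_zero
    have hv' : qPlus m F v ≠ 0 := by rw [hv]; exact one_ne_zero
    refine mem_of_hom_even hQ hk (par hND hm2 (stdE m F) hTS hfin) v hv' ?_ g hg
    rw [par_R]; decide
  · intro hg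
    exact hom_commutator _ hg

end Cfsg.Agent.S2630
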