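import Cfsg.Statements.S2631
import Cfsg.Agent.Lib.H49.OrthStab

set_option autoImplicit false
open Cfsg

namespace Cfsg.Agent.S2631

open QuadraticMap Matrix H49.OrthAdj H49.OrthStab H48.QuadSplit H48.QuadStd H18.MaxSing

/-- For the hyperbolic form Σ x_i y_i on F^(2m) over a finite field (m ≥ 1, excluding m = 2 over the field of two elements), Ω (the commutator subgroup of the orthogonal group) acts transitively on each of the two classes of maximal totally singular subspaces: if U and W are m-dimensional totally singular subspaces with m − dim(U ∩ W) even, some element of Ω carries U to W. -/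
theorem result {F : Type*} [Field F] [Fintype F] {m : ℕ} (hm : 1 ≤ m) (h : Fintype.card F ≠ 2 ∨ m ≠ 2) (U W : Submodule F (Fin m ⊕ Fin m → F)) (hU : Module.finrank F U = m) (hW : Module.finrank F W = m) (hU0 : ∀ u ∈ U, Cfsg.quadFormPlus m F u = 0) (hW0 : ∀ w ∈ W, Cfsg.quadFormPlus m F w = 0) (he : Even (m - Module.finrank F ↥(U ⊓ W))) : ∃ g : ↥(Cfsg.isometryGroup F (Cfsg.quadFormPlus m F)), g ∈ Cfsg.Omega F (Cfsg.quadFormPlus m F) ∧ U.map (Matrix.mulVecLin ((g : Matrix.GeneralLinearGroup (Fin m ⊕ Fin m) F) : Matrix (Fin m ⊕ Fin m) (Fin m ⊕ Fin m) F)) = W := by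
  have hND := nd_qPlus (F := F) m
  have hQ := nd_iff.mp hND
  have hm2 : Fintype.card (Fin m ⊕ Fin m) = 2 * m := by
    rw [Fintype.card_sum, Fintype.card_fin]; ring
  have hk : Fintype.card F ≠ 2 ∨ Fintype.card (Fin m ⊕ Fin m) ≠ 4 := by
    rw [hm2]
    rcases h with h | h
    · exact Or.inl h
    · right; omega
  rw [← coe_qPlus] at hU0 hW0 ⊢
  replace hU0 : TS (qPlus m F) U := hU0
  replace hW0 : TS (qPlus m F) W := hW0
  obtain ⟨g, hgUW⟩ := exists_im_eq_ts hQ hU0 hW0 (hU.trans hW.symm)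
  have hpar : par hND hm2 U hU0 hU g = 1 := by
    rw [par_eq_one_iff, hgUW]; exact he
  obtain ⟨v, hv⟩ := exists_eq hND (by rw [finrank_space]; omega) (c := (1 : F)) one_ne_zero
  have hv' : qPlus m F v ≠ 0 := by rw [hv]; exact one_ne_zero
  by_cases h2 : (2 : F) = 0
  · have : CharP F 2 := CharTwo.of_one_ne_zero_of_two_eq_zero one_ne_zero h2
    refine ⟨g, mem_of_hom_even hQ hk (par hND hm2 U hU0 hU) v hv' ?_ g hpar, hgUW⟩
    rw [par_R]; decide
  · obtain ⟨Rp, hRp⟩ := H17.OrthOmega.exists_reps (F := F) h2 1 one_ne_zero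
    have hd : 2 ≤ Fintype.card (Fin m ⊕ Fin m) := by omega
    have hF := H17.OrthSO.card_ne_two h2
    -- product of the signs is the parity
    have key : par hND hm2 U hU0 hU = th (qPlus m F) Rp.c₁ * th (qPlus m F) Rp.c₂ := by
      refine hom_ext (qPlus m F) hQ (Or.inl hF) _ _ fun w hw => ?_
      rw [par_R, MonoidHom.mul_apply]
      rcases Rp.cover _ hw with hc | hc
      · rw [th_of_class h2 _ _ Rp.h₁ w hw hc,
          th_of_not_class h2 _ _ Rp.h₂ w hw (fun hc' => Rp.excl _ hw hc hc')]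
        decide
      · rw [th_of_class h2 _ _ Rp.h₂ w hw hc,
          th_of_not_class h2 _ _ Rp.h₁ w hw (fun hc' => Rp.excl _ hw hc' hc)]
        decide
    have hprod : th (qPlus m F) Rp.c₁ g * th (qPlus m F) Rp.c₂ g = 1 := by
      rw [← MonoidHom.mul_apply, ← key]; exact hpar
    -- the adjusting element
    have hUne : U ≠ ⊥ := by
      rintro rfl
      rw [finrank_bot] at hU
      omega
    obtain ⟨e, heU, he0⟩ := Submodule.exists_mem_ne_zero_of_ne_bot hUne
    obtain ⟨f, hf, hef⟩ := exists_partner hND he0 (hU0 e heU)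
    have hb : qPlus m F (e + Rp.c₁ • f) ≠ 0 := by
      rw [norm_pair (hU0 e heU) hf hef]; exact Rp.h₁
    have hc : qPlus m F (e + Rp.c₂ • f) ≠ 0 := by
      rw [norm_pair (hU0 e heU) hf hef]; exact Rp.h₂
    have hst := pair_mem_St hU0 heU hf hef Rp.c₁ Rp.c₂ hb hc
    have hcl1 : ∃ t : F, t ≠ 0 ∧ qPlus m F (e + Rp.c₁ • f) = Rp.c₁ * t ^ 2 :=
      ⟨1, one_ne_zero, by rw [norm_pair (hU0 e heU) hf hef]; ring⟩
    have hcl2 : ∃ t : F, t ≠ 0 ∧ qPlus m F (e + Rp.c₂ • f) = Rp.c₂ * t ^ 2 :=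
      ⟨1, one_ne_zero, by rw [norm_pair (hU0 e heU) hf hef]; ring⟩
    rcases Int.units_eq_one_or (th (qPlus m F) Rp.c₁ g) with h3 | h3
    · rw [h3, one_mul] at hprod
      exact ⟨g, mem_of_th2 h2 hQ hd Rp g h3 hprod, hgUW⟩
    · rw [h3] at hprod
      have h4 : th (qPlus m F) Rp.c₂ g = -1 := by
        have : ∀ x : ℤˣ, -1 * x = 1 → x = -1 := by decide
        exact this _ hprod
      refine ⟨g * (R (qPlus m F) _ hb * R (qPlus m F) _ hc), ?_, ?_⟩
      · refine mem_of_th2 h2 hQ hd Rp _ ?_ ?_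
        · rw [map_mul, map_mul, h3, th_of_class h2 _ _ Rp.h₁ _ hb hcl1,
            th_of_not_class h2 _ _ Rp.h₁ _ hc (fun hc' => Rp.excl _ hc hc' hcl2)]
          decide
        · rw [map_mul, map_mul, h4, th_of_class h2 _ _ Rp.h₂ _ hc hcl2,
            th_of_not_class h2 _ _ Rp.h₂ _ hb (fun hc' => Rp.excl _ hb hcl1 hc')]
          decide
      · have h5 := im_mul g (R (qPlus m F) _ hb * R (qPlus m F) _ hc) U
        rw [mem_St.mp hst, hgUW] at h5
        exact h5

end Cfsg.Agent.S2631
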