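import Cfsg.Statements.S2632
import Cfsg.Agent.Lib.H49.OrthStab

set_option autoImplicit false
open Cfsg

namespace Cfsg.Agent.S2632

open QuadraticMap Matrix H49.OrthAdj H49.OrthStab H48.QuadSplit H48.QuadStd H18.MaxSing

/-- Ω is transitive on non-degenerate subspaces of each isometry type: for a quadratic form Q on F^n, n ≥ 3, with non-degenerate polar form (F finite; excluding dimension 4 over the field of two elements), if U and W are subspaces on which the polar form is non-degenerate and there is a Q-preserving linear isomorphism U → W, then some element of Ω (the commutator subgroup of the orthogonal group) carries U to W. (In dimension 2 this fails: Ω can be {±1}, which fixes every line.) -/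
theorem result {F : Type*} [Field F] [Fintype F] {n : ℕ} (hn : 3 ≤ n) (h : Fintype.card F ≠ 2 ∨ n ≠ 4) (Q : QuadraticForm F (Fin n → F)) (hQ : (QuadraticMap.polarBilin Q).Nondegenerate) (U W : Submodule F (Fin n → F)) (hU : U ⊓ LinearMap.BilinForm.orthogonal (QuadraticMap.polarBilin Q) U = ⊥) (hW : W ⊓ LinearMap.BilinForm.orthogonal (QuadraticMap.polarBilin Q) W = ⊥) (e : U ≃ₗ[F] W) (he : ∀ u : U, Q (e u : Fin n → F) = Q (u : Fin n → F)) : ∃ g : ↥(Cfsg.isometryGroup F ⇑Q), g ∈ Cfsg.Omega F ⇑Q ∧ U.map (Matrix.mulVecLin ((g : Matrix.GeneralLinearGroup (Fin n) F) : Matrix (Fin n) (Fin n) F)) = W := by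
  have hk : Fintype.card F ≠ 2 ∨ Fintype.card (Fin n) ≠ 4 := by
    rw [Fintype.card_fin]; exact h
  have hND := nd_iff.mpr hQ
  obtain ⟨g, hgUW⟩ := exists_im_eq hQ e he
  -- the restriction to `U` is non-degenerate
  have hUnd : ND (Q.restrict U) := by
    intro x hx
    have h1 : (x : Fin n → F) ∈ U ⊓ LinearMap.BilinForm.orthogonal (polarBilin Q) U := by
      refine ⟨x.2, ?_⟩
      rw [← orth_eq]
      intro u hu
      rw [polar_comm]
      exact hx ⟨u, hu⟩
    rw [hU, Submodule.mem_bot] at h1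
    exact Subtype.ext h1
  have hUo := nd_orth hND hUnd
  have hfr := finrank_orth hND U
  rw [Module.finrank_fintype_fun_eq_card, Fintype.card_fin] at hfr
  -- vectors of all norms in `U` or its complement
  have hex : ∀ c d : F, c ≠ 0 → d ≠ 0 → ∃ (y z : Fin n → F) (hy : Q y ≠ 0) (hz : Q z ≠ 0),
      Q y = c ∧ Q z = d ∧ R Q y hy ∈ St U ∧ R Q z hz ∈ St U := by
    intro c d hc hd
    rcases Nat.lt_or_ge (Module.finrank F U) 2 with h1 | h1
    · obtain ⟨y, hy⟩ := exists_eq hUo (by omega) hc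
      obtain ⟨z, hz⟩ := exists_eq hUo (by omega) hd
      have hy' : Q (y : Fin n → F) = c := hy
      have hz' : Q (z : Fin n → F) = d := hz
      exact ⟨y, z, by rw [hy']; exact hc, by rw [hz']; exact hd, hy', hz',
        R_mem_St_of_orth _ y.2, R_mem_St_of_orth _ z.2⟩
    · obtain ⟨y, hy⟩ := exists_eq hUnd h1 hc
      obtain ⟨z, hz⟩ := exists_eq hUnd h1 hd
      have hy' : Q (y : Fin n → F) = c := hy
      have hz' : Q (z : Fin n → F) = d := hz
      exact ⟨y, z, by rw [hy']; exact hc, by rw [hz']; exact hd, hy', hz',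
        R_mem_St_of_mem _ y.2, R_mem_St_of_mem _ z.2⟩
  have hs : ∃ s ∈ St U, g * s ∈ commutator (G Q) := by
    by_cases h2 : (2 : F) = 0
    · have : CharP F 2 := CharTwo.of_one_ne_zero_of_two_eq_zero one_ne_zero h2
      obtain ⟨y, z, hy, hz, -, -, hyS, hzS⟩ := hex 1 1 one_ne_zero one_ne_zero
      exact adjust_even Q hQ hk (St U) y hy hyS g
    · obtain ⟨Rp, hRp⟩ := H17.OrthOmega.exists_reps (F := F) h2 1 one_ne_zero
      obtain ⟨y, z, hy, hz, hy', hz', hyS, hzS⟩ := hex Rp.c₁ Rp.c₂ Rp.h₁ Rp.h₂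
      refine adjust_odd h2 Q hQ (St U) y hy hyS y z hy hz ((St U).mul_mem hyS hzS) ?_ g
      rw [hy', hz']; exact Rp.hns
  obtain ⟨s, hsS, hgs⟩ := hs
  refine ⟨g * s, hgs, ?_⟩
  have h5 := im_mul g s U
  rw [mem_St.mp hsS, hgUW] at h5
  exact h5

end Cfsg.Agent.S2632
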