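import Cfsg.Statements.S2633
import Cfsg.Agent.Lib.H49.OrthStab

set_option autoImplicit false
open Cfsg

namespace Cfsg.Agent.S2633

open QuadraticMap Matrix H49.OrthAdj H49.OrthStab H48.QuadSplit H48.QuadStd H18.MaxSing

/-- Ω is transitive on totally singular subspaces of each dimension less than half the dimension: for a quadratic form Q on F^n with non-degenerate polar form (F finite; excluding dimension 4 over the field of two elements), if U and W are subspaces of the same dimension k with 2k < n on which Q vanishes, then some element of Ω (the commutator subgroup of the orthogonal group) carries U to W. -/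
theorem result {F : Type*} [Field F] [Fintype F] {n : ℕ} (h : Fintype.card F ≠ 2 ∨ n ≠ 4) (Q : QuadraticForm F (Fin n → F)) (hQ : (QuadraticMap.polarBilin Q).Nondegenerate) (U W : Submodule F (Fin n → F)) {k : ℕ} (hk : 2 * k < n) (hU : Module.finrank F U = k) (hW : Module.finrank F W = k) (hU0 : ∀ u ∈ U, Q u = 0) (hW0 : ∀ w ∈ W, Q w = 0) : ∃ g : ↥(Cfsg.isometryGroup F ⇑Q), g ∈ Cfsg.Omega F ⇑Q ∧ U.map (Matrix.mulVecLin ((g : Matrix.GeneralLinearGroup (Fin n) F) : Matrix (Fin n) (Fin n) F)) = W := by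
  have hkk : Fintype.card F ≠ 2 ∨ Fintype.card (Fin n) ≠ 4 := by
    rw [Fintype.card_fin]; exact h
  have hND := nd_iff.mpr hQ
  obtain ⟨g, hgUW⟩ := exists_im_eq_ts hQ hU0 hW0 (hU.trans hW.symm)
  rcases Nat.eq_zero_or_pos k with rfl | hkpos
  · have e1 : U = ⊥ := Submodule.finrank_eq_zero.mp hU
    have e2 : W = ⊥ := Submodule.finrank_eq_zero.mp hW
    refine ⟨1, Subgroup.one_mem _, ?_⟩
    rw [e1, e2, Submodule.map_bot]
  obtain ⟨x, hx, hxU⟩ := exists_nonsing_orth hND (U := U) (by rw [hU, Fintype.card_fin]; exact hk)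
  have hxS := R_mem_St_of_orth hx hxU
  have hs : ∃ s ∈ St U, g * s ∈ commutator (G Q) := by
    by_cases h2 : (2 : F) = 0
    · have : CharP F 2 := CharTwo.of_one_ne_zero_of_two_eq_zero one_ne_zero h2
      exact adjust_even Q hQ hkk (St U) x hx hxS g
    · obtain ⟨Rp, hRp⟩ := H17.OrthOmega.exists_reps (F := F) h2 1 one_ne_zero
      have hUne : U ≠ ⊥ := by
        rintro rfl
        rw [finrank_bot] at hU
        omega
      obtain ⟨e, heU, he0⟩ := Submodule.exists_mem_ne_zero_of_ne_bot hUne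
      obtain ⟨f, hf, hef⟩ := exists_partner hND he0 (hU0 e heU)
      have hb : Q (e + Rp.c₁ • f) ≠ 0 := by
        rw [norm_pair (hU0 e heU) hf hef]; exact Rp.h₁
      have hc : Q (e + Rp.c₂ • f) ≠ 0 := by
        rw [norm_pair (hU0 e heU) hf hef]; exact Rp.h₂
      refine adjust_odd h2 Q hQ (St U) x hx hxS _ _ hb hc
        (pair_mem_St hU0 heU hf hef _ _ hb hc) ?_ g
      rw [norm_pair (hU0 e heU) hf hef, norm_pair (hU0 e heU) hf hef]
      exact Rp.hns
  obtain ⟨s, hsS, hgs⟩ := hs
  refine ⟨g * s, hgs, ?_⟩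
  have h5 := im_mul g s U
  rw [mem_St.mp hsS, hgUW] at h5
  exact h5

end Cfsg.Agent.S2633
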