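import Cfsg.Statements.S2634
import Cfsg.Agent.Lib.H49.OrthAdj

set_option autoImplicit false
open Cfsg

namespace Cfsg.Agent.S2634

open QuadraticMap Matrix H49.OrthAdj

/-- Over a finite field of characteristic two, Ω (the commutator subgroup of the orthogonal group of a quadratic form Q on F^n with non-degenerate polar form; excluding dimension 4 over the field of two elements) acts transitively on the non-singular 1-spaces: for u, v with Q(u) ≠ 0 and Q(v) ≠ 0 some element of Ω carries the line through u to the line through v. -/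
theorem result {F : Type*} [Field F] [Fintype F] [CharP F 2] {n : ℕ} (h : Fintype.card F ≠ 2 ∨ n ≠ 4) (Q : QuadraticForm F (Fin n → F)) (hQ : (QuadraticMap.polarBilin Q).Nondegenerate) (u v : Fin n → F) (hu : Q u ≠ 0) (hv : Q v ≠ 0) : ∃ g : ↥(Cfsg.isometryGroup F ⇑Q), g ∈ Cfsg.Omega F ⇑Q ∧ (F ∙ ((g : Matrix.GeneralLinearGroup (Fin n) F) : Matrix (Fin n) (Fin n) F).mulVec u) = F ∙ v := by
  have hk : Fintype.card F ≠ 2 ∨ Fintype.card (Fin n) ≠ 4 := by
    rw [Fintype.card_fin]; exact h
  obtain ⟨t, ht⟩ := FiniteField.isSquare_of_char_two (F := F) (ringChar.eq F 2 ▸ rfl) (Q u / Q v)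
  have ht' : Q u = Q (t • v) := by
    rw [QuadraticMap.map_smul, smul_eq_mul, ← ht]; field_simp
  have ht0 : t ≠ 0 := by
    rintro rfl
    rw [zero_smul, QuadraticMap.map_zero] at ht'
    exact hu ht'
  have hu0 : u ≠ 0 := by rintro rfl; exact hu (QuadraticMap.map_zero Q)
  have hv0 : v ≠ 0 := by rintro rfl; exact hv (QuadraticMap.map_zero Q)
  obtain ⟨e, he, heu⟩ := H48.QuadWitt.witt_family hQ (fun _ : Fin 1 => t • v) (fun _ : Fin 1 => u)
    (LinearIndependent.of_subsingleton 0 (smul_ne_zero ht0 hv0))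
    (LinearIndependent.of_subsingleton 0 hu0) (fun _ => ht'.symm)
    (fun _ _ => by rw [polar_self, polar_self, ht'])
  obtain ⟨g, hg⟩ := exists_coe Q e he
  obtain ⟨s, hs, hgs⟩ := adjust_even Q hQ hk (Subgroup.zpowers (R Q v hv)) v hv
    (Subgroup.mem_zpowers _) g
  have hRv : mt (R Q v hv) *ᵥ v = v := by
    rw [R_mulVec, polar_self, nsmul_eq_mul, Nat.cast_ofNat, CharTwo.two_eq_zero (R := F)]
    simp
  have hsv : mt s *ᵥ v = v := by
    let St : Subgroup (G Q) :=
      { carrier := {x | mt x *ᵥ v = v}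
        one_mem' := mt_one_mulVec v
        mul_mem' := by
          intro a b ha hb
          change mt (a * b) *ᵥ v = v
          rw [mt_mul, ← Matrix.mulVec_mulVec]
          rw [show mt b *ᵥ v = v from hb]
          exact ha
        inv_mem' := by
          intro a ha
          change mt a⁻¹ *ᵥ v = v
          conv_lhs => rw [← (show mt a *ᵥ v = v from ha)]
          rw [Matrix.mulVec_mulVec, ← mt_mul, inv_mul_cancel]
          exact mt_one_mulVec v }
    have h1 : Subgroup.zpowers (R Q v hv) ≤ St := by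
      rw [Subgroup.zpowers_le]; exact hRv
    exact h1 hs
  refine ⟨(g * s)⁻¹, Subgroup.inv_mem _ hgs, ?_⟩
  have h5 : mt (g * s) *ᵥ (t • v) = u := by
    rw [mt_mul, ← Matrix.mulVec_mulVec, Matrix.mulVec_smul, hsv, hg]
    exact heu 0
  have h6 : mt (g * s)⁻¹ *ᵥ u = t • v := by
    rw [← h5, Matrix.mulVec_mulVec, ← mt_mul, inv_mul_cancel]
    exact mt_one_mulVec _
  change (F ∙ (mt (g * s)⁻¹ *ᵥ u)) = F ∙ v
  rw [h6]
  exact Submodule.span_singleton_smul_eq (IsUnit.mk0 t ht0) v

end Cfsg.Agent.S2634
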