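import Cfsg.Statements.S2635
import Cfsg.Agent.Lib.H49.OrthAdj

set_option autoImplicit false
open Cfsg

namespace Cfsg.Agent.S2635

open QuadraticMap Matrix H49.OrthAdj

/-- Over a finite field of characteristic two, for a quadratic form Q on F^n with non-degenerate polar form, n ≥ 2, other than dimension 4 over the field of two elements, Ω (the commutator subgroup of the orthogonal group) is exactly the subgroup generated by the products of two reflections (orthogonal transvections) x ↦ x − Q(v)⁻¹ f(x, v) v, Q(v) ≠ 0: the products of an even number of reflections. -/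
theorem result {F : Type*} [Field F] [Fintype F] [CharP F 2] {n : ℕ} (hn : 2 ≤ n) (h : Fintype.card F ≠ 2 ∨ n ≠ 4) (Q : QuadraticForm F (Fin n → F)) (hQ : (QuadraticMap.polarBilin Q).Nondegenerate) : Cfsg.Omega F ⇑Q = Subgroup.closure {g : ↥(Cfsg.isometryGroup F ⇑Q) | ∃ u v : Fin n → F, Q u ≠ 0 ∧ Q v ≠ 0 ∧ ((g : Matrix.GeneralLinearGroup (Fin n) F) : Matrix (Fin n) (Fin n) F) = Cfsg.reflectionMatrix ⇑Q u * Cfsg.reflectionMatrix ⇑Q v} := by
  have hk : Fintype.card F ≠ 2 ∨ Fintype.card (Fin n) ≠ 4 := by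
    rw [Fintype.card_fin]; exact h
  obtain ⟨D⟩ := H17.DicksonInv.exists_data Q
  have hpairs : Subgroup.closure (H17.OrthSO.pairs Q) ≤ commutator (G Q) := by
    rw [Subgroup.closure_le]
    intro g hg
    obtain ⟨u, v, hu, hv, rfl⟩ := H17.OrthSO.eq_of_mem_pairs Q hg
    refine (mem_iff_dickson Q hQ hk D _).mpr ?_
    rw [map_mul, H17.DicksonInv.dickson_refl, H17.DicksonInv.dickson_refl, ← ofAdd_add,
      CharTwo.add_self_eq_zero]
    rfl
  refine le_antisymm ?_ hpairs
  intro g hg
  rcases H17.OrthSO.pair_or Q g (by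
    rw [H17.OrthTrans.closure_refl_eq_top Q hQ hk]; trivial) with h1 | ⟨v, hv, h1⟩
  · exact h1
  · exfalso
    have h2 := hpairs h1
    have h3 := (mem_iff_dickson Q hQ hk D _).mp h2
    rw [map_mul, (mem_iff_dickson Q hQ hk D g).mp hg, mul_one, H17.DicksonInv.dickson_refl] at h3
    have h4 : (1 : F) = 0 := Multiplicative.ofAdd.injective h3
    exact one_ne_zero h4

end Cfsg.Agent.S2635
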