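import Cfsg.Statements.S2636
import Cfsg.Agent.Lib.H49.FixedField

set_option autoImplicit false
open Cfsg

namespace Cfsg.Agent.S2636

open H49.FixedField

/-- Centraliser of a field automorphism in PGL_n: let F be the field with q = q₀^r elements, σ a field automorphism of F of prime order r (so its fixed field has q₀ elements) and n ≥ 1. The invertible matrices g whose entrywise image under σ is a scalar multiple of g — those whose coset modulo scalars is fixed by σ — number (q − 1)/(q₀ − 1) · |GL_n(q₀)|; equivalently the centraliser in PGL_n(q) of the induced automorphism has the order of PGL_n(q₀). -/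
theorem result {F : Type*} [Field F] [Fintype F] {q₀ r n : ℕ} (hr : r.Prime) (hn : 1 ≤ n) (hF : Fintype.card F = q₀ ^ r) (σ : F ≃+* F) (hσ : orderOf σ = r) : Nat.card {g : GL (Fin n) F // ∃ c : F, c ≠ 0 ∧ (g : Matrix (Fin n) (Fin n) F).map σ = c • (g : Matrix (Fin n) (Fin n) F)} = (q₀ ^ r - 1) / (q₀ - 1) * ∏ i : Fin n, (q₀ ^ n - q₀ ^ (i : ℕ)) := by
  classical
  have : NeZero n := ⟨by omega⟩
  have hq₀ : Nat.card (fixedField σ) = q₀ :=
    card_fixedField σ hr.ne_zero (by rw [Nat.card_eq_fintype_card, hF]) hσ
  have : Fintype (fixedField σ) := Fintype.ofFinite _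
  have hq₀' : Fintype.card (fixedField σ) = q₀ := by rw [← Nat.card_eq_fintype_card, hq₀]
  have hq2 : 2 ≤ q₀ := by
    rw [← hq₀']
    exact Fintype.one_lt_card
  -- the hom
  let f : Fˣ × GL (Fin n) (fixedField σ) →* GL (Fin n) F :=
    { toFun := fun p => (Units.map (algebraMap F (Matrix (Fin n) (Fin n) F)).toMonoidHom p.1) *
        Matrix.GeneralLinearGroup.map (fixedField σ).subtype p.2
      map_one' := by simp
      map_mul' := by
        rintro ⟨a, g⟩ ⟨b, h⟩
        apply Units.ext
        simp only [Prod.mk_mul_mk, map_mul, Units.val_mul]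
        simp only [Units.coe_map, MonoidHom.coe_coe, RingHom.toMonoidHom_eq_coe]
        rw [mul_assoc, mul_assoc, ← mul_assoc (algebraMap F (Matrix (Fin n) (Fin n) F) b),
          ← mul_assoc _ (algebraMap F (Matrix (Fin n) (Fin n) F) b), Algebra.commutes (b : F)] }
  have hfval : ∀ p, ((f p : GL (Fin n) F) : Matrix (Fin n) (Fin n) F) =
      (p.1 : F) • (p.2 : Matrix (Fin n) (Fin n) (fixedField σ)).map (fixedField σ).subtype := by
    intro p
    change (algebraMap F (Matrix (Fin n) (Fin n) F) p.1) * _ = _
    rw [← Algebra.smul_def]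
    rfl
  have hrange : ∀ g : GL (Fin n) F, g ∈ f.range ↔
      ∃ c : F, c ≠ 0 ∧ (g : Matrix (Fin n) (Fin n) F).map σ = c • (g : Matrix (Fin n) (Fin n) F) := by
    intro g
    constructor
    · rintro ⟨⟨b, g₀⟩, rfl⟩
      refine ⟨σ b / b, ?_, ?_⟩
      · exact div_ne_zero ((map_ne_zero σ).2 b.ne_zero) b.ne_zero
      · rw [hfval]
        ext i j
        have h1 : σ ((g₀ : Matrix (Fin n) (Fin n) (fixedField σ)) i j : F) =
          ((g₀ : Matrix (Fin n) (Fin n) (fixedField σ)) i j : F) :=
          ((g₀ : Matrix (Fin n) (Fin n) (fixedField σ)) i j).2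
        have hb : (b : F) ≠ 0 := b.ne_zero
        simp only [Matrix.map_apply, Matrix.smul_apply, smul_eq_mul, map_mul, Subfield.coe_subtype,
          h1]
        field_simp
    · rintro ⟨c, hc, hg⟩
      have hne : (g : Matrix (Fin n) (Fin n) F) ≠ 0 := g.ne_zero
      obtain ⟨i, j, hij⟩ : ∃ i j, (g : Matrix (Fin n) (Fin n) F) i j ≠ 0 := by
        by_contra hcon
        push Not at hcon
        exact hne (by ext i j; exact hcon i j)
      set b := (g : Matrix (Fin n) (Fin n) F) i j with hb
      have hσb : σ b = c * b := by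
        have := congrFun (congrFun hg i) j
        simpa using this
      have hfix : ∀ k l, σ (b⁻¹ * (g : Matrix (Fin n) (Fin n) F) k l) =
          b⁻¹ * (g : Matrix (Fin n) (Fin n) F) k l := by
        intro k l
        have h1 : σ ((g : Matrix (Fin n) (Fin n) F) k l) = c * (g : Matrix (Fin n) (Fin n) F) k l := by
          have := congrFun (congrFun hg k) l
          simpa using this
        rw [map_mul, map_inv₀, hσb, h1]
        field_simp
      let g₀ : Matrix (Fin n) (Fin n) (fixedField σ) := fun k l =>
        ⟨b⁻¹ * (g : Matrix (Fin n) (Fin n) F) k l, hfix k l⟩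
      have hg₀ : g₀.map (fixedField σ).subtype = b⁻¹ • (g : Matrix (Fin n) (Fin n) F) := by
        ext k l; rfl
      have hdet : g₀.det ≠ 0 := by
        intro h0
        have h1 : (g₀.map (fixedField σ).subtype).det = 0 := by
          rw [← RingHom.mapMatrix_apply, ← RingHom.map_det, h0, map_zero]
        rw [hg₀, Matrix.det_smul] at h1
        have h2 : (g : Matrix (Fin n) (Fin n) F).det ≠ 0 :=
          ((Matrix.isUnit_iff_isUnit_det _).1 g.isUnit).ne_zero
        exact (mul_ne_zero (pow_ne_zero _ (inv_ne_zero hij)) h2) h1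
      refine ⟨⟨Units.mk0 b hij, Matrix.GeneralLinearGroup.mkOfDetNeZero g₀ hdet⟩, ?_⟩
      apply Units.ext
      rw [hfval]
      change b • g₀.map (fixedField σ).subtype = _
      rw [hg₀, smul_smul, mul_inv_cancel₀ hij, one_smul]
  have hS : Nat.card {g : GL (Fin n) F // ∃ c : F, c ≠ 0 ∧
      (g : Matrix (Fin n) (Fin n) F).map σ = c • (g : Matrix (Fin n) (Fin n) F)} =
      Nat.card f.range := by
    apply Nat.card_congr
    exact Equiv.subtypeEquivRight (fun g => (hrange g).symm)
  have hker : Nat.card f.ker = q₀ - 1 := by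
    have hk : Nat.card f.ker = Nat.card (fixedField σ)ˣ := by
      symm
      apply Nat.card_congr
      refine Equiv.ofBijective (fun b => ⟨(Units.map (fixedField σ).subtype.toMonoidHom b,
        Units.map (algebraMap (fixedField σ)
          (Matrix (Fin n) (Fin n) (fixedField σ))).toMonoidHom b⁻¹), ?_⟩) ⟨?_, ?_⟩
      · rw [MonoidHom.mem_ker]
        apply Units.ext
        rw [hfval]
        ext i j
        have hb : ((b : fixedField σ) : F) ≠ 0 := by
          intro h; exact b.ne_zero (Subtype.ext h)
        by_cases hij : i = j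
        · subst hij
          simp [Matrix.algebraMap_matrix_apply, hb]
        · simp [Matrix.algebraMap_matrix_apply, hij]
      · intro a b hab
        have h1 := congrArg (fun p => ((p.1.1 : Fˣ) : F)) hab
        exact Units.ext (Subtype.ext h1)
      · rintro ⟨⟨b, g₀⟩, hb⟩
        rw [MonoidHom.mem_ker] at hb
        have h1 := congrArg (fun g : GL (Fin n) F => (g : Matrix (Fin n) (Fin n) F)) hb
        simp only [hfval] at h1
        have h2 : ∀ i j, (b : F) * ((g₀ : Matrix (Fin n) (Fin n) (fixedField σ)) i j : F) =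
            (1 : Matrix (Fin n) (Fin n) F) i j := by
          intro i j
          rw [← Units.val_one, ← h1]; rfl
        have hb0 : (b : F) ≠ 0 := b.ne_zero
        have h3 : (b : F) ∈ fixedField σ := by
          have h4 := h2 0 0
          rw [Matrix.one_apply_eq] at h4
          have h5 : (b : F) = (((g₀ : Matrix (Fin n) (Fin n) (fixedField σ)) 0 0 : fixedField σ) : F)⁻¹ :=
            eq_inv_of_mul_eq_one_left h4
          rw [h5]
          exact inv_mem (SetLike.coe_mem _)
        have hbne : (⟨b, h3⟩ : fixedField σ) ≠ 0 := by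
          intro h; exact hb0 (congrArg Subtype.val h)
        refine ⟨Units.mk0 ⟨b, h3⟩ hbne, ?_⟩
        apply Subtype.ext
        apply Prod.ext
        · apply Units.ext; rfl
        · apply Units.ext
          ext i j
          have h6 := h2 i j
          have h7 : ((g₀ : Matrix (Fin n) (Fin n) (fixedField σ)) i j : F) =
              (b : F)⁻¹ * (1 : Matrix (Fin n) (Fin n) F) i j := by
            rw [← h6]; field_simp
          change ((algebraMap (fixedField σ) (Matrix (Fin n) (Fin n) (fixedField σ)) _) i j : F) = _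
          rw [h7, Matrix.algebraMap_matrix_apply]
          by_cases hij : i = j
          · subst hij; simp
          · simp [hij]
    rw [hk, Nat.card_units, hq₀]
  have hcard : Nat.card (Fˣ × GL (Fin n) (fixedField σ)) = Nat.card f.ker * Nat.card f.range := by
    rw [mul_comm, ← Nat.card_congr (QuotientGroup.quotientKerEquivRange f).toEquiv]
    exact Subgroup.card_eq_card_quotient_mul_card_subgroup f.ker
  rw [Nat.card_prod, Nat.card_units, Matrix.card_GL_field, hker, Nat.card_eq_fintype_card, hF,
    hq₀'] at hcard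
  rw [hS]
  have hdvd : (q₀ - 1) ∣ (q₀ ^ r - 1) := by
    simpa using Nat.sub_dvd_pow_sub_pow q₀ 1 r
  obtain ⟨k, hk⟩ := hdvd
  rw [hk] at hcard ⊢
  have hpos : 0 < q₀ - 1 := by omega
  rw [Nat.mul_div_cancel_left _ hpos]
  have h9 : (q₀ - 1) * (k * ∏ i : Fin n, (q₀ ^ n - q₀ ^ (i : ℕ))) = (q₀ - 1) * Nat.card f.range := by
    rw [← hcard]; ring
  exact (Nat.eq_of_mul_eq_mul_left hpos h9).symm

end Cfsg.Agent.S2636
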