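import Cfsg.Statements.S2637
import Cfsg.Agent.Lib.H49.CardGU
import Cfsg.Agent.Lib.H49.EmbedSymp
import Cfsg.Agent.Lib.H49.EmbedIsom
import Cfsg.Agent.Lib.H49.QuadraticExt2
import Cfsg.Agent.S2589

set_option autoImplicit false
open Cfsg

namespace Cfsg.Agent.S2637

open Matrix H49.EmbedSymp H49.EmbedIsom H49.QuadraticExt H49.QuadraticExt2 H49.Unitary

/-- the model -/
theorem exists_model {K F : Type*} [Field K] [Fintype K] [Field F] [Fintype F] {q : ℕ} (hK : Fintype.card K = q ^ 2) (hF : Fintype.card F = q) (m : ℕ) (ω : K) (hω : ω ^ 2 + ω + 1 = 0) (hωq : ω ^ q ≠ ω) (hω1 : ω ^ (q + 1) = 1) :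
    ∃ x : Matrix.symplecticGroup (Fin m) F,
      (x : Matrix (Fin m ⊕ Fin m) (Fin m ⊕ Fin m) F) ^ 2 + x + 1 = 0 ∧
      Nat.card ↥(Subgroup.centralizer ({x} : Set ↥(Matrix.symplecticGroup (Fin m) F))) =
        Nat.card (Cfsg.GU m K q) := by
  have hK' : Nat.card K = q ^ 2 := by rw [Nat.card_eq_fintype_card, hK]
  have hF' : Nat.card F = q := by rw [Nat.card_eq_fintype_card, hF]
  obtain ⟨i, τ, hi, hadd, hsmul, hτ⟩ := exists_tau hK' hF'
  let _ : Algebra F K := i.toAlgebra
  have halg : ∀ c : F, algebraMap F K c = i c := fun c => rfl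
  have hfix : ∀ y : F, (i y) ^ q = i y := fun y => (hi _).2 ⟨y, rfl⟩
  have hfd : FiniteDimensional F K := Module.Finite.of_finite
  have hdK : Module.finrank F K = 2 := finrank_eq_two hK' hF' (two_le hK')
  have hsm : ∀ (c : F) (u : Fin m → K), c • u = (i c) • u := by
    intro c u; ext j; simp [Algebra.smul_def, halg]
  have haddl : ∀ u u' v : Fin m → K, hermForm m K q (u + u') v = hermForm m K q u v + hermForm m K q u' v := by
    intro u u' v
    simp only [hermForm, Pi.add_apply, add_mul, Finset.sum_add_distrib]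
  have haddr : ∀ u v v' : Fin m → K, hermForm m K q u (v + v') = hermForm m K q u v + hermForm m K q u v' := by
    intro u v v'
    simp only [hermForm, Pi.add_apply, ← frob_apply hK', map_add, mul_add, Finset.sum_add_distrib]
  have hsl : ∀ (c : K) (u v : Fin m → K), hermForm m K q (c • u) v = c * hermForm m K q u v := by
    intro c u v
    simp only [hermForm, Pi.smul_apply, smul_eq_mul, Finset.mul_sum, mul_assoc]
  have hsr : ∀ (c : K) (u v : Fin m → K), hermForm m K q u (c • v) = c ^ q * hermForm m K q u v := by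
    intro c u v
    simp only [hermForm, Pi.smul_apply, smul_eq_mul, Finset.mul_sum, mul_pow]
    apply Finset.sum_congr rfl; intro j _; ring
  have hself : ∀ u : Fin m → K, (hermForm m K q u u) ^ q = hermForm m K q u u := by
    intro u
    rw [hermForm, ← frob_apply hK', map_sum]
    apply Finset.sum_congr rfl; intro j _
    rw [map_mul, frob_apply, ← frob_apply hK' (u j), frob_frob, mul_comm]
  let B : LinearMap.BilinForm F (Fin m → K) := LinearMap.mk₂ F
    (fun u v => τ (hermForm m K q u v))
    (by intro u u' v; rw [haddl, hadd])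
    (by intro c u v; rw [hsm, hsl, hsmul]; rfl)
    (by intro u v v'; rw [haddr, hadd])
    (by intro c u v; rw [hsm, hsr, hfix, hsmul]; rfl)
  have hBapp : ∀ u v, B u v = τ (hermForm m K q u v) := fun u v => rfl
  obtain ⟨e, he⟩ := symp_coords B (n := m) (by
      intro u
      rw [hBapp, hτ, hself]) (by
      intro u hu
      by_contra hne
      obtain ⟨j, hj⟩ : ∃ j, u j ≠ 0 := by
        by_contra hcon
        push Not at hcon
        exact hne (funext hcon)
      obtain ⟨θ, hθ⟩ := exists_theta hK'
      have h1 := hu (((θ ^ q) / (u j) ^ q) • Pi.single j (1 : K))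
      rw [hBapp, hsr, hτ] at h1
      have h2 : hermForm m K q u (Pi.single j 1) = u j := by
        rw [hermForm, Finset.sum_eq_single j]
        · simp
        · intro b _ hb
          rw [Pi.single_eq_of_ne hb, zero_pow (by have := two_le hK'; omega), mul_zero]
        · intro h; exact absurd (Finset.mem_univ j) h
      have h3 : (θ ^ q / u j ^ q) ^ q = θ / u j := by
        rw [div_pow, ← frob_apply hK' θ, ← frob_apply hK' (frob hK' θ), frob_frob,
          ← frob_apply hK' (u j), ← frob_apply hK' (frob hK' (u j)), frob_frob]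
      rw [h2, h3, div_mul_cancel₀ _ hj] at h1
      apply hθ
      rw [frob_apply, h1, sub_self]) (by
      rw [Module.finrank_pi_fintype]
      simp only [hdK, Finset.sum_const, Finset.card_univ, Fintype.card_fin, smul_eq_mul]
      ring)
  -- matrices over `K` as matrices over `F`
  let mv : Matrix (Fin m) (Fin m) K → ((Fin m → K) →ₗ[F] (Fin m → K)) := fun M =>
    { toFun := fun v => M *ᵥ v
      map_add' := fun u v => Matrix.mulVec_add _ u v
      map_smul' := by
        intro c v
        rw [hsm, Matrix.mulVec_smul, RingHom.id_apply, hsm] }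
  let T : Matrix (Fin m) (Fin m) K → Matrix (Fin m ⊕ Fin m) (Fin m ⊕ Fin m) F := fun M =>
    LinearMap.toMatrix' (e.toLinearMap ∘ₗ mv M ∘ₗ e.symm.toLinearMap)
  have hT : ∀ M v, T M *ᵥ (e v) = e (M *ᵥ v) := by
    intro M v
    change LinearMap.toMatrix' _ *ᵥ (e v) = _
    rw [LinearMap.toMatrix'_mulVec]
    change e (M *ᵥ (e.symm (e v))) = _
    rw [e.symm_apply_apply]
  have hext : ∀ A A' : Matrix (Fin m ⊕ Fin m) (Fin m ⊕ Fin m) F,
      (∀ v, A *ᵥ (e v) = A' *ᵥ (e v)) → A = A' := by
    intro A A' h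
    apply Matrix.mulVec_injective
    funext w
    obtain ⟨v, rfl⟩ := e.surjective w
    exact h v
  have hTmul : ∀ M N, T (M * N) = T M * T N := by
    intro M N
    apply hext
    intro v
    rw [hT, ← Matrix.mulVec_mulVec, ← Matrix.mulVec_mulVec, hT, hT]
  have hTinj : Function.Injective T := by
    intro M N h
    apply Matrix.mulVec_injective
    funext v
    apply e.injective
    rw [← hT, ← hT, h]
  have hTsp : ∀ M : Matrix (Fin m) (Fin m) K,
      T M ∈ Matrix.symplecticGroup (Fin m) F ↔
        ∀ u v, B (M *ᵥ u) (M *ᵥ v) = B u v := by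
    intro M
    rw [H16.Symp.mem_symplecticGroup_iff]
    constructor
    · intro h u v
      have := h (e u) (e v)
      rwa [hT, hT, he, he] at this
    · intro h u v
      obtain ⟨u, rfl⟩ := e.surjective u
      obtain ⟨v, rfl⟩ := e.surjective v
      rw [hT, hT, he, he, h]
  -- the element of order three
  let X : Matrix (Fin m) (Fin m) K := ω • 1
  have hXv : ∀ v, X *ᵥ v = ω • v := by
    intro v; rw [Matrix.smul_mulVec, Matrix.one_mulVec]
  have hXsp : T X ∈ Matrix.symplecticGroup (Fin m) F := by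
    rw [hTsp]
    intro u v
    rw [hXv, hXv, hBapp, hBapp, hsl, hsr, ← mul_assoc, ← pow_succ', hω1, one_mul]
  refine ⟨⟨T X, hXsp⟩, ?_, ?_⟩
  · change (T X) ^ 2 + T X + 1 = 0
    apply hext
    intro v
    rw [Matrix.add_mulVec, Matrix.add_mulVec, pow_two, ← Matrix.mulVec_mulVec, hT, hT, hXv, hXv,
      Matrix.one_mulVec, Matrix.zero_mulVec, ← map_add, ← map_add]
    have : ω • ω • v + ω • v + v = (ω ^ 2 + ω + 1) • v := by
      rw [add_smul, add_smul, one_smul, smul_smul, pow_two]
    rw [this, hω, zero_smul, map_zero]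
  · symm
    have hGU : ∀ g : ↥(Cfsg.GU m K q), T ((g : GL (Fin m) K) : Matrix (Fin m) (Fin m) K) ∈
        Matrix.symplecticGroup (Fin m) F := by
      intro g
      rw [hTsp]
      intro u v
      rw [hBapp, hBapp]
      exact congrArg τ (g.2 u v)
    refine Nat.card_eq_of_bijective (fun g : ↥(Cfsg.GU m K q) =>
      (⟨⟨T ((g : GL (Fin m) K) : Matrix (Fin m) (Fin m) K), hGU g⟩, ?_⟩ :
        ↥(Subgroup.centralizer ({⟨T X, hXsp⟩} : Set ↥(Matrix.symplecticGroup (Fin m) F)))))
      ⟨?_, ?_⟩
    · rw [Subgroup.mem_centralizer_singleton_iff]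
      apply Subtype.ext
      change T ((g : GL (Fin m) K) : Matrix (Fin m) (Fin m) K) * T X =
        T X * T ((g : GL (Fin m) K) : Matrix (Fin m) (Fin m) K)
      rw [← hTmul, ← hTmul]
      congr 1
      change _ * (ω • (1 : Matrix (Fin m) (Fin m) K)) = (ω • (1 : Matrix (Fin m) (Fin m) K)) * _
      rw [mul_smul_comm, mul_one, smul_mul_assoc, one_mul]
    · intro g h hgh
      apply Subtype.ext
      apply Units.ext
      apply hTinj
      exact congrArg (fun x : ↥(Subgroup.centralizer
        ({⟨T X, hXsp⟩} : Set ↥(Matrix.symplecticGroup (Fin m) F))) =>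
          ((x : ↥(Matrix.symplecticGroup (Fin m) F)) :
            Matrix (Fin m ⊕ Fin m) (Fin m ⊕ Fin m) F)) hgh
    · rintro ⟨⟨A, hA⟩, hAX⟩
      rw [Subgroup.mem_centralizer_singleton_iff] at hAX
      have hAX' : A * T X = T X * A := congrArg Subtype.val hAX
      -- the map `v ↦ e⁻¹ (A e v)`
      let t : (Fin m → K) → (Fin m → K) := fun v => e.symm (A *ᵥ (e v))
      have ht : ∀ v, A *ᵥ (e v) = e (t v) := fun v => (e.apply_symm_apply _).symm
      have htadd : ∀ u v, t (u + v) = t u + t v := by
        intro u v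
        apply e.injective
        rw [← ht, map_add, map_add, Matrix.mulVec_add, ht, ht]
      have htF : ∀ (c : F) v, t (i c • v) = i c • t v := by
        intro c v
        apply e.injective
        rw [← ht, ← hsm, ← hsm, map_smul, map_smul, Matrix.mulVec_smul, ht]
      have htω : ∀ v, t (ω • v) = ω • t v := by
        intro v
        apply e.injective
        rw [← ht, ← hXv, ← hXv, ← hT, ← hT, ← ht, Matrix.mulVec_mulVec, Matrix.mulVec_mulVec, hAX']
      -- `K = F + F ω`
      have hspan : ∀ c : K, ∃ a b : F, c = i a + i b * ω := by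
        have hinj : Function.Injective (fun x : F × F => i x.1 + i x.2 * ω) := by
          rintro ⟨a, b⟩ ⟨c, d⟩ h
          simp only at h
          by_cases hbd : b = d
          · subst hbd
            have h1 : i a = i c := by linear_combination h
            rw [i.injective h1]
          · exfalso
            apply hωq
            have hne : i (b - d) ≠ 0 := by
              rw [map_ne_zero]; exact sub_ne_zero.2 hbd
            have h2 : ω = i ((c - a) / (b - d)) := by
              rw [map_div₀, eq_div_iff hne, map_sub, map_sub]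
              linear_combination h
            rw [h2, hfix]
        have hbij : Function.Bijective (fun x : F × F => i x.1 + i x.2 * ω) := by
          rw [Nat.bijective_iff_injective_and_card]
          exact ⟨hinj, by rw [Nat.card_prod, hF', hK', pow_two]⟩
        intro c
        obtain ⟨⟨a, b⟩, hab⟩ := hbij.2 c
        exact ⟨a, b, hab.symm⟩
      have htK : ∀ (c : K) v, t (c • v) = c • t v := by
        intro c v
        obtain ⟨a, b, rfl⟩ := hspan c
        rw [add_smul, htadd, htF, mul_smul, htF, htω, add_smul, mul_smul]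
      let L : (Fin m → K) →ₗ[K] (Fin m → K) :=
        { toFun := t
          map_add' := htadd
          map_smul' := htK }
      have hLv : ∀ v, LinearMap.toMatrix' L *ᵥ v = t v := by
        intro v; rw [LinearMap.toMatrix'_mulVec]; rfl
      have hTL : T (LinearMap.toMatrix' L) = A := by
        apply hext
        intro v
        rw [hT, hLv, ht]
      have hLB : ∀ u v, B (t u) (t v) = B u v := by
        have h1 := (hTsp (LinearMap.toMatrix' L)).mp (by rw [hTL]; exact hA)
        intro u v
        have := h1 u v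
        rwa [hLv, hLv] at this
      have hτ0 : ∀ z : K, (∀ a : K, τ (a * z) = 0) → z = 0 := by
        intro z hz
        by_contra hne
        obtain ⟨θ, hθ⟩ := exists_theta hK'
        have h1 := hz (θ / z)
        rw [div_mul_cancel₀ _ hne, hτ] at h1
        apply hθ
        rw [frob_apply, h1, sub_self]
      have hτsub : ∀ a b : K, τ (a - b) = τ a - τ b := by
        intro a b
        have := hadd (a - b) b
        rw [sub_add_cancel] at this
        rw [this, add_sub_cancel_right]
      have hLh : ∀ u v, hermForm m K q (t u) (t v) = hermForm m K q u v := by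
        intro u v
        rw [← sub_eq_zero]
        apply hτ0
        intro a
        rw [mul_sub, hτsub, ← hsl, ← hsl, ← htK, sub_eq_zero]
        exact hLB (a • u) v
      have hinv : IsUnit (LinearMap.toMatrix' L) := by
        have hAinv : IsUnit A := by
          have h1 := SymplecticGroup.symplectic_det hA
          rw [Matrix.isUnit_iff_isUnit_det]
          exact h1
        rw [← Matrix.mulVec_injective_iff_isUnit]
        intro u v huv
        have huv' : t u = t v := by rw [← hLv, ← hLv]; exact huv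
        apply e.injective
        have h2 : A *ᵥ (e u) = A *ᵥ (e v) := by rw [ht, ht, huv']
        exact (Matrix.mulVec_injective_iff_isUnit.mpr hAinv) h2
      obtain ⟨g, hg⟩ := hinv
      refine ⟨⟨g, ?_⟩, ?_⟩
      · intro u v
        change hermForm m K q ((g : Matrix (Fin m) (Fin m) K) *ᵥ u)
          ((g : Matrix (Fin m) (Fin m) K) *ᵥ v) = _
        rw [hg, hLv, hLv, hLh]
      · apply Subtype.ext
        apply Subtype.ext
        change T (g : Matrix (Fin m) (Fin m) K) = A
        rw [hg, hTL]

/-- Centraliser of a fixed-point-free element of order three in Sp_2m(q) when q ≡ 2 (mod 3): if x ∈ Sp_2m(F) (|F| = q, m ≥ 1) satisfies x³ = 1 and x − 1 is invertible, then its centraliser in Sp_2m(F) has the order of the unitary group GU_m(q), namely q^(m(m−1)/2) Π_(i=1)^m (q^i − (−1)^i) (x lies in the centre of a subgroup GU_m(q) of Sp_2m(q)). -/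
theorem result {F : Type*} [Field F] [Fintype F] {q : ℕ} (hF : Fintype.card F = q) (hq : q % 3 = 2) {m : ℕ} (hm : 1 ≤ m) (x : Matrix.symplecticGroup (Fin m) F) (hx3 : x ^ 3 = 1) (hfpf : IsUnit ((x : Matrix (Fin m ⊕ Fin m) (Fin m ⊕ Fin m) F) - 1)) : (Nat.card ↥(Subgroup.centralizer ({x} : Set ↥(Matrix.symplecticGroup (Fin m) F))) : ℤ) = (q : ℤ) ^ (m * (m - 1) / 2) * ∏ i : Fin m, ((q : ℤ) ^ ((i : ℕ) + 1) - (-1) ^ ((i : ℕ) + 1)) := by
  obtain ⟨p, hp⟩ := CharP.exists F
  have hpp : p.Prime := CharP.char_is_prime F p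
  have : Fact p.Prime := ⟨hpp⟩
  obtain ⟨f, _, hf⟩ := FiniteField.card F p
  have hqf : q = p ^ (f : ℕ) := by rw [← hF, hf]
  have hp3 : p ≠ 3 := by
    rintro rfl
    have h1 : 3 ∣ q := by rw [hqf]; exact dvd_pow_self _ f.pos.ne'
    omega
  have h3F : (3 : F) ≠ 0 := by
    intro h
    have h1 : ((3 : ℕ) : F) = 0 := by exact_mod_cast h
    rw [CharP.cast_eq_zero_iff F p 3] at h1
    exact hp3 ((Nat.prime_dvd_prime_iff_eq hpp Nat.prime_three).mp h1)
  -- the quadratic extension
  let K := GaloisField p (2 * f)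
  have : Finite K := inferInstance
  let _ : Fintype K := Fintype.ofFinite K
  have hK' : Nat.card K = q ^ 2 := by
    rw [GaloisField.card p (2 * f) (by have := f.pos; omega), hqf, ← pow_mul, mul_comm]
  have hK : Fintype.card K = q ^ 2 := by rw [← Nat.card_eq_fintype_card, hK']
  have hq1 : 1 ≤ q := by omega
  obtain ⟨ω, hωo⟩ : ∃ ω : Kˣ, orderOf ω = 3 := by
    have : Fact (Nat.Prime 3) := ⟨Nat.prime_three⟩
    refine exists_prime_orderOf_dvd_card' (G := Kˣ) 3 ?_
    rw [Nat.card_units, hK']
    obtain ⟨k, hk⟩ : ∃ k, q = 3 * k + 2 := ⟨q / 3, by omega⟩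
    refine ⟨3 * k ^ 2 + 4 * k + 1, ?_⟩
    rw [hk]
    have : (3 * k + 2) ^ 2 = 3 * (3 * k ^ 2 + 4 * k + 1) + 1 := by ring
    omega
  have hω3 : (ω : K) ^ 3 = 1 := by
    have h1 := pow_orderOf_eq_one ω
    rw [hωo] at h1
    rw [← Units.val_pow_eq_pow_val, h1, Units.val_one]
  have hωne : (ω : K) ≠ 1 := by
    intro h
    have h1 : ω = 1 := Units.ext h
    rw [h1, orderOf_one] at hωo
    omega
  have hω : (ω : K) ^ 2 + ω + 1 = 0 := by
    have h1 : ((ω : K) - 1) * ((ω : K) ^ 2 + ω + 1) = 0 := by linear_combination hω3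
    exact (mul_eq_zero.mp h1).resolve_left (sub_ne_zero.mpr hωne)
  obtain ⟨k, hk⟩ : ∃ k, q = 3 * k + 2 := ⟨q / 3, by omega⟩
  have hωq : (ω : K) ^ q = (ω : K) ^ 2 := by
    rw [hk, pow_add, pow_mul, hω3, one_pow, one_mul]
  have hω1 : (ω : K) ^ (q + 1) = 1 := by
    rw [pow_succ, hωq, ← pow_succ, hω3]
  have hω0 : (ω : K) ≠ 0 := ω.ne_zero
  obtain ⟨x₀, hx₀, hcard⟩ := exists_model hK hF m (ω : K) hω
    (by
      rw [hωq]
      intro h
      apply hωne
      have h1 : (ω : K) * ω = ω * 1 := by rw [mul_one, ← pow_two, h]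
      exact mul_left_cancel₀ hω0 h1) hω1
  rw [← H49.CardGU.card_GU_int hK m, ← hcard]
  congr 1
  -- conjugacy
  have hx3' : (x : Matrix (Fin m ⊕ Fin m) (Fin m ⊕ Fin m) F) ^ 3 = 1 := by
    have := congrArg Subtype.val hx3
    exact this
  have hx2 : (x : Matrix (Fin m ⊕ Fin m) (Fin m ⊕ Fin m) F) ^ 2 + x + 1 = 0 := by
    have h1 : ((x : Matrix (Fin m ⊕ Fin m) (Fin m ⊕ Fin m) F) - 1) *
        ((x : Matrix (Fin m ⊕ Fin m) (Fin m ⊕ Fin m) F) ^ 2 + x + 1) = 0 := by
      have h2 : ((x : Matrix (Fin m ⊕ Fin m) (Fin m ⊕ Fin m) F) - 1) *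
        ((x : Matrix (Fin m ⊕ Fin m) (Fin m ⊕ Fin m) F) ^ 2 + x + 1) =
          (x : Matrix (Fin m ⊕ Fin m) (Fin m ⊕ Fin m) F) ^ 3 - 1 := by noncomm_ring
      rw [h2, hx3', sub_self]
    exact (hfpf.mul_right_eq_zero).mp h1
  have hnr : ∀ c : F, c ^ 2 + c + 1 ≠ 0 := by
    intro c hc
    have hc3 : c ^ 3 = 1 := by linear_combination (c - 1) * hc
    have hc1 : c ≠ 1 := by
      rintro rfl
      apply h3F
      linear_combination hc
    have hc0 : c ≠ 0 := by
      rintro rfl
      apply one_ne_zero (α := F)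
      linear_combination hc
    have h1 : c ^ q = c := by rw [← hF, FiniteField.pow_card]
    rw [hk, pow_add, pow_mul, hc3, one_pow, one_mul, pow_two] at h1
    apply hc1
    have h2 : c * c = c * 1 := by rw [mul_one]; exact h1
    exact mul_left_cancel₀ hc0 h2
  have hirr : Irreducible (Polynomial.X ^ 2 + Polynomial.X + 1 : Polynomial F) := by
    have hdeg : (Polynomial.X ^ 2 + Polynomial.X + 1 : Polynomial F).natDegree = 2 := by compute_degree!
    refine Polynomial.irreducible_of_degree_le_three_of_not_isRoot (by rw [hdeg]; simp) fun c hc => ?_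
    rw [Polynomial.IsRoot.def] at hc
    simp only [Polynomial.eval_add, Polynomial.eval_pow, Polynomial.eval_X, Polynomial.eval_one] at hc
    exact hnr c hc
  have hae : ∀ A : Matrix (Fin m ⊕ Fin m) (Fin m ⊕ Fin m) F, A ^ 2 + A + 1 = 0 →
      Polynomial.aeval A (Polynomial.X ^ 2 + Polynomial.X + 1 : Polynomial F) = 0 := by
    intro A hA
    simp only [map_add, map_pow, Polynomial.aeval_X, map_one]
    exact hA
  have hconj : IsConj (x : Matrix (Fin m ⊕ Fin m) (Fin m ⊕ Fin m) F) x₀ :=
    H49.CardGU.isConj_of_irreducible hirr (hae _ hx2) (hae _ hx₀)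
  have hord : (orderOf x).Coprime p := by
    have h1 : orderOf x ∣ 3 := orderOf_dvd_of_pow_eq_one hx3
    have h2 : Nat.Coprime 3 p := (Nat.coprime_primes Nat.prime_three hpp).mpr (Ne.symm hp3)
    exact Nat.Coprime.coprime_dvd_left h1 h2
  exact H49.CardGU.card_centralizer_of_isConj ((Cfsg.Agent.S2589.result x x₀ hord).mpr hconj)

end Cfsg.Agent.S2637
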