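import Cfsg.Statements.S2638

set_option autoImplicit false
open Cfsg

namespace Cfsg.Agent.S2638

open Polynomial in
theorem aux_irred {F : Type*} [Field F] [Fintype F] {p q : ℕ} [Fact p.Prime] [CharP F p]
    (hF : Fintype.card F = q) {n r : ℕ} (hn : 1 ≤ n) (hr : r.Prime) (hrp : r ≠ p)
    (hi : orderOf (q : ZMod r) = n) (x : Matrix (Fin n) (Fin n) F) (hx : x ^ r = 1) (hx1 : x ≠ 1) :
    Irreducible (minpoly F x) ∧ (minpoly F x).natDegree = n := by
  have hint : IsIntegral F x := Matrix.isIntegral x
  have hmon := minpoly.monic hint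
  have hne := minpoly.ne_zero hint
  have hdvd : minpoly F x ∣ (X ^ r - 1 : F[X]) := by
    apply minpoly.dvd
    simp [hx]
  have hrF : (r : F) ≠ 0 := by
    intro h
    rw [CharP.cast_eq_zero_iff F p] at h
    exact hrp ((Nat.prime_dvd_prime_iff_eq Fact.out hr).1 h).symm
  have hsep : (X ^ r - 1 : F[X]).Separable := by
    rw [X_pow_sub_one_separable_iff]
    exact hrF
  have hsepm : (minpoly F x).Separable := hsep.of_dvd hdvd
  have hnot : ¬ minpoly F x ∣ (X - 1 : F[X]) := by
    intro h
    have h1 : aeval x (X - 1 : F[X]) = 0 := by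
      obtain ⟨c, hc⟩ := h
      rw [hc, map_mul, minpoly.aeval, zero_mul]
    simp [sub_eq_zero] at h1
    exact hx1 h1
  -- an irreducible factor not dividing X - 1
  obtain ⟨φ, hφ, hφd, hφX⟩ : ∃ φ : F[X], Irreducible φ ∧ φ ∣ minpoly F x ∧ ¬ φ ∣ (X - 1 : F[X]) := by
    have hX : Irreducible (X - 1 : F[X]) := by
      rw [← C_1]; exact irreducible_X_sub_C 1
    have hmu : ¬ IsUnit (minpoly F x) := by
      have : NeZero n := ⟨by omega⟩
      exact minpoly.not_isUnit F x
    have hsq : Squarefree (minpoly F x) := hsepm.squarefree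
    by_cases h1 : (X - 1 : F[X]) ∣ minpoly F x
    · obtain ⟨c, hc⟩ := h1
      have hcu : ¬ IsUnit c := by
        intro h
        apply hnot
        rw [hc]
        exact (h.dvd_mul_right.1 (dvd_refl _)) 
      have hc0 : c ≠ 0 := by rintro rfl; rw [mul_zero] at hc; exact hne hc
      obtain ⟨φ, hφ, hφd⟩ := WfDvdMonoid.exists_irreducible_factor hcu hc0
      refine ⟨φ, hφ, hφd.trans (Dvd.intro_left _ hc.symm), ?_⟩
      intro h
      have h2 : Associated φ (X - 1) := hφ.associated_of_dvd hX h
      have h3 : (X - 1 : F[X]) * (X - 1) ∣ minpoly F x := by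
        rw [hc]; exact mul_dvd_mul_left _ (h2.symm.dvd.trans hφd)
      exact hX.not_isUnit (hsq _ h3)
    · obtain ⟨φ, hφ, hφd⟩ := WfDvdMonoid.exists_irreducible_factor hmu hne
      refine ⟨φ, hφ, hφd, ?_⟩
      intro h
      have h2 : Associated φ (X - 1) := hφ.associated_of_dvd hX h
      exact h1 (h2.symm.dvd.trans hφd)
  -- degree of φ
  have hdeg : n ∣ φ.natDegree := by
    have : Fact (Irreducible φ) := ⟨hφ⟩
    have hfin : Module.Finite F (AdjoinRoot φ) := (AdjoinRoot.powerBasis hφ.ne_zero).finite
    have : Finite (AdjoinRoot φ) := Module.finite_of_finite F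
    have : Fintype (AdjoinRoot φ) := Fintype.ofFinite _
    have hcard : Fintype.card (AdjoinRoot φ) = q ^ φ.natDegree := by
      rw [Module.card_eq_pow_finrank (K := F), hF, (AdjoinRoot.powerBasis hφ.ne_zero).finrank]
      simp
    have hroot : (AdjoinRoot.root φ) ^ r = 1 := by
      have h3 : φ ∣ (X ^ r - 1 : F[X]) := hφd.trans hdvd
      have h4 := AdjoinRoot.mk_eq_zero.2 h3
      simpa [sub_eq_zero] using h4
    have hroot1 : AdjoinRoot.root φ ≠ 1 := by
      intro h
      apply hφX
      rw [← AdjoinRoot.mk_eq_zero]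
      simp [h]
    have hr0 : AdjoinRoot.root φ ≠ 0 := by
      intro h; rw [h, zero_pow hr.ne_zero] at hroot; exact zero_ne_one hroot
    have hord : orderOf (AdjoinRoot.root φ) = r := by
      rcases (Nat.dvd_prime hr).1 (orderOf_dvd_of_pow_eq_one hroot) with h | h
      · exact absurd (orderOf_eq_one_iff.1 h) hroot1
      · exact h
    have h5 : (AdjoinRoot.root φ) ^ (q ^ φ.natDegree - 1) = 1 := by
      rw [← hcard]; exact FiniteField.pow_card_sub_one_eq_one _ hr0
    have h6 : r ∣ q ^ φ.natDegree - 1 := hord ▸ orderOf_dvd_of_pow_eq_one h5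
    have h7 : (q : ZMod r) ^ φ.natDegree = 1 := by
      have hq : 1 ≤ q ^ φ.natDegree := Nat.one_le_pow _ _ (by rw [← hF]; exact Fintype.card_pos)
      have := (ZMod.natCast_eq_zero_iff _ _).2 h6
      rw [Nat.cast_sub hq] at this
      push_cast at this
      exact sub_eq_zero.1 this
    rw [← hi]
    exact orderOf_dvd_of_pow_eq_one h7
  have hφpos : 0 < φ.natDegree := hφ.natDegree_pos
  have hle1 : n ≤ φ.natDegree := Nat.le_of_dvd hφpos hdeg
  have hle2 : φ.natDegree ≤ (minpoly F x).natDegree := natDegree_le_of_dvd hφd hne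
  have hle3 : (minpoly F x).natDegree ≤ n := by
    have := natDegree_le_of_dvd (Matrix.minpoly_dvd_charpoly x) (Matrix.charpoly_monic x).ne_zero
    rw [Matrix.charpoly_natDegree_eq_dim, Fintype.card_fin] at this
    exact this
  refine ⟨?_, by omega⟩
  obtain ⟨c, hc⟩ := hφd
  have hc0 : c ≠ 0 := by rintro rfl; rw [mul_zero] at hc; exact hne hc
  have hcdeg : c.natDegree = 0 := by
    have := natDegree_mul hφ.ne_zero hc0
    rw [← hc] at this
    omega
  have hcu : IsUnit c := by
    rw [Polynomial.isUnit_iff_degree_eq_zero, degree_eq_natDegree hc0, hcdeg]; rfl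
  rw [hc]
  exact (irreducible_mul_isUnit hcu).2 hφ

/-- If an element x of GL_n(q), n ≥ 1, has prime order r and the multiplicative order of q modulo r is n (r is a primitive prime divisor of q^n − 1, so x acts irreducibly), then the centraliser of x in GL_n(q) is cyclic of order q^n − 1 (the multiplicative group of the field with q^n elements, a Singer cycle). -/
theorem result {F : Type*} [Field F] [Fintype F] {p q : ℕ} [Fact p.Prime] [CharP F p] (hF : Fintype.card F = q) {n r : ℕ} (hn : 1 ≤ n) (hr : r.Prime) (hrp : r ≠ p) (hi : orderOf (q : ZMod r) = n) (x : GL (Fin n) F) (hx : orderOf x = r) : IsCyclic ↥(Subgroup.centralizer ({x} : Set (GL (Fin n) F))) ∧ Nat.card ↥(Subgroup.centralizer ({x} : Set (GL (Fin n) F))) = q ^ n - 1 := by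
  classical
  set M : Matrix (Fin n) (Fin n) F := (x : Matrix (Fin n) (Fin n) F) with hM
  have hxr : M ^ r = 1 := by
    rw [hM, ← Units.val_pow_eq_pow_val, ← hx, pow_orderOf_eq_one, Units.val_one]
  have hx1 : M ≠ 1 := by
    intro h
    have : x = 1 := Units.ext h
    rw [this, orderOf_one] at hx
    exact hr.one_lt.ne hx
  obtain ⟨hirr, hdeg⟩ := aux_irred hF hn hr hrp hi M hxr hx1
  have : Fact (Irreducible (minpoly F M)) := ⟨hirr⟩
  have : NeZero n := ⟨by omega⟩
  let E := AdjoinRoot (minpoly F M)
  have hfin : Module.Finite F E := (AdjoinRoot.powerBasis hirr.ne_zero).finite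
  have : Finite E := Module.finite_of_finite F
  have : Fintype E := Fintype.ofFinite _
  have hcard : Nat.card E = q ^ n := by
    rw [Module.natCard_eq_pow_finrank (K := F), Nat.card_eq_fintype_card, hF,
      (AdjoinRoot.powerBasis hirr.ne_zero).finrank]
    simp [hdeg]
  let ψ : E →+* Matrix (Fin n) (Fin n) F :=
    Ideal.Quotient.lift (Ideal.span {minpoly F M}) (Polynomial.aeval M).toRingHom (by
      intro a ha
      rw [Ideal.mem_span_singleton] at ha
      obtain ⟨c, rfl⟩ := ha
      change Polynomial.aeval M (minpoly F M * c) = 0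
      rw [map_mul, minpoly.aeval, zero_mul])
  have hψmk : ∀ f : Polynomial F, ψ (AdjoinRoot.mk _ f) = Polynomial.aeval M f := fun f => rfl
  have hψinj : Function.Injective ψ := ψ.injective
  have hψroot : ψ (AdjoinRoot.root _) = M := by
    rw [← AdjoinRoot.mk_X, hψmk, Polynomial.aeval_X]
  have hψcomm : ∀ e : E, ψ e * M = M * ψ e := by
    intro e
    have h := congrArg ψ (mul_comm e (AdjoinRoot.root _))
    rw [map_mul, map_mul, hψroot] at h
    exact h
  -- centralizer of M is the range of ψ
  have hcent : ∀ c : Matrix (Fin n) (Fin n) F, c * M = M * c → ∃ e : E, ψ e = c := by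
    intro c hc
    have hcψ : ∀ e : E, c * ψ e = ψ e * c := by
      intro e
      induction e using AdjoinRoot.induction_on with
      | ih f =>
        rw [hψmk]
        have h2 : M ∈ Subalgebra.centralizer F {c} := by
          rw [Subalgebra.mem_centralizer_iff]
          rintro _ rfl
          exact hc
        have h3 : Polynomial.aeval M f ∈ Subalgebra.centralizer F {c} := by
          rw [← Polynomial.coe_aeval_mk_apply (p := f) (h := h2)]
          exact SetLike.coe_mem _
        exact (Subalgebra.mem_centralizer_iff F).1 h3 c rfl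
    let v : Fin n → F := Pi.single 0 1
    have hv : v ≠ 0 := by
      intro h
      have := congrFun h 0
      simp [v] at this
    let T : E → (Fin n → F) := fun e => (ψ e).mulVec v
    have hTinj : Function.Injective T := by
      intro a b hab
      by_contra hne
      have h1 : (ψ (a - b)).mulVec v = 0 := by
        rw [map_sub, Matrix.sub_mulVec]; exact sub_eq_zero.2 hab
      have h2 : (a - b) ≠ 0 := sub_ne_zero.2 hne
      apply hv
      have h3 : (ψ ((a - b)⁻¹)).mulVec ((ψ (a - b)).mulVec v) = v := by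
        rw [Matrix.mulVec_mulVec, ← map_mul, inv_mul_cancel₀ h2, map_one, Matrix.one_mulVec]
      rw [← h3, h1, Matrix.mulVec_zero]
    have hTbij : Function.Bijective T := by
      rw [Nat.bijective_iff_injective_and_card]
      refine ⟨hTinj, ?_⟩
      rw [hcard]; simp [hF]
    obtain ⟨e, he⟩ := hTbij.2 (c.mulVec v)
    refine ⟨e, ?_⟩
    rw [Matrix.ext_iff_mulVec]
    intro w
    obtain ⟨e', rfl⟩ := hTbij.2 w
    change (ψ e).mulVec ((ψ e').mulVec v) = c.mulVec ((ψ e').mulVec v)
    rw [Matrix.mulVec_mulVec, Matrix.mulVec_mulVec, hcψ, ← map_mul, mul_comm, map_mul,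
      ← Matrix.mulVec_mulVec, ← Matrix.mulVec_mulVec]
    congr 1
  let Ψ : Eˣ →* GL (Fin n) F := Units.map ψ.toMonoidHom
  have hΨinj : Function.Injective Ψ := by
    intro a b hab
    exact Units.ext (hψinj (congrArg Units.val hab))
  have hrange : Ψ.range = Subgroup.centralizer ({x} : Set (GL (Fin n) F)) := by
    ext g
    rw [Subgroup.mem_centralizer_iff]
    constructor
    · rintro ⟨e, rfl⟩ y hy
      rw [Set.mem_singleton_iff] at hy
      subst hy
      exact Units.ext (hψcomm e).symm
    · intro h
      have h1 : (g : Matrix (Fin n) (Fin n) F) * M = M * g := (congrArg Units.val (h x rfl)).symm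
      obtain ⟨e, he⟩ := hcent _ h1
      have he0 : e ≠ 0 := by
        rintro rfl
        rw [map_zero] at he
        exact g.ne_zero he.symm
      refine ⟨Units.mk0 e he0, Units.ext he⟩
  rw [← hrange]
  constructor
  · have : IsCyclic Eˣ := inferInstance
    exact isCyclic_of_surjective Ψ.rangeRestrict Ψ.rangeRestrict_surjective
  · rw [← Nat.card_congr (Ψ.ofInjective hΨinj).toEquiv, Nat.card_units, hcard]

end Cfsg.Agent.S2638
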