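import Cfsg.Statements.S2639
import Cfsg.Agent.Lib.H49.EmbedSymp
import Cfsg.Agent.Lib.H49.EmbedIsom
import Cfsg.Agent.Lib.H49.QuadraticExt2

set_option autoImplicit false
open Cfsg

namespace Cfsg.Agent.S2639

open H49.EmbedSymp H49.EmbedIsom H49.QuadraticExt H49.QuadraticExt2 H49.Unitary

/-- The unitary group embeds in the symplectic group of twice the dimension over the subfield: for a field K with q² elements and a field F with q elements (isomorphic to the subfield of K of order q), there is an injective homomorphism GU_m(q) → Sp_2m(F). -/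
theorem result {K F : Type*} [Field K] [Fintype K] [Field F] [Fintype F] {q : ℕ} (hK : Fintype.card K = q ^ 2) (hF : Fintype.card F = q) (m : ℕ) : ∃ φ : ↥(Cfsg.GU m K q) →* ↥(Matrix.symplecticGroup (Fin m) F), Function.Injective φ := by
  have hK' : Nat.card K = q ^ 2 := by rw [Nat.card_eq_fintype_card, hK]
  have hF' : Nat.card F = q := by rw [Nat.card_eq_fintype_card, hF]
  obtain ⟨i, τ, hi, hadd, hsmul, hτ⟩ := exists_tau hK' hF'
  let _ : Algebra F K := i.toAlgebra
  have halg : ∀ c : F, algebraMap F K c = i c := fun c => rfl
  have hfix : ∀ y : F, (i y) ^ q = i y := fun y => (hi _).2 ⟨y, rfl⟩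
  have hfd : FiniteDimensional F K := Module.Finite.of_finite
  have hdK : Module.finrank F K = 2 := finrank_eq_two hK' hF' (two_le hK')
  have hsm : ∀ (c : F) (u : Fin m → K), c • u = (i c) • u := by
    intro c u; ext j; simp [Algebra.smul_def, halg]
  have haddl : ∀ u u' v : Fin m → K, hermForm m K q (u + u') v = hermForm m K q u v + hermForm m K q u' v := by
    intro u u' v
    simp only [hermForm, Pi.add_apply, add_mul, Finset.sum_add_distrib]
  have haddr : ∀ u v v' : Fin m → K, hermForm m K q u (v + v') = hermForm m K q u v + hermForm m K q u v' := by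
    intro u v v'
    simp only [hermForm, Pi.add_apply, ← frob_apply hK', map_add, mul_add, Finset.sum_add_distrib]
  have hsl : ∀ (c : K) (u v : Fin m → K), hermForm m K q (c • u) v = c * hermForm m K q u v := by
    intro c u v
    simp only [hermForm, Pi.smul_apply, smul_eq_mul, Finset.mul_sum, mul_assoc]
  have hsr : ∀ (c : K) (u v : Fin m → K), hermForm m K q u (c • v) = c ^ q * hermForm m K q u v := by
    intro c u v
    simp only [hermForm, Pi.smul_apply, smul_eq_mul, Finset.mul_sum, mul_pow]
    apply Finset.sum_congr rfl; intro j _; ring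
  have hself : ∀ u : Fin m → K, (hermForm m K q u u) ^ q = hermForm m K q u u := by
    intro u
    rw [hermForm, ← frob_apply hK', map_sum]
    apply Finset.sum_congr rfl; intro j _
    rw [map_mul, frob_apply, ← frob_apply hK' (u j), frob_frob, mul_comm]
  let B : LinearMap.BilinForm F (Fin m → K) := LinearMap.mk₂ F
    (fun u v => τ (hermForm m K q u v))
    (by intro u u' v; rw [haddl, hadd])
    (by intro c u v; rw [hsm, hsl, hsmul]; rfl)
    (by intro u v v'; rw [haddr, hadd])
    (by intro c u v; rw [hsm, hsr, hfix, hsmul]; rfl)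
  have hBapp : ∀ u v, B u v = τ (hermForm m K q u v) := fun u v => rfl
  refine embed_symp B ?_ ?_ (n := m) ?_ ((restrictAct F).comp (Cfsg.GU m K q).subtype)
    ((restrictAct_injective F).comp (Subgroup.subtype_injective _)) ?_
  · intro u
    rw [hBapp, hτ, hself]
  · intro u hu
    by_contra hne
    obtain ⟨j, hj⟩ : ∃ j, u j ≠ 0 := by
      by_contra hcon
      push Not at hcon
      exact hne (funext hcon)
    obtain ⟨θ, hθ⟩ := exists_theta hK'
    have h1 := hu (((θ ^ q) / (u j) ^ q) • Pi.single j (1 : K))
    rw [hBapp, hsr, hτ] at h1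
    have h2 : hermForm m K q u (Pi.single j 1) = u j := by
      rw [hermForm, Finset.sum_eq_single j]
      · simp
      · intro b _ hb
        rw [Pi.single_eq_of_ne hb, zero_pow (by have := two_le hK'; omega), mul_zero]
      · intro h; exact absurd (Finset.mem_univ j) h
    have h3 : (θ ^ q / u j ^ q) ^ q = θ / u j := by
      rw [div_pow, ← frob_apply hK' θ, ← frob_apply hK' (frob hK' θ), frob_frob,
        ← frob_apply hK' (u j), ← frob_apply hK' (frob hK' (u j)), frob_frob]
    rw [h2, h3, div_mul_cancel₀ _ hj] at h1
    apply hθ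
    rw [frob_apply, h1, sub_self]
  · rw [Module.finrank_pi_fintype]
    simp only [hdK, Finset.sum_const, Finset.card_univ, Fintype.card_fin, smul_eq_mul]
    ring
  · intro g u v
    change τ (hermForm m K q _ _) = τ (hermForm m K q u v)
    have := g.2 u v
    exact congrArg τ this

end Cfsg.Agent.S2639
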