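import Cfsg.Statements.S2640
import Cfsg.Agent.Lib.H49.GUQuad

set_option autoImplicit false
open Cfsg

namespace Cfsg.Agent.S2640

open H48.QuadStd H49.QuadSum

/-- For m even, the unitary group GU_m(q) (over the field with q² elements) embeds in the orthogonal group O⁺_2m(q) of the hyperbolic form Σ x_i y_i over the field with q elements (there is an injective homomorphism). -/
theorem result {K F : Type*} [Field K] [Fintype K] [Field F] [Fintype F] {q : ℕ} (hK : Fintype.card K = q ^ 2) (hF : Fintype.card F = q) (m : ℕ) (hm : Even m) : ∃ φ : ↥(Cfsg.GU m K q) →* ↥(Cfsg.isometryGroup F (Cfsg.quadFormPlus m F)), Function.Injective φ := by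
  have hK' : Nat.card K = q ^ 2 := by rw [Nat.card_eq_fintype_card, hK]
  have hF' : Nat.card F = q := by rw [Nat.card_eq_fintype_card, hF]
  obtain ⟨k, rfl⟩ : ∃ k, m = 2 * k := by
    obtain ⟨k, hk⟩ := hm; exact ⟨k, by omega⟩
  rw [← coe_qPlus]
  refine H49.GUQuad.embed_GU hK' hF' (2 * k) (qPlus (2 * k) F) ?_
  intro t n htn
  refine pi_even (nd_qBin (disc_ne_zero htn)) (by simp) ?_ k
  intro v hv
  rw [qBin_apply] at hv
  obtain ⟨h1, h2⟩ := htn _ _ hv
  exact Prod.ext h1 h2

end Cfsg.Agent.S2640
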