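import Cfsg.Statements.S2641
import Cfsg.Agent.Lib.H49.GUQuad

set_option autoImplicit false
open Cfsg

namespace Cfsg.Agent.S2641

open H48.QuadStd H49.QuadSum

/-- For m odd, the unitary group GU_m(q) (over the field with q² elements) embeds in the orthogonal group O⁻_2m(q) of an elliptic form (Σ_(i<m−1) x_i y_i plus an anisotropic binary form) over the field with q elements (there is an injective homomorphism). -/
theorem result {K F : Type*} [Field K] [Fintype K] [Field F] [Fintype F] {q : ℕ} (hK : Fintype.card K = q ^ 2) (hF : Fintype.card F = q) (m : ℕ) (hm : Odd m) (a b : F) (hab : ∀ z₁ z₂ : F, z₁ ^ 2 + a * z₁ * z₂ + b * z₂ ^ 2 = 0 → z₁ = 0 ∧ z₂ = 0) : ∃ φ : ↥(Cfsg.GU m K q) →* ↥(Cfsg.isometryGroup F (Cfsg.quadFormMinus (m - 1) F a b)), Function.Injective φ := by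
  have hK' : Nat.card K = q ^ 2 := by rw [Nat.card_eq_fintype_card, hK]
  have hF' : Nat.card F = q := by rw [Nat.card_eq_fintype_card, hF]
  obtain ⟨k, rfl⟩ : ∃ k, m = 2 * k + 1 := hm
  rw [Nat.add_sub_cancel, ← coe_qMinus]
  refine H49.GUQuad.embed_GU hK' hF' (2 * k + 1) (qMinus (2 * k) F a b) ?_
  intro t n htn
  refine pi_odd (nd_qBin (disc_ne_zero htn)) (by simp) ?_ k hab
  intro v hv
  rw [qBin_apply] at hv
  obtain ⟨h1, h2⟩ := htn _ _ hv
  exact Prod.ext h1 h2

end Cfsg.Agent.S2641
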