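import Cfsg.Statements.S2642
import Cfsg.Agent.Lib.H49.RootMult
import Cfsg.Agent.Lib.H49.Unitary
import Cfsg.Agent.S2587
import Cfsg.Agent.S2588
import Cfsg.Agent.S2570
import Cfsg.Agent.Lib.H47.JordanCount

set_option autoImplicit false
open Cfsg

namespace Cfsg.Agent.S2642

open H49.Unitary H47.JordanCount

/-- conjugacy classes of a subgroup which controls conjugacy -/
theorem card_classes_sub {G : Type*} [Group G] (U : Subgroup G) (p : ℕ)
    (h1 : ∀ a b : U, IsConj a b ↔ IsConj (a : G) (b : G))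
    (h2 : ∀ g : G, orderOf g = p → ∃ b : U, IsConj g (b : G)) :
    Nat.card {C : ConjClasses U // ∃ g : U, ConjClasses.mk g = C ∧ orderOf g = p} =
      Nat.card {C : ConjClasses G // ∃ g : G, ConjClasses.mk g = C ∧ orderOf g = p} := by
  refine Nat.card_eq_of_bijective (fun C => ⟨ConjClasses.map U.subtype C.1, ?_⟩) ⟨?_, ?_⟩
  · obtain ⟨g, hg, hgo⟩ := C.2
    refine ⟨(g : G), ?_, by rw [Subgroup.orderOf_coe]; exact hgo⟩
    rw [← hg]; rfl
  · rintro ⟨C, g, rfl, hg⟩ ⟨D, h, rfl, hh⟩ hCD
    apply Subtype.ext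
    have h3 : ConjClasses.mk (g : G) = ConjClasses.mk (h : G) := congrArg Subtype.val hCD
    exact ConjClasses.mk_eq_mk_iff_isConj.mpr ((h1 g h).mpr (ConjClasses.mk_eq_mk_iff_isConj.mp h3))
  · rintro ⟨C, g, rfl, hg⟩
    obtain ⟨b, hb⟩ := h2 g hg
    have hbo : orderOf b = p := by
      obtain ⟨c, hc⟩ := isConj_iff.mp hb
      rw [← Subgroup.orderOf_coe, ← hc, ← hg]
      exact (MulAut.conj c).orderOf_eq g
    refine ⟨⟨ConjClasses.mk b, b, rfl, hbo⟩, ?_⟩
    apply Subtype.ext
    exact ConjClasses.mk_eq_mk_iff_isConj.mpr hb.symm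

/-- Number of conjugacy classes of elements of order p in the general unitary group GU_n(q), q a power of p: every unipotent Jordan type occurs and the classes correspond to the partitions of n with all parts at most p other than the all-ones partition, exactly as in GL_n; so there are (number of partitions of n with parts ≤ p) − 1 classes. -/
theorem result {K : Type*} [Field K] [Fintype K] {p q n : ℕ} [Fact p.Prime] [CharP K p] (hK : Fintype.card K = q ^ 2) : Nat.card {C : ConjClasses ↥(Cfsg.GU n K q) // ∃ g : ↥(Cfsg.GU n K q), ConjClasses.mk g = C ∧ orderOf g = p} = (Finset.univ.filter (fun μ : Nat.Partition n => ∀ a ∈ μ.parts, a ≤ p)).card - 1 := by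
  have hK' : Nat.card K = q ^ 2 := by rw [Nat.card_eq_fintype_card, hK]
  rw [← Cfsg.Agent.S2570.result (F := K) (p := p) n]
  refine card_classes_sub (Cfsg.GU n K q) p (fun a b => Cfsg.Agent.S2587.result hK a b) ?_
  intro g hg
  refine (Cfsg.Agent.S2588.result hK g).mpr ?_
  -- Jordan types
  have hgp : (g : Matrix (Fin n) (Fin n) K) ^ p = 1 := by
    rw [← Units.val_pow_eq_pow_val, ← hg, pow_orderOf_eq_one, Units.val_one]
  have hnil : ((g : Matrix (Fin n) (Fin n) K) - 1) ^ p = 0 := by
    rcases Nat.eq_zero_or_pos n with hn | hn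
    · subst hn
      exact Subsingleton.elim _ _
    · have : Nonempty (Fin n) := ⟨⟨0, hn⟩⟩
      have : CharP (Matrix (Fin n) (Fin n) K) p := inferInstance
      rw [sub_pow_char_of_commute _ (Commute.one_right _), hgp, one_pow, sub_self]
  obtain ⟨s, hs, -⟩ := exists_type _ hnil
  set M : Matrix (Fin n) (Fin n) K := (g : Matrix (Fin n) (Fin n) K) with hM
  set B : Matrix (Fin n) (Fin n) K := (M.map (fun x : K => x ^ q)).transpose with hB
  have hBct : B = ct hK' M := rfl
  have hBi : B * ct hK' ((g⁻¹ : GL (Fin n) K) : Matrix (Fin n) (Fin n) K) = 1 := by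
    rw [hBct, ← ct_mul, hM, Units.inv_mul, ct_one]
  have hBi' := mul_eq_one_comm.mp hBi
  set Bi := ct hK' ((g⁻¹ : GL (Fin n) K) : Matrix (Fin n) (Fin n) K) with hBidef
  have hinv : B⁻¹ = Bi := Matrix.inv_eq_right_inv hBi
  have htype : HasType Bi s := by
    refine ⟨hs.1, hs.2.1, fun j => ?_⟩
    rw [← hs.2.2 j]
    -- `(B⁻¹ - 1)^j = (-1)^j B⁻ʲ (B-1)^j`
    have hcomm : Commute Bi (B - 1) := by
      have h1 : Bi * B = B * Bi := hBi'.trans hBi.symm
      change Bi * (B - 1) = (B - 1) * Bi
      rw [mul_sub, sub_mul, h1, mul_one, one_mul]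
    have e1 : Bi - 1 = -Bi * (B - 1) := by
      rw [neg_mul, mul_sub, hBi', mul_one, neg_sub]
    have e2 : (Bi - 1) ^ j = (-Bi) ^ j * (B - 1) ^ j := by
      rw [e1, hcomm.neg_left.mul_pow]
    have hu : IsUnit ((-Bi) ^ j).det := by
      rw [← Matrix.isUnit_iff_isUnit_det]
      exact (IsUnit.neg ⟨⟨Bi, B, hBi', hBi⟩, rfl⟩).pow j
    rw [e2, Matrix.rank_mul_eq_right_of_isUnit_det _ _ hu]
    have e3 : (B - 1) ^ j = (((M - 1) ^ j).map (frob hK')).transpose := by
      have e4 : B - 1 = ((M - 1).map (frob hK')).transpose := by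
        rw [hBct, ct]
        have : (M - 1).map (frob hK') = M.map (frob hK') - 1 := by
          have h5 := map_sub (frob hK').mapMatrix M 1
          rw [map_one] at h5
          exact h5
        rw [this, Matrix.transpose_sub, Matrix.transpose_one]
      rw [e4, ← Matrix.transpose_pow]
      congr 1
      exact (map_pow (frob hK').mapMatrix (M - 1) j).symm
    rw [e3, Matrix.rank_transpose, H49.RootMult.rank_map]
  rw [hinv]
  exact (H47.JordanCount.isConj_iff hs htype).mpr rfl

end Cfsg.Agent.S2642
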