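import Cfsg.Statements.S2643
import Cfsg.Agent.Lib.H49.SUClasses
import Cfsg.Agent.Lib.H48.Jordan

set_option autoImplicit false
open Cfsg

namespace Cfsg.Agent.S2643

open Matrix H49.Unitary H49.SUClasses

theorem eigen_nilp {K : Type*} [Field K] {ι : Type*} [Fintype ι] [DecidableEq ι]
    {M : Matrix ι ι K} {m : ℕ} (hM : M ^ m = 0) {v : ι → K} (hv : v ≠ 0) {c : K}
    (h : M *ᵥ v = c • v) : c = 0 := by
  have h1 : ∀ k : ℕ, (M ^ k) *ᵥ v = (c ^ k) • v := by
    intro k
    induction k with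
    | zero => rw [pow_zero, pow_zero, Matrix.one_mulVec, one_smul]
    | succ k ih =>
      rw [pow_succ, ← Matrix.mulVec_mulVec, h, Matrix.mulVec_smul, ih, smul_smul, pow_succ, mul_comm]
  have h2 := h1 m
  rw [hM, Matrix.zero_mulVec] at h2
  rcases smul_eq_zero.mp h2.symm with h3 | h3
  · have hm : m ≠ 0 := by
      rintro rfl
      rw [pow_zero] at h3
      exact one_ne_zero h3
    exact (pow_eq_zero_iff hm).mp h3
  · exact absurd h3 hv

/-- Regular unipotent classes of SU_n(q), n ≥ 2: the elements u of the special unitary group (isometries of Σ u_i v_i^q of determinant one over the field with q² elements) with (u − 1)^n = 0 and rank(u − 1) = n − 1 form exactly gcd(n, q + 1) conjugacy classes of SU_n(q). -/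
theorem result {K : Type*} [Field K] [Fintype K] {q n : ℕ} (hK : Fintype.card K = q ^ 2) (hn : 2 ≤ n) : Nat.card {C : ConjClasses ↥(Cfsg.SU n K q) // ∃ u : ↥(Cfsg.SU n K q), ConjClasses.mk u = C ∧ (((u : GL (Fin n) K) : Matrix (Fin n) (Fin n) K) - 1) ^ n = 0 ∧ (((u : GL (Fin n) K) : Matrix (Fin n) (Fin n) K) - 1).rank = n - 1} = Nat.gcd n (q + 1) := by
  classical
  have : Nonempty (Fin n) := ⟨⟨0, by omega⟩⟩
  have hK' : Nat.card K = q ^ 2 := by rw [Nat.card_eq_fintype_card, hK]
  have hN0 : (H48.Jordan.J0 n K) ^ n = 0 := H48.Jordan.J0_pow_self n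
  have hr0 : (H48.Jordan.J0 n K).rank = n - 1 := by
    have := H48.Jordan.rank_J0_pow (F := K) n 1
    rwa [pow_one] at this
  have hJ : Cfsg.jordanBlock n K - 1 = H48.Jordan.J0 n K := H48.Jordan.jordanBlock_sub_one n
  have hdetJ : (Cfsg.jordanBlock n K).det = 1 := by
    have h1 : Cfsg.jordanBlock n K = (1 : K) • (1 : Matrix (Fin n) (Fin n) K) + H48.Jordan.J0 n K := by
      rw [← hJ, one_smul]; abel
    rw [h1, H48.Unip.det_smul_one_add ⟨n, H48.Jordan.J0_pow_self n⟩, one_pow]
  obtain ⟨g0, hg0⟩ := exists_GU_of_unipotent (q := q) hK (m := n) (Cfsg.jordanBlock n K)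
    (by rw [hJ, hN0])
  have hconjP : ∀ A B : Matrix (Fin n) (Fin n) K, IsConj A B → (A - 1) ^ n = 0 → (A - 1).rank = n - 1 →
      (B - 1) ^ n = 0 ∧ (B - 1).rank = n - 1 := by
    intro A B hc h1 h2
    have h3 : ∀ k, ((B - 1) ^ k).rank = ((A - 1) ^ k).rank := by
      intro k
      have := H48.SimMatrix.rank_aeval_of_isConj hc ((Polynomial.X - 1 : Polynomial K) ^ k)
      simp only [map_pow, map_sub, Polynomial.aeval_X, map_one] at this
      exact this.symm
    refine ⟨?_, ?_⟩
    · have h4 := h3 n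
      rw [h1, Matrix.rank_zero] at h4
      exact H48.Jordan.eq_zero_of_rank h4
    · have h4 := h3 1
      rwa [pow_one, pow_one, h2] at h4
  obtain ⟨hgN, hgr⟩ := hconjP _ _ hg0 (by rw [hJ, hN0]) (by rw [hJ, hr0])
  have hdet0 : ((g0 : GL (Fin n) K) : Matrix (Fin n) (Fin n) K).det = 1 := by
    obtain ⟨c, hc⟩ := hg0
    have hc' : (c : Matrix (Fin n) (Fin n) K) * Cfsg.jordanBlock n K =
      ((g0 : GL (Fin n) K) : Matrix (Fin n) (Fin n) K) * c := hc
    have h1 := congrArg Matrix.det hc'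
    rw [Matrix.det_mul, Matrix.det_mul, hdetJ, mul_one, mul_comm] at h1
    have h2 : (c : Matrix (Fin n) (Fin n) K).det ≠ 0 := ((Matrix.isUnit_iff_isUnit_det _).mp c.isUnit).ne_zero
    exact (mul_left_cancel₀ h2 (by rw [mul_one]; exact h1)).symm
  obtain ⟨u0, hu0⟩ := (detS_eq_one_iff hK g0).mp (Subtype.ext (Units.ext (by
    rw [detS_coe]; exact hdet0)))
  have h := card_split (toGU n K q) toGU_injective (detS hK n) (detS_surjective hK (by omega))
    (detS_eq_one_iff hK)
    (fun u : ↥(Cfsg.SU n K q) => (((u : GL (Fin n) K) : Matrix (Fin n) (Fin n) K) - 1) ^ n = 0 ∧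
      (((u : GL (Fin n) K) : Matrix (Fin n) (Fin n) K) - 1).rank = n - 1) u0 (fun u => ?_)
    (powMonoidHom n : ↥(S K q) →* ↥(S K q)).range (fun a => ?_)
  · have hcyc : IsCyclic ↥(S K q) := inferInstance
    rw [h, IsCyclic.index_powMonoidHom_range, card_S hK, Nat.gcd_comm]
  · rw [isConj_GU_iff hK, hu0]
    constructor
    · rintro ⟨h1, h2⟩
      exact H48.Unip.isConj_regular (by simp) hgN h1 hgr h2
    · intro hc
      exact hconjP _ _ hc hgN hgr
  · rw [hu0]
    constructor
    · rintro ⟨c, rfl⟩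
      obtain ⟨d, hd, hdd⟩ := H17.GUCenter.exists_diagGU (n := n) (q := q) (fun _ => (c : Kˣ))
        (fun _ => (mem_S (c : Kˣ)).mp c.2)
      have hdd' : (d : Matrix (Fin n) (Fin n) K) = ((c : Kˣ) : K) • 1 := by
        rw [hdd, Matrix.smul_one_eq_diagonal]
      refine ⟨⟨d, hd⟩, ?_, ?_⟩
      · apply Subtype.ext
        apply Units.ext
        change (d : Matrix (Fin n) (Fin n) K) * ((g0 : GL (Fin n) K) : Matrix (Fin n) (Fin n) K) =
          ((g0 : GL (Fin n) K) : Matrix (Fin n) (Fin n) K) * (d : Matrix (Fin n) (Fin n) K)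
        rw [hdd', smul_mul_assoc, one_mul, mul_smul_comm, mul_one]
      · apply Subtype.ext
        apply Units.ext
        rw [detS_coe]
        change (d : Matrix (Fin n) (Fin n) K).det = _
        rw [hdd', Matrix.det_smul, Matrix.det_one, Fintype.card_fin, mul_one]
        rfl
    · rintro ⟨d, hd, hda⟩
      set D := ((d : GL (Fin n) K) : Matrix (Fin n) (Fin n) K) with hD
      set G0 := ((g0 : GL (Fin n) K) : Matrix (Fin n) (Fin n) K) with hG0
      have hcomm : D * G0 = G0 * D :=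
        congrArg (fun g : ↥(Cfsg.GU n K q) => ((g : GL (Fin n) K) : Matrix (Fin n) (Fin n) K)) hd
      have hcomm' : D * (G0 - 1) = (G0 - 1) * D := by rw [mul_sub, sub_mul, hcomm, mul_one, one_mul]
      obtain ⟨a', ha'⟩ := H48.Unip.commutant_regular_matrix (by simp) hgN hgr (by omega) hcomm'
      have h5 := H48.Unip.det_poly_nilpotent (N := G0 - 1) ⟨n, hgN⟩ (by omega : 0 < n) a'
      rw [← ha', Fintype.card_fin] at h5
      have ha0 : a' ⟨0, by omega⟩ ≠ 0 := by
        intro h0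
        rw [h0, zero_pow (by omega)] at h5
        have h6 : (D.det : K) ≠ 0 :=
          ((Matrix.isUnit_iff_isUnit_det _).mp (d : GL (Fin n) K).isUnit).ne_zero
        exact h6 h5
      -- the eigenvalue has norm one
      obtain ⟨R, hR1, hR2⟩ : ∃ R : Matrix (Fin n) (Fin n) K,
          D - a' ⟨0, by omega⟩ • (1 : Matrix (Fin n) (Fin n) K) = R * (G0 - 1) ∧
          Commute R (G0 - 1) := by
        obtain ⟨k, hk⟩ : ∃ k, n = k + 1 := ⟨n - 1, by omega⟩
        subst hk
        refine ⟨∑ i : Fin k, a' i.succ • (G0 - 1) ^ (i : ℕ), ?_, ?_⟩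
        · rw [ha', Fin.sum_univ_succ, Finset.sum_mul]
          have h00 : (⟨0, by omega⟩ : Fin (k + 1)) = 0 := rfl
          rw [h00, Fin.val_zero, pow_zero, add_sub_cancel_left]
          refine Finset.sum_congr rfl fun i _ => ?_
          rw [Fin.val_succ, pow_succ, smul_mul_assoc]
        · exact Commute.sum_left _ _ _ fun i _ => ((Commute.refl _).pow_left _).smul_left _
      obtain ⟨v, hv, hNv⟩ : ∃ v : Fin n → K, v ≠ 0 ∧ (G0 - 1) *ᵥ v = 0 := by
        refine Matrix.exists_mulVec_eq_zero_iff.mpr ?_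
        by_contra hne
        have h6 := Matrix.rank_of_isUnit (G0 - 1)
          ((Matrix.isUnit_iff_isUnit_det _).mpr (IsUnit.mk0 _ hne))
        rw [hgr, Fintype.card_fin] at h6
        omega
      have hDv : D *ᵥ v = a' ⟨0, by omega⟩ • v := by
        have h6 : (D - a' ⟨0, by omega⟩ • (1 : Matrix (Fin n) (Fin n) K)) *ᵥ v = 0 := by
          rw [hR1, ← Matrix.mulVec_mulVec, hNv, Matrix.mulVec_zero]
        rw [Matrix.sub_mulVec, Matrix.smul_mulVec, Matrix.one_mulVec, sub_eq_zero] at h6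
        exact h6
      have hct : ct hK' D * D = 1 := (mem_GU hK' _).mp d.2
      have hctv : ct hK' D *ᵥ v = (a' ⟨0, by omega⟩)⁻¹ • v := by
        have h6 : (ct hK' D * D) *ᵥ v = v := by rw [hct, Matrix.one_mulVec]
        rw [← Matrix.mulVec_mulVec, hDv, Matrix.mulVec_smul] at h6
        rw [← h6, smul_smul, inv_mul_cancel₀ ha0, one_smul, h6]
      have hnil : (ct hK' (D - a' ⟨0, by omega⟩ • (1 : Matrix (Fin n) (Fin n) K))) ^ n = 0 := by
        rw [← ct_pow, hR1, hR2.mul_pow, hgN, mul_zero, ct_zero]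
      have h7 := eigen_nilp hnil hv (c := (a' ⟨0, by omega⟩)⁻¹ - frob hK' (a' ⟨0, by omega⟩)) (by
        rw [ct_sub, ct_scalar, Matrix.sub_mulVec, hctv, Matrix.smul_mulVec, Matrix.one_mulVec,
          sub_smul])
      have h8 : (Units.mk0 _ ha0) ^ (q + 1) = 1 := by
        apply Units.ext
        rw [Units.val_pow_eq_pow_val, Units.val_mk0, Units.val_one, pow_succ]
        have h9 : (a' ⟨0, by omega⟩) ^ q = (a' ⟨0, by omega⟩)⁻¹ := by
          rw [← frob_apply hK']; exact (sub_eq_zero.mp h7).symm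
        rw [h9, inv_mul_cancel₀ ha0]
      refine ⟨⟨Units.mk0 _ ha0, (mem_S _).mpr h8⟩, ?_⟩
      rw [← hda]
      apply Subtype.ext
      apply Units.ext
      rw [detS_coe]
      change _ = D.det
      rw [h5]
      rfl

end Cfsg.Agent.S2643
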