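import Cfsg.Statements.S2644
import Cfsg.Agent.Lib.H49.SUClasses
import Cfsg.Agent.Lib.H48.Jordan
import Cfsg.Agent.Lib.H49.ProjMatrix

set_option autoImplicit false
open Cfsg

namespace Cfsg.Agent.S2644

open Matrix H49.Unitary H49.SUClasses

theorem isConj_of_full {N Γ A : Type*} [Group N] [Group Γ] [CommGroup A] (j : N →* Γ)
    (hj : Function.Injective j) (f : Γ →* A)
    (hjf : ∀ g, f g = 1 ↔ ∃ u, j u = g) (A0 : Γ) (hfull : ∀ a, ∃ d, d * A0 = A0 * d ∧ f d = a)
    {s t : N} (hs : IsConj A0 (j s)) (ht : IsConj A0 (j t)) : IsConj s t := by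
  obtain ⟨g, hg⟩ := isConj_iff.mp hs
  obtain ⟨h, hh⟩ := isConj_iff.mp ht
  obtain ⟨d, hd, hda⟩ := hfull ((f h)⁻¹ * f g)
  obtain ⟨w, hw⟩ := (hjf (h * d * g⁻¹)).mp (by
    rw [map_mul, map_mul, map_inv, hda, mul_inv_cancel_left, mul_inv_cancel])
  refine isConj_iff.mpr ⟨w, hj ?_⟩
  have hd' : d * A0 * d⁻¹ = A0 := by rw [hd, mul_inv_cancel_right]
  rw [map_mul, map_mul, map_inv, hw, ← hg, ← hh]
  calc h * d * g⁻¹ * (g * A0 * g⁻¹) * (h * d * g⁻¹)⁻¹ = h * (d * A0 * d⁻¹) * h⁻¹ := by group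
    _ = _ := by rw [hd']

/-- In the special unitary group SU_n(q) with n ≥ 3 (isometries of Σ u_i v_i^q of determinant one over the field with q² elements), any two transvections (elements t with t − 1 of rank one and square zero) are conjugate. -/
theorem result {K : Type*} [Field K] [Fintype K] {q n : ℕ} (hK : Fintype.card K = q ^ 2) (hn : 3 ≤ n) (s t : ↥(Cfsg.SU n K q)) (hs : Cfsg.IsTransvection (((s : GL (Fin n) K) : Matrix (Fin n) (Fin n) K))) (ht : Cfsg.IsTransvection (((t : GL (Fin n) K) : Matrix (Fin n) (Fin n) K))) : IsConj s t := by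
  classical
  have hK' : Nat.card K = q ^ 2 := by rw [Nat.card_eq_fintype_card, hK]
  obtain ⟨y, hy⟩ := H7.QuadExt.exists_norm_eq hK (c := (-1 : K))
    (by rw [H7.QuadExt.neg_pow_q hK, one_pow])
  obtain ⟨θ, hθ⟩ := exists_theta hK'
  obtain ⟨c, hc0, hcq⟩ : ∃ c : K, c ≠ 0 ∧ frob hK' c = -c :=
    ⟨θ - frob hK' θ, hθ, by rw [map_sub, frob_frob]; ring⟩
  let i0 : Fin n := ⟨0, by omega⟩
  let i1 : Fin n := ⟨1, by omega⟩
  let i2 : Fin n := ⟨2, by omega⟩
  have h01 : i0 ≠ i1 := fun h => absurd (Fin.mk.inj_iff.mp h) (by norm_num)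
  have h02 : i0 ≠ i2 := fun h => absurd (Fin.mk.inj_iff.mp h) (by norm_num)
  have h12 : i1 ≠ i2 := fun h => absurd (Fin.mk.inj_iff.mp h) (by norm_num)
  let v : Fin n → K := Pi.single i0 1 + Pi.single i1 y
  have hv0 : v i0 = 1 := by simp [v, h01]
  have hv1 : v i1 = y := by simp [v, h01]
  have hv2 : v i2 = 0 := by simp [v, h02.symm, h12.symm]
  let w : Fin n → K := fun i => frob hK' (v i)
  let E : Matrix (Fin n) (Fin n) K := Matrix.vecMulVec v w
  have hEapp : ∀ i j, E i j = v i * w j := fun i j => rfl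
  have hctE : ct hK' E = E := by
    ext i j
    rw [ct_apply, hEapp, hEapp, ← frob_apply hK', map_mul]
    change frob hK' (v j) * frob hK' (frob hK' (v i)) = v i * frob hK' (v j)
    rw [frob_frob, mul_comm]
  have hEE : E * E = 0 := by
    rw [Matrix.vecMulVec_mul_vecMulVec]
    have h1 : w ⬝ᵥ v = 0 := by
      change ∑ i, w i * v i = 0
      have h2 : ∀ i, i ≠ i0 → i ≠ i1 → w i * v i = 0 := by
        intro i h0 h1
        have : v i = 0 := by simp [v, h0, h1]
        rw [this, mul_zero]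
      rw [← Finset.sum_subset (Finset.subset_univ ({i0, i1} : Finset (Fin n)))
        (fun i _ hi => by
          rw [Finset.mem_insert, Finset.mem_singleton, not_or] at hi
          exact h2 i hi.1 hi.2), Finset.sum_pair h01]
      change frob hK' (v i0) * v i0 + frob hK' (v i1) * v i1 = 0
      rw [hv0, hv1, map_one, frob_apply, ← pow_succ, hy]
      ring
    rw [h1]
    ext i j
    simp [Matrix.vecMulVec_apply]
  have hEr : E.rank = 1 := by
    apply le_antisymm (Matrix.rank_vecMulVec_le v w)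
    rw [Nat.one_le_iff_ne_zero]
    intro h
    have h2 := H48.Jordan.eq_zero_of_rank h
    have h3 := congrFun (congrFun h2 i0) i0
    change v i0 * frob hK' (v i0) = 0 at h3
    rw [hv0, map_one, mul_one] at h3
    exact one_ne_zero h3
  -- the reference transvection
  have hTT : ct hK' (1 + c • E) * (1 + c • E) = 1 := by
    rw [ct_add, ct_one, ct_smul, hctE, hcq]
    rw [add_mul, mul_add, mul_add, one_mul, one_mul, mul_one, neg_smul, neg_mul,
      smul_mul_smul_comm, hEE, smul_zero]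
    abel
  let T : GL (Fin n) K := ⟨1 + c • E, ct hK' (1 + c • E), mul_eq_one_comm.mp hTT, hTT⟩
  let A0 : ↥(Cfsg.GU n K q) := ⟨T, (mem_GU hK' T).mpr hTT⟩
  have hA0 : ((A0 : GL (Fin n) K) : Matrix (Fin n) (Fin n) K) = 1 + c • E := rfl
  have hA0r : (((A0 : GL (Fin n) K) : Matrix (Fin n) (Fin n) K) - 1).rank = 1 := by
    rw [hA0, add_sub_cancel_left, H49.ProjMatrix.rank_smul_unit c hc0, hEr]
  have hA0s : (((A0 : GL (Fin n) K) : Matrix (Fin n) (Fin n) K) - 1) ^ 2 = 0 := by
    rw [hA0, add_sub_cancel_left, pow_two, smul_mul_smul_comm, hEE, smul_zero]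
  have hconj : ∀ u : ↥(Cfsg.SU n K q),
      Cfsg.IsTransvection (((u : GL (Fin n) K) : Matrix (Fin n) (Fin n) K)) →
      IsConj A0 (toGU n K q u) := by
    intro u hu
    refine isConj_GU hK (H48.Unip.isConj_of_unipotent (m := 2) hA0s ?_ fun k => ?_)
    · rw [pow_two]; exact hu.2
    · rcases k with _ | _ | k
      · rw [pow_zero, pow_zero]
      · rw [zero_add, pow_one, pow_one, hA0r]; exact hu.1.symm
      · have h1 : (((toGU n K q u : GL (Fin n) K) : Matrix (Fin n) (Fin n) K) - 1) ^ 2 = 0 := by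
          rw [pow_two]; exact hu.2
        rw [show k + 1 + 1 = 2 + k by ring, pow_add, pow_add, hA0s, h1, zero_mul, zero_mul]
  refine isConj_of_full (toGU n K q) toGU_injective (detS hK n) (detS_eq_one_iff hK) A0 ?_
    (hconj s hs) (hconj t ht)
  rintro ⟨a, ha⟩
  obtain ⟨d, hd, hdd⟩ := H17.GUCenter.exists_diagGU (n := n) (q := q)
    (fun i => if i = i2 then a else 1) (fun i => by
      split_ifs
      · exact ha
      · exact one_pow _)
  refine ⟨⟨d, hd⟩, ?_, ?_⟩
  · apply Subtype.ext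
    apply Units.ext
    change (d : Matrix (Fin n) (Fin n) K) * (1 + c • E) = (1 + c • E) * (d : Matrix (Fin n) (Fin n) K)
    rw [mul_add, add_mul, mul_one, one_mul, mul_smul_comm, smul_mul_assoc]
    congr 2
    rw [hdd]
    ext i j
    rw [Matrix.diagonal_mul, Matrix.mul_diagonal, hEapp]
    by_cases hi : i = i2
    · subst hi
      rw [hv2, zero_mul, mul_zero, zero_mul]
    · by_cases hj : j = i2
      · subst hj
        have hw2 : w i2 = 0 := by change frob hK' (v i2) = 0; rw [hv2, map_zero]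
        rw [hw2, mul_zero, mul_zero, zero_mul]
      · rw [if_neg hi, if_neg hj, Units.val_one, one_mul, mul_one]
  · apply Subtype.ext
    apply Units.ext
    rw [detS_coe]
    change (d : Matrix (Fin n) (Fin n) K).det = a
    rw [hdd, Matrix.det_diagonal, Finset.prod_eq_single_of_mem i2 (Finset.mem_univ _)]
    · rw [if_pos rfl]
    · intro b _ hb
      rw [if_neg hb, Units.val_one]

end Cfsg.Agent.S2644
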