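import Cfsg.Statements.S2645
import Cfsg.Agent.Lib.H49.SpClasses
import Cfsg.Agent.Lib.H49.FormRm
import Cfsg.Agent.S2589

set_option autoImplicit false
open Cfsg

namespace Cfsg.Agent.S2645

open H49.RootMult H49.RootCount H49.RootGroup H49.GLClasses H49.FormRm H49.SpClasses

/-- Number of conjugacy classes of elements of odd prime order r, r different from the characteristic, in the symplectic group Sp_2m(q): let i be the multiplicative order of q modulo r and t = (r − 1)/i. If i is odd the eigenvalue orbits pair off (Λ ≠ Λ⁻¹) and the classes correspond to the non-zero (t/2)-tuples (a_j) with 2i Σ a_j ≤ 2m, giving C(⌊m/i⌋ + t/2, t/2) − 1 classes; if i is even (Λ = Λ⁻¹) they correspond to the non-zero t-tuples with i Σ a_j ≤ 2m, giving C(⌊2m/i⌋ + t, t) − 1 classes. -/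
theorem result {F : Type*} [Field F] [Fintype F] {p q : ℕ} [Fact p.Prime] [CharP F p] (hF : Fintype.card F = q) (m r i t : ℕ) (hr : r.Prime) (hr2 : r ≠ 2) (hrp : r ≠ p) (hi : i = orderOf (q : ZMod r)) (ht : t * i = r - 1) : Nat.card {C : ConjClasses ↥(Matrix.symplecticGroup (Fin m) F) // ∃ g : Matrix.symplecticGroup (Fin m) F, ConjClasses.mk g = C ∧ orderOf g = r} = if Odd i then Nat.choose (m / i + t / 2) (t / 2) - 1 else Nat.choose (2 * m / i + t) t - 1 := by
  have : Fact r.Prime := ⟨hr⟩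
  have hrF : (r : F) ≠ 0 := cast_ne_zero_of_ne hr hrp
  obtain ⟨ζ, hζ⟩ := exists_primitive (K := F) hrF
  set φ := algebraMap F (AlgebraicClosure F) with hφ
  have hqF : Nat.card F = q := by rw [Nat.card_eq_fintype_card, hF]
  have hq0 : (q : ZMod r) ≠ 0 := by
    have := card_ne_zero' (K := F) φ hζ
    rwa [hqF] at this
  have hcard : Fintype.card (Fin m ⊕ Fin m) = 2 * m := by
    rw [Fintype.card_sum, Fintype.card_fin]; ring
  have hcount := count_sup hr2 hq0 hi ht (2 * m)
  rw [Nat.mul_div_mul_left _ _ (by norm_num : 0 < 2)] at hcount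
  rw [← hcount]
  have hpow : ∀ g : ↥(Matrix.symplecticGroup (Fin m) F), g ^ r = 1 →
      (g : Matrix (Fin m ⊕ Fin m) (Fin m ⊕ Fin m) F) ^ r = 1 := by
    intro g hg
    rw [← SubmonoidClass.coe_pow, hg]; rfl
  have hordp : ∀ g : ↥(Matrix.symplecticGroup (Fin m) F), g ^ r = 1 → g ≠ 1 →
      (orderOf g).Coprime p := by
    intro g hg hg1
    rw [orderOf_eq_prime hg hg1]
    exact (Nat.coprime_primes hr Fact.out).mpr hrp
  refine card_classes (fun (g : ↥(Matrix.symplecticGroup (Fin m) F)) k =>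
    rm φ ζ (g : Matrix (Fin m ⊕ Fin m) (Fin m ⊕ Fin m) F) k) _
    ((finite_Inv _ _).subset fun m hm => hm.1) ?_ ?_ ?_ ?_
  · intro g hg hg1
    refine ⟨(mem_Inv_sup _ _ _ _).mpr ⟨⟨fun k => ?_, fun k => ?_⟩, ?_⟩, ?_⟩
    · have := rm_frob (K := F) φ hζ (g : Matrix (Fin m ⊕ Fin m) (Fin m ⊕ Fin m) F) k
      rwa [hqF] at this
    · have h1 := rm_neg_of_form (φ := φ) hζ (Matrix.J (Fin m) F)
        (g : Matrix (Fin m ⊕ Fin m) (Fin m ⊕ Fin m) F)
        ((g⁻¹ : ↥(Matrix.symplecticGroup (Fin m) F)) : Matrix (Fin m ⊕ Fin m) (Fin m ⊕ Fin m) F)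
        ((Matrix.isUnit_iff_isUnit_det _).mpr (Matrix.isUnit_det_J (Fin m) F))
        (SymplecticGroup.mem_iff'.mp g.2)
        (congrArg Subtype.val (mul_inv_cancel g)) k
      rw [Units.val_neg, Units.val_one, neg_one_mul]
      exact h1
    · have := sum_rm hζ (φ := φ) _ (hpow g hg)
      rwa [hcard] at this
    · intro h
      apply hg1
      apply Subtype.ext
      exact (eq_one_iff_rm (φ := φ) hζ _ (hpow g hg)).mpr (by rw [hcard]; exact h)
  · rintro m' ⟨hm, hm1⟩
    obtain ⟨⟨hm2, hm3⟩, hm4⟩ := (mem_Inv_sup _ _ _ _).mp hm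
    obtain ⟨g, hgr, hgm⟩ := exists_sp (F := F) (φ := φ) hζ hr2 m m' (by rw [hqF]; exact hm2)
      (fun k => by
        have := hm3 k
        rwa [Units.val_neg, Units.val_one, neg_one_mul] at this) hm4
    refine ⟨g, hgr, ?_, funext hgm⟩
    rintro rfl
    apply hm1
    have := (eq_one_iff_rm (φ := φ) hζ (1 : Matrix (Fin m ⊕ Fin m) (Fin m ⊕ Fin m) F)
      (one_pow r)).mp rfl
    rw [hcard] at this
    rw [← this]
    funext k
    exact (hgm k).symm
  · intro g h hg hh hg1 _ he
    exact (Cfsg.Agent.S2589.result g h (hordp g hg hg1)).mpr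
      (isConj_of_rm hζ (hpow g hg) (hpow h hh) fun k => congrFun he k)
  · intro g h _ _ hc
    funext k
    exact rm_conj ((Matrix.symplecticGroup (Fin m) F).subtype.map_isConj hc) k

end Cfsg.Agent.S2645
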