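import Cfsg.Statements.S2646
import Cfsg.Agent.Lib.H49.GUUnip
import Cfsg.Agent.Lib.H49.CardGU
import Cfsg.Agent.Lib.H49.GLClasses

set_option autoImplicit false
open Cfsg

namespace Cfsg.Agent.S2646

open Matrix H49.Unitary H49.SemiInvol H49.GUUnip H48.JTCent

/-- invariant Hermitian forms -/
abbrev InvH {K : Type*} [Field K] [Finite K] {q : ℕ} (hK : Nat.card K = q ^ 2) {ι : Type*}
    [Fintype ι] [DecidableEq ι] (A : Matrix ι ι K) : Type _ :=
  {H : Matrix ι ι K // ct hK A * H * A = H ∧ ct hK H = H ∧ H.det ≠ 0}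

theorem card_comm_reindex {K : Type*} [Field K] {ι κ : Type*} [Fintype ι] [DecidableEq ι]
    [Fintype κ] [DecidableEq κ] (e : ι ≃ κ) (A : Matrix ι ι K) :
    Nat.card {g : GL ι K // (g : Matrix ι ι K) * A = A * g} =
      Nat.card {g : GL κ K // (g : Matrix κ κ K) * Matrix.reindex e e A =
        Matrix.reindex e e A * g} := by
  let f := Units.mapEquiv (Matrix.reindexAlgEquiv K K e).toMulEquiv
  refine Nat.card_congr (f.toEquiv.subtypeEquiv fun g => ?_)
  have h1 : ((f g : GL κ K) : Matrix κ κ K) = Matrix.reindexAlgEquiv K K e (g : Matrix ι ι K) := rfl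
  have h2 : Matrix.reindex e e A = Matrix.reindexAlgEquiv K K e A := rfl
  change _ ↔ ((f g : GL κ K) : Matrix κ κ K) * _ = _ * ((f g : GL κ K) : Matrix κ κ K)
  rw [h1, h2, ← map_mul, ← map_mul]
  exact (Matrix.reindexAlgEquiv K K e).injective.eq_iff.symm

theorem card_InvH_reindex {K : Type*} [Field K] [Finite K] {q : ℕ} (hK : Nat.card K = q ^ 2)
    {ι κ : Type*} [Fintype ι] [DecidableEq ι]
    [Fintype κ] [DecidableEq κ] (e : ι ≃ κ) (A : Matrix ι ι K) :
    Nat.card (InvH hK A) = Nat.card (InvH hK (Matrix.reindex e e A)) := by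
  have hct : ∀ M : Matrix ι ι K, ct hK (Matrix.reindexAlgEquiv K K e M) =
      Matrix.reindexAlgEquiv K K e (ct hK M) := fun M => rfl
  have h2 : Matrix.reindex e e A = Matrix.reindexAlgEquiv K K e A := rfl
  refine Nat.card_congr ((Matrix.reindexAlgEquiv K K e).toEquiv.subtypeEquiv fun H => ?_)
  change _ ↔ ct hK (Matrix.reindex e e A) * (Matrix.reindexAlgEquiv K K e H) *
    (Matrix.reindex e e A) = Matrix.reindexAlgEquiv K K e H ∧
    ct hK (Matrix.reindexAlgEquiv K K e H) = Matrix.reindexAlgEquiv K K e H ∧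
    (Matrix.reindexAlgEquiv K K e H).det ≠ 0
  rw [h2, hct, hct, ← map_mul, ← map_mul, (Matrix.reindexAlgEquiv K K e).injective.eq_iff,
    (Matrix.reindexAlgEquiv K K e).injective.eq_iff]
  have h3 : (Matrix.reindexAlgEquiv K K e H).det = H.det := Matrix.det_reindex_self e H
  rw [h3]

theorem card_InvH_conj {K : Type*} [Field K] [Finite K] {q : ℕ} (hK : Nat.card K = q ^ 2)
    {ι : Type*} [Fintype ι] [DecidableEq ι] {A B : Matrix ι ι K} (h : IsConj A B) :
    Nat.card (InvH hK B) = Nat.card (InvH hK A) := by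
  obtain ⟨c, hc⟩ := h
  have hc' : (c : Matrix ι ι K) * A = B * c := hc
  have hcd : (c : Matrix ι ι K).det ≠ 0 := ((Matrix.isUnit_iff_isUnit_det _).mp c.isUnit).ne_zero
  have hcd' : ((c⁻¹ : (Matrix ι ι K)ˣ) : Matrix ι ι K).det ≠ 0 :=
    ((Matrix.isUnit_iff_isUnit_det _).mp (c⁻¹).isUnit).ne_zero
  have hctd : ∀ M : Matrix ι ι K, M.det ≠ 0 → (ct hK M).det ≠ 0 := by
    intro M hM
    exact ((Matrix.isUnit_iff_isUnit_det _).mp (isUnit_ct hK
      ((Matrix.isUnit_iff_isUnit_det _).mpr (IsUnit.mk0 _ hM)))).ne_zero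
  have h1 : (ct hK (c : Matrix ι ι K)) * ct hK ((c⁻¹ : (Matrix ι ι K)ˣ) : Matrix ι ι K) = 1 := by
    rw [← ct_mul, Units.inv_mul, ct_one]
  have h2 : ct hK ((c⁻¹ : (Matrix ι ι K)ˣ) : Matrix ι ι K) * (ct hK (c : Matrix ι ι K)) = 1 := by
    rw [← ct_mul, Units.mul_inv, ct_one]
  have hc2 : ((c⁻¹ : (Matrix ι ι K)ˣ) : Matrix ι ι K) * B =
      A * ((c⁻¹ : (Matrix ι ι K)ˣ) : Matrix ι ι K) := by
    calc ((c⁻¹ : (Matrix ι ι K)ˣ) : Matrix ι ι K) * B =
        ((c⁻¹ : (Matrix ι ι K)ˣ) : Matrix ι ι K) * B * (c * ((c⁻¹ : (Matrix ι ι K)ˣ) : Matrix ι ι K)) := by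
          rw [Units.mul_inv, mul_one]
      _ = ((c⁻¹ : (Matrix ι ι K)ˣ) : Matrix ι ι K) * (B * c) * ((c⁻¹ : (Matrix ι ι K)ˣ) : Matrix ι ι K) := by
          simp only [mul_assoc]
      _ = _ := by rw [← hc', ← mul_assoc, Units.inv_mul, one_mul]
  refine Nat.card_congr
    { toFun := fun H => ⟨ct hK (c : Matrix ι ι K) * H.1 * c, ?_, ?_, ?_⟩
      invFun := fun H => ⟨ct hK ((c⁻¹ : (Matrix ι ι K)ˣ) : Matrix ι ι K) * H.1 *
        ((c⁻¹ : (Matrix ι ι K)ˣ) : Matrix ι ι K), ?_, ?_, ?_⟩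
      left_inv := ?_
      right_inv := ?_ }
  · calc ct hK A * (ct hK (c : Matrix ι ι K) * H.1 * c) * A =
        (ct hK A * ct hK (c : Matrix ι ι K)) * H.1 * (c * A) := by simp only [mul_assoc]
      _ = ct hK (c : Matrix ι ι K) * (ct hK B * H.1 * B) * c := by
        rw [← ct_mul, hc', ct_mul]; simp only [mul_assoc]
      _ = _ := by rw [H.2.1]
  · rw [ct_mul, ct_mul, ct_ct, H.2.2.1, mul_assoc]
  · rw [Matrix.det_mul, Matrix.det_mul]
    exact mul_ne_zero (mul_ne_zero (hctd _ hcd) H.2.2.2) hcd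
  · calc ct hK B * (ct hK ((c⁻¹ : (Matrix ι ι K)ˣ) : Matrix ι ι K) * H.1 *
          ((c⁻¹ : (Matrix ι ι K)ˣ) : Matrix ι ι K)) * B =
        (ct hK B * ct hK ((c⁻¹ : (Matrix ι ι K)ˣ) : Matrix ι ι K)) * H.1 *
          (((c⁻¹ : (Matrix ι ι K)ˣ) : Matrix ι ι K) * B) := by simp only [mul_assoc]
      _ = ct hK ((c⁻¹ : (Matrix ι ι K)ˣ) : Matrix ι ι K) * (ct hK A * H.1 * A) *
          ((c⁻¹ : (Matrix ι ι K)ˣ) : Matrix ι ι K) := by
        rw [← ct_mul, hc2, ct_mul]; simp only [mul_assoc]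
      _ = _ := by rw [H.2.1]
  · rw [ct_mul, ct_mul, ct_ct, H.2.2.1, mul_assoc]
  · rw [Matrix.det_mul, Matrix.det_mul]
    exact mul_ne_zero (mul_ne_zero (hctd _ hcd') H.2.2.2) hcd'
  · intro H
    apply Subtype.ext
    change ct hK ((c⁻¹ : (Matrix ι ι K)ˣ) : Matrix ι ι K) *
      (ct hK (c : Matrix ι ι K) * H.1 * c) * ((c⁻¹ : (Matrix ι ι K)ˣ) : Matrix ι ι K) = H.1
    calc ct hK ((c⁻¹ : (Matrix ι ι K)ˣ) : Matrix ι ι K) *
      (ct hK (c : Matrix ι ι K) * H.1 * c) * ((c⁻¹ : (Matrix ι ι K)ˣ) : Matrix ι ι K) =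
        (ct hK ((c⁻¹ : (Matrix ι ι K)ˣ) : Matrix ι ι K) * ct hK (c : Matrix ι ι K)) * H.1 *
          (c * ((c⁻¹ : (Matrix ι ι K)ˣ) : Matrix ι ι K)) := by simp only [mul_assoc]
      _ = H.1 := by rw [h2, Units.mul_inv, one_mul, mul_one]
  · intro H
    apply Subtype.ext
    change ct hK (c : Matrix ι ι K) * (ct hK ((c⁻¹ : (Matrix ι ι K)ˣ) : Matrix ι ι K) * H.1 *
      ((c⁻¹ : (Matrix ι ι K)ˣ) : Matrix ι ι K)) * c = H.1
    calc ct hK (c : Matrix ι ι K) * (ct hK ((c⁻¹ : (Matrix ι ι K)ˣ) : Matrix ι ι K) * H.1 *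
      ((c⁻¹ : (Matrix ι ι K)ˣ) : Matrix ι ι K)) * c =
        (ct hK (c : Matrix ι ι K) * ct hK ((c⁻¹ : (Matrix ι ι K)ˣ) : Matrix ι ι K)) * H.1 *
          (((c⁻¹ : (Matrix ι ι K)ˣ) : Matrix ι ι K) * c) := by simp only [mul_assoc]
      _ = H.1 := by rw [h1, Units.inv_mul, one_mul, mul_one]

theorem card_cent {K : Type*} [Field K] [Finite K] {q n : ℕ} (hK : Nat.card K = q ^ 2)
    (u : ↥(Cfsg.GU n K q)) :
    Nat.card ↥(Subgroup.centralizer ({(u : GL (Fin n) K)} : Set (GL (Fin n) K))) =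
      Nat.card ↥(Subgroup.centralizer ({u} : Set ↥(Cfsg.GU n K q))) *
        Nat.card (InvH hK ((u : GL (Fin n) K) : Matrix (Fin n) (Fin n) K)) := by
  set U := ((u : GL (Fin n) K) : Matrix (Fin n) (Fin n) K) with hU
  have hctU : ct hK U * U = 1 := (mem_GU hK _).mp u.2
  have hctU' : U * ct hK U = 1 := mul_eq_one_comm.mp hctU
  have hcomm : ∀ y : ↥(Subgroup.centralizer ({(u : GL (Fin n) K)} : Set (GL (Fin n) K))),
      ((y : GL (Fin n) K) : Matrix (Fin n) (Fin n) K) * U =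
        U * ((y : GL (Fin n) K) : Matrix (Fin n) (Fin n) K) := fun y =>
    congrArg Units.val (Subgroup.mem_centralizer_singleton_iff.mp y.2)
  let N : Subgroup ↥(Subgroup.centralizer ({(u : GL (Fin n) K)} : Set (GL (Fin n) K))) :=
    (Cfsg.GU n K q).subgroupOf _
  have hN : Nat.card N = Nat.card ↥(Subgroup.centralizer ({u} : Set ↥(Cfsg.GU n K q))) := by
    refine Nat.card_congr
      { toFun := fun y => ⟨⟨y.1.1, y.2⟩, ?_⟩
        invFun := fun y => ⟨⟨y.1.1, ?_⟩, y.1.2⟩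
        left_inv := fun y => rfl
        right_inv := fun y => rfl }
    · rw [Subgroup.mem_centralizer_singleton_iff]
      exact Subtype.ext (Subgroup.mem_centralizer_singleton_iff.mp y.1.2)
    · rw [Subgroup.mem_centralizer_singleton_iff]
      exact congrArg Subtype.val (Subgroup.mem_centralizer_singleton_iff.mp y.2)
  rw [← hN]
  have hu : ∀ y : GL (Fin n) K, (y : Matrix (Fin n) (Fin n) K).det ≠ 0 := fun y =>
    ((Matrix.isUnit_iff_isUnit_det _).mp y.isUnit).ne_zero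
  have hu' : ∀ y : GL (Fin n) K, (ct hK (y : Matrix (Fin n) (Fin n) K)).det ≠ 0 := fun y =>
    ((Matrix.isUnit_iff_isUnit_det _).mp (isUnit_ct hK y.isUnit)).ne_zero
  refine card_of_fibres N (fun y => ⟨ct hK ((y : GL (Fin n) K) : Matrix (Fin n) (Fin n) K) *
    ((y : GL (Fin n) K) : Matrix (Fin n) (Fin n) K), ?_, ?_, ?_⟩) ?_ ?_
  · calc ct hK U * (ct hK ((y : GL (Fin n) K) : Matrix (Fin n) (Fin n) K) *
        ((y : GL (Fin n) K) : Matrix (Fin n) (Fin n) K)) * U =
        (ct hK U * ct hK ((y : GL (Fin n) K) : Matrix (Fin n) (Fin n) K)) *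
          (((y : GL (Fin n) K) : Matrix (Fin n) (Fin n) K) * U) := by simp only [mul_assoc]
      _ = ct hK ((y : GL (Fin n) K) : Matrix (Fin n) (Fin n) K) * (ct hK U * U) *
          ((y : GL (Fin n) K) : Matrix (Fin n) (Fin n) K) := by
        rw [← ct_mul, hcomm, ct_mul]; simp only [mul_assoc]
      _ = _ := by rw [hctU, mul_one]
  · rw [ct_mul, ct_ct]
  · rw [Matrix.det_mul]
    exact mul_ne_zero (hu' _) (hu _)
  · rintro ⟨H, hH1, hH2, hH3⟩
    obtain ⟨y, ⟨y, rfl⟩, hy, hyc⟩ := herm_eq_ct_mul hK H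
      ((Matrix.isUnit_iff_isUnit_det _).mpr (IsUnit.mk0 _ hH3)) hH2
    have h1 : U * H = H * U := by
      calc U * H = U * (ct hK U * H * U) := by rw [hH1]
        _ = (U * ct hK U) * H * U := by simp only [mul_assoc]
        _ = H * U := by rw [hctU', one_mul]
    have h2 := hyc U h1
    refine ⟨⟨y, ?_⟩, Subtype.ext hy.symm⟩
    rw [Subgroup.mem_centralizer_singleton_iff]
    exact Units.ext h2.symm
  · intro a b
    rw [Subtype.mk.injEq, Subgroup.mem_subgroupOf, Subgroup.coe_mul, Subgroup.coe_inv, mem_GU hK,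
      Units.val_mul, ct_mul]
    have hb1 : ct hK (((b : GL (Fin n) K)⁻¹ : GL (Fin n) K) : Matrix (Fin n) (Fin n) K) *
        ct hK ((b : GL (Fin n) K) : Matrix (Fin n) (Fin n) K) = 1 := by
      rw [← ct_mul, Units.mul_inv, ct_one]
    have hb2 : ct hK ((b : GL (Fin n) K) : Matrix (Fin n) (Fin n) K) *
        ct hK (((b : GL (Fin n) K)⁻¹ : GL (Fin n) K) : Matrix (Fin n) (Fin n) K) = 1 := by
      rw [← ct_mul, Units.inv_mul, ct_one]
    constructor
    · intro h
      calc ct hK (((b : GL (Fin n) K)⁻¹ : GL (Fin n) K) : Matrix (Fin n) (Fin n) K) *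
            ct hK ((a : GL (Fin n) K) : Matrix (Fin n) (Fin n) K) *
              ((a : GL (Fin n) K) * (((b : GL (Fin n) K)⁻¹ : GL (Fin n) K) :
              Matrix (Fin n) (Fin n) K)) =
            ct hK (((b : GL (Fin n) K)⁻¹ : GL (Fin n) K) : Matrix (Fin n) (Fin n) K) *
            (ct hK ((a : GL (Fin n) K) : Matrix (Fin n) (Fin n) K) *
              ((a : GL (Fin n) K) : Matrix (Fin n) (Fin n) K)) *
              (((b : GL (Fin n) K)⁻¹ : GL (Fin n) K) :
              Matrix (Fin n) (Fin n) K) := by simp only [mul_assoc]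
        _ = (ct hK (((b : GL (Fin n) K)⁻¹ : GL (Fin n) K) : Matrix (Fin n) (Fin n) K) *
            ct hK ((b : GL (Fin n) K) : Matrix (Fin n) (Fin n) K)) *
              ((b : GL (Fin n) K) * (((b : GL (Fin n) K)⁻¹ : GL (Fin n) K) :
              Matrix (Fin n) (Fin n) K)) := by rw [h]; simp only [mul_assoc]
        _ = 1 := by rw [hb1, Units.mul_inv, one_mul]
    · intro h
      calc ct hK ((a : GL (Fin n) K) : Matrix (Fin n) (Fin n) K) *
            ((a : GL (Fin n) K) : Matrix (Fin n) (Fin n) K) =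
            (ct hK ((b : GL (Fin n) K) : Matrix (Fin n) (Fin n) K) *
              ct hK (((b : GL (Fin n) K)⁻¹ : GL (Fin n) K) : Matrix (Fin n) (Fin n) K)) *
            (ct hK ((a : GL (Fin n) K) : Matrix (Fin n) (Fin n) K) *
              ((a : GL (Fin n) K) : Matrix (Fin n) (Fin n) K)) *
            ((((b : GL (Fin n) K)⁻¹ : GL (Fin n) K) : Matrix (Fin n) (Fin n) K) *
              (b : GL (Fin n) K)) := by
              rw [hb2, Units.inv_mul, one_mul, mul_one]
        _ = ct hK ((b : GL (Fin n) K) : Matrix (Fin n) (Fin n) K) *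
            (ct hK (((b : GL (Fin n) K)⁻¹ : GL (Fin n) K) : Matrix (Fin n) (Fin n) K) *
            ct hK ((a : GL (Fin n) K) : Matrix (Fin n) (Fin n) K) *
              ((a : GL (Fin n) K) * (((b : GL (Fin n) K)⁻¹ : GL (Fin n) K) :
              Matrix (Fin n) (Fin n) K))) * (b : GL (Fin n) K) := by simp only [mul_assoc]
        _ = _ := by rw [h, mul_one]

/-- Order of the centraliser in the general unitary group GU_n(q) of a unipotent element of given Jordan type: if u ∈ GU_n(q) (isometries of Σ u_i v_i^q over the field with q² elements) is similar to the unipotent matrix with a_i Jordan blocks of size i (all sizes at least 1), then its centraliser in GU_n(q) has order q^γ · Π_i |GU_(a_i)(q)| with γ = 2 Σ_(i<j) i a_i a_j + Σ_i (i − 1) a_i², the same exponent as in GL_n(q), where |GU_a(q)| = q^(a(a−1)/2) Π_(k=1)^a (q^k − (−1)^k). -/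
theorem result {K : Type*} [Field K] [Fintype K] {q n t : ℕ} (hK : Fintype.card K = q ^ 2) (d : Fin t → ℕ) (hd : ∀ k, 1 ≤ d k) (e : ((k : Fin t) × Fin (d k)) ≃ Fin n) (u : ↥(Cfsg.GU n K q)) (hu : IsConj (Matrix.reindex e e (Cfsg.jordanTypeMatrix d K)) ((u : GL (Fin n) K) : Matrix (Fin n) (Fin n) K)) : (Nat.card ↥(Subgroup.centralizer ({u} : Set ↥(Cfsg.GU n K q))) : ℤ) = (q : ℤ) ^ (2 * (∑ i ∈ Finset.range (Finset.univ.sup d + 1), ∑ j ∈ Finset.range (Finset.univ.sup d + 1), if i < j then i * (Finset.univ.filter (fun k : Fin t => d k = i)).card * (Finset.univ.filter (fun k : Fin t => d k = j)).card else 0) + ∑ i ∈ Finset.range (Finset.univ.sup d + 1), (i - 1) * (Finset.univ.filter (fun k : Fin t => d k = i)).card ^ 2) * ∏ i ∈ Finset.range (Finset.univ.sup d + 1), ((q : ℤ) ^ ((Finset.univ.filter (fun k : Fin t => d k = i)).card * ((Finset.univ.filter (fun k : Fin t => d k = i)).card - 1) / 2) * ∏ j : Fin (Finset.univ.filter (fun k : Fin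 t => d k = i)).card, ((q : ℤ) ^ ((j : ℕ) + 1) - (-1) ^ ((j : ℕ) + 1))) := by
  classical
  have hK' : Nat.card K = q ^ 2 := by rw [Nat.card_eq_fintype_card, hK]
  have hq : 0 < q := by have := two_le hK'; omega
  have hD : ∀ k, d k < Finset.univ.sup d + 1 :=
    fun k => Nat.lt_succ_of_le (Finset.le_sup (Finset.mem_univ k))
  have h1 := card_cent hK' u
  rw [card_InvH_conj hK' hu, ← card_InvH_reindex hK' e] at h1
  have h2 : Nat.card ↥(Subgroup.centralizer ({(u : GL (Fin n) K)} : Set (GL (Fin n) K))) =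
      Nat.card {g : GL ((k : Fin t) × Fin (d k)) K //
        (g : Matrix ((k : Fin t) × Fin (d k)) ((k : Fin t) × Fin (d k)) K) *
          Cfsg.jordanTypeMatrix d K = Cfsg.jordanTypeMatrix d K * g} := by
    rw [card_comm_reindex e]
    have hJu : IsUnit (Matrix.reindex e e (Cfsg.jordanTypeMatrix d K)) := by
      obtain ⟨c, hc⟩ := hu
      have hc' : (c : Matrix (Fin n) (Fin n) K) * Matrix.reindex e e (Cfsg.jordanTypeMatrix d K) =
        ((u : GL (Fin n) K) : Matrix (Fin n) (Fin n) K) * c := hc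
      have h3 : IsUnit ((c : Matrix (Fin n) (Fin n) K) *
          Matrix.reindex e e (Cfsg.jordanTypeMatrix d K)) := by
        rw [hc']; exact (u : GL (Fin n) K).isUnit.mul c.isUnit
      rw [Matrix.isUnit_iff_isUnit_det, Matrix.det_mul] at h3
      exact (Matrix.isUnit_iff_isUnit_det _).mpr (isUnit_of_mul_isUnit_right h3)
    obtain ⟨j, hj⟩ := hJu
    have hconj : IsConj (j : GL (Fin n) K) (u : GL (Fin n) K) :=
      H49.GLClasses.isConj_units.mpr (by rw [hj]; exact hu)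
    rw [← H49.CardGU.card_centralizer_of_isConj hconj, ← hj]
    refine Nat.card_congr (Equiv.subtypeEquivRight fun g => ?_)
    rw [Subgroup.mem_centralizer_singleton_iff]
    exact ⟨fun h => congrArg Units.val h, fun h => Units.ext h⟩
  have h3 := card_final (F := K) d hd hK (Finset.univ.sup d + 1) hD
  rw [← card_comm d hd, ← h2] at h3
  have h4 : Nat.card (InvH hK' (Cfsg.jordanTypeMatrix d K)) =
      Nat.card {M : Matrix (H49.GUUnip.I d) (H49.GUUnip.I d) K //
      (Cfsg.jordanTypeMatrix d K)ᵀ * M * Cfsg.jordanTypeMatrix d K = M ∧ ct hK' M = M ∧ M.det ≠ 0} := by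
    refine Nat.card_congr (Equiv.subtypeEquivRight fun H => ?_)
    rw [ct_jt]
  rw [h4, card_invariant d hd hK' _ hD, h3] at h1
  -- the blocks
  have h5 : ∏ i ∈ Finset.range (Finset.univ.sup d + 1),
      ∏ j : Fin (mult d i), ((q ^ 2) ^ mult d i - (q ^ 2) ^ (j : ℕ)) =
      (∏ i ∈ Finset.range (Finset.univ.sup d + 1), nH d hK' i) *
        ∏ i ∈ Finset.range (Finset.univ.sup d + 1), Nat.card (Cfsg.GU (mult d i) K q) := by
    rw [← Finset.prod_mul_distrib]
    exact Finset.prod_congr rfl fun i _ => (nH_mul d hK' i).symm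
  rw [h5] at h1
  have hnpos : 0 < ∏ i ∈ Finset.range (Finset.univ.sup d + 1), nH d hK' i := by
    apply Finset.prod_pos
    intro i _
    have h6 := nH_mul d hK' i
    have h7 : 0 < ∏ j : Fin (mult d i), ((q ^ 2) ^ mult d i - (q ^ 2) ^ (j : ℕ)) := by
      apply Finset.prod_pos
      intro j _
      refine Nat.sub_pos_of_lt (Nat.pow_lt_pow_right ?_ j.2)
      have := two_le hK'
      nlinarith
    rw [← h6] at h7
    exact Nat.pos_of_mul_pos_right h7
  generalize hγ : 2 * (∑ i ∈ Finset.range (Finset.univ.sup d + 1),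
    ∑ j ∈ Finset.range (Finset.univ.sup d + 1), if i < j then i * mult d i * mult d j else 0) +
    ∑ i ∈ Finset.range (Finset.univ.sup d + 1), (i - 1) * mult d i ^ 2 = γ at h1
  have h8 : Nat.card ↥(Subgroup.centralizer ({u} : Set ↥(Cfsg.GU n K q))) = q ^ γ *
      ∏ i ∈ Finset.range (Finset.univ.sup d + 1), Nat.card (Cfsg.GU (mult d i) K q) := by
    apply Nat.eq_of_mul_eq_mul_right
      (Nat.mul_pos (Nat.pow_pos (n := γ) hq) hnpos)
    rw [← h1]
    ring
  rw [h8, Nat.cast_mul, Nat.cast_pow, Nat.cast_prod]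
  congr 1
  · rw [← hγ]; rfl
  · refine Finset.prod_congr rfl fun i _ => ?_
    rw [H49.CardGU.card_GU_int hK]
    rfl

end Cfsg.Agent.S2646
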