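import Cfsg.Statements.S2653
import Cfsg.Agent.Lib.H49.TG6

set_option autoImplicit false
open scoped MatrixGroups
open Cfsg

namespace Cfsg.Agent.S2653

/-- Alternating sections of finite linear groups. Let `F` be a finite field of characteristic `p` and `n` a natural number, and suppose some subgroup `H` of GL_n(F) has a normal subgroup `K` with `H ⧸ K` isomorphic to the alternating group of degree `r ≥ 9`. Then `n ≥ r - 2` when `p` divides `r`, and `n ≥ r - 1` otherwise (the smallest degree of a nontrivial projective representation of that alternating group in characteristic `p`). The same bound follows for every classical group with natural module of dimension `n` over `F`, since each is a section of a subgroup of GL_n(F). -/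
theorem result {F : Type*} [Field F] [Fintype F] (p : ℕ) [Fact p.Prime] [CharP F p]
    (n : ℕ) (r : ℕ) (H : Subgroup (GL (Fin n) F)) (K : Subgroup ↥H) [K.Normal]
    (h : Nonempty (↥H ⧸ K ≃* ↥(alternatingGroup (Fin r)))) (hr : 9 ≤ r) :
    r - 1 - (if p ∣ r then 1 else 0) ≤ n := by
  classical
  obtain ⟨e⟩ := h
  haveI : CharP (AlgebraicClosure F) p := charP_of_injective_algebraMap (algebraMap F (AlgebraicClosure F)).injective p
  let ρ : H →* Module.End (AlgebraicClosure F) (Fin n → AlgebraicClosure F) :=
    (RingHom.toMonoidHom (AlgHom.toRingHom (AlgEquiv.toAlgHom (Matrix.toLinAlgEquiv')))).comp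
      ((Units.coeHom _).comp ((Matrix.GeneralLinearGroup.map (algebraMap F (AlgebraicClosure F))).comp H.subtype))
  have hρ : Function.Injective ρ := by
    intro x y hxy
    have h1 := (Matrix.toLinAlgEquiv' : Matrix (Fin n) (Fin n) (AlgebraicClosure F) ≃ₐ[AlgebraicClosure F] _).injective hxy
    have h2 : Matrix.GeneralLinearGroup.map (algebraMap F (AlgebraicClosure F)) (x : GL (Fin n) F) =
        Matrix.GeneralLinearGroup.map (algebraMap F (AlgebraicClosure F)) (y : GL (Fin n) F) := Units.ext h1
    apply Subtype.ext
    apply Units.ext
    ext i j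
    have h3 := congrArg (fun g : GL (Fin n) (AlgebraicClosure F) => (g : Matrix (Fin n) (Fin n) (AlgebraicClosure F)) i j) h2
    exact (algebraMap F (AlgebraicClosure F)).injective h3
  have h1 := H49.TF.reduction (k := AlgebraicClosure F) p hr _ H (e.toMonoidHom.comp (QuotientGroup.mk' K))
    (e.surjective.comp (QuotientGroup.mk'_surjective K)) (Fin n → AlgebraicClosure F) ρ (fun h hh => by
      have : h = 1 := hρ (by rw [hh, map_one])
      rw [this, map_one]) le_rfl
  rw [Module.finrank_fin_fun] at h1
  exact h1

end Cfsg.Agent.S2653
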