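import Cfsg.Statements.S2661
import Cfsg.Agent.Lib.H22.TwF4d
import Cfsg.Agent.Lib.H7.TorSect
import Cfsg.Agent.Lib.H7.AltElt

set_option autoImplicit false
open scoped MatrixGroups
open Cfsg

namespace Cfsg.Agent.S2661

/-- Alternating sections of the large Ree groups ²F₄. Let `m ≥ 1`, let `K` be a field with `2^(2m+1)` elements and let `G` be the large Ree group ²F₄(2^(2m+1)) realised over `K`. If some subgroup of `G` has a quotient isomorphic to the alternating group of degree `r`, then `r ≤ 6`. (Only an upper bound is asserted.) -/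
theorem result {K : Type*} [Field K] [Fintype K] {m : ℕ} (hm : 1 ≤ m)
    (hK : Fintype.card K = 2 ^ (2 * m + 1)) (r : ℕ) (H : Subgroup ↥(Cfsg.Lie.twistedF4 K (2 ^ m))) (N : Subgroup ↥H) [N.Normal]
    (h : Nonempty (↥H ⧸ N ≃* ↥(alternatingGroup (Fin r)))) :
    r ≤ 6 := by
  by_contra hr
  push Not at hr
  obtain ⟨f⟩ := h
  haveI : Fact (Nat.Prime 7) := ⟨by norm_num⟩
  obtain ⟨TT, hG, hf, hU, hH, _, hcard⟩ := H22.TwF4.all hK
  haveI : Finite ↥(Cfsg.Lie.twistedF4 K (2 ^ m)) := inferInstance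
  have hab : ∀ x ∈ (H22.TwThm.M TT).H, ∀ y ∈ (H22.TwThm.M TT).H, x * y = y * x := by
    intro x hx y hy
    rw [H22.TwThm.M_H TT hG] at hx hy
    have hx1 := hx.1
    have hy1 := hy.1
    rw [H22.ChevSys.diagonalSubgroup_eq (H22.TwF4.RR K) H22.PoinF4.rcxF4] at hx1 hy1
    exact H22.ChevSolv.Hs_comm (H22.TwF4.RR K) H22.PoinF4.rcxF4.rc hx1 hy1
  have he : ∀ w ∈ H22.TwDat.C16.W, w ^ 16 = 1 := by
    intro w hw
    have h1 : (⟨w, hw⟩ : H22.TwDat.C16.W) ^ 16 = 1 := by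
      apply H22.TwDih.eW.injective
      rw [map_pow, map_one]
      generalize H22.TwDih.eW ⟨w, hw⟩ = x
      revert x; decide +kernel
    exact congrArg Subtype.val h1
  obtain ⟨σ, τ, hσ, hc⟩ := H7.AltElt.seven (r := r) (by omega)
  have hidx : ¬ 7 ∣ (H22.TwThm.M TT).H.relIndex (Cfsg.Lie.twistedF4 K (2 ^ m)) := by
    have hle : (H22.TwThm.M TT).H ≤ Cfsg.Lie.twistedF4 K (2 ^ m) := by
      rw [H22.TwThm.M_H TT hG]; exact inf_le_right
    have h1 : Nat.card (H22.TwThm.M TT).H * (H22.TwThm.M TT).H.relIndex (Cfsg.Lie.twistedF4 K (2 ^ m)) =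
        Nat.card (Cfsg.Lie.twistedF4 K (2 ^ m)) := by
      rw [Subgroup.relIndex, ← Subgroup.card_mul_index ((H22.TwThm.M TT).H.subgroupOf (Cfsg.Lie.twistedF4 K (2 ^ m)))]
      rw [Nat.card_congr (Subgroup.subgroupOfEquivOfLe hle).toEquiv]
    rw [hcard, hH] at h1
    have hpos : 0 < (2 ^ (2 * m + 1) - 1) * (2 ^ (2 * m + 1) - 1) := by
      have : 1 < 2 ^ (2 * m + 1) := Nat.one_lt_two_pow (by omega)
      exact Nat.mul_pos (by omega) (by omega)
    have h2 : (H22.TwThm.M TT).H.relIndex (Cfsg.Lie.twistedF4 K (2 ^ m)) =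
        (2 ^ (2 * m + 1)) ^ 12 * ((1 + 2 ^ (2 * m + 1)) * (1 + (2 ^ (2 * m + 1)) ^ 2) *
          (1 + (2 ^ (2 * m + 1)) ^ 3) * (1 + (2 ^ (2 * m + 1)) ^ 6)) := by
      apply Nat.eq_of_mul_eq_mul_left hpos
      rw [h1]; ring
    rw [h2]
    have h3 : (2 ^ (2 * m + 1)) % 7 = 1 ∨ (2 ^ (2 * m + 1)) % 7 = 2 ∨ (2 ^ (2 * m + 1)) % 7 = 4 := by
      have h4 : ∀ k : ℕ, 2 ^ k % 7 = 1 ∨ 2 ^ k % 7 = 2 ∨ 2 ^ k % 7 = 4 := by
        intro k
        induction k with
        | zero => left; norm_num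
        | succ k ih => rw [pow_succ]; omega
      exact h4 _
    generalize 2 ^ (2 * m + 1) = q at h3
    rw [Nat.dvd_iff_mod_eq_zero]
    rcases h3 with h | h | h <;> simp [Nat.mul_mod, Nat.pow_mod, Nat.add_mod, h]
  have := H7.TorSect.sys_sect (H22.TwThm.M TT) (Cfsg.Lie.twistedF4 K (2 ^ m)) hG hab he hidx
    H.subtype Subtype.coe_injective (f.toMonoidHom.comp (QuotientGroup.mk' N))
    (f.surjective.comp (QuotientGroup.mk'_surjective N)) hσ hc (by norm_num)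
  revert this; decide

end Cfsg.Agent.S2661
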