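import Cfsg.Statements.S2665
import Cfsg.Agent.Lib.H49.LangGL

set_option autoImplicit false
open scoped MatrixGroups
open Cfsg

namespace Cfsg.Agent.S2665

/-- The Lang–Steinberg Theorem for the general linear group. Let `K` be an algebraically closed field of prime characteristic `p`, let `q = p^f` with `f ≥ 1`, and let `σ` be the endomorphism of GL_n(K) raising every matrix entry to the `q`-th power. Then every element `g` of GL_n(K) can be written `g = x · σ(x)⁻¹` for some `x` in GL_n(K): the map `x ↦ x σ(x)⁻¹` is surjective. -/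
theorem result {K : Type*} [Field K] [IsAlgClosed K] (p : ℕ) [Fact p.Prime] [CharP K p]
    (f : ℕ) (hf : 1 ≤ f) (n : ℕ) (g : GL (Fin n) K) :
    ∃ x : GL (Fin n) K, g = x * (Matrix.GeneralLinearGroup.map (iterateFrobenius K p f) x)⁻¹ := by
  obtain ⟨x, hx, hgx⟩ := H49.LangGL.lang_matrix (K := K) (n := n) (σ := iterateFrobenius K p f)
    (q := p ^ f) (by
      have h1 : 2 ≤ p := (Fact.out : p.Prime).two_le
      calc 2 ≤ p := h1
        _ = p ^ 1 := (pow_one p).symm
        _ ≤ p ^ f := Nat.pow_le_pow_right (by omega) hf)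
    (fun x => by simp [iterateFrobenius_def]) (g : Matrix (Fin n) (Fin n) K)
    ((Matrix.isUnit_iff_isUnit_det _).1 g.isUnit)
  refine ⟨Matrix.GeneralLinearGroup.mk'' x hx, ?_⟩
  rw [eq_mul_inv_iff_mul_eq]
  apply Units.ext
  exact hgx

end Cfsg.Agent.S2665
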