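import Cfsg.Statements.S2668
import Cfsg.Agent.Lib.H49.Shintani

set_option autoImplicit false
open Cfsg

namespace Cfsg.Agent.S2668

open H49.Shintani

/-- Shintani descent and powers (abstract form). Let `σ` be an automorphism of a group `X`, `e ≥ 1` and `d ≥ 1`, let `g` be fixed by `σᵉ` and let `a` satisfy `g = a σ(a)⁻¹`, so that the Shintani map of `(X, σ, e)` sends the class of `g σ` to the class of `x = σᵉ(a)⁻¹ a`. Put `h = g σ(g) ⋯ σ^(d-1)(g)`, the part in `X` of the `d`-th power `(g σ)^d = h σ^d`. Then `h = a σ^d(a)⁻¹` (so `a` also serves for `h` with respect to `σ^d`), `h` is fixed by `(σ^d)ᵉ`, and `(σ^d)ᵉ(a)⁻¹ a = x^d`: the Shintani map of `(X, σ^d, e)` sends the class of `(g σ)^d` to the class of `x^d`. (When `d` divides `e`, the Shintani map of `(X, σ^d, e/d)` sends it to the class of `x` itself, since `(σ^d)^(e/d) = σᵉ`.) -/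
theorem result {X : Type*} [Group X] (σ : MulAut X) (e d : ℕ) (he : 1 ≤ e) (hd : 1 ≤ d)
    (g : X) (hg : g ∈ (MulEquiv.toMonoidHom (σ ^ e)).eqLocus (MonoidHom.id X)) (a : X) (ha : g = a * (σ a)⁻¹) :
    ((List.range d).map (fun i => (σ ^ i) g)).prod = a * ((σ ^ d) a)⁻¹ ∧
      ((List.range d).map (fun i => (σ ^ i) g)).prod ∈ (MulEquiv.toMonoidHom ((σ ^ d) ^ e)).eqLocus (MonoidHom.id X) ∧
      (((σ ^ d) ^ e) a)⁻¹ * a = (((σ ^ e) a)⁻¹ * a) ^ d := by
  simp only [mem_eqLocus] at hg ⊢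
  have hcomm : ∀ x, σ x = σ x := fun _ => rfl
  have hpow : (σ ^ d) ^ e = (σ ^ e) ^ d := by rw [← pow_mul, ← pow_mul, mul_comm]
  have hprod : ((List.range d).map (fun i => (σ ^ i) g)).prod = a * ((σ ^ d) a)⁻¹ := by
    rw [ha]; exact prod_aux σ a d
  have hx : σ (((σ ^ e) a)⁻¹ * a) = ((σ ^ e) a)⁻¹ * a := by
    rw [ha, map_mul, map_inv] at hg
    rw [map_mul, map_inv, comm_pow]
    have : ((σ ^ e) (σ a))⁻¹ = ((σ ^ e) a)⁻¹ * (a * (σ a)⁻¹) := by rw [← hg]; group
    rw [this]; group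
  refine ⟨hprod, ?_, ?_⟩
  · have hg' : ∀ i : ℕ, ((σ ^ d) ^ e) ((σ ^ i) g) = (σ ^ i) g := by
      intro i
      rw [hpow, ← MulAut.mul_apply, ← pow_mul, ← pow_add, add_comm, pow_add, MulAut.mul_apply,
        pow_mul, fix_pow (σ ^ e) hg d]
    rw [map_list_prod, List.map_map]
    congr 1
    apply List.map_congr_left
    intro i _
    exact hg' i
  · rw [hpow]
    have h1 : ∀ n : ℕ, ((σ ^ e) ^ n) a = a * ((((σ ^ e) a)⁻¹ * a) ^ n)⁻¹ := by
      intro n
      induction n with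
      | zero => simp
      | succ n ih =>
        have hxn : (σ ^ e) ((((σ ^ e) a)⁻¹ * a) ^ n) = (((σ ^ e) a)⁻¹ * a) ^ n := by
          rw [map_pow, fix_pow σ hx e]
        rw [pow_succ', MulAut.mul_apply, ih, map_mul, map_inv, hxn, pow_succ]
        group
    rw [h1 d]; group

end Cfsg.Agent.S2668
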