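import Cfsg.Statements.S2669
import Cfsg.Agent.Lib.H49.Shintani

set_option autoImplicit false
open Cfsg

namespace Cfsg.Agent.S2669

open H49.Shintani

/-- Shintani descent preserves numbers of fixed points on coset spaces (abstract form). Let `σ` be an automorphism of a group `X` and `e ≥ 1`; write `G` for the fixed points of `σᵉ` and `H` for the fixed points of `σ`, and assume `G` is finite. Let `Y` be a `σ`-stable subgroup of `X` on which the maps `a ↦ a σ(a)⁻¹` and `a ↦ a σᵉ(a)⁻¹` are surjective (as for a closed connected `σ`-stable subgroup of an algebraic group). Let `g ∈ G`, let `a ∈ X` satisfy `g = a σ(a)⁻¹` and put `x = σᵉ(a)⁻¹ a` (the Shintani image, an element of `H`). The element `g σ` of the semidirect product acts on the cosets of `Y ∩ G` in `G` by `k (Y ∩ G) ↦ g σ(k) (Y ∩ G)`, fixing that coset exactly when `k⁻¹ g σ(k) ∈ Y`; and `x`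 fixes the coset `h (Y ∩ H)` of `H` exactly when `h⁻¹ x h ∈ Y`. Then the two numbers of fixed cosets agree; in cross-multiplied form, `#{k ∈ G : k⁻¹ g σ(k) ∈ Y} · |Y ∩ H| = #{h ∈ H : h⁻¹ x h ∈ Y} · |Y ∩ G|`. -/
theorem result {X : Type*} [Group X] (σ : MulAut X) (e : ℕ) (he : 1 ≤ e)
    [Finite ↥((MulEquiv.toMonoidHom (σ ^ e)).eqLocus (MonoidHom.id X))]
    (Y : Subgroup X) (hY : ∀ y : X, y ∈ Y ↔ σ y ∈ Y)
    (hYL : ∀ y ∈ Y, ∃ a ∈ Y, y = a * (σ a)⁻¹) (hYLe : ∀ y ∈ Y, ∃ a ∈ Y, y = a * ((σ ^ e) a)⁻¹)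
    (g : X) (hg : g ∈ (MulEquiv.toMonoidHom (σ ^ e)).eqLocus (MonoidHom.id X)) (a : X) (ha : g = a * (σ a)⁻¹) :
    Nat.card {k : ↥((MulEquiv.toMonoidHom (σ ^ e)).eqLocus (MonoidHom.id X)) // (k : X)⁻¹ * g * σ k ∈ Y} *
        Nat.card ↥(Y ⊓ (MulEquiv.toMonoidHom σ).eqLocus (MonoidHom.id X)) =
      Nat.card {h : ↥((MulEquiv.toMonoidHom σ).eqLocus (MonoidHom.id X)) // (h : X)⁻¹ * (((σ ^ e) a)⁻¹ * a) * h ∈ Y} *
        Nat.card ↥(Y ⊓ (MulEquiv.toMonoidHom (σ ^ e)).eqLocus (MonoidHom.id X)) := by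
  have hg1 : (σ ^ e) g = g := hg
  have hYn : ∀ n : ℕ, ∀ y ∈ Y, (σ ^ n) y ∈ Y := by
    intro n
    induction n with
    | zero => intro y hy; simpa using hy
    | succ n ih => intro y hy; rw [pow_succ, MulAut.mul_apply]; exact ih _ ((hY y).1 hy)
  have hx : σ (((σ ^ e) a)⁻¹ * a) = ((σ ^ e) a)⁻¹ * a := by
    rw [ha, map_mul, map_inv] at hg1
    rw [map_mul, map_inv, comm_pow]
    have : ((σ ^ e) (σ a))⁻¹ = ((σ ^ e) a)⁻¹ * (a * (σ a)⁻¹) := by rw [← hg1]; group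
    rw [this]; group
  -- the two families of chosen elements
  have hA : ∀ k : {k : ↥((MulEquiv.toMonoidHom (σ ^ e)).eqLocus (MonoidHom.id X)) //
      (k : X)⁻¹ * g * σ k ∈ Y}, ∃ y ∈ Y, k.1.1⁻¹ * g * σ k = y * (σ y)⁻¹ :=
    fun k => hYL _ k.2
  choose yA hyA hyA' using hA
  have hB : ∀ h : {h : ↥((MulEquiv.toMonoidHom σ).eqLocus (MonoidHom.id X)) //
      (h : X)⁻¹ * (((σ ^ e) a)⁻¹ * a) * h ∈ Y}, ∃ y ∈ Y,
      h.1.1⁻¹ * (((σ ^ e) a)⁻¹ * a) * h = ((σ ^ e) y)⁻¹ * y := by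
    intro h
    obtain ⟨c, hc, hc'⟩ := hYLe _ (inv_mem h.2)
    refine ⟨c⁻¹, inv_mem hc, ?_⟩
    rw [← inv_inv (h.1.1⁻¹ * (((σ ^ e) a)⁻¹ * a) * h), hc', map_inv]
    group
  choose yB hyB hyB' using hB
  -- Z
  let Z := {p : X × X // (σ ^ e) p.1 = p.1 ∧ p.2 ∈ Y ∧ σ (a⁻¹ * p.1 * p.2) = a⁻¹ * p.1 * p.2}
  have keyA : ∀ k y : X, σ (a⁻¹ * k * y) = a⁻¹ * k * y → k⁻¹ * g * σ k = y * (σ y)⁻¹ := by
    intro k y h
    rw [map_mul, map_mul, map_inv] at h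
    have : σ k = σ a * (a⁻¹ * k * y) * (σ y)⁻¹ := by rw [← h]; group
    rw [this, ha]; group
  have keyB : ∀ k y : X, (σ ^ e) k = k → σ (a⁻¹ * k * y) = a⁻¹ * k * y →
      (a⁻¹ * k * y)⁻¹ * (((σ ^ e) a)⁻¹ * a) * (a⁻¹ * k * y) =
      ((σ ^ e) y)⁻¹ * y := by
    intro k y hk h
    have h2 := fix_pow σ h e
    rw [map_mul, map_mul, map_inv, hk] at h2
    have : (σ ^ e) y = k⁻¹ * (σ ^ e) a * (a⁻¹ * k * y) := by rw [← h2]; group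
    rw [this]; group
  have e1 : ({k : ↥((MulEquiv.toMonoidHom (σ ^ e)).eqLocus (MonoidHom.id X)) //
      (k : X)⁻¹ * g * σ k ∈ Y} × ↥(Y ⊓ (MulEquiv.toMonoidHom σ).eqLocus (MonoidHom.id X))) ≃ Z := by
    refine Equiv.ofBijective (fun p => ⟨(p.1.1.1, yA p.1 * p.2), p.1.1.2,
      mul_mem (hyA p.1) p.2.2.1, ?_⟩) ⟨?_, ?_⟩
    · have h1 := hyA' p.1
      have h2 : σ (p.2 : X) = p.2 := p.2.2.2
      have h3 : σ p.1.1.1 = σ a * (a⁻¹ * p.1 * yA p.1) * (σ (yA p.1))⁻¹ := by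
        have h1' : p.1.1.1⁻¹ * (a * (σ a)⁻¹) * σ p.1.1.1 = yA p.1 * (σ (yA p.1))⁻¹ := by
          rw [← ha]; exact h1
        calc σ p.1.1.1 = σ a * a⁻¹ * p.1 * (p.1.1.1⁻¹ * (a * (σ a)⁻¹) *
              σ p.1.1.1) := by group
          _ = _ := by rw [h1']; group
      simp only [map_mul, map_inv, h2, h3]
      group
    · rintro ⟨k, u⟩ ⟨k', u'⟩ h
      have h1 : k.1.1 = k'.1.1 := congrArg (fun z : Z => z.1.1) h
      have h2 : yA k * u.1 = yA k' * u'.1 := congrArg (fun z : Z => z.1.2) h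
      have h3 : k = k' := Subtype.ext (Subtype.ext h1)
      subst h3
      have h4 : u = u' := Subtype.ext (mul_left_cancel h2)
      rw [h4]
    · rintro ⟨⟨k, y⟩, hk, hy, h⟩
      simp only at hk hy h
      have h5 := keyA k y h
      have hkA : (k : X)⁻¹ * g * σ k ∈ Y := by
        rw [h5]; exact mul_mem hy (inv_mem ((hY _).1 hy))
      have h6 := hyA' ⟨⟨k, hk⟩, hkA⟩
      simp only at h6
      rw [h5] at h6
      refine ⟨⟨⟨⟨k, hk⟩, hkA⟩, ⟨(yA ⟨⟨k, hk⟩, hkA⟩)⁻¹ * y, Y.mul_mem (Y.inv_mem (hyA _)) hy, ?_⟩⟩, ?_⟩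
      · change σ ((yA ⟨⟨k, hk⟩, hkA⟩)⁻¹ * y) = (yA ⟨⟨k, hk⟩, hkA⟩)⁻¹ * y
        rw [map_mul, map_inv]
        have h2 : (σ (yA ⟨⟨k, hk⟩, hkA⟩))⁻¹ = (yA ⟨⟨k, hk⟩, hkA⟩)⁻¹ * (y * (σ y)⁻¹) := by
          rw [h6]; group
        rw [h2, mul_assoc, mul_assoc, inv_mul_cancel, mul_one]
      · simp
  have e2 : ({h : ↥((MulEquiv.toMonoidHom σ).eqLocus (MonoidHom.id X)) //
      (h : X)⁻¹ * (((σ ^ e) a)⁻¹ * a) * h ∈ Y} ×
        ↥(Y ⊓ (MulEquiv.toMonoidHom (σ ^ e)).eqLocus (MonoidHom.id X))) ≃ Z := by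
    refine Equiv.ofBijective (fun p => ⟨(a * p.1.1.1 * (yB p.1)⁻¹ * (p.2 : X)⁻¹, p.2 * yB p.1),
      ?_, mul_mem p.2.2.1 (hyB p.1), ?_⟩) ⟨?_, ?_⟩
    · have h1 := hyB' p.1
      have h2 : (σ ^ e) (p.2 : X) = p.2 := p.2.2.2
      have h0 : σ p.1.1.1 = p.1.1.1 := p.1.1.2
      have h3 : (σ ^ e) p.1.1.1 = p.1.1.1 := fix_pow σ h0 e
      simp only [map_mul, map_inv, h2, h3]
      have h4 : ((σ ^ e) (yB p.1))⁻¹ =
        (p.1.1.1⁻¹ * (((σ ^ e) a)⁻¹ * a) * p.1.1.1) * (yB p.1)⁻¹ := by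
        rw [h1]; group
      rw [h4]; group
    · have h0 : σ p.1.1.1 = p.1.1.1 := p.1.1.2
      have h5 : a⁻¹ * (a * p.1.1.1 * (yB p.1)⁻¹ * (p.2 : X)⁻¹) * (p.2 * yB p.1) =
        p.1.1.1 := by group
      simp only [h5, h0]
    · rintro ⟨k, u⟩ ⟨k', u'⟩ h
      have h1 : a * k.1.1 * (yB k)⁻¹ * u.1⁻¹ = a * k'.1.1 * (yB k')⁻¹ * u'.1⁻¹ :=
        congrArg (fun z : Z => z.1.1) h
      have h2 : u.1 * yB k = u'.1 * yB k' := congrArg (fun z : Z => z.1.2) h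
      have h3 : k.1.1 = k'.1.1 := by
        have e1 : k.1.1 = a⁻¹ * (a * k.1.1 * (yB k)⁻¹ * (u : X)⁻¹) * (u * yB k) := by
          group
        rw [e1, h1, h2]; group
      have h3' : k = k' := Subtype.ext (Subtype.ext h3)
      subst h3'
      have h4 : u = u' := Subtype.ext (mul_right_cancel h2)
      rw [h4]
    · rintro ⟨⟨k, y⟩, hk, hy, h⟩
      simp only at hk hy h
      have h5 := keyB k y hk h
      have hB : (a⁻¹ * k * y)⁻¹ * (((σ ^ e) a)⁻¹ * a) * (a⁻¹ * k * y) ∈ Y := by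
        rw [h5]; exact mul_mem (inv_mem (hYn e _ hy)) hy
      have h6 := hyB' ⟨⟨a⁻¹ * k * y, h⟩, hB⟩
      simp only at h6
      rw [h5] at h6
      refine ⟨⟨⟨⟨a⁻¹ * k * y, h⟩, hB⟩, ⟨y * (yB ⟨⟨a⁻¹ * k * y, h⟩, hB⟩)⁻¹,
        Y.mul_mem hy (Y.inv_mem (hyB _)), ?_⟩⟩, ?_⟩
      · change (σ ^ e) (y * (yB ⟨⟨a⁻¹ * k * y, h⟩, hB⟩)⁻¹) = y * (yB ⟨⟨a⁻¹ * k * y, h⟩, hB⟩)⁻¹
        rw [map_mul, map_inv]
        have h2 : (σ ^ e) y = y * (((σ ^ e) y)⁻¹ * y)⁻¹ := by group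
        rw [h2, h6]; group
      · apply Subtype.ext
        simp
        group
  rw [← Nat.card_prod, ← Nat.card_prod]
  exact Nat.card_congr (e1.trans e2.symm)

end Cfsg.Agent.S2669
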