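import Cfsg.Statements.S2671
import Cfsg.Agent.Lib.H49.GLClasses
import Cfsg.Agent.Lib.H49.Unitary
import Cfsg.Agent.S2587
import Cfsg.Agent.S2588

set_option autoImplicit false
open Cfsg

namespace Cfsg.Agent.S2671

open H49.RootMult H49.RootCount H49.RootGroup H49.GLClasses H49.Unitary

/-- Number of conjugacy classes of elements of odd prime order r in the general unitary group GU_n(q), for r not dividing q(q + 1): let i be the multiplicative order of q modulo r, b = i if i is odd and b = i/2 if i is even, and s = (r − 1)/b. If i ≢ 2 (mod 4) the eigenvalue orbits pair off into dual pairs of totally isotropic blocks and there are C(⌊n/(2b)⌋ + s/2, s/2) − 1 classes; if i ≡ 2 (mod 4) each orbit gives a non-degenerate block of dimension i/2 and there are C(⌊2n/i⌋ + s, s) − 1 classes. -/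
theorem result {K : Type*} [Field K] [Fintype K] {p q n r i b s : ℕ} [Fact p.Prime] [CharP K p] (hK : Fintype.card K = q ^ 2) (hr : r.Prime) (hr2 : r ≠ 2) (hrp : r ≠ p) (hi : i = orderOf (q : ZMod r)) (hi2 : i ≠ 2) (hb : b = if Odd i then i else i / 2) (hs : s * b = r - 1) : Nat.card {C : ConjClasses ↥(Cfsg.GU n K q) // ∃ g : ↥(Cfsg.GU n K q), ConjClasses.mk g = C ∧ orderOf g = r} = if i % 4 = 2 then Nat.choose (2 * n / i + s) s - 1 else Nat.choose (n / (2 * b) + s / 2) (s / 2) - 1 := by
  have : Fact r.Prime := ⟨hr⟩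
  have hrF : (r : K) ≠ 0 := cast_ne_zero_of_ne hr hrp
  obtain ⟨ζ, hζ⟩ := exists_primitive (K := K) hrF
  set φ := algebraMap K (AlgebraicClosure K) with hφ
  have hK' : Nat.card K = q ^ 2 := by rw [Nat.card_eq_fintype_card, hK]
  have hq0 : (q : ZMod r) ≠ 0 := by
    have := card_ne_zero' (K := K) φ hζ
    rw [hK', Nat.cast_pow] at this
    exact fun h => this (by rw [h]; ring)
  set x : (ZMod r)ˣ := Units.mk0 (q : ZMod r) hq0 with hx
  have hxo : orderOf x = i := by rw [hi, ← orderOf_units]; rfl
  have hipos : 0 < i := by rw [← hxo]; exact orderOf_pos x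
  have hir : i ∣ r - 1 := by
    rw [← hxo, ← ZMod.card_units r]
    exact orderOf_dvd_card
  set H := Subgroup.zpowers (-x) with hH
  have hHc : Nat.card H = if Odd i then 2 * i else if i % 4 = 2 then i / 2 else i := by
    rw [hH, Nat.card_zpowers, orderOf_neg hr2, hxo]
  have hxval : ∀ k, ((-x : (ZMod r)ˣ) : ZMod r) * k = -((q : ZMod r) * k) := by
    intro k; rw [Units.val_neg, neg_mul]; rfl
  -- the count
  have hcount : {m | m ∈ Inv H n ∧ m ≠ fun k : ZMod r => if k = 0 then n else 0}.ncard =
      if i % 4 = 2 then Nat.choose (2 * n / i + s) s - 1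
        else Nat.choose (n / (2 * b) + s / 2) (s / 2) - 1 := by
    by_cases h4 : i % 4 = 2
    · have hodd : ¬ Odd i := by rw [Nat.odd_iff]; omega
      rw [if_pos h4]
      rw [if_neg hodd, if_pos h4] at hHc
      rw [if_neg hodd] at hb
      rw [ncard_nontriv H n s (by rw [hHc, ← hb, hs]), hHc]
      have : n / (i / 2) = 2 * n / i := by
        obtain ⟨j, hj⟩ : ∃ j, i = 2 * j := ⟨i / 2, by omega⟩
        subst hj
        rw [Nat.mul_div_cancel_left _ (by norm_num), Nat.mul_div_mul_left _ _ (by norm_num)]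
      rw [this]
    · rw [if_neg h4]
      have h2b : Nat.card H = 2 * b := by
        rw [hHc]
        by_cases hodd : Odd i
        · rw [if_pos hodd, hb, if_pos hodd]
        · rw [if_neg hodd, if_neg h4, hb, if_neg hodd]
          rw [Nat.odd_iff] at hodd
          omega
      have hse : 2 ∣ s := by
        by_cases hodd : Odd i
        · rw [if_pos hodd] at hb
          have h2 : 2 ∣ s * b := by
            rw [hs]
            have := hr.odd_of_ne_two hr2
            obtain ⟨j, hj⟩ := this
            exact ⟨j, by omega⟩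
          have hc : Nat.Coprime 2 b := by rw [hb]; exact Nat.coprime_two_left.mpr hodd
          exact hc.dvd_of_dvd_mul_right h2
        · rw [if_neg hodd] at hb
          obtain ⟨c, hc⟩ := hir
          rw [Nat.odd_iff] at hodd
          have hi2b : i = 2 * b := by omega
          have hbpos : 0 < b := by omega
          rw [hc, hi2b] at hs
          refine ⟨c, ?_⟩
          have h5 : s * b = 2 * c * b := by rw [hs]; ring
          exact Nat.eq_of_mul_eq_mul_right hbpos h5
      obtain ⟨s', rfl⟩ := hse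
      rw [Nat.mul_div_cancel_left _ (by norm_num)]
      rw [ncard_nontriv H n s' (by rw [h2b, ← hs]; ring), h2b]
  rw [← hcount]
  have hpow : ∀ g : ↥(Cfsg.GU n K q), g ^ r = 1 →
      (((g : GL (Fin n) K) : Matrix (Fin n) (Fin n) K)) ^ r = 1 := by
    intro g hg
    have h1 : ((g : GL (Fin n) K)) ^ r = 1 := by
      rw [← SubmonoidClass.coe_pow, hg]; rfl
    rw [← Units.val_pow_eq_pow_val, h1, Units.val_one]
  -- twist by the q-power map
  obtain ⟨ψ, hψ⟩ : ∃ ψ : AlgebraicClosure K →+* AlgebraicClosure K, ∀ y, ψ y = y ^ q := by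
    obtain ⟨p', hp', hc', f, hf, hqf⟩ := exists_char_pow hK'
    have : CharP (AlgebraicClosure K) p' := (RingHom.charP_iff φ φ.injective p').mp hc'
    have : ExpChar (AlgebraicClosure K) p' := ExpChar.prime hp'.out
    exact ⟨iterateFrobenius (AlgebraicClosure K) p' f, fun y => by
      rw [iterateFrobenius_def, ← hqf]⟩
  have htw : ∀ (A : Matrix (Fin n) (Fin n) K) (k : ZMod r),
      rm φ ζ (A.map (frob hK')) ((q : ZMod r) * k) = rm φ ζ A k := fun A k =>
    rm_twist (φ := φ) hζ ψ (frob hK') (fun y => by rw [hψ, ← map_pow]; rfl) q (hψ ζ) A k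
  refine card_classes
    (fun (g : ↥(Cfsg.GU n K q)) k => rm φ ζ (((g : GL (Fin n) K) : Matrix (Fin n) (Fin n) K)) k) _
    ((finite_Inv H n).subset fun m hm => hm.1) ?_ ?_ ?_ ?_
  · intro g hg hg1
    refine ⟨(mem_Inv_zpowers _ _ _).mpr ⟨fun k => ?_, ?_⟩, ?_⟩
    · rw [hxval]
      have h1 := (mem_GU hK' _).mp g.2
      have h2 := rm_inv (φ := φ) hζ h1 ((q : ZMod r) * k)
      rw [h2, ct, rm_transpose, htw]
    · have := sum_rm hζ (φ := φ) _ (hpow g hg)
      rwa [Fintype.card_fin] at this
    · intro h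
      apply hg1
      apply Subtype.ext
      apply Units.ext
      have := (eq_one_iff_rm (φ := φ) hζ _ (hpow g hg)).mpr
        (by rw [Fintype.card_fin]; exact h)
      rw [this]; rfl
  · rintro m ⟨hm, hm1⟩
    obtain ⟨hm2, hm3⟩ := (mem_Inv_zpowers _ _ _).mp hm
    simp only [hxval] at hm2
    obtain ⟨A, hA, hAm⟩ := exists_matrix' (K := K) (ι := Fin n) φ hζ m
      (by
        intro k
        rw [hK', Nat.cast_pow, pow_two, mul_assoc, ← hm2 k, ← hm2 (-((q : ZMod r) * k))]
        congr 1; ring) (by rw [Fintype.card_fin]; exact hm3)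
    obtain ⟨a, ha, har⟩ := exists_unit hr.one_le hA
    -- similarity with the inverse conjugate transpose
    have hBr : (ct hK' A) ^ r = 1 := by
      have h1 : ∀ j : ℕ, (ct hK' A) ^ j = ct hK' (A ^ j) := by
        intro j
        induction j with
        | zero => rw [pow_zero, pow_zero, ct_one]
        | succ j ih => rw [pow_succ, ih, ← ct_mul, ← pow_succ']
      rw [h1, hA, ct_one]
    have hBB : ct hK' A * (ct hK' A) ^ (r - 1) = 1 := by
      rw [← pow_succ', Nat.sub_add_cancel hr.one_le, hBr]
    have hconj : IsConj A ((ct hK' A) ^ (r - 1)) := by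
      refine isConj_of_rm (φ := φ) hζ hA (by rw [← pow_mul, mul_comm, pow_mul, hBr, one_pow])
        fun k => ?_
      obtain ⟨k', rfl⟩ : ∃ k', -((q : ZMod r) * k') = k :=
        ⟨-((q : ZMod r)⁻¹ * k), by rw [mul_neg, neg_neg, mul_inv_cancel_left₀ hq0]⟩
      rw [rm_inv (φ := φ) hζ hBB, hAm, hm2, ct, rm_transpose, htw, hAm]
    have hinv : ((A.map (fun x : K => x ^ q)).transpose)⁻¹ = (ct hK' A) ^ (r - 1) :=
      Matrix.inv_eq_right_inv hBB
    obtain ⟨g, hg⟩ := (Cfsg.Agent.S2588.result hK a).mpr (by rw [ha, hinv]; exact hconj)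
    have hg' : IsConj A ((g : GL (Fin n) K) : Matrix (Fin n) (Fin n) K) := by
      rw [← ha]; exact isConj_units.mp hg
    have hgm : ∀ k, rm φ ζ ((g : GL (Fin n) K) : Matrix (Fin n) (Fin n) K) k = m k := by
      intro k
      rw [← rm_conj hg' k, hAm]
    refine ⟨g, ?_, ?_, funext hgm⟩
    · apply Subtype.ext
      obtain ⟨c, hc⟩ := isConj_iff.mp hg
      rw [SubmonoidClass.coe_pow, ← hc, conj_pow, har, mul_one, mul_inv_cancel]
      rfl
    · rintro rfl
      apply hm1
      have := (eq_one_iff_rm (φ := φ) hζ (1 : Matrix (Fin n) (Fin n) K) (one_pow r)).mp rfl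
      rw [Fintype.card_fin] at this
      rw [← this]
      funext k
      exact (hgm k).symm
  · intro g h hg hh _ _ he
    exact (Cfsg.Agent.S2587.result hK g h).mpr
      (isConj_units.mpr (isConj_of_rm hζ (hpow g hg) (hpow h hh) fun k => congrFun he k))
  · intro g h _ _ hc
    funext k
    exact rm_conj (isConj_units.mp ((Cfsg.Agent.S2587.result hK g h).mp hc)) k

end Cfsg.Agent.S2671
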