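import Cfsg.Statements.S2672
import Cfsg.Agent.Lib.H49.ProjMatrix
import Cfsg.Agent.Lib.H49.Unitary
import Cfsg.Agent.Lib.H17.GUCenter
import Cfsg.Agent.S2587
import Cfsg.Agent.S2588

set_option autoImplicit false
open Cfsg

namespace Cfsg.Agent.S2672

open H49.RootMult H49.GLClasses H49.Unitary

/-- Number of conjugacy classes of elements of odd prime order r in PGU_n(q) = GU_n(q)/scalars (n ≥ 3) when r divides q + 1: as in the linear case with q − 1 replaced by q + 1, the classes correspond to the rotation orbits on r-tuples of eigenvalue multiplicities summing to n with every entry < n, plus r − 1 further classes when r divides n; in all (C(n+r−1, r−1) − r − [r ∣ n])/r + r·[r ∣ n]. -/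
theorem result {K : Type*} [Field K] [Fintype K] {q n r : ℕ} (hK : Fintype.card K = q ^ 2) (hn : 3 ≤ n) (hr : r.Prime) (hr2 : r ≠ 2) (hrq : r ∣ q + 1) : Nat.card {C : ConjClasses (↥(Cfsg.GU n K q) ⧸ Subgroup.center ↥(Cfsg.GU n K q)) // ∃ g : ↥(Cfsg.GU n K q) ⧸ Subgroup.center ↥(Cfsg.GU n K q), ConjClasses.mk g = C ∧ orderOf g = r} = (Nat.choose (n + r - 1) (r - 1) - r - (if r ∣ n then 1 else 0)) / r + r * (if r ∣ n then 1 else 0) := by
  classical
  have : Fact r.Prime := ⟨hr⟩
  have hK' : Nat.card K = q ^ 2 := by rw [Nat.card_eq_fintype_card, hK]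
  have hne : Nonempty (Fin n) := ⟨⟨0, by omega⟩⟩
  have hq2 : 2 ≤ q := two_le hK'
  obtain ⟨x, hx⟩ := exists_prime_orderOf_dvd_card (G := Kˣ) r
    (by
      rw [Fintype.card_units, hK]
      obtain ⟨d, hd⟩ := hrq
      obtain ⟨e, rfl⟩ : ∃ e, q = e + 1 := ⟨q - 1, by omega⟩
      refine ⟨d * e, ?_⟩
      rw [← mul_assoc, ← hd]
      have : (e + 1) ^ 2 = (e + 1 + 1) * e + 1 := by ring
      omega)
  let S : Subgroup Kˣ := (powMonoidHom (q + 1) : Kˣ →* Kˣ).ker
  have hS : ∀ c : Kˣ, c ∈ S ↔ c ^ (q + 1) = 1 := fun c => Iff.rfl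
  have hcop : IsCoprime (r : ℤ) ((q - 1 : ℕ) : ℤ) := by
    rw [Nat.isCoprime_iff_coprime]
    refine (Nat.Prime.coprime_iff_not_dvd hr).mpr fun h => hr2 ?_
    have h1 : r ∣ (q + 1) - (q - 1) := Nat.dvd_sub hrq h
    have h2 : (q + 1) - (q - 1) = 2 := by omega
    rw [h2] at h1
    exact (Nat.prime_dvd_prime_iff_eq hr Nat.prime_two).mp h1
  have hconst : ∀ c : K, (Matrix.diagonal fun _ : Fin n => c) = c • (1 : Matrix (Fin n) (Fin n) K) := by
    intro c; rw [Matrix.smul_one_eq_diagonal]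
  refine H49.ProjMatrix.card_proj_matrix (K := K) (by omega) S x hx ?_ ?_
    (Cfsg.GU n K q).subtype Subtype.val_injective ?_ ?_ ?_ ?_
  · rw [hS]
    obtain ⟨d, hd⟩ := hrq
    rw [hd, pow_mul, ← hx, pow_orderOf_eq_one, one_pow]
  · intro γ hγ b hb
    obtain ⟨u, v, huv⟩ := hcop
    refine ⟨γ ^ u * (b ^ (q - 1)) ^ v, ?_, ?_⟩
    · refine S.mul_mem (S.zpow_mem hγ u) (S.zpow_mem ?_ v)
      rw [hS, ← pow_mul]
      have h1 : (q - 1) * (q + 1) = Fintype.card Kˣ := by
        rw [Fintype.card_units, hK]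
        obtain ⟨e, rfl⟩ : ∃ e, q = e + 1 := ⟨q - 1, by omega⟩
        have : (e + 1) ^ 2 = (e + 1 - 1) * (e + 1 + 1) + 1 := by
          rw [Nat.add_sub_cancel]; ring
        omega
      rw [h1, pow_card_eq_one]
    · have h1 : (γ ^ u) ^ r = γ ^ (u * (r : ℤ)) := by rw [← zpow_natCast, ← zpow_mul]
      have h2 : ((b ^ (q - 1)) ^ v) ^ r = γ ^ (v * ((q - 1 : ℕ) : ℤ)) := by
        rw [← zpow_natCast, ← zpow_mul, mul_comm v, zpow_mul, zpow_natCast, ← pow_mul, mul_comm (q - 1),
          pow_mul, hb, mul_comm v, zpow_mul, zpow_natCast]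
      rw [mul_pow, h1, h2, ← zpow_add, huv, zpow_one]
  · intro g
    constructor
    · intro hg
      obtain ⟨c, hc, hgc⟩ := H17.GUCenter.center_scalar hK hg (by omega)
      exact ⟨c, (hS c).mpr hc, by rw [← hconst]; exact hgc⟩
    · rintro ⟨c, _, hc⟩
      refine H17.GUCenter.scalar_mem_center (c : K) ?_
      rw [hconst]; exact hc
  · intro c hc
    obtain ⟨g, hg, hgd⟩ := H17.GUCenter.exists_diagGU (n := n) (q := q) (fun _ => c)
      (fun _ => (hS c).mp hc)
    refine ⟨⟨g, hg⟩, ?_⟩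
    rw [← hconst]; exact hgd
  · intro g h hc
    exact (Cfsg.Agent.S2587.result hK g h).mpr (isConj_units.mpr hc)
  · intro γ hγ A hA hγr
    have hu : IsUnit A := by
      rw [Matrix.isUnit_iff_isUnit_det]
      have h1 := congrArg Matrix.det hA
      rw [Matrix.det_pow, Matrix.det_smul, Matrix.det_one, mul_one] at h1
      refine (isUnit_pow_iff hr.ne_zero).mp ?_
      rw [h1]
      exact IsUnit.mk0 _ (pow_ne_zero _ γ.ne_zero)
    obtain ⟨a, rfl⟩ := hu
    have hγ' : γ ^ (q + 1) = 1 := (hS γ).mp hγ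
    -- the inverse conjugate transpose
    have hctpow : ∀ j : ℕ, (ct hK' (a : Matrix (Fin n) (Fin n) K)) ^ j =
        ct hK' ((a : Matrix (Fin n) (Fin n) K) ^ j) := by
      intro j
      induction j with
      | zero => rw [pow_zero, pow_zero, ct_one]
      | succ j ih => rw [pow_succ, ih, ← ct_mul, ← pow_succ']
    have hBB : ct hK' (a : Matrix (Fin n) (Fin n) K) *
        ct hK' ((a⁻¹ : GL (Fin n) K) : Matrix (Fin n) (Fin n) K) = 1 := by
      rw [← ct_mul, Units.inv_mul, ct_one]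
    have hBr : (ct hK' ((a⁻¹ : GL (Fin n) K) : Matrix (Fin n) (Fin n) K)) ^ r =
        (γ : K) • (1 : Matrix (Fin n) (Fin n) K) := by
      have h1 : ((a⁻¹ : GL (Fin n) K) : Matrix (Fin n) (Fin n) K) ^ r =
          ((γ⁻¹ : Kˣ) : K) • (1 : Matrix (Fin n) (Fin n) K) := by
        have h2 : a ^ r * (a⁻¹) ^ r = 1 := by rw [inv_pow, mul_inv_cancel]
        have h3 := congrArg Units.val h2
        rw [Units.val_mul, Units.val_pow_eq_pow_val, Units.val_pow_eq_pow_val, hA, smul_mul_assoc,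
          one_mul, Units.val_one] at h3
        rw [← h3, smul_smul, Units.inv_mul, one_smul]
      have h4 : ∀ j : ℕ, (ct hK' ((a⁻¹ : GL (Fin n) K) : Matrix (Fin n) (Fin n) K)) ^ j =
          ct hK' (((a⁻¹ : GL (Fin n) K) : Matrix (Fin n) (Fin n) K) ^ j) := by
        intro j
        induction j with
        | zero => rw [pow_zero, pow_zero, ct_one]
        | succ j ih => rw [pow_succ, ih, ← ct_mul, ← pow_succ']
      rw [h4, h1, ct_scalar, frob_apply]
      congr 1
      have h5 : (γ⁻¹) ^ q = γ := by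
        rw [inv_pow, inv_eq_iff_mul_eq_one, ← pow_succ, hγ']
      rw [← Units.val_pow_eq_pow_val, h5]
    have hconj : IsConj (a : Matrix (Fin n) (Fin n) K)
        (ct hK' ((a⁻¹ : GL (Fin n) K) : Matrix (Fin n) (Fin n) K)) := by
      rcases hγr with h1 | h1
      · subst h1
        rw [Units.val_one, one_smul] at hA hBr
        set φ := algebraMap K (AlgebraicClosure K) with hφ
        have hζ0 : IsPrimitiveRoot (x : K) r := by
          have h1 := IsPrimitiveRoot.orderOf x
          rw [hx] at h1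
          exact IsPrimitiveRoot.coe_units_iff.mpr h1
        have hζ : IsPrimitiveRoot (φ x) r := hζ0.map_of_injective φ.injective
        obtain ⟨ψ, hψ⟩ : ∃ ψ : AlgebraicClosure K →+* AlgebraicClosure K, ∀ y, ψ y = y ^ q := by
          obtain ⟨p', hp', hc', f, hf, hqf⟩ := exists_char_pow hK'
          have : CharP (AlgebraicClosure K) p' := (RingHom.charP_iff φ φ.injective p').mp hc'
          have : ExpChar (AlgebraicClosure K) p' := ExpChar.prime hp'.out
          exact ⟨iterateFrobenius (AlgebraicClosure K) p' f, fun y => by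
            rw [iterateFrobenius_def, ← hqf]⟩
        have htw : ∀ (A : Matrix (Fin n) (Fin n) K) (k : ZMod r),
            rm φ (φ x) (A.map (frob hK')) ((q : ZMod r) * k) = rm φ (φ x) A k := fun A k =>
          rm_twist (φ := φ) hζ ψ (frob hK') (fun y => by rw [hψ, ← map_pow]; rfl) q (hψ _) A k
        have hqr : (q : ZMod r) = -1 := by
          have h2 : ((q + 1 : ℕ) : ZMod r) = 0 := (ZMod.natCast_eq_zero_iff _ _).mpr hrq
          rw [Nat.cast_succ] at h2
          exact eq_neg_of_add_eq_zero_left h2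
        refine isConj_of_rm (φ := φ) hζ hA hBr fun k => ?_
        have h2 := rm_inv (φ := φ) hζ hBB (-k)
        rw [neg_neg] at h2
        rw [h2, ct, rm_transpose, ← htw _ k, hqr, neg_one_mul]
      · exact H49.NonSplit.isConj hr h1 hA hBr
    have hinv : (((a : Matrix (Fin n) (Fin n) K).map (fun x : K => x ^ q)).transpose)⁻¹ =
        ct hK' ((a⁻¹ : GL (Fin n) K) : Matrix (Fin n) (Fin n) K) :=
      Matrix.inv_eq_right_inv hBB
    obtain ⟨g, hg⟩ := (Cfsg.Agent.S2588.result hK a).mpr (by rw [hinv]; exact hconj)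
    exact ⟨g, isConj_units.mp hg⟩

end Cfsg.Agent.S2672
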