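import Cfsg.Statements.S2673
import Cfsg.Agent.Lib.H49.OrthClasses

set_option autoImplicit false
open Cfsg

namespace Cfsg.Agent.S2673

open H49.RootMult H49.RootCount H49.RootGroup H49.GLClasses H49.FormRm H49.OrthClasses
  H48.QuadSplit H48.QuadStd H7.HypStd

/-- Number of conjugacy classes of elements of odd prime order r ≠ p in the orthogonal group O_(2m+1)(q) of x_0² + Σ x_j y_j, q odd: with i the multiplicative order of q mod r and t = (r − 1)/i, there are C(⌊m/i⌋ + t/2, t/2) − 1 classes if i is odd (dual pairs of totally singular i-blocks) and C(⌊(2m+1)/i⌋ + t, t) − 1 if i is even (elliptic i-blocks). -/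
theorem result {F : Type*} [Field F] [Fintype F] {p q : ℕ} [Fact p.Prime] [CharP F p] (hF : Fintype.card F = q) (hq : Odd q) (m r i t : ℕ) (hr : r.Prime) (hr2 : r ≠ 2) (hrp : r ≠ p) (hi : i = orderOf (q : ZMod r)) (ht : t * i = r - 1) : Nat.card {C : ConjClasses ↥(Cfsg.isometryGroup F (Cfsg.quadFormOdd m F)) // ∃ g : ↥(Cfsg.isometryGroup F (Cfsg.quadFormOdd m F)), ConjClasses.mk g = C ∧ orderOf g = r} = if Odd i then Nat.choose (m / i + t / 2) (t / 2) - 1 else Nat.choose ((2 * m + 1) / i + t) t - 1 := by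
  have : Fact r.Prime := ⟨hr⟩
  have hrF : (r : F) ≠ 0 := cast_ne_zero_of_ne hr hrp
  have hqF : Nat.card F = q := by rw [Nat.card_eq_fintype_card, hF]
  have hq0' : ((Nat.card F : ℕ) : ZMod r) ≠ 0 := by
    obtain ⟨ζ, hζ⟩ := exists_primitive (K := F) hrF
    exact card_ne_zero' (K := F) (algebraMap F (AlgebraicClosure F)) hζ
  have h2F : (2 : F) ≠ 0 := by
    rw [H48.FinFieldSq.two_ne_zero_iff_odd_card, hqF]; exact hq
  have hcard : Fintype.card (Unit ⊕ (Fin m ⊕ Fin m)) = 2 * m + 1 := by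
    rw [Fintype.card_sum, Fintype.card_sum, Fintype.card_fin, Fintype.card_unit]; ring
  rw [← coe_qOdd, classes_orth hr2 hrF (qOdd m F 1) (nd_qOdd m h2F one_ne_zero) hq0', hcard]
  have hi' : i = orderOf ((Nat.card F : ℕ) : ZMod r) := by rw [hqF]; exact hi
  have hset : {m_1 : ZMod r → ℕ | m_1 ∈ Inv (Subgroup.zpowers
      (Units.mk0 ((Nat.card F : ℕ) : ZMod r) hq0') ⊔ Subgroup.zpowers (-1 : (ZMod r)ˣ)) (2 * m + 1) ∧
      (m_1 ≠ fun k : ZMod r => if k = 0 then 2 * m + 1 else 0) ∧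
      (m_1 0 = 0 → r ∣ cnt (qOdd m F 1) 1)} =
      {m_1 : ZMod r → ℕ | m_1 ∈ Inv (Subgroup.zpowers
      (Units.mk0 ((Nat.card F : ℕ) : ZMod r) hq0') ⊔ Subgroup.zpowers (-1 : (ZMod r)ˣ)) (2 * m + 1) ∧
      (m_1 ≠ fun k : ZMod r => if k = 0 then 2 * m + 1 else 0)} := by
    ext x
    simp only [Set.mem_ofPred_eq]
    constructor
    · rintro ⟨h1, h2, -⟩; exact ⟨h1, h2⟩
    · rintro ⟨h1, h2⟩
      refine ⟨h1, h2, fun h0 => ?_⟩
      exfalso
      -- the sum is even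
      obtain ⟨⟨-, h3⟩, h4⟩ := (mem_Inv_sup _ _ _ _).mp h1
      have h5 := ncard_Inv_zero (Subgroup.zpowers (-1 : (ZMod r)ˣ)) (2 * m + 1) ((r - 1) / 2) (by
        rw [Nat.card_zpowers, orderOf_neg_one hr2]
        have := hr.odd_of_ne_two hr2
        obtain ⟨j, hj⟩ := this
        omega)
      rw [Nat.card_zpowers, orderOf_neg_one hr2, if_neg (by omega)] at h5
      have h6 : x ∈ {y : ZMod r → ℕ | y ∈ Inv (Subgroup.zpowers (-1 : (ZMod r)ˣ)) (2 * m + 1) ∧
          y 0 = 0} := ⟨(mem_Inv_zpowers _ _ _).mpr ⟨h3, h4⟩, h0⟩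
      have h7 : {y : ZMod r → ℕ | y ∈ Inv (Subgroup.zpowers (-1 : (ZMod r)ˣ)) (2 * m + 1) ∧
          y 0 = 0}.Finite := (finite_Inv _ _).subset fun y hy => hy.1
      rw [Set.ncard_eq_zero h7] at h5
      rw [h5] at h6
      exact h6
  rw [hset, count_sup hr2 hq0' hi' ht]
  have h8 : (2 * m + 1) / (2 * i) = m / i := by
    rw [← Nat.div_div_eq_div_mul]
    congr 1
    omega
  rw [h8]

end Cfsg.Agent.S2673
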