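import Cfsg.Statements.S2675
import Cfsg.Agent.Lib.H49.OrthClasses

set_option autoImplicit false
open Cfsg

namespace Cfsg.Agent.S2675

open H49.RootMult H49.RootCount H49.RootGroup H49.GLClasses H49.FormRm H49.OrthClasses
  H48.QuadSplit H48.QuadStd H7.HypStd

/-- Number of conjugacy classes of elements of odd prime order r ≠ p in the orthogonal group O⁻_2m(q) of an elliptic form Σ_(j<m−1) x_j y_j + z₁² + a z₁z₂ + c z₂² (binary part anisotropic, m ≥ 1): with i the multiplicative order of q mod r and t = (r − 1)/i — if i is odd, C(⌊m/i⌋ + t/2, t/2) − 1 minus, when i divides m, the C(m/i + t/2 − 1, t/2 − 1) tuples filling the whole space (dual pairs of totally singular blocks fill a hyperbolic space); if i is even, C(⌊2m/i⌋ + t, t) − 1 minus, when i divides 2m with even quotient, the C(2m/i + t − 1, t − 1) tuples filling the whole space with an even number of elliptic blocks. -/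
theorem result {F : Type*} [Field F] [Fintype F] {p q : ℕ} [Fact p.Prime] [CharP F p] (hF : Fintype.card F = q) (m r i t : ℕ) (hm : 1 ≤ m) (a c : F) (hac : ∀ z₁ z₂ : F, z₁ ^ 2 + a * z₁ * z₂ + c * z₂ ^ 2 = 0 → z₁ = 0 ∧ z₂ = 0) (hr : r.Prime) (hr2 : r ≠ 2) (hrp : r ≠ p) (hi : i = orderOf (q : ZMod r)) (ht : t * i = r - 1) : Nat.card {C : ConjClasses ↥(Cfsg.isometryGroup F (Cfsg.quadFormMinus (m - 1) F a c)) // ∃ g : ↥(Cfsg.isometryGroup F (Cfsg.quadFormMinus (m - 1) F a c)), ConjClasses.mk g = C ∧ orderOf g = r} = if Odd i then Nat.choose (m / i + t / 2) (t / 2) - 1 - (if i ∣ m then Nat.choose (m / i + t / 2 - 1) (t / 2 - 1) else 0) else Nat.choose (2 * m / i + t) t - 1 - (if i ∣ 2 * m ∧ Even (2 * m / i) then Nat.choose (2 * m / i + t - 1) (t - 1) else 0) := by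
  have : Fact r.Prime := ⟨hr⟩
  have hrF : (r : F) ≠ 0 := cast_ne_zero_of_ne hr hrp
  have hqF : Nat.card F = q := by rw [Nat.card_eq_fintype_card, hF]
  have hq0' : ((Nat.card F : ℕ) : ZMod r) ≠ 0 := by
    obtain ⟨ζ, hζ⟩ := exists_primitive (K := F) hrF
    exact card_ne_zero' (K := F) (algebraMap F (AlgebraicClosure F)) hζ
  obtain ⟨m', rfl⟩ : ∃ m', m = m' + 1 := ⟨m - 1, by omega⟩
  rw [Nat.add_sub_cancel]
  set m := m' + 1 with hm'
  have hcard : Fintype.card ((Fin m' ⊕ Fin m') ⊕ Fin 2) = 2 * m := by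
    rw [Fintype.card_sum, Fintype.card_sum, Fintype.card_fin, Fintype.card_fin]; omega
  rw [← coe_qMinus, classes_orth hr2 hrF (qMinus m' F a c) (nd_qMinus m' (disc_ne_zero hac)) hq0',
    hcard]
  have hi' : i = orderOf ((Nat.card F : ℕ) : ZMod r) := by rw [hqF]; exact hi
  have hipos : 0 < i := by rw [hi']; exact orderOf_pos' hq0'
  have hne : (1 : ZMod r) ≠ -1 := by
    intro h0
    apply two_ne_zero' hr2
    linear_combination h0
  have hdv := dvd_minus_iff (F := F) hq0' m' (a := a) (b := c) hac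
  rw [← hm'] at hdv
  have hpowi : ((Nat.card F : ℕ) : ZMod r) ^ i = 1 := by rw [hi']; exact pow_orderOf_eq_one _
  by_cases hc : r ∣ cnt (qMinus m' F a c) 1
  · have hset : {m_1 : ZMod r → ℕ | m_1 ∈ Inv (Subgroup.zpowers
        (Units.mk0 ((Nat.card F : ℕ) : ZMod r) hq0') ⊔ Subgroup.zpowers (-1 : (ZMod r)ˣ)) (2 * m) ∧
        (m_1 ≠ fun k : ZMod r => if k = 0 then 2 * m else 0) ∧
        (m_1 0 = 0 → r ∣ cnt (qMinus m' F a c) 1)} =
        {m_1 : ZMod r → ℕ | m_1 ∈ Inv (Subgroup.zpowers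
        (Units.mk0 ((Nat.card F : ℕ) : ZMod r) hq0') ⊔ Subgroup.zpowers (-1 : (ZMod r)ˣ)) (2 * m) ∧
        (m_1 ≠ fun k : ZMod r => if k = 0 then 2 * m else 0)} := by
      ext x; simp only [Set.mem_ofPred_eq, hc, implies_true, and_true]
    rw [hset, count_sup hr2 hq0' hi' ht, Nat.mul_div_mul_left _ _ (by norm_num : 0 < 2)]
    have h6 := hdv.mp hc
    by_cases h1 : Odd i
    · exfalso
      -- an odd power of an element of odd order cannot be `-1`
      have h7 : (((Nat.card F : ℕ) : ZMod r) ^ m) ^ i = 1 := by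
        rw [← pow_mul, mul_comm, pow_mul, hpowi, one_pow]
      rw [h6, h1.neg_one_pow] at h7
      exact hne h7.symm
    · rw [if_neg h1, if_neg h1, if_neg, Nat.sub_zero]
      rintro ⟨⟨c', hc2⟩, h4⟩
      rw [hc2, Nat.mul_div_cancel_left _ hipos] at h4
      obtain ⟨d, hd⟩ := h4
      have h5 : m = i * d := by
        have : 2 * m = 2 * (i * d) := by rw [hc2, hd]; ring
        omega
      rw [h5, pow_mul, hpowi, one_pow] at h6
      exact hne h6
  · have hset : {m_1 : ZMod r → ℕ | m_1 ∈ Inv (Subgroup.zpowers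
        (Units.mk0 ((Nat.card F : ℕ) : ZMod r) hq0') ⊔ Subgroup.zpowers (-1 : (ZMod r)ˣ)) (2 * m) ∧
        (m_1 ≠ fun k : ZMod r => if k = 0 then 2 * m else 0) ∧
        (m_1 0 = 0 → r ∣ cnt (qMinus m' F a c) 1)} =
        {m_1 : ZMod r → ℕ | m_1 ∈ Inv (Subgroup.zpowers
        (Units.mk0 ((Nat.card F : ℕ) : ZMod r) hq0') ⊔ Subgroup.zpowers (-1 : (ZMod r)ˣ)) (2 * m) ∧
        (m_1 ≠ fun k : ZMod r => if k = 0 then 2 * m else 0) ∧ m_1 0 ≠ 0} := by
      ext x; simp only [Set.mem_ofPred_eq, hc, imp_false, ne_eq]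
    rw [hset, count_sup_pos hr2 hq0' hi' ht (2 * m) (by omega),
      Nat.mul_div_mul_left _ _ (by norm_num : 0 < 2)]
    have hc' : ((Nat.card F : ℕ) : ZMod r) ^ m ≠ -1 := fun h => hc (hdv.mpr h)
    by_cases h1 : Odd i
    · rw [if_pos h1, if_pos h1]
      congr 1
      by_cases h2 : i ∣ m
      · rw [if_pos h2, if_pos (Nat.mul_dvd_mul_left 2 h2)]
      · rw [if_neg h2, if_neg (fun h => h2 (Nat.dvd_of_mul_dvd_mul_left (by norm_num) h))]
    · rw [if_neg h1, if_neg h1]
      congr 1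
      by_cases h2 : i ∣ 2 * m
      · rw [if_pos h2, if_pos]
        refine ⟨h2, ?_⟩
        by_contra h3
        rw [Nat.not_even_iff_odd] at h3
        obtain ⟨c', hc2⟩ := h2
        rw [hc2, Nat.mul_div_cancel_left _ hipos] at h3
        rw [Nat.not_odd_iff_even] at h1
        obtain ⟨j, hj⟩ := h1
        have h5 : m = j * c' := by
          have : 2 * m = 2 * (j * c') := by rw [hc2, hj]; ring
          omega
        have h7 : ((Nat.card F : ℕ) : ZMod r) ^ j = -1 := by
          have h8 := pow_half hr2 (x := Units.mk0 ((Nat.card F : ℕ) : ZMod r) hq0') (j := j)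
            (by rw [← orderOf_units]; change orderOf ((Nat.card F : ℕ) : ZMod r) = _; rw [← hi']; omega)
          have := congrArg Units.val h8
          simpa using this
        apply hc'
        rw [h5, pow_mul, h7, h3.neg_one_pow]
      · rw [if_neg h2, if_neg (fun h => h2 h.1)]

end Cfsg.Agent.S2675
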