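import Cfsg.Statements.S2677
import Cfsg.Agent.Lib.H49.CardGU
import Cfsg.Agent.Lib.H49.FixedField
import Cfsg.Agent.Lib.H49.SUClasses

set_option autoImplicit false
open Cfsg

namespace Cfsg.Agent.S2677

open H49.FixedField H49.Unitary H49.SUClasses

/-- Centraliser of a field automorphism of odd prime order in PGU_n(q): let q = q₀^r with r an odd prime, K the field with q² elements and σ a field automorphism of K of order r (fixed field of order q₀²). The elements g of GU_n(q) whose entrywise image under σ is a scalar multiple of g — those whose coset modulo the q + 1 unitary scalars is fixed by σ — number (q + 1)/(q₀ + 1) · |GU_n(q₀)|; equivalently the centraliser in PGU_n(q) of the induced automorphism has the order of PGU_n(q₀). -/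
theorem result {K : Type*} [Field K] [Fintype K] {q₀ q r n : ℕ} (hr : r.Prime) (hr2 : r ≠ 2) (hn : 1 ≤ n) (hq : q = q₀ ^ r) (hK : Fintype.card K = q ^ 2) (σ : K ≃+* K) (hσ : orderOf σ = r) : (Nat.card {g : ↥(Cfsg.GU n K q) // ∃ c : K, c ≠ 0 ∧ ((g : GL (Fin n) K) : Matrix (Fin n) (Fin n) K).map σ = c • ((g : GL (Fin n) K) : Matrix (Fin n) (Fin n) K)} : ℤ) = ((q + 1) / (q₀ + 1) : ℕ) * ((q₀ : ℤ) ^ (n * (n - 1) / 2) * ∏ i : Fin n, ((q₀ : ℤ) ^ ((i : ℕ) + 1) - (-1) ^ ((i : ℕ) + 1))) := by
  classical
  have : NeZero n := ⟨by omega⟩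
  have hK' : Nat.card K = q ^ 2 := by rw [Nat.card_eq_fintype_card, hK]
  have hK0 : Nat.card (fixedField σ) = q₀ ^ 2 :=
    card_fixedField σ hr.ne_zero (by rw [hK', hq, ← pow_mul, ← pow_mul, mul_comm]) hσ
  have : Fintype (fixedField σ) := Fintype.ofFinite _
  have hK0' : Fintype.card (fixedField σ) = q₀ ^ 2 := by rw [← Nat.card_eq_fintype_card, hK0]
  have hodd : Odd r := hr.odd_of_ne_two hr2
  have hxq : ∀ x : fixedField σ, (x : K) ^ q = ((x ^ q₀ : fixedField σ) : K) := by
    intro x
    obtain ⟨s, hs⟩ := hodd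
    have h1 : x ^ q = x ^ q₀ := by
      rw [hq, hs, pow_succ, pow_mul, pow_mul, ← hK0', FiniteField.pow_card_pow]
    rw [← h1]; rfl
  have hctmap : ∀ G : Matrix (Fin n) (Fin n) (fixedField σ),
      ct hK' (G.map (fixedField σ).subtype) = (ct hK0 G).map (fixedField σ).subtype := by
    intro G
    ext i j
    exact hxq (G j i)
  have hmapinj : ∀ G H : Matrix (Fin n) (Fin n) (fixedField σ),
      G.map (fixedField σ).subtype = H.map (fixedField σ).subtype → G = H := by
    intro G H h
    ext i j
    exact congrFun (congrFun h i) j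
  -- the hom
  let f : ↥(S K q) × ↥(Cfsg.GU n (fixedField σ) q₀) →* GL (Fin n) K :=
    { toFun := fun p => (Units.map (algebraMap K (Matrix (Fin n) (Fin n) K)).toMonoidHom p.1) *
        Matrix.GeneralLinearGroup.map (fixedField σ).subtype (p.2 : GL (Fin n) (fixedField σ))
      map_one' := by simp
      map_mul' := by
        rintro ⟨a, g⟩ ⟨b, h⟩
        apply Units.ext
        simp only [Prod.mk_mul_mk, map_mul, Units.val_mul, Subgroup.coe_mul]
        simp only [Units.coe_map, MonoidHom.coe_coe, RingHom.toMonoidHom_eq_coe]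
        rw [mul_assoc, mul_assoc, ← mul_assoc (algebraMap K (Matrix (Fin n) (Fin n) K) ((b : Kˣ) : K)),
          ← mul_assoc _ (algebraMap K (Matrix (Fin n) (Fin n) K) ((b : Kˣ) : K)),
          Algebra.commutes ((b : Kˣ) : K)] }
  have hfval : ∀ p, ((f p : GL (Fin n) K) : Matrix (Fin n) (Fin n) K) =
      ((p.1 : Kˣ) : K) • ((p.2 : GL (Fin n) (fixedField σ)) :
        Matrix (Fin n) (Fin n) (fixedField σ)).map (fixedField σ).subtype := by
    intro p
    change (algebraMap K (Matrix (Fin n) (Fin n) K) (p.1 : Kˣ)) * _ = _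
    rw [← Algebra.smul_def]
    rfl
  have hrange : ∀ g : GL (Fin n) K, g ∈ f.range ↔
      (g ∈ Cfsg.GU n K q ∧
      ∃ c : K, c ≠ 0 ∧ (g : Matrix (Fin n) (Fin n) K).map σ = c • (g : Matrix (Fin n) (Fin n) K)) := by
    intro g
    constructor
    · rintro ⟨⟨b, g₀⟩, rfl⟩
      refine ⟨?_, σ (b : Kˣ) / (b : Kˣ), ?_, ?_⟩
      · rw [mem_GU hK', hfval]
        have h1 : ct hK0 ((g₀ : GL (Fin n) (fixedField σ)) :
            Matrix (Fin n) (Fin n) (fixedField σ)) * _ = 1 := (mem_GU hK0 _).mp g₀.2
        have h2 : ((b : Kˣ) : K) ^ (q + 1) = 1 := by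
          rw [← Units.val_pow_eq_pow_val, (mem_S (b : Kˣ)).mp b.2, Units.val_one]
        rw [ct_smul, hctmap, frob_apply, smul_mul_smul_comm, ← pow_succ, h2, one_smul,
          ← Matrix.map_mul, h1]
        exact Matrix.map_one _ (map_zero _) (map_one _)
      · exact div_ne_zero ((map_ne_zero σ).2 (b : Kˣ).ne_zero) (b : Kˣ).ne_zero
      · rw [hfval]
        ext i j
        have h1 : σ (((g₀ : GL (Fin n) (fixedField σ)) : Matrix (Fin n) (Fin n) (fixedField σ)) i j : K) =
          (((g₀ : GL (Fin n) (fixedField σ)) : Matrix (Fin n) (Fin n) (fixedField σ)) i j : K) :=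
          (((g₀ : GL (Fin n) (fixedField σ)) : Matrix (Fin n) (Fin n) (fixedField σ)) i j).2
        have hb : ((b : Kˣ) : K) ≠ 0 := (b : Kˣ).ne_zero
        simp only [Matrix.map_apply, Matrix.smul_apply, smul_eq_mul, map_mul, Subfield.coe_subtype,
          h1]
        field_simp
    · rintro ⟨hgU, c, hc, hg⟩
      have hne : (g : Matrix (Fin n) (Fin n) K) ≠ 0 := g.ne_zero
      obtain ⟨i, j, hij⟩ : ∃ i j, (g : Matrix (Fin n) (Fin n) K) i j ≠ 0 := by
        by_contra hcon
        push Not at hcon
        exact hne (by ext i j; exact hcon i j)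
      set b := (g : Matrix (Fin n) (Fin n) K) i j with hb
      have hσb : σ b = c * b := by
        have := congrFun (congrFun hg i) j
        simpa using this
      have hfix : ∀ k l, σ (b⁻¹ * (g : Matrix (Fin n) (Fin n) K) k l) =
          b⁻¹ * (g : Matrix (Fin n) (Fin n) K) k l := by
        intro k l
        have h1 : σ ((g : Matrix (Fin n) (Fin n) K) k l) = c * (g : Matrix (Fin n) (Fin n) K) k l := by
          have := congrFun (congrFun hg k) l
          simpa using this
        rw [map_mul, map_inv₀, hσb, h1]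
        field_simp
      let g₁ : Matrix (Fin n) (Fin n) (fixedField σ) := fun k l =>
        ⟨b⁻¹ * (g : Matrix (Fin n) (Fin n) K) k l, hfix k l⟩
      have hg₁ : g₁.map (fixedField σ).subtype = b⁻¹ • (g : Matrix (Fin n) (Fin n) K) := by
        ext k l; rfl
      have hgg : ct hK' (g : Matrix (Fin n) (Fin n) K) * g = 1 := (mem_GU hK' g).mp hgU
      -- `ct g₁ * g₁` is a scalar
      have hbb : (ct hK0 g₁ * g₁).map (fixedField σ).subtype =
          ((b⁻¹) ^ (q + 1)) • (1 : Matrix (Fin n) (Fin n) K) := by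
        rw [Matrix.map_mul, ← hctmap, hg₁, ct_smul, frob_apply, smul_mul_smul_comm, hgg, ← pow_succ]
      obtain ⟨lam, hlam⟩ : ∃ lam : fixedField σ, (lam : K) = (b⁻¹) ^ (q + 1) := by
        refine ⟨(ct hK0 g₁ * g₁) 0 0, ?_⟩
        have h1 := congrFun (congrFun hbb 0) 0
        rw [Matrix.smul_apply, Matrix.one_apply_eq, smul_eq_mul, mul_one] at h1
        exact h1
      have hlam0 : lam ≠ 0 := by
        intro h0
        rw [h0] at hlam
        exact (pow_ne_zero (q + 1) (inv_ne_zero hij)) hlam.symm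
      have hlamq : lam ^ q₀ = lam := by
        apply Subtype.ext
        rw [← hxq, hlam, ← frob_apply hK', pow_succ, map_mul, ← frob_apply hK' b⁻¹, frob_frob,
          mul_comm]
      obtain ⟨a, ha⟩ := H7.QuadExt.exists_norm_eq hK0' hlamq
      have ha0 : a ≠ 0 := by
        rintro rfl
        apply hlam0
        rw [← ha, zero_pow (by omega)]
      have haK : (a : K) ^ (q + 1) = lam := by
        rw [pow_succ, hxq, ← ha, pow_succ]; rfl
      have hg₁1 : ct hK0 g₁ * g₁ = lam • (1 : Matrix (Fin n) (Fin n) (fixedField σ)) := by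
        apply hmapinj
        rw [hbb, ← hlam]
        ext k l
        by_cases hkl : k = l
        · subst hkl; simp
        · simp [hkl]
      have hg₂ : ct hK0 (a⁻¹ • g₁) * (a⁻¹ • g₁) = 1 := by
        rw [ct_smul, frob_apply, smul_mul_smul_comm, hg₁1, smul_smul, ← pow_succ, inv_pow, ha,
          inv_mul_cancel₀ hlam0, one_smul]
      let G₂ : GL (Fin n) (fixedField σ) := ⟨a⁻¹ • g₁, ct hK0 (a⁻¹ • g₁), mul_eq_one_comm.mp hg₂, hg₂⟩
      have haK0 : (a : K) ≠ 0 := fun h => ha0 (Subtype.ext h)
      have hba : (Units.mk0 (b * (a : K)) (mul_ne_zero hij haK0)) ^ (q + 1) = 1 := by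
        apply Units.ext
        rw [Units.val_pow_eq_pow_val, Units.val_mk0, Units.val_one, mul_pow, haK, hlam, ← mul_pow,
          mul_inv_cancel₀ hij, one_pow]
      refine ⟨⟨⟨Units.mk0 (b * (a : K)) (mul_ne_zero hij haK0), (mem_S _).mpr hba⟩,
        ⟨G₂, (mem_GU hK0 G₂).mpr hg₂⟩⟩, ?_⟩
      apply Units.ext
      rw [hfval]
      change (b * (a : K)) • (a⁻¹ • g₁).map (fixedField σ).subtype = _
      have h5 : (a⁻¹ • g₁).map (fixedField σ).subtype = (a : K)⁻¹ • g₁.map (fixedField σ).subtype := by
        ext k l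
        simp
      rw [h5, hg₁, smul_smul, smul_smul]
      have h6 : b * (a : K) * (a : K)⁻¹ * b⁻¹ = 1 := by
        rw [mul_assoc b, mul_inv_cancel₀ haK0, mul_one, mul_inv_cancel₀ hij]
      rw [h6, one_smul]
  have hS : Nat.card {g : ↥(Cfsg.GU n K q) // ∃ c : K, c ≠ 0 ∧
      ((g : GL (Fin n) K) : Matrix (Fin n) (Fin n) K).map σ =
        c • ((g : GL (Fin n) K) : Matrix (Fin n) (Fin n) K)} = Nat.card f.range := by
    apply Nat.card_congr
    exact
      { toFun := fun g => ⟨g.1.1, (hrange _).mpr ⟨g.1.2, g.2⟩⟩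
        invFun := fun g => ⟨⟨g.1, ((hrange _).mp g.2).1⟩, ((hrange _).mp g.2).2⟩
        left_inv := fun g => rfl
        right_inv := fun g => rfl }
  have hker : Nat.card f.ker = q₀ + 1 := by
    have hk : Nat.card f.ker = Nat.card ↥(S (fixedField σ) q₀) := by
      symm
      have hSK : ∀ b : ↥(S (fixedField σ) q₀),
          (Units.map (fixedField σ).subtype.toMonoidHom (b : (fixedField σ)ˣ)) ∈ S K q := by
        intro b
        rw [mem_S]
        apply Units.ext
        rw [Units.val_pow_eq_pow_val, Units.val_one]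
        have h1 : ((b : (fixedField σ)ˣ) : fixedField σ) ^ (q₀ + 1) = 1 := by
          rw [← Units.val_pow_eq_pow_val, (mem_S (b : (fixedField σ)ˣ)).mp b.2, Units.val_one]
        change (((b : (fixedField σ)ˣ) : fixedField σ) : K) ^ (q + 1) = 1
        rw [pow_succ, hxq]
        rw [pow_succ] at h1
        exact congrArg Subtype.val h1
      have hSG : ∀ b : ↥(S (fixedField σ) q₀), (Units.map (algebraMap (fixedField σ)
          (Matrix (Fin n) (Fin n) (fixedField σ))).toMonoidHom (b : (fixedField σ)ˣ)⁻¹) ∈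
          Cfsg.GU n (fixedField σ) q₀ := by
        intro b
        rw [mem_GU hK0]
        change ct hK0 (algebraMap (fixedField σ) (Matrix (Fin n) (Fin n) (fixedField σ))
          (((b : (fixedField σ)ˣ)⁻¹ : (fixedField σ)ˣ) : fixedField σ)) * (algebraMap (fixedField σ)
            (Matrix (Fin n) (Fin n) (fixedField σ))
          (((b : (fixedField σ)ˣ)⁻¹ : (fixedField σ)ˣ) : fixedField σ)) = 1
        have h1 : (((b : (fixedField σ)ˣ)⁻¹ : (fixedField σ)ˣ) : fixedField σ) ^ (q₀ + 1) = 1 := by
          rw [← Units.val_pow_eq_pow_val, inv_pow, (mem_S (b : (fixedField σ)ˣ)).mp b.2, inv_one,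
            Units.val_one]
        rw [Algebra.algebraMap_eq_smul_one, ct_scalar, smul_mul_smul_comm, frob_apply, ← pow_succ, h1,
          one_smul, one_mul]
      apply Nat.card_congr
      refine Equiv.ofBijective (fun b => ⟨(⟨Units.map (fixedField σ).subtype.toMonoidHom
        (b : (fixedField σ)ˣ), hSK b⟩, ⟨Units.map (algebraMap (fixedField σ)
          (Matrix (Fin n) (Fin n) (fixedField σ))).toMonoidHom (b : (fixedField σ)ˣ)⁻¹, hSG b⟩), ?_⟩)
          ⟨?_, ?_⟩
      · rw [MonoidHom.mem_ker]
        apply Units.ext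
        rw [hfval]
        ext i j
        have hb : (((b : (fixedField σ)ˣ) : fixedField σ) : K) ≠ 0 := by
          intro h; exact (b : (fixedField σ)ˣ).ne_zero (Subtype.ext h)
        by_cases hij : i = j
        · subst hij
          simp [Matrix.algebraMap_matrix_apply, hb]
        · simp [Matrix.algebraMap_matrix_apply, hij]
      · intro a b hab
        have h1 := congrArg (fun p => (((p.1.1 : ↥(S K q)) : Kˣ) : K)) hab
        exact Subtype.ext (Units.ext (Subtype.ext h1))
      · rintro ⟨⟨b, g₀⟩, hb⟩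
        rw [MonoidHom.mem_ker] at hb
        have h1 := congrArg (fun g : GL (Fin n) K => (g : Matrix (Fin n) (Fin n) K)) hb
        simp only [hfval] at h1
        have h2 : ∀ i j, ((b : Kˣ) : K) * (((g₀ : GL (Fin n) (fixedField σ)) :
            Matrix (Fin n) (Fin n) (fixedField σ)) i j : K) =
            (1 : Matrix (Fin n) (Fin n) K) i j := by
          intro i j
          rw [← Units.val_one, ← h1]; rfl
        have hb0 : ((b : Kˣ) : K) ≠ 0 := (b : Kˣ).ne_zero
        have h3 : ((b : Kˣ) : K) ∈ fixedField σ := by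
          have h4 := h2 0 0
          rw [Matrix.one_apply_eq] at h4
          have h5 : ((b : Kˣ) : K) = ((((g₀ : GL (Fin n) (fixedField σ)) :
            Matrix (Fin n) (Fin n) (fixedField σ)) 0 0 : fixedField σ) : K)⁻¹ :=
            eq_inv_of_mul_eq_one_left h4
          rw [h5]
          exact inv_mem (SetLike.coe_mem _)
        have hbne : (⟨((b : Kˣ) : K), h3⟩ : fixedField σ) ≠ 0 := by
          intro h; exact hb0 (congrArg Subtype.val h)
        have hbS : (Units.mk0 ⟨((b : Kˣ) : K), h3⟩ hbne) ∈ S (fixedField σ) q₀ := by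
          rw [mem_S]
          apply Units.ext
          apply Subtype.ext
          rw [Units.val_pow_eq_pow_val, Units.val_mk0, Units.val_one]
          have h4 : ((b : Kˣ) : K) ^ (q + 1) = 1 := by
            rw [← Units.val_pow_eq_pow_val, (mem_S (b : Kˣ)).mp b.2, Units.val_one]
          rw [pow_succ] at h4 ⊢
          have h5 := hxq ⟨((b : Kˣ) : K), h3⟩
          change ((b : Kˣ) : K) ^ q = _ at h5
          rw [h5] at h4
          exact h4
        refine ⟨⟨Units.mk0 ⟨((b : Kˣ) : K), h3⟩ hbne, hbS⟩, ?_⟩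
        apply Subtype.ext
        apply Prod.ext
        · apply Subtype.ext
          apply Units.ext; rfl
        · apply Subtype.ext
          apply Units.ext
          ext i j
          have h6 := h2 i j
          have h7 : (((g₀ : GL (Fin n) (fixedField σ)) :
            Matrix (Fin n) (Fin n) (fixedField σ)) i j : K) =
              ((b : Kˣ) : K)⁻¹ * (1 : Matrix (Fin n) (Fin n) K) i j := by
            rw [← h6]; field_simp
          change ((algebraMap (fixedField σ) (Matrix (Fin n) (Fin n) (fixedField σ)) _) i j : K) = _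
          rw [h7, Matrix.algebraMap_matrix_apply]
          by_cases hij : i = j
          · subst hij; simp
          · simp [hij]
    rw [hk, card_S hK0']
  have hcard : Nat.card (↥(S K q) × ↥(Cfsg.GU n (fixedField σ) q₀)) =
      Nat.card f.ker * Nat.card f.range := by
    rw [mul_comm, ← Nat.card_congr (QuotientGroup.quotientKerEquivRange f).toEquiv]
    exact Subgroup.card_eq_card_quotient_mul_card_subgroup f.ker
  rw [Nat.card_prod, card_S hK, hker] at hcard
  rw [hS, ← H49.CardGU.card_GU_int hK0' n, ← Nat.cast_mul]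
  congr 1
  have hdvd : (q₀ + 1) ∣ (q + 1) := by
    rw [hq]
    have := hodd.nat_add_dvd_pow_add_pow q₀ 1
    rwa [one_pow] at this
  obtain ⟨k, hk⟩ := hdvd
  rw [hk] at hcard ⊢
  have hpos : 0 < q₀ + 1 := by omega
  rw [Nat.mul_div_cancel_left _ hpos]
  rw [mul_assoc] at hcard
  exact (Nat.eq_of_mul_eq_mul_left hpos hcard).symm

end Cfsg.Agent.S2677
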