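import Cfsg.Statements.S2678
import Cfsg.Agent.Lib.H49.EmbedSymp
import Cfsg.Agent.Lib.H49.EmbedIsom
import Cfsg.Agent.Lib.H49.QuadraticExt

set_option autoImplicit false
open Cfsg

namespace Cfsg.Agent.S2678

open H49.EmbedSymp H49.EmbedIsom H49.QuadraticExt

/-- Field-extension embedding of symplectic groups: for a field K with q² elements and a field F with q elements there is an injective homomorphism Sp_2a(K) → Sp_4a(F). -/
theorem result {K F : Type*} [Field K] [Fintype K] [Field F] [Fintype F] {q : ℕ} (hK : Fintype.card K = q ^ 2) (hF : Fintype.card F = q) (a : ℕ) : ∃ φ : ↥(Matrix.symplecticGroup (Fin a) K) →* ↥(Matrix.symplecticGroup (Fin (2 * a)) F), Function.Injective φ := by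
  have hK' : Nat.card K = q ^ 2 := by rw [Nat.card_eq_fintype_card, hK]
  have hF' : Nat.card F = q := by rw [Nat.card_eq_fintype_card, hF]
  obtain ⟨i, κ, t, n, hi, hκ, hκadd, hκsmul, hκn⟩ := exists_coord hK' hF'
  let _ : Algebra F K := i.toAlgebra
  let κe : (F × F) ≃ₗ[F] K := LinearEquiv.ofBijective
    { toFun := κ, map_add' := hκadd, map_smul' := fun c x => by
        rw [hκsmul, RingHom.id_apply, Algebra.smul_def]; rfl } hκ
  let τ : K →ₗ[F] F := LinearMap.snd F F F ∘ₗ κe.symm.toLinearMap
  obtain ⟨c₀, hc₀⟩ : ∃ c, τ c ≠ 0 := by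
    refine ⟨κe (0, 1), ?_⟩
    change (κe.symm (κe (0, 1))).2 ≠ 0
    rw [κe.symm_apply_apply]; exact one_ne_zero
  have hfdK : FiniteDimensional F K := κe.finiteDimensional
  have hdK : Module.finrank F K = 2 := by rw [← κe.finrank_eq]; simp
  let B : LinearMap.BilinForm F (Fin a ⊕ Fin a → K) := LinearMap.mk₂ F
    (fun u v => τ (sympForm a K u v))
    (by intro u u' v; rw [H16.Symp.sympForm_add_left, map_add])
    (by
      intro c u v
      have h1 : c • u = (algebraMap F K c) • u := by ext j; simp [Algebra.smul_def]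
      rw [h1, H16.Symp.sympForm_smul_left, ← Algebra.smul_def, map_smul])
    (by intro u v v'; rw [H16.Symp.sympForm_add_right, map_add])
    (by
      intro c u v
      have h1 : c • v = (algebraMap F K c) • v := by ext j; simp [Algebra.smul_def]
      rw [h1, H16.Symp.sympForm_smul_right, ← Algebra.smul_def, map_smul])
  have hBapp : ∀ u v, B u v = τ (sympForm a K u v) := fun u v => rfl
  refine embed_symp B ?_ ?_ (n := 2 * a) ?_ (G := ↥(Matrix.symplecticGroup (Fin a) K))
    ((restrictAct F).comp (Submonoid.subtype (Matrix.symplecticGroup (Fin a) K)).toHomUnits) ?_ ?_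
  · intro u
    rw [hBapp, H16.Symp.sympForm_self, map_zero]
  · intro u hu
    by_contra hne
    obtain ⟨v, hv⟩ : ∃ v, sympForm a K u v ≠ 0 := by
      by_contra hcon
      push Not at hcon
      exact hne (H16.Symp.eq_zero_of_forall_sympForm_right hcon)
    apply hc₀
    have h1 := hu ((c₀ / sympForm a K u v) • v)
    rw [hBapp, H16.Symp.sympForm_smul_right, div_mul_cancel₀ _ hv] at h1
    exact h1
  · rw [Module.finrank_pi_fintype]
    simp only [hdK, Finset.sum_const, Finset.card_univ, Fintype.card_sum, Fintype.card_fin,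
      smul_eq_mul]
    ring
  · intro g h hgh
    have h1 := restrictAct_injective F hgh
    exact Subtype.ext (congrArg Units.val h1)
  · intro g u v
    change τ (sympForm a K ((g : Matrix _ _ K).mulVec u) ((g : Matrix _ _ K).mulVec v)) =
      τ (sympForm a K u v)
    rw [(H16.Symp.mem_symplecticGroup_iff _).1 g.2]

end Cfsg.Agent.S2678
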