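import Cfsg.Statements.S2679
import Cfsg.Agent.Lib.H49.BaseChange
import Cfsg.Agent.Lib.H49.QuadraticExt2
import Cfsg.Agent.Lib.H49.QuadSum

set_option autoImplicit false
open Cfsg

namespace Cfsg.Agent.S2679

open H49.QuadraticExt H49.QuadraticExt2 H49.BaseChange H48.QuadStd H48.QuadSplit H49.QuadSum Polynomial in
theorem exists_root_ext {F K : Type*} [Field F] [Finite F] [Field K] [Finite K] {q : ℕ}
    (hF : Nat.card F = q) (hK : Nat.card K = q ^ 2) (i : F →+* K) (a c : F)
    (hac : ∀ z₁ z₂ : F, z₁ ^ 2 + a * z₁ * z₂ + c * z₂ ^ 2 = 0 → z₁ = 0 ∧ z₂ = 0) :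
    ∃ α : K, α ^ 2 + i a * α + i c = 0 := by
  let _ : Algebra F K := i.toAlgebra
  let p : F[X] := X ^ 2 + C a * X + C c
  have hdeg : p.natDegree = 2 := by
    have : p = C 1 * X ^ 2 + C a * X + C c := by simp [p]
    rw [this]; exact natDegree_quadratic one_ne_zero
  have hirr : Irreducible p := by
    apply Polynomial.irreducible_of_degree_le_three_of_not_isRoot
    · rw [hdeg]; decide
    · intro x hx
      have h1 : x ^ 2 + a * x + c = 0 := by simpa [p] using hx
      have h2 := hac x 1 (by rw [mul_one, one_pow, mul_one]; exact h1)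
      exact one_ne_zero h2.2
  have : Fact (Irreducible p) := ⟨hirr⟩
  have hq : 2 ≤ q := H49.Unitary.two_le hK
  have h1 : Module.finrank F (AdjoinRoot p) = 2 := by
    rw [(AdjoinRoot.powerBasis hirr.ne_zero).finrank, AdjoinRoot.powerBasis_dim, hdeg]
  obtain ⟨f⟩ := FiniteField.nonempty_algHom_of_finrank_dvd (F := F) (K := AdjoinRoot p) (L := K)
    (by rw [h1, finrank_eq_two hK hF hq])
  refine ⟨f (AdjoinRoot.root p), ?_⟩
  have h3 : (AdjoinRoot.root p) ^ 2 + algebraMap F (AdjoinRoot p) a * AdjoinRoot.root p +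
      algebraMap F (AdjoinRoot p) c = 0 := by
    have h4 := AdjoinRoot.eval₂_root p
    simpa [p, eval₂_add, eval₂_mul, eval₂_pow] using h4
  have h5 := congrArg f h3
  rw [map_add, map_add, map_mul, map_pow, map_zero, f.commutes, f.commutes] at h5
  exact h5

/-- An elliptic orthogonal group embeds in the hyperbolic orthogonal group of the same dimension over the quadratic extension: for a field F with q elements and a field K with q² elements there is an injective homomorphism from O⁻_2m(F) (isometries of Σ_(j<m−1) x_j y_j + z₁² + a z₁z₂ + c z₂², binary part anisotropic) to O⁺_2m(K) (isometries of Σ_(j<m) x_j y_j over K). -/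
theorem result {F K : Type*} [Field F] [Fintype F] [Field K] [Fintype K] {q : ℕ} (hF : Fintype.card F = q) (hK : Fintype.card K = q ^ 2) {m : ℕ} (hm : 1 ≤ m) (a c : F) (hac : ∀ z₁ z₂ : F, z₁ ^ 2 + a * z₁ * z₂ + c * z₂ ^ 2 = 0 → z₁ = 0 ∧ z₂ = 0) : ∃ φ : ↥(Cfsg.isometryGroup F (Cfsg.quadFormMinus (m - 1) F a c)) →* ↥(Cfsg.isometryGroup K (Cfsg.quadFormPlus m K)), Function.Injective φ := by

  have hK' : Nat.card K = q ^ 2 := by rw [Nat.card_eq_fintype_card, hK]
  have hF' : Nat.card F = q := by rw [Nat.card_eq_fintype_card, hF]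
  obtain ⟨i, hi⟩ := H49.QuadraticExt.exists_embed hK' hF'
  obtain ⟨α, hα⟩ := exists_root_ext hF' hK' i a c hac
  obtain ⟨k, rfl⟩ : ∃ k, m = k + 1 := ⟨m - 1, by omega⟩
  rw [Nat.add_sub_cancel, ← H48.QuadStd.coe_qMinus, ← H48.QuadStd.coe_qPlus]
  refine H49.BaseChange.embed_baseChange i (H48.QuadStd.qMinus k F a c)
    (H48.QuadStd.qMinus k K (i a) (i c)) ?_ (H48.QuadStd.qPlus (k + 1) K) ?_
  · intro v
    rw [H48.QuadStd.qMinus_apply, H48.QuadStd.qMinus_apply]
    simp only [map_add, map_sum, map_mul, map_pow]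
  · have hnd : H48.QuadSplit.ND (H48.QuadStd.qBin (i a) (i c)) := by
      apply H48.QuadStd.nd_qBin
      have h1 := H48.QuadStd.disc_ne_zero hac
      have h2 : 4 * i c - i a ^ 2 = i (4 * c - a ^ 2) := by
        rw [map_sub, map_mul, map_pow, map_ofNat]
      rw [h2, map_ne_zero]; exact h1
    have hbin : (H48.QuadStd.qBin (i a) (i c)).Equivalent (H48.QuadSplit.hyp K) := by
      refine H49.QuadSum.iso_equiv_hyp hnd (by simp) (v := (α, 1)) (by simp) ?_
      rw [H48.QuadStd.qBin_apply]
      linear_combination hα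
    exact (H48.QuadStd.qMinus_equiv k (i a) (i c)).trans
      (((QuadraticMap.Equivalent.refl _).prod hbin).trans
        ((H48.QuadStd.prod_comm_equiv _ _).trans (H48.QuadStd.qPlus_succ k).symm))

end Cfsg.Agent.S2679
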