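import Cfsg.Statements.S2689
import Cfsg.Agent.Lib.H50.AutPSL2

set_option autoImplicit false
open Cfsg

namespace Cfsg.Agent.S2689

/-- The automorphism group of a simple projective special linear group PSL_n(F) over a finite field (n ≥ 2; |F| ≥ 4 when n = 2) is generated by the automorphisms induced by invertible semilinear maps of F^n (the image of the projective semilinear group) together with the inverse-transpose automorphism. -/
theorem result {F : Type*} [Field F] [Fintype F] {p f : ℕ} [Fact p.Prime] (hF : Fintype.card F = p ^ f) (hf : 1 ≤ f) {n : ℕ} (hn : 2 ≤ n) (hs : n = 2 → 4 ≤ Fintype.card F) :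
    Cfsg.gammaPSL n F ⊔ Cfsg.autSubgroupOf (fun β : Matrix.ProjectiveSpecialLinearGroup (Fin n) F ≃* Matrix.ProjectiveSpecialLinearGroup (Fin n) F => Cfsg.IsInverseTransposeAutPSL β) = ⊤ := by
  have hchar : CharP F p := by
    have h1 : Nat.card F = p ^ f := by rw [Nat.card_eq_fintype_card, hF]
    obtain ⟨p', hp'⟩ := CharP.exists F
    obtain ⟨k, hk, hk'⟩ := FiniteField.card F p'
    rw [hF] at hk'
    have h2 : p = p' := by
      have h3 : p ∣ p' ^ (k : ℕ) := by rw [← hk']; exact dvd_pow_self p (by omega)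
      exact (Nat.prime_dvd_prime_iff_eq Fact.out hk).mp ((Fact.out : p.Prime).dvd_of_dvd_pow h3)
    rw [h2]; exact hp'
  rw [eq_top_iff]
  intro α _
  obtain ⟨g, σ, h⟩ := H50.AutPSL2.aut_psl (p := p) hn α
  have hψ : H50.PSLBasic.psi g σ ∈ Cfsg.gammaPSL n F :=
    Subgroup.subset_closure ⟨g, σ, (H50.PSLBasic.isInduced_iff g σ _).mpr rfl⟩
  rcases h with rfl | ⟨-, rfl⟩
  · exact Subgroup.mem_sup_left hψ
  · refine Subgroup.mul_mem _ (Subgroup.mem_sup_left hψ) (Subgroup.mem_sup_right ?_)
    exact Subgroup.subset_closure ((H50.PSLBasic.isInvTr_iff _).mpr rfl)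

end Cfsg.Agent.S2689
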