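import Cfsg.Statements.S2690
import Cfsg.Agent.Lib.H50.AutPSL2

set_option autoImplicit false
open Cfsg

namespace Cfsg.Agent.S2690

/-- Every automorphism of a simple projective special linear group PSL_n(F) over a finite field (n ≥ 2; |F| ≥ 4 when n = 2) is a product δ φ γ of an inner-diagonal automorphism δ (induced by an invertible matrix), a standard field automorphism φ (one automorphism of F applied to every entry, possibly the identity) and γ either the identity or the inverse-transpose automorphism. -/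
theorem result {F : Type*} [Field F] [Fintype F] {p f : ℕ} [Fact p.Prime] (hF : Fintype.card F = p ^ f) (hf : 1 ≤ f) {n : ℕ} (hn : 2 ≤ n) (hs : n = 2 → 4 ≤ Fintype.card F) (β : MulAut (Matrix.ProjectiveSpecialLinearGroup (Fin n) F)) :
    ∃ (δ φ γ : MulAut (Matrix.ProjectiveSpecialLinearGroup (Fin n) F)) (σ : F ≃+* F), Cfsg.IsInnerDiagonalAutPSL δ ∧ Cfsg.IsStdFieldAutPSL σ φ ∧ (γ = 1 ∨ Cfsg.IsInverseTransposeAutPSL γ) ∧ β = δ * φ * γ := by
  have hchar : CharP F p := by
    have h1 : Nat.card F = p ^ f := by rw [Nat.card_eq_fintype_card, hF]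
    obtain ⟨p', hp'⟩ := CharP.exists F
    obtain ⟨k, hk, hk'⟩ := FiniteField.card F p'
    rw [hF] at hk'
    have h2 : p = p' := by
      have h3 : p ∣ p' ^ (k : ℕ) := by rw [← hk']; exact dvd_pow_self p (by omega)
      exact (Nat.prime_dvd_prime_iff_eq Fact.out hk).mp ((Fact.out : p.Prime).dvd_of_dvd_pow h3)
    rw [h2]; exact hp'
  obtain ⟨g, σ, h⟩ := H50.AutPSL2.aut_psl (p := p) hn β
  have hψ : H50.PSLBasic.psi g σ = H50.PSLBasic.psi g (RingEquiv.refl F) * H50.PSLBasic.psi 1 σ := by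
    rw [H50.PSLBasic.psi_mul, map_one, mul_one]
    rfl
  refine ⟨H50.PSLBasic.psi g (RingEquiv.refl F), H50.PSLBasic.psi 1 σ, ?_⟩
  rcases h with h | ⟨-, h⟩
  · exact ⟨1, σ, (H50.PSLBasic.isInnerDiagonal_iff _).mpr ⟨g, rfl⟩, (H50.PSLBasic.isStdField_iff σ _).mpr rfl,
      Or.inl rfl, by rw [mul_one, h, hψ]⟩
  · exact ⟨H50.PSLBasic.iota, σ, (H50.PSLBasic.isInnerDiagonal_iff _).mpr ⟨g, rfl⟩,
      (H50.PSLBasic.isStdField_iff σ _).mpr rfl, Or.inr ((H50.PSLBasic.isInvTr_iff _).mpr rfl), by rw [h, hψ]⟩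

end Cfsg.Agent.S2690
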