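import Cfsg.Statements.S2698
import Cfsg.Agent.Lib.H50.PSLCount

set_option autoImplicit false
open Cfsg

namespace Cfsg.Agent.S2698

/-- Let T = PSL_n(F) be simple over the field F with p^f elements (n ≥ 2; p^f ≥ 4 when n = 2), G = Inndiag(T) the image of PGL_n(F) in Aut(T), and x a field automorphism of T of prime order r. Then r divides f; the centralizer C_G(x) is isomorphic to PGL_n(F₀) for the subfield size |F₀| = p^(f/r); and the G-class of x is the union of exactly gcd(n, (p^f − 1)/(p^(f/r) − 1)) classes under conjugation by T (the inner automorphism group). -/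
theorem result {F : Type*} [Field F] [Fintype F] {p f : ℕ} [Fact p.Prime] (hF : Fintype.card F = p ^ f) (hf : 1 ≤ f) {n : ℕ} (hn : 2 ≤ n) (hs : n = 2 → 4 ≤ Fintype.card F) (x : MulAut (Matrix.ProjectiveSpecialLinearGroup (Fin n) F)) (hx : Cfsg.IsFieldAutClassPSL x) {r : ℕ} (hr : r.Prime) (hxr : orderOf x = r) (F₀ : Type*) [Field F₀] [Fintype F₀] (hF₀ : Fintype.card F₀ = p ^ (f / r)) :
    r ∣ f ∧ Nonempty (↥(Cfsg.inndiagPSL n F ⊓ Subgroup.centralizer {x}) ≃* Matrix.ProjGenLinGroup (Fin n) F₀) ∧ Cfsg.splitClassCount (Cfsg.inndiagPSL n F) (Cfsg.Inn (Matrix.ProjectiveSpecialLinearGroup (Fin n) F)) x = Nat.gcd n ((p ^ f - 1) / (p ^ (f / r) - 1)) := by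
  have hFn : Nat.card F = p ^ f := by rw [Nat.card_eq_fintype_card, hF]
  have hchar : CharP F p := H50.FieldAut.charP_of_card p hFn
  have hnt : Nontrivial (Fin n) := Fin.nontrivial_iff_two_le.mpr hn
  have hnorm := H50.PSLField.inndiag_normal (F := F) p hn
  obtain ⟨α, σ, hσ, hα⟩ := H50.PSLFieldClass.fieldClass_iff.mp hx
  have hσr : orderOf σ = r := by
    rw [← H50.PSLField.orderOf_psi_std (ι := Fin n), ← hα, H50.ClassCount.orderOf_conj, hxr]
  have hrf : r ∣ f := by
    rw [← hσr, ← H50.FieldAut.card_ringAut p hFn]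
    exact orderOf_dvd_natCard σ
  have hfix : Nat.card (H49.FixedField.fixedField σ) = p ^ (f / r) :=
    H49.FixedField.card_fixedField σ hr.ne_zero (by rw [hFn, ← pow_mul, Nat.div_mul_cancel hrf]) hσr
  refine ⟨hrf, ?_, ?_⟩
  · obtain ⟨e⟩ := H50.PSLCount.centralizer_std (F₀ := F₀) hn hσr hr.pos
      (by rw [Nat.card_eq_fintype_card, hF₀, hfix])
    have e' := H50.ClassCount.centralizerConj (Cfsg.inndiagPSL n F) α x
    rw [hα] at e'
    exact ⟨e'.symm.trans e⟩
  · rw [← H50.ClassCount.splitClassCount_conj _ _ α x, hα, H50.PSLCount.splitClassCount_field hn hσr hr.pos,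
      hFn, hfix]

end Cfsg.Agent.S2698
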