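import Mathlib
import Cfsg.Statements.S2703
import Cfsg.Agent.Lib.H6.GrPSL

set_option autoImplicit false
open Cfsg

namespace Cfsg.Agent.S2703

/-- Let T = PSL_n(F) over the field with q elements, q odd, n = 2m ≥ 4 even, and ι the inverse-transpose automorphism. Its centralizer in G = Inndiag(T) (the image of PGL_n(F)) is isomorphic to the projective conformal orthogonal group of the plus-type form Σ xᵢ yᵢ in dimension n when n(q − 1)/4 is even, and to that of a minus-type form (Σ xᵢ yᵢ + z₁² + a z₁ z₂ + b z₂² with anisotropic binary part) when n(q − 1)/4 is odd. -/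
theorem result {F : Type*} [Field F] [Fintype F] (hodd : Odd (Fintype.card F)) {n m : ℕ} (hm : 2 ≤ m) (hnm : n = 2 * m) (ι : MulAut (Matrix.ProjectiveSpecialLinearGroup (Fin n) F)) (hι : Cfsg.IsInverseTransposeAutPSL ι) :
    (Even (n * (Fintype.card F - 1) / 4) → Nonempty (↥(Cfsg.inndiagPSL n F ⊓ Subgroup.centralizer {ι}) ≃* Cfsg.PGO F (Cfsg.quadFormPlus m F))) ∧ (¬ Even (n * (Fintype.card F - 1) / 4) → ∃ a b : F, (∀ z₁ z₂ : F, z₁ ^ 2 + a * z₁ * z₂ + b * z₂ ^ 2 = 0 → z₁ = 0 ∧ z₂ = 0) ∧ Nonempty (↥(Cfsg.inndiagPSL n F ⊓ Subgroup.centralizer {ι}) ≃* Cfsg.PGO F (Cfsg.quadFormMinus (m - 1) F a b))) := by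
  have h2 : (2 : F) ≠ 0 := H48.FinFieldSq.two_ne_zero_iff_odd_card.mpr (by rwa [Nat.card_eq_fintype_card])
  have hR : H6.GrPSL.R ι (1 : Matrix (Fin n) (Fin n) F) := by
    refine ⟨1, ?_, by simp, Or.inl (by simp)⟩
    rw [(H50.PSLBasic.isInvTr_iff ι).mp hι]
    have h1 : H50.PSLBasic.psi (1 : Matrix.GeneralLinearGroup (Fin n) F) 1 = 1 := H50.PSLBasic.psi_one
    rw [h1, one_mul]
  have key := H48.FinFieldSq.isSquare_neg_one_pow_iff (F := F) (q := Fintype.card F) Nat.card_eq_fintype_card hodd m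
  have hdiv : n * (Fintype.card F - 1) / 4 = m * (Fintype.card F - 1) / 2 := by
    rw [hnm, mul_assoc]
    exact Nat.mul_div_mul_left _ 2 (by norm_num : 0 < 2)
  rw [hdiv, ← key]
  exact H6.GrDict.one_case (H6.GrPSL.dict (F := F) (n := n) (by omega)) h2 (by omega) hnm hR

end Cfsg.Agent.S2703
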