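import Cfsg.Statements.S2704
import Cfsg.Agent.Lib.H50.PSLGraphField

set_option autoImplicit false
open Cfsg

namespace Cfsg.Agent.S2704

/-- Let T = PSL_n(F) over the field F with p^f elements, n ≥ 3, and G = Inndiag(T) the image of PGL_n(F). If x is an involutory graph-field automorphism of T then f is even; x is G-conjugate to every other involutory graph-field automorphism; C_G(x) is isomorphic to the projective general unitary group PGU_n(q₀) with q₀² = p^f, realised over F itself through the Hermitian form Σ uᵢ vᵢ^{q₀}; and the G-class of x is the union of exactly gcd(n, q₀ − 1) T-classes. -/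
theorem result {F : Type*} [Field F] [Fintype F] {p f : ℕ} [Fact p.Prime] (hF : Fintype.card F = p ^ f) (hf : 1 ≤ f) {n : ℕ} (hn : 3 ≤ n) (x : MulAut (Matrix.ProjectiveSpecialLinearGroup (Fin n) F)) (hx : Cfsg.IsGraphFieldAutClassPSL x) (hx2 : orderOf x = 2) :
    Even f ∧ (∀ y : MulAut (Matrix.ProjectiveSpecialLinearGroup (Fin n) F), Cfsg.IsGraphFieldAutClassPSL y → orderOf y = 2 → Cfsg.IsConjUnder (Cfsg.inndiagPSL n F) x y) ∧ Nonempty (↥(Cfsg.inndiagPSL n F ⊓ Subgroup.centralizer {x}) ≃* Cfsg.PGU n F (p ^ (f / 2))) ∧ Cfsg.splitClassCount (Cfsg.inndiagPSL n F) (Cfsg.Inn (Matrix.ProjectiveSpecialLinearGroup (Fin n) F)) x = Nat.gcd n (p ^ (f / 2) - 1) := by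
  have hFn : Nat.card F = p ^ f := by rw [Nat.card_eq_fintype_card, hF]
  have hchar : CharP F p := H50.FieldAut.charP_of_card p hFn
  have hnt : Nontrivial (Fin n) := Fin.nontrivial_iff_two_le.mpr (by omega)
  have hnorm := H50.PSLField.inndiag_normal (F := F) p (n := n) (by omega)
  obtain ⟨σ, hσ, -, h, hh⟩ := H50.PSLGraphField.conj_std p x hx hx2
  obtain ⟨hf2, hσq⟩ := H50.FieldAut2.order_two p hFn hσ
  have hfix : Nat.card (H49.FixedField.fixedField σ) = p ^ (f / 2) :=
    H49.FixedField.card_fixedField σ (by norm_num) (by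
      rw [hFn, ← pow_mul]; congr 1; obtain ⟨k, hk⟩ := hf2; omega) hσ
  refine ⟨hf2, ?_, ?_, ?_⟩
  · intro y hy hy2
    obtain ⟨τ, hτ, -, k, hk⟩ := H50.PSLGraphField.conj_std p y hy hy2
    rw [H50.FieldAut2.unique_order_two hτ hσ] at hk
    refine ⟨H50.PSLBasic.psi k 1 * (H50.PSLBasic.psi h 1)⁻¹, ?_, ?_⟩
    · exact Subgroup.mul_mem _ (H50.PSLUniq.mem_inndiag_iff.mpr ⟨k, rfl⟩)
        (Subgroup.inv_mem _ (H50.PSLUniq.mem_inndiag_iff.mpr ⟨h, rfl⟩))
    · rw [hk, hh]; group
  · obtain ⟨e⟩ := H50.PSLGraphField.centralizer_gf hn hσ hσq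
    have e' := H50.ClassCount.centralizerConj (Cfsg.inndiagPSL n F) (H50.PSLBasic.psi h 1)
      (H50.PSLBasic.psi 1 σ * H50.PSLBasic.iota)
    rw [← hh] at e'
    exact ⟨e'.trans e⟩
  · rw [hh, H50.ClassCount.splitClassCount_conj, H50.PSLGraphField.splitClassCount_gf hn hσ, hfix]

end Cfsg.Agent.S2704
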