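import Mathlib
import Cfsg.Statements.S2710
import Cfsg.Agent.Lib.H6.GrPSU3

set_option autoImplicit false
open Cfsg

namespace Cfsg.Agent.S2710

/-- Let T = PSU_n(q) with n ≥ 4 divisible by 4 (n = 2m) and q odd, realised over the field F with q² elements, G = Inndiag(T) the image of PGU_n(q), and φ the standard field automorphism of T attached to the q-th power map of F (it induces inverse-transpose on the unitary matrices and is a graph automorphism). Its centralizer in G is isomorphic to the projective conformal orthogonal group of the plus-type form Σ xᵢ yᵢ in dimension n over a field F₀ with q elements. (Dimensions n ≡ 2 (mod 4) are not covered.) -/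
theorem result {F : Type*} [Field F] [Fintype F] {q : ℕ} (hodd : Odd q) (hF : Fintype.card F = q ^ 2) {n m : ℕ} (hm : 2 ≤ m) (hnm : n = 2 * m) (h4 : 4 ∣ n) (F₀ : Type*) [Field F₀] [Fintype F₀] (hF₀ : Fintype.card F₀ = q) (σ : F ≃+* F) (hσ : ∀ a : F, σ a = a ^ q) (φ : MulAut (Cfsg.PSU n F q)) (hφ : Cfsg.IsFieldAutPSUOf σ φ) :
    Nonempty (↥(Cfsg.inndiagPSU n F q ⊓ Subgroup.centralizer {φ}) ≃* Cfsg.PGO F₀ (Cfsg.quadFormPlus m F₀)) := by

  have h2 : (2 : F₀) ≠ 0 :=
    H48.FinFieldSq.two_ne_zero_iff_odd_card.mpr (by rwa [Nat.card_eq_fintype_card, hF₀])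
  obtain ⟨j, hj⟩ := H6.GrPSU.exists_j hF hF₀
  have hσ' : σ = H6.PSUNorm.bar hF := by
    ext x
    rw [hσ, H6.PSUNorm.bar_apply]
  subst hσ'
  have hR : H6.GrPSU.R hF j φ (1 : Matrix (Fin n) (Fin n) F₀) := by
    refine ⟨1, 1, 1, 1, ⟨(Cfsg.GU n F q).one_mem, ?_, ?_, ?_, Or.inl (by simp)⟩, ?_⟩
    · simp
    · rw [H6.GrPSU.herm_one]
      ext i l
      by_cases h : i = l <;> simp [h, Matrix.one_apply]
    · simp
    · exact (H6.PSUBasic.isFieldAutOf_iff _ _).mp hφ
  refine (H6.GrDict.one_case (H6.GrPSU.dict (F := F) (n := n) hF (by omega) hj) h2 (by omega) hnm hR).1 ?_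
  obtain ⟨l, hl⟩ := h4
  obtain rfl : m = 2 * l := by omega
  rw [pow_mul, neg_one_sq, one_pow]
  exact IsSquare.one

end Cfsg.Agent.S2710
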