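import Cfsg.Statements.S2712
import Cfsg.Agent.Lib.H50.SpFieldClass

set_option autoImplicit false
open Cfsg

namespace Cfsg.Agent.S2712

/-- Let T = PSp_{2m}(F) be simple over the field F with p^f elements (m ≥ 2, (2m, |F|) ≠ (4, 2)), G = Inndiag(T) the image of the projective conformal symplectic group PGSp_{2m}(F), and x a field automorphism of T of prime order r. Then r divides f; C_G(x) is isomorphic to PGSp_{2m}(F₀) for a field F₀ with p^(f/r) elements; and the G-class of x is the union of exactly gcd(gcd(2, p^f − 1), r) T-classes. -/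
theorem result {F : Type*} [Field F] [Fintype F] {p f : ℕ} [Fact p.Prime] (hF : Fintype.card F = p ^ f) (hf : 1 ≤ f) {m : ℕ} (hm : 2 ≤ m) (hs : m = 2 → 3 ≤ Fintype.card F) (x : MulAut (Cfsg.PSp m F)) (hx : Cfsg.IsFieldAutClassPSp x) {r : ℕ} (hr : r.Prime) (hxr : orderOf x = r) (F₀ : Type*) [Field F₀] [Fintype F₀] (hF₀ : Fintype.card F₀ = p ^ (f / r)) :
    r ∣ f ∧ Nonempty (↥(Cfsg.inndiagPSp m F ⊓ Subgroup.centralizer {x}) ≃* Cfsg.PGSp m F₀) ∧ Cfsg.splitClassCount (Cfsg.inndiagPSp m F) (Cfsg.Inn (Cfsg.PSp m F)) x = Nat.gcd (Nat.gcd 2 (p ^ f - 1)) r := by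
  have hFn : Nat.card F = p ^ f := by rw [Nat.card_eq_fintype_card, hF]
  have hchar : CharP F p := H50.FieldAut.charP_of_card p hFn
  obtain ⟨α, σ, hσ, hα⟩ := H50.SpFieldClass.fieldClass_iff.mp hx
  have hσr : orderOf σ = r := by
    rw [← H50.SpFieldClass.orderOf_psiSp_std hm, ← hα, H50.ClassCount.orderOf_conj, hxr]
  have hrf : r ∣ f := by
    rw [← hσr, ← H50.FieldAut.card_ringAut p hFn]
    exact orderOf_dvd_natCard σ
  have hfix : Nat.card (H49.FixedField.fixedField σ) = p ^ (f / r) :=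
    H49.FixedField.card_fixedField σ hr.ne_zero (by rw [hFn, ← pow_mul, Nat.div_mul_cancel hrf]) hσr
  have hnorm := H50.SpFieldClass.inndiag_normal (m := m) (F := F) p hm
  refine ⟨hrf, ?_, ?_⟩
  · obtain ⟨e⟩ := H50.SpFieldClass.centralizer_std (F₀ := F₀) hm hσr hr.pos
      (by rw [Nat.card_eq_fintype_card, hF₀, hfix])
    have e' := H50.ClassCount.centralizerConj (Cfsg.inndiagPSp m F) α x
    rw [hα] at e'
    exact ⟨e'.symm.trans e⟩
  · rw [← H50.ClassCount.splitClassCount_conj _ _ α x, hα, H50.SpFieldClass.splitClassCount_field hm hσr hr.pos,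
      hFn, hfix]
    have hp : 2 ≤ p := (Fact.out : p.Prime).two_le
    have hq : 2 ≤ p ^ (f / r) := by
      have : f / r ≠ 0 := by
        have := Nat.div_mul_cancel hrf
        intro h0
        rw [h0] at this
        omega
      calc 2 ≤ p := hp
        _ = p ^ 1 := (pow_one p).symm
        _ ≤ p ^ (f / r) := Nat.pow_le_pow_right (by omega) (Nat.one_le_iff_ne_zero.mpr this)
    have hf' : p ^ f = (p ^ (f / r)) ^ r := by rw [← pow_mul, Nat.div_mul_cancel hrf]
    rw [hf']
    generalize p ^ (f / r) = q at hq ⊢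
    have hsum : (q ^ r - 1) / (q - 1) = ∑ i ∈ Finset.range r, q ^ i := by
      have h1 := Nat.geomSum_eq hq r
      exact h1.symm
    rw [hsum]
    have hr1 : 1 ≤ r := hr.one_lt.le
    rcases Nat.even_or_odd q with he | ho
    · have h1 : (∑ i ∈ Finset.range r, q ^ i) % 2 = 1 := by
        obtain ⟨k, rfl⟩ : ∃ k, r = k + 1 := ⟨r - 1, by omega⟩
        rw [Finset.sum_range_succ']
        have h2 : 2 ∣ ∑ i ∈ Finset.range k, q ^ (i + 1) :=
          Finset.dvd_sum (fun i _ => Dvd.dvd.pow he.two_dvd (by omega) |>.trans (dvd_refl _))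
        rw [pow_zero]
        omega
      have h3 : (q ^ r - 1) % 2 = 1 := by
        have h4 : 2 ∣ q ^ r := Dvd.dvd.pow he.two_dvd (by omega)
        have h5 : 0 < q ^ r := by positivity
        omega
      have h6 : Nat.gcd 2 (∑ i ∈ Finset.range r, q ^ i) = 1 := by
        rw [Nat.gcd_rec, h1, Nat.gcd_one_left]
      have h7 : Nat.gcd 2 (q ^ r - 1) = 1 := by
        rw [Nat.gcd_rec, h3, Nat.gcd_one_left]
      rw [h6, h7, Nat.gcd_one_left]
    · have h1 : (∑ i ∈ Finset.range r, q ^ i) % 2 = r % 2 := by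
        have : ∀ k, (∑ i ∈ Finset.range k, q ^ i) % 2 = k % 2 := by
          intro k
          induction k with
          | zero => rfl
          | succ k ih =>
            rw [Finset.sum_range_succ, Nat.add_mod, ih]
            have : q ^ k % 2 = 1 := Nat.odd_iff.mp (ho.pow)
            rw [this]
            omega
        exact this r
      have h3 : (q ^ r - 1) % 2 = 0 := by
        have : q ^ r % 2 = 1 := Nat.odd_iff.mp (ho.pow)
        omega
      have h7 : Nat.gcd 2 (q ^ r - 1) = 2 := Nat.gcd_eq_left (Nat.dvd_of_mod_eq_zero h3)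
      rw [h7, Nat.gcd_rec 2, h1, ← Nat.gcd_rec]

end Cfsg.Agent.S2712
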