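import Cfsg.Statements.S2723
import Cfsg.Agent.Lib.H48.Pgo6

set_option autoImplicit false
open Cfsg

namespace Cfsg.Agent.S2723


theorem result {F : Type*} [Field F] [Fintype F] (hodd : Odd (Fintype.card F)) {m : ℕ} (hm : 4 ≤ m) :
    ((Odd m ∧ Fintype.card F % 4 = 3) → (Cfsg.Inn (Cfsg.POmega F (Cfsg.quadFormPlus m F))).relIndex (Cfsg.psoAut F (Cfsg.quadFormPlus m F)) = 1) ∧ (¬ (Odd m ∧ Fintype.card F % 4 = 3) → (Cfsg.Inn (Cfsg.POmega F (Cfsg.quadFormPlus m F))).relIndex (Cfsg.psoAut F (Cfsg.quadFormPlus m F)) = 2) := by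
  rw [← H48.QuadStd.coe_qPlus]
  exact H48.Pgo.fin_S2723 hodd hm


end Cfsg.Agent.S2723
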