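import Cfsg.Statements.S2726
import Cfsg.Agent.Lib.H48.Pgo6

set_option autoImplicit false
open Cfsg

namespace Cfsg.Agent.S2726


theorem result {F : Type*} [Field F] [Fintype F] (hodd : Odd (Fintype.card F)) {m : ℕ} (hm : 3 ≤ m) (a b : F) (hab : (∀ z₁ z₂ : F, z₁ ^ 2 + a * z₁ * z₂ + b * z₂ ^ 2 = 0 → z₁ = 0 ∧ z₂ = 0)) :
    (∃ φ : ↥(Cfsg.pgoAut F (Cfsg.quadFormMinus m F a b)) →* Multiplicative (ZMod 2 × ZMod 2), Function.Surjective φ ∧ φ.ker = (Cfsg.psoAut F (Cfsg.quadFormMinus m F a b)).subgroupOf (Cfsg.pgoAut F (Cfsg.quadFormMinus m F a b))) := by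
  rw [← H48.QuadStd.coe_qMinus]
  exact H48.Pgo.fin_S2726 hodd hm hab


end Cfsg.Agent.S2726
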