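import Cfsg.Statements.S2734
-- import your own Cfsg.Agent.* helpers here
import Cfsg.Agent.Lib.H47.FoldD4
import Cfsg.Agent.Lib.H47.GraphAut

set_option autoImplicit false
open Cfsg

namespace Cfsg.Agent.S2734

open Cfsg.Lie H22.St H22.TwChev H22.TwSt H22.TwD4 H22.RGD H47.GraphAut H47.FoldD4

theorem longD4 : ∀ i j : Fin 4, (chevD4.isLong (chevD4.simple j) && !chevD4.isLong (chevD4.simple i)) = false := by
  decide +kernel

/-- the bonds -/
def bt4 : List (List ℤ) := [[4,1,0,0],[1,4,1,1],[0,1,4,0],[0,1,0,4]]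

theorem bt4_eq : ∀ i j : Fin 4, chevD4.bonds i j = (bt4.getD i []).getD j 0 := by decide +kernel

/-- the symmetry -/
def c4 : Equiv.Perm (Fin 4) where
  toFun := ![2, 1, 3, 0]
  invFun := ![3, 1, 0, 2]
  left_inv := by decide
  right_inv := by decide

theorem symD4 : ∀ π : Equiv.Perm (Fin 4),
    (∀ i j : Fin 4, i ≠ j → (bt4.getD (π i) []).getD (π j) 0 = (bt4.getD i []).getD j 0) →
    π = c4 ∨ π * π = c4 ∨ π * π = 1 := by
  decide +kernel

theorem symD4' (π : Equiv.Perm (Fin chevD4.rank)) (h : chevD4.IsDiagramSymmetry π) :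
    π = (c4 : Equiv.Perm (Fin 4)) ∨ π * π = (c4 : Equiv.Perm (Fin 4)) ∨ π * π = 1 := by
  refine symD4 π fun i j hij => ?_
  exact (bt4_eq (π i) (π j)).symm.trans ((h i j hij).trans (bt4_eq i j))

variable {F : Type*} [Field F] [Finite F]

theorem πA : (A (RR F) (hm F) (RingHom.id F) (sid F)).π = (c4 : Equiv.Perm (Fin 4)) := by
  have : ∀ i : Fin 4, (A (RR F) (hm F) (RingHom.id F) (sid F)).π i = c4 i := by
    intro i
    fin_cases i <;> rfl
  exact Equiv.ext this

theorem key (τ : MulAut ↥(Cfsg.Lie.chevD4.group F))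
    (hτ : Cfsg.Lie.chevD4.IsGraphAut τ) (hτ3 : orderOf τ = 3) :
    MonoidHom.eqLocus τ.toMonoidHom (MonoidHom.id ↥(Cfsg.Lie.chevD4.group F)) = fx (TT F).σ := by
  have hA : Acts (RR F) H22.PoinD4.rcxD4 (hm F) (TT F).σ (c4 : Equiv.Perm (Fin 4)) := by
    have := of_Gr (A (RR F) (hm F) (RingHom.id F) (sid F)) (fun r t => rfl)
    rw [πA] at this
    exact this
  obtain ⟨π, hπ, hact⟩ := of_isGraphAut (R := RR F) (X := H22.PoinD4.rcxD4) (hmul := hm F) longD4 hτ
  have h3 : τ ^ 3 = 1 := by rw [← hτ3]; exact pow_orderOf_eq_one τ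
  have happ3 : ∀ g, τ (τ (τ g)) = g := by
    intro g
    have := congrArg (fun f : MulAut ↥(Cfsg.Lie.chevD4.group F) => f g) h3
    simpa [pow_succ, MulAut.mul_apply] using this
  rcases symD4' π hπ with h | h | h
  · -- the same symmetry
    rw [h] at hact
    have e2 := Acts.ext H22.ChevLex.lexD4 certD4' hact hA
    rw [fx, ← e2]
  · -- the inverse symmetry
    have hact2 := hact.comp hact
    rw [h] at hact2
    have e2 := Acts.ext H22.ChevLex.lexD4 certD4' hact2 hA
    rw [fx, ← e2]
    ext g
    constructor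
    · intro hg
      have hg' : τ g = g := hg
      show τ (τ g) = g
      rw [hg', hg']
    · intro hg
      have hg' : τ (τ g) = g := hg
      show τ g = g
      have h4 := happ3 g
      rw [hg'] at h4
      exact h4
  · -- involutions
    exfalso
    have hact2 := hact.comp hact
    rw [h] at hact2
    have e2 := Acts.ext H22.ChevLex.lexD4 certD4' hact2 Acts.id
    have h2 : τ ^ 2 = 1 := by
      ext1 g
      have := congrArg (fun f : ↥(Cfsg.Lie.chevD4.group F) →* ↥(Cfsg.Lie.chevD4.group F) => f g) e2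
      rw [pow_two]
      exact this
    have h5 := orderOf_dvd_of_pow_eq_one h2
    rw [hτ3] at h5
    omega

/-- In the Chevalley group of type D₄ over a finite field F (the matrix group generated by the root elements), a graph automorphism attached to a symmetry π of the Dynkin diagram (sending each fundamental root element x_p(t) to x_{π(p)}(t) and each x_{−p}(t) to x_{−π(p)}(t)) that has order 3 — a standard triality graph automorphism, π being a 3-cycle of the three outer nodes — has fixed-point subgroup isomorphic to the Chevalley group of type G₂ over F. -/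
theorem result {F : Type*} [Field F] [Fintype F] (τ : MulAut ↥(Cfsg.Lie.chevD4.group F)) (hτ : Cfsg.Lie.chevD4.IsGraphAut τ) (hτ3 : orderOf τ = 3) :
    Nonempty (↥(MonoidHom.eqLocus τ.toMonoidHom (MonoidHom.id ↥(Cfsg.Lie.chevD4.group F))) ≃* ↥(Cfsg.Lie.chevG2.group F)) := by
  rw [key τ hτ hτ3]
  exact main F

end Cfsg.Agent.S2734
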