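import Cfsg.Statements.S2738
import Cfsg.Agent.Lib.H50.PSLBasic

set_option autoImplicit false
open Cfsg

namespace Cfsg.Agent.S2738

/-- The special linear group SL(3, 4) has centre of order 3 and does not split over it: no subgroup is a complement to the centre (so SL(3, 4) is a non-split central extension of PSL(3, 4) by a group of order 3). -/
theorem result (F : Type*) [Field F] [Fintype F] (hF : Fintype.card F = 4) : Nat.card ↥(Subgroup.center (Matrix.SpecialLinearGroup (Fin 3) F)) = 3 ∧ ¬ ∃ K : Subgroup (Matrix.SpecialLinearGroup (Fin 3) F), Subgroup.IsComplement' (Subgroup.center (Matrix.SpecialLinearGroup (Fin 3) F)) K := by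
  classical
  have hcard : Nat.card F = 4 := by rw [Nat.card_eq_fintype_card, hF]
  have hF3 : ∀ t : F, t ≠ 0 → t ^ 3 = 1 := by
    intro t ht
    have := FiniteField.pow_card_sub_one_eq_one t ht
    rwa [hF] at this
  -- an element `ω ≠ 0, 1`
  obtain ⟨w, hw0, hw1⟩ : ∃ w : F, w ≠ 0 ∧ w ≠ 1 := by
    by_contra hcon
    push Not at hcon
    have h1 : (Finset.univ : Finset F) ⊆ {0, 1} := by
      intro x _
      rw [Finset.mem_insert, Finset.mem_singleton]
      by_cases hx : x = 0
      · exact Or.inl hx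
      · exact Or.inr (hcon x hx)
    have h2 := Finset.card_le_card h1
    rw [Finset.card_univ, hF] at h2
    have h3 := Finset.card_le_two (a := (0 : F)) (b := 1)
    omega
  have hw3 := hF3 w hw0
  refine ⟨?_, ?_⟩
  · -- the centre
    have e := Matrix.SpecialLinearGroup.center_equiv_rootsOfUnity (n := Fin 3) (R := F)
    rw [Nat.card_congr e.toEquiv]
    have h1 : rootsOfUnity (Fintype.card (Fin 3)) F = ⊤ := by
      rw [eq_top_iff]
      intro u _
      rw [mem_rootsOfUnity]
      apply Units.ext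
      rw [Units.val_pow_eq_pow_val, Fintype.card_fin, Units.val_one]
      exact hF3 u u.ne_zero
    have h2 : max (Fintype.card (Fin 3)) 1 = Fintype.card (Fin 3) := by simp
    rw [h2, h1, Nat.card_congr Subgroup.topEquiv.toEquiv, Nat.card_units, hcard]
  · rintro ⟨K, hK⟩
    have hw2 : w * (w * w) = 1 := by rw [← hw3]; ring
    -- the matrices
    let a : Matrix.SpecialLinearGroup (Fin 3) F := ⟨!![1, 0, 0; 0, w, 0; 0, 0, w * w], by
      rw [Matrix.det_fin_three]; simp; exact hw2⟩
    let b : Matrix.SpecialLinearGroup (Fin 3) F := ⟨!![0, 1, 0; 0, 0, 1; 1, 0, 0], by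
      rw [Matrix.det_fin_three]; simp⟩
    let z : Matrix.SpecialLinearGroup (Fin 3) F := ⟨!![w, 0, 0; 0, w, 0; 0, 0, w], by
      rw [Matrix.det_fin_three]; simp; rw [mul_assoc]; exact hw2⟩
    have hab : b * a = z * (a * b) := by
      apply Subtype.ext
      change (!![0, 1, 0; 0, 0, 1; 1, 0, 0] : Matrix (Fin 3) (Fin 3) F) * !![1, 0, 0; 0, w, 0; 0, 0, w * w] =
        !![w, 0, 0; 0, w, 0; 0, 0, w] * (!![1, 0, 0; 0, w, 0; 0, 0, w * w] * !![0, 1, 0; 0, 0, 1; 1, 0, 0])
      ext i k
      fin_cases i <;> fin_cases k <;> simp [Matrix.mul_apply, Fin.sum_univ_three, hw2]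
    have hzc : z ∈ Subgroup.center (Matrix.SpecialLinearGroup (Fin 3) F) := by
      rw [Subgroup.mem_center_iff]
      intro g
      apply Subtype.ext
      change (g : Matrix (Fin 3) (Fin 3) F) * !![w, 0, 0; 0, w, 0; 0, 0, w] =
        !![w, 0, 0; 0, w, 0; 0, 0, w] * (g : Matrix (Fin 3) (Fin 3) F)
      ext i k
      fin_cases i <;> fin_cases k <;> simp [Matrix.mul_apply, Fin.sum_univ_three, mul_comm]
    have hz1 : z ≠ 1 := by
      intro h
      have := congrFun (congrFun (congrArg Subtype.val h) 0) 0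
      exact hw1 this
    -- decompose
    obtain ⟨⟨⟨c, hc⟩, ⟨k, hk⟩⟩, h1⟩ := hK.surjective a
    obtain ⟨⟨⟨d, hd⟩, ⟨l, hl⟩⟩, h2⟩ := hK.surjective b
    have h1' : c * k = a := h1
    have h2' : d * l = b := h2
    have hc' := Subgroup.mem_center_iff.mp hc
    have hd' := Subgroup.mem_center_iff.mp hd
    have hzK : z ∈ K := by
      have h3 : z = b * a * (a * b)⁻¹ := by rw [hab, mul_inv_cancel_right]
      have h4 : b * a * (a * b)⁻¹ = l * k * (k * l)⁻¹ := by
        rw [← h1', ← h2']
        have e1 : d * l * (c * k) = d * c * (l * k) := by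
          rw [mul_assoc, ← mul_assoc l, hc' l]; group
        have e2 : c * k * (d * l) = d * c * (k * l) := by
          rw [mul_assoc, ← mul_assoc k, hd' k, ← mul_assoc, ← mul_assoc, hd' c]; group
        rw [e1, e2]
        have e3 : d * c * (k * l) = (k * l) * (d * c) := by
          rw [mul_assoc, ← hc' (k * l), ← mul_assoc, ← hd' (k * l), mul_assoc]
        have e4 : d * c * (l * k) = (l * k) * (d * c) := by
          rw [mul_assoc, ← hc' (l * k), ← mul_assoc, ← hd' (l * k), mul_assoc]
        rw [e3, e4]; group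
      rw [h3, h4]
      exact K.mul_mem (K.mul_mem hl hk) (K.inv_mem (K.mul_mem hk hl))
    have h5 : z ∈ Subgroup.center (Matrix.SpecialLinearGroup (Fin 3) F) ⊓ K := ⟨hzc, hzK⟩
    rw [hK.disjoint.eq_bot, Subgroup.mem_bot] at h5
    exact hz1 h5

end Cfsg.Agent.S2738
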