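import Cfsg.Statements.S2739
import Cfsg.Agent.Lib.H50.SL34

set_option autoImplicit false
open scoped Pointwise
open Cfsg

namespace Cfsg.Agent.S2739

/-- In the projective special linear group PSL(3, 4) all subgroups of order 3 are conjugate. -/
theorem result (F : Type*) [Field F] [Fintype F] (hF : Fintype.card F = 4) (X Y : Subgroup (Matrix.ProjectiveSpecialLinearGroup (Fin 3) F)) (hX : Nat.card ↥X = 3) (hY : Nat.card ↥Y = 3) : ∃ g : Matrix.ProjectiveSpecialLinearGroup (Fin 3) F, MulAut.conj g • X = Y := by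
  classical
  have hF3 : ∀ t : F, t ≠ 0 → t ^ 3 = 1 := by
    intro t ht
    have := FiniteField.pow_card_sub_one_eq_one t ht
    rwa [hF] at this
  have h2 : (2 : F) = 0 := by
    have h3 := FiniteField.cast_card_eq_zero F
    rw [hF] at h3
    have h4 : (2 : F) * 2 = 0 := by rw [← h3]; norm_num
    rcases mul_eq_zero.mp h4 with h | h <;> exact h
  -- an element `ω ≠ 0, 1`
  obtain ⟨w, hw0, hw1⟩ : ∃ w : F, w ≠ 0 ∧ w ≠ 1 := by
    by_contra hcon
    push Not at hcon
    have h1 : (Finset.univ : Finset F) ⊆ {0, 1} := by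
      intro x _
      rw [Finset.mem_insert, Finset.mem_singleton]
      by_cases hx : x = 0
      · exact Or.inl hx
      · exact Or.inr (hcon x hx)
    have h2 := Finset.card_le_card h1
    rw [Finset.card_univ, hF] at h2
    have h3 := Finset.card_le_two (a := (0 : F)) (b := 1)
    omega
  have hw3 := hF3 w hw0
  have hww : w * (w * w) = 1 := by rw [← hw3]; ring
  let d : Matrix.SpecialLinearGroup (Fin 3) F := ⟨!![1, 0, 0; 0, w, 0; 0, 0, w * w], by
      rw [Matrix.det_fin_three]; simp; exact hww⟩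
  -- every element of order three is conjugate to `d`
  have key : ∀ x : Matrix.ProjectiveSpecialLinearGroup (Fin 3) F, orderOf x = 3 →
      ∃ g : Matrix.ProjectiveSpecialLinearGroup (Fin 3) F, x = g * QuotientGroup.mk d * g⁻¹ := by
    intro x hx
    obtain ⟨a, rfl⟩ := QuotientGroup.mk_surjective x
    have hx3 : (QuotientGroup.mk a : Matrix.ProjectiveSpecialLinearGroup (Fin 3) F) ^ 3 = 1 := by
      have := pow_orderOf_eq_one (QuotientGroup.mk a : Matrix.ProjectiveSpecialLinearGroup (Fin 3) F)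
      rwa [hx] at this
    have hx1 : (QuotientGroup.mk a : Matrix.ProjectiveSpecialLinearGroup (Fin 3) F) ≠ 1 := by
      intro h; rw [h, orderOf_one] at hx; omega
    -- scalars are central
    have hns : ∀ c : F, (a : Matrix (Fin 3) (Fin 3) F) ≠ c • (1 : Matrix (Fin 3) (Fin 3) F) := by
      intro c hc
      apply hx1
      refine (QuotientGroup.eq_one_iff a).mpr ?_
      rw [Subgroup.mem_center_iff]
      intro g
      apply Subtype.ext
      change (g : Matrix (Fin 3) (Fin 3) F) * (a : Matrix (Fin 3) (Fin 3) F) =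
        (a : Matrix (Fin 3) (Fin 3) F) * (g : Matrix (Fin 3) (Fin 3) F)
      rw [hc, Matrix.mul_smul, Matrix.smul_mul, Matrix.mul_one, Matrix.one_mul]
    obtain ⟨l, hl⟩ : ∃ l : F, (a : Matrix (Fin 3) (Fin 3) F) * ((a : Matrix (Fin 3) (Fin 3) F) * (a : Matrix (Fin 3) (Fin 3) F)) =
        l • (1 : Matrix (Fin 3) (Fin 3) F) := by
      have h3 : a ^ 3 ∈ Subgroup.center (Matrix.SpecialLinearGroup (Fin 3) F) := (QuotientGroup.eq_one_iff _).mp hx3
      obtain ⟨r, -, hr⟩ := Matrix.SpecialLinearGroup.mem_center_iff.mp h3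
      refine ⟨r, ?_⟩
      have h4 : (a : Matrix (Fin 3) (Fin 3) F) * ((a : Matrix (Fin 3) (Fin 3) F) * (a : Matrix (Fin 3) (Fin 3) F)) =
          ((a ^ 3 : Matrix.SpecialLinearGroup (Fin 3) F) : Matrix (Fin 3) (Fin 3) F) := by
        rw [Matrix.SpecialLinearGroup.coe_pow, pow_succ', pow_two]
      rw [h4, ← hr]
      ext i k
      by_cases hik : i = k
      · subst hik; simp [Matrix.scalar_apply]
      · simp [Matrix.scalar_apply, hik]
    obtain ⟨g, hg, hag⟩ := H50.SL34.exists_diag h2 hF3 hw0 hw1 a.2 hl hns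
    have h5 : a * ⟨g, hg⟩ = ⟨g, hg⟩ * d := by
      apply Subtype.ext
      change (a : Matrix (Fin 3) (Fin 3) F) * g = g * !![1, 0, 0; 0, w, 0; 0, 0, w * w]
      rw [hag]
      congr 1
      ext i k
      fin_cases i <;> fin_cases k <;> simp
    refine ⟨QuotientGroup.mk ⟨g, hg⟩, ?_⟩
    rw [eq_mul_inv_iff_mul_eq]
    change (QuotientGroup.mk (a * ⟨g, hg⟩) : Matrix.ProjectiveSpecialLinearGroup (Fin 3) F) = QuotientGroup.mk (⟨g, hg⟩ * d)
    rw [h5]
  have hgen : ∀ X : Subgroup (Matrix.ProjectiveSpecialLinearGroup (Fin 3) F), Nat.card ↥X = 3 →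
      ∃ x, orderOf x = 3 ∧ X = Subgroup.zpowers x := by
    intro X hX
    have hp : Fact (Nat.Prime 3) := ⟨Nat.prime_three⟩
    have hfin : Finite X := Nat.finite_of_card_ne_zero (by rw [hX]; norm_num)
    obtain ⟨x, hx⟩ := exists_prime_orderOf_dvd_card' (G := X) 3 (by rw [hX])
    have hx' : orderOf (x : Matrix.ProjectiveSpecialLinearGroup (Fin 3) F) = 3 := by rw [Subgroup.orderOf_coe, hx]
    refine ⟨x, hx', ?_⟩
    symm
    apply Subgroup.eq_of_le_of_card_ge
    · rw [Subgroup.zpowers_le]; exact x.2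
    · rw [Nat.card_zpowers, hx', hX]
  obtain ⟨x, hx, rfl⟩ := hgen X hX
  obtain ⟨y, hy, rfl⟩ := hgen Y hY
  obtain ⟨g, hg⟩ := key x hx
  obtain ⟨h, hh⟩ := key y hy
  refine ⟨h * g⁻¹, ?_⟩
  have h6 : (Subgroup.zpowers x).map (MulAut.conj (h * g⁻¹)).toMonoidHom = Subgroup.zpowers y := by
    rw [MonoidHom.map_zpowers]
    congr 1
    change (h * g⁻¹) * x * (h * g⁻¹)⁻¹ = y
    rw [hg, hh]
    group
  exact h6

end Cfsg.Agent.S2739
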