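import Cfsg.Statements.S2758
import Cfsg.Agent.Lib.H51.DihedralInv

set_option autoImplicit false
open Cfsg

namespace Cfsg.Agent.S2758

/-- For an odd prime p and a finite group G the following are equivalent: the dihedral group of order 2p is involved in G; some element of 2-power order normalizes but does not centralize some p-subgroup of G; some element of 2-power order inverts some nonidentity element of p-power order. -/
theorem result {G : Type*} [Group G] [Finite G] {p : ℕ} [Fact p.Prime] (hp : p ≠ 2) : (Cfsg.Involves (DihedralGroup p) G ↔ ∃ (x : G) (P : Subgroup G), (∃ k : ℕ, orderOf x = 2 ^ k) ∧ IsPGroup p ↥P ∧ x ∈ Subgroup.normalizer (P : Set G) ∧ x ∉ Subgroup.centralizer (P : Set G)) ∧ (Cfsg.Involves (DihedralGroup p) G ↔ ∃ x y : G, (∃ k : ℕ, orderOf x = 2 ^ k) ∧ (∃ k : ℕ, orderOf y = p ^ k) ∧ y ≠ 1 ∧ x * y * x⁻¹ = y⁻¹) := by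
  have hBC : (∃ (x : G) (P : Subgroup G), (∃ k : ℕ, orderOf x = 2 ^ k) ∧ IsPGroup p ↥P ∧
      x ∈ Subgroup.normalizer (P : Set G) ∧ x ∉ Subgroup.centralizer (P : Set G)) →
      ∃ x y : G, (∃ k : ℕ, orderOf x = 2 ^ k) ∧ (∃ k : ℕ, orderOf y = p ^ k) ∧ y ≠ 1 ∧ x * y * x⁻¹ = y⁻¹ := by
    rintro ⟨x, P, hx, hP, hxN, hxC⟩
    obtain ⟨n, y, hy, hy1, hxy, -⟩ := H51.DihedralInv.exists_inverted hx hxN hxC
    exact ⟨x ^ n, y, H51.DihedralInv.orderOf_pow_two_pow hx n, H51.DihedralInv.p_order_of_mem hP hy, hy1, hxy⟩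
  have hCA : (∃ x y : G, (∃ k : ℕ, orderOf x = 2 ^ k) ∧ (∃ k : ℕ, orderOf y = p ^ k) ∧ y ≠ 1 ∧
      x * y * x⁻¹ = y⁻¹) → Cfsg.Involves (DihedralGroup p) G := by
    rintro ⟨x, y, hx, hy, hy1, hxy⟩
    exact H51.DihedralInv.involves_of_inverted hp hx hy hy1 hxy
  have hAB := H51.DihedralInv.exists_normalizing (G := G) hp
  exact ⟨⟨hAB, fun h => hCA (hBC h)⟩, ⟨fun h => hBC (hAB h), hCA⟩⟩

end Cfsg.Agent.S2758
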