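import Cfsg.Statements.S2760
import Cfsg.Agent.Lib.H52.Cop

set_option autoImplicit false
open Cfsg

namespace Cfsg.Agent.S2760

/-- Let G be a finite group with C_G(O₂(G)) ≤ O₂(G) and H a subgroup of G such that H is normal in G, or the subgroup O²(H) generated by the elements of H of odd order is normal in G. Then C_H(O₂(H)) ≤ O₂(H). -/
theorem result {G : Type*} [Group G] [Finite G] (hchar : Subgroup.centralizer (Cfsg.pCore 2 G : Set G) ≤ Cfsg.pCore 2 G) (H : Subgroup G) (hH : H.Normal ∨ ((Cfsg.pResidual 2 ↥H).map H.subtype).Normal) : Subgroup.centralizer (Cfsg.pCore 2 ↥H : Set ↥H) ≤ Cfsg.pCore 2 ↥H := by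
  open H52.PCore H52.PRes H52.Cop in
  have htop := (H52.Cop.charP_top_iff (p := 2) (G := G)).1 hchar
  rw [H52.Cop.charP_iff]
  rcases hH with hH | hH
  · exact H52.Cop.charP_of_normal htop le_top (H52.PCore.normal_iff_top_le_normalizer.1 hH)
  · set N : Subgroup G := H52.PRes.resOf 2 H with hN
    have hNH : N ≤ H := H52.PRes.resOf_le H
    have hNchar := H52.Cop.charP_of_normal htop le_top (H52.PCore.normal_iff_top_le_normalizer.1 hH)
    set C := H ⊓ Subgroup.centralizer (Cfsg.pCoreOf 2 H : Set G) with hC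
    have hCH : C ≤ H := inf_le_left
    have hCnorm : H ≤ Subgroup.normalizer (C : Set G) := by
      rw [Subgroup.le_normalizer_iff]
      intro l hl x hx
      refine Subgroup.mem_inf.2 ⟨H.mul_mem (H.mul_mem hl hx.1) (H.inv_mem hl), Subgroup.mem_centralizer_iff.2 ?_⟩
      intro y hy
      have h1 : l⁻¹ * y * l ∈ Cfsg.pCoreOf 2 H := by
        have := Subgroup.le_normalizer_iff.1 (H52.PCore.le_normalizer_pCoreOf (p := 2) H) l⁻¹ (H.inv_mem hl) y hy
        simpa using this
      have h2 := Subgroup.mem_centralizer_iff.1 hx.2 _ h1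
      calc y * (l * x * l⁻¹) = l * ((l⁻¹ * y * l) * x) * l⁻¹ := by group
        _ = l * (x * (l⁻¹ * y * l)) * l⁻¹ := by rw [h2]
        _ = (l * x * l⁻¹) * y := by group
    have h1 : H52.PRes.resOf 2 C ≤ N ⊓ Subgroup.centralizer (Cfsg.pCoreOf 2 N : Set G) := by
      refine le_inf (H52.PRes.resOf_mono hCH) ?_
      refine (H52.PRes.resOf_le C).trans (inf_le_right.trans (Subgroup.centralizer_le ?_))
      exact H52.PCore.pCoreOf_le_of_normal (H52.PRes.le_normalizer_resOf H) hNH
    have h2 : IsPGroup 2 C :=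
      H52.PCore.isPGroup_of_pMod (H52.PRes.pMod_resOf C)
        ((H52.PCore.isPGroup_pCoreOf N).to_le (h1.trans hNchar))
    exact H52.PCore.le_pCoreOf hCH hCnorm h2

end Cfsg.Agent.S2760
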