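import Cfsg.Statements.S2761
import Cfsg.Agent.Lib.H51.Qd

set_option autoImplicit false
open Cfsg

namespace Cfsg.Agent.S2761

open Cfsg Subgroup Matrix H51.NatSL2 H51.NatSL2c H51.Qd
open scoped MatrixGroups

variable {F : Type*} [Field F]

/-- affine action on the plane -/
def ap (M : qdOver F) (x : F × F) : F × F :=
  ((M : SpecialLinearGroup (Fin 3) F).1 0 0 * x.1 + (M : SpecialLinearGroup (Fin 3) F).1 0 1 * x.2 +
    (M : SpecialLinearGroup (Fin 3) F).1 0 2,
   (M : SpecialLinearGroup (Fin 3) F).1 1 0 * x.1 + (M : SpecialLinearGroup (Fin 3) F).1 1 1 * x.2 +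
    (M : SpecialLinearGroup (Fin 3) F).1 1 2)

theorem ap_mk (A : SL(2, F)) (a b : F) (x : F × F) : ap (mk A a b) x =
    (A.1 0 0 * x.1 + A.1 0 1 * x.2 + a, A.1 1 0 * x.1 + A.1 1 1 * x.2 + b) := rfl

theorem ap_mul (M N : qdOver F) (x : F × F) : ap (M * N) x = ap M (ap N x) := by
  obtain ⟨A, a, b, rfl⟩ := exists_mk M
  obtain ⟨B, c, d, rfl⟩ := exists_mk N
  rw [mk_mul, ap_mk, ap_mk, ap_mk, mul_apply2, mul_apply2, mul_apply2, mul_apply2]
  apply Prod.ext <;> ring

theorem ap_one (x : F × F) : ap (1 : qdOver F) x = x := by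
  rw [← mk_one, ap_mk]
  simp

instance : MulAction (qdOver F) (F × F) where
  smul := ap
  one_smul := ap_one
  mul_smul := ap_mul

theorem ap_inj (M : qdOver F) (h : ∀ x, ap M x = x) : M = 1 := by
  obtain ⟨A, a, b, rfl⟩ := exists_mk M
  have h1 := h (0, 0)
  have h2 := h (1, 0)
  have h3 := h (0, 1)
  rw [ap_mk] at h1 h2 h3
  simp at h1 h2 h3
  obtain ⟨ha, hb⟩ := h1
  rw [ha, hb] at h2 h3
  simp at h2 h3
  rw [← mk_one, mk_inj]
  refine ⟨?_, ha, hb⟩
  apply Subtype.ext
  ext i j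
  fin_cases i <;> fin_cases j
  · exact h2.1
  · exact h3.1
  · exact h2.2
  · exact h3.2

theorem card_qdOver : Nat.card (qdOver F) = Nat.card SL(2, F) * (Nat.card F * Nat.card F) := by
  rw [← Nat.card_prod, ← Nat.card_prod]
  refine (Nat.card_congr (Equiv.ofBijective (fun x : SL(2, F) × (F × F) => mk x.1 x.2.1 x.2.2) ⟨?_, ?_⟩)).symm
  · rintro ⟨A, a, b⟩ ⟨B, c, d⟩ h
    obtain ⟨h1, h2, h3⟩ := mk_inj.1 h
    exact Prod.ext h1 (Prod.ext h2 h3)
  · intro M
    obtain ⟨A, a, b, rfl⟩ := exists_mk M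
    exact ⟨(A, a, b), rfl⟩

/-- The group Qd(2), the natural semidirect product of an elementary abelian group of order 4 by SL₂(2) (realised as the affine subgroup of SL₃(2)), is isomorphic to the symmetric group of degree 4. -/
theorem result : Nonempty (↥(Cfsg.qd 2) ≃* Equiv.Perm (Fin 4)) := by

  have : Fact (Nat.Prime 2) := ⟨Nat.prime_two⟩
  let f : qdOver (ZMod 2) →* Equiv.Perm (ZMod 2 × ZMod 2) := MulAction.toPermHom _ _
  have hf : Function.Injective f := by
    rw [injective_iff_map_eq_one]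
    intro M hM
    apply ap_inj
    intro x
    exact congrArg (fun g : Equiv.Perm (ZMod 2 × ZMod 2) => g x) hM
  have hcard : Nat.card (qdOver (ZMod 2)) = Nat.card (Equiv.Perm (ZMod 2 × ZMod 2)) := by
    rw [card_qdOver, H6.SL2Sylow.card_sl2, Nat.card_perm, Nat.card_prod, Nat.card_zmod, ZMod.card]
    rfl
  have hbij : Function.Bijective f := by
    rw [Nat.bijective_iff_injective_and_card]
    exact ⟨hf, hcard⟩
  have e4 : (ZMod 2 × ZMod 2) ≃ Fin 4 := Finite.equivFinOfCardEq (by rw [Nat.card_prod, Nat.card_zmod])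
  exact ⟨(MulEquiv.ofBijective f hbij).trans e4.permCongrHom⟩

end Cfsg.Agent.S2761
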