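import Cfsg.Statements.S2762
import Cfsg.Agent.Lib.H51.Qd

set_option autoImplicit false
open Cfsg

namespace Cfsg.Agent.S2762

open Cfsg Subgroup Matrix H51.NatSL2 H51.NatSL2c H51.Qd
open scoped MatrixGroups

theorem mk_entry (F : Type*) [Field F] (A : SL(2, F)) (a b : F) (i j : Fin 3) :
    (((mk A a b : qdOver F) : SpecialLinearGroup (Fin 3) F) : Matrix (Fin 3) (Fin 3) F) i j = mkM A a b i j := rfl

theorem sl2_eq_one {F : Type*} [Field F] {A : SL(2, F)} (h0 : A.1 0 0 = 1) (h1 : A.1 0 1 = 0) (h2 : A.1 1 0 = 0)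
    (h3 : A.1 1 1 = 1) : A = 1 := by
  apply Subtype.ext
  ext i j
  fin_cases i <;> fin_cases j
  · exact h0
  · exact h1
  · exact h2
  · exact h3

theorem mem_K {F : Type*} [Field F] (M : qdOver F) : M ∈ (emb (F := F)).range ↔
    ((M : SpecialLinearGroup (Fin 3) F) : Matrix (Fin 3) (Fin 3) F) 0 2 = 0 ∧
    ((M : SpecialLinearGroup (Fin 3) F) : Matrix (Fin 3) (Fin 3) F) 1 2 = 0 := by
  constructor
  · rintro ⟨A, rfl⟩
    exact ⟨rfl, rfl⟩
  · rintro ⟨h1, h2⟩
    obtain ⟨A, a, b, rfl⟩ := exists_mk M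
    have ha : a = 0 := h1
    have hb : b = 0 := h2
    exact ⟨A, by rw [ha, hb]; rfl⟩

theorem natural (F : Type*) [Field F] [Fintype F] (p : ℕ) [Fact p.Prime] [CharP F p] :
    IsNaturalSL2Module F (pCore p (qdOver F)) (emb (F := F)).range := by
  have hn : (pCore p (qdOver F)).Normal := by rw [pCore_eq]; infer_instance
  refine ⟨?_, (lin (F := F)).comp (emb (F := F)).range.subtype, ?_, ?_, ?_, ?_⟩
  · rw [Subgroup.normalizer_eq_top_iff.2 hn]; exact le_top
  · exact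
    { toFun := fun v => ![(((Additive.toMul v : pCore p (qdOver F)) : qdOver F) : SpecialLinearGroup (Fin 3) F).1 0 2,
        (((Additive.toMul v : pCore p (qdOver F)) : qdOver F) : SpecialLinearGroup (Fin 3) F).1 1 2]
      invFun := fun x => Additive.ofMul ⟨tr (x 0) (x 1), (mem_pCore p).2 ⟨_, _, rfl⟩⟩
      left_inv := by
        intro v
        obtain ⟨a, b, hab⟩ := (mem_pCore p).1 (Additive.toMul v).2
        apply Additive.toMul.injective
        apply Subtype.ext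
        rw [toMul_ofMul]
        show tr ((((Additive.toMul v : pCore p (qdOver F)) : qdOver F) : SpecialLinearGroup (Fin 3) F).1 0 2)
          ((((Additive.toMul v : pCore p (qdOver F)) : qdOver F) : SpecialLinearGroup (Fin 3) F).1 1 2) =
          ((Additive.toMul v : pCore p (qdOver F)) : qdOver F)
        rw [hab]
        rfl
      right_inv := by
        intro x
        ext i
        fin_cases i <;> rfl
      map_add' := by
        intro v w
        obtain ⟨a, b, hab⟩ := (mem_pCore p).1 (Additive.toMul v).2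
        obtain ⟨c, d, hcd⟩ := (mem_pCore p).1 (Additive.toMul w).2
        have h : ((Additive.toMul (v + w) : pCore p (qdOver F)) : qdOver F) = tr (a + c) (b + d) := by
          rw [toMul_add, Subgroup.coe_mul, hab, hcd, tr_mul]
        rw [h, hab, hcd]
        ext i
        fin_cases i <;> rfl }
  · intro A
    exact ⟨⟨emb A, ⟨A, rfl⟩⟩, lin_mk A 0 0⟩
  · ext ⟨k, A, rfl⟩
    rw [MonoidHom.mem_ker, Subgroup.mem_subgroupOf]
    show lin (emb A) = 1 ↔ emb A ∈ centralizer (pCore p (qdOver F) : Set (qdOver F))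
    rw [emb_apply, lin_mk, mem_centralizer_iff]
    constructor
    · rintro rfl
      intro h _
      rw [mk_one]; simp
    · intro h
      have key : ∀ a b, A.1 0 0 * a + A.1 0 1 * b = a ∧ A.1 1 0 * a + A.1 1 1 * b = b := by
        intro a b
        have h1 := h (tr a b) ((mem_pCore p).2 ⟨a, b, rfl⟩)
        rw [← emb_apply] at h1
        have h2 := emb_conj_tr A a b
        rw [← h1, mul_inv_cancel_right, tr, tr, mk_inj] at h2
        exact ⟨h2.2.1.symm, h2.2.2.symm⟩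
      obtain ⟨h1, h2⟩ := key 1 0
      obtain ⟨h3, h4⟩ := key 0 1
      simp at h1 h2 h3 h4
      exact sl2_eq_one h1 h3 h2 h4
  · rintro ⟨_, A, rfl⟩ ⟨v, hv⟩
    obtain ⟨a, b, rfl⟩ := (mem_pCore p).1 hv
    refine ⟨⟨emb A * tr a b * (emb A)⁻¹, hn.conj_mem _ hv _⟩, rfl, ?_⟩
    have h1 : (lin ((emb (F := F)).range.subtype ⟨emb A, ⟨A, rfl⟩⟩)) = A := lin_mk A 0 0
    show ![_, _] = ((lin ((emb (F := F)).range.subtype ⟨emb A, ⟨A, rfl⟩⟩) : SL(2, F)) : Matrix (Fin 2) (Fin 2) F).mulVec ![_, _]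
    rw [h1]
    show ![((emb A * tr a b * (emb A)⁻¹ : qdOver F) : SpecialLinearGroup (Fin 3) F).1 0 2,
      ((emb A * tr a b * (emb A)⁻¹ : qdOver F) : SpecialLinearGroup (Fin 3) F).1 1 2] = _
    rw [emb_conj_tr]
    ext i
    fin_cases i <;> simp [Matrix.mulVec, dotProduct, Fin.sum_univ_two] <;> rfl

/-- Structure of Qd over a finite field F of characteristic p (the affine subgroup of SL₃(F)): its largest normal p-subgroup is the group of translations (matrices with upper-left block the identity), the block-diagonal matrices form a complement isomorphic to SL₂(F), and the translation subgroup is a natural SL₂(F)-module for that complement. -/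
theorem result {F : Type*} [Field F] [Fintype F] {p : ℕ} [Fact p.Prime] [CharP F p] : (∀ M : ↥(Cfsg.qdOver F), M ∈ Cfsg.pCore p ↥(Cfsg.qdOver F) ↔ ((M : Matrix.SpecialLinearGroup (Fin 3) F) : Matrix (Fin 3) (Fin 3) F) 0 0 = 1 ∧ ((M : Matrix.SpecialLinearGroup (Fin 3) F) : Matrix (Fin 3) (Fin 3) F) 0 1 = 0 ∧ ((M : Matrix.SpecialLinearGroup (Fin 3) F) : Matrix (Fin 3) (Fin 3) F) 1 0 = 0 ∧ ((M : Matrix.SpecialLinearGroup (Fin 3) F) : Matrix (Fin 3) (Fin 3) F) 1 1 = 1) ∧ ∃ K : Subgroup ↥(Cfsg.qdOver F), (∀ M : ↥(Cfsg.qdOver F), M ∈ K ↔ ((M : Matrix.SpecialLinearGroup (Fin 3) F) : Matrix (Fin 3) (Fin 3) F) 0 2 = 0 ∧ ((M : Matrix.SpecialLinearGroup (Fin 3) F) : Matrix (Fin 3) (Fin 3) F) 1 2 = 0) ∧ K ⊓ Cfsg.pCore p ↥(Cfsg.qdOver F) = ⊥ ∧ K ⊔ Cfsg.pCore p ↥(Cfsg.qdOver F) = ⊤ ∧ Nonempty (↥K ≃* Matrix.SpecialLinearGroup (Fin 2) F) ∧ Cfsg.IsNaturalSL2Module F (Cfsg.pCore p ↥(Cfsg.qdOver F)) K := by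

  refine ⟨?_, (emb (F := F)).range, fun M => mem_K M, ?_, ?_, ⟨(MonoidHom.ofInjective emb_injective).symm⟩,
    natural F p⟩
  · intro M
    rw [mem_pCore]
    constructor
    · rintro ⟨a, b, rfl⟩
      exact ⟨rfl, rfl, rfl, rfl⟩
    · rintro ⟨h1, h2, h3, h4⟩
      obtain ⟨A, a, b, rfl⟩ := exists_mk M
      refine ⟨a, b, ?_⟩
      rw [tr, mk_inj]
      exact ⟨sl2_eq_one h1 h2 h3 h4, rfl, rfl⟩
  · rw [eq_bot_iff]
    intro M hM
    obtain ⟨h1, h2⟩ := Subgroup.mem_inf.1 hM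
    obtain ⟨a, b, rfl⟩ := (mem_pCore p).1 h2
    obtain ⟨A, hA⟩ := h1
    rw [emb_apply, tr, mk_inj] at hA
    rw [← hA.2.1, ← hA.2.2, tr_zero]
    exact Subgroup.one_mem _
  · rw [eq_top_iff]
    intro M _
    obtain ⟨A, a, b, rfl⟩ := exists_mk M
    rw [← tr_mul_emb]
    exact mul_mem (Subgroup.mem_sup_right ((mem_pCore p).2 ⟨a, b, rfl⟩)) (Subgroup.mem_sup_left ⟨A, rfl⟩)

end Cfsg.Agent.S2762
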