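import Cfsg.Statements.S2772
import Cfsg.Agent.Lib.H51.PuDih2
import Cfsg.Agent.Lib.H51.PuS4

set_option autoImplicit false
open Cfsg

namespace Cfsg.Agent.S2772

open Subgroup H28.Cj H28.RelSyl H52.PU H51.PuDih

theorem aux_two {G : Type*} [Group G] [Finite G]
    (hD : Nonempty (G ⧸ Cfsg.pCore 2 G ≃* DihedralGroup 2)) : False := by
  obtain ⟨e⟩ := hD
  have h1 : Nat.card (G ⧸ Cfsg.pCore 2 G) = 4 := by
    rw [Nat.card_congr e.toEquiv, DihedralGroup.nat_card]
  have h2 : IsPGroup 2 G := by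
    obtain ⟨n, hn⟩ := IsPGroup.iff_card.mp (H52.PCore.isPGroup_pCore (p := 2) (G := G))
    apply IsPGroup.of_card (n := 2 + n)
    rw [Subgroup.card_eq_card_quotient_mul_card_subgroup (Cfsg.pCore 2 G), h1, hn, pow_add]
    norm_num
  have h3 : (⊤ : Subgroup G) ≤ Cfsg.pCore 2 G :=
    H52.PCore.le_pCore inferInstance (h2.to_subgroup ⊤)
  have h4 : (Cfsg.pCore 2 G).index = 1 := index_eq_one.2 (top_le_iff.1 h3)
  rw [← Subgroup.index_eq_card, h4] at h1
  omega

/-- Sims' Theorem in local form: let H be a finite non-abelian simple group and G a maximal subgroup of H with C_G(O₂(G)) ≤ O₂(G), such that N_H(S) is not contained in G for a Sylow 2-subgroup S of G and G/O₂(G) is dihedral of order 2q for a prime q. Then G is isomorphic to the symmetric group of degree 4 or to its direct product with a group of order 2. -/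
theorem result {H : Type*} [Group H] [Finite H] [IsSimpleGroup H] (hna : ¬ IsMulCommutative H) (G : Subgroup H) (hG : IsCoatom G) (hchar : Subgroup.centralizer (Cfsg.pCore 2 ↥G : Set ↥G) ≤ Cfsg.pCore 2 ↥G) (S : Sylow 2 ↥G) (hN : ¬ Subgroup.normalizer (((S : Subgroup ↥G).map G.subtype : Subgroup H) : Set H) ≤ G) (q : ℕ) (hq : q.Prime) (hD : Nonempty (↥G ⧸ Cfsg.pCore 2 ↥G ≃* DihedralGroup q)) : Nonempty (↥G ≃* Equiv.Perm (Fin 4)) ∨ Nonempty (↥G ≃* Equiv.Perm (Fin 4) × Multiplicative (ZMod 2)) := by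

  set S' : Subgroup H := (S : Subgroup ↥G).map G.subtype with hS'
  have hGtop : G ≠ ⊤ := hG.1
  have hsim : ∀ N : Subgroup H, N.Normal → N = ⊥ ∨ N = ⊤ := fun N hN => hN.eq_bot_or_eq_top
  have hcen : Subgroup.center H = ⊥ := by
    rcases hsim (Subgroup.center H) inferInstance with h | h
    · exact h
    · exfalso
      apply hna
      refine ⟨⟨fun a b => ?_⟩⟩
      have : b ∈ Subgroup.center H := by rw [h]; exact mem_top b
      exact mem_center_iff.1 this a
  have hq2 : q ≠ 2 := by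
    rintro rfl
    exact aux_two hD
  have hSylow : IsSyl 2 S' G := isSyl_map S
  have hcard : (Qf 2 G).relIndex G = 2 * q := by
    unfold Qf
    rw [relIndex_map_subtype, Subgroup.index_eq_card]
    obtain ⟨e⟩ := hD
    rw [Nat.card_congr e.toEquiv, DihedralGroup.nat_card]
  have hself : G ⊓ centralizer (Qf 2 G : Set H) ≤ Qf 2 G := by
    intro x hx
    have hx := Subgroup.mem_inf.1 hx
    refine ⟨⟨x, hx.1⟩, hchar ?_, rfl⟩
    rw [mem_centralizer_iff]
    intro y hy
    exact Subtype.ext (mem_centralizer_iff.1 hx.2 _ ⟨y, hy, rfl⟩)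
  have hdih : Dih G S' q := by
    refine ⟨hSylow, hself, hq, hq2, hcard, ?_⟩
    intro T hT hGT hNT
    have h1 : normalizer (T : Set H) = ⊤ :=
      hG.2 _ (lt_of_le_not_ge hGT (fun h2 => hN (hNT.trans h2)))
    rcases hsim T (normalizer_eq_top_iff.1 h1) with h2 | h2
    · exact h2
    · exfalso
      apply hGtop
      rw [← top_le_iff, ← h2]
      exact hT.trans hSylow.le
  obtain ⟨n, hn, hnV⟩ := hdih.exists_n
  have hS : Sims G S' q n := ⟨hdih, hG, hsim, hcen, hn, hnV⟩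
  have hCG : Qf 2 G ⊓ centralizer (G : Set H) ≤ G := inf_le_left.trans (H52.PU.Qf_le G)
  set C : Subgroup ↥G := (Qf 2 G ⊓ centralizer (G : Set H)).subgroupOf G with hC
  have hcC : Nat.card C = Nat.card (Qf 2 G ⊓ centralizer (G : Set H) : Subgroup H) :=
    card_subgroupOf hCG
  have hcQ : Nat.card (Cfsg.pCore 2 ↥G) = Nat.card (Qf 2 G) := (card_map_subtype _).symm
  have hQmem : ∀ {v : ↥G}, v ∈ Cfsg.pCore 2 ↥G → (v : H) ∈ Qf 2 G := fun {v} hv => ⟨v, hv, rfl⟩
  have hmemC : ∀ {c : ↥G}, c ∈ C ↔ (c : H) ∈ Qf 2 G ∧ (c : H) ∈ centralizer (G : Set H) := by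
    intro c
    rw [hC, mem_subgroupOf, Subgroup.mem_inf]
  have hyp : H51.PuS4.Hyp (Cfsg.pCore 2 ↥G) C := by
    refine ⟨inferInstance, H52.PCore.isPGroup_pCore, fun N hN hp => H52.PCore.le_pCore hN hp, ?_, ?_,
      ?_, ?_, ?_, ?_⟩
    · intro c hc
      rw [mem_center_iff]
      intro g
      exact Subtype.ext (mem_centralizer_iff.1 (hmemC.1 hc).2 g g.2)
    · intro c hc
      obtain ⟨d, hd, hdc⟩ := (hmemC.1 hc).1
      have : d = c := Subtype.ext hdc
      rwa [← this]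
    · rw [hcQ, hcC]; exact hS.card_Q
    · rw [hcQ]; exact hS.card_G
    · rw [hcC]; exact hS.card_C_le
    · intro y hy v hv hvy
      rw [hmemC]
      refine ⟨hQmem hv, hS.fix3 y.2 (by rw [orderOf_coe]; exact hy) (hQmem hv) ?_⟩
      exact congrArg Subtype.val hvy.eq
  rcases hyp.C_pos with h1 | h1
  · left; exact hyp.case_one h1
  · right
    have hmapc : ((commutator ↥(S : Subgroup ↥G)).map (S : Subgroup ↥G).subtype).map G.subtype =
        ⁅S', S'⁆ := by
      rw [map_subtype_commutator, Subgroup.map_commutator]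
    have hmem : ∀ s : ↥(S : Subgroup ↥G), s ∈ commutator ↥(S : Subgroup ↥G) ↔
        ((s : ↥G) : H) ∈ ⁅S', S'⁆ := by
      intro s
      rw [← hmapc]
      constructor
      · intro hs
        exact ⟨(s : ↥G), ⟨s, hs, rfl⟩, rfl⟩
      · rintro ⟨x, ⟨t, ht, rfl⟩, hx⟩
        have : t = s := Subtype.ext (Subtype.ext hx)
        rwa [← this]
    have hex : ∃ c ∈ C, c ≠ 1 := by
      have : Nontrivial C := Finite.one_lt_card_iff_nontrivial.1 (by rw [h1]; norm_num)
      obtain ⟨c, hc⟩ := exists_ne (1 : C)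
      exact ⟨c, c.2, fun h2 => hc (Subtype.ext h2)⟩
    obtain ⟨c, hc, hc1⟩ := hex
    have hcS : c ∈ (S : Subgroup ↥G) := by
      have h2 : (Cfsg.pCore 2 ↥G) ≤ (S : Subgroup ↥G) := H52.PCore.pCore_le_sylow S
      exact h2 (hyp.CQ hc)
    have hcn : (⟨c, hcS⟩ : ↥(S : Subgroup ↥G)) ∉ commutator ↥(S : Subgroup ↥G) := by
      intro h2
      rw [hmem] at h2
      apply hc1
      exact Subtype.ext (hS.comm_inf h2 (hmemC.1 hc).2)
    obtain ⟨ϕ, hϕ⟩ := H51.PuS4.exists_hom (S := ↥(S : Subgroup ↥G)) (by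
      intro s
      rw [hmem]
      exact hS.sq_comm (s := ((s : ↥G) : H)) ⟨(s : ↥G), s.2, rfl⟩) _ hcn
    have hodd : Odd (S : Subgroup ↥G).index := by
      rw [← Nat.not_even_iff_odd, even_iff_two_dvd]
      exact S.not_dvd_index
    obtain ⟨φ, hφ⟩ := H51.PuS4.exists_phi (S : Subgroup ↥G) hodd ϕ c (hyp.CZ hc) hcS hϕ
    refine hyp.case_two h1 φ ?_
    intro d hd hd1
    by_contra hd2
    -- `C = {1, c}`
    have h3 : d = c := by
      have h4 : Nat.card C = 2 := h1
      obtain ⟨a, ha⟩ := (Nat.card_eq_two_iff' (1 : C)).1 h4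
      have h5 : (⟨d, hd⟩ : C) = a := ha.2 _ (fun h => hd2 (congrArg Subtype.val h))
      have h6 : (⟨c, hc⟩ : C) = a := ha.2 _ (fun h => hc1 (congrArg Subtype.val h))
      exact congrArg Subtype.val (h5.trans h6.symm)
    rw [h3] at hd1
    exact hφ hd1

end Cfsg.Agent.S2772
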