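import Cfsg.Statements.S2781
import Cfsg.Agent.Lib.H51.Averaging

set_option autoImplicit false
open Cfsg

namespace Cfsg.Agent.S2781

/-- Let H act faithfully by conjugation on the elementary abelian p-subgroup V of a finite group, let O^p(H) be the subgroup of H generated by its elements of order prime to p, and T a Sylow p-subgroup of O^p(H). If V is generated by the H-conjugates of C_V(T) (V is the smallest H-invariant subgroup containing C_V(T)), then V = [V, O^p(H)]·C_V(O^p(H)). -/
theorem result {G : Type*} [Group G] [Finite G] {p : ℕ} [Fact p.Prime] (V H : Subgroup G) (hV : Cfsg.IsElementaryAbelian p V) (hHV : H ≤ Subgroup.normalizer (V : Set G)) (hf : H ⊓ Subgroup.centralizer (V : Set G) = ⊥) (R : Subgroup G) (hR : R = (Cfsg.pResidual p ↥H).map H.subtype) (S : Sylow p ↥R) (T : Subgroup G) (hT : T = ((S : Subgroup ↥R).map R.subtype)) (hgen : ∀ W : Subgroup G, H ≤ Subgroup.normalizer (W : Set G) → (V ⊓ Subgroup.centralizer ((T : Subgroup G) : Set G)) ≤ W → V ≤ W) : ⁅V, R⁆ ⊔ (V ⊓ Subgroup.centralizer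 ((R : Subgroup G) : Set G)) = V := by
  have hRH : R ≤ H := by rw [hR]; exact Subgroup.map_subtype_le _
  have hRV : R ≤ Subgroup.normalizer (V : Set G) := hRH.trans hHV
  have hTR : T ≤ R := by rw [hT]; exact Subgroup.map_subtype_le _
  have hTi : ¬ p ∣ T.relIndex R := by rw [hT]; exact H51.SylowAmb.sylow_not_dvd S
  have hHR : H ≤ Subgroup.normalizer (R : Set G) := by
    have hch : (Cfsg.pResidual p ↥H).Characteristic := by
      rw [Subgroup.characteristic_iff_map_le]
      intro φ
      unfold Cfsg.pResidual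
      rw [MonoidHom.map_closure, Subgroup.closure_le]
      rintro _ ⟨x, hx, rfl⟩
      refine Subgroup.subset_closure ?_
      show Nat.Coprime (orderOf (φ x)) p
      rw [MulEquiv.orderOf_eq]
      exact hx
    rw [hR]
    exact Subgroup.le_normalizer.trans (H13.Cores.normalizer_le_normalizer_map H (Cfsg.pResidual p ↥H))
  have hcomm : ⁅V, R⁆ ≤ V := by
    rw [Subgroup.commutator_le]
    intro v hv r hr
    have h1 : r * v⁻¹ * r⁻¹ ∈ V := (Subgroup.mem_normalizer_iff.1 (hRV hr) _).1 (V.inv_mem hv)
    have h2 : v * r * v⁻¹ * r⁻¹ = v * (r * v⁻¹ * r⁻¹) := by group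
    show v * r * v⁻¹ * r⁻¹ ∈ V
    rw [h2]; exact V.mul_mem hv h1
  apply le_antisymm
  · exact sup_le hcomm inf_le_left
  · apply hgen
    · -- H normalizes
      intro h hh
      apply H51.AmalgamBasic2.mem_normalizer_of_map_conj_eq
      have e1 : V.map (MulAut.conj h).toMonoidHom = V :=
        H51.AmalgamBasic2.map_conj_eq_of_mem_normalizer (hHV hh)
      have e2 : R.map (MulAut.conj h).toMonoidHom = R :=
        H51.AmalgamBasic2.map_conj_eq_of_mem_normalizer (hHR hh)
      rw [Subgroup.map_sup, Subgroup.map_commutator, Subgroup.map_inf _ _ _ (MulAut.conj h).injective,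
        H51.AmalgamBasic.map_conj_centralizer, e1, e2]
    · intro v hv
      obtain ⟨hvV, hvT⟩ := Subgroup.mem_inf.1 hv
      obtain ⟨w, hwV, hwR, hw⟩ := H51.Averaging.exists_norm hV.1 hRV hvV hvT
      set n := T.relIndex R with hn
      have h1 : v ^ n ∈ ⁅V, R⁆ ⊔ (V ⊓ Subgroup.centralizer (R : Set G)) := by
        have h2 : v ^ n = (w * (v ^ n)⁻¹)⁻¹ * w := by group
        rw [h2]
        exact mul_mem (inv_mem (Subgroup.mem_sup_left hw)) (Subgroup.mem_sup_right (Subgroup.mem_inf.2 ⟨hwV, hwR⟩))
      have hcop : n.Coprime p := ((Fact.out : p.Prime).coprime_iff_not_dvd.2 hTi).symm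
      -- v ∈ ⟨v ^ n⟩
      have h3 : (orderOf v).Coprime n := by
        have : orderOf v ∣ p := orderOf_dvd_of_pow_eq_one (hV.2 v hvV)
        exact (hcop.coprime_dvd_right this).symm
      obtain ⟨m, hm⟩ := exists_pow_eq_self_of_coprime h3.symm
      rw [← hm]
      exact Subgroup.pow_mem _ h1 m

end Cfsg.Agent.S2781
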