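import Cfsg.Statements.S2787
import Cfsg.Agent.Lib.H51.QuadSL2
import Cfsg.Agent.Lib.H24.ReeSyl2

set_option autoImplicit false
open Cfsg

namespace Cfsg.Agent.S2787

open Cfsg Subgroup in
/-- groups with elementary abelian Sylow 2-subgroups do not involve `SL₂(3)` -/
theorem not_involves {Q : Type*} [Group Q] [Finite Q] (hS : ∀ S : Sylow 2 Q, ∀ x ∈ S, x * x = 1) :
    ¬ Involves (Matrix.SpecialLinearGroup (Fin 2) (ZMod 3)) Q := by
  intro h
  have hf2 : Fact (Nat.Prime 2) := ⟨Nat.prime_two⟩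
  obtain ⟨K, f, hf⟩ := H51.Involves.exists_surjective h
  let s : Matrix.SpecialLinearGroup (Fin 2) (ZMod 3) := ⟨!![0, 1; -1, 0], by simp [Matrix.det_fin_two_of]⟩
  have hss : s * s ≠ 1 := by
    intro h1
    have h2 := congrArg (fun M : Matrix.SpecialLinearGroup (Fin 2) (ZMod 3) => M.1 0 0) h1
    have h3 : (s * s).1 0 0 = -1 := by rw [H51.NatSL2.mul_apply2]; simp [s]
    have h4 : (-1 : ZMod 3) = (1 : Matrix.SpecialLinearGroup (Fin 2) (ZMod 3)).1 0 0 := h3.symm.trans h2
    clear h2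
    have h2 := h4
    revert h2
    decide
  have hs4 : orderOf s = 2 ^ 2 := by
    apply orderOf_eq_prime_pow (p := 2) (n := 1)
    · rw [pow_one, sq]; exact hss
    · decide +revert
  obtain ⟨x, -, hx, k, hk⟩ := H51.Involves.exists_lift_pElement Nat.prime_two f ⊤ (s := s)
    (by rw [← MonoidHom.range_eq_map, MonoidHom.range_eq_top.2 hf]; trivial) ⟨2, hs4⟩
  have hP : IsPGroup 2 (Subgroup.zpowers (x : Q)) := by
    rw [IsPGroup.iff_card, Nat.card_zpowers]
    exact ⟨k, by rw [Subgroup.orderOf_coe]; exact hk⟩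
  obtain ⟨S, hS'⟩ := hP.exists_le_sylow
  have h1 := hS S x (hS' (Subgroup.mem_zpowers _))
  have h2 : x * x = 1 := Subtype.ext h1
  apply hss
  rw [← hx, ← map_mul, h2, map_one]

/-- Let p be a prime and let H act by conjugation on the elementary abelian p-subgroup V of a finite group, irreducibly (no H-invariant subgroups of V other than 1 and V) and nontrivially, and suppose H/C_H(V) is isomorphic to PSL₂(F) for a field F with p^n elements, p^n odd, or p = 3 and H/C_H(V) is isomorphic to a Ree group ²G₂(3^(2m+1)), m ≥ 1. Then no subgroup A of H acting nontrivially on V acts quadratically: [V, A, A] = 1 forces [V, A] = 1. -/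
theorem result {G : Type*} [Group G] [Finite G] {p : ℕ} [Fact p.Prime] (V H : Subgroup G) (hV : Cfsg.IsElementaryAbelian p V) (hHV : H ≤ Subgroup.normalizer (V : Set G)) (hirr : ∀ U : Subgroup G, U ≤ V → H ≤ Subgroup.normalizer (U : Set G) → U = ⊥ ∨ U = V) (hnt : ¬ H ≤ Subgroup.centralizer (V : Set G)) [hn : ((Subgroup.centralizer (V : Set G)).subgroupOf H).Normal] (hq : (∃ (F : Type) (_ : Field F) (_ : Fintype F) (n : ℕ), Fintype.card F = p ^ n ∧ Odd (Fintype.card F) ∧ Nonempty (↥H ⧸ (Subgroup.centralizer (V : Set G)).subgroupOf H ≃* Matrix.ProjectiveSpecialLinearGroup (Fin 2) F)) ∨ (p = 3 ∧ Cfsg.Lie.IsoRee (↥H ⧸ (Subgroup.centralizer (V : Set G)).subgroupOf H))) (A : Subgroup G) (hA : A ≤ H) (hquad : ⁅⁅V, A⁆, A⁆ = ⊥) : ⁅V, A⁆ = ⊥ := by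

  classical
  have hVp : IsPGroup p V := fun v => ⟨1, by rw [pow_one]; exact Subtype.ext (hV.2 v.1 v.2)⟩
  set C := (Subgroup.centralizer (V : Set G)).subgroupOf H with hC
  by_contra hcon
  -- a nontrivial quadratic element
  obtain ⟨a, haA, haC⟩ : ∃ a ∈ A, a ∉ Subgroup.centralizer (V : Set G) := by
    by_contra hc
    push Not at hc
    apply hcon
    rw [Subgroup.commutator_comm, Subgroup.commutator_eq_bot_iff_le_centralizer]
    exact hc
  have hqa : H51.QdStab.Quad a V := by
    apply H51.QdStab.quad_of_commutator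
    rw [eq_bot_iff, ← hquad]
    have hz : Subgroup.zpowers a ≤ A := Subgroup.zpowers_le.2 haA
    exact Subgroup.commutator_mono (Subgroup.commutator_mono le_rfl hz) hz
  have hkerg : ∀ {Q : Type _} [Group Q] (e : H ⧸ C ≃* Q) (h : H),
      (e.toMonoidHom.comp (QuotientGroup.mk' C)) h = 1 ↔ (h : G) ∈ Subgroup.centralizer (V : Set G) := by
    intro Q _ e h
    have h1 : (e.toMonoidHom.comp (QuotientGroup.mk' C)) h = e (QuotientGroup.mk' C h) := rfl
    rw [h1, map_eq_one_iff e e.injective, QuotientGroup.mk'_apply, QuotientGroup.eq_one_iff, hC,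
      Subgroup.mem_subgroupOf]
  rcases hq with ⟨F, _, _, n, hF, hodd, ⟨e⟩⟩ | ⟨hp3, K, _, _, m, hm, hK, ⟨e⟩⟩
  · have hchar : CharP F p := H51.NatSL2.charP_of_card p hF
    have hp2 : p ≠ 2 := by
      rintro rfl
      rw [hF] at hodd
      have hn0 : n ≠ 0 := by
        rintro rfl
        have := Fintype.one_lt_card (α := F)
        rw [hF, pow_zero] at this
        exact lt_irrefl _ this
      exact (Nat.not_odd_iff_even.2 ((Nat.even_pow.2 ⟨even_two, hn0⟩))) hodd
    exact haC (H51.QuadL2.l2_case hp2 hV hHV (e.toMonoidHom.comp (QuotientGroup.mk' C))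
      (e.surjective.comp (QuotientGroup.mk'_surjective _)) (hkerg e) (a := ⟨a, hA haA⟩) hqa)
  · subst hp3
    have hRF := H24.ReeGrp.rf_of_card hK
    have h2 : Nat.card K = 3 ^ (2 * m + 1) := by rw [Nat.card_eq_fintype_card, hK]
    have hinv := H51.QuadSL2.main (p := 3) (by norm_num) hVp hHV hirr (e.toMonoidHom.comp (QuotientGroup.mk' C))
      (hkerg e) (a := ⟨a, hA haA⟩) hqa haC
    exact not_involves (fun S => (H24.ReeSyl2.sylow2 (K := K) (e := 3 ^ m) h2 S).2) hinv

end Cfsg.Agent.S2787
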