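import Cfsg.Statements.S2788
import Cfsg.Agent.Lib.H51.SL2Bound2

set_option autoImplicit false
open Cfsg

namespace Cfsg.Agent.S2788

/-- Let H act faithfully by conjugation on the elementary abelian p-subgroup V of a finite group with H ≅ SL₂(F), F a field with p^n elements, S a Sylow p-subgroup of H, and A ≤ S a subgroup of order at least 3 acting quadratically on V ([V, A, A] = 1). Then |V/C_V(a)| ≥ p^n for every nonidentity a ∈ A. -/
theorem result {G : Type*} [Group G] [Finite G] {p : ℕ} [Fact p.Prime] (V H : Subgroup G) (hV : Cfsg.IsElementaryAbelian p V) (hHV : H ≤ Subgroup.normalizer (V : Set G)) (hf : H ⊓ Subgroup.centralizer (V : Set G) = ⊥) {F : Type*} [Field F] [Fintype F] (n : ℕ) (hF : Fintype.card F = p ^ n) (hiso : Nonempty (↥H ≃* Matrix.SpecialLinearGroup (Fin 2) F)) (S : Sylow p ↥H) (T : Subgroup G) (hT : T = ((S : Subgroup ↥H).map H.subtype)) (A : Subgroup G) (hA : A ≤ T) (hA3 : 3 ≤ Nat.card A) (hquad : ⁅⁅V, A⁆, A⁆ = ⊥) : ∀ a ∈ A, a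 ≠ 1 → p ^ n ≤ ((V ⊓ Subgroup.centralizer ({a} : Set G))).relIndex V := by
  classical
  obtain ⟨e⟩ := hiso
  have hchar : CharP F p := H51.NatSL2.charP_of_card p hF
  intro a ha ha1
  have haT : a ∈ T := hA ha
  rw [hT, Subgroup.mem_map] at haT
  obtain ⟨s, hsS, hsa⟩ := haT
  have hsa' : (s : G) = a := hsa
  have hs1 : s ≠ 1 := by
    rintro rfl
    exact ha1 (by rw [← hsa']; rfl)
  obtain ⟨j, hj⟩ : ∃ j, s ^ p ^ j = 1 := by
    obtain ⟨j, hj⟩ := S.isPGroup' ⟨s, hsS⟩
    exact ⟨j, congrArg Subtype.val hj⟩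
  have hVp : IsPGroup p V := fun v => ⟨1, by rw [pow_one]; exact Subtype.ext (hV.2 v.1 v.2)⟩
  have h1 := H51.SL2Bound2.main hVp hHV hf hF
    ((QuotientGroup.mk' (Subgroup.center (Matrix.SpecialLinearGroup (Fin 2) F))).comp e.toMonoidHom)
    ((QuotientGroup.mk'_surjective _).comp e.surjective) (s := s) ⟨j, hj⟩ (by
      apply H51.SL2Bound2.psl_ne (p := p) (j := j)
      · show (e s) ^ p ^ j = 1
        rw [← map_pow, hj, map_one]
      · intro h
        exact hs1 (e.injective (h.trans (map_one e).symm)))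
  rw [← hsa']
  exact h1.2

end Cfsg.Agent.S2788
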