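import Cfsg.Statements.S2791
import Cfsg.Agent.Lib.H51.StrClosed

set_option autoImplicit false
open Cfsg

namespace Cfsg.Agent.S2791

/-- Let S be a Sylow p-subgroup of the finite group G and A an abelian subgroup of S that is strongly closed in S with respect to G. Then A controls strong fusion in G: for some Sylow p-subgroup T containing A, whenever a subset of T is conjugated into T by an element of G, the same elementwise conjugation is induced by an element of N_G(A). -/
theorem result {G : Type*} [Group G] [Finite G] {p : ℕ} [Fact p.Prime] (S : Sylow p G) (A : Subgroup G) (hA : IsMulCommutative ↥A) (hsc : Cfsg.IsStronglyClosed A (S : Subgroup G)) : Cfsg.ControlsStrongFusion p A := by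

  have hAb : ∀ a ∈ A, ∀ b ∈ A, a * b = b * a := H51.ThompsonA.ab_iff.2 hA
  refine ⟨S, hsc.1, fun B hB => ⟨hB, fun g hg => ?_⟩⟩
  have h1 : Subgroup.closure B ≤ (S : Subgroup G) := (Subgroup.closure_le _).2 hB
  obtain ⟨n, hn, h⟩ := H51.StrClosed.main (p := p) S.isPGroup' S.not_dvd_index hAb hsc (Nat.card (S : Subgroup G))
    (Subgroup.closure B) h1 (Nat.le_add_left _ _) g (by
      rw [H51.WeakClos.cj, MonoidHom.map_closure, Subgroup.closure_le]
      rintro _ ⟨b, hb, rfl⟩
      exact hg ⟨b, hb, rfl⟩)
  exact ⟨n, hn, fun b hb => h b (Subgroup.subset_closure hb)⟩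

end Cfsg.Agent.S2791
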