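import Cfsg.Statements.S2941
import Mathlib
import Cfsg.Agent.Lib.H54.Basic

set_option autoImplicit false
open Cfsg

namespace Cfsg.Agent.S2941

/-- Let G be a finite group of characteristic 2 type in which every 2-local subgroup is solvable and the centralizer of Ω₁(Z(S)) lies in N_G(S) for every Sylow 2-subgroup S, and let T be a nontrivial 2-subgroup and K a J(T)-component (J the Thompson subgroup generated by the elementary abelian 2-subgroups of largest order). If a subgroup Q is normalized by ⟨K, J(T)⟩ and normalizes J(T), then Q normalizes K. -/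
theorem result {G : Type*} [Group G] [Finite G] (hL : Cfsg.IsCharacteristicTwoType G) (hN : ∀ N : Subgroup G, Cfsg.IsTwoLocal N → Group.IsSolvable ↥N)
    (hZ : ∀ S : Sylow 2 G, Subgroup.centralizer (Cfsg.omegaCenterOf (S : Subgroup G) : Set G) ≤ Subgroup.normalizer ((S : Subgroup G) : Set G)) (T : Subgroup G) (hT : IsPGroup 2 ↥T) (hT1 : T ≠ ⊥) (K : Subgroup G) (hK : Cfsg.IsJComponent T K)
    (Q : Subgroup G) (hQ1 : K ⊔ Cfsg.thompsonSubgroupOf 2 T ≤ Subgroup.normalizer (Q : Set G)) (hQ2 : Q ≤ Subgroup.normalizer (Cfsg.thompsonSubgroupOf 2 T : Set G)) :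
    Q ≤ Subgroup.normalizer (K : Set G) := by
  classical
  obtain ⟨hgen, hcomm, -⟩ := hK
  set J : Subgroup G := Cfsg.thompsonSubgroupOf 2 T with hJ
  have hJT : J ≤ T := Subgroup.map_subtype_le _
  have hJ2 : IsPGroup 2 ↥J := hT.to_le hJT
  -- J normalizes K
  have hJK : J ≤ Subgroup.normalizer (K : Set G) := by
    apply H54.Basic.le_normalizer_of_conj
    intro j hj k hk
    have h1 : k * j * k⁻¹ * j⁻¹ ∈ K := by
      have : k * j * k⁻¹ * j⁻¹ ∈ ⁅K, J⁆ := Subgroup.commutator_mem_commutator hk hj
      rw [hcomm] at this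
      exact this
    have h2 := K.mul_mem (K.inv_mem h1) hk
    have h3 : (k * j * k⁻¹ * j⁻¹)⁻¹ * k = j * k * j⁻¹ := by group
    rw [← h3]
    exact h2
  -- Y is the closure of the K-conjugates of J
  let Y : Subgroup G := ⨆ k : ↥K, J.map (MulAut.conj (k : G)).toMonoidHom
  have hJY : J ≤ Y := by
    have := le_iSup (fun k : ↥K => J.map (MulAut.conj (k : G)).toMonoidHom) 1
    simp only [Subgroup.coe_one, H54.Basic.map_conj_one] at this
    exact this
  have hKY : K ≤ Y := by
    rw [← hcomm, Subgroup.commutator_le]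
    intro k hk j hj
    have h1 : k * j * k⁻¹ ∈ Y := by
      have := le_iSup (fun k : ↥K => J.map (MulAut.conj (k : G)).toMonoidHom) ⟨k, hk⟩
      exact this ((H54.Basic.mem_map_conj _ _ _).mpr (by simpa [mul_assoc] using hj))
    have h2 : j ∈ Y := hJY hj
    have := Y.mul_mem h1 (Y.inv_mem h2)
    simpa [commutatorElement_def] using this
  have hYle : Y ≤ K ⊔ J := by
    refine iSup_le fun k => ?_
    intro x hx
    rw [H54.Basic.mem_map_conj] at hx
    have h1 : (k : G) ∈ K ⊔ J := Subgroup.mem_sup_left k.2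
    have h2 : (k : G)⁻¹ * x * k ∈ K ⊔ J := Subgroup.mem_sup_right hx
    have := (K ⊔ J).mul_mem ((K ⊔ J).mul_mem h1 h2) ((K ⊔ J).inv_mem h1)
    simpa [mul_assoc] using this
  -- Q normalizes Y
  have hQY : Q ≤ Subgroup.normalizer (Y : Set G) := by
    intro q hq
    rw [← H54.Basic.map_conj_eq_iff]
    rw [Subgroup.map_iSup]
    congr 1
    funext k
    rw [← H54.Basic.map_conj_mul]
    have h1 : (k : G)⁻¹ * q * k ∈ Q :=
      H54.Basic.inv_mul_mem_of_mem_normalizer (hQ1 (Subgroup.mem_sup_left k.2)) hq
    have h2 := (H54.Basic.map_conj_eq_iff _ _).mpr (hQ2 h1)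
    rw [show q * (k : G) = k * ((k : G)⁻¹ * q * k) by group, H54.Basic.map_conj_mul, h2]
  -- K is generated by the odd order elements of Y
  have hodd : ∀ x ∈ Y, Odd (orderOf x) → x ∈ K := by
    intro x hx hox
    exact H54.Basic.mem_of_coprime_orderOf (p := 2) hJK hJ2 (hYle hx) (by
      rwa [Nat.coprime_comm, Nat.coprime_two_left])
  have hkey : ∀ q ∈ Q, ∀ k ∈ K, q * k * q⁻¹ ∈ K := by
    intro q hq k hk
    rw [← hgen] at hk
    induction hk using Subgroup.closure_induction with
    | mem x hx =>
      apply hodd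
      · exact H54.Basic.mul_inv_mem_of_mem_normalizer (hQY hq) (hKY hx.1)
      · have : orderOf (q * x * q⁻¹) = orderOf x := by
          have := orderOf_injective (MulAut.conj q).toMonoidHom (MulAut.conj q).injective x
          simpa [MulAut.conj_apply] using this
        rw [this]
        exact hx.2
    | one => simp
    | mul x y _ _ hx hy =>
      have := K.mul_mem hx hy
      simpa [mul_assoc] using this
    | inv x _ hx =>
      have := K.inv_mem hx
      simpa [mul_assoc] using this
  exact H54.Basic.le_normalizer_of_conj hkey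

end Cfsg.Agent.S2941
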