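import Cfsg.Statements.S2943
import Cfsg.Agent.Lib.H54.Setup

set_option autoImplicit false
open Cfsg

namespace Cfsg.Agent.S2943

/-- Let G be a finite group of characteristic 2 type in which every 2-local subgroup is solvable and the centralizer of Ω₁(Z(S)) lies in N_G(S) for every Sylow 2-subgroup S, and let T be a nontrivial 2-subgroup (below, J is the Thompson subgroup generated by the elementary abelian 2-subgroups of largest order), L a subgroup in which T is a Sylow 2-subgroup with J(T) not contained in O₂(L) and C_G(O₂(L)) ≤ O₂(L), and K a J(T)-component contained in L. If Z(T) meets W_K = [Ω₁(Z(O₂(K))), K] nontrivially, then T normalizes K. -/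
theorem result {G : Type*} [Group G] [Finite G] (hL : Cfsg.IsCharacteristicTwoType G) (hN : ∀ N : Subgroup G, Cfsg.IsTwoLocal N → Group.IsSolvable ↥N)
    (hZ : ∀ S : Sylow 2 G, Subgroup.centralizer (Cfsg.omegaCenterOf (S : Subgroup G) : Set G) ≤ Subgroup.normalizer ((S : Subgroup G) : Set G)) (T : Subgroup G) (hT : IsPGroup 2 ↥T) (hT1 : T ≠ ⊥) (L : Subgroup G) (hLT : L ∈ Cfsg.jOvergroups T)
    (K : Subgroup G) (hK : Cfsg.IsJComponent T K) (hKL : K ≤ L)
    (hZW : T ⊓ Subgroup.centralizer (T : Set G) ⊓ Cfsg.wOf K ≠ ⊥) : T ≤ Subgroup.normalizer (K : Set G) := by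
  classical
  have hg : H54.Setup.Glob G := ⟨hL, hN, hZ⟩
  obtain ⟨h1, h2, h3⟩ := hLT
  obtain ⟨S₀, hS₀⟩ := hT.exists_le_sylow
  have hlh := hg.lh (H54.Setup.syl_iff.mp h1) hT1 h3 S₀ hS₀
  have hK' := H54.Setup.isJComponent_iff.mp hK
  have hW := hlh.comm_eq_wOf hKL hK'.pre hK'.card
  obtain ⟨z, hz1⟩ := (Subgroup.ne_bot_iff_exists_ne_one).mp hZW
  have hzT := (Subgroup.mem_inf.mp (Subgroup.mem_inf.mp z.2).1).2
  have hzW := (Subgroup.mem_inf.mp z.2).2
  have hz1' : (z : G) ≠ 1 := fun h => hz1 (Subtype.ext h)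
  intro x hx
  refine hlh.mem_normalizer_of_fix hKL hK'.pre (h1.1 hx) (hlh.T_le_norm hx) (z := z)
    (by rw [hW]; exact hzW) hz1' ?_
  have h4 := Subgroup.mem_centralizer_iff.mp hzT x hx
  have h5 : x * (z : G) * x⁻¹ = z := by rw [h4]; group
  rw [h5, hW]
  exact hzW

end Cfsg.Agent.S2943
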