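import Cfsg.Statements.S2948
import Cfsg.Agent.Lib.H54.Straddle

set_option autoImplicit false
open Cfsg

namespace Cfsg.Agent.S2948

/-- Let G be a finite group of characteristic 2 type in which every 2-local subgroup is solvable and the centralizer of Ω₁(Z(S)) lies in N_G(S) for every Sylow 2-subgroup S; suppose O₂(G) = 1, fix a Sylow 2-subgroup S and a 2-local subgroup M containing N_G(J(S)) (J the Thompson subgroup generated by the elementary abelian 2-subgroups of largest order). Let T be maximal (as in the family 𝒯*(M): lexicographically for the order of a largest elementary abelian subgroup, the order of J(T), the order of T) among the nontrivial 2-subgroups of M lying in a 2-local subgroup not inside M, and let L be a 2-local subgroup not contained in M with a Sylow 2-subgroup T₀ containing J(T). Then J(T) = J(T₀), T₀ again lies in a 2-local subgroup not inside M (and is a nontrivial 2-subgroup of M), and L belongs to the family ℒ(T₀):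 T₀ is Sylow in L, J(T₀) is not inside O₂(L) and C_G(O₂(L)) ≤ O₂(L). In particular if T ≤ L then T itself is a Sylow 2-subgroup of L, L ∈ ℒ(T), and L contains a J(T)-component. -/
theorem result {G : Type*} [Group G] [Finite G] (hL : Cfsg.IsCharacteristicTwoType G) (hN : ∀ N : Subgroup G, Cfsg.IsTwoLocal N → Group.IsSolvable ↥N)
    (hZ : ∀ S : Sylow 2 G, Subgroup.centralizer (Cfsg.omegaCenterOf (S : Subgroup G) : Set G) ≤ Subgroup.normalizer ((S : Subgroup G) : Set G)) (hO : Cfsg.pCore 2 G = ⊥) (S : Sylow 2 G) (M : Subgroup G) (hM : Cfsg.IsTwoLocal M)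
    (hMJ : Subgroup.normalizer (Cfsg.thompsonSubgroupOf 2 (S : Subgroup G) : Set G) ≤ M) (T : Subgroup G) (hT : T ∈ Cfsg.maxStraddlingTwoSubgroups M)
    (L : Subgroup G) (hL2 : Cfsg.IsTwoLocal L) (hLM : ¬ L ≤ M) (T₀ : Subgroup G) (hT₀ : Cfsg.IsSylowTwoIn T₀ L)
    (hJT₀ : Cfsg.thompsonSubgroupOf 2 T ≤ T₀) :
    Cfsg.thompsonSubgroupOf 2 T = Cfsg.thompsonSubgroupOf 2 T₀ ∧ T₀ ∈ Cfsg.straddlingTwoSubgroups M ∧ L ∈ Cfsg.jOvergroups T₀ ∧
      (T ≤ L → L ∈ Cfsg.jOvergroups T ∧ ∃ K : Subgroup G, Cfsg.IsJComponent T K ∧ K ≤ L) := by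
  classical
  have hg : H54.Setup.Glob G := ⟨hL, hN, hZ⟩
  obtain ⟨h1, h2, h3, h4⟩ := H54.Setup.straddle_main hMJ hT hL2 hLM (H54.Setup.syl_iff.mp hT₀) hJT₀
  have hch := hg.char2 hL2
  refine ⟨h1.symm, h2, ⟨hT₀, h3, hch⟩, fun hTL => ?_⟩
  have hTs := H54.Setup.sylIn_of_le hMJ hT hL2 hLM hTL
  obtain ⟨g1, g2, g3, g4⟩ := H54.Setup.straddle_main hMJ hT hL2 hLM hTs
    (H13.SylowN.thompsonOf_le T)
  refine ⟨⟨H54.Setup.syl_iff.mpr hTs, g3, hch⟩, ?_⟩
  obtain ⟨S₀, hS₀⟩ := hT.1.1.exists_le_sylow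
  have hlh := hg.lh hTs hT.1.2.1 hch S₀ hS₀
  obtain ⟨K, hK, hKL⟩ := hlh.exists_comp g3
  exact ⟨K, H54.Setup.isJComponent_iff.mpr (H54.Setup.jcomp_of_pre hTs hlh hKL hK), hKL⟩

end Cfsg.Agent.S2948
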