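import Cfsg.Statements.S2953
import Cfsg.Agent.Lib.H54.Final

set_option autoImplicit false
open Cfsg

namespace Cfsg.Agent.S2953

/-- Let G be a finite group of characteristic 2 type in which every 2-local subgroup is solvable and the centralizer of Ω₁(Z(S)) lies in N_G(S) for every Sylow 2-subgroup S; suppose O₂(G) = 1, fix a Sylow 2-subgroup S and a 2-local subgroup M containing N_G(J(S)) (J the Thompson subgroup generated by the elementary abelian 2-subgroups of largest order). Let T be maximal (for the order of a largest elementary abelian subgroup, then the order of J(T), then the order of T) among the nontrivial 2-subgroups of M lying in a 2-local subgroup not inside M. Then there are two distinct J(T)-components K₁, K₂ such that, with Pᵢ = ⟨Kᵢ, T⟩: C_G(O₂(Pᵢ)) ≤ O₂(Pᵢ), T is a Sylow 2-subgroup of Pᵢ, O₂(Pᵢ) has index 6 in Pᵢ with Pᵢ/O₂(Pᵢ) non-abelian,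 [Ω₁(Z(T)), Pᵢ] ≠ 1, O₂(⟨P₁, P₂⟩) = 1, and each Pᵢ lies in exactly one maximal 2-local subgroup Lᵢ of G, in which T is a Sylow 2-subgroup. -/
theorem result {G : Type*} [Group G] [Finite G] (hL : Cfsg.IsCharacteristicTwoType G) (hN : ∀ N : Subgroup G, Cfsg.IsTwoLocal N → Group.IsSolvable ↥N)
    (hZ : ∀ S : Sylow 2 G, Subgroup.centralizer (Cfsg.omegaCenterOf (S : Subgroup G) : Set G) ≤ Subgroup.normalizer ((S : Subgroup G) : Set G)) (hO : Cfsg.pCore 2 G = ⊥) (S : Sylow 2 G) (M : Subgroup G) (hM : Cfsg.IsTwoLocal M)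
    (hMJ : Subgroup.normalizer (Cfsg.thompsonSubgroupOf 2 (S : Subgroup G) : Set G) ≤ M) (T : Subgroup G) (hT : T ∈ Cfsg.maxStraddlingTwoSubgroups M) :
    ∃ K₁ K₂ : Subgroup G, K₁ ≠ K₂ ∧ Cfsg.IsJComponent T K₁ ∧ Cfsg.IsJComponent T K₂ ∧
      Cfsg.pCoreOf 2 ((K₁ ⊔ T) ⊔ (K₂ ⊔ T)) = ⊥ ∧
      ∀ P ∈ [K₁ ⊔ T, K₂ ⊔ T],
        Subgroup.centralizer (Cfsg.pCoreOf 2 P : Set G) ≤ Cfsg.pCoreOf 2 P ∧ Cfsg.IsSylowTwoIn T P ∧
        (Cfsg.pCoreOf 2 P).relIndex P = 6 ∧ ¬ ⁅P, P⁆ ≤ Cfsg.pCoreOf 2 P ∧ ⁅Cfsg.omegaCenterOf T, P⁆ ≠ ⊥ ∧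
        ∃ L : Subgroup G, Cfsg.IsMaximalTwoLocal L ∧ P ≤ L ∧ Cfsg.IsSylowTwoIn T L ∧
          ∀ L' : Subgroup G, Cfsg.IsMaximalTwoLocal L' → P ≤ L' → L' = L := by
  have h : H54.Setup.MS M T := ⟨⟨hL, hN, hZ⟩, hT, ⟨S, hMJ⟩, hM, hO⟩
  obtain ⟨K, hK⟩ := h.exists_out
  obtain ⟨S₀, hS₀⟩ := h.T2.exists_le_sylow
  obtain ⟨L, h1, h2, -⟩ := h.exists_unique hK
  obtain ⟨-, K₂, L₂, t⟩ := H54.Setup.full h hK h1 h2 hS₀
  have key : ∀ K L : Subgroup G, H54.Setup.One T K L →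
      Subgroup.centralizer (Cfsg.pCoreOf 2 (K ⊔ T) : Set G) ≤ Cfsg.pCoreOf 2 (K ⊔ T) ∧
        Cfsg.IsSylowTwoIn T (K ⊔ T) ∧
        (Cfsg.pCoreOf 2 (K ⊔ T)).relIndex (K ⊔ T) = 6 ∧
        ¬ ⁅K ⊔ T, K ⊔ T⁆ ≤ Cfsg.pCoreOf 2 (K ⊔ T) ∧ ⁅Cfsg.omegaCenterOf T, K ⊔ T⁆ ≠ ⊥ ∧
        ∃ L : Subgroup G, Cfsg.IsMaximalTwoLocal L ∧ K ⊔ T ≤ L ∧ Cfsg.IsSylowTwoIn T L ∧
          ∀ L' : Subgroup G, Cfsg.IsMaximalTwoLocal L' → K ⊔ T ≤ L' → L' = L := by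
    intro K L o
    refine ⟨o.charP h.hg, H54.Setup.syl_iff.mpr o.syl_P, o.idx_core h.hg, o.nonab h.hg, ?_,
      L, o.u.mx, o.P_le, H54.Setup.syl_iff.mpr o.s, o.uniqueP⟩
    intro hb
    apply o.active
    rw [Subgroup.le_centralizer_iff, ← Subgroup.commutator_eq_bot_iff_le_centralizer]
    exact hb
  refine ⟨K, K₂, t.K_ne, H54.Setup.isJComponent_iff.mpr t.one.c,
    H54.Setup.isJComponent_iff.mpr t.two.c, t.core_bot, ?_⟩
  intro P hP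
  simp only [List.mem_cons, List.not_mem_nil, or_false] at hP
  rcases hP with rfl | rfl
  · exact key K L t.one
  · exact key K₂ L₂ t.two

end Cfsg.Agent.S2953
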