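import Cfsg.Statements.S2954
import Cfsg.Agent.Lib.H54.SFour

set_option autoImplicit false
open Cfsg

namespace Cfsg.Agent.S2954

/-- Let G be a finite group of characteristic 2 type in which every 2-local subgroup is solvable and the centralizer of Ω₁(Z(S)) lies in N_G(S) for every Sylow 2-subgroup S; suppose O₂(G) = 1, fix a Sylow 2-subgroup S and a 2-local subgroup M containing N_G(J(S)) (J the Thompson subgroup generated by the elementary abelian 2-subgroups of largest order). If T is maximal (for the order of a largest elementary abelian subgroup, then the order of J(T), then the order of T) among the nontrivial 2-subgroups of M lying in a 2-local subgroup not inside M, then there are two distinct maximal 2-local subgroups P₁, P₂ of G, each having T as a Sylow 2-subgroup, that are both isomorphic to the symmetric group on four letters or both isomorphic to its direct product with a group of order 2. -/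
theorem result {G : Type*} [Group G] [Finite G] (hL : Cfsg.IsCharacteristicTwoType G) (hN : ∀ N : Subgroup G, Cfsg.IsTwoLocal N → Group.IsSolvable ↥N)
    (hZ : ∀ S : Sylow 2 G, Subgroup.centralizer (Cfsg.omegaCenterOf (S : Subgroup G) : Set G) ≤ Subgroup.normalizer ((S : Subgroup G) : Set G)) (hO : Cfsg.pCore 2 G = ⊥) (S : Sylow 2 G) (M : Subgroup G) (hM : Cfsg.IsTwoLocal M)
    (hMJ : Subgroup.normalizer (Cfsg.thompsonSubgroupOf 2 (S : Subgroup G) : Set G) ≤ M) (T : Subgroup G) (hT : T ∈ Cfsg.maxStraddlingTwoSubgroups M) :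
    ∃ P₁ P₂ : Subgroup G, P₁ ≠ P₂ ∧ Cfsg.IsMaximalTwoLocal P₁ ∧ Cfsg.IsMaximalTwoLocal P₂ ∧
      Cfsg.IsSylowTwoIn T P₁ ∧ Cfsg.IsSylowTwoIn T P₂ ∧
      ((Nonempty (↥P₁ ≃* Equiv.Perm (Fin 4)) ∧ Nonempty (↥P₂ ≃* Equiv.Perm (Fin 4))) ∨
        (Nonempty (↥P₁ ≃* Equiv.Perm (Fin 4) × Multiplicative (ZMod 2)) ∧
          Nonempty (↥P₂ ≃* Equiv.Perm (Fin 4) × Multiplicative (ZMod 2)))) := by
  have h : H54.Setup.MS M T := ⟨⟨hL, hN, hZ⟩, hT, ⟨S, hMJ⟩, hM, hO⟩
  obtain ⟨K, hK⟩ := h.exists_out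
  obtain ⟨S₀, hS₀⟩ := h.T2.exists_le_sylow
  obtain ⟨L, h1, h2, -⟩ := h.exists_unique hK
  obtain ⟨-, K₂, L₂, t⟩ := H54.Setup.full h hK h1 h2 hS₀
  obtain ⟨s₁, s₂⟩ := t.sd h.hg
  have e₁ := s₁.L_eq h.hg
  have e₂ := s₂.L_eq h.hg
  refine ⟨K ⊔ T, K₂ ⊔ T, ?_, ?_, ?_, H54.Setup.syl_iff.mpr t.one.syl_P,
    H54.Setup.syl_iff.mpr t.two.syl_P, ?_⟩
  · intro hcon
    apply t.ne
    rw [e₁, e₂, hcon]
  · rw [← e₁]; exact t.one.u.mx
  · rw [← e₂]; exact t.two.u.mx
  · by_cases hc : Nat.card (Cfsg.omegaCenterOf T) = 2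
    · exact Or.inl ⟨(s₁.iso h.hg).1 hc, (s₂.iso h.hg).1 hc⟩
    · exact Or.inr ⟨(s₁.iso h.hg).2 hc, (s₂.iso h.hg).2 hc⟩

end Cfsg.Agent.S2954
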