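import Cfsg.Statements.S3084
import Mathlib
import Cfsg.Agent.Lib.H56.X84b

set_option autoImplicit false
open Cfsg

namespace Cfsg.Agent.S3084

/-- Let K be a group acting faithfully and linearly on a finite-dimensional vector space U of dimension 2n ≥ 2 over the field with two elements, preserving a quadratic form q whose polar bilinear form is non-degenerate and which vanishes on some n-dimensional subspace (a non-singular form of plus type). Then there is a finite group R with a normal extraspecial 2-subgroup Q of order 2^(2n+1), an isomorphism of R/Q with K, and a surjective homomorphism χ from Q onto (the additive group of) U with kernel the centre of Q, such that χ carries conjugation by any r in R to the action of the image of r in K, and an element a of Q squares to the identity exactly when q vanishes at χ(a). -/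
theorem result {K : Type*} [Group K] {U : Type*} [AddCommGroup U] [Module (ZMod 2) U] [Module.Finite (ZMod 2) U] (n : ℕ) (hn1 : 1 ≤ n) (hn : Module.finrank (ZMod 2) U = 2 * n) (ρ : Representation (ZMod 2) K U) (hρ : Function.Injective ρ) (q : QuadraticForm (ZMod 2) U) (hq : ∀ (k : K) (u : U), q (ρ k u) = q u) (hnd : (QuadraticMap.polarBilin q).Nondegenerate) (hplus : ∃ W : Submodule (ZMod 2) U, Module.finrank (ZMod 2) ↥W = n ∧ ∀ w ∈ W, q w = 0) : ∃ (R : Type) (_ : Group R) (_ : Finite R) (Q : Subgroup R) (hN : Q.Normal) (e : R ⧸ Q ≃* K) (χ : ↥Q →* Multiplicative U), Cfsg.IsExtraspecial 2 ↥Q ∧ Nat.card ↥Q = 2 ^ (2 * n + 1) ∧ Function.Surjective χ ∧ χ.ker = Subgroup.center ↥Q ∧ (∀ (r : R) (a : ↥Q), χ ⟨r * a * r⁻¹, hN.conj_mem (a : R) a.2 r⟩ = Multiplicative.ofAdd (ρ (e (r : R ⧸ Q)) (Multiplicative.toAdd (χ a)))) ∧ ∀ a : ↥Q, a * a = 1 ↔ q (Multiplicative.toAdd (χ a)) = 0 := by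
  classical
  have hUfin : Finite U := Module.finite_of_finite (ZMod 2)
  have hUft : Fintype U := Fintype.ofFinite U
  obtain ⟨β, hβ⟩ := LinearMap.BilinMap.toQuadraticMap_surjective q
  have hβ1 : ∀ u, β u u = q u := fun u => by rw [← hβ]; rfl
  have hpol : ∀ u v, QuadraticMap.polarBilin q u v = β u v + β v u := by
    intro u v
    rw [← hβ, LinearMap.BilinMap.polarBilin_toQuadraticMap]
    rfl
  have hndd : ∀ x, (∀ u, β x u + β u x = 0) → x = 0 := by
    intro x hx
    apply hnd.1
    intro y
    rw [hpol]
    exact hx y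
  have hqq : ∀ k u, β (ρ k u) (ρ k u) = β u u := fun k u => by rw [hβ1, hβ1, hq]
  have D := H56.X84.dat_extn (ρ := ρ) hndd hqq
  have hEfin : Finite (U →ₗ[ZMod 2] U) := Finite.of_injective (fun f : U →ₗ[ZMod 2] U => (f : U → U)) DFunLike.coe_injective
  have hKfin : Finite K := Finite.of_injective ρ hρ
  have hRfin : Finite (H56.X84.extn β ρ) := by
    rw [MonoidHom.finite_iff_finite_ker_range
      ((MonoidHom.snd (Matrix.orthogonalGroup U ℝ) K).comp (H56.X84.extn β ρ).subtype)]
    exact ⟨Finite.of_equiv _ D.eqv.symm, inferInstance⟩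
  have hsm : Small.{0} (H56.X84.extn β ρ) := inferInstance
  have D2 := D.equiv (Shrink.mulEquiv (α := H56.X84.extn β ρ))
  have hnt : Nontrivial U := by
    apply Module.nontrivial_of_finrank_pos (R := ZMod 2)
    omega
  refine ⟨Shrink.{0} (H56.X84.extn β ρ), inferInstance, Finite.of_equiv _ (equivShrink _), _, inferInstance,
    QuotientGroup.quotientKerEquivOfSurjective _ D2.surj, D2.chi, D2.extraspecial hndd, ?_, D2.surj_chi, D2.ker_chi hndd, ?_, ?_⟩
  · rw [D2.card, Nat.card_eq_fintype_card, Module.card_eq_pow_finrank (K := ZMod 2) (V := U), ZMod.card, hn, pow_succ, mul_comm]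
  · intro r a
    exact congrArg Multiplicative.ofAdd (D2.conj r a _)
  · intro a
    rw [D2.sq, hβ1]
    rfl

end Cfsg.Agent.S3084
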