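import Cfsg.Statements.S3085
import Mathlib
import Cfsg.Agent.Lib.H3.Extraspecial

set_option autoImplicit false
open Cfsg

namespace Cfsg.Agent.S3085

open scoped commutatorElement

section
variable {Q : Type*} [Group Q]

open Classical in
/-- the "transvection lift": conjugation by `(1+w)/√2` -/
noncomputable def sigF (w : Q) (x : Q) : Q := if x * w = w * x then x else w * x

theorem sigF_comm {w x : Q} (h : x * w = w * x) : sigF w x = x := by simp [sigF, h]
theorem sigF_anti {w x : Q} (h : ¬ x * w = w * x) : sigF w x = w * x := by simp [sigF, h]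

structure Setup (z w : Q) : Prop where
  zz : z * z = 1
  zne : z ≠ 1
  zc : ∀ x : Q, x * z = z * x
  ww : w * w = z
  dich : ∀ x : Q, x * w = w * x ∨ x * w = z * (w * x)

variable {z w : Q}

theorem Setup.anti (hs : Setup z w) {x : Q} (h : x * w = z * (w * x)) : ¬ x * w = w * x := by
  intro h2
  rw [h2] at h
  exact hs.zne (right_eq_mul.1 h)

theorem Setup.sig_mul (hs : Setup z w) (x y : Q) : sigF w (x * y) = sigF w x * sigF w y := by
  have hz := hs.zc
  rcases hs.dich x with hx | hx
  · rcases hs.dich y with hy | hy
    · have : (x * y) * w = w * (x * y) := by rw [mul_assoc, hy, ← mul_assoc, hx, mul_assoc]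
      rw [sigF_comm hx, sigF_comm hy, sigF_comm this]
    · have h1 : (x * y) * w = z * (w * (x * y)) := by
        calc (x * y) * w = x * (y * w) := by group
          _ = x * (z * (w * y)) := by rw [hy]
          _ = (x * z) * (w * y) := by group
          _ = z * (x * w) * y := by rw [hz]; group
          _ = z * (w * (x * y)) := by rw [hx]; group
      rw [sigF_comm hx, sigF_anti (hs.anti hy), sigF_anti (hs.anti h1)]
      rw [← mul_assoc, ← mul_assoc, hx]
  · rcases hs.dich y with hy | hy
    · have h1 : (x * y) * w = z * (w * (x * y)) := by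
        calc (x * y) * w = x * (y * w) := by group
          _ = (x * w) * y := by rw [hy]; group
          _ = z * (w * (x * y)) := by rw [hx]; group
      rw [sigF_anti (hs.anti hx), sigF_comm hy, sigF_anti (hs.anti h1)]
      group
    · have h1 : (x * y) * w = w * (x * y) := by
        calc (x * y) * w = x * (y * w) := by group
          _ = x * (z * (w * y)) := by rw [hy]
          _ = (x * z) * (w * y) := by group
          _ = z * (x * w) * y := by rw [hz]; group
          _ = (z * z) * (w * (x * y)) := by rw [hx]; group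
          _ = w * (x * y) := by rw [hs.zz, one_mul]
      rw [sigF_anti (hs.anti hx), sigF_anti (hs.anti hy), sigF_comm h1]
      calc x * y = (z * z) * (x * y) := by rw [hs.zz, one_mul]
        _ = (z * (w * w)) * (x * y) := by rw [hs.ww]
        _ = (w * z * w) * (x * y) := by rw [hz w]; group
        _ = w * (z * (w * x)) * y := by group
        _ = w * (x * w) * y := by rw [hx]
        _ = w * x * (w * y) := by group

theorem Setup.sig_sig (hs : Setup z w) (x : Q) : sigF w (sigF w x) = w * x * w⁻¹ := by
  rcases hs.dich x with hx | hx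
  · rw [sigF_comm hx, sigF_comm hx, ← hx]; group
  · have h1 : (w * x) * w = z * (w * (w * x)) := by
      calc (w * x) * w = w * (x * w) := by group
        _ = (w * z) * (w * x) := by rw [hx]; group
        _ = z * (w * (w * x)) := by rw [hs.zc w]; group
    rw [sigF_anti (hs.anti hx), sigF_anti (hs.anti h1)]
    have h2 : w * x = z * (x * w) := by
      rw [hx, ← mul_assoc, hs.zz, one_mul]
    calc w * (w * x) = (w * w) * x := by group
      _ = z * x := by rw [hs.ww]
      _ = w * x * w⁻¹ := by rw [h2]; group

theorem Setup.sig_inj (hs : Setup z w) : Function.Injective (sigF w) := by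
  intro x y hxy
  have h1 := hs.sig_sig x
  have h2 := hs.sig_sig y
  rw [hxy, h2] at h1
  simpa using h1.symm

/-- the automorphism -/
noncomputable def sig [Finite Q] (hs : Setup z w) : MulAut Q :=
  MulEquiv.ofBijective (MonoidHom.mk' (sigF w) hs.sig_mul) (Finite.injective_iff_bijective.1 hs.sig_inj)

theorem sig_apply [Finite Q] (hs : Setup z w) (x : Q) : sig hs x = sigF w x := rfl

theorem sig_mul_sig [Finite Q] (hs : Setup z w) : sig hs * sig hs = MulAut.conj w := by
  ext x
  rw [MulAut.mul_apply, sig_apply, sig_apply, hs.sig_sig, MulAut.conj_apply]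

theorem sig_conj [Finite Q] (hs : Setup z w) (u : Q) :
    sig hs * MulAut.conj u = MulAut.conj (sigF w u) * sig hs := by
  ext x
  simp only [MulAut.mul_apply, MulAut.conj_apply]
  rw [map_mul, map_mul, map_inv]
  rfl

theorem sig_comm [Finite Q] {v : Q} (hs : Setup z w) (hv : Setup z v) (hvw : v * w = w * v) :
    sig hs * sig hv = sig hv * sig hs := by
  ext x
  simp only [MulAut.mul_apply, sig_apply]
  rcases hs.dich x with hx | hx
  · rw [sigF_comm hx]
    rcases hv.dich x with hy | hy
    · rw [sigF_comm hy, sigF_comm hx]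
    · rw [sigF_anti (hv.anti hy)]
      have : (v * x) * w = w * (v * x) := by rw [mul_assoc, hx, ← mul_assoc, hvw, mul_assoc]
      rw [sigF_comm this]
  · rw [sigF_anti (hs.anti hx)]
    rcases hv.dich x with hy | hy
    · rw [sigF_comm hy, sigF_anti (hs.anti hx)]
      have : (w * x) * v = v * (w * x) := by rw [mul_assoc, hy, ← mul_assoc, ← hvw, mul_assoc]
      rw [sigF_comm this]
    · rw [sigF_anti (hv.anti hy)]
      have h1 : (v * x) * w = z * (w * (v * x)) := by
        calc (v * x) * w = v * (x * w) := by group
          _ = (v * z) * (w * x) := by rw [hx]; group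
          _ = z * (v * w) * x := by rw [hs.zc v]; group
          _ = z * (w * (v * x)) := by rw [hvw]; group
      have h2 : (w * x) * v = z * (v * (w * x)) := by
        calc (w * x) * v = w * (x * v) := by group
          _ = (w * z) * (v * x) := by rw [hy]; group
          _ = z * (w * v) * x := by rw [hs.zc w]; group
          _ = z * (v * (w * x)) := by rw [← hvw]; group
      rw [sigF_anti (hs.anti h1), sigF_anti (hv.anti h2), ← mul_assoc, ← mul_assoc, hvw]

end

/-- Let Q be an extraspecial 2-group of order 2^(2n+1) with n ≥ 3 that is of plus type (it contains an elementary abelian subgroup of order 2^(n+1)). Then the group of inner automorphisms of Q has no complement in the full automorphism group of Q: the extension of the inner automorphism group (elementary abelian of order 2^(2n)) by the outer automorphism group (the orthogonal group of plus type) does not split. -/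
theorem result {Q : Type*} [Group Q] [Finite Q] (n : ℕ) (hn : 3 ≤ n) (hQ : Cfsg.IsExtraspecial 2 Q) (hcard : Nat.card Q = 2 ^ (2 * n + 1)) (hplus : ∃ E : Subgroup Q, Cfsg.IsElementaryAbelian 2 E ∧ Nat.card ↥E = 2 ^ (n + 1)) (L : Subgroup (MulAut Q)) : ¬ (Cfsg.Inn Q).IsComplement' L := by
  classical
  intro hcompl
  have hZ : commutator Q ≤ Subgroup.center Q := H3.Extraspecial.commutator_le hQ.1
  have hc : Nat.card (Subgroup.center Q) = 2 := hQ.2
  have : Fact (Nat.Prime 2) := ⟨Nat.prime_two⟩
  -- the central involution
  obtain ⟨⟨z, hzc⟩, hz1⟩ : ∃ z : Subgroup.center Q, z ≠ 1 := by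
    have : Nontrivial (Subgroup.center Q) := Finite.one_lt_card_iff_nontrivial.1 (by rw [hc]; norm_num)
    exact exists_ne 1
  have hzne : z ≠ 1 := fun h => hz1 (Subtype.ext h)
  have hmemc : ∀ x : Q, x ∈ Subgroup.center Q → x = 1 ∨ x = z := by
    intro x hx
    by_contra hcon
    push Not at hcon
    have h3 : ({⟨1, Subgroup.one_mem _⟩, ⟨z, hzc⟩, ⟨x, hx⟩} : Finset (Subgroup.center Q)).card = 3 := by
      rw [Finset.card_eq_three]
      refine ⟨_, _, _, ?_, ?_, ?_, rfl⟩
      · intro h; exact hzne (Subtype.ext_iff.1 h).symm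
      · intro h; exact hcon.1 (Subtype.ext_iff.1 h).symm
      · intro h; exact hcon.2 (Subtype.ext_iff.1 h).symm
    have : Fintype (Subgroup.center Q) := Fintype.ofFinite _
    have h4 := Finset.card_le_univ ({⟨1, Subgroup.one_mem _⟩, ⟨z, hzc⟩, ⟨x, hx⟩} : Finset (Subgroup.center Q))
    rw [h3, ← Nat.card_eq_fintype_card, hc] at h4
    omega
  have hzz : z * z = 1 := by
    have := H3.Extraspecial.center_pow hc hzc
    rwa [pow_two] at this
  have hzcomm : ∀ x : Q, x * z = z * x := fun x => Subgroup.mem_center_iff.1 hzc x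
  have hdich : ∀ x w : Q, x * w = w * x ∨ x * w = z * (w * x) := by
    intro x w
    have h1 : ⁅x, w⁆ ∈ Subgroup.center Q :=
      hZ (Subgroup.commutator_mem_commutator (Subgroup.mem_top x) (Subgroup.mem_top w))
    have h2 : x * w = ⁅x, w⁆ * (w * x) := by simp [commutatorElement_def, mul_assoc]
    rcases hmemc _ h1 with h | h
    · left; rw [h2, h, one_mul]
    · right; rw [h2, h]
  have hsq : ∀ x : Q, x * x ∈ Subgroup.center Q := by
    intro x
    have := H3.Extraspecial.pow_mem_center_of_special hQ.1 x
    rwa [pow_two] at this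
  -- an element of order four
  obtain ⟨w, hw⟩ : ∃ w : Q, w * w = z := by
    by_contra hcon
    push Not at hcon
    have h1 : ∀ x : Q, x * x = 1 := by
      intro x
      rcases hmemc _ (hsq x) with h | h
      · exact h
      · exact absurd h (hcon x)
    have h2 : ∀ x y : Q, x * y = y * x := by
      intro x y
      have hx : x⁻¹ = x := inv_eq_of_mul_eq_one_left (h1 x)
      have hy : y⁻¹ = y := inv_eq_of_mul_eq_one_left (h1 y)
      have hxy : (x * y)⁻¹ = x * y := inv_eq_of_mul_eq_one_left (h1 (x * y))
      rw [mul_inv_rev, hx, hy] at hxy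
      exact hxy.symm
    have h3 : Subgroup.center Q = ⊤ := by
      rw [eq_top_iff]
      intro x _
      rw [Subgroup.mem_center_iff]
      exact fun g => h2 g x
    rw [h3, Subgroup.card_top, hcard] at hc
    have : 2 ^ (2 * n + 1) ≥ 2 ^ 7 := Nat.pow_le_pow_right (by norm_num) (by omega)
    omega
  have hsw : Setup z w := ⟨hzz, hzne, hzcomm, hw, fun x => hdich x w⟩
  have hwnc : w ∉ Subgroup.center Q := by
    intro h
    rcases hmemc w h with h | h
    · rw [h, one_mul] at hw; exact hzne hw.symm
    · rw [h, hzz] at hw; exact hzne hw.symm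
  -- decompose
  have hdec : ∀ α : MulAut Q, ∃ u : Q, MulAut.conj u * α ∈ L := by
    intro α
    obtain ⟨⟨i, l⟩, hil⟩ := (hcompl : Function.Bijective _).2 α
    obtain ⟨u, hu⟩ := i.2
    refine ⟨u⁻¹, ?_⟩
    have hil' : (i : MulAut Q) * l = α := hil
    rw [← hil', map_inv, hu, inv_mul_cancel_left]
    exact l.2
  have hdisj : ∀ α : MulAut Q, α ∈ L → (∃ u : Q, α = MulAut.conj u) → α = 1 := by
    rintro α h1 ⟨u, rfl⟩
    have h2 := hcompl.disjoint
    rw [Subgroup.disjoint_def] at h2
    exact h2 ⟨u, rfl⟩ h1
  have hker : ∀ u : Q, (MulAut.conj u : MulAut Q) = 1 → u ∈ Subgroup.center Q := by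
    intro u hu
    rw [Subgroup.mem_center_iff]
    intro g
    have := congrArg (fun f : MulAut Q => f g) hu
    simp only [MulAut.conj_apply, MulAut.one_apply] at this
    have h2 : u * g = g * u := by
      calc u * g = (u * g * u⁻¹) * u := by group
        _ = g * u := by rw [this]
    exact h2.symm
  obtain ⟨u, hu⟩ := hdec (sig hsw)
  -- tau squared
  have htau2 : (MulAut.conj u * sig hsw) * (MulAut.conj u * sig hsw) = MulAut.conj (u * sigF w u * w) := by
    calc (MulAut.conj u * sig hsw) * (MulAut.conj u * sig hsw)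
        = MulAut.conj u * (sig hsw * MulAut.conj u) * sig hsw := by group
      _ = MulAut.conj u * (MulAut.conj (sigF w u) * sig hsw) * sig hsw := by rw [sig_conj]
      _ = MulAut.conj u * MulAut.conj (sigF w u) * (sig hsw * sig hsw) := by group
      _ = MulAut.conj (u * sigF w u * w) := by rw [sig_mul_sig, map_mul, map_mul]
  have h1 : u * sigF w u * w ∈ Subgroup.center Q := by
    apply hker
    rw [← htau2]
    exact hdisj _ (L.mul_mem hu hu) ⟨_, htau2⟩
  have huw : u * w = z * (w * u) := by
    rcases hdich u w with h | h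
    · exfalso
      rw [sigF_comm h] at h1
      apply hwnc
      have := (Subgroup.center Q).mul_mem ((Subgroup.center Q).inv_mem (hsq u)) h1
      simpa [mul_assoc] using this
    · exact h
  have hcomm1 : ⁅u, w⁆ ≠ 1 := by
    intro h
    rw [commutatorElement_eq_one_iff_mul_comm] at h
    exact hsw.anti huw h
  -- the second vector
  obtain ⟨v', hv'c, hv'2, hv'z⟩ : ∃ v' : Q, v' ∈ Subgroup.centralizer ({u, w} : Set Q) ∧ v' * v' = 1 ∧
      v' ∉ Subgroup.center Q := by
    obtain ⟨E, hE, hEc⟩ := hplus
    have h2 := H3.Extraspecial.card_centralizer_pair hZ hc hcomm1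
    set C := Subgroup.centralizer ({u, w} : Set Q) with hC
    have hidx : C.index = 4 := by
      have h3 := Subgroup.card_mul_index C
      rw [h2] at h3
      have hpos : 0 < Nat.card C := Nat.card_pos
      have : Nat.card C * C.index = Nat.card C * 4 := by rw [h3]; ring
      exact Nat.eq_of_mul_eq_mul_left hpos this
    have h3 : C.relIndex E ≤ 4 := by
      rw [← hidx, ← Subgroup.relIndex_top_right]
      refine Subgroup.relIndex_le_of_le_right le_top ?_
      rw [Subgroup.relIndex_top_right, hidx]; norm_num
    have h4 : Nat.card (C ⊓ E : Subgroup Q) * C.relIndex E = Nat.card E := by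
      rw [← Subgroup.inf_relIndex_right]
      exact H3.PBasic.card_mul_relIndex inf_le_right
    have h5 : 4 ≤ Nat.card (C ⊓ E : Subgroup Q) := by
      have h6 : 2 ^ 4 ≤ Nat.card E := by
        rw [hEc]; exact Nat.pow_le_pow_right (by norm_num) (by omega)
      by_contra hlt
      push Not at hlt
      have : Nat.card (C ⊓ E : Subgroup Q) * C.relIndex E ≤ 3 * 4 := Nat.mul_le_mul (by omega) h3
      omega
    by_contra hcon
    push Not at hcon
    have h7 : C ⊓ E ≤ Subgroup.center Q := by
      rintro x ⟨hx1, hx2⟩
      apply hcon x hx1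
      have := hE.2 x hx2
      rwa [pow_two] at this
    have h8 := Subgroup.card_le_of_le h7
    omega
  have hv'u : v' * u = u * v' := by
    rw [Subgroup.mem_centralizer_iff] at hv'c
    exact (hv'c u (by simp)).symm
  have hv'w : v' * w = w * v' := by
    rw [Subgroup.mem_centralizer_iff] at hv'c
    exact (hv'c w (by simp)).symm
  obtain ⟨v, hv⟩ : ∃ v, v = w * v' := ⟨_, rfl⟩
  have hvv : v * v = z := by
    calc v * v = w * (v' * w) * v' := by rw [hv]; group
      _ = (w * w) * (v' * v') := by rw [hv'w]; group
      _ = z := by rw [hw, hv'2, mul_one]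
  have hsv : Setup z v := ⟨hzz, hzne, hzcomm, hvv, fun x => hdich x v⟩
  have hvw : v * w = w * v := by
    rw [hv, mul_assoc, hv'w]
  have huv : u * v = z * (v * u) := by
    calc u * v = (u * w) * v' := by rw [hv]; group
      _ = z * (w * (u * v')) := by rw [huw]; group
      _ = z * (v * u) := by rw [← hv'u, hv]; group
  obtain ⟨y, hy⟩ := hdec (sig hsv)
  have e1 : (MulAut.conj y * sig hsv) * (MulAut.conj u * sig hsw) = MulAut.conj (y * sigF v u) * (sig hsv * sig hsw) := by
    calc _ = MulAut.conj y * (sig hsv * MulAut.conj u) * sig hsw := by group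
      _ = MulAut.conj y * (MulAut.conj (sigF v u) * sig hsv) * sig hsw := by rw [sig_conj]
      _ = _ := by rw [map_mul]; group
  have e2 : (MulAut.conj u * sig hsw) * (MulAut.conj y * sig hsv) = MulAut.conj (u * sigF w y) * (sig hsv * sig hsw) := by
    calc _ = MulAut.conj u * (sig hsw * MulAut.conj y) * sig hsv := by group
      _ = MulAut.conj u * (MulAut.conj (sigF w y) * sig hsw) * sig hsv := by rw [sig_conj]
      _ = MulAut.conj (u * sigF w y) * (sig hsw * sig hsv) := by rw [map_mul]; group
      _ = _ := by rw [sig_comm hsw hsv hvw]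
  have e3 : ((MulAut.conj y * sig hsv) * (MulAut.conj u * sig hsw)) * ((MulAut.conj u * sig hsw) * (MulAut.conj y * sig hsv))⁻¹
      = MulAut.conj ((y * sigF v u) * (u * sigF w y)⁻¹) := by
    rw [e1, e2, map_mul MulAut.conj (y * sigF v u), map_inv]; group
  have e4 : (y * sigF v u) * (u * sigF w y)⁻¹ ∈ Subgroup.center Q := by
    apply hker
    rw [← e3]
    exact hdisj _ (L.mul_mem (L.mul_mem hy hu) (L.inv_mem (L.mul_mem hu hy))) ⟨_, e3⟩
  -- pass to the abelian quotient
  have hab : ∀ a b : Q ⧸ Subgroup.center Q, a * b = b * a := by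
    intro a b
    induction a using QuotientGroup.induction_on with | _ a => ?_
    induction b using QuotientGroup.induction_on with | _ b => ?_
    rw [← QuotientGroup.mk_mul, ← QuotientGroup.mk_mul, QuotientGroup.eq]
    have : (a * b)⁻¹ * (b * a) = ⁅b⁻¹, a⁻¹⁆ := by simp [commutatorElement_def, mul_assoc]
    rw [this]
    exact hZ (Subgroup.commutator_mem_commutator (Subgroup.mem_top _) (Subgroup.mem_top _))
  let _ : CommGroup (Q ⧸ Subgroup.center Q) := { (inferInstance : Group (Q ⧸ Subgroup.center Q)) with mul_comm := hab }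
  let π : Q →* Q ⧸ Subgroup.center Q := QuotientGroup.mk' _
  have hπ : ∀ x : Q, π x = 1 ↔ x ∈ Subgroup.center Q := fun x => QuotientGroup.eq_one_iff x
  have e5 := (hπ _).2 e4
  rw [sigF_anti (hsv.anti huv)] at e5
  rcases hdich y w with hyw | hyw
  · rw [sigF_comm hyw] at e5
    have e6 : π v = 1 := by
      rw [map_mul, map_mul, map_mul, map_inv, map_mul] at e5
      have : π y * (π v * π u) * (π u * π y)⁻¹ = π v := by
        rw [mul_inv_rev]
        calc π y * (π v * π u) * ((π y)⁻¹ * (π u)⁻¹) = π y * (π v * π u) * ((π u)⁻¹ * (π y)⁻¹) := by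
              rw [hab (π y)⁻¹ (π u)⁻¹]
          _ = π y * π v * (π y)⁻¹ := by group
          _ = π v := by rw [hab (π y) (π v)]; group
      rw [this] at e5
      exact e5
    have e7 := (hπ v).1 e6
    rw [Subgroup.mem_center_iff] at e7
    exact hsv.anti huv (e7 u)
  · rw [sigF_anti (hsw.anti hyw)] at e5
    have e6 : π v' = 1 := by
      rw [map_mul, map_mul, map_inv, map_mul, map_mul, map_mul, hv, map_mul] at e5
      have : π y * (π w * π v' * π u) * (π u * (π w * π y))⁻¹ = π v' := by
        have h9 : π y * (π w * π v' * π u) = π v' * (π u * (π w * π y)) := by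
          rw [hab (π w) (π v'), mul_assoc (π v'), ← mul_assoc (π y), hab (π y) (π v'), mul_assoc (π v'),
            hab (π w) (π u), ← mul_assoc (π y), hab (π y) (π u), mul_assoc (π u), hab (π y) (π w)]
        rw [h9, mul_inv_cancel_right]
      rw [this] at e5
      exact e5
    exact hv'z ((hπ v').1 e6)

end Cfsg.Agent.S3085
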