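import Cfsg.Statements.S3110
import Cfsg.Agent.S0205
import Cfsg.Agent.S0217
import Cfsg.Agent.Lib.H55.CoreGen
import Cfsg.Agent.Lib.H27.PRank

set_option autoImplicit false
open Cfsg
open scoped Pointwise

namespace Cfsg.Agent.S3110

/-- Let G be a finite group in which every 2-local subgroup is 2-constrained and some Sylow 2-subgroup has a self-centralizing abelian normal subgroup of 2-rank at least 3, and let S be any Sylow 2-subgroup of G. Then there is a subgroup W of G of odd order such that, for every subgroup B of S of 2-rank at least 2, W is generated by the largest normal odd-order subgroups O(C_G(b)) of the centralizers of the non-identity elements b of B, and W is normalized by the normalizer of every such B. -/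
theorem result {G : Type*} [Group G] [Finite G]
    (h2c : ∀ T : Subgroup G, IsPGroup 2 T → T ≠ ⊥ → Cfsg.IsPConstrained 2 ↥(Subgroup.normalizer (T : Set G)))
    (S : Sylow 2 G) (A : Subgroup ↥(S : Subgroup G)) (hAn : A.Normal) (hAab : IsMulCommutative ↥A)
    (hAC : Subgroup.centralizer (A : Set ↥(S : Subgroup G)) = A) (hA3 : ¬ Cfsg.PRankLE 2 2 ↥A) (S' : Sylow 2 G) :
    ∃ W : Subgroup G, Odd (Nat.card ↥W) ∧
      ∀ B : Subgroup G, B ≤ (S' : Subgroup G) → ¬ Cfsg.PRankLE 2 1 ↥B →
        W = (⨆ b : {b : G // b ∈ B ∧ b ≠ 1}, Cfsg.centralizerPPrimeCore 2 (b : G)) ∧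
        Subgroup.normalizer (B : Set G) ≤ Subgroup.normalizer (W : Set G) := by
  have h : H27.EquivSig.Hyp 2 (fun a : G => centralizerPPrimeCore 2 a) := by
    apply H55.CoreGen.hyp _ h2c
    · intro a
      apply Cfsg.Agent.S0205.result
      have := H55.CoreGen.coprime_core (p := 2) a
      exact Nat.Coprime.odd_of_right this
    · intro A' h1 h2 h3 θ h4 h5 h6 h7 h8
      exact Cfsg.Agent.S0217.result A' h1 h2 h3 θ h4 h5 h6 h7 h8
  -- the abelian normal subgroup in `G`
  have hA₁ : ∀ a ∈ A.map (S : Subgroup G).subtype, ∀ b ∈ A.map (S : Subgroup G).subtype,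
      a * b = b * a := by
    rintro _ ⟨x, hx, rfl⟩ _ ⟨y, hy, rfl⟩
    have := congrArg Subtype.val (hAab.is_comm.comm ⟨x, hx⟩ ⟨y, hy⟩)
    exact congrArg Subtype.val this
  have hSA : (S : Subgroup G) ≤ Subgroup.normalizer (A.map (S : Subgroup G).subtype : Set G) := by
    apply H1.Coprime.le_normalizer_of_conj_mem
    rintro g hg _ ⟨x, hx, rfl⟩
    exact ⟨⟨g, hg⟩ * x * ⟨g, hg⟩⁻¹, hAn.conj_mem x hx ⟨g, hg⟩, rfl⟩
  have hA3' : ¬ PRankLE 2 2 ↥(A.map (S : Subgroup G).subtype) := fun hcon =>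
    hA3 ((H27.PRank.pRankLE_congr
      (A.equivMapOfInjective _ (S : Subgroup G).subtype_injective)).mpr hcon)
  obtain ⟨E, hE, -, hE8, hSE⟩ := H55.CoreGen.exists_omega hA₁ hSA hA3'
  -- transport to `S'`
  obtain ⟨g, hg⟩ := MulAction.exists_smul_eq G S S'
  have hE' : IsElementaryAbelian 2 (MulAut.conj g • E : Subgroup G) :=
    H27.EquivSig.conj_isElementaryAbelian hE g
  have hE8' : 2 ^ 3 ≤ Nat.card (MulAut.conj g • E : Subgroup G) := by
    rwa [H1.SZ.card_conj_smul]
  have hSE' : (S' : Subgroup G) ≤ Subgroup.normalizer ((MulAut.conj g • E : Subgroup G) : Set G) := by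
    apply H1.Coprime.le_normalizer_of_conj_mem
    intro x hx y hy
    have hx' : x ∈ (MulAut.conj g • (S : Subgroup G) : Subgroup G) := by
      have h1 : ((g • S : Sylow 2 G) : Subgroup G) = MulAut.conj g • (S : Subgroup G) := rfl
      rw [← h1, hg]; exact hx
    rw [H1.SZ.mem_conj_smul] at hx' hy ⊢
    have h2 := (Subgroup.mem_normalizer_iff.mp (hSE hx') _).mp hy
    have h3 : g⁻¹ * (x * y * x⁻¹) * g = g⁻¹ * x * g * (g⁻¹ * y * g) * (g⁻¹ * x * g)⁻¹ := by group
    rw [h3]; exact h2
  refine ⟨H27.EquivSig.W (fun a : G => centralizerPPrimeCore 2 a) (MulAut.conj g • E : Subgroup G),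
    ?_, ?_⟩
  · have := (h.main hE' hE8').1
    rwa [← Nat.not_even_iff_odd, even_iff_two_dvd]
  · intro B hBS hB
    have h1 := H55.CoreGen.main (S := (S' : Subgroup G)) S'.isPGroup' h
      (fun b z hb hz hz1 => H55.CoreGen.core_le_of_mem_zpowers h2c hb hz hz1) hE' hE8' hSE' hBS hB
    refine ⟨h1, ?_⟩
    rw [h1]
    exact H55.CoreGen.normalizer_le_normalizer_W B

end Cfsg.Agent.S3110
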