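import Cfsg.Statements.S3356
import Mathlib
import Cfsg.Agent.Lib.H1.Hall

set_option autoImplicit false
open Cfsg

namespace Cfsg.Agent.S3356

open Subgroup MulAction

/-- orbits of constant size -/
theorem dvd_ncard {T X : Type*} [Group T] [MulAction T X] (h : ℕ) (hh : 0 < h) (Y : Set X) (hfin : Y.Finite)
    (hY : ∀ t : T, ∀ y ∈ Y, t • y ∈ Y) (horb : ∀ y ∈ Y, (orbit T y).ncard = h) :
    h ∣ Y.ncard := by
  induction hn : Y.ncard using Nat.strong_induction_on generalizing Y with
  | _ n ih =>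
    rcases Y.eq_empty_or_nonempty with he | ⟨y, hy⟩
    · rw [he, Set.ncard_empty] at hn
      rw [← hn]; exact dvd_zero _
    · have hsub : orbit T y ⊆ Y := by
        rintro _ ⟨t, rfl⟩
        exact hY t y hy
      have hcard := horb y hy
      have hsum : (Y \ orbit T y).ncard + (orbit T y).ncard = Y.ncard :=
        Set.ncard_sdiff_add_ncard_of_subset hsub hfin
      have h1 := ih (Y \ orbit T y).ncard (by omega) (Y \ orbit T y) (hfin.subset Set.sdiff_subset)
        (by
          rintro t z ⟨hz, hz'⟩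
          refine ⟨hY t z hz, fun h => hz' ?_⟩
          obtain ⟨s, hs⟩ := h
          refine ⟨t⁻¹ * s, ?_⟩
          change (t⁻¹ * s) • y = z
          rw [mul_smul, inv_smul_eq_iff]
          exact hs)
        (fun z hz => horb z hz.1) rfl
      rw [← hn, ← hsum, hcard]
      exact dvd_add h1 (dvd_refl _)

theorem ncard_conj {G : Type*} [Group G] [Finite G] (x : G) :
    {y : G | ∃ g : G, y = g * x * g⁻¹}.ncard = (centralizer ({x} : Set G)).index := by
  rw [← Nat.card_coe_set_eq, Subgroup.index]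
  symm
  have hwd : ∀ a b : G, a⁻¹ * b ∈ centralizer ({x} : Set G) ↔ a * x * a⁻¹ = b * x * b⁻¹ := by
    intro a b
    rw [mem_centralizer_singleton_iff]
    constructor
    · intro h
      calc a * x * a⁻¹ = a * (x * (a⁻¹ * b)) * b⁻¹ := by group
        _ = a * (a⁻¹ * b * x) * b⁻¹ := by rw [h]
        _ = b * x * b⁻¹ := by group
    · intro h
      calc a⁻¹ * b * x = a⁻¹ * (b * x * b⁻¹) * b := by group
        _ = a⁻¹ * (a * x * a⁻¹) * b := by rw [h]
        _ = x * (a⁻¹ * b) := by group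
  refine Nat.card_congr (Equiv.ofBijective (fun q : G ⧸ centralizer ({x} : Set G) =>
    (⟨q.out * x * q.out⁻¹, ⟨q.out, rfl⟩⟩ : {y : G | ∃ g : G, y = g * x * g⁻¹})) ⟨?_, ?_⟩)
  · intro p q hpq
    have h1 : p.out * x * p.out⁻¹ = q.out * x * q.out⁻¹ := congrArg Subtype.val hpq
    rw [← hwd, ← QuotientGroup.eq, QuotientGroup.out_eq', QuotientGroup.out_eq'] at h1
    exact h1
  · rintro ⟨_, g, rfl⟩
    refine ⟨(g : G ⧸ centralizer ({x} : Set G)), ?_⟩
    apply Subtype.ext
    simp only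
    rw [← hwd, ← QuotientGroup.eq, QuotientGroup.out_eq']

/-- Let G be a finite 3/2-transitive permutation group: G acts faithfully and transitively on a finite set, the point stabilizers are non-trivial, and for each point a all orbits of G_a on the remaining points have the same size. Suppose G has a regular normal subgroup N and G is not a Frobenius group (some two-point stabilizer is non-trivial). Then N is an elementary abelian p-group for some prime p, and every non-trivial normal subgroup of G contains N (so N is the unique minimal normal subgroup). -/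
theorem result {G Ω : Type*} [Group G] [Finite G]
    [MulAction G Ω] [FaithfulSMul G Ω] [Finite Ω] (htrans : MulAction.IsPretransitive G Ω)
    (hne : ∀ a : Ω, MulAction.stabilizer G a ≠ ⊥)
    (hhalf : ∀ a b c : Ω, b ≠ a → c ≠ a →
      Nat.card (MulAction.orbit (MulAction.stabilizer G a) b) = Nat.card (MulAction.orbit (MulAction.stabilizer G a) c))
    (N : Subgroup G) [hN : N.Normal] (hNt : MulAction.IsPretransitive N Ω) (hNr : ∀ a : Ω, MulAction.stabilizer N a = ⊥)
    (hnotF : ∃ a b : Ω, a ≠ b ∧ MulAction.stabilizer G a ⊓ MulAction.stabilizer G b ≠ ⊥) :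
    (∃ p : ℕ, p.Prime ∧ IsMulCommutative N ∧ ∀ x ∈ N, x ^ p = 1) ∧
    (∀ M : Subgroup G, M.Normal → M ≠ ⊥ → N ≤ M) := by
  classical
  obtain ⟨α, β, hαβ, hfix⟩ := hnotF
  set A := stabilizer G α with hA
  have hNA : ∀ n ∈ N, n • α = α → n = 1 := by
    intro n hn h
    have : (⟨n, hn⟩ : N) ∈ stabilizer N α := h
    rw [hNr α, mem_bot] at this
    exact congrArg Subtype.val this
  have hNinj : ∀ n ∈ N, ∀ m ∈ N, n • α = m • α → n = m := by
    intro n hn m hm h
    have := hNA (m⁻¹ * n) (N.mul_mem (N.inv_mem hm) hn) (by rw [mul_smul, h, inv_smul_smul])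
    exact (inv_mul_eq_one.mp this).symm
  have hNsurj : ∀ ω : Ω, ∃ n ∈ N, n • α = ω := by
    intro ω
    obtain ⟨n, hn⟩ := MulAction.exists_smul_eq N α ω
    exact ⟨n, n.2, hn⟩
  have hconjα : ∀ a ∈ A, ∀ n : G, (a * n * a⁻¹) • α = a • n • α := by
    intro a ha n
    have h1 : a⁻¹ • α = α := by rw [inv_smul_eq_iff]; exact (show a • α = α from ha).symm
    rw [mul_smul, mul_smul, h1]
  -- the centralizers
  let C : G → Subgroup G := fun x => A ⊓ centralizer ({x} : Set G)
  have hCmem : ∀ x a, a ∈ C x ↔ a ∈ A ∧ a * x = x * a := by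
    intro x a
    rw [Subgroup.mem_inf, mem_centralizer_singleton_iff]
  have hCpt : ∀ x ∈ N, ∀ a ∈ A, (a ∈ C x ↔ a • x • α = x • α) := by
    intro x hx a ha
    rw [hCmem, ← hconjα a ha x]
    constructor
    · rintro ⟨_, h⟩
      rw [h, mul_inv_cancel_right]
    · intro h
      have := hNinj _ (hN.conj_mem x hx a) x hx h
      exact ⟨ha, mul_inv_eq_iff_eq_mul.mp this⟩
  have hCrel : ∀ x ∈ N, (C x).relIndex A = (orbit A (x • α)).ncard := by
    intro x hx
    rw [← MulAction.index_stabilizer, Subgroup.relIndex]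
    congr 1
    ext ⟨a, ha⟩
    rw [mem_subgroupOf]
    exact hCpt x hx a ha
  obtain ⟨x0, hx0, hx0β⟩ := hNsurj β
  have hx01 : x0 ≠ 1 := by
    rintro rfl
    rw [one_smul] at hx0β
    exact hαβ hx0β
  have hptne : ∀ x ∈ N, x ≠ 1 → x • α ≠ α := fun x hx hx1 h => hx1 (hNA x hx h)
  obtain ⟨h, hhdef⟩ : ∃ h, h = (C x0).relIndex A := ⟨_, rfl⟩
  have hrel : ∀ x ∈ N, x ≠ 1 → (C x).relIndex A = h := by
    intro x hx hx1
    rw [hhdef, hCrel x hx, hCrel x0 hx0]
    have := hhalf α (x • α) (x0 • α) (hptne x hx hx1) (hptne x0 hx0 hx01)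
    rw [Nat.card_coe_set_eq, Nat.card_coe_set_eq] at this
    exact this
  have horb : ∀ ω : Ω, ω ≠ α → (orbit A ω).ncard = h := by
    intro ω hω
    obtain ⟨x, hx, rfl⟩ := hNsurj ω
    rw [← hCrel x hx]
    apply hrel x hx
    rintro rfl
    rw [one_smul] at hω
    exact hω rfl
  have hCle : ∀ x, C x ≤ A := fun x => inf_le_left
  have hhpos : 0 < h := by
    rw [hhdef]
    refine Nat.pos_of_ne_zero ?_
    unfold Subgroup.relIndex
    exact Subgroup.index_ne_zero_of_finite
  have hcardC : ∀ x ∈ N, x ≠ 1 → Nat.card (C x) * h = Nat.card A := by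
    intro x hx hx1
    rw [← hrel x hx hx1]
    have h1 := ((C x).subgroupOf A).card_mul_index
    rwa [Nat.card_congr (Subgroup.subgroupOfEquivOfLe (hCle x)).toEquiv] at h1
  have hAΩ : ∀ (a : A) (ω : Ω), ω ≠ α → a • ω ≠ α := by
    intro a ω hω h
    apply hω
    have : a • α = α := a.2
    exact MulAction.injective a (h.trans this.symm)
  have hΩN : Nat.card Ω = Nat.card N := by
    refine (Nat.card_congr (Equiv.ofBijective (fun n : N => (n : G) • α) ⟨?_, ?_⟩)).symm
    · intro a b hab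
      exact Subtype.ext (hNinj a a.2 b b.2 hab)
    · intro ω
      obtain ⟨n, hn, hnω⟩ := hNsurj ω
      exact ⟨⟨n, hn⟩, hnω⟩
  have hcop : h.Coprime (Nat.card N) := by
    have h1 : h ∣ ({α}ᶜ : Set Ω).ncard := by
      apply dvd_ncard (T := A) h hhpos _ (Set.toFinite _)
      · intro a ω hω
        exact hAΩ a ω hω
      · intro ω hω
        exact horb ω hω
    rw [Set.ncard_compl, Set.ncard_singleton, hΩN] at h1
    have hpos : 1 ≤ Nat.card N := Nat.card_pos
    rw [Nat.coprime_iff_gcd_eq_one]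
    have h2 : Nat.gcd h (Nat.card N) ∣ Nat.card N - 1 := (Nat.gcd_dvd_left _ _).trans h1
    have h3 : Nat.gcd h (Nat.card N) ∣ Nat.card N := Nat.gcd_dvd_right _ _
    have h4 := (Nat.dvd_sub_iff_right hpos h3).mp h2
    exact Nat.dvd_one.mp h4
  have hGcard : Nat.card G = Nat.card A * Nat.card N := by
    have := (stabilizer G α).card_mul_index
    rw [MulAction.index_stabilizer_of_transitive, hΩN] at this
    exact this.symm
  have hANbot : ∀ B : Subgroup G, B ≤ A → B ⊓ N = ⊥ := by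
    intro B hB
    rw [eq_bot_iff]
    intro y hy
    obtain ⟨h1, h2⟩ := Subgroup.mem_inf.mp hy
    exact mem_bot.mpr (hNA y h2 (hB h1))
  -- the key equality
  have hkey : ∀ x ∈ N, x ≠ 1 → centralizer ({x} : Set G) ≤ C x ⊔ N := by
    intro x hx hx1
    set Z := centralizer ({x} : Set G) with hZ
    have hd : h ∣ Z.index := by
      rw [← ncard_conj x]
      have himg : {y : G | ∃ g : G, y = g * x * g⁻¹}.ncard = ((fun y : G => y • α) '' {y : G | ∃ g : G, y = g * x * g⁻¹}).ncard := by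
        symm
        apply Set.ncard_image_of_injOn
        rintro _ ⟨g, rfl⟩ _ ⟨k, rfl⟩ hgk
        exact hNinj _ (hN.conj_mem x hx g) _ (hN.conj_mem x hx k) hgk
      rw [himg]
      apply dvd_ncard (T := A) h hhpos _ (Set.toFinite _)
      · rintro a _ ⟨_, ⟨g, rfl⟩, rfl⟩
        refine ⟨(a * g) * x * (a * g)⁻¹, ⟨a * g, rfl⟩, ?_⟩
        have := hconjα a a.2 (g * x * g⁻¹)
        simp only
        rw [show (a : G) * g * x * (a * g)⁻¹ = a * (g * x * g⁻¹) * (a : G)⁻¹ by group, this]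
        rfl
      · rintro _ ⟨_, ⟨g, rfl⟩, rfl⟩
        apply horb
        apply hptne _ (hN.conj_mem x hx g)
        intro h
        apply hx1
        have : x = g⁻¹ * (g * x * g⁻¹) * g := by group
        rw [this, h]; group
    have e1 := Z.card_mul_index
    have e2 := H1.Hall.card_sup_mul_card_inf Z N
    have e3 := (Z ⊔ N).card_mul_index
    have e4 := H1.Hall.card_sup_mul_card_inf (C x) N
    rw [hANbot (C x) (hCle x), Subgroup.card_bot, mul_one] at e4
    have hle : C x ⊔ N ≤ Z ⊔ N := sup_le_sup_right inf_le_right N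
    have hcd := Subgroup.card_dvd_of_le hle
    -- h ∣ (Z ⊔ N).index
    have h5 : Z.index * Nat.card (Z ⊓ N : Subgroup G) = (Z ⊔ N).index * Nat.card N := by
      have hZpos : 0 < Nat.card Z := Nat.card_pos
      apply Nat.eq_of_mul_eq_mul_left hZpos
      calc Nat.card Z * (Z.index * Nat.card (Z ⊓ N : Subgroup G))
          = (Nat.card Z * Z.index) * Nat.card (Z ⊓ N : Subgroup G) := by ring
        _ = Nat.card (Z ⊔ N : Subgroup G) * (Z ⊔ N).index * Nat.card (Z ⊓ N : Subgroup G) := by rw [e1, e3]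
        _ = (Nat.card (Z ⊔ N : Subgroup G) * Nat.card (Z ⊓ N : Subgroup G)) * (Z ⊔ N).index := by ring
        _ = Nat.card Z * ((Z ⊔ N).index * Nat.card N) := by rw [e2]; ring
    have h6 : h ∣ (Z ⊔ N).index * Nat.card N := by rw [← h5]; exact Dvd.dvd.mul_right hd _
    have h7 : h ∣ (Z ⊔ N).index := hcop.dvd_of_dvd_mul_right h6
    obtain ⟨m, hm⟩ := h7
    have h8 : Nat.card (C x ⊔ N : Subgroup G) * h = Nat.card G := by
      rw [e4, hGcard, mul_right_comm, hcardC x hx hx1]
    have h9 : Nat.card (Z ⊔ N : Subgroup G) ≤ Nat.card (C x ⊔ N : Subgroup G) := by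
      rw [hm] at e3
      have hm1 : 1 ≤ m := by
        rcases Nat.eq_zero_or_pos m with h0 | h0
        · rw [h0] at e3
          have : 0 < Nat.card G := Nat.card_pos
          omega
        · exact h0
      have h10 : Nat.card (Z ⊔ N : Subgroup G) * h ≤ Nat.card (C x ⊔ N : Subgroup G) * h := by
        rw [h8, ← e3]
        calc Nat.card (Z ⊔ N : Subgroup G) * h = Nat.card (Z ⊔ N : Subgroup G) * (h * 1) := by ring
          _ ≤ Nat.card (Z ⊔ N : Subgroup G) * (h * m) := Nat.mul_le_mul_left _ (Nat.mul_le_mul_left _ hm1)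
      exact Nat.le_of_mul_le_mul_right h10 hhpos
    have h11 := Subgroup.eq_of_le_of_card_ge hle h9
    rw [h11]
    exact le_sup_left
  have hCconj : ∀ x ∈ N, x ≠ 1 → ∀ n ∈ N, C (n * x * n⁻¹) = C x := by
    have hle : ∀ x ∈ N, x ≠ 1 → ∀ n ∈ N, C (n * x * n⁻¹) ≤ C x := by
      intro x hx hx1 n hn a ha
      obtain ⟨haA, hac⟩ := (hCmem _ _).mp ha
      have h1 : n⁻¹ * a * n ∈ centralizer ({x} : Set G) := by
        rw [mem_centralizer_singleton_iff]
        calc n⁻¹ * a * n * x = n⁻¹ * (a * (n * x * n⁻¹)) * n := by group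
          _ = n⁻¹ * (n * x * n⁻¹ * a) * n := by rw [hac]
          _ = x * (n⁻¹ * a * n) := by group
      have h2 := hkey x hx hx1 h1
      have h3 : a ∈ C x ⊔ N := by
        have h4 : a = n * (n⁻¹ * a * n) * n⁻¹ := by group
        rw [h4]
        exact (C x ⊔ N).mul_mem ((C x ⊔ N).mul_mem (mem_sup_right hn) h2) (mem_sup_right (N.inv_mem hn))
      obtain ⟨b, hb, m, hm, hbm⟩ := Subgroup.mem_sup_of_normal_right.mp h3
      have h5 : m = b⁻¹ * a := by rw [← hbm]; group
      have h6 : m = 1 := hNA m hm (by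
        rw [h5]
        exact (A.mul_mem (A.inv_mem (hCle x hb)) haA))
      rw [h6, mul_one] at hbm
      rw [← hbm]; exact hb
    intro x hx hx1 n hn
    apply le_antisymm (hle x hx hx1 n hn)
    have h1 := hle (n * x * n⁻¹) (hN.conj_mem x hx n) (by
      intro h; apply hx1
      have : x = n⁻¹ * (n * x * n⁻¹) * n := by group
      rw [this, h]; group) n⁻¹ (N.inv_mem hn)
    have h2 : n⁻¹ * (n * x * n⁻¹) * n⁻¹⁻¹ = x := by group
    rwa [h2] at h1
  -- equality of centralizers from inclusion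
  have hCeq : ∀ x ∈ N, x ≠ 1 → ∀ y ∈ N, y ≠ 1 → C x ≤ C y → C x = C y := by
    intro x hx hx1 y hy hy1 hle
    apply Subgroup.eq_of_le_of_card_ge hle
    have h1 := hcardC x hx hx1
    have h2 := hcardC y hy hy1
    have : Nat.card (C y) * h = Nat.card (C x) * h := h2.trans h1.symm
    exact (Nat.eq_of_mul_eq_mul_right hhpos this).le
  let D : G → Subgroup G := fun x => N ⊓ centralizer (C x : Set G)
  have hDmem : ∀ x y, y ∈ D x ↔ y ∈ N ∧ C x ≤ C y := by
    intro x y
    rw [Subgroup.mem_inf, mem_centralizer_iff]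
    constructor
    · rintro ⟨h1, h2⟩
      exact ⟨h1, fun a ha => (hCmem _ _).mpr ⟨hCle x ha, h2 a ha⟩⟩
    · rintro ⟨h1, h2⟩
      exact ⟨h1, fun a ha => ((hCmem _ _).mp (h2 ha)).2⟩
  have hDmem' : ∀ x ∈ N, x ≠ 1 → ∀ y ∈ N, y ≠ 1 → (y ∈ D x ↔ C x = C y) := by
    intro x hx hx1 y hy hy1
    rw [hDmem]
    exact ⟨fun h => hCeq x hx hx1 y hy hy1 h.2, fun h => ⟨hy, h.le⟩⟩
  have hxD : ∀ x ∈ N, x ∈ D x := fun x hx => (hDmem _ _).mpr ⟨hx, le_rfl⟩
  have hDN : ∀ x ∈ N, x ≠ 1 → D x ≠ N := by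
    intro x hx hx1 hDNx
    -- C x centralizes N, hence trivial
    have h1 : C x = ⊥ := by
      rw [eq_bot_iff]
      intro a ha
      rw [mem_bot]
      apply FaithfulSMul.eq_of_smul_eq_smul (α := Ω)
      intro ω
      obtain ⟨n, hn, rfl⟩ := hNsurj ω
      rw [one_smul]
      have h2 : n ∈ D x := by rw [hDNx]; exact hn
      have h3 := ((hDmem _ _).mp h2).2 ha
      exact (hCpt n hn a (hCle x ha)).mp h3
    have h2 : C x0 ≠ ⊥ := by
      intro h3
      apply hfix
      rw [eq_bot_iff]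
      intro a ha
      obtain ⟨ha1, ha2⟩ := Subgroup.mem_inf.mp ha
      have : a ∈ C x0 := by
        rw [hCpt x0 hx0 a ha1, hx0β]
        exact ha2
      rwa [h3] at this
    have h3 := hcardC x hx hx1
    have h4 := hcardC x0 hx0 hx01
    rw [h1, Subgroup.card_bot, one_mul] at h3
    rw [← h3] at h4
    have h5 : Nat.card (C x0) = 1 := by
      have : Nat.card (C x0) * h = 1 * h := by rw [h4, one_mul]
      exact Nat.eq_of_mul_eq_mul_right hhpos this
    exact h2 (Subgroup.eq_bot_of_card_eq _ h5)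
  have hexout : ∀ x ∈ N, x ≠ 1 → ∃ w ∈ N, w ∉ D x := by
    intro x hx hx1
    by_contra hcon
    push Not at hcon
    exact hDN x hx hx1 (le_antisymm inf_le_left hcon)
  have hDinter : ∀ x ∈ N, x ≠ 1 → ∀ y ∈ N, y ≠ 1 → C x ≠ C y → ∀ z, z ∈ D x → z ∈ D y → z = 1 := by
    intro x hx hx1 y hy hy1 hne z hzx hzy
    by_contra hz1
    have hzN := ((hDmem _ _).mp hzx).1
    apply hne
    rw [(hDmem' x hx hx1 z hzN hz1).mp hzx, (hDmem' y hy hy1 z hzN hz1).mp hzy]
  have hDconj : ∀ x ∈ N, x ≠ 1 → ∀ y ∈ D x, ∀ n ∈ N, n * y * n⁻¹ ∈ D x := by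
    intro x hx hx1 y hy n hn
    by_cases hy1 : y = 1
    · rw [hy1, mul_one, mul_inv_cancel]; exact one_mem _
    · have hyN := ((hDmem _ _).mp hy).1
      have h1 := (hDmem' x hx hx1 y hyN hy1).mp hy
      rw [hDmem]
      refine ⟨hN.conj_mem y hyN n, ?_⟩
      rw [hCconj y hyN hy1 n hn, h1]
  have hcomm1 : ∀ x ∈ N, x ≠ 1 → ∀ y ∈ N, y ≠ 1 → C x ≠ C y → x * y = y * x := by
    intro x hx hx1 y hy hy1 hne
    have h1 : x * y * x⁻¹ * y⁻¹ ∈ D y := (D y).mul_mem (hDconj y hy hy1 y (hxD y hy) x hx) ((D y).inv_mem (hxD y hy))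
    have h2 : x * y * x⁻¹ * y⁻¹ ∈ D x := by
      have h3 : x * y * x⁻¹ * y⁻¹ = x * (y * x⁻¹ * y⁻¹) := by group
      rw [h3]
      exact (D x).mul_mem (hxD x hx) (hDconj x hx hx1 _ ((D x).inv_mem (hxD x hx)) y hy)
    have h4 := hDinter x hx hx1 y hy hy1 hne _ h2 h1
    have h5 : x * y = (x * y * x⁻¹ * y⁻¹) * (y * x) := by group
    rw [h5, h4, one_mul]
  have hnotD : ∀ x ∈ N, x ≠ 1 → ∀ w ∈ N, w ∉ D x → w ≠ 1 ∧ C x ≠ C w := by
    intro x hx hx1 w hw hwD
    have hw1 : w ≠ 1 := fun h => hwD (h ▸ one_mem _)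
    exact ⟨hw1, fun h => hwD ((hDmem' x hx hx1 w hw hw1).mpr h)⟩
  have hcomm : ∀ x ∈ N, ∀ y ∈ N, x * y = y * x := by
    intro x hx y hy
    by_cases hx1 : x = 1
    · rw [hx1]; simp
    by_cases hyD : y ∈ D x
    · obtain ⟨w, hw, hwD⟩ := hexout x hx hx1
      have hwyD : w * y ∉ D x := fun h => hwD ((mul_mem_cancel_right hyD).mp h)
      obtain ⟨hw1, hCw⟩ := hnotD x hx hx1 w hw hwD
      obtain ⟨hwy1, hCwy⟩ := hnotD x hx hx1 (w * y) (N.mul_mem hw hy) hwyD
      have e1 := hcomm1 x hx hx1 w hw hw1 hCw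
      have e2 := hcomm1 x hx hx1 (w * y) (N.mul_mem hw hy) hwy1 hCwy
      have e3 : w * (x * y) = w * (y * x) := by
        calc w * (x * y) = (w * x) * y := by group
          _ = (x * w) * y := by rw [e1]
          _ = x * (w * y) := by group
          _ = (w * y) * x := e2
          _ = w * (y * x) := by group
      exact mul_left_cancel e3
    · obtain ⟨hy1, hCy⟩ := hnotD x hx hx1 y hy hyD
      exact hcomm1 x hx hx1 y hy hy1 hCy
  have hNcomm : IsMulCommutative N := ⟨⟨fun a b => Subtype.ext (hcomm a a.2 b b.2)⟩⟩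
  -- exponent
  have hNnt : Nat.card N ≠ 1 := by
    intro h1
    have := Subgroup.eq_bot_of_card_eq N h1
    rw [this, mem_bot] at hx0
    exact hx01 hx0
  obtain ⟨p, hp, hpN⟩ := Nat.exists_prime_and_dvd hNnt
  have := Fact.mk hp
  obtain ⟨⟨z, hz⟩, hzo⟩ := exists_prime_orderOf_dvd_card' p hpN
  have hzo' : orderOf z = p := by rw [← hzo]; exact (Subgroup.orderOf_mk z hz).symm
  have hz1 : z ≠ 1 := by rintro rfl; rw [orderOf_one] at hzo'; exact hp.one_lt.ne hzo'
  have hzp : z ^ p = 1 := by rw [← hzo']; exact pow_orderOf_eq_one z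
  have hexp1 : ∀ y ∈ N, y ∉ D z → y ^ p = 1 := by
    intro y hy hyD
    obtain ⟨hy1, hCy⟩ := hnotD z hz hz1 y hy hyD
    have hzyN : z * y ∈ N := N.mul_mem hz hy
    have hzyD : z * y ∉ D z := fun h => hyD ((mul_mem_cancel_left (hxD z hz)).mp h)
    obtain ⟨hzy1, hCzy⟩ := hnotD z hz hz1 (z * y) hzyN hzyD
    have hne : C y ≠ C (z * y) := by
      intro h
      have h1 : z * y ∈ D y := (hDmem' y hy hy1 (z * y) hzyN hzy1).mpr h
      have h2 : z ∈ D y := (mul_mem_cancel_right (hxD y hy)).mp h1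
      have h3 := (hDmem' y hy hy1 z hz hz1).mp h2
      exact hCy h3.symm
    have hcm : Commute z y := hcomm z hz y hy
    have h1 : (z * y) ^ p = y ^ p := by rw [hcm.mul_pow, hzp, one_mul]
    apply hDinter y hy hy1 (z * y) hzyN hzy1 hne
    · exact (D y).pow_mem (hxD y hy) p
    · rw [← h1]; exact (D (z * y)).pow_mem (hxD _ hzyN) p
  have hexp : ∀ y ∈ N, y ^ p = 1 := by
    intro y hy
    by_cases hyD : y ∈ D z
    · obtain ⟨w, hw, hwD⟩ := hexout z hz hz1
      have hwyD : w * y ∉ D z := fun h => hwD ((mul_mem_cancel_right hyD).mp h)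
      have h1 := hexp1 w hw hwD
      have h2 := hexp1 (w * y) (N.mul_mem hw hy) hwyD
      have hcm : Commute w y := hcomm w hw y hy
      rw [hcm.mul_pow, h1, one_mul] at h2
      exact h2
    · exact hexp1 y hy hyD
  refine ⟨⟨p, hp, hNcomm, hexp⟩, ?_⟩
  -- minimality
  have hmin : ∀ N0 : Subgroup G, N0.Normal → N0 ≤ N → N0 ≠ ⊥ → N0 = N := by
    intro N0 hN0n hN0 hN0b
    by_contra hne0
    obtain ⟨⟨u, hu⟩, hu1⟩ := Subgroup.ne_bot_iff_exists_ne_one.mp hN0b
    have hu1' : u ≠ 1 := fun h => hu1 (Subtype.ext h)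
    have huN := hN0 hu
    have hcop0 : h.Coprime (Nat.card N0) := Nat.Coprime.coprime_dvd_right (Subgroup.card_dvd_of_le hN0) hcop
    -- the setwise stabilizer of a coset
    have hcoset : ∀ y ∈ N, y ∉ N0 → ∀ a ∈ A, y⁻¹ * (a * y * a⁻¹) ∈ N0 → a ∈ C y := by
      intro y hy hyN0
      -- subgroup of A fixing the coset
      let E : Subgroup A :=
        { carrier := {a | y⁻¹ * ((a : G) * y * (a : G)⁻¹) ∈ N0}
          one_mem' := by simp [N0.one_mem]
          mul_mem' := by
            intro a b ha hb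
            have ha' : y⁻¹ * ((a : G) * y * (a : G)⁻¹) ∈ N0 := ha
            have hb' : y⁻¹ * ((b : G) * y * (b : G)⁻¹) ∈ N0 := hb
            have h1 : y⁻¹ * (((a * b : A) : G) * y * ((a * b : A) : G)⁻¹) =
                (y⁻¹ * ((a : G) * y * (a : G)⁻¹)) * ((a : G) * (y⁻¹ * ((b : G) * y * (b : G)⁻¹)) * (a : G)⁻¹) := by
              rw [Subgroup.coe_mul]; group
            change y⁻¹ * (((a * b : A) : G) * y * ((a * b : A) : G)⁻¹) ∈ N0
            rw [h1]
            exact N0.mul_mem ha' (hN0n.conj_mem _ hb' a)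
          inv_mem' := by
            intro a ha
            have ha' : y⁻¹ * ((a : G) * y * (a : G)⁻¹) ∈ N0 := ha
            change y⁻¹ * (((a⁻¹ : A) : G) * y * ((a⁻¹ : A) : G)⁻¹) ∈ N0
            have h1 : y⁻¹ * (((a⁻¹ : A) : G) * y * ((a⁻¹ : A) : G)⁻¹) =
                (a : G)⁻¹ * (y⁻¹ * ((a : G) * y * (a : G)⁻¹))⁻¹ * (a : G)⁻¹⁻¹ * 1 ∨ True := Or.inr trivial
            have h2 : (a : G)⁻¹ * (y⁻¹ * ((a : G) * y * (a : G)⁻¹)) * (a : G)⁻¹⁻¹ ∈ N0 := hN0n.conj_mem _ ha' _
            have h3 : ((a : G)⁻¹ * (y⁻¹ * ((a : G) * y * (a : G)⁻¹)) * (a : G)⁻¹⁻¹)⁻¹ = y⁻¹ * (((a⁻¹ : A) : G) * y * ((a⁻¹ : A) : G)⁻¹) := by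
              rw [Subgroup.coe_inv]
              have hc : Commute ((a : G)⁻¹ * y * (a : G)) y⁻¹ := by
                apply hcomm
                · have := hN.conj_mem y hy (a : G)⁻¹
                  rwa [inv_inv] at this
                · exact N.inv_mem hy
              calc ((a : G)⁻¹ * (y⁻¹ * ((a : G) * y * (a : G)⁻¹)) * (a : G)⁻¹⁻¹)⁻¹ = y⁻¹ * ((a : G)⁻¹ * y * (a : G)) := by group
                _ = y⁻¹ * ((a : G)⁻¹ * y * (a : G)⁻¹⁻¹) := by rw [inv_inv]
            rw [← h3]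
            exact N0.inv_mem h2 }
      have hCE : (C y).subgroupOf A ≤ E := by
        intro a ha
        have := ((hCmem _ _).mp (mem_subgroupOf.mp ha)).2
        change y⁻¹ * ((a : G) * y * (a : G)⁻¹) ∈ N0
        rw [this, mul_inv_cancel_right, inv_mul_cancel]
        exact N0.one_mem
      -- the union of the orbit of the coset
      have hEidx : h ∣ E.index := by
        have hY : h ∣ ({ω : Ω | ∃ a : A, ∃ m ∈ N0, (a : G) • (y * m) • α = ω}).ncard := by
          apply dvd_ncard (T := A) h hhpos _ (Set.toFinite _)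
          · rintro b _ ⟨a, m, hm, rfl⟩
            exact ⟨b * a, m, hm, mul_smul _ _ _⟩
          · rintro _ ⟨a, m, hm, rfl⟩
            apply horb
            intro h1
            have h2 : (y * m) • α ≠ α := by
              apply hptne _ (N.mul_mem hy (hN0 hm))
              intro h3
              apply hyN0
              rw [eq_inv_of_mul_eq_one_left h3]
              exact N0.inv_mem hm
            exact hAΩ a _ h2 h1
        have hcount : ({ω : Ω | ∃ a : A, ∃ m ∈ N0, (a : G) • (y * m) • α = ω}).ncard = E.index * Nat.card N0 := by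
          rw [← Nat.card_coe_set_eq, Subgroup.index, ← Nat.card_prod]
          symm
          refine Nat.card_congr (Equiv.ofBijective (fun q : (A ⧸ E) × N0 =>
            (⟨((q.1.out : A) : G) • (y * (q.2 : G)) • α, ⟨q.1.out, q.2, q.2.2, rfl⟩⟩ : {ω : Ω | ∃ a : A, ∃ m ∈ N0, (a : G) • (y * m) • α = ω})) ⟨?_, ?_⟩)
          · rintro ⟨q, m⟩ ⟨q', m'⟩ hqq
            have h1 : ((q.out : A) : G) • (y * (m : G)) • α = ((q'.out : A) : G) • (y * (m' : G)) • α := congrArg Subtype.val hqq
            rw [← hconjα _ (q.out : A).2, ← hconjα _ (q'.out : A).2] at h1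
            have h2 := hNinj _ (hN.conj_mem _ (N.mul_mem hy (hN0 m.2)) _) _ (hN.conj_mem _ (N.mul_mem hy (hN0 m'.2)) _) h1
            set a : A := q.out with ha
            set a' : A := q'.out with ha'
            have h3 : a⁻¹ * a' ∈ E := by
              change y⁻¹ * (((a⁻¹ * a' : A) : G) * y * ((a⁻¹ * a' : A) : G)⁻¹) ∈ N0
              have h4 : y⁻¹ * (((a⁻¹ * a' : A) : G) * y * ((a⁻¹ * a' : A) : G)⁻¹) =
                  (m : G) * (((a⁻¹ * a' : A) : G) * (m' : G) * ((a⁻¹ * a' : A) : G)⁻¹)⁻¹ := by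
                rw [Subgroup.coe_mul, Subgroup.coe_inv]
                have h5 : y * (m : G) = (a : G)⁻¹ * ((a' : G) * (y * (m' : G)) * (a' : G)⁻¹) * (a : G) := by
                  rw [← h2]; group
                have h6 : y⁻¹ * ((a : G)⁻¹ * (a' : G) * y * ((a : G)⁻¹ * (a' : G))⁻¹) =
                    y⁻¹ * ((a : G)⁻¹ * ((a' : G) * (y * (m' : G)) * (a' : G)⁻¹) * (a : G)) *
                      ((a : G)⁻¹ * (a' : G) * (m' : G) * ((a : G)⁻¹ * (a' : G))⁻¹)⁻¹ := by group
                rw [h6, ← h5]; group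
              rw [h4]
              exact N0.mul_mem m.2 (N0.inv_mem (hN0n.conj_mem _ m'.2 _))
            have h7 : q = q' := by
              rw [← QuotientGroup.eq, ha, ha', QuotientGroup.out_eq', QuotientGroup.out_eq'] at h3
              exact h3
            subst h7
            have h8 : (m : G) = m' := by
              have : y * (m : G) = y * (m' : G) := by
                have h9 := mul_left_cancel (mul_right_cancel h2)
                exact h9
              exact mul_left_cancel this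
            exact Prod.ext rfl (Subtype.ext h8)
          · rintro ⟨_, a, m, hm, rfl⟩
            -- a = a0 * e, e ∈ E
            set a0 : A := ((a : A ⧸ E)).out with ha0
            have h3 : a0⁻¹ * a ∈ E := by
              rw [← QuotientGroup.eq, ha0, QuotientGroup.out_eq']
            have h4 : y⁻¹ * (((a0⁻¹ * a : A) : G) * y * ((a0⁻¹ * a : A) : G)⁻¹) ∈ N0 := h3
            refine ⟨((a : A ⧸ E), ⟨(y⁻¹ * (((a0⁻¹ * a : A) : G) * y * ((a0⁻¹ * a : A) : G)⁻¹)) *
              (((a0⁻¹ * a : A) : G) * m * ((a0⁻¹ * a : A) : G)⁻¹), N0.mul_mem h4 (hN0n.conj_mem _ hm _)⟩), ?_⟩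
            apply Subtype.ext
            simp only
            rw [← ha0, ← hconjα _ a0.2, ← hconjα _ a.2]
            congr 1
            rw [Subgroup.coe_mul, Subgroup.coe_inv]
            group
        rw [hcount] at hY
        exact hcop0.dvd_of_dvd_mul_right hY
      have hEd : E.index ∣ h := by
        have := Subgroup.index_dvd_of_le hCE
        rw [show ((C y).subgroupOf A).index = (C y).relIndex A from rfl, hrel y hy (fun h => hyN0 (h ▸ N0.one_mem))] at this
        exact this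
      have hEh : E.index = h := Nat.dvd_antisymm hEd hEidx
      have hEC : (C y).subgroupOf A = E := by
        apply Subgroup.eq_of_le_of_card_ge hCE
        have e1 := E.card_mul_index
        have e2 := ((C y).subgroupOf A).card_mul_index
        rw [show ((C y).subgroupOf A).index = (C y).relIndex A from rfl, hrel y hy (fun h => hyN0 (h ▸ N0.one_mem))] at e2
        rw [hEh] at e1
        have : Nat.card E * h = Nat.card ((C y).subgroupOf A) * h := e1.trans e2.symm
        exact (Nat.eq_of_mul_eq_mul_right hhpos this).le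
      intro a ha haE
      have h1 : (⟨a, ha⟩ : A) ∈ E := haE
      rw [← hEC] at h1
      exact mem_subgroupOf.mp h1
    -- conclusion
    obtain ⟨y, hy, hyN0⟩ : ∃ y ∈ N, y ∉ N0 := by
      by_contra hcon
      push Not at hcon
      exact hne0 (le_antisymm hN0 hcon)
    -- C y ≤ C m for all m ∈ N0
    have hCy : ∀ y ∈ N, y ∉ N0 → ∀ m ∈ N0, C y ≤ C m := by
      intro y hy hyN0 m hm a ha
      obtain ⟨haA, hay⟩ := (hCmem _ _).mp ha
      have hymN : y * m ∈ N := N.mul_mem hy (hN0 hm)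
      have hym : y * m ∉ N0 := fun h => hyN0 ((mul_mem_cancel_right hm).mp h)
      have h1 : a ∈ C (y * m) := by
        apply hcoset (y * m) hymN hym a haA
        have h2 : (y * m)⁻¹ * (a * (y * m) * a⁻¹) = m⁻¹ * (a * m * a⁻¹) := by
          calc (y * m)⁻¹ * (a * (y * m) * a⁻¹) = m⁻¹ * y⁻¹ * (a * y) * m * a⁻¹ := by group
            _ = m⁻¹ * y⁻¹ * (y * a) * m * a⁻¹ := by rw [hay]
            _ = m⁻¹ * (a * m * a⁻¹) := by group
        rw [h2]
        exact N0.mul_mem (N0.inv_mem hm) (hN0n.conj_mem m hm a)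
      obtain ⟨_, haym⟩ := (hCmem _ _).mp h1
      rw [hCmem]
      refine ⟨haA, ?_⟩
      have h3 : y * (a * m) = y * (m * a) := by
        calc y * (a * m) = (y * a) * m := by group
          _ = (a * y) * m := by rw [hay]
          _ = a * (y * m) := by group
          _ = y * m * a := haym
          _ = y * (m * a) := by group
      exact mul_left_cancel h3
    apply hDN u huN hu1'
    apply le_antisymm inf_le_left
    intro w hw
    by_cases hwN0 : w ∈ N0
    · by_cases hw1 : w = 1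
      · rw [hw1]; exact one_mem _
      · have hy1 : y ≠ 1 := fun h => hyN0 (h ▸ N0.one_mem)
        rw [hDmem' u huN hu1' w hw hw1]
        rw [← hCeq y hy hy1 u huN hu1' (hCy y hy hyN0 u hu), ← hCeq y hy hy1 w hw hw1 (hCy y hy hyN0 w hwN0)]
    · have hw1 : w ≠ 1 := fun h => hwN0 (h ▸ N0.one_mem)
      rw [hDmem' u huN hu1' w hw hw1]
      exact (hCeq w hw hw1 u huN hu1' (hCy w hw hwN0 u hu)).symm
  intro M hM hMb
  have hMNn : (M ⊓ N).Normal := inferInstance
  by_cases hMN : M ⊓ N = ⊥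
  · exfalso
    apply hMb
    rw [eq_bot_iff]
    intro g hg
    -- g centralizes N
    have hgc : ∀ n ∈ N, g * n = n * g := by
      intro n hn
      have h1 : g * n * g⁻¹ * n⁻¹ ∈ M ⊓ N := by
        refine Subgroup.mem_inf.mpr ⟨?_, ?_⟩
        · have : g * n * g⁻¹ * n⁻¹ = g * (n * g⁻¹ * n⁻¹) := by group
          rw [this]
          exact M.mul_mem hg (hM.conj_mem _ (M.inv_mem hg) n)
        · exact N.mul_mem (hN.conj_mem n hn g) (N.inv_mem hn)
      rw [hMN, mem_bot] at h1
      have h2 : g * n = (g * n * g⁻¹ * n⁻¹) * (n * g) := by group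
      rw [h2, h1, one_mul]
    -- write g = m a
    obtain ⟨m, hm, hmg⟩ := hNsurj (g • α)
    have ha : m⁻¹ * g ∈ A := by
      change (m⁻¹ * g) • α = α
      rw [mul_smul, ← hmg, inv_smul_smul]
    have hac : ∀ n ∈ N, (m⁻¹ * g) * n = n * (m⁻¹ * g) := by
      intro n hn
      calc (m⁻¹ * g) * n = m⁻¹ * (g * n) := by group
        _ = m⁻¹ * (n * g) := by rw [hgc n hn]
        _ = (m⁻¹ * n) * g := by group
        _ = (n * m⁻¹) * g := by rw [hcomm _ (N.inv_mem hm) n hn]
        _ = n * (m⁻¹ * g) := by group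
    have ha1 : m⁻¹ * g = 1 := by
      apply FaithfulSMul.eq_of_smul_eq_smul (α := Ω)
      intro ω
      obtain ⟨n, hn, rfl⟩ := hNsurj ω
      rw [one_smul]
      exact (hCpt n hn _ ha).mp ((hCmem _ _).mpr ⟨ha, hac n hn⟩)
    have hgm : g = m := (inv_mul_eq_one.mp ha1).symm
    have h3 : g ∈ M ⊓ N := Subgroup.mem_inf.mpr ⟨hg, hgm ▸ hm⟩
    rwa [hMN] at h3
  · have h1 := hmin (M ⊓ N) hMNn inf_le_right hMN
    rw [← h1]
    exact inf_le_left

end Cfsg.Agent.S3356
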