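import Cfsg.Statements.S3357
import Cfsg.Agent.Lib.H74.FrobC

set_option autoImplicit false
open Cfsg

namespace Cfsg.Agent.S3357

/-- passing to an irreducible constituent -/
theorem irred {G : Type*} [Group G] {K : Type*} [Field K] {m : ℕ} (hm : 0 < m) (ρ : G →* Matrix (Fin m) (Fin m) K)
    (hρ : ∀ g : G, g ≠ 1 → ∀ v : Fin m → K, (ρ g).mulVec v = v → v = 0) :
    ∃ (n : ℕ) (τ : G →* GL (Fin n) K), 0 < n ∧ Function.Injective τ ∧
      (∀ W : Submodule K (Fin n → K),
        (∀ g : G, ∀ w ∈ W, ((τ g : GL (Fin n) K) : Matrix (Fin n) (Fin n) K).mulVec w ∈ W) → W = ⊥ ∨ W = ⊤) ∧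
      ∀ g : G, g ≠ 1 → ∀ v : Fin n → K, ((τ g : GL (Fin n) K) : Matrix (Fin n) (Fin n) K).mulVec v = v → v = 0 := by
  classical
  have : NeZero m := ⟨hm.ne'⟩
  let S : Set (Submodule K (Fin m → K)) := {W | W ≠ ⊥ ∧ ∀ g : G, ∀ w ∈ W, (ρ g).mulVec w ∈ W}
  have hS : S.Nonempty := ⟨⊤, top_ne_bot, fun _ _ _ => Submodule.mem_top⟩
  obtain ⟨W, ⟨hW0, hW⟩, hmin⟩ := (wellFounded_lt (α := Submodule K (Fin m → K))).has_min S hS
  let n := Module.finrank K W
  let b : Module.Basis (Fin n) K W := Module.finBasis K W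
  let T : G → W →ₗ[K] W := fun g => (Matrix.mulVecLin (ρ g)).restrict (fun w hw => hW g w hw)
  have hT : ∀ g (w : W), ((T g w : W) : Fin m → K) = (ρ g).mulVec w := fun g w => rfl
  let τ : G →* Matrix (Fin n) (Fin n) K :=
    { toFun := fun g => LinearMap.toMatrix b b (T g)
      map_one' := by
        have : T 1 = LinearMap.id := by
          ext w : 1
          apply Subtype.ext
          rw [hT, map_one, Matrix.one_mulVec]; rfl
        rw [this, LinearMap.toMatrix_id]
      map_mul' := by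
        intro g g'
        have : T (g * g') = T g ∘ₗ T g' := by
          ext w : 1
          apply Subtype.ext
          rw [hT, map_mul, ← Matrix.mulVec_mulVec]; rfl
        rw [this, LinearMap.toMatrix_comp b b b] }
  have hτ : ∀ g w, (τ g).mulVec (b.repr w) = b.repr (T g w) := fun g w => LinearMap.toMatrix_mulVec_repr b b (T g) w
  have hn : 0 < n := by
    rw [Module.finrank_pos_iff]
    exact (Submodule.nontrivial_iff_ne_bot).mpr hW0
  have hτ' : ∀ g, ((τ.toHomUnits g : GL (Fin n) K) : Matrix (Fin n) (Fin n) K) = τ g := fun g => rfl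
  have hfix : ∀ g : G, g ≠ 1 → ∀ v : Fin n → K, ((τ.toHomUnits g : GL (Fin n) K) : Matrix (Fin n) (Fin n) K).mulVec v = v → v = 0 := by
    intro g hg v hv
    rw [hτ'] at hv
    obtain ⟨w, rfl⟩ := b.equivFun.surjective v
    have h1 : (τ g).mulVec (b.equivFun w) = b.equivFun (T g w) := hτ g w
    rw [h1] at hv
    have h2 := b.equivFun.injective hv
    have h3 : (ρ g).mulVec w = w := by rw [← hT, h2]
    have h4 : w = 0 := Subtype.ext (hρ g hg _ h3)
    rw [h4, map_zero]
  refine ⟨n, τ.toHomUnits, hn, ?_, ?_, hfix⟩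
  · rw [injective_iff_map_eq_one]
    intro g hg
    by_contra hne
    have h1 := hfix g hne (fun _ => 1) (by rw [hg, Units.val_one, Matrix.one_mulVec])
    exact one_ne_zero (α := K) (congrFun h1 ⟨0, hn⟩)
  · intro U hU
    let U' : Submodule K (Fin m → K) := (U.map (b.equivFun.symm : (Fin n → K) →ₗ[K] W)).map W.subtype
    have hU'W : U' ≤ W := Submodule.map_subtype_le _ _
    have hU' : ∀ g : G, ∀ w ∈ U', (ρ g).mulVec w ∈ U' := by
      rintro g _ ⟨_, ⟨u, hu, rfl⟩, rfl⟩
      refine ⟨T g (b.equivFun.symm u), ⟨(τ g).mulVec u, hU g u hu, ?_⟩, rfl⟩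
      change b.equivFun.symm ((τ g).mulVec u) = T g (b.equivFun.symm u)
      rw [LinearEquiv.symm_apply_eq]
      have h1 : (τ g).mulVec (b.equivFun (b.equivFun.symm u)) = b.equivFun (T g (b.equivFun.symm u)) := hτ g _
      rw [← h1, LinearEquiv.apply_symm_apply]
    by_cases h0 : U' = ⊥
    · left
      rw [eq_bot_iff]
      intro u hu
      have h1 : ((b.equivFun.symm u : W) : Fin m → K) ∈ U' := ⟨_, ⟨u, hu, rfl⟩, rfl⟩
      rw [h0, Submodule.mem_bot] at h1
      have h2 : b.equivFun.symm u = 0 := Subtype.ext h1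
      rw [Submodule.mem_bot]
      exact (LinearEquiv.map_eq_zero_iff _).mp h2
    · right
      have h1 : ¬ U' < W := hmin U' ⟨h0, hU'⟩
      have h2 : U' = W := by
        by_contra hne
        exact h1 (lt_of_le_of_ne hU'W hne)
      rw [eq_top_iff]
      intro v _
      have h3 : ((b.equivFun.symm v : W) : Fin m → K) ∈ U' := by rw [h2]; exact (b.equivFun.symm v).2
      obtain ⟨_, ⟨u, hu, rfl⟩, h4⟩ := h3
      have h5 : b.equivFun.symm u = b.equivFun.symm v := Subtype.ext h4
      rw [← b.equivFun.symm.injective h5]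
      exact hu

/-- Let G be a finite group that occurs as a Frobenius complement. Then G has a faithful irreducible representation over an algebraic closure of the rationals in which no non-identity element of G has 1 as an eigenvalue: there are n ≥ 1 and an injective homomorphism ρ from G to GL(n) over that field, with no invariant subspace other than 0 and the whole space, such that for g ≠ 1 the only vector fixed by ρ(g) is 0. -/
theorem result {G : Type*} [Group G] [Finite G]
    (hFC : ∃ (L : Type) (_ : Group L) (_ : Finite L) (H : Subgroup L), Cfsg.IsFrobeniusComplement H ∧ Nonempty (G ≃* H)) :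
    ∃ (n : ℕ) (ρ : G →* GL (Fin n) (AlgebraicClosure ℚ)), 0 < n ∧ Function.Injective ρ ∧
      (∀ W : Submodule (AlgebraicClosure ℚ) (Fin n → AlgebraicClosure ℚ),
        (∀ g : G, ∀ w ∈ W, ((ρ g : GL (Fin n) (AlgebraicClosure ℚ)) : Matrix (Fin n) (Fin n) (AlgebraicClosure ℚ)).mulVec w ∈ W) → W = ⊥ ∨ W = ⊤) ∧
      ∀ g : G, g ≠ 1 → ∀ v : Fin n → AlgebraicClosure ℚ,
        ((ρ g : GL (Fin n) (AlgebraicClosure ℚ)) : Matrix (Fin n) (Fin n) (AlgebraicClosure ℚ)).mulVec v = v → v = 0 := by
  obtain ⟨m, ρ, hm, hρ⟩ := H74.FrobC.exists_int_of_FC hFC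
  apply irred hm (H74.FpfRep.ex ρ (AlgebraicClosure ℚ))
  intro g hg v hv
  exact H74.FpfRep.ex_fpf ρ (AlgebraicClosure ℚ) hρ g hg (Nat.cast_ne_zero.mpr (orderOf_pos g).ne') v hv

end Cfsg.Agent.S3357
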