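import Cfsg.Statements.S3358
import Cfsg.Agent.Lib.H74.ZPres3
import Cfsg.Agent.Lib.H74.Six4

set_option autoImplicit false
open Cfsg

namespace Cfsg.Agent.S3358

open H74.FrobC H74.FC H74.Six H74.ZPres

theorem exists_N {G : Type*} [Group G] [Finite G] (hsol : Group.IsSolvable G) (h : IsFC G) :
    ∃ N : Subgroup G, N.Normal ∧ IsZGroup N ∧ ∃ f : G →* Equiv.Perm (Fin 4), f.ker = N := by
  let P : Sylow 2 G := default
  by_cases hP : IsCyclic P
  · have hz := zgroup_of_sylow h P hP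
    exact ⟨⊤, inferInstance, inferInstance, 1, MonoidHom.ker_one⟩
  obtain ⟨N, hN, hz, hc⟩ := exists_solvable h hsol P hP
  refine ⟨N, hN, hz, ?_⟩
  have hns5 : ∀ f : G →* Equiv.Perm (Fin 5), ¬ Function.Surjective f := fun f hf =>
    Equiv.Perm.not_isSolvable_fin_5 (Group.isSolvable_of_surjective hf)
  rcases hc with ⟨f, hf, rfl⟩ | ⟨f, hf, rfl⟩ | ⟨f, hf, rfl⟩ | ⟨f, hf, rfl⟩ | ⟨f, hf, rfl⟩
  · -- Klein four-group
    have e : DihedralGroup 2 ≃ Fin 4 := Fintype.equivFinOfCardEq (by rfl)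
    let c : DihedralGroup 2 →* Equiv.Perm (Fin 4) :=
      (e.permCongrHom : Equiv.Perm (DihedralGroup 2) →* Equiv.Perm (Fin 4)).comp (MulAction.toPermHom (DihedralGroup 2) (DihedralGroup 2))
    have hc : Function.Injective c := e.permCongrHom.injective.comp MulAction.toPerm_injective
    refine ⟨c.comp f, ?_⟩
    rw [← MonoidHom.comap_ker, (MonoidHom.ker_eq_bot_iff c).mpr hc, MonoidHom.comap_bot]
  · refine ⟨(alternatingGroup (Fin 4)).subtype.comp f, ?_⟩
    rw [← MonoidHom.comap_ker, Subgroup.ker_subtype, MonoidHom.comap_bot]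
  · exact ⟨f, rfl⟩
  · exfalso
    have h1 : Group.IsSolvable (alternatingGroup (Fin 5)) := Group.isSolvable_of_surjective hf
    have h2 := IsSimpleGroup.comm_iff_isSolvable.mpr h1
    have m1 : Equiv.Perm.sign (Equiv.swap 0 1 * Equiv.swap 2 3 : Equiv.Perm (Fin 5)) = 1 := by decide
    have m2 : Equiv.Perm.sign (Equiv.swap 0 1 * Equiv.swap 1 2 : Equiv.Perm (Fin 5)) = 1 := by decide
    have h3 : (Equiv.swap 0 1 * Equiv.swap 2 3 : Equiv.Perm (Fin 5)) * (Equiv.swap 0 1 * Equiv.swap 1 2) =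
      (Equiv.swap 0 1 * Equiv.swap 1 2) * (Equiv.swap 0 1 * Equiv.swap 2 3) := congrArg Subtype.val (h2 ⟨_, m1⟩ ⟨_, m2⟩)
    exact absurd h3 (by decide)
  · exact absurd hf (hns5 f)

/-- Structure of solvable Frobenius complements. Let G be a finite solvable group that occurs as a Frobenius complement. Then G has a normal subgroup G₀ such that G/G₀ is isomorphic to a subgroup of Sym(4) (G₀ is the kernel of a homomorphism to Sym(4)), all Sylow subgroups of G₀ are cyclic, and G₀ has a presentation ⟨x, y | x^n = 1, y^m = 1, x⁻¹ y x = y^r⟩ with n, m ≥ 1, gcd(r − 1, m) = gcd(n, m) = 1 and r^(n/n′) ≡ 1 (mod m), where n′ is the product of the distinct primes dividing n. -/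
theorem result {G : Type*} [Group G] [Finite G] (hsol : Group.IsSolvable G)
    (hFC : ∃ (L : Type) (_ : Group L) (_ : Finite L) (H : Subgroup L), Cfsg.IsFrobeniusComplement H ∧ Nonempty (G ≃* H)) :
    ∃ G₀ : Subgroup G, G₀.Normal ∧
      (∃ f : G →* Equiv.Perm (Fin 4), f.ker = G₀) ∧
      (∀ (p : ℕ) [Fact p.Prime] (P : Sylow p G₀), IsCyclic P) ∧
      ∃ n m r : ℕ, 0 < n ∧ 0 < m ∧ Nat.Coprime (r - 1) m ∧ Nat.Coprime n m ∧ 1 ≤ r ∧
        r ^ (n / ∏ p ∈ n.primeFactors, p) % m = 1 % m ∧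
        Nonempty (G₀ ≃* PresentedGroup
          ({FreeGroup.of (0 : Fin 2) ^ n, FreeGroup.of (1 : Fin 2) ^ m,
            (FreeGroup.of (0 : Fin 2))⁻¹ * FreeGroup.of 1 * FreeGroup.of 0 * (FreeGroup.of (1 : Fin 2) ^ r)⁻¹} :
            Set (FreeGroup (Fin 2)))) := by
  obtain ⟨N, hN, hz, f, hf⟩ := exists_N hsol hFC
  refine ⟨N, hN, ⟨f, hf⟩, fun p hp P => hz.isZGroup p hp.out P, ?_⟩
  obtain ⟨x, y, r, hr, hr1, hgen, hcard, hYn, hcop, hc⟩ := zgroup_gens hz
  refine ⟨orderOf x, orderOf y, r, orderOf_pos x, orderOf_pos y, hc, hcop, hr1, ?_, ?_⟩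
  · apply zass_cond _ x y r hr hYn hcop
    intro hnt
    exact isFC_subgroup hFC N ((Subgroup.nontrivial_iff_ne_bot N).mp hnt)
  · exact pres_iso x y _ _ r (pow_orderOf_eq_one x) (pow_orderOf_eq_one y) hr hgen hcard (orderOf_pos x) (orderOf_pos y)

end Cfsg.Agent.S3358
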