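import Cfsg.Statements.S3361
import Cfsg.Agent.Lib.H74.SolvReg
-- import your own Cfsg.Agent.* helpers here

set_option autoImplicit false
open Cfsg

namespace Cfsg.Agent.S3361

/-- Let q be a prime and V a non-trivial finite vector space over the field with q elements, and let G be a finite solvable group acting faithfully and linearly on V and regularly on the non-zero vectors (transitively, with only the identity fixing a non-zero vector). Then either V can be identified with the additive group of a finite field F so that every element of G acts as x ↦ a·σ(x) (a ∈ F, σ a field automorphism), or V has 5^2, 7^2, 11^2 or 23^2 elements. Moreover, if q ≠ 2 then G has a normal subgroup of index 2, except that when V has 25 elements G may be isomorphic to SL(2,3) and when V has 121 elements G may be isomorphic to SL(2,3) × C₅. -/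
theorem result
    (q : ℕ) [Fact q.Prime] {V : Type*} [AddCommGroup V] [Module (ZMod q) V] [Finite V] [Nontrivial V]
    {G : Type*} [Group G] [Finite G] (hsol : Group.IsSolvable G)
    (ρ : G →* (V ≃ₗ[ZMod q] V)) (hρ : Function.Injective ρ)
    (htrans : ∀ v w : V, v ≠ 0 → w ≠ 0 → ∃ g : G, ρ g v = w)
    (hreg : ∀ v : V, v ≠ 0 → ∀ g : G, ρ g v = v → g = 1) :
    ((∃ (F : Type) (_ : Field F) (_ : Fintype F) (e : V ≃+ F),
        ∀ g : G, ∃ (a : F) (σ : F ≃+* F), ∀ v : V, e (ρ g v) = a * σ (e v)) ∨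
      Nat.card V ∈ ({25, 49, 121, 529} : Set ℕ)) ∧
    (q ≠ 2 → (∃ N : Subgroup G, N.Normal ∧ N.index = 2) ∨
      (Nat.card V = 25 ∧ Nonempty (G ≃* Matrix.SpecialLinearGroup (Fin 2) (ZMod 3))) ∨
      (Nat.card V = 121 ∧ Nonempty (G ≃* Matrix.SpecialLinearGroup (Fin 2) (ZMod 3) × Multiplicative (ZMod 5)))) := by
  classical
  let E : G ≃* ρ.range := MonoidHom.ofInjective hρ
  have hE : ∀ (g : G) (v : V), ((E g : ρ.range) : V ≃ₗ[ZMod q] V) v = ρ g v := fun g v => rfl
  have hsol' : Group.IsSolvable ρ.range := Group.isSolvable_of_surjective E.surjective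
  obtain ⟨h1, h2⟩ := H74.SolvReg.main ρ.range hsol' (fun v w hv hw => by
    obtain ⟨g, hg⟩ := htrans v w hv hw
    exact ⟨E g, hg⟩) (fun h v hv hh => by
    obtain ⟨g, rfl⟩ := E.surjective h
    rw [hreg v hv g hh, map_one])
  refine ⟨?_, fun hq => ?_⟩
  · rcases h1 with ⟨F, i1, i2, e, he⟩ | h1
    · left
      refine ⟨F, i1, i2, e, fun g => ?_⟩
      obtain ⟨a, σ, h⟩ := he (E g)
      exact ⟨a, σ, h⟩
    · exact Or.inr h1
  · rcases h2 hq with ⟨N, hN, hi⟩ | ⟨hc, ⟨f⟩⟩ | ⟨hc, ⟨f⟩⟩
    · left
      refine ⟨N.comap E.toMonoidHom, inferInstance, ?_⟩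
      have hs : Function.Surjective E.toMonoidHom := E.surjective
      rw [Subgroup.index_comap_of_surjective _ hs, hi]
    · exact Or.inr (Or.inl ⟨hc, ⟨E.trans f⟩⟩)
    · exact Or.inr (Or.inr ⟨hc, ⟨E.trans f⟩⟩)

end Cfsg.Agent.S3361
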