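import Cfsg.Statements.S3362
import Mathlib

set_option autoImplicit false
set_option linter.unusedSimpArgs false
open Cfsg

namespace Cfsg.Agent.S3362

open Equiv

/-- the 132 hexads as bit masks -/
def L : List ℕ := [63, 219, 237, 246, 350, 363, 373, 413, 430, 435, 455, 504, 591, 627, 636, 670, 679, 697, 725, 746, 791, 813, 826, 857, 870, 907, 948, 972, 978, 993, 1117, 1127, 1146, 1175, 1195, 1212, 1230, 1265, 1295, 1334, 1337, 1363, 1388, 1434, 1445, 1481, 1492, 1506, 1563, 1582, 1589, 1622, 1641, 1677, 1714, 1731, 1752, 1764, 1820, 1827, 1861, 1866, 1904, 1926, 1937, 1960, 2135, 2158, 2169, 2191, 2229, 2234, 2268, 2275, 2331, 2343, 2364, 2381, 2418, 2454, 2473, 2506, 2513, 2532, 2589, 2603, 2614, 2650, 2661, 2707, 2732, 2758, 2761, 2800, 2830, 2865, 2883, 2900, 2920, 2949, 2968, 2978, 3102, 3117, 3123, 3147, 3188, 3225, 3238, 3269, 3282, 3304, 3349, 3370, 3398, 3416, 3425, 3459, 3468, 3504, 3591, 3640,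 3660, 3665, 3682, 3722, 3732, 3745, 3849, 3858, 3876, 4032]

/-- tables of the eight generators -/
def T : List (List ℕ) := [[0, 1, 2, 4, 5, 3, 7, 8, 6, 10, 11, 9], [0, 1, 2, 6, 7, 8, 9, 10, 11, 3, 4, 5], [0, 1, 2, 3, 6, 9, 5, 8, 11, 4, 7, 10], [0, 1, 2, 3, 7, 11, 10, 5, 6, 8, 9, 4], [0, 1, 2, 3, 10, 8, 11, 6, 4, 7, 5, 9], [3, 1, 2, 0, 4, 5, 7, 6, 10, 11, 8, 9], [1, 0, 2, 3, 4, 5, 9, 10, 11, 6, 7, 8], [0, 2, 1, 3, 4, 5, 11, 9, 10, 7, 8, 6]]

def gen : ℕ → Perm (Fin 12)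
  | 0 => swap (3 : Fin 12) 5 * swap (3 : Fin 12) 4 * swap (6 : Fin 12) 8 * swap (6 : Fin 12) 7 * swap (9 : Fin 12) 11 * swap (9 : Fin 12) 10
  | 1 => swap (3 : Fin 12) 9 * swap (3 : Fin 12) 6 * swap (4 : Fin 12) 10 * swap (4 : Fin 12) 7 * swap (5 : Fin 12) 11 * swap (5 : Fin 12) 8
  | 2 => swap (4 : Fin 12) 9 * swap (4 : Fin 12) 5 * swap (4 : Fin 12) 6 * swap (7 : Fin 12) 10 * swap (7 : Fin 12) 11 * swap (7 : Fin 12) 8
  | 3 => swap (4 : Fin 12) 11 * swap (4 : Fin 12) 5 * swap (4 : Fin 12) 7 * swap (6 : Fin 12) 8 * swap (6 : Fin 12) 9 * swap (6 : Fin 12) 10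
  | 4 => swap (4 : Fin 12) 8 * swap (4 : Fin 12) 5 * swap (4 : Fin 12) 10 * swap (6 : Fin 12) 7 * swap (6 : Fin 12) 9 * swap (6 : Fin 12) 11
  | 5 => swap (0 : Fin 12) 3 * swap (6 : Fin 12) 7 * swap (8 : Fin 12) 10 * swap (9 : Fin 12) 11
  | 6 => swap (0 : Fin 12) 1 * swap (6 : Fin 12) 9 * swap (7 : Fin 12) 10 * swap (8 : Fin 12) 11
  | 7 => swap (1 : Fin 12) 2 * swap (6 : Fin 12) 11 * swap (7 : Fin 12) 9 * swap (8 : Fin 12) 10
  | _ => 1

def tab (g : ℕ) (i : ℕ) : ℕ := (T.getD g []).getD i 0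

theorem gen_tab : ∀ g < 8, ∀ i : Fin 12, (gen g i).val = tab g i.val := by decide +kernel

/-- image of a mask -/
def img (g h : ℕ) : ℕ := (List.range 12).foldl (fun a i => if h.testBit i then a + 2 ^ (tab g i) else a) 0

def chk (g : ℕ) : Bool := L.all fun h => L.contains (img g h) &&
  (List.range 12).all fun i => (img g h).testBit (tab g i) == h.testBit i

theorem chk_all : ∀ g < 8, chk g = true := by decide +kernel

def P (σ : Perm (Fin 12)) : Prop := ∀ h ∈ L, ∃ h' ∈ L, ∀ i : Fin 12, Nat.testBit h' (σ i).val = Nat.testBit h i.val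

theorem P_gen (g : ℕ) (hg : g < 8) : P (gen g) := by
  intro h hh
  have h1 := chk_all g hg
  rw [chk, List.all_eq_true] at h1
  have h2 := h1 h hh
  rw [Bool.and_eq_true, List.all_eq_true] at h2
  refine ⟨img g h, by simpa using h2.1, ?_⟩
  intro i
  have h3 := h2.2 i.val (List.mem_range.mpr i.2)
  rw [gen_tab g hg i]
  simpa using h3

theorem P_one : P 1 := fun h hh => ⟨h, hh, fun _ => rfl⟩

theorem P_mul {a b : Perm (Fin 12)} (ha : P a) (hb : P b) : P (a * b) := by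
  intro h hh
  obtain ⟨h1, hh1, e1⟩ := hb h hh
  obtain ⟨h2, hh2, e2⟩ := ha h1 hh1
  exact ⟨h2, hh2, fun i => by rw [Perm.mul_apply, e2, e1]⟩

theorem P_inv {a : Perm (Fin 12)} (ha : P a) : P a⁻¹ := by
  have h1 : ∀ n : ℕ, P (a ^ n) := by
    intro n
    induction n with
    | zero => rw [pow_zero]; exact P_one
    | succ n ih => rw [pow_succ]; exact P_mul ih ha
  have h2 : a⁻¹ = a ^ (orderOf a - 1) := by
    rw [inv_eq_iff_mul_eq_one, ← pow_succ', Nat.sub_add_cancel (orderOf_pos a), pow_orderOf_eq_one]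
  rw [h2]; exact h1 _

/-- there is a hexad containing the listed points -/
def C (ql : List ℕ) : Bool := L.any fun m => ql.all fun i => m.testBit i

theorem sound {σ : Perm (Fin 12)} (hP : P σ) (h : ℕ) (hh : h ∈ L) (ql : List (Fin 12))
    (hq : ∀ i ∈ ql, h.testBit i.val = true) : C (ql.map fun i => (σ i).val) = true := by
  obtain ⟨h', hh', e⟩ := hP h hh
  rw [C, List.any_eq_true]
  refine ⟨h', hh', ?_⟩
  rw [List.all_eq_true]
  intro j hj
  obtain ⟨i, hi, rfl⟩ := List.mem_map.mp hj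
  rw [e]; exact hq i hi

theorem key1 : ∀ a : Fin 12, a ≠ 0 → a ≠ 1 → a ≠ 2 → a ≠ 3 → a ≠ 4 → C [0, 1, 2, 3, 4, a.val] = true → a = 5 := by
  decide +kernel
set_option synthInstance.maxSize 100000 in
set_option synthInstance.maxHeartbeats 1000000 in
theorem key2 : ∀ a : Fin 12, 6 ≤ a.val →
    ∀ b : Fin 12, (6 ≤ b.val ∧ b ≠ a ∧ C [0, 1, 3, 4, a.val, b.val] = true) →
    ∀ c : Fin 12, (6 ≤ c.val ∧ c ≠ a ∧ C [0, 1, 3, 5, a.val, c.val] = true) →
    ∀ d : Fin 12, (6 ≤ d.val ∧ d ≠ a ∧ C [0, 1, 2, 3, a.val, d.val] = true) →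
    ∀ e : Fin 12, (6 ≤ e.val ∧ e ≠ a ∧ C [0, 1, 2, 5, a.val, e.val] = true) →
    ∀ f : Fin 12, (6 ≤ f.val ∧ f ≠ a ∧ C [0, 1, 2, 4, a.val, f.val] = true) →
    C [0, 1, 2, 3, b.val, f.val] = true →
    C [0, 2, 3, 4, a.val, e.val] = true →
    a = 6 ∧ b = 7 ∧ c = 8 ∧ d = 9 ∧ e = 10 ∧ f = 11 := by
  decide +kernel

set_option synthInstance.maxSize 10000 in
theorem six_le : ∀ j : Fin 12, j ≠ 0 → j ≠ 1 → j ≠ 2 → j ≠ 3 → j ≠ 4 → j ≠ 5 → 6 ≤ j.val := by decide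

theorem eq_one_of_fix {σ : Perm (Fin 12)} (hP : P σ) (h0 : σ 0 = 0) (h1 : σ 1 = 1) (h2 : σ 2 = 2) (h3 : σ 3 = 3)
    (h4 : σ 4 = 4) : σ = 1 := by
  have hne : ∀ i j : Fin 12, i ≠ j → σ i ≠ σ j := fun i j hij h => hij (σ.injective h)
  have n0 : ∀ i : Fin 12, i ≠ 0 → σ i ≠ 0 := fun i hi => by have := hne i 0 hi; rwa [h0] at this
  have n1 : ∀ i : Fin 12, i ≠ 1 → σ i ≠ 1 := fun i hi => by have := hne i 1 hi; rwa [h1] at this
  have n2 : ∀ i : Fin 12, i ≠ 2 → σ i ≠ 2 := fun i hi => by have := hne i 2 hi; rwa [h2] at this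
  have n3 : ∀ i : Fin 12, i ≠ 3 → σ i ≠ 3 := fun i hi => by have := hne i 3 hi; rwa [h3] at this
  have n4 : ∀ i : Fin 12, i ≠ 4 → σ i ≠ 4 := fun i hi => by have := hne i 4 hi; rwa [h4] at this
  have h5 : σ 5 = 5 := by
    apply key1 _ (n0 _ (by decide)) (n1 _ (by decide)) (n2 _ (by decide)) (n3 _ (by decide)) (n4 _ (by decide))
    have := sound hP 63 (by decide) [0, 1, 2, 3, 4, 5] (by decide)
    simp only [List.map_cons, List.map_nil, h0, h1, h2, h3, h4] at this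
    exact this
  have n5 : ∀ i : Fin 12, i ≠ 5 → σ i ≠ 5 := fun i hi => by have := hne i 5 hi; rwa [h5] at this
  have inR : ∀ i : Fin 12, i ≠ 0 → i ≠ 1 → i ≠ 2 → i ≠ 3 → i ≠ 4 → i ≠ 5 → 6 ≤ (σ i).val := by
    intro i a b c d e f
    exact six_le _ (n0 i a) (n1 i b) (n2 i c) (n3 i d) (n4 i e) (n5 i f)
  have c0 : C [0, 1, 3, 4, (σ 6).val, (σ 7).val] = true := by
    have := sound hP 219 (by decide) [0, 1, 3, 4, 6, 7] (by decide)
    simp only [List.map_cons, List.map_nil, h0, h1, h2, h3, h4, h5] at this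
    exact this
  have c1 : C [0, 1, 3, 5, (σ 6).val, (σ 8).val] = true := by
    have := sound hP 363 (by decide) [0, 1, 3, 5, 6, 8] (by decide)
    simp only [List.map_cons, List.map_nil, h0, h1, h2, h3, h4, h5] at this
    exact this
  have c2 : C [0, 1, 2, 3, (σ 6).val, (σ 9).val] = true := by
    have := sound hP 591 (by decide) [0, 1, 2, 3, 6, 9] (by decide)
    simp only [List.map_cons, List.map_nil, h0, h1, h2, h3, h4, h5] at this
    exact this
  have c3 : C [0, 1, 2, 5, (σ 6).val, (σ 10).val] = true := by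
    have := sound hP 1127 (by decide) [0, 1, 2, 5, 6, 10] (by decide)
    simp only [List.map_cons, List.map_nil, h0, h1, h2, h3, h4, h5] at this
    exact this
  have c4 : C [0, 1, 2, 4, (σ 6).val, (σ 11).val] = true := by
    have := sound hP 2135 (by decide) [0, 1, 2, 4, 6, 11] (by decide)
    simp only [List.map_cons, List.map_nil, h0, h1, h2, h3, h4, h5] at this
    exact this
  have e0 : C [0, 1, 2, 3, (σ 7).val, (σ 11).val] = true := by
    have := sound hP 2191 (by decide) [0, 1, 2, 3, 7, 11] (by decide)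
    simp only [List.map_cons, List.map_nil, h0, h1, h2, h3, h4, h5] at this
    exact this
  have e1 : C [0, 2, 3, 4, (σ 6).val, (σ 10).val] = true := by
    have := sound hP 1117 (by decide) [0, 2, 3, 4, 6, 10] (by decide)
    simp only [List.map_cons, List.map_nil, h0, h1, h2, h3, h4, h5] at this
    exact this
  obtain ⟨r6, r7, r8, r9, r10, r11⟩ := key2 (σ 6) (inR 6 (by decide) (by decide) (by decide) (by decide) (by decide) (by decide))
    (σ 7) ⟨inR 7 (by decide) (by decide) (by decide) (by decide) (by decide) (by decide), hne _ _ (by decide), c0⟩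
    (σ 8) ⟨inR 8 (by decide) (by decide) (by decide) (by decide) (by decide) (by decide), hne _ _ (by decide), c1⟩
    (σ 9) ⟨inR 9 (by decide) (by decide) (by decide) (by decide) (by decide) (by decide), hne _ _ (by decide), c2⟩
    (σ 10) ⟨inR 10 (by decide) (by decide) (by decide) (by decide) (by decide) (by decide), hne _ _ (by decide), c3⟩
    (σ 11) ⟨inR 11 (by decide) (by decide) (by decide) (by decide) (by decide) (by decide), hne _ _ (by decide), c4⟩ e0 e1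
  ext i
  fin_cases i
  · exact congrArg Fin.val h0
  · exact congrArg Fin.val h1
  · exact congrArg Fin.val h2
  · exact congrArg Fin.val h3
  · exact congrArg Fin.val h4
  · exact congrArg Fin.val h5
  · exact congrArg Fin.val r6
  · exact congrArg Fin.val r7
  · exact congrArg Fin.val r8
  · exact congrArg Fin.val r9
  · exact congrArg Fin.val r10
  · exact congrArg Fin.val r11

def act (w : List ℕ) (q : ℕ) : ℕ := w.foldr (fun g q => tab g q) q

theorem eval_apply (w : List ℕ) (hw : ∀ g ∈ w, g < 8) (q : Fin 12) : (((w.map gen).prod : Perm (Fin 12)) q).val = act w q.val := by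
  induction w with
  | nil => rfl
  | cons g w ih =>
    rw [List.map_cons, List.prod_cons, Perm.mul_apply, gen_tab g (hw g (by simp)), ih (fun x hx => hw x (by simp [hx]))]
    rfl

def W0 : List (List ℕ) := [[7, 6], [7], [], [7, 6, 5], [7, 6, 5, 0, 0], [7, 6, 5, 0], [7, 6, 5, 0, 2], [7, 6, 5, 0, 3], [7, 6, 5, 0, 0, 4], [7, 6, 5, 1], [7, 6, 5, 0, 4], [7, 6, 5, 0, 1]]
theorem lv0 : ∀ q : Fin 12, ((∀ g ∈ W0.getD q.val [], 0 ≤ g ∧ g < 8) ∧ act (W0.getD q.val []) q.val = 2) := by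
  decide +kernel
theorem fx0 : ∀ g < 8, 0 ≤ g → (True) := by
  decide +kernel
theorem level0 (K : Subgroup (Perm (Fin 12))) (hK : ∀ g, 0 ≤ g → g < 8 → gen g ∈ K) (q : Fin 12)  :
    ∃ k ∈ K, k q = 2 := by
  obtain ⟨h1, h2⟩ := lv0 q 
  set w := W0.getD q.val [] with hw
  have hfix : ∀ x : Fin 12, (∀ g < 8, 0 ≤ g → gen g x = x) → ((w.map gen).prod : Perm (Fin 12)) x = x := by
    intro x hx
    have h3 : ∀ w : List ℕ, (∀ g ∈ w, 0 ≤ g ∧ g < 8) → ((w.map gen).prod : Perm (Fin 12)) x = x := by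
      intro w
      induction w with
      | nil => intro _; rfl
      | cons g w ih =>
        intro hw
        rw [List.map_cons, List.prod_cons, Perm.mul_apply, ih (fun y hy => hw y (by simp [hy]))]
        have := hw g (by simp)
        exact hx g this.2 this.1
    exact h3 w h1
  refine ⟨(w.map gen).prod, ?_, ?_⟩
  · apply Subgroup.list_prod_mem
    intro x hx
    obtain ⟨g, hg, rfl⟩ := List.mem_map.mp hx
    exact hK g (h1 g hg).1 (h1 g hg).2
  · apply Fin.ext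
    rw [eval_apply w (fun g hg => by have := (h1 g hg).2; omega), h2]
    rfl

def W1 : List (List ℕ) := [[6], [], [], [6, 5], [6, 5, 0, 0], [6, 5, 0], [6, 5, 0, 2], [6, 5, 0, 3], [6, 5, 0, 0, 4], [6, 5, 1], [6, 5, 0, 4], [6, 5, 0, 1]]
theorem lv1 : ∀ q : Fin 12, q ≠ 2 → ((∀ g ∈ W1.getD q.val [], 0 ≤ g ∧ g < 7) ∧ act (W1.getD q.val []) q.val = 1) := by
  decide +kernel
theorem fx1 : ∀ g < 7, 0 ≤ g → (gen g 2 = 2) := by
  decide +kernel
theorem level1 (K : Subgroup (Perm (Fin 12))) (hK : ∀ g, 0 ≤ g → g < 7 → gen g ∈ K) (q : Fin 12) (n2 : q ≠ 2) :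
    ∃ k ∈ K, k q = 1 ∧ k 2 = 2 := by
  obtain ⟨h1, h2⟩ := lv1 q n2
  set w := W1.getD q.val [] with hw
  have hfix : ∀ x : Fin 12, (∀ g < 7, 0 ≤ g → gen g x = x) → ((w.map gen).prod : Perm (Fin 12)) x = x := by
    intro x hx
    have h3 : ∀ w : List ℕ, (∀ g ∈ w, 0 ≤ g ∧ g < 7) → ((w.map gen).prod : Perm (Fin 12)) x = x := by
      intro w
      induction w with
      | nil => intro _; rfl
      | cons g w ih =>
        intro hw
        rw [List.map_cons, List.prod_cons, Perm.mul_apply, ih (fun y hy => hw y (by simp [hy]))]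
        have := hw g (by simp)
        exact hx g this.2 this.1
    exact h3 w h1
  refine ⟨(w.map gen).prod, ?_, ?_, ?_⟩
  · apply Subgroup.list_prod_mem
    intro x hx
    obtain ⟨g, hg, rfl⟩ := List.mem_map.mp hx
    exact hK g (h1 g hg).1 (h1 g hg).2
  · apply Fin.ext
    rw [eval_apply w (fun g hg => by have := (h1 g hg).2; omega), h2]
    rfl
  · exact hfix 2 (fun g hg hl => fx1 g hg hl)

def W2 : List (List ℕ) := [[], [], [], [5], [5, 0, 0], [5, 0], [5, 0, 2], [5, 0, 3], [5, 0, 0, 4], [5, 1], [5, 0, 4], [5, 0, 1]]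
theorem lv2 : ∀ q : Fin 12, q ≠ 2 → q ≠ 1 → ((∀ g ∈ W2.getD q.val [], 0 ≤ g ∧ g < 6) ∧ act (W2.getD q.val []) q.val = 0) := by
  decide +kernel
theorem fx2 : ∀ g < 6, 0 ≤ g → (gen g 2 = 2 ∧ gen g 1 = 1) := by
  decide +kernel
theorem level2 (K : Subgroup (Perm (Fin 12))) (hK : ∀ g, 0 ≤ g → g < 6 → gen g ∈ K) (q : Fin 12) (n2 : q ≠ 2) (n1 : q ≠ 1) :
    ∃ k ∈ K, k q = 0 ∧ k 2 = 2 ∧ k 1 = 1 := by
  obtain ⟨h1, h2⟩ := lv2 q n2 n1
  set w := W2.getD q.val [] with hw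
  have hfix : ∀ x : Fin 12, (∀ g < 6, 0 ≤ g → gen g x = x) → ((w.map gen).prod : Perm (Fin 12)) x = x := by
    intro x hx
    have h3 : ∀ w : List ℕ, (∀ g ∈ w, 0 ≤ g ∧ g < 6) → ((w.map gen).prod : Perm (Fin 12)) x = x := by
      intro w
      induction w with
      | nil => intro _; rfl
      | cons g w ih =>
        intro hw
        rw [List.map_cons, List.prod_cons, Perm.mul_apply, ih (fun y hy => hw y (by simp [hy]))]
        have := hw g (by simp)
        exact hx g this.2 this.1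
    exact h3 w h1
  refine ⟨(w.map gen).prod, ?_, ?_, ?_, ?_⟩
  · apply Subgroup.list_prod_mem
    intro x hx
    obtain ⟨g, hg, rfl⟩ := List.mem_map.mp hx
    exact hK g (h1 g hg).1 (h1 g hg).2
  · apply Fin.ext
    rw [eval_apply w (fun g hg => by have := (h1 g hg).2; omega), h2]
    rfl
  · exact hfix 2 (fun g hg hl => (fx2 g hg hl).1)
  · exact hfix 1 (fun g hg hl => (fx2 g hg hl).2)

def W3 : List (List ℕ) := [[], [], [], [], [0, 0], [0], [0, 2], [0, 3], [0, 0, 4], [1], [0, 4], [0, 1]]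
theorem lv3 : ∀ q : Fin 12, q ≠ 2 → q ≠ 1 → q ≠ 0 → ((∀ g ∈ W3.getD q.val [], 0 ≤ g ∧ g < 5) ∧ act (W3.getD q.val []) q.val = 3) := by
  decide +kernel
theorem fx3 : ∀ g < 5, 0 ≤ g → (gen g 2 = 2 ∧ gen g 1 = 1 ∧ gen g 0 = 0) := by
  decide +kernel
theorem level3 (K : Subgroup (Perm (Fin 12))) (hK : ∀ g, 0 ≤ g → g < 5 → gen g ∈ K) (q : Fin 12) (n2 : q ≠ 2) (n1 : q ≠ 1) (n0 : q ≠ 0) :
    ∃ k ∈ K, k q = 3 ∧ k 2 = 2 ∧ k 1 = 1 ∧ k 0 = 0 := by
  obtain ⟨h1, h2⟩ := lv3 q n2 n1 n0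
  set w := W3.getD q.val [] with hw
  have hfix : ∀ x : Fin 12, (∀ g < 5, 0 ≤ g → gen g x = x) → ((w.map gen).prod : Perm (Fin 12)) x = x := by
    intro x hx
    have h3 : ∀ w : List ℕ, (∀ g ∈ w, 0 ≤ g ∧ g < 5) → ((w.map gen).prod : Perm (Fin 12)) x = x := by
      intro w
      induction w with
      | nil => intro _; rfl
      | cons g w ih =>
        intro hw
        rw [List.map_cons, List.prod_cons, Perm.mul_apply, ih (fun y hy => hw y (by simp [hy]))]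
        have := hw g (by simp)
        exact hx g this.2 this.1
    exact h3 w h1
  refine ⟨(w.map gen).prod, ?_, ?_, ?_, ?_, ?_⟩
  · apply Subgroup.list_prod_mem
    intro x hx
    obtain ⟨g, hg, rfl⟩ := List.mem_map.mp hx
    exact hK g (h1 g hg).1 (h1 g hg).2
  · apply Fin.ext
    rw [eval_apply w (fun g hg => by have := (h1 g hg).2; omega), h2]
    rfl
  · exact hfix 2 (fun g hg hl => (fx3 g hg hl).1)
  · exact hfix 1 (fun g hg hl => (fx3 g hg hl).2.1)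
  · exact hfix 0 (fun g hg hl => (fx3 g hg hl).2.2)

def W4 : List (List ℕ) := [[], [], [], [], [], [2, 2], [3, 4], [4, 2], [4], [2], [2, 3], [3]]
theorem lv4 : ∀ q : Fin 12, q ≠ 2 → q ≠ 1 → q ≠ 0 → q ≠ 3 → ((∀ g ∈ W4.getD q.val [], 2 ≤ g ∧ g < 5) ∧ act (W4.getD q.val []) q.val = 4) := by
  decide +kernel
theorem fx4 : ∀ g < 5, 2 ≤ g → (gen g 2 = 2 ∧ gen g 1 = 1 ∧ gen g 0 = 0 ∧ gen g 3 = 3) := by
  decide +kernel
theorem level4 (K : Subgroup (Perm (Fin 12))) (hK : ∀ g, 2 ≤ g → g < 5 → gen g ∈ K) (q : Fin 12) (n2 : q ≠ 2) (n1 : q ≠ 1) (n0 : q ≠ 0) (n3 : q ≠ 3) :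
    ∃ k ∈ K, k q = 4 ∧ k 2 = 2 ∧ k 1 = 1 ∧ k 0 = 0 ∧ k 3 = 3 := by
  obtain ⟨h1, h2⟩ := lv4 q n2 n1 n0 n3
  set w := W4.getD q.val [] with hw
  have hfix : ∀ x : Fin 12, (∀ g < 5, 2 ≤ g → gen g x = x) → ((w.map gen).prod : Perm (Fin 12)) x = x := by
    intro x hx
    have h3 : ∀ w : List ℕ, (∀ g ∈ w, 2 ≤ g ∧ g < 5) → ((w.map gen).prod : Perm (Fin 12)) x = x := by
      intro w
      induction w with
      | nil => intro _; rfl
      | cons g w ih =>
        intro hw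
        rw [List.map_cons, List.prod_cons, Perm.mul_apply, ih (fun y hy => hw y (by simp [hy]))]
        have := hw g (by simp)
        exact hx g this.2 this.1
    exact h3 w h1
  refine ⟨(w.map gen).prod, ?_, ?_, ?_, ?_, ?_, ?_⟩
  · apply Subgroup.list_prod_mem
    intro x hx
    obtain ⟨g, hg, rfl⟩ := List.mem_map.mp hx
    exact hK g (h1 g hg).1 (h1 g hg).2
  · apply Fin.ext
    rw [eval_apply w (fun g hg => by have := (h1 g hg).2; omega), h2]
    rfl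
  · exact hfix 2 (fun g hg hl => (fx4 g hg hl).1)
  · exact hfix 1 (fun g hg hl => (fx4 g hg hl).2.1)
  · exact hfix 0 (fun g hg hl => (fx4 g hg hl).2.2.1)
  · exact hfix 3 (fun g hg hl => (fx4 g hg hl).2.2.2)

/-- an element of `K` (containing the first seven generators) standardizes `1,0,3,4` positions while fixing `2` -/
theorem std4 (K : Subgroup (Perm (Fin 12))) (hK : ∀ g, g < 7 → gen g ∈ K) (q1 q2 q3 q4 : Fin 12)
    (n1 : q1 ≠ 2) (n2 : q2 ≠ 2) (n3 : q3 ≠ 2) (n4 : q4 ≠ 2) (n12 : q2 ≠ q1) (n13 : q3 ≠ q1) (n14 : q4 ≠ q1)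
    (n23 : q3 ≠ q2) (n24 : q4 ≠ q2) (n34 : q4 ≠ q3) :
    ∃ k ∈ K, k 2 = 2 ∧ k q1 = 1 ∧ k q2 = 0 ∧ k q3 = 3 ∧ k q4 = 4 := by
  obtain ⟨k1, hk1, e1, f1⟩ := level1 K (fun g _ h => hK g h) q1 n1
  have ne1 : ∀ a b : Fin 12, a ≠ b → k1 a ≠ k1 b := fun a b hab h => hab (k1.injective h)
  obtain ⟨k2, hk2, e2, f2, f2'⟩ := level2 K (fun g _ h => hK g (by omega)) (k1 q2)
    (by rw [← f1]; exact ne1 _ _ n2) (by rw [← e1]; exact ne1 _ _ n12)
  have ne2 : ∀ a b : Fin 12, a ≠ b → k2 (k1 a) ≠ k2 (k1 b) := fun a b hab h => ne1 _ _ hab (k2.injective h)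
  have g2 : k2 (k1 2) = 2 := by rw [f1, f2]
  have g21 : k2 (k1 q1) = 1 := by rw [e1, f2']
  obtain ⟨k3, hk3, e3, f3, f3', f3''⟩ := level3 K (fun g _ h => hK g (by omega)) (k2 (k1 q3))
    (by rw [← g2]; exact ne2 _ _ n3) (by rw [← g21]; exact ne2 _ _ n13) (by rw [← e2]; exact ne2 _ _ n23)
  have ne3 : ∀ a b : Fin 12, a ≠ b → k3 (k2 (k1 a)) ≠ k3 (k2 (k1 b)) := fun a b hab h => ne2 _ _ hab (k3.injective h)
  have g3 : k3 (k2 (k1 2)) = 2 := by rw [g2, f3]
  have g31 : k3 (k2 (k1 q1)) = 1 := by rw [g21, f3']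
  have g32 : k3 (k2 (k1 q2)) = 0 := by rw [e2, f3'']
  obtain ⟨k4, hk4, e4, f40, f41, f42, f43⟩ := level4 K (fun g _ h => hK g (by omega)) (k3 (k2 (k1 q4)))
    (by rw [← g3]; exact ne3 _ _ n4) (by rw [← g31]; exact ne3 _ _ n14) (by rw [← g32]; exact ne3 _ _ n24)
    (by rw [← e3]; exact ne3 _ _ n34)
  refine ⟨k4 * (k3 * (k2 * k1)), K.mul_mem hk4 (K.mul_mem hk3 (K.mul_mem hk2 hk1)), ?_, ?_, ?_, ?_, ?_⟩
  · simp only [Perm.mul_apply]; rw [g3, f40]
  · simp only [Perm.mul_apply]; rw [g31, f41]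
  · simp only [Perm.mul_apply]; rw [g32, f42]
  · simp only [Perm.mul_apply]; rw [e3, f43]
  · simp only [Perm.mul_apply]; rw [e4]

theorem smul_mul2 (M : Subgroup (Perm (Fin 12))) (k g : M) (y : Fin 5 ↪ Fin 12) : (k * g) • y = k • g • y := by
  ext i; rfl

theorem inv_smul2 (M : Subgroup (Perm (Fin 12))) (k : M) (y : Fin 5 ↪ Fin 12) : k⁻¹ • k • y = y := by
  ext i
  exact congrArg Fin.val ((k : Perm (Fin 12)).symm_apply_apply (y i))

theorem result
    (s t u v w x₁ x₂ x₃ : Equiv.Perm (Fin 12))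
    (hs : s = Equiv.swap (3 : Fin 12) 5 * Equiv.swap (3 : Fin 12) 4 * Equiv.swap (6 : Fin 12) 8 * Equiv.swap (6 : Fin 12) 7 * Equiv.swap (9 : Fin 12) 11 * Equiv.swap (9 : Fin 12) 10) (ht : t = Equiv.swap (3 : Fin 12) 9 * Equiv.swap (3 : Fin 12) 6 * Equiv.swap (4 : Fin 12) 10 * Equiv.swap (4 : Fin 12) 7 * Equiv.swap (5 : Fin 12) 11 * Equiv.swap (5 : Fin 12) 8)
    (hu : u = Equiv.swap (4 : Fin 12) 9 * Equiv.swap (4 : Fin 12) 5 * Equiv.swap (4 : Fin 12) 6 * Equiv.swap (7 : Fin 12) 10 * Equiv.swap (7 : Fin 12) 11 * Equiv.swap (7 : Fin 12) 8) (hv : v = Equiv.swap (4 : Fin 12) 11 * Equiv.swap (4 : Fin 12) 5 * Equiv.swap (4 : Fin 12) 7 * Equiv.swap (6 : Fin 12) 8 * Equiv.swap (6 : Fin 12) 9 * Equiv.swap (6 : Fin 12) 10) (hw : w = Equiv.swap (4 : Fin 12) 8 * Equiv.swap (4 : Fin 12) 5 * Equiv.swap (4 : Fin 12) 10 * Equiv.swap (6 : Fin 12) 7 * Equiv.swap (6 : Fin 12) 9 * Equiv.swap (6 : Fin 12) 11)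
    (hx₁ : x₁ = Equiv.swap (0 : Fin 12) 3 * Equiv.swap (6 : Fin 12) 7 * Equiv.swap (8 : Fin 12) 10 * Equiv.swap (9 : Fin 12) 11) (hx₂ : x₂ = Equiv.swap (0 : Fin 12) 1 * Equiv.swap (6 : Fin 12) 9 * Equiv.swap (7 : Fin 12) 10 * Equiv.swap (8 : Fin 12) 11)
    (hx₃ : x₃ = Equiv.swap (1 : Fin 12) 2 * Equiv.swap (6 : Fin 12) 11 * Equiv.swap (7 : Fin 12) 9 * Equiv.swap (8 : Fin 12) 10)
    (M₁₂ M₁₁ : Subgroup (Equiv.Perm (Fin 12))) (hM₁₂ : M₁₂ = Subgroup.closure {s, t, u, v, w, x₁, x₂, x₃})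
    (hM₁₁ : M₁₁ = Subgroup.closure {s, t, u, v, w, x₁, x₂}) :
    MulAction.IsMultiplyPretransitive M₁₂ (Fin 12) 5 ∧ (∀ y : Fin 5 ↪ Fin 12, MulAction.stabilizer M₁₂ y = ⊥) ∧
    Nat.card M₁₂ = 95040 ∧ Nat.card M₁₁ = 7920 ∧
    M₁₁ = M₁₂ ⊓ MulAction.stabilizer (Equiv.Perm (Fin 12)) (2 : Fin 12) := by
  change s = gen 0 at hs
  change t = gen 1 at ht
  change u = gen 2 at hu
  change v = gen 3 at hv
  change w = gen 4 at hw
  change x₁ = gen 5 at hx₁
  change x₂ = gen 6 at hx₂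
  change x₃ = gen 7 at hx₃
  subst hs ht hu hv hw hx₁ hx₂ hx₃
  have hm12 : ∀ g, g < 8 → gen g ∈ M₁₂ := by
    intro g hg
    rw [hM₁₂]
    apply Subgroup.subset_closure
    interval_cases g <;> simp
  have hm11 : ∀ g, g < 7 → gen g ∈ M₁₁ := by
    intro g hg
    rw [hM₁₁]
    apply Subgroup.subset_closure
    interval_cases g <;> simp
  have hP : ∀ g ∈ M₁₂, P g := by
    intro g hg
    rw [hM₁₂] at hg
    induction hg using Subgroup.closure_induction with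
    | mem x hx =>
      rcases hx with rfl | rfl | rfl | rfl | rfl | rfl | rfl | hx
      · exact P_gen 0 (by norm_num)
      · exact P_gen 1 (by norm_num)
      · exact P_gen 2 (by norm_num)
      · exact P_gen 3 (by norm_num)
      · exact P_gen 4 (by norm_num)
      · exact P_gen 5 (by norm_num)
      · exact P_gen 6 (by norm_num)
      · rw [Set.mem_singleton_iff.mp hx]; exact P_gen 7 (by norm_num)
    | one => exact P_one
    | mul a b _ _ ha hb => exact P_mul ha hb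
    | inv a _ ha => exact P_inv ha
  have hle : M₁₁ ≤ M₁₂ := by
    rw [hM₁₁, Subgroup.closure_le]
    rintro x (rfl | rfl | rfl | rfl | rfl | rfl | hx)
    · exact hm12 0 (by norm_num)
    · exact hm12 1 (by norm_num)
    · exact hm12 2 (by norm_num)
    · exact hm12 3 (by norm_num)
    · exact hm12 4 (by norm_num)
    · exact hm12 5 (by norm_num)
    · rw [Set.mem_singleton_iff.mp hx]; exact hm12 6 (by norm_num)
  have hstd : ∀ y : Fin 5 ↪ Fin 12, ∃ k ∈ M₁₂, k (y 0) = 2 ∧ k (y 1) = 1 ∧ k (y 2) = 0 ∧ k (y 3) = 3 ∧ k (y 4) = 4 := by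
    intro y
    have hy : ∀ i j : Fin 5, i ≠ j → y i ≠ y j := fun i j hij h => hij (y.injective h)
    obtain ⟨k0, hk0, e0⟩ := level0 M₁₂ (fun g _ h => hm12 g h) (y 0)
    have ne0 : ∀ i j : Fin 5, i ≠ j → k0 (y i) ≠ k0 (y j) := fun i j hij h => hy i j hij (k0.injective h)
    have n0 : ∀ i : Fin 5, i ≠ 0 → k0 (y i) ≠ 2 := fun i hi => by rw [← e0]; exact ne0 _ _ hi
    obtain ⟨k, hk, f, e1, e2, e3, e4⟩ := std4 M₁₂ (fun g h => hm12 g (by omega)) (k0 (y 1)) (k0 (y 2)) (k0 (y 3)) (k0 (y 4))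
      (n0 _ (by decide)) (n0 _ (by decide)) (n0 _ (by decide)) (n0 _ (by decide))
      (ne0 _ _ (by decide)) (ne0 _ _ (by decide)) (ne0 _ _ (by decide)) (ne0 _ _ (by decide)) (ne0 _ _ (by decide)) (ne0 _ _ (by decide))
    refine ⟨k * k0, M₁₂.mul_mem hk hk0, ?_, e1, e2, e3, e4⟩
    rw [Perm.mul_apply, e0, f]
  let y0 : Fin 5 ↪ Fin 12 := ⟨![2, 1, 0, 3, 4], by decide⟩
  have hstd' : ∀ y : Fin 5 ↪ Fin 12, ∃ k : M₁₂, k • y = y0 := by
    intro y
    obtain ⟨k, hk, e0, e1, e2, e3, e4⟩ := hstd y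
    refine ⟨⟨k, hk⟩, ?_⟩
    ext i
    fin_cases i
    · exact congrArg Fin.val e0
    · exact congrArg Fin.val e1
    · exact congrArg Fin.val e2
    · exact congrArg Fin.val e3
    · exact congrArg Fin.val e4
  have htriv0 : ∀ g : M₁₂, g • y0 = y0 → g = 1 := by
    intro g hg
    have h1 : ∀ i : Fin 5, (g : Perm (Fin 12)) (y0 i) = y0 i := fun i => DFunLike.congr_fun hg i
    apply Subtype.ext
    exact eq_one_of_fix (hP g g.2) (h1 2) (h1 1) (h1 0) (h1 3) (h1 4)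
  have htriv : ∀ y : Fin 5 ↪ Fin 12, MulAction.stabilizer M₁₂ y = ⊥ := by
    intro y
    rw [eq_bot_iff]
    intro g hg
    rw [Subgroup.mem_bot]
    obtain ⟨k, hk⟩ := hstd' y
    have h1 : (k * g * k⁻¹) • y0 = y0 := by
      have h5 : g • y = y := hg
      rw [← hk, smul_mul2, smul_mul2, inv_smul2, h5]
    have h2 := htriv0 _ h1
    have h3 : g = k⁻¹ * (k * g * k⁻¹) * k := by group
    rw [h3, h2]; group
  have htrans : MulAction.IsPretransitive M₁₂ (Fin 5 ↪ Fin 12) := by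
    constructor
    intro y z
    obtain ⟨k, hk⟩ := hstd' y
    obtain ⟨l, hl⟩ := hstd' z
    exact ⟨l⁻¹ * k, by rw [smul_mul2, hk, ← hl, inv_smul2]⟩
  have hcard : Nat.card M₁₂ = 95040 := by
    have h1 := @MulAction.index_stabilizer_of_transitive M₁₂ (Fin 5 ↪ Fin 12) _ _ y0 htrans
    have h2 : (MulAction.stabilizer M₁₂ y0).index = Nat.card (Fin 5 ↪ Fin 12) := h1
    rw [htriv y0, Subgroup.index_bot, Nat.card_eq_fintype_card (α := Fin 5 ↪ Fin 12), Fintype.card_embedding_eq,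
      Fintype.card_fin, Fintype.card_fin] at h2
    rw [h2]
    decide
  have heq : M₁₁ = M₁₂ ⊓ MulAction.stabilizer (Equiv.Perm (Fin 12)) (2 : Fin 12) := by
    apply le_antisymm
    · apply le_inf hle
      rw [hM₁₁, Subgroup.closure_le]
      have hfx : ∀ g < 7, gen g ∈ MulAction.stabilizer (Equiv.Perm (Fin 12)) (2 : Fin 12) := by
        intro g hg
        exact fx1 g hg (by omega)
      rintro x (rfl | rfl | rfl | rfl | rfl | rfl | hx)
      · exact hfx 0 (by norm_num)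
      · exact hfx 1 (by norm_num)
      · exact hfx 2 (by norm_num)
      · exact hfx 3 (by norm_num)
      · exact hfx 4 (by norm_num)
      · exact hfx 5 (by norm_num)
      · rw [Set.mem_singleton_iff.mp hx]; exact hfx 6 (by norm_num)
    · intro g hg
      obtain ⟨hg1, hg2⟩ := Subgroup.mem_inf.mp hg
      have hg2' : g 2 = 2 := hg2
      have hne : ∀ a b : Fin 12, a ≠ b → g a ≠ g b := fun a b hab h => hab (g.injective h)
      have n0 : ∀ a : Fin 12, a ≠ 2 → g a ≠ 2 := fun a ha => by have := hne a 2 ha; rwa [hg2'] at this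
      obtain ⟨k, hk, f, e1, e2, e3, e4⟩ := std4 M₁₁ hm11 (g 1) (g 0) (g 3) (g 4)
        (n0 _ (by decide)) (n0 _ (by decide)) (n0 _ (by decide)) (n0 _ (by decide))
        (hne _ _ (by decide)) (hne _ _ (by decide)) (hne _ _ (by decide)) (hne _ _ (by decide)) (hne _ _ (by decide)) (hne _ _ (by decide))
      have h1 : k * g = 1 := by
        apply eq_one_of_fix (hP _ (M₁₂.mul_mem (hle hk) hg1)) e2 e1
        · rw [Perm.mul_apply, hg2', f]
        · exact e3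
        · exact e4
      have h2 : g = k⁻¹ := (inv_eq_of_mul_eq_one_right h1).symm
      rw [h2]; exact M₁₁.inv_mem hk
  refine ⟨htrans, htriv, hcard, ?_, heq⟩
  -- order of M₁₁
  have htr1 : MulAction.IsPretransitive M₁₂ (Fin 12) := by
    constructor
    intro a b
    obtain ⟨k, hk, e⟩ := level0 M₁₂ (fun g _ h => hm12 g h) a
    obtain ⟨l, hl, e'⟩ := level0 M₁₂ (fun g _ h => hm12 g h) b
    refine ⟨⟨l, hl⟩⁻¹ * ⟨k, hk⟩, ?_⟩
    rw [mul_smul, inv_smul_eq_iff]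
    exact e.trans e'.symm
  have h1 := MulAction.index_stabilizer_of_transitive M₁₂ (2 : Fin 12)
  rw [Nat.card_eq_fintype_card, Fintype.card_fin] at h1
  have h2 := (MulAction.stabilizer M₁₂ (2 : Fin 12)).card_mul_index
  rw [h1, hcard] at h2
  have h3 : (MulAction.stabilizer M₁₂ (2 : Fin 12)).map M₁₂.subtype = M₁₁ := by
    rw [heq]
    ext g
    constructor
    · rintro ⟨k, hk, rfl⟩
      exact Subgroup.mem_inf.mpr ⟨k.2, hk⟩
    · intro hg
      obtain ⟨hg1, hg2⟩ := Subgroup.mem_inf.mp hg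
      exact ⟨⟨g, hg1⟩, hg2, rfl⟩
  have h4 : Nat.card M₁₁ = Nat.card (MulAction.stabilizer M₁₂ (2 : Fin 12)) := by
    rw [← h3]
    exact (Nat.card_congr (Subgroup.equivMapOfInjective _ M₁₂.subtype M₁₂.subtype_injective).toEquiv).symm
  omega

end Cfsg.Agent.S3362
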