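import Cfsg.Statements.S3381

set_option autoImplicit false
open Cfsg

namespace Cfsg.Agent.S3381

/-- Let G be a finite group acting faithfully and linearly on a non-trivial finite vector space V over the field with q elements (q prime) so that every non-zero vector has a stabilizer of order 2, and suppose G has a central involution. Then V has q^(2r) elements for some r and G contains exactly q^r + 1 non-central involutions. -/
theorem result
    (q : ℕ) [Fact q.Prime] {V : Type*} [AddCommGroup V] [Module (ZMod q) V] [Finite V] [Nontrivial V]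
    {G : Type*} [Group G] [Finite G] (ρ : G →* (V ≃ₗ[ZMod q] V)) (hρ : Function.Injective ρ)
    (hstab : ∀ v : V, v ≠ 0 → Nat.card {g : G // ρ g v = v} = 2)
    (z : G) (hz : orderOf z = 2) (hzc : z ∈ Subgroup.center G) :
    ∃ r : ℕ, Nat.card V = q ^ (2 * r) ∧
      Nat.card {g : G // orderOf g = 2 ∧ g ∉ Subgroup.center G} = q ^ r + 1 := by
  have hqV : ∀ v : V, (q : ℕ) • v = 0 := by
    intro v
    have : ((q : ZMod q)) • v = 0 := by simp
    rwa [Nat.cast_smul_eq_nsmul] at this
  -- three elements can't fix a nonzero vector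
  have hthree : ∀ v : V, v ≠ 0 → ∀ a b : G, a ≠ 1 → b ≠ 1 → ρ a v = v → ρ b v = v → a = b := by
    intro v hv a b ha hb hav hbv
    by_contra hab
    have h2 := hstab v hv
    have : ({1, a, b} : Set G) ⊆ {g : G | ρ g v = v} := by
      rintro x (rfl | rfl | hx)
      · simp
      · exact hav
      · rw [Set.mem_singleton_iff.mp hx]; exact hbv
    have h3 : Nat.card ({1, a, b} : Set G) ≤ Nat.card ({g : G | ρ g v = v} : Set G) := Nat.card_mono (Set.toFinite _) this
    have h4 : Nat.card ({g : G | ρ g v = v} : Set G) = 2 := h2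
    have h5 : Nat.card ({1, a, b} : Set G) = 3 := by
      rw [Nat.card_coe_set_eq]
      exact Set.ncard_eq_three.mpr ⟨1, a, b, ha.symm, hb.symm, hab, rfl⟩
    omega
  have hmulact : ∀ (a b : G) (v : V), ρ (a * b) v = ρ a (ρ b v) := by
    intro a b v; rw [map_mul]; rfl
  have hsq : ∀ s : G, orderOf s = 2 → ∀ v : V, ρ s (ρ s v) = v := by
    intro s hs v
    rw [← hmulact, ← pow_two, ← hs, pow_orderOf_eq_one, map_one]; rfl
  -- central involutions have no nonzero fixed vector
  have hcent : ∀ z : G, orderOf z = 2 → z ∈ Subgroup.center G → ∀ v : V, ρ z v = v → v = 0 := by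
    intro z hz hzc v hv
    by_contra hv0
    have hz1 : z ≠ 1 := by rintro rfl; simp at hz
    -- some w moved
    have : ∃ w : V, ρ z w ≠ w := by
      by_contra hcon
      push Not at hcon
      apply hz1
      apply hρ
      rw [map_one]
      ext w
      exact hcon w
    obtain ⟨w, hw⟩ := this
    have hmoved : ∀ w : V, ρ z w ≠ w → ρ z w = - w := by
      intro w hw
      have hw0 : w ≠ 0 := by rintro rfl; simp at hw
      -- nontrivial stabiliser element
      have : ∃ s : G, s ≠ 1 ∧ ρ s w = w := by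
        have h2 := hstab w hw0
        have : Nontrivial {g : G // ρ g w = w} := by
          rw [← Finite.one_lt_card_iff_nontrivial, h2]; norm_num
        obtain ⟨s, hs⟩ := exists_ne (⟨1, by simp⟩ : {g : G // ρ g w = w})
        exact ⟨s, fun h => hs (Subtype.ext h), s.2⟩
      obtain ⟨s, hs1, hs⟩ := this
      by_contra hne
      have hsum : w + ρ z w ≠ 0 := by
        intro h
        apply hne
        rw [add_comm] at h
        exact eq_neg_of_add_eq_zero_left h
      have h1 : ρ z (w + ρ z w) = w + ρ z w := by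
        rw [map_add, hsq z hz, add_comm]
      have h2 : ρ s (w + ρ z w) = w + ρ z w := by
        rw [map_add, hs, ← hmulact, (Subgroup.mem_center_iff.mp hzc s), hmulact, hs]
      have := hthree _ hsum s z hs1 hz1 h2 h1
      rw [this] at hs
      exact hw hs
    have h1 := hmoved w hw
    have h2 : ρ z (w + v) ≠ w + v := by
      rw [map_add, hv]
      intro h
      exact hw (add_right_cancel h)
    have h3 := hmoved _ h2
    rw [map_add, hv, h1] at h3
    -- -w + v = -(w+v) → v = -v
    have h4 : v = - v := by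
      have : -w + v = -w + -v := by rw [h3]; abel
      exact add_left_cancel this
    have h5 : (2 : ℕ) • v = 0 := by
      rw [two_nsmul]; nth_rw 1 [h4]; simp
    by_cases hq2 : q = 2
    · subst hq2
      apply hw
      rw [h1]
      have := hqV w
      rw [two_nsmul] at this
      exact neg_eq_of_add_eq_zero_left this
    · apply hv0
      have hcop : Nat.Coprime q 2 := by
        rw [Nat.coprime_primes Fact.out Nat.prime_two]; exact hq2
      have h6 : addOrderOf v ∣ 1 := by
        rw [← hcop]
        exact Nat.dvd_gcd (addOrderOf_dvd_of_nsmul_eq_zero (hqV v)) (addOrderOf_dvd_of_nsmul_eq_zero h5)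
      exact AddMonoid.addOrderOf_eq_one_iff.mp (Nat.dvd_one.mp h6)
  have hneg : ∀ z : G, orderOf z = 2 → z ∈ Subgroup.center G → ∀ v : V, ρ z v = - v := by
    intro z hz hzc v
    have h1 : ρ z (v + ρ z v) = v + ρ z v := by rw [map_add, hsq z hz, add_comm]
    have h2 := hcent z hz hzc _ h1
    rw [add_comm] at h2
    exact eq_neg_of_add_eq_zero_left h2
  have hzneg := hneg z hz hzc
  have hz1 : z ≠ 1 := by rintro rfl; simp at hz
  -- uniqueness of the central involution
  have hznoncent : ∀ s : G, orderOf s = 2 → (s ∉ Subgroup.center G ↔ s ≠ z) := by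
    intro s hs
    constructor
    · rintro h rfl; exact h hzc
    · intro hsz hsc
      apply hsz
      apply hρ
      ext v
      rw [hneg s hs hsc, hzneg]
  -- q odd: v = -v → v = 0
  have htwo : ∀ v : V, v = - v → v = 0 := by
    intro v hv
    apply hcent z hz hzc
    rw [hzneg]; exact hv.symm
  -- fixed spaces
  let C : G → Submodule (ZMod q) V := fun s =>
    { carrier := {v | ρ s v = v}
      add_mem' := by
        intro a b ha hb
        have ha' : ρ s a = a := ha
        have hb' : ρ s b = b := hb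
        change ρ s (a + b) = a + b
        rw [map_add, ha', hb']
      zero_mem' := by change ρ s 0 = 0; simp
      smul_mem' := by
        intro c v hv
        have hv' : ρ s v = v := hv
        change ρ s (c • v) = c • v
        rw [map_smul, hv'] }
  have hC : ∀ (s : G) (v : V), v ∈ C s ↔ ρ s v = v := fun s v => Iff.rfl
  have hfinV : Module.Finite (ZMod q) V := Module.Finite.of_finite
  -- s and s z
  have hsz : ∀ s : G, orderOf s = 2 → s ≠ z → orderOf (s * z) = 2 ∧ s * z ≠ z ∧ s * z ≠ s := by
    intro s hs hsz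
    have hs2 : s * s = 1 := by rw [← pow_two, ← hs, pow_orderOf_eq_one]
    have hz2 : z * z = 1 := by rw [← pow_two, ← hz, pow_orderOf_eq_one]
    have hcomm : s * z = z * s := Subgroup.mem_center_iff.mp hzc s
    have hszne : s * z ≠ 1 := by
      intro h
      apply hsz
      have : s * z = z * z := by rw [h, hz2]
      exact mul_right_cancel this
    refine ⟨?_, ?_, ?_⟩
    · rw [orderOf_eq_prime_iff]
      refine ⟨?_, hszne⟩
      rw [pow_two]
      calc s * z * (s * z) = s * (z * s) * z := by group
        _ = s * (s * z) * z := by rw [hcomm]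
        _ = (s * s) * (z * z) := by group
        _ = 1 := by rw [hs2, hz2, mul_one]
    · intro h
      have : s = 1 := by simpa using h
      rw [this] at hs; simp at hs
    · intro h
      have : z = 1 := by simpa using h
      exact hz1 this
  have hCz : ∀ s : G, ∀ v : V, v ∈ C (s * z) ↔ ρ s v = - v := by
    intro s v
    rw [hC, hmulact, hzneg, map_neg]
    constructor
    · intro h; rw [← neg_neg (ρ s v), h]
    · intro h; rw [h, neg_neg]
  have hcompl : ∀ s : G, orderOf s = 2 → IsCompl (C s) (C (s * z)) := by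
    intro s hs
    constructor
    · rw [Submodule.disjoint_def]
      intro v hv hv'
      rw [hC] at hv
      rw [hCz, hv] at hv'
      exact htwo v hv'
    · rw [codisjoint_iff, eq_top_iff]
      intro v _
      -- 2 v = (v + s v) + (v - s v) ; need to divide by 2
      have h1 : v + ρ s v ∈ C s := by
        rw [hC, map_add, hsq s hs, add_comm]
      have h2 : v - ρ s v ∈ C (s * z) := by
        rw [hCz, map_sub, hsq s hs]; abel
      have h3 : v + v ∈ C s ⊔ C (s * z) := by
        have : v + v = (v + ρ s v) + (v - ρ s v) := by abel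
        rw [this]
        exact Submodule.add_mem_sup h1 h2
      have hq2 : (2 : ZMod q) ≠ 0 := by
        intro h
        obtain ⟨w, hw⟩ := exists_ne (0 : V)
        apply hw
        apply htwo
        have : (2 : ZMod q) • w = 0 := by rw [h, zero_smul]
        rw [two_smul] at this
        exact eq_neg_of_add_eq_zero_left this
      have h4 : v = (2 : ZMod q)⁻¹ • (v + v) := by
        rw [← two_smul (ZMod q), smul_smul, inv_mul_cancel₀ hq2, one_smul]
      rw [h4]
      exact Submodule.smul_mem _ _ h3
  have hdisj : ∀ s s' : G, s ≠ 1 → s' ≠ 1 → s ≠ s' → Disjoint (C s) (C s') := by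
    intro s s' hs hs' hne
    rw [Submodule.disjoint_def]
    intro v hv hv'
    by_contra hv0
    exact hne (hthree v hv0 s s' hs hs' hv hv')
  have hne1 : ∀ s : G, orderOf s = 2 → s ≠ 1 := by
    rintro s hs rfl; simp at hs
  have hpos : ∀ s : G, orderOf s = 2 → s ≠ z → ∃ v : V, v ≠ 0 ∧ v ∈ C s := by
    intro s hs hsz'
    by_contra hcon
    push Not at hcon
    apply hsz'
    apply hρ
    ext v
    rw [hzneg]
    have h1 : v + ρ s v ∈ C s := by rw [hC, map_add, hsq s hs, add_comm]
    have h2 : v + ρ s v = 0 := by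
      by_contra h
      exact hcon _ h h1
    rw [add_comm] at h2
    exact eq_neg_of_add_eq_zero_left h2
  set n := Module.finrank (ZMod q) V with hn
  have hsum : ∀ s : G, orderOf s = 2 → Module.finrank (ZMod q) (C s) + Module.finrank (ZMod q) (C (s * z)) = n :=
    fun s hs => Submodule.finrank_add_eq_of_isCompl (hcompl s hs)
  have hle : ∀ s s' : G, s ≠ 1 → s' ≠ 1 → s ≠ s' → Module.finrank (ZMod q) (C s) + Module.finrank (ZMod q) (C s') ≤ n :=
    fun s s' hs hs' hne => Submodule.finrank_add_finrank_le_of_disjoint (hdisj s s' hs hs' hne)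
  -- involution attached to v
  have hinv : ∀ v : V, v ≠ 0 → ∃ s : G, orderOf s = 2 ∧ s ≠ z ∧ v ∈ C s := by
    intro v hv
    have h2 := hstab v hv
    have : Nontrivial {g : G // ρ g v = v} := by
      rw [← Finite.one_lt_card_iff_nontrivial, h2]; norm_num
    obtain ⟨s, hs⟩ := exists_ne (⟨1, by simp⟩ : {g : G // ρ g v = v})
    have hs1 : (s : G) ≠ 1 := fun h => hs (Subtype.ext h)
    have hss : (s : G) * s = 1 := by
      by_contra hne
      have h3 : ρ ((s : G) * s) v = v := by rw [hmulact, s.2, s.2]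
      have := hthree v hv _ _ hne hs1 h3 s.2
      apply hs1
      simpa using this
    refine ⟨s, ?_, ?_, s.2⟩
    · rw [orderOf_eq_prime_iff]; exact ⟨by rw [pow_two, hss], hs1⟩
    · rintro hsz
      have h4 : ρ z v = v := by rw [← hsz]; exact s.2
      exact hv (hcent z hz hzc v h4)
  -- existence of second pair
  obtain ⟨v₀, hv₀⟩ := exists_ne (0 : V)
  obtain ⟨s₀, hs₀, hs₀z, hs₀C⟩ := hinv v₀ hv₀
  have hothers : ∀ s : G, orderOf s = 2 → s ≠ z → ∃ s' : G, orderOf s' = 2 ∧ s' ≠ z ∧ s' ≠ s ∧ s' ≠ s * z := by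
    intro s hs hsz'
    obtain ⟨v, hv, hvC⟩ := hpos s hs hsz'
    obtain ⟨h1, h2, h3⟩ := hsz s hs hsz'
    obtain ⟨w, hw, hwC⟩ := hpos (s * z) h1 h2
    rw [hCz] at hwC
    rw [hC] at hvC
    have hvw : v + w ≠ 0 := by
      intro h
      have h5 : ρ s (v + w) = 0 := by rw [h]; simp
      rw [map_add, hvC, hwC] at h5
      have h6 : v = w := by rw [← sub_eq_zero, sub_eq_add_neg]; exact h5
      have h7 : v = - v := by
        rw [← h6] at h
        exact eq_neg_of_add_eq_zero_left h
      exact hv (htwo v h7)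
    obtain ⟨s', hs', hs'z, hs'C⟩ := hinv _ hvw
    refine ⟨s', hs', hs'z, ?_, ?_⟩
    · rintro rfl
      rw [hC, map_add, hvC, hwC] at hs'C
      have : -w = w := add_left_cancel hs'C
      exact hw (htwo w this.symm)
    · rintro rfl
      rw [hCz, map_add, hvC, hwC, neg_add] at hs'C
      exact hv (htwo v (add_right_cancel hs'C))
  have hhalf : ∀ s : G, orderOf s = 2 → s ≠ z → 2 * Module.finrank (ZMod q) (C s) = n := by
    intro s hs hsz'
    obtain ⟨s', hs', hs'z, hne1', hne2⟩ := hothers s hs hsz'
    obtain ⟨h1, h2, h3⟩ := hsz s hs hsz'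
    obtain ⟨h1', h2', h3'⟩ := hsz s' hs' hs'z
    have hz2 : z * z = 1 := by rw [← pow_two, ← hz, pow_orderOf_eq_one]
    have e1 := hsum s hs
    have e2 := hsum s' hs'
    have e3 := hle s s' (hne1 s hs) (hne1 s' hs') hne1'.symm
    have e4 := hle (s * z) s' (hne1 _ h1) (hne1 s' hs') hne2.symm
    have e5 := hle s (s' * z) (hne1 s hs) (hne1 _ h1') (by
      intro h; apply hne2; rw [h, mul_assoc, hz2, mul_one])
    have e6 := hle (s * z) (s' * z) (hne1 _ h1) (hne1 _ h1') (by
      intro h; apply hne1'; exact (mul_right_cancel h).symm)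
    omega
  have hr := hhalf s₀ hs₀ hs₀z
  set r := Module.finrank (ZMod q) (C s₀) with hrdef
  have hcardV : Nat.card V = q ^ (2 * r) := by
    rw [hr, hn, Module.natCard_eq_pow_finrank (K := ZMod q), Nat.card_zmod]
  refine ⟨r, hcardV, ?_⟩
  -- counting
  have hcardC : ∀ s : G, orderOf s = 2 → s ≠ z → Nat.card (C s) = q ^ r := by
    intro s hs hsz'
    rw [Module.natCard_eq_pow_finrank (K := ZMod q), Nat.card_zmod]
    congr 1
    have := hhalf s hs hsz'
    omega
  let I := {g : G // orderOf g = 2 ∧ g ∉ Subgroup.center G}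
  have hI : ∀ g : G, (orderOf g = 2 ∧ g ∉ Subgroup.center G) ↔ (orderOf g = 2 ∧ g ≠ z) := by
    intro g
    constructor
    · rintro ⟨h1, h2⟩; exact ⟨h1, (hznoncent g h1).mp h2⟩
    · rintro ⟨h1, h2⟩; exact ⟨h1, (hznoncent g h1).mpr h2⟩
  classical
  let F : (Σ s : I, {v : C s.1 // v ≠ 0}) → {v : V // v ≠ 0} :=
    fun p => ⟨p.2.1.1, fun h => p.2.2 (Subtype.ext h)⟩
  have hFbij : Function.Bijective F := by
    constructor
    · rintro ⟨⟨s, hs⟩, ⟨⟨v, hv⟩, hv0⟩⟩ ⟨⟨s', hs'⟩, ⟨⟨v', hv'⟩, hv0'⟩⟩ h
      have hvv : v = v' := congrArg Subtype.val h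
      subst hvv
      have hv1 : v ≠ 0 := fun h => hv0 (Subtype.ext h)
      have : s = s' := hthree v hv1 _ _ (hne1 _ hs.1) (hne1 _ hs'.1) hv hv'
      subst this
      rfl
    · rintro ⟨v, hv⟩
      obtain ⟨s, hs, hsz', hsC⟩ := hinv v hv
      exact ⟨⟨⟨s, (hI s).mpr ⟨hs, hsz'⟩⟩, ⟨⟨v, hsC⟩, fun h => hv (congrArg Subtype.val h)⟩⟩, rfl⟩
  have hfI : Fintype I := Fintype.ofFinite I
  have hcount : Nat.card {v : V // v ≠ 0} = ∑ s : I, Nat.card {v : C s.1 // v ≠ 0} := by
    rw [← Nat.card_congr (Equiv.ofBijective F hFbij), Nat.card_sigma]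
  have hne0 : ∀ (W : Type _) [Finite W] [Zero W], Nat.card {v : W // v ≠ 0} = Nat.card W - 1 := by
    intro W _ _
    have := Fintype.ofFinite W
    rw [Nat.card_eq_fintype_card, Nat.card_eq_fintype_card, Fintype.card_subtype_compl, Fintype.card_subtype_eq]
  have h1 : Nat.card V - 1 = Nat.card I * (q ^ r - 1) := by
    rw [← hne0 V, hcount]
    have : ∀ s : I, Nat.card {v : C s.1 // v ≠ 0} = q ^ r - 1 := by
      intro s
      rw [hne0, hcardC s.1 s.2.1 ((hI s.1).mp s.2).2]
    rw [Finset.sum_congr rfl (fun s _ => this s)]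
    rw [Finset.sum_const, Finset.card_univ, Nat.card_eq_fintype_card, smul_eq_mul]
  have hrpos : 0 < r := by
    by_contra h0
    have : r = 0 := by omega
    rw [this] at hcardV
    have h2 : 1 < Nat.card V := Finite.one_lt_card
    rw [hcardV] at h2
    simp at h2
  have hqr : 1 < q ^ r := Nat.one_lt_pow hrpos.ne' (Fact.out (p := q.Prime)).one_lt
  change Nat.card I = q ^ r + 1
  rw [hcardV] at h1
  obtain ⟨t, ht⟩ : ∃ t, q ^ r = t + 2 := ⟨q ^ r - 2, by omega⟩
  have h3 : q ^ (2 * r) = (t + 2) * (t + 2) := by rw [two_mul, pow_add, ht]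
  rw [h3, ht] at h1
  have h4 : (t + 2) * (t + 2) - 1 = (t + 3) * (t + 1) := by
    have : (t + 2) * (t + 2) = (t + 3) * (t + 1) + 1 := by ring
    omega
  rw [h4] at h1
  have h5 : t + 2 - 1 = t + 1 := by omega
  rw [h5] at h1
  have h6 := Nat.eq_of_mul_eq_mul_right (Nat.succ_pos t) h1
  rw [ht]; omega

end Cfsg.Agent.S3381
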