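import Cfsg.Statements.S3371
import Cfsg.Agent.Lib.H60.HalfTransB
import Cfsg.Agent.Lib.H60.HalfTransC
import Cfsg.Agent.Lib.H60.NormalRankTwo
import Cfsg.Agent.Lib.H24.HalfTrans
import Cfsg.Agent.S3381

set_option autoImplicit false
open Cfsg

namespace Cfsg.Agent.S3371

open H60.HalfTransA

theorem odd_case {q : ℕ} [Fact q.Prime] {V : Type*} [AddCommGroup V] [Module (ZMod q) V] [Finite V] [Nontrivial V]
    {G : Type*} [Group G] [Finite G] {p : ℕ} [Fact p.Prime] (hp2 : p ≠ 2) (hG : IsPGroup p G)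
    (ρ : G →* (V ≃ₗ[ZMod q] V)) (hρ : Function.Injective ρ)
    (hhalf : ∀ v w : V, v ≠ 0 → w ≠ 0 → Nat.card (St ρ v) = Nat.card (St ρ w)) :
    IsCyclic G ∧ ∀ v : V, v ≠ 0 → ∀ g : G, ρ g v = v → g = 1 := by
  let _ : DistribMulAction G V := DistribMulAction.compHom V ρ
  have hf : FaithfulSMul G V := by
    constructor
    intro g1 g2 h
    apply hρ
    ext v
    exact h v
  have hqV : ∀ v : V, (q : ℕ) • v = 0 := by
    intro v
    have : ((q : ZMod q)) • v = 0 := by simp
    rwa [Nat.cast_smul_eq_nsmul] at this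
  have h1 := H24.HalfTrans.main (P := G) (E := V) hp2 hG (Fact.out : q.Prime) hqV (by
    intro a b ha hb
    exact hhalf a b ha hb)
  refine ⟨h1.1, ?_⟩
  intro v hv g hg
  by_contra hg1
  exact hv (h1.2 g hg1 v hg)

theorem char_two_case {V : Type*} [AddCommGroup V] [Module (ZMod 2) V] [Finite V] [Nontrivial V]
    {G : Type*} [Group G] [Finite G] (hG : IsPGroup 2 G)
    (ρ : G →* (V ≃ₗ[ZMod 2] V)) (hρ : Function.Injective ρ)
    (hhalf : ∀ v w : V, v ≠ 0 → w ≠ 0 → Nat.card (St ρ v) = Nat.card (St ρ w)) (g : G) : g = 1 := by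
  have := Fact.mk Nat.prime_two
  let _ : DistribMulAction G V := DistribMulAction.compHom V ρ
  have h2 : 2 ∣ Nat.card V := by
    rw [Module.natCard_eq_pow_finrank (K := ZMod 2) (V := V), Nat.card_zmod]
    exact dvd_pow_self 2 (Module.finrank_pos (R := ZMod 2) (M := V)).ne'
  obtain ⟨b, hb, hb1⟩ := hG.exists_fixed_point_of_prime_dvd_card_of_fixed_point V h2
    (a := 0) (fun g => by show ρ g 0 = 0; rw [map_zero])
  have hSt : St ρ b = ⊤ := by
    rw [eq_top_iff]
    intro x _
    exact hb x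
  apply hρ
  rw [map_one]
  ext v
  show ρ g v = v
  by_cases hv : v = 0
  · rw [hv, map_zero]
  · have h3 := hhalf v b hv hb1.symm
    rw [hSt, Subgroup.card_top] at h3
    have h4 : St ρ v = ⊤ := Subgroup.eq_top_of_card_eq _ h3
    have : g ∈ St ρ v := by rw [h4]; trivial
    exact this

theorem center_neg {q : ℕ} [Fact q.Prime] {V : Type*} [AddCommGroup V] [Module (ZMod q) V]
    {G : Type*} [Group G] (ρ : G →* (V ≃ₗ[ZMod q] V)) (hρ : Function.Injective ρ)
    (hirr : ∀ W : Submodule (ZMod q) V, (∀ g : G, ∀ w ∈ W, ρ g w ∈ W) → W = ⊥ ∨ W = ⊤)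
    (z : G) (hz : z ∈ Subgroup.center G) (hz2 : orderOf z = 2) (v : V) (hv : ρ z v = v) : v = 0 := by
  have h1 : Fx ρ z = ⊥ := by
    rcases hirr (Fx ρ z) (by
      intro g w hw
      have := Fx_conj ρ g z w hw
      rwa [show g * z * g⁻¹ = z by rw [Subgroup.mem_center_iff.mp hz g]; group] at this) with h' | h'
    · exact h'
    · exfalso
      have : z = 1 := by
        apply hρ
        rw [map_one]
        ext v
        have : v ∈ Fx ρ z := by rw [h']; trivial
        exact this
      rw [this, orderOf_one] at hz2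
      omega
  have : v ∈ Fx ρ z := hv
  rw [h1] at this
  exact (Submodule.mem_bot _).mp this

/-- Let q be a prime, V a non-trivial finite vector space over the field with q elements, and G a finite p-group (p prime) acting faithfully and linearly on V such that all G-orbits on the non-zero vectors have the same size. Then one of the following holds: G is cyclic or generalized quaternion and acts semiregularly on the non-zero vectors; or V has q² elements with q = 2^m − 1 and G is dihedral of order 2^(m+1) or semidihedral of order 2^(m+2); or V has q² elements with q = 2^m + 1 and, in suitable coordinates V = F_q², G is exactly the group of maps (x, y) ↦ (a x, ± a⁻¹ y) and (x, y) ↦ (± a⁻¹ y, a x) with a ≠ 0; or V has 81 elements (q = 3) and G is a 2-group. -/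
theorem result (q : ℕ) [Fact q.Prime] {V : Type*} [AddCommGroup V] [Module (ZMod q) V] [Finite V] [Nontrivial V]
    {G : Type*} [Group G] [Finite G] (p : ℕ) [Fact p.Prime] (hG : IsPGroup p G)
    (ρ : G →* (V ≃ₗ[ZMod q] V)) (hρ : Function.Injective ρ)
    (hhalf : ∀ v w : V, v ≠ 0 → w ≠ 0 → Nat.card {u : V | ∃ g : G, ρ g v = u} = Nat.card {u : V | ∃ g : G, ρ g w = u}) :
    ((IsCyclic G ∨ ∃ n : ℕ, Nonempty (G ≃* QuaternionGroup n)) ∧ ∀ v : V, v ≠ 0 → ∀ g : G, ρ g v = v → g = 1) ∨
    (Nat.card V = q ^ 2 ∧ ∃ m : ℕ, q = 2 ^ m - 1 ∧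
      (Nonempty (G ≃* DihedralGroup (2 ^ m)) ∨ (Cfsg.IsQuasiDihedral G ∧ Nat.card G = 2 ^ (m + 2)))) ∨
    (Nat.card V = q ^ 2 ∧ (∃ m : ℕ, q = 2 ^ m + 1) ∧
      ∃ e : V ≃ₗ[ZMod q] (Fin 2 → ZMod q), ∀ f : (Fin 2 → ZMod q) ≃ₗ[ZMod q] (Fin 2 → ZMod q),
        (∃ g : G, f = e.symm.trans ((ρ g).trans e)) ↔
        ∃ a s : ZMod q, a ≠ 0 ∧ (s = 1 ∨ s = -1) ∧
          ((∀ v, f v = ![a * v 0, s * a⁻¹ * v 1]) ∨ (∀ v, f v = ![s * a⁻¹ * v 1, a * v 0]))) ∨
    (Nat.card V = 81 ∧ q = 3 ∧ p = 2) := by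
  have hq : q.Prime := Fact.out
  have hSt : ∀ v w : V, v ≠ 0 → w ≠ 0 → Nat.card (St ρ v) = Nat.card (St ρ w) := by
    intro v w hv hw
    have h1 := card_orbit_mul ρ v
    have h2 := card_orbit_mul ρ w
    rw [hhalf v w hv hw, ← h2] at h1
    have h3 : 0 < Nat.card {u : V | ∃ g : G, ρ g w = u} := by
      have : Nonempty {u : V | ∃ g : G, ρ g w = u} := ⟨⟨ρ 1 w, 1, rfl⟩⟩
      exact Nat.card_pos
    exact Nat.eq_of_mul_eq_mul_left h3 h1
  by_cases hp2 : p = 2
  swap
  · left
    have := odd_case hp2 hG ρ hρ hSt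
    exact ⟨Or.inl this.1, this.2⟩
  subst hp2
  by_cases hq2 : q = 2
  · subst hq2
    left
    have htriv := char_two_case hG ρ hρ hSt
    have hsub : Subsingleton G := ⟨fun x y => by rw [htriv x, htriv y]⟩
    exact ⟨Or.inl isCyclic_of_subsingleton, fun v _ g _ => htriv g⟩
  have hqodd : Odd q := hq.odd_of_ne_two hq2
  obtain ⟨v0, hv0⟩ := exists_ne (0 : V)
  obtain ⟨c, hcdef⟩ : ∃ c, c = Nat.card (St ρ v0) := ⟨_, rfl⟩
  have hc : ∀ v : V, v ≠ 0 → Nat.card (St ρ v) = c := fun v hv => by rw [hcdef, hSt v v0 hv hv0]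
  by_cases hc1 : c = 1
  · left
    have hs : ∀ v : V, v ≠ 0 → ∀ g : G, ρ g v = v → g = 1 := by
      intro v hv g hg
      have h1 := hc v hv
      rw [hc1] at h1
      have h2 := Subgroup.eq_bot_of_card_eq _ h1
      have : g ∈ St ρ v := hg
      rw [h2, Subgroup.mem_bot] at this
      exact this
    exact ⟨semiregular hG ρ hρ hs, hs⟩
  have hirr := irreducible hq2 hG ρ hρ c hc hc1
  right
  by_cases hB : ∃ B : Subgroup G, B.Normal ∧ IsMulCommutative B ∧ ¬ IsCyclic B
  · -- imprimitive
    obtain ⟨B, hB1, hB2, hB3⟩ := hB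
    obtain ⟨z, a, hzc, hz2, -, -, ha2, haz, hcomm⟩ := H60.NormalRankTwo.exists_pair hG B hB1 hB2 hB3
    have D : H60.HalfTransB.Dat ρ z a c := ⟨hq2, hρ, hc, hirr, hzc, hz2, ha2, haz, hcomm⟩
    obtain ⟨j, hj⟩ := D.card_V1 hG
    have hr := Module.natCard_eq_pow_finrank (K := ZMod q) (V := Fx ρ a)
    rw [Nat.card_zmod] at hr
    have hr0 : Module.finrank (ZMod q) (Fx ρ a) ≠ 0 := by
      have : Nontrivial (Fx ρ a) := Submodule.nontrivial_iff_ne_bot.mpr D.V1_ne
      exact (Module.finrank_pos (R := ZMod q) (M := Fx ρ a)).ne'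
    have hcV := D.card_V
    rw [hr] at hj hcV
    rcases sub_one_nt hqodd hq.one_lt hr0 hj with h1 | ⟨h1, h2⟩
    · right; left
      rw [h1, pow_one] at hr hcV
      rw [h1, pow_one] at hj
      refine ⟨hcV, ⟨j, ?_⟩, H60.HalfTransB.final D hr⟩
      rw [← hj]
      have := hq.one_lt
      omega
    · right; right
      rw [h2, h1] at hcV
      exact ⟨by rw [hcV]; norm_num, h1, rfl⟩
  · push Not at hB
    -- central involution
    have hGne : (⊤ : Subgroup G) ≠ ⊥ := by
      intro h
      have h1 := hc v0 hv0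
      have h2 : St ρ v0 = ⊥ := by
        rw [eq_bot_iff, ← h]; exact le_top
      rw [h2, Subgroup.card_bot] at h1
      exact hc1 h1.symm
    have hf2 := Fact.mk Nat.prime_two
    obtain ⟨z, -, hzc, hz2⟩ := H76.PG.exists_center_of_normal (p := 2) hG (⊤ : Subgroup G) hGne
    have hzfix := center_neg ρ hρ hirr z hzc hz2
    have hStne : ∀ v : V, v ≠ 0 → ∃ t ∈ St ρ v, orderOf t = 2 := by
      intro v hv
      apply H60.HalfTransC.exists_invol hG
      intro h
      have h1 := hc v hv
      rw [h, Subgroup.card_bot] at h1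
      exact hc1 h1.symm
    have hnuniq : ¬ ∀ s t : G, orderOf s = 2 → orderOf t = 2 → s = t := by
      intro hu
      obtain ⟨t, ht, ht2⟩ := hStne v0 hv0
      rw [hu t z ht2 hz2] at ht
      exact hv0 (hzfix v0 ht)
    by_cases hcyc : IsCyclic G
    · exfalso
      apply hnuniq
      intro s t hs ht
      exact H60.HalfTransC.invol_unique (A := (⊤ : Subgroup G)) (by
        exact isCyclic_of_surjective _ (Subgroup.topEquiv (G := G)).symm.surjective) trivial trivial hs ht
    rcases H11.NormalRankOne.classification hG hcyc hB with ⟨k, ⟨e⟩⟩ | ⟨k, ⟨e⟩⟩ | hSD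
    · -- dihedral
      left
      have hN : NeZero (2 ^ (k + 3)) := ⟨by positivity⟩
      have hcardG : Nat.card G = 2 * 2 ^ (k + 3) := by
        rw [Nat.card_congr e.toEquiv, Nat.card_eq_fintype_card, DihedralGroup.card]
      have hord : orderOf (e.symm (DihedralGroup.r 1)) = 2 ^ (k + 3) := by
        rw [MulEquiv.orderOf_eq, DihedralGroup.orderOf_r_one]
      have hidx : (Subgroup.zpowers (e.symm (DihedralGroup.r 1))).index = 2 := by
        have h1 := (Subgroup.zpowers (e.symm (DihedralGroup.r 1))).card_mul_index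
        rw [Nat.card_zpowers, hord, hcardG, mul_comm] at h1
        exact Nat.eq_of_mul_eq_mul_right (by positivity) h1
      have hzA : z ∈ Subgroup.zpowers (e.symm (DihedralGroup.r 1)) := by
        have h1 : ¬ ∃ i, e z = DihedralGroup.sr i := by
          rw [← H60.HalfTransC.dihedral_involution]
          rintro ⟨-, h2⟩
          apply h2
          rw [Subgroup.mem_center_iff]
          intro g
          have := congrArg e (Subgroup.mem_center_iff.mp hzc (e.symm g))
          rwa [map_mul, map_mul, e.apply_symm_apply] at this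
        have h2 : ∃ i, e z = DihedralGroup.r i := by
          cases he : e z with
          | r i => exact ⟨i, rfl⟩
          | sr i => exact absurd ⟨i, he⟩ h1
        obtain ⟨i, hi⟩ := h2
        rw [Subgroup.mem_zpowers_iff]
        refine ⟨(i.val : ℤ), ?_⟩
        apply e.injective
        rw [hi, map_zpow, e.apply_symm_apply, zpow_natCast, DihedralGroup.r_one_pow, ZMod.natCast_zmod_val]
      have hstab : ∀ v : V, v ≠ 0 → Nat.card {g : G // ρ g v = v} = 2 := fun v hv =>
        H60.HalfTransC.c_eq_two hG ρ hc hc1 hz2 hzfix _ inferInstance hidx hzA v hv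
      obtain ⟨r, hr1, hr2⟩ := Cfsg.Agent.S3381.result q ρ hρ hstab z hz2 hzc
      rw [H60.HalfTransC.dihedral_card e] at hr2
      have hr : r = 1 := add_one_nt hqodd hq.one_lt (by omega) hr2.symm
      subst hr
      refine ⟨by rw [hr1], k + 3, ?_, Or.inl ⟨e⟩⟩
      rw [hr2]; simp
    · -- quaternion
      exfalso
      apply hnuniq
      have h0 : ∀ s : G, orderOf s = 2 → e s = QuaternionGroup.a ((2 ^ (k + 1) : ℕ) : ZMod (2 * 2 ^ (k + 1))) := by
        intro s hs
        apply H60.MaxClassTwo.quaternion_involution (by positivity)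
        · intro h
          have : s = 1 := by rw [← map_one e] at h; exact e.injective h
          rw [this, orderOf_one] at hs
          omega
        · rw [← map_mul, ← pow_two, orderOf_dvd_iff_pow_eq_one.mp (dvd_of_eq hs), map_one]
      intro s t hs ht
      apply e.injective
      rw [h0 s hs, h0 t ht]
    · -- semidihedral
      left
      obtain ⟨n, hn, hcG, x, y, hx, hy, hxy⟩ := id hSD
      have hzA : z ∈ Subgroup.zpowers x := by
        by_contra hzx
        obtain ⟨i, -, rfl⟩ := H60.HalfTransC.sd_decomp hn hcG hx hxy z hzx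
        exact H60.HalfTransC.sd_not_central hn hx hxy i hzc
      have hstab : ∀ v : V, v ≠ 0 → Nat.card {g : G // ρ g v = v} = 2 := fun v hv =>
        H60.HalfTransC.c_eq_two hG ρ hc hc1 hz2 hzfix _ inferInstance (H60.HalfTransC.sd_index hcG hx) hzA v hv
      obtain ⟨r, hr1, hr2⟩ := Cfsg.Agent.S3381.result q ρ hρ hstab z hz2 hzc
      rw [H60.HalfTransC.sd_card hn hcG hx hy hxy] at hr2
      have hr : r = 1 := add_one_nt hqodd hq.one_lt (by omega) hr2.symm
      subst hr
      refine ⟨by rw [hr1], n - 1, ?_, Or.inr ⟨hSD, ?_⟩⟩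
      · rw [hr2]; simp
      · rw [hcG]; congr 1; omega

end Cfsg.Agent.S3371
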