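import Cfsg.Statements.S3375

set_option autoImplicit false
open Cfsg

namespace Cfsg.Agent.S3375

/-- Let γ be an automorphism of order 2 of a finite group H. (i) If γ fixes only the identity, then H is abelian and γ inverts every element. (ii) If γ has exactly two fixed points and H has a subgroup of index 2, then H has a γ-invariant abelian subgroup of index 2 on which γ acts by inversion. -/
theorem result {H : Type*} [Group H] [Finite H] (γ : MulAut H) (hγ : orderOf γ = 2) :
    ((∀ h : H, γ h = h → h = 1) → (∀ a b : H, a * b = b * a) ∧ ∀ h : H, γ h = h⁻¹) ∧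
    ((Nat.card {h : H // γ h = h} = 2 ∧ ∃ M : Subgroup H, M.index = 2) →
      ∃ A : Subgroup H, A.index = 2 ∧ IsMulCommutative A ∧ (∀ a ∈ A, γ a ∈ A) ∧ ∀ a ∈ A, γ a = a⁻¹) := by
  have hγγ : ∀ h : H, γ (γ h) = h := by
    intro h
    have : (γ ^ 2) h = h := by rw [← hγ, pow_orderOf_eq_one]; rfl
    rwa [pow_two] at this
  constructor
  · intro hfix
    have hinj : Function.Injective (fun h : H => h⁻¹ * γ h) := by
      intro a b hab
      simp only at hab
      have : γ (b * a⁻¹) = b * a⁻¹ := by
        rw [map_mul, map_inv]
        have : γ b = b * a⁻¹ * γ a := by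
          rw [mul_assoc, hab]; group
        rw [this]; group
      have := hfix _ this
      have : b = a := by
        rw [mul_inv_eq_one] at this; exact this
      exact this.symm
    have hsurj := Finite.surjective_of_injective hinj
    have hinv : ∀ h : H, γ h = h⁻¹ := by
      intro h
      obtain ⟨k, rfl⟩ := hsurj h
      simp only [map_mul, map_inv, hγγ, mul_inv_rev, inv_inv]
    refine ⟨?_, hinv⟩
    intro a b
    have h1 := hinv (b * a)
    rw [map_mul, hinv, hinv] at h1
    -- b⁻¹ * a⁻¹ = (b * a)⁻¹ = a⁻¹ * b⁻¹
    have h2 := congrArg (·⁻¹) h1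
    simpa using h2
  · rintro ⟨hfix, M, hM⟩
    -- γ-invariant index 2 subgroup
    have hexists : ∃ N : Subgroup H, N.index = 2 ∧ ∀ a ∈ N, γ a ∈ N := by
      by_cases hinv : ∀ a ∈ M, γ a ∈ M
      · exact ⟨M, hM, hinv⟩
      · -- N = {h | h ∈ M ↔ γ h ∈ M}
        push Not at hinv
        obtain ⟨a₀, ha₀, ha₀'⟩ := hinv
        let N : Subgroup H :=
          { carrier := {h | h ∈ M ↔ γ h ∈ M}
            mul_mem' := by
              intro a b ha hb
              simp only [Set.mem_ofPred_eq] at *
              rw [Subgroup.mul_mem_iff_of_index_two hM, map_mul, Subgroup.mul_mem_iff_of_index_two hM, ha, hb]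
            one_mem' := by simp
            inv_mem' := by
              intro a ha
              simp only [Set.mem_ofPred_eq] at *
              rw [map_inv, Subgroup.inv_mem_iff, Subgroup.inv_mem_iff, ha] }
        refine ⟨N, ?_, ?_⟩
        · rw [Subgroup.index_eq_two_iff]
          refine ⟨a₀, fun b => ?_⟩
          change Xor ((b * a₀ ∈ M ↔ γ (b * a₀) ∈ M)) ((b ∈ M ↔ γ b ∈ M))
          rw [map_mul, Subgroup.mul_mem_iff_of_index_two hM, Subgroup.mul_mem_iff_of_index_two hM]
          simp only [ha₀, ha₀', iff_true, iff_false, Xor]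
          by_cases hb : b ∈ M <;> by_cases hb' : γ b ∈ M <;> simp [hb, hb']
        · intro a ha
          change (γ a ∈ M ↔ γ (γ a) ∈ M)
          rw [hγγ]
          exact (show (a ∈ M ↔ γ a ∈ M) from ha).symm
    obtain ⟨N, hN, hNinv⟩ := hexists
    -- the map h ↦ h⁻¹ γ h lands in N, fibres of size 2
    have hmem : ∀ h : H, h⁻¹ * γ h ∈ N := by
      intro h
      rw [Subgroup.mul_mem_iff_of_index_two hN, Subgroup.inv_mem_iff]
      constructor
      · exact hNinv h
      · intro h1
        have := hNinv _ h1
        rwa [hγγ] at this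
    have hfibre : ∀ a b : H, a⁻¹ * γ a = b⁻¹ * γ b → γ (b * a⁻¹) = b * a⁻¹ := by
      intro a b hab
      rw [map_mul, map_inv]
      have : γ b = b * a⁻¹ * γ a := by
        rw [mul_assoc, hab]; group
      rw [this]; group
    let f : H → N := fun h => ⟨h⁻¹ * γ h, hmem h⟩
    have hsurj : Function.Surjective f := by
      classical
      have hfin := Fintype.ofFinite H
      have hfinN := Fintype.ofFinite N
      have hcardH : Fintype.card H = 2 * Fintype.card N := by
        have := N.index_mul_card
        rw [hN] at this
        rw [← Nat.card_eq_fintype_card, ← Nat.card_eq_fintype_card, this]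
      have hfib : ∀ y ∈ Finset.univ.image f, (Finset.univ.filter (fun x => f x = y)).card ≤ 2 := by
        intro y hy
        obtain ⟨a, -, rfl⟩ := Finset.mem_image.mp hy
        have hle : (Finset.univ.filter (fun x => f x = f a)).card ≤ Fintype.card {h : H // γ h = h} := by
          rw [← Fintype.card_coe]
          refine Fintype.card_le_of_injective (fun b => ⟨b.1 * a⁻¹, ?_⟩) ?_
          · apply hfibre
            have := (Finset.mem_filter.mp b.2).2
            exact (Subtype.ext_iff.mp this).symm
          · intro b c hbc
            have := Subtype.ext_iff.mp hbc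
            simp at this
            exact this
        rw [← Nat.card_eq_fintype_card, hfix] at hle
        exact hle
      have hcount : Fintype.card H ≤ 2 * (Finset.univ.image f).card := by
        rw [← Finset.card_univ]
        exact Finset.card_le_mul_card_image _ 2 (by
          intro y hy
          exact hfib y hy)
      have h3 : Fintype.card N ≤ (Finset.univ.image f).card := by omega
      have h4 : Finset.univ.image f = Finset.univ := by
        apply Finset.eq_univ_of_card
        exact le_antisymm (Finset.card_le_univ _) h3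
      intro y
      have : y ∈ Finset.univ.image f := by rw [h4]; exact Finset.mem_univ y
      obtain ⟨x, -, hx⟩ := Finset.mem_image.mp this
      exact ⟨x, hx⟩
    have hinv : ∀ a ∈ N, γ a = a⁻¹ := by
      intro a ha
      obtain ⟨h, hh⟩ := hsurj ⟨a, ha⟩
      have : h⁻¹ * γ h = a := Subtype.ext_iff.mp hh
      rw [← this]
      simp only [map_mul, map_inv, hγγ, mul_inv_rev, inv_inv]
    refine ⟨N, hN, ?_, hNinv, hinv⟩
    refine ⟨⟨?_⟩⟩
    rintro ⟨a, ha⟩ ⟨b, hb⟩
    apply Subtype.ext
    simp only [Subgroup.coe_mul, MulMemClass.mk_mul_mk]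
    have h1 := hinv (b * a) (N.mul_mem hb ha)
    rw [map_mul, hinv b hb, hinv a ha] at h1
    have h2 := congrArg (·⁻¹) h1
    simpa using h2

end Cfsg.Agent.S3375
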