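import Cfsg.Statements.S3379
import Mathlib.GroupTheory.SpecificGroups.ZGroup

set_option autoImplicit false
open Cfsg

namespace Cfsg.Agent.S3379

/-- Let G be a finite group all of whose Sylow subgroups are cyclic. Then G is generated by two elements x and y of coprime orders n and m with x⁻¹yx = y^r, where gcd(r − 1, m) = 1 and r^n ≡ 1 (mod m). -/
theorem result {G : Type*} [Group G] [Finite G]
    (hZ : ∀ (p : ℕ) [Fact p.Prime] (P : Sylow p G), IsCyclic (P : Subgroup G)) :
    ∃ (x y : G) (n m r : ℕ), Subgroup.closure {x, y} = ⊤ ∧ orderOf x = n ∧ orderOf y = m ∧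
      x⁻¹ * y * x = y ^ r ∧ Nat.Coprime (r - 1) m ∧ Nat.Coprime n m ∧ 1 ≤ r ∧ r ^ n % m = 1 % m := by
  have hG : IsZGroup G := ⟨fun p hp P => by
    have := Fact.mk hp
    exact hZ p P⟩
  obtain ⟨H, hH⟩ := Subgroup.exists_right_complement'_of_coprime hG.coprime_commutator_index
  have hHc : IsCyclic H := by
    have h1 : Abelianization G ≃* H := hH.symm.QuotientMulEquiv
    exact isCyclic_of_surjective _ h1.surjective
  have hNc : IsCyclic (commutator G) := hG.isCyclic_commutator
  obtain ⟨⟨y, hyN⟩, hy⟩ := hNc.exists_generator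
  obtain ⟨⟨x, hxH⟩, hx⟩ := hHc.exists_generator
  have hyz : Subgroup.zpowers y = commutator G := by
    apply le_antisymm
    · exact Subgroup.zpowers_le.mpr hyN
    · intro g hg
      obtain ⟨k, hk⟩ := hy ⟨g, hg⟩
      exact ⟨k, by simpa [Subtype.ext_iff] using hk⟩
  have hxz : Subgroup.zpowers x = H := by
    apply le_antisymm
    · exact Subgroup.zpowers_le.mpr hxH
    · intro g hg
      obtain ⟨k, hk⟩ := hx ⟨g, hg⟩
      exact ⟨k, by simpa [Subtype.ext_iff] using hk⟩
  -- conjugation
  have hconj : x⁻¹ * y * x ∈ Subgroup.zpowers y := by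
    rw [hyz]
    have := (inferInstance : (commutator G).Normal).conj_mem y hyN x⁻¹
    simpa using this
  obtain ⟨r₀, hr₀⟩ := (mem_powers_iff_mem_zpowers.mpr hconj : _ ∈ Submonoid.powers y)
  simp only at hr₀
  have hm : 0 < orderOf y := orderOf_pos y
  have hr : x⁻¹ * y * x = y ^ (r₀ + orderOf y) := by
    rw [← hr₀, pow_add, pow_orderOf_eq_one, mul_one]
  have hgen : Subgroup.closure {x, y} = ⊤ := by
    have h1 : Subgroup.zpowers y ⊔ Subgroup.zpowers x ≤ Subgroup.closure {x, y} := by
      rw [sup_le_iff, Subgroup.zpowers_le, Subgroup.zpowers_le]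
      exact ⟨Subgroup.subset_closure (by simp), Subgroup.subset_closure (by simp)⟩
    rw [hyz, hxz, hH.sup_eq_top] at h1
    exact top_le_iff.mp h1
  generalize hrdef : r₀ + orderOf y = r at hr
  have hr1 : 1 ≤ r := by omega
  have hcardN : Nat.card (commutator G) = orderOf y := by rw [← hyz, Nat.card_zpowers]
  have hcardH : Nat.card H = orderOf x := by rw [← hxz, Nat.card_zpowers]
  refine ⟨x, y, orderOf x, orderOf y, r, hgen, rfl, rfl, hr, ?_, ?_, hr1, ?_⟩
  · -- coprime r - 1, m
    have hMn : (Subgroup.zpowers (y ^ (r - 1))).Normal := by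
      constructor
      rintro z ⟨k, rfl⟩ g
      have hg : g * y * g⁻¹ ∈ Subgroup.zpowers y := by
        rw [hyz]
        exact (inferInstance : (commutator G).Normal).conj_mem y hyN g
      obtain ⟨j, hj⟩ := hg
      simp only at hj
      refine ⟨k * j, ?_⟩
      simp only
      rw [← conj_zpow, ← conj_pow, ← hj, ← zpow_natCast, ← zpow_natCast, ← zpow_mul, ← zpow_mul, ← zpow_mul]
      congr 1
      ring
    have hNM : commutator G ≤ Subgroup.zpowers (y ^ (r - 1)) := by
      -- G/M abelian
      have habel : ∀ a b : G ⧸ Subgroup.zpowers (y ^ (r - 1)), a * b = b * a := by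
        have hcl : Subgroup.closure {(x : G ⧸ Subgroup.zpowers (y ^ (r - 1))), (y : G ⧸ Subgroup.zpowers (y ^ (r - 1)))} = ⊤ := by
          have := congrArg (Subgroup.map (QuotientGroup.mk' (Subgroup.zpowers (y ^ (r - 1))))) hgen
          rw [MonoidHom.map_closure, ← MonoidHom.range_eq_map, MonoidHom.range_eq_top.mpr (QuotientGroup.mk'_surjective _)] at this
          rw [← this]
          congr 1
          simp [Set.image_insert_eq]
        have hxy : (x : G ⧸ Subgroup.zpowers (y ^ (r - 1))) * y = y * x := by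
          have h2 : ((y : G) : G ⧸ Subgroup.zpowers (y ^ (r - 1))) ^ (r - 1) = 1 := by
            rw [← QuotientGroup.mk_pow, QuotientGroup.eq_one_iff]
            exact Subgroup.mem_zpowers _
          have h3 : ((x⁻¹ * y * x : G) : G ⧸ Subgroup.zpowers (y ^ (r - 1))) = (y : G ⧸ Subgroup.zpowers (y ^ (r - 1))) := by
            rw [hr]
            have : y ^ r = y ^ (r - 1) * y := by
              rw [← pow_succ]; congr 1; omega
            rw [this, QuotientGroup.mk_mul, QuotientGroup.mk_pow, h2, one_mul]
          have h4 : (y : G ⧸ Subgroup.zpowers (y ^ (r - 1))) * x = x * y := by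
            rw [QuotientGroup.mk_mul, QuotientGroup.mk_mul, QuotientGroup.mk_inv, mul_assoc, inv_mul_eq_iff_eq_mul] at h3
            exact h3
          exact h4.symm
        intro a b
        have hc := Subgroup.isMulCommutative_closure (k := {(x : G ⧸ Subgroup.zpowers (y ^ (r - 1))), (y : G ⧸ Subgroup.zpowers (y ^ (r - 1)))}) (by
          rintro u (rfl | hu) v (rfl | hv)
          · rfl
          · rw [Set.mem_singleton_iff.mp hv]; exact hxy
          · rw [Set.mem_singleton_iff.mp hu]; exact hxy.symm
          · rw [Set.mem_singleton_iff.mp hu, Set.mem_singleton_iff.mp hv])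
        rw [hcl] at hc
        have := hc.is_comm.comm (⟨a, trivial⟩ : (⊤ : Subgroup _)) ⟨b, trivial⟩
        exact Subtype.ext_iff.mp this
      rw [commutator_def, Subgroup.commutator_le]
      intro g₁ _ g₂ _
      rw [← QuotientGroup.eq_one_iff, commutatorElement_def]
      rw [QuotientGroup.mk_mul, QuotientGroup.mk_mul, QuotientGroup.mk_mul, habel (g₁ : G ⧸ _) g₂]
      simp
    have hy1 : y ∈ Subgroup.zpowers (y ^ (r - 1)) := hNM hyN
    have h5 : orderOf (y ^ (r - 1)) = orderOf y := by
      apply Nat.dvd_antisymm (orderOf_pow_dvd _)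
      exact orderOf_dvd_of_mem_zpowers hy1
    rw [orderOf_pow] at h5
    have h6 : (orderOf y).gcd (r - 1) = 1 := by
      have hd : (orderOf y).gcd (r - 1) ∣ orderOf y := Nat.gcd_dvd_left _ _
      obtain ⟨c, hc⟩ := hd
      have hgpos : 0 < (orderOf y).gcd (r - 1) := Nat.gcd_pos_of_pos_left _ hm
      have h7 : orderOf y / (orderOf y).gcd (r - 1) = c := by
        exact Nat.div_eq_of_eq_mul_right hgpos hc
      rw [h5] at h7
      have : c * 1 = c * (orderOf y).gcd (r - 1) := by
        rw [mul_one, mul_comm, ← hc, h7]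
      have hcpos : 0 < c := by rw [← h7]; exact hm
      exact (Nat.eq_of_mul_eq_mul_left hcpos this).symm
    exact (Nat.coprime_comm.mp h6)
  · have := hG.coprime_commutator_index
    rw [hH.symm.index_eq_card, hcardN, hcardH] at this
    exact this.symm
  · have hpow : ∀ k : ℕ, (x ^ k)⁻¹ * y * x ^ k = y ^ (r ^ k) := by
      intro k
      induction k with
      | zero => simp
      | succ k ih =>
        have : (x ^ (k + 1))⁻¹ * y * x ^ (k + 1) = x⁻¹ * ((x ^ k)⁻¹ * y * x ^ k) * x := by
          rw [pow_succ]; group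
        rw [this, ih]
        have h2 : x⁻¹ * y ^ (r ^ k) * x = (x⁻¹ * y * x) ^ (r ^ k) := by
          have := (conj_pow (i := r ^ k) (a := x⁻¹) (b := y)).symm
          simpa using this
        rw [h2, hr, ← pow_mul, pow_succ, mul_comm]
    have h := hpow (orderOf x)
    rw [pow_orderOf_eq_one] at h
    simp only [inv_one, one_mul, mul_one] at h
    have h' : y ^ (r ^ orderOf x) = y ^ 1 := by rw [← h, pow_one]
    rw [pow_inj_mod] at h'
    exact h'

end Cfsg.Agent.S3379
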