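import Cfsg.Statements.S3380
import Cfsg.Agent.Lib.H60.NormalRankTwo
import Cfsg.Agent.Lib.H11.NormalRankOne
import Cfsg.Agent.Lib.H24.OddPGroup

set_option autoImplicit false
open Cfsg

namespace Cfsg.Agent.S3380

open Subgroup in
theorem exists_data {G : Type*} [Group G] [Finite G] (p : ℕ) [hp : Fact p.Prime] (hG : IsPGroup p G)
    (hnc : ¬ IsCyclic G) (hnq : ∀ n : ℕ, ¬ Nonempty (G ≃* QuaternionGroup n))
    (hnd : ∀ n : ℕ, ¬ Nonempty (G ≃* DihedralGroup n)) (hnsd : ¬ Cfsg.IsQuasiDihedral G) :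
    ∃ z a : G, z ∈ center G ∧ orderOf z = p ∧ a ^ p = 1 ∧ a ∉ zpowers z ∧
      ∀ g : G, g * a * g⁻¹ * a⁻¹ ∈ zpowers z := by
  have key : ∃ B : Subgroup G, B.Normal ∧ IsMulCommutative B ∧ ¬ IsCyclic B := by
    by_contra hcon
    push Not at hcon
    by_cases hp2 : p = 2
    · subst hp2
      rcases H11.NormalRankOne.classification hG hnc hcon with ⟨k, h⟩ | ⟨k, h⟩ | h
      · exact hnd _ h
      · exact hnq _ h
      · exact hnsd h
    · obtain ⟨A, hAn, hAc, hAp⟩ := H24.OddPGroup.exists_normal_elementary_sq hp2 hG hnc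
      have hAcomm : IsMulCommutative A := IsPGroup.isMulCommutative_of_card_eq_prime_sq hAc
      have hAcyc := hcon A hAn hAcomm
      obtain ⟨g, hg⟩ := hAcyc.exists_generator
      have h1 : orderOf g = p ^ 2 := by
        rw [orderOf_eq_card_of_forall_mem_zpowers hg, hAc]
      have h2 : orderOf g ∣ p := orderOf_dvd_of_pow_eq_one (Subtype.ext (hAp g g.2))
      rw [h1] at h2
      have hp := (Fact.out : p.Prime)
      have h3 := Nat.le_of_dvd hp.pos h2
      nlinarith [hp.one_lt]
  obtain ⟨B, h1, h2, h3⟩ := key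
  obtain ⟨z, a, h4, h5, -, -, h6, h7, h8⟩ := H60.NormalRankTwo.exists_pair hG B h1 h2 h3
  exact ⟨z, a, h4, h5, h6, h7, h8⟩

section Norm

variable {q : ℕ} {V : Type*} [AddCommGroup V] [Module (ZMod q) V] {G : Type*} [Group G]

/-- norm -/
noncomputable def nrm (p : ℕ) (ρ : G →* (V ≃ₗ[ZMod q] V)) (b : G) : V →ₗ[ZMod q] V :=
  ∑ k ∈ Finset.range p, ((ρ (b ^ k) : V ≃ₗ[ZMod q] V) : V →ₗ[ZMod q] V)

theorem nrm_apply (p : ℕ) (ρ : G →* (V ≃ₗ[ZMod q] V)) (b : G) (v : V) :
    nrm p ρ b v = ∑ k ∈ Finset.range p, ρ (b ^ k) v := by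
  simp [nrm]

theorem mul_act (ρ : G →* (V ≃ₗ[ZMod q] V)) (a b : G) (v : V) : ρ (a * b) v = ρ a (ρ b v) := by
  rw [map_mul]; rfl

theorem nrm_fixed {p : ℕ} (hp : 0 < p) (ρ : G →* (V ≃ₗ[ZMod q] V)) (b : G) (hb : b ^ p = 1) (v : V) :
    ρ b (nrm p ρ b v) = nrm p ρ b v := by
  obtain ⟨m, rfl⟩ : ∃ m, p = m + 1 := ⟨p - 1, by omega⟩
  rw [nrm_apply, map_sum]
  have h1 : ∀ k ∈ Finset.range (m + 1), ρ b (ρ (b ^ k) v) = ρ (b ^ (k + 1)) v := by
    intro k _
    rw [← mul_act, ← pow_succ']
  rw [Finset.sum_congr rfl h1, Finset.sum_range_succ, Finset.sum_range_succ', hb, pow_zero]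

theorem nrm_commute {p : ℕ} (ρ : G →* (V ≃ₗ[ZMod q] V)) (b c : G) (hbc : c * b = b * c) (v : V)
    (hv : ρ c v = v) : ρ c (nrm p ρ b v) = nrm p ρ b v := by
  rw [nrm_apply, map_sum]
  refine Finset.sum_congr rfl fun k _ => ?_
  have : c * b ^ k = b ^ k * c := (Commute.pow_right hbc k).eq
  rw [← mul_act, this, mul_act, hv]

theorem nrm_of_fixed {p : ℕ} (ρ : G →* (V ≃ₗ[ZMod q] V)) (b : G) (v : V) (hv : ρ b v = v) :
    nrm p ρ b v = p • v := by
  rw [nrm_apply]
  have : ∀ k : ℕ, ρ (b ^ k) v = v := by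
    intro k
    induction k with
    | zero => simp
    | succ k ih => rw [pow_succ, mul_act, hv, ih]
  rw [Finset.sum_congr rfl (fun k _ => this k), Finset.sum_const, Finset.card_range]

end Norm

theorem fixed_zpow {q : ℕ} {V : Type*} [AddCommGroup V] [Module (ZMod q) V] {G : Type*} [Group G]
    (ρ : G →* (V ≃ₗ[ZMod q] V)) (b c : G) (hc : c ∈ Subgroup.zpowers b) (v : V) (hv : ρ b v = v) : ρ c v = v := by
  let H : Subgroup G :=
    { carrier := {g | ρ g v = v}
      mul_mem' := by
        intro x y hx hy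
        simp only [Set.mem_ofPred_eq] at hx hy ⊢
        rw [mul_act, hy, hx]
      one_mem' := by simp
      inv_mem' := by
        intro x hx
        simp only [Set.mem_ofPred_eq] at hx ⊢
        have h1 : ρ x⁻¹ (ρ x v) = v := by rw [← mul_act, inv_mul_cancel]; simp
        rw [hx] at h1; exact h1 }
  have h1 : Subgroup.zpowers b ≤ H := by
    rw [Subgroup.zpowers_le]; exact hv
  exact h1 hc

/-- Let a finite p-group G act faithfully and irreducibly on a non-trivial finite vector space V over the field with q elements (q prime), and suppose G is not cyclic, generalized quaternion, dihedral or semidihedral. Then G has a subgroup H of index p and V is the direct sum of p subspaces, each invariant under H, on none of which H acts faithfully, and which every element of G outside H permutes in a single p-cycle. -/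
theorem result
    (q : ℕ) [Fact q.Prime] {V : Type*} [AddCommGroup V] [Module (ZMod q) V] [Finite V] [Nontrivial V]
    {G : Type*} [Group G] [Finite G] (p : ℕ) [Fact p.Prime] (hG : IsPGroup p G)
    (ρ : G →* (V ≃ₗ[ZMod q] V)) (hρ : Function.Injective ρ)
    (hirr : ∀ W : Submodule (ZMod q) V, (∀ g : G, ∀ w ∈ W, ρ g w ∈ W) → W = ⊥ ∨ W = ⊤)
    (hnc : ¬ IsCyclic G) (hnq : ∀ n : ℕ, ¬ Nonempty (G ≃* QuaternionGroup n))
    (hnd : ∀ n : ℕ, ¬ Nonempty (G ≃* DihedralGroup n)) (hnsd : ¬ Cfsg.IsQuasiDihedral G) :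
    ∃ (H : Subgroup G) (W : Fin p → Submodule (ZMod q) V), H.index = p ∧
      iSup W = ⊤ ∧ iSupIndep W ∧
      (∀ h ∈ H, ∀ i, ∀ w ∈ W i, ρ h w ∈ W i) ∧
      (∀ i, ∃ h ∈ H, h ≠ 1 ∧ ∀ w ∈ W i, ρ h w = w) ∧
      ∀ g : G, g ∉ H → ∃ σ : Equiv.Perm (Fin p), orderOf σ = p ∧ ∀ i, (W i).map (ρ g : V →ₗ[ZMod q] V) = W (σ i) := by
  have hp : p.Prime := Fact.out
  have hq : q.Prime := Fact.out
  have : NeZero p := ⟨hp.ne_zero⟩
  obtain ⟨z, a, hzc, hz, hap, haz, hcomm⟩ := exists_data p hG hnc hnq hnd hnsd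
  have hzp : z ^ p = 1 := by rw [← hz, pow_orderOf_eq_one]
  have hz1 : z ≠ 1 := by
    rintro rfl
    rw [orderOf_one] at hz
    exact hp.one_lt.ne hz
  have hzcomm : ∀ g : G, g * z = z * g := fun g => Subgroup.mem_center_iff.mp hzc g
  have hzpc : ∀ (g : G) (i : ℕ), g * z ^ i = z ^ i * g := fun g i => (Commute.pow_right (hzcomm g) i).eq
  -- fixed spaces
  let F : G → Submodule (ZMod q) V := fun g =>
    { carrier := {v | ρ g v = v}
      add_mem' := by
        intro x y hx hy
        simp only [Set.mem_ofPred_eq] at hx hy ⊢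
        rw [map_add, hx, hy]
      zero_mem' := by simp
      smul_mem' := by
        intro c x hx
        simp only [Set.mem_ofPred_eq] at hx ⊢
        rw [map_smul, hx] }
  have hF : ∀ g v, v ∈ F g ↔ ρ g v = v := fun g v => Iff.rfl
  have hFconj : ∀ g b : G, ∀ v ∈ F b, ρ g v ∈ F (g * b * g⁻¹) := by
    intro g b v hv
    rw [hF] at hv ⊢
    rw [← mul_act, show g * b * g⁻¹ * g = g * b by group, mul_act, hv]
  have hFz : ∀ v, ρ z v = v → v = 0 := by
    have h1 : F z = ⊥ := by
      rcases hirr (F z) (by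
        intro g w hw
        have := hFconj g z w hw
        rwa [show g * z * g⁻¹ = z by rw [hzcomm g]; group] at this) with h | h
      · exact h
      · exfalso
        apply hz1
        apply hρ
        rw [map_one]
        ext v
        have : v ∈ F z := by rw [h]; trivial
        exact this
    intro v hv
    have : v ∈ F z := hv
    rw [h1] at this
    exact (Submodule.mem_bot _).mp this
  have hmemz : ∀ k : ℕ, ¬ p ∣ k → z ∈ Subgroup.zpowers (z ^ k) := by
    intro k hk
    have hco : p.Coprime k := (Nat.Prime.coprime_iff_not_dvd hp).mpr hk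
    have h1 : orderOf (z ^ k) = orderOf z := by
      apply Nat.Coprime.orderOf_pow
      rw [hz]; exact hco
    have h2 : Subgroup.zpowers (z ^ k) = Subgroup.zpowers z := by
      apply Subgroup.eq_of_le_of_card_ge
      · rw [Subgroup.zpowers_le]; exact Subgroup.pow_mem _ (Subgroup.mem_zpowers z) k
      · rw [Nat.card_zpowers, Nat.card_zpowers, h1]
    rw [h2]; exact Subgroup.mem_zpowers z
  have hazp : ∀ i : ℕ, (a * z ^ i) ^ p = 1 := by
    intro i
    have : Commute a (z ^ i) := hzpc a i
    rw [this.mul_pow, hap, ← pow_mul, mul_comm i p, pow_mul, hzp, one_pow, one_mul]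
  -- p ≠ q
  have hpq : ¬ p = q := by
    intro hpq
    -- (ρ z - 1)^p = 0
    have hchar : ∀ v : V, (p : ℕ) • v = 0 := by
      intro v
      rw [hpq]
      have : ((q : ZMod q)) • v = 0 := by simp
      rwa [Nat.cast_smul_eq_nsmul] at this
    obtain ⟨v, hv⟩ := exists_ne (0 : V)
    -- p-group fixes a nonzero vector : use linear map N = ρ z - 1
    let N : Module.End (ZMod q) V := ((ρ z : V ≃ₗ[ZMod q] V) : V →ₗ[ZMod q] V) - 1
    have hNinj : ∀ w : V, N w = 0 → w = 0 := by
      intro w hw
      apply hFz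
      have : ρ z w - w = 0 := hw
      exact sub_eq_zero.mp this
    have hNpow : ∀ (k : ℕ) (w : V), (N ^ k) w = 0 → w = 0 := by
      intro k
      induction k with
      | zero => intro w hw; simpa using hw
      | succ k ih =>
        intro w hw
        rw [pow_succ] at hw
        exact hNinj w (ih _ hw)
    have hz' : (((ρ z : V ≃ₗ[ZMod q] V) : V →ₗ[ZMod q] V) : Module.End (ZMod q) V) ^ p = 1 := by
      have h1 : ∀ (k : ℕ) (w : V), ((((ρ z : V ≃ₗ[ZMod q] V) : V →ₗ[ZMod q] V) : Module.End (ZMod q) V) ^ k) w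
          = ρ (z ^ k) w := by
        intro k
        induction k with
        | zero => intro w; simp
        | succ k ih =>
          intro w
          rw [pow_succ, pow_succ, mul_act]
          exact ih _
      ext w
      rw [h1, hzp, map_one]; rfl
    have : CharP (Module.End (ZMod q) V) p := by
      rw [hpq]
      have : Nontrivial (Module.End (ZMod q) V) := by
        refine ⟨0, 1, fun h => ?_⟩
        have h1 := congrArg (fun f : Module.End (ZMod q) V => f v) h
        exact hv h1.symm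
      exact charP_of_injective_algebraMap (algebraMap (ZMod q) (Module.End (ZMod q) V)).injective q
    have h2 : N ^ p = 0 := by
      have : N ^ p = (((ρ z : V ≃ₗ[ZMod q] V) : V →ₗ[ZMod q] V) : Module.End (ZMod q) V) ^ p - 1 ^ p := by
        apply sub_pow_char_of_commute
        exact Commute.one_right _
      rw [this, hz', one_pow, sub_self]
    exact hv (hNpow p v (by rw [h2]; rfl))
  -- cancellation of p
  have hcancel : ∀ v : V, (p : ℕ) • v = 0 → v = 0 := by
    intro v hv
    have h1 : ((p : ZMod q)) • v = 0 := by rw [Nat.cast_smul_eq_nsmul]; exact hv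
    have h2 : (p : ZMod q) ≠ 0 := by
      intro h
      rw [ZMod.natCast_eq_zero_iff] at h
      exact hpq ((Nat.prime_dvd_prime_iff_eq hq hp).mp h).symm
    exact (smul_eq_zero.mp h1).resolve_left h2
  -- the identity
  have hident : ∀ v : V, (p : ℕ) • v = ∑ i ∈ Finset.range p, nrm p ρ (a * z ^ i) v := by
    intro v
    have h1 : ∑ i ∈ Finset.range p, nrm p ρ (a * z ^ i) v =
        ∑ k ∈ Finset.range p, ρ (a ^ k) (nrm p ρ (z ^ k) v) := by
      have h2 : ∀ i ∈ Finset.range p, nrm p ρ (a * z ^ i) v =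
          ∑ k ∈ Finset.range p, ρ (a ^ k) (ρ ((z ^ k) ^ i) v) := by
        intro i _
        rw [nrm_apply]
        refine Finset.sum_congr rfl fun k _ => ?_
        have : Commute a (z ^ i) := hzpc a i
        rw [this.mul_pow, mul_act, ← pow_mul, ← pow_mul, mul_comm i k]
      rw [Finset.sum_congr rfl h2, Finset.sum_comm]
      refine Finset.sum_congr rfl fun k _ => ?_
      rw [nrm_apply, map_sum]
    rw [h1]
    obtain ⟨m, hm⟩ : ∃ m, p = m + 1 := ⟨p - 1, by have := hp.pos; omega⟩
    have h3 : ∀ k, ¬ p ∣ k → nrm p ρ (z ^ k) v = 0 := by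
      intro k hk
      apply hFz
      apply fixed_zpow ρ (z ^ k) z (hmemz k hk)
      apply nrm_fixed hp.pos
      rw [← pow_mul, mul_comm, pow_mul, hzp, one_pow]
    rw [Finset.sum_eq_single 0]
    · rw [pow_zero, pow_zero, nrm_of_fixed]
      · simp
      · simp
    · intro k hk hk0
      rw [h3 k (fun hd => ?_), map_zero]
      rw [Finset.mem_range] at hk
      exact absurd (Nat.le_of_dvd (Nat.pos_of_ne_zero hk0) hd) (by omega)
    · intro h
      exact absurd (Finset.mem_range.mpr hp.pos) h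
  -- a is not central
  have hanc : ¬ ∀ g : G, g * a = a * g := by
    intro hac
    have h1 : ∀ i : ℕ, F (a * z ^ i) = ⊥ := by
      intro i
      rcases hirr (F (a * z ^ i)) (by
        intro g w hw
        have := hFconj g _ w hw
        rwa [show g * (a * z ^ i) * g⁻¹ = a * z ^ i by
          rw [← mul_assoc, hac g, mul_assoc a g, hzpc g i]; group] at this) with h | h
      · exact h
      · exfalso
        have h2 : a * z ^ i = 1 := by
          apply hρ
          rw [map_one]
          ext v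
          have : v ∈ F (a * z ^ i) := by rw [h]; trivial
          exact this
        apply haz
        rw [eq_inv_of_mul_eq_one_left h2]
        exact Subgroup.inv_mem _ (Subgroup.pow_mem _ (Subgroup.mem_zpowers z) i)
    obtain ⟨v, hv⟩ := exists_ne (0 : V)
    apply hv
    apply hcancel
    rw [hident v]
    refine Finset.sum_eq_zero fun i _ => ?_
    have h2 : nrm p ρ (a * z ^ i) v ∈ F (a * z ^ i) := nrm_fixed hp.pos ρ _ (hazp i) v
    rw [h1] at h2
    exact (Submodule.mem_bot _).mp h2
  -- the homomorphism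
  let f : G →* Subgroup.zpowers z :=
    { toFun := fun g => ⟨g * a * g⁻¹ * a⁻¹, hcomm g⟩
      map_one' := Subtype.ext (by simp)
      map_mul' := by
        intro g h
        apply Subtype.ext
        show g * h * a * (g * h)⁻¹ * a⁻¹ = (g * a * g⁻¹ * a⁻¹) * (h * a * h⁻¹ * a⁻¹)
        obtain ⟨i, hi⟩ := Subgroup.mem_zpowers_iff.mp (hcomm h)
        have h1 : h * a * h⁻¹ = z ^ i * a := by rw [hi]; group
        have h2 : z ^ i * (g * a * g⁻¹) = g * a * g⁻¹ * z ^ i :=
          (Commute.zpow_left (hzcomm (g * a * g⁻¹)).symm i).eq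
        have h3 : g * z ^ i = z ^ i * g := (Commute.zpow_right (hzcomm g) i).eq
        calc g * h * a * (g * h)⁻¹ * a⁻¹ = g * (h * a * h⁻¹) * g⁻¹ * a⁻¹ := by group
          _ = (g * z ^ i) * a * g⁻¹ * a⁻¹ := by rw [h1]; group
          _ = (z ^ i * (g * a * g⁻¹)) * a⁻¹ := by rw [h3]; group
          _ = g * a * g⁻¹ * (z ^ i * a⁻¹) := by rw [h2]; group
          _ = g * a * g⁻¹ * (a⁻¹ * z ^ i) := by
            rw [(Commute.zpow_left (hzcomm a⁻¹).symm i).eq]
          _ = (g * a * g⁻¹ * a⁻¹) * (h * a * h⁻¹ * a⁻¹) := by rw [hi]; group }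
  have hfapply : ∀ g, ((f g : Subgroup.zpowers z) : G) = g * a * g⁻¹ * a⁻¹ := fun g => rfl
  have hker : ∀ g, g ∈ f.ker ↔ g * a = a * g := by
    intro g
    rw [MonoidHom.mem_ker, ← Subtype.coe_inj, hfapply, OneMemClass.coe_one, mul_inv_eq_one, mul_inv_eq_iff_eq_mul]
  have hidx : f.ker.index = p := by
    rw [Subgroup.index_ker]
    have h1 : Nat.card f.range ∣ p := by
      rw [← hz, ← Nat.card_zpowers]
      exact Subgroup.card_subgroup_dvd_card _
    rcases (Nat.dvd_prime hp).mp h1 with h2 | h2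
    · exfalso
      apply hanc
      intro g
      rw [← hker]
      have h3 : f.range = ⊥ := Subgroup.eq_bot_of_card_eq _ h2
      rw [MonoidHom.mem_ker]
      have : f g ∈ f.range := ⟨g, rfl⟩
      rw [h3, Subgroup.mem_bot] at this
      exact this
    · exact h2
  refine ⟨f.ker, fun i => F (a * z ^ (i : ℕ)), hidx, ?_, ?_, ?_, ?_, ?_⟩
  · -- sup = top
    rw [eq_top_iff]
    intro v _
    have h1 : (p : ℕ) • v ∈ ⨆ i : Fin p, F (a * z ^ (i : ℕ)) := by
      rw [hident v]
      refine Submodule.sum_mem _ fun i hi => ?_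
      rw [Finset.mem_range] at hi
      exact Submodule.mem_iSup_of_mem (⟨i, hi⟩ : Fin p) (nrm_fixed hp.pos ρ _ (hazp i) v)
    have h2 : (p : ZMod q) ≠ 0 := by
      intro h
      rw [ZMod.natCast_eq_zero_iff] at h
      exact hpq ((Nat.prime_dvd_prime_iff_eq hq hp).mp h).symm
    have h3 : v = (p : ZMod q)⁻¹ • ((p : ℕ) • v) := by
      rw [← Nat.cast_smul_eq_nsmul (ZMod q), smul_smul, inv_mul_cancel₀ h2, one_smul]
    rw [h3]
    exact Submodule.smul_mem _ _ h1
  · -- independence
    have hkey : ∀ i j : ℕ, i < p → j < p → i ≠ j → ∀ w ∈ F (a * z ^ j), nrm p ρ (a * z ^ i) w = 0 := by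
      have hwlog : ∀ (b c : G) (w : V), b * c = c * b → b ^ p = 1 → ρ c w = w →
          z ∈ Subgroup.zpowers (b⁻¹ * c) → nrm p ρ b w = 0 := by
        intro b c w hbc hb hw hzz
        apply hFz
        apply fixed_zpow ρ _ z hzz
        have h1 : ρ b (nrm p ρ b w) = nrm p ρ b w := nrm_fixed hp.pos ρ b hb w
        have h2 : ρ c (nrm p ρ b w) = nrm p ρ b w := nrm_commute ρ b c hbc.symm w hw
        rw [mul_act, h2]
        exact fixed_zpow ρ b b⁻¹ (Subgroup.inv_mem _ (Subgroup.mem_zpowers b)) _ h1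
      intro i j hi hj hij w hw
      apply hwlog (a * z ^ i) (a * z ^ j) w
      · have h1 : Commute a (z ^ i) := hzpc a i
        have h2 : Commute a (z ^ j) := hzpc a j
        have h3 : Commute (z ^ i) (z ^ j) := (Commute.refl z).pow_pow i j
        exact ((Commute.refl a).mul_right h2).mul_left ((h1.symm).mul_right h3) |>.eq
      · exact hazp i
      · exact hw
      · have h1 : (a * z ^ i)⁻¹ * (a * z ^ j) = (z ^ i)⁻¹ * z ^ j := by group
        rw [h1]
        rcases Nat.lt_or_gt_of_ne hij with hlt | hlt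
        · have h2 : (z ^ i)⁻¹ * z ^ j = z ^ (j - i) := by
            rw [inv_mul_eq_iff_eq_mul, ← pow_add]
            congr 1; omega
          rw [h2]
          apply hmemz
          intro hd
          have := Nat.le_of_dvd (by omega) hd
          omega
        · have h2 : (z ^ i)⁻¹ * z ^ j = (z ^ (i - j))⁻¹ := by
            rw [inv_mul_eq_iff_eq_mul, eq_mul_inv_iff_mul_eq, ← pow_add]
            congr 1; omega
          rw [h2, Subgroup.zpowers_inv]
          apply hmemz
          intro hd
          have := Nat.le_of_dvd (by omega) hd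
          omega
    intro i
    rw [Submodule.disjoint_def]
    intro x hx hx2
    have h1 : (⨆ (j : Fin p) (_ : j ≠ i), F (a * z ^ (j : ℕ))) ≤ LinearMap.ker (nrm p ρ (a * z ^ (i : ℕ))) := by
      refine iSup_le fun j => iSup_le fun hj => ?_
      intro w hw
      rw [LinearMap.mem_ker]
      exact hkey i j i.2 j.2 (fun h => hj (Fin.ext h.symm)) w hw
    have h2 := h1 hx2
    rw [LinearMap.mem_ker, nrm_of_fixed ρ _ x hx] at h2
    exact hcancel x h2
  · -- H-invariance
    intro h hh i w hw
    have h1 := hFconj h _ w hw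
    rw [hker] at hh
    rwa [show h * (a * z ^ (i : ℕ)) * h⁻¹ = a * z ^ (i : ℕ) by
      rw [← mul_assoc, hh, mul_assoc a h, hzpc h i]; group] at h1
  · -- unfaithful
    intro i
    refine ⟨a * z ^ (i : ℕ), ?_, ?_, fun w hw => hw⟩
    · rw [hker]
      rw [mul_assoc, ← hzpc a i]
    · intro h
      apply haz
      rw [eq_inv_of_mul_eq_one_left h]
      exact Subgroup.inv_mem _ (Subgroup.pow_mem _ (Subgroup.mem_zpowers z) i)
  · -- the permutation
    intro g hg
    rw [hker] at hg
    obtain ⟨n, hn⟩ : ∃ n : ℕ, z ^ n = g * a * g⁻¹ * a⁻¹ := by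
      have h1 := hcomm g
      rw [← mem_powers_iff_mem_zpowers] at h1
      exact Submonoid.mem_powers_iff _ _ |>.mp h1
    have hnp : ¬ p ∣ n := by
      rintro ⟨k, rfl⟩
      rw [pow_mul, hzp, one_pow] at hn
      apply hg
      have := eq_mul_inv_iff_mul_eq.mp hn
      rw [one_mul] at this
      rw [← mul_inv_eq_iff_eq_mul]; exact this.symm
    have hga : g * a * g⁻¹ = a * z ^ n := by
      rw [hzpc a n, hn]; group
    refine ⟨Equiv.addRight (Fin.ofNat p n), ?_, ?_⟩
    · apply orderOf_eq_prime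
      · have : p • (Fin.ofNat p n) = 0 := by
          have h1 := card_nsmul_eq_zero' (x := Fin.ofNat p n)
          rwa [Nat.card_eq_fintype_card, Fintype.card_fin] at h1
        have h2 : ∀ (k : ℕ) (x : Fin p), ((Equiv.addRight (Fin.ofNat p n)) ^ k : Equiv.Perm (Fin p)) x
            = x + k • (Fin.ofNat p n) := by
          intro k
          induction k with
          | zero => intro x; simp
          | succ k ih =>
            intro x
            rw [pow_succ', Equiv.Perm.mul_apply, ih, succ_nsmul, ← add_assoc]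
            rfl
        ext x
        rw [h2, this, add_zero]; rfl
      · intro h
        have h1 := congrArg (fun σ : Equiv.Perm (Fin p) => σ 0) h
        simp only [Equiv.coe_addRight, zero_add, Equiv.Perm.coe_one, id_eq] at h1
        apply hnp
        have h2 := congrArg Fin.val h1
        simp only [Fin.ofNat_eq_cast, Fin.val_natCast, Fin.coe_ofNat_eq_mod, Nat.zero_mod] at h2
        exact Nat.dvd_of_mod_eq_zero h2
    · intro i
      have hval : z ^ (((Equiv.addRight (Fin.ofNat p n)) i : Fin p) : ℕ) = z ^ ((i : ℕ) + n) := by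
        have : (((Equiv.addRight (Fin.ofNat p n)) i : Fin p) : ℕ) = ((i : ℕ) + n) % p := by
          simp [Fin.val_add]
        have h2 : ∀ m : ℕ, z ^ (m % p) = z ^ m := by
          intro m
          conv_lhs => rw [← hz]
          exact pow_mod_orderOf z m
        rw [this, h2]
      have hconj : g * (a * z ^ (i : ℕ)) * g⁻¹ = a * z ^ (((Equiv.addRight (Fin.ofNat p n)) i : Fin p) : ℕ) := by
        rw [hval]
        calc g * (a * z ^ (i : ℕ)) * g⁻¹ = g * a * (z ^ (i : ℕ) * g⁻¹) := by group
          _ = g * a * (g⁻¹ * z ^ (i : ℕ)) := by rw [hzpc g⁻¹ i]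
          _ = (g * a * g⁻¹) * z ^ (i : ℕ) := by group
          _ = a * z ^ ((i : ℕ) + n) := by rw [hga, mul_assoc, ← pow_add, add_comm]
      apply le_antisymm
      · rintro _ ⟨w, hw, rfl⟩
        have h1 := hFconj g _ w hw
        rw [hconj] at h1
        exact h1
      · intro w hw
        refine ⟨ρ g⁻¹ w, ?_, ?_⟩
        · have h1 := hFconj g⁻¹ _ w hw
          rw [← hconj] at h1
          have h2 : g⁻¹ * (g * (a * z ^ (i : ℕ)) * g⁻¹) * g⁻¹⁻¹ = a * z ^ (i : ℕ) := by group
          rw [h2] at h1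
          exact h1
        · show ρ g (ρ g⁻¹ w) = w
          rw [← mul_act, mul_inv_cancel]; simp

end Cfsg.Agent.S3380
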