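import Cfsg.Statements.S3382

set_option autoImplicit false
open Cfsg

namespace Cfsg.Agent.S3382

theorem isPGroup_mulAut {T : Type*} [Group T] [Finite T]
    (h : ∀ (α : MulAut T) (n : ℕ), Odd n → α ^ n = 1 → α = 1) : IsPGroup 2 (MulAut T) := by
  have hfin : Finite (MulAut T) := Finite.of_injective (fun f : MulAut T => (f : T → T)) DFunLike.coe_injective
  intro α
  obtain ⟨k, n, hn, hkn⟩ := Nat.exists_eq_two_pow_mul_odd (orderOf_pos α).ne'
  refine ⟨k, h (α ^ 2 ^ k) n hn ?_⟩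
  rw [← pow_mul, ← hkn, pow_orderOf_eq_one]

theorem lemB {T : Type*} [Group T] (α : MulAut T) (n : ℕ) (hn : Odd n) (hα : α ^ n = 1)
    (w b : T) (hw : α w = w * b) (hb : α b = b) (k : ℕ) (hk : b ^ (2 ^ k) = 1) : α w = w := by
  have h1 : ∀ j : ℕ, (α ^ j) w = w * b ^ j := by
    intro j
    induction j with
    | zero => simp
    | succ j ih =>
      rw [pow_succ', MulAut.mul_apply, ih, map_mul, hw, map_pow, hb, pow_succ', mul_assoc]
  have h2 : b ^ n = 1 := by
    have := h1 n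
    rw [hα, MulAut.one_apply] at this
    exact (mul_eq_left.mp this.symm)
  have h3 : orderOf b ∣ 1 := by
    have hc : Nat.Coprime (2 ^ k) n := Nat.Coprime.pow_left k (Nat.coprime_two_left.mpr hn)
    rw [← hc]
    exact Nat.dvd_gcd (orderOf_dvd_of_pow_eq_one hk) (orderOf_dvd_of_pow_eq_one h2)
  have h4 : b = 1 := orderOf_eq_one_iff.mp (Nat.dvd_one.mp h3)
  rw [hw, h4, mul_one]

/-- odd order automorphism maps generator of cyclic invariant 2-group to itself -/
theorem lemC {T : Type*} [Group T] (α : MulAut T) (n : ℕ) (hn : Odd n) (hα : α ^ n = 1)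
    (c : T) (i : ℕ) (hc : α c = c ^ i) (k : ℕ) (hk : c ^ (2 ^ k) = 1) : α c = c := by
  have h1 : ∀ j : ℕ, (α ^ j) c = c ^ (i ^ j) := by
    intro j
    induction j with
    | zero => simp
    | succ j ih =>
      rw [pow_succ', MulAut.mul_apply, ih, map_pow, hc, ← pow_mul, pow_succ, mul_comm]
  have h2 : c ^ (i ^ n) = c ^ 1 := by
    have := h1 n
    rw [hα, MulAut.one_apply] at this
    rw [← this, pow_one]
  have hoc : orderOf c ∣ 2 ^ k := orderOf_dvd_of_pow_eq_one hk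
  obtain ⟨e, -, he⟩ := (Nat.dvd_prime_pow Nat.prime_two).mp hoc
  rw [pow_inj_mod, he] at h2
  -- unit i in ZMod (2^e)
  have h3 : ((i : ZMod (2 ^ e))) ^ n = 1 := by
    have := (ZMod.natCast_eq_natCast_iff (i ^ n) 1 (2 ^ e)).mpr h2
    push_cast at this
    exact this
  have h4 : (i : ZMod (2 ^ e)) = 1 := by
    obtain ⟨n', hn'⟩ : ∃ n', n = n' + 1 := ⟨n - 1, by have := hn.pos; omega⟩
    let u : (ZMod (2 ^ e))ˣ := ⟨(i : ZMod (2 ^ e)), (i : ZMod (2 ^ e)) ^ n', by rw [← pow_succ', ← hn', h3],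
      by rw [← pow_succ, ← hn', h3]⟩
    have hun : u ^ n = 1 := by
      ext
      rw [Units.val_pow_eq_pow_val, Units.val_one]
      exact h3
    have huc : u ^ (2 ^ e) = 1 := by
      have h5 : Nat.card (ZMod (2 ^ e))ˣ ∣ 2 ^ e := by
        have : NeZero (2 ^ e) := ⟨by positivity⟩
        rw [Nat.card_eq_fintype_card, ZMod.card_units_eq_totient]
        rcases Nat.eq_zero_or_pos e with rfl | hpos
        · simp
        · rw [Nat.totient_prime_pow Nat.prime_two hpos]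
          simp only [Nat.add_one_sub_one, mul_one]
          exact pow_dvd_pow 2 (Nat.sub_le e 1)
      exact orderOf_dvd_iff_pow_eq_one.mp ((orderOf_dvd_natCard u).trans h5)
    have h5 : orderOf u ∣ 1 := by
      have hcp : Nat.Coprime (2 ^ e) n := Nat.Coprime.pow_left e (Nat.coprime_two_left.mpr hn)
      rw [← hcp]
      exact Nat.dvd_gcd (orderOf_dvd_of_pow_eq_one huc) (orderOf_dvd_of_pow_eq_one hun)
    have h6 : u = 1 := orderOf_eq_one_iff.mp (Nat.dvd_one.mp h5)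
    exact congrArg Units.val h6
  have h5 : i ≡ 1 [MOD orderOf c] := by
    rw [he, ← ZMod.natCast_eq_natCast_iff]
    push_cast
    exact h4
  rw [hc]
  have := pow_inj_mod (x := c) (n := i) (m := 1)
  rw [pow_one] at this
  exact this.mpr h5

/-- diagonal maps -/
def Dm {q : ℕ} (a s : (ZMod q)ˣ) : (Fin 2 → ZMod q) ≃ₗ[ZMod q] (Fin 2 → ZMod q) where
  toFun v := ![(a : ZMod q) * v 0, s * ((a⁻¹ : (ZMod q)ˣ) : ZMod q) * v 1]
  invFun v := ![((a⁻¹ : (ZMod q)ˣ) : ZMod q) * v 0, ((s⁻¹ : (ZMod q)ˣ) : ZMod q) * a * v 1]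
  map_add' x y := by ext i; fin_cases i <;> simp <;> ring
  map_smul' c x := by ext i; fin_cases i <;> simp <;> ring
  left_inv x := by
    ext i; fin_cases i
    · simp
    · simp
      calc (↑s⁻¹ : ZMod q) * ↑a * (↑s * ↑a⁻¹ * x 1) = ((↑s⁻¹ : ZMod q) * s) * ((a : ZMod q) * ↑a⁻¹) * x 1 := by ring
        _ = x 1 := by simp
  right_inv x := by
    ext i; fin_cases i
    · simp
    · simp
      calc (s : ZMod q) * ↑a⁻¹ * (↑s⁻¹ * ↑a * x 1) = ((s : ZMod q) * ↑s⁻¹) * ((↑a⁻¹ : ZMod q) * ↑a) * x 1 := by ring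
        _ = x 1 := by simp

/-- monomial maps -/
def Wm {q : ℕ} (a s : (ZMod q)ˣ) : (Fin 2 → ZMod q) ≃ₗ[ZMod q] (Fin 2 → ZMod q) where
  toFun v := ![s * ((a⁻¹ : (ZMod q)ˣ) : ZMod q) * v 1, (a : ZMod q) * v 0]
  invFun v := ![((a⁻¹ : (ZMod q)ˣ) : ZMod q) * v 1, ((s⁻¹ : (ZMod q)ˣ) : ZMod q) * a * v 0]
  map_add' x y := by ext i; fin_cases i <;> simp <;> ring
  map_smul' c x := by ext i; fin_cases i <;> simp <;> ring
  left_inv x := by
    ext i; fin_cases i
    · simp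
    · simp
      calc (↑s⁻¹ : ZMod q) * ↑a * (↑s * ↑a⁻¹ * x 1) = ((↑s⁻¹ : ZMod q) * s) * ((a : ZMod q) * ↑a⁻¹) * x 1 := by ring
        _ = x 1 := by simp
  right_inv x := by
    ext i; fin_cases i
    · simp
      calc (s : ZMod q) * ↑a⁻¹ * (↑s⁻¹ * ↑a * x 0) = ((s : ZMod q) * ↑s⁻¹) * ((↑a⁻¹ : ZMod q) * ↑a) * x 0 := by ring
        _ = x 0 := by simp
    · simp

theorem Dm_mul {q : ℕ} (a s b t : (ZMod q)ˣ) : Dm a s * Dm b t = Dm (a * b) (s * t) := by
  ext v i; fin_cases i <;> simp [Dm] <;> ring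

theorem Wm_mul {q : ℕ} (a s b t : (ZMod q)ˣ) : Wm a s * Wm b t = Dm (s * a⁻¹ * b) (s * t) := by
  ext v i; fin_cases i
  · simp [Dm, Wm]; ring
  · simp [Dm, Wm]
    calc (a : ZMod q) * (↑t * ↑b⁻¹ * v 1) = ((s : ZMod q) * ↑s⁻¹) * (a * (↑t * ↑b⁻¹ * v 1)) := by simp
      _ = _ := by ring

theorem Dm_Wm {q : ℕ} (a s b t : (ZMod q)ˣ) : Dm a s * Wm b t = Wm (s * a⁻¹ * b) (s * t) := by
  ext v i; fin_cases i
  · simp [Dm, Wm]
    calc (a : ZMod q) * (↑t * ↑b⁻¹ * v 1) = ((s : ZMod q) * ↑s⁻¹) * (a * (↑t * ↑b⁻¹ * v 1)) := by simp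
      _ = _ := by ring
  · simp [Dm, Wm]; ring

theorem Wm_Dm {q : ℕ} (a s b t : (ZMod q)ˣ) : Wm a s * Dm b t = Wm (a * b) (s * t) := by
  ext v i; fin_cases i <;> simp [Dm, Wm] <;> ring

theorem Dm_one {q : ℕ} : (Dm 1 1 : (Fin 2 → ZMod q) ≃ₗ[ZMod q] (Fin 2 → ZMod q)) = 1 := by
  ext v i; fin_cases i <;> simp [Dm]

theorem Dm_apply {q : ℕ} (a s : (ZMod q)ˣ) (v : Fin 2 → ZMod q) :
    Dm a s v = ![(a : ZMod q) * v 0, s * ((a⁻¹ : (ZMod q)ˣ) : ZMod q) * v 1] := rfl

theorem Wm_apply {q : ℕ} (a s : (ZMod q)ˣ) (v : Fin 2 → ZMod q) :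
    Wm a s v = ![s * ((a⁻¹ : (ZMod q)ˣ) : ZMod q) * v 1, (a : ZMod q) * v 0] := rfl

theorem Dm_inj {q : ℕ} (a s b t : (ZMod q)ˣ) (h : Dm a s = Dm b t) : a = b ∧ s = t := by
  have h0 := congrFun (congrArg (fun f : (Fin 2 → ZMod q) ≃ₗ[ZMod q] (Fin 2 → ZMod q) => f (fun _ => 1)) h) 0
  have h1 := congrFun (congrArg (fun f : (Fin 2 → ZMod q) ≃ₗ[ZMod q] (Fin 2 → ZMod q) => f (fun _ => 1)) h) 1
  simp only [Dm_apply, Matrix.cons_val_zero, Matrix.cons_val_one, mul_one] at h0 h1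
  have h0' : a = b := Units.ext h0
  subst h0'
  refine ⟨rfl, ?_⟩
  have h2 : s * a⁻¹ = t * a⁻¹ := Units.ext (by push_cast; exact h1)
  exact mul_right_cancel h2

theorem Dm_ne_Wm {q : ℕ} [Fact q.Prime] (a s b t : (ZMod q)ˣ) : Dm a s ≠ Wm b t := by
  intro h
  have h0 := congrFun (congrArg (fun f : (Fin 2 → ZMod q) ≃ₗ[ZMod q] (Fin 2 → ZMod q) => f ![1, 0]) h) 0
  simp only [Dm_apply, Wm_apply, Matrix.cons_val_zero, Matrix.cons_val_one, mul_one, mul_zero] at h0
  exact a.ne_zero h0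

theorem Dm_pow {q : ℕ} (a s : (ZMod q)ˣ) (k : ℕ) : (Dm a s) ^ k = Dm (a ^ k) (s ^ k) := by
  induction k with
  | zero => rw [pow_zero, pow_zero, pow_zero, Dm_one]
  | succ k ih => rw [pow_succ, ih, Dm_mul, ← pow_succ, ← pow_succ]

/-- Let q = 2^m + 1 be a prime other than 5. Then the automorphism group of the group of linear maps of F_q² of the forms (x, y) ↦ (a x, ± a⁻¹ y) and (x, y) ↦ (± a⁻¹ y, a x) with a ≠ 0 is itself a 2-group. -/
theorem result (q m : ℕ) [Fact q.Prime] (hq : q = 2 ^ m + 1) (hq5 : q ≠ 5)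
    (T : Subgroup ((Fin 2 → ZMod q) ≃ₗ[ZMod q] (Fin 2 → ZMod q)))
    (hT : ∀ f, f ∈ T ↔ ∃ a s : ZMod q, a ≠ 0 ∧ (s = 1 ∨ s = -1) ∧
      ((∀ v, f v = ![a * v 0, s * a⁻¹ * v 1]) ∨ (∀ v, f v = ![s * a⁻¹ * v 1, a * v 0]))) :
    IsPGroup 2 (MulAut T) := by
  have hfinT : Finite T := by
    have : Finite ((Fin 2 → ZMod q) ≃ₗ[ZMod q] (Fin 2 → ZMod q)) := Finite.of_injective (fun f => (f : (Fin 2 → ZMod q) → (Fin 2 → ZMod q))) DFunLike.coe_injective
    infer_instance
  have hT' : ∀ f, f ∈ T ↔ ∃ a s : (ZMod q)ˣ, (s = 1 ∨ s = -1) ∧ (f = Dm a s ∨ f = Wm a s) := by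
    intro f
    rw [hT]
    constructor
    · rintro ⟨a, s, ha, hs, h⟩
      have hs0 : s ≠ 0 := by rcases hs with rfl | rfl <;> simp
      refine ⟨Units.mk0 a ha, Units.mk0 s hs0, ?_, ?_⟩
      · rcases hs with rfl | rfl
        · left; ext; simp
        · right; ext; simp
      · rcases h with h | h
        · left
          refine LinearEquiv.ext fun v => ?_
          rw [h v, Dm_apply]; simp
        · right
          refine LinearEquiv.ext fun v => ?_
          rw [h v, Wm_apply]; simp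
    · rintro ⟨a, s, hs, h⟩
      refine ⟨a, s, a.ne_zero, ?_, ?_⟩
      · rcases hs with rfl | rfl <;> simp
      · rcases h with rfl | rfl
        · left; intro v; rw [Dm_apply]; simp only [Units.val_inv_eq_inv_val]
        · right; intro v; rw [Wm_apply]; simp only [Units.val_inv_eq_inv_val]
  apply isPGroup_mulAut
  intro α n hn hα
  have hmemD : ∀ a s : (ZMod q)ˣ, (s = 1 ∨ s = -1) → Dm a s ∈ T := fun a s hs => (hT' _).mpr ⟨a, s, hs, Or.inl rfl⟩
  have hmemW : ∀ a s : (ZMod q)ˣ, (s = 1 ∨ s = -1) → Wm a s ∈ T := fun a s hs => (hT' _).mpr ⟨a, s, hs, Or.inr rfl⟩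
  have hcases : ∀ x : T, (∃ a s : (ZMod q)ˣ, (s = 1 ∨ s = -1) ∧ (x : _) = Dm a s) ∨ (∃ a s : (ZMod q)ˣ, (s = 1 ∨ s = -1) ∧ (x : _) = Wm a s) := by
    intro x
    obtain ⟨a, s, hs, h | h⟩ := (hT' _).mp x.2
    · exact Or.inl ⟨a, s, hs, h⟩
    · exact Or.inr ⟨a, s, hs, h⟩
  have hsq : ∀ s : (ZMod q)ˣ, (s = 1 ∨ s = -1) → s * s = 1 := by
    rintro s (rfl | rfl) <;> simp
  have hmulself : ∀ (a : (ZMod q)ˣ), a * a = 1 → a = 1 ∨ a = -1 := by
    intro a ha
    have h1 : (a : ZMod q) * a = 1 := by rw [← Units.val_mul, ha]; simp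
    rcases mul_self_eq_one_iff.mp h1 with h | h
    · left; ext; simpa using h
    · right; ext; simpa using h
  -- cardinality of the group of units
  have hcardU : Nat.card (ZMod q)ˣ = 2 ^ m := by
    rw [Nat.card_eq_fintype_card, ZMod.card_units, hq]; simp
  have hupow : ∀ a : (ZMod q)ˣ, a ^ (2 ^ m) = 1 := by
    intro a; rw [← hcardU]; exact pow_card_eq_one'
  by_cases hm0 : m = 0
  · -- q = 2
    subst hm0
    have hall : ∀ a : (ZMod q)ˣ, a = 1 := fun a => by simpa using hupow a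
    ext x
    have key : ∀ x : T, x = 1 ∨ x = ⟨Wm 1 1, hmemW 1 1 (Or.inl rfl)⟩ := by
      intro x
      rcases hcases x with ⟨a, s, -, h⟩ | ⟨a, s, -, h⟩
      · left; apply Subtype.ext; rw [h, hall a, hall s, Dm_one]; rfl
      · right; apply Subtype.ext; rw [h, hall a, hall s]
    rcases key x with h | h
    · rw [h]; simp
    · rw [MulAut.one_apply]
      rcases key (α x) with h' | h'
      · exfalso
        have : x = 1 := by
          apply α.injective; rw [h', map_one]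
        rw [this] at h
        have := congrArg Subtype.val h
        have h2 : Dm (q := q) 1 1 = Wm 1 1 := by rw [Dm_one]; exact this
        exact Dm_ne_Wm _ _ _ _ h2
      · rw [h', h]
  have hq2 : (-1 : (ZMod q)ˣ) ≠ 1 := by
    intro h
    have h1 : (-1 : ZMod q) = 1 := by simpa using congrArg Units.val h
    have h2 : q ≠ 2 := by
      rw [hq]
      intro h
      have : 2 ^ m = 1 := by omega
      rw [Nat.pow_eq_one] at this
      omega
    have : Fact (2 < q) := ⟨by have := (Fact.out (p := q.Prime)).two_le; omega⟩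
    exact ZMod.neg_one_ne_one h1
  -- elements of T
  let Da : (ZMod q)ˣ → T := fun a => ⟨Dm a 1, hmemD a 1 (Or.inl rfl)⟩
  let d : T := ⟨Dm 1 (-1), hmemD 1 (-1) (Or.inr rfl)⟩
  let w : T := ⟨Wm 1 1, hmemW 1 1 (Or.inl rfl)⟩
  have F1 : ∀ a b, Da a * Da b = Da (a * b) := by
    intro a b; apply Subtype.ext; change Dm a 1 * Dm b 1 = Dm (a * b) 1; rw [Dm_mul, mul_one]
  have F10 : Da 1 = 1 := by apply Subtype.ext; change Dm 1 1 = 1; exact Dm_one
  have F2 : d * d = 1 := by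
    apply Subtype.ext; change Dm (q := q) 1 (-1) * Dm 1 (-1) = 1; rw [Dm_mul]; simp [Dm_one]
  have F2' : ∀ a, d * Da a = Da a * d := by
    intro a; apply Subtype.ext; change Dm 1 (-1) * Dm a 1 = Dm a 1 * Dm 1 (-1); rw [Dm_mul, Dm_mul]; simp
  have F3 : w * w = 1 := by
    apply Subtype.ext; change Wm (q := q) 1 1 * Wm 1 1 = 1; rw [Wm_mul]; simp [Dm_one]
  have F3' : ∀ a, Da a * w = w * Da a⁻¹ := by
    intro a; apply Subtype.ext; change Dm a 1 * Wm 1 1 = Wm 1 1 * Dm a⁻¹ 1; rw [Dm_Wm, Wm_Dm]; simp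
  have F3'' : d * w = w * (d * Da (-1)) := by
    apply Subtype.ext; change Dm (q := q) 1 (-1) * Wm 1 1 = Wm 1 1 * (Dm 1 (-1) * Dm (-1) 1)
    rw [Dm_Wm, Dm_mul, Wm_Dm]; simp
  have F4 : ∀ x : T, ((∃ a, x = Da a) ∨ (∃ a, x = d * Da a)) ∨ ((∃ a, x = w * Da a) ∨ (∃ a, x = w * (d * Da a))) := by
    intro x
    rcases hcases x with ⟨a, s, rfl | rfl, h⟩ | ⟨a, s, rfl | rfl, h⟩
    · left; left; exact ⟨a, Subtype.ext h⟩
    · left; right; refine ⟨a, Subtype.ext ?_⟩
      rw [h]; change _ = Dm 1 (-1) * Dm a 1; rw [Dm_mul]; simp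
    · right; left; refine ⟨a, Subtype.ext ?_⟩
      rw [h]; change _ = Wm 1 1 * Dm a 1; rw [Wm_Dm]; simp
    · right; right; refine ⟨a, Subtype.ext ?_⟩
      rw [h]; change _ = Wm 1 1 * (Dm 1 (-1) * Dm a 1); rw [Dm_mul, Wm_Dm]; simp
  have D1 : ∀ a b, Da a = Da b → a = b := by
    intro a b h; exact (Dm_inj _ _ _ _ (congrArg Subtype.val h)).1
  have D2 : ∀ a b, Da a ≠ d * Da b := by
    intro a b h
    have h1 : Dm a 1 = Dm 1 (-1) * Dm b 1 := congrArg Subtype.val h
    rw [Dm_mul] at h1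
    have := (Dm_inj _ _ _ _ h1).2
    simp at this
    exact hq2 this.symm
  have D3 : ∀ x y : T, ((∃ a, x = Da a) ∨ (∃ a, x = d * Da a)) → ((∃ a, y = w * Da a) ∨ (∃ a, y = w * (d * Da a))) → x ≠ y := by
    rintro x y (⟨a, rfl⟩ | ⟨a, rfl⟩) (⟨b, rfl⟩ | ⟨b, rfl⟩) h
    · have h1 : Dm a 1 = Wm 1 1 * Dm b 1 := congrArg Subtype.val h
      rw [Wm_Dm] at h1; exact Dm_ne_Wm _ _ _ _ h1
    · have h1 : Dm a 1 = Wm 1 1 * (Dm 1 (-1) * Dm b 1) := congrArg Subtype.val h
      rw [Dm_mul, Wm_Dm] at h1; exact Dm_ne_Wm _ _ _ _ h1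
    · have h1 : Dm 1 (-1) * Dm a 1 = Wm 1 1 * Dm b 1 := congrArg Subtype.val h
      rw [Dm_mul, Wm_Dm] at h1; exact Dm_ne_Wm _ _ _ _ h1
    · have h1 : Dm 1 (-1) * Dm a 1 = Wm 1 1 * (Dm 1 (-1) * Dm b 1) := congrArg Subtype.val h
      rw [Dm_mul, Dm_mul, Wm_Dm] at h1; exact Dm_ne_Wm _ _ _ _ h1
  have P1 : ∀ (a : (ZMod q)ˣ) (k : ℕ), (Da a) ^ k = Da (a ^ k) := by
    intro a k
    induction k with
    | zero => rw [pow_zero, pow_zero, F10]
    | succ k ih => rw [pow_succ, ih, F1, ← pow_succ]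
  have P2 : ∀ a, (d * Da a) * (d * Da a) = Da (a * a) := by
    intro a
    calc (d * Da a) * (d * Da a) = d * (Da a * d) * Da a := by group
      _ = d * (d * Da a) * Da a := by rw [F2']
      _ = (d * d) * (Da a * Da a) := by group
      _ = Da (a * a) := by rw [F2, F1, one_mul]
  have hmpos : 1 ≤ m := by omega
  have P3 : ∀ x : T, ((∃ a, x = Da a) ∨ (∃ a, x = d * Da a)) → x ^ (2 ^ m) = 1 := by
    rintro x (⟨a, rfl⟩ | ⟨a, rfl⟩)
    · rw [P1, hupow, F10]
    · obtain ⟨m', rfl⟩ : ∃ m', m = m' + 1 := ⟨m - 1, by omega⟩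
      rw [pow_succ 2 m', mul_comm, pow_mul, pow_two, P2, P1, ← pow_two, ← pow_mul, ← pow_succ', hupow, F10]
  have P4 : ∀ a, w * (d * Da a) * (w * (d * Da a)) = Da (-1) := by
    intro a
    calc w * (d * Da a) * (w * (d * Da a)) = w * d * (Da a * w) * d * Da a := by group
        _ = w * d * (w * Da a⁻¹) * d * Da a := by rw [F3']
        _ = w * (d * w) * (Da a⁻¹ * d) * Da a := by group
        _ = w * (w * (d * Da (-1))) * (d * Da a⁻¹) * Da a := by rw [F3'', ← F2' a⁻¹]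
        _ = (w * w) * (d * (Da (-1) * d)) * (Da a⁻¹ * Da a) := by group
        _ = (w * w) * (d * (d * Da (-1))) * (Da a⁻¹ * Da a) := by rw [F2' (-1)]
        _ = (w * w) * (d * d) * Da (-1) * (Da a⁻¹ * Da a) := by group
        _ = Da (-1) := by rw [F3, F2, F1 a⁻¹, inv_mul_cancel, F10]; simp
  have hW2 : ∀ x : T, ((∃ a, x = w * Da a) ∨ (∃ a, x = w * (d * Da a))) → (x * x = 1 ∨ x * x = Da (-1)) := by
    rintro x (⟨a, rfl⟩ | ⟨a, rfl⟩)
    · left
      calc w * Da a * (w * Da a) = w * (Da a * w) * Da a := by group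
        _ = w * (w * Da a⁻¹) * Da a := by rw [F3']
        _ = (w * w) * (Da a⁻¹ * Da a) := by group
        _ = 1 := by rw [F3, F1, inv_mul_cancel, F10, one_mul]
    · right
      exact P4 a
  have hm11 : Da (-1) * Da (-1) = 1 := by rw [F1]; simp [F10]
  have hW4 : ∀ x : T, ((∃ a, x = w * Da a) ∨ (∃ a, x = w * (d * Da a))) → x ^ 4 = 1 := by
    intro x hx
    have : x ^ 4 = (x * x) * (x * x) := by simp only [pow_succ, pow_zero, one_mul, mul_assoc]
    rw [this]
    rcases hW2 x hx with h | h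
    · rw [h, one_mul]
    · rw [h, hm11]
  have hdne : d ≠ 1 := by
    intro h
    apply D2 1 1
    rw [F10, mul_one, h]
  -- finishing
  have hfinish : (∀ a, α (Da a) = Da a) → α d = d → α w = w → α = 1 := by
    intro h1 h2 h3
    ext x
    rw [MulAut.one_apply]
    rcases F4 x with (⟨a, rfl⟩ | ⟨a, rfl⟩) | (⟨a, rfl⟩ | ⟨a, rfl⟩)
    · rw [h1]
    · rw [map_mul, h1, h2]
    · rw [map_mul, h1, h3]
    · rw [map_mul, map_mul, h1, h2, h3]
  by_cases hm1 : m = 1
  · -- q = 3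
    subst hm1
    have hall : ∀ a : (ZMod q)ˣ, a = 1 ∨ a = -1 := fun a => hmulself a (by rw [← pow_two]; simpa using hupow a)
    have hsqD : ∀ x : T, ((∃ a, x = Da a) ∨ (∃ a, x = d * Da a)) → x * x = 1 := by
      intro x hx
      have := P3 x hx
      rwa [pow_one, pow_two] at this
    let r : T := w * (d * Da 1)
    have hr : r * r = Da (-1) := by
      calc w * (d * Da 1) * (w * (d * Da 1)) = w * (d * w) * d := by rw [F10]; group
        _ = w * (w * (d * Da (-1))) * d := by rw [F3'']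
        _ = (w * w) * d * (Da (-1) * d) := by group
        _ = (w * w) * d * (d * Da (-1)) := by rw [F2']
        _ = (w * w) * (d * d) * Da (-1) := by group
        _ = Da (-1) := by rw [F3, F2]; simp
    have hm1ne : Da (-1) ≠ 1 := by
      intro h; rw [← F10] at h; exact hq2 (D1 _ _ h)
    have hαr2 : α (Da (-1)) = Da (-1) := by
      have h1 : α (Da (-1)) = α r * α r := by rw [← hr, map_mul]
      have h2 : α r * α r ≠ 1 := by
        rw [← h1]; intro h
        apply hm1ne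
        apply α.injective; rw [h, map_one]
      rcases F4 (α r) with h | h
      · exact absurd (hsqD _ h) h2
      · rcases hW2 _ h with h' | h'
        · exact absurd h' h2
        · rw [h1, h']
    have hαD : ∀ a, α (Da a) = Da a := by
      intro a
      rcases hall a with rfl | rfl
      · rw [F10, map_one]
      · exact hαr2
    have hDpow : ∀ a, (Da a) ^ (2 ^ 1) = 1 := fun a => P3 _ (Or.inl ⟨a, rfl⟩)
    have hαr : α r = r := by
      -- α r = w d Da a = r * Da a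
      have h2 : α r * α r = Da (-1) := by rw [← map_mul, hr, hαr2]
      rcases F4 (α r) with h | h
      · exact absurd ((hsqD _ h).symm.trans h2).symm hm1ne
      · rcases h with ⟨a, ha⟩ | ⟨a, ha⟩
        · exfalso
          rw [ha] at h2
          apply hm1ne
          rw [← h2]
          calc w * Da a * (w * Da a) = w * (Da a * w) * Da a := by group
            _ = w * (w * Da a⁻¹) * Da a := by rw [F3']
            _ = (w * w) * (Da a⁻¹ * Da a) := by group
            _ = 1 := by rw [F3, F1, inv_mul_cancel, F10, one_mul]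
        · apply lemB α n hn hα r (Da a) _ (hαD a) 1 (hDpow a)
          rw [ha]
          change w * (d * Da a) = w * (d * Da 1) * Da a
          rw [F10]; group
    have hrpow : ∀ a, (r * Da a) ^ (2 ^ 2) = 1 := by
      intro a
      have : r * Da a = w * (d * Da a) := by change w * (d * Da 1) * Da a = _; rw [F10]; group
      rw [this]
      exact hW4 _ (Or.inr ⟨a, rfl⟩)
    have hαd : α d = d := by
      rcases F4 (α d) with (⟨a, h⟩ | ⟨a, h⟩) | (⟨a, h⟩ | ⟨a, h⟩)
      · exfalso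
        have : α d = α (Da a) := by rw [h, hαD]
        have := α.injective this
        apply D2 a 1
        rw [← this, F10, mul_one]
      · exact lemB α n hn hα d (Da a) h (hαD a) 1 (hDpow a)
      · -- w * Da a = d * (r * Da b)
        have h1 : d * (w * Da a) = r * Da (-a) := by
          calc d * (w * Da a) = (d * w) * Da a := by group
            _ = w * (d * Da (-1)) * Da a := by rw [F3'']
            _ = w * d * (Da (-1) * Da a) := by group
            _ = w * d * Da (-a) := by rw [F1]; simp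
            _ = r * Da (-a) := by change _ = w * (d * Da 1) * Da (-a); rw [F10]; group
        apply lemB α n hn hα d (r * Da (-a)) _ (by rw [map_mul, hαr, hαD]) 2 (hrpow _)
        rw [h, ← h1, ← mul_assoc, F2, one_mul]
      · exfalso
        have h1 : w * (d * Da a) = r * Da a := by change _ = w * (d * Da 1) * Da a; rw [F10]; group
        have : α d = α (r * Da a) := by rw [h, h1, map_mul, hαr, hαD]
        have h2 := α.injective this
        have h3 : d * d = Da (-1) := by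
          rw [← h1] at h2
          rw [h2]
          exact P4 a
        rw [F2] at h3
        exact hm1ne h3.symm
    have hαw : α w = w := by
      have : w = r * d := by
        change w = w * (d * Da 1) * d
        rw [F10, mul_one, mul_assoc, F2, mul_one]
      rw [this, map_mul, hαr, hαd]
    exact hfinish hαD hαd hαw
  -- m ≥ 3
  have hm3 : 3 ≤ m := by
    by_contra h
    have : m = 2 := by omega
    apply hq5; rw [hq, this]; norm_num
  obtain ⟨g, hg⟩ := IsCyclic.exists_generator (α := (ZMod q)ˣ)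
  have hgo : orderOf g = 2 ^ m := by
    rw [← hcardU]; exact orderOf_eq_card_of_forall_mem_zpowers hg
  have hgpow : ∀ a : (ZMod q)ˣ, ∃ j : ℕ, g ^ j = a := by
    intro a
    exact (mem_powers_iff_mem_zpowers.mpr (hg a))
  have hg4 : g ^ 4 ≠ 1 := by
    intro h
    have h1 := orderOf_dvd_of_pow_eq_one h
    rw [hgo] at h1
    have h2 := Nat.le_of_dvd (by norm_num) h1
    have h3 : 2 ^ 3 ≤ 2 ^ m := Nat.pow_le_pow_right (by norm_num) hm3
    omega
  -- (1) α preserves A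
  have hA : ∀ x : T, ((∃ a, x = Da a) ∨ (∃ a, x = d * Da a)) → ((∃ a, α x = Da a) ∨ (∃ a, α x = d * Da a)) := by
    have hX : ∀ x : T, x ^ 4 ≠ 1 → ((∃ a, α x = Da a) ∨ (∃ a, α x = d * Da a)) := by
      intro x hx
      rcases F4 (α x) with h | h
      · exact h
      · exfalso
        have := hW4 _ h
        rw [← map_pow] at this
        apply hx
        apply α.injective; rw [this, map_one]
    have hh : (Da g) ^ 4 ≠ 1 := by
      rw [P1]; intro h; rw [← F10] at h; exact hg4 (D1 _ _ h)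
    have hmulA : ∀ x y : T, ((∃ a, x = Da a) ∨ (∃ a, x = d * Da a)) → ((∃ a, y = Da a) ∨ (∃ a, y = d * Da a)) → ((∃ a, x * y = Da a) ∨ (∃ a, x * y = d * Da a)) := by
      rintro x y (⟨a, rfl⟩ | ⟨a, rfl⟩) (⟨b, rfl⟩ | ⟨b, rfl⟩)
      · left; exact ⟨_, F1 a b⟩
      · right; refine ⟨a * b, ?_⟩
        rw [← mul_assoc, ← F2', mul_assoc, F1]
      · right; refine ⟨a * b, ?_⟩
        rw [mul_assoc, F1]
      · left; refine ⟨a * b, ?_⟩
        calc d * Da a * (d * Da b) = d * (Da a * d) * Da b := by group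
          _ = d * (d * Da a) * Da b := by rw [F2']
          _ = (d * d) * (Da a * Da b) := by group
          _ = Da (a * b) := by rw [F2, F1, one_mul]
    have hinvA : ∀ x : T, ((∃ a, x = Da a) ∨ (∃ a, x = d * Da a)) → ((∃ a, x⁻¹ = Da a) ∨ (∃ a, x⁻¹ = d * Da a)) := by
      rintro x (⟨a, rfl⟩ | ⟨a, rfl⟩)
      · left; refine ⟨a⁻¹, ?_⟩
        rw [inv_eq_iff_mul_eq_one, F1]; simp [F10]
      · right; refine ⟨a⁻¹, ?_⟩
        rw [inv_eq_iff_mul_eq_one]
        calc d * Da a * (d * Da a⁻¹) = d * (Da a * d) * Da a⁻¹ := by group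
          _ = d * (d * Da a) * Da a⁻¹ := by rw [F2']
          _ = (d * d) * (Da a * Da a⁻¹) := by group
          _ = 1 := by rw [F2, F1]; simp [F10]
    intro x hx
    by_cases hx4 : x ^ 4 = 1
    · have h1 : (x * Da g) ^ 4 ≠ 1 := by
        have hc : Commute x (Da g) := by
          rcases hx with ⟨a, rfl⟩ | ⟨a, rfl⟩
          · change Da a * Da g = Da g * Da a; rw [F1, F1, mul_comm]
          · change d * Da a * Da g = Da g * (d * Da a)
            rw [mul_assoc, F1, ← mul_assoc, ← F2' g, mul_assoc, F1, mul_comm g a]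
        rw [hc.mul_pow, hx4, one_mul]
        exact hh
      have h2 := hX _ h1
      have h3 := hX _ hh
      have h4 : α x = α (x * Da g) * (α (Da g))⁻¹ := by rw [map_mul]; group
      rw [h4]
      exact hmulA _ _ h2 (hinvA _ h3)
    · exact hX _ hx4
  -- (2) squares
  have hsqA : ∀ x : T, ((∃ a, x = Da a) ∨ (∃ a, x = d * Da a)) → ∃ b, x * x = Da (b * b) := by
    rintro x (⟨a, rfl⟩ | ⟨a, rfl⟩)
    · exact ⟨a, F1 a a⟩
    · exact ⟨a, P2 a⟩
  have hc : α (Da (g * g)) = Da (g * g) := by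
    have h1 : α (Da (g * g)) = α (Da g) * α (Da g) := by rw [← map_mul, F1]
    obtain ⟨b, hb⟩ := hsqA _ (hA (Da g) (Or.inl ⟨g, rfl⟩))
    obtain ⟨j, rfl⟩ := hgpow b
    apply lemC α n hn hα (Da (g * g)) j _ m (P3 _ (Or.inl ⟨_, rfl⟩))
    rw [h1, hb, P1, mul_pow]
  have hDsq : ∀ b, α (Da (b * b)) = Da (b * b) := by
    intro b
    obtain ⟨j, rfl⟩ := hgpow b
    have : Da (g ^ j * g ^ j) = (Da (g * g)) ^ j := by rw [P1, mul_pow]
    rw [this, map_pow, hc]
  have hneg1 : ∃ b : (ZMod q)ˣ, b * b = -1 := by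
    have h4 : q % 4 ≠ 3 := by
      obtain ⟨m', rfl⟩ : ∃ m', m = m' + 2 := ⟨m - 2, by omega⟩
      rw [hq, pow_add]; omega
    obtain ⟨b, hb⟩ := (ZMod.exists_sq_eq_neg_one_iff (p := q)).mpr h4
    have hb0 : b ≠ 0 := by rintro rfl; simp at hb
    refine ⟨Units.mk0 b hb0, ?_⟩
    ext; simp [← hb]
  have hpm : ∀ a : (ZMod q)ˣ, a * a = 1 → α (Da a) = Da a := by
    intro a ha
    rcases hmulself a ha with rfl | rfl
    · rw [F10, map_one]
    · obtain ⟨b, hb⟩ := hneg1
      rw [← hb]; exact hDsq b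
  -- (3) α d = d
  have hαd : α d = d := by
    have hd2 : α d * α d = 1 := by rw [← map_mul, F2, map_one]
    rcases hA d (Or.inr ⟨1, by rw [F10, mul_one]⟩) with ⟨a, h⟩ | ⟨a, h⟩
    · exfalso
      rw [h, F1, ← F10] at hd2
      have h1 := hpm a (D1 _ _ hd2)
      have h2 := α.injective (h.trans h1.symm)
      apply D2 a 1
      rw [F10, mul_one, h2]
    · rw [h, P2, ← F10] at hd2
      exact lemB α n hn hα d (Da a) h (hpm a (D1 _ _ hd2)) m (P3 _ (Or.inl ⟨_, rfl⟩))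
  -- (4) α (Da g) = Da g
  have hαg : α (Da g) = Da g := by
    have h2 : α (Da g) * α (Da g) = Da (g * g) := by rw [← map_mul, F1, hDsq]
    rcases hA (Da g) (Or.inl ⟨g, rfl⟩) with ⟨a, h⟩ | ⟨a, h⟩
    · rw [h, F1] at h2
      have h3 := D1 _ _ h2
      have h4 : (g⁻¹ * a) * (g⁻¹ * a) = 1 := by
        calc (g⁻¹ * a) * (g⁻¹ * a) = (g * g)⁻¹ * (a * a) := by rw [mul_inv, mul_mul_mul_comm]
          _ = 1 := by rw [h3, inv_mul_cancel]
      apply lemB α n hn hα (Da g) (Da (g⁻¹ * a)) _ (hpm _ h4) m (P3 _ (Or.inl ⟨_, rfl⟩))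
      rw [h, F1]; simp
    · rw [h, P2] at h2
      have h3 := D1 _ _ h2
      have h4 : (g⁻¹ * a) * (g⁻¹ * a) = 1 := by
        calc (g⁻¹ * a) * (g⁻¹ * a) = (g * g)⁻¹ * (a * a) := by rw [mul_inv, mul_mul_mul_comm]
          _ = 1 := by rw [h3, inv_mul_cancel]
      apply lemB α n hn hα (Da g) (d * Da (g⁻¹ * a)) _ (by rw [map_mul, hαd, hpm _ h4]) m (P3 _ (Or.inr ⟨_, rfl⟩))
      rw [h, ← mul_assoc, ← F2', mul_assoc, F1]; simp
  have hαD : ∀ a, α (Da a) = Da a := by
    intro a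
    obtain ⟨j, rfl⟩ := hgpow a
    rw [← P1, map_pow, hαg]
  -- (6) α w = w
  have hαw : α w = w := by
    rcases F4 (α w) with h | h
    · exfalso
      have h1 : α (α w) = α w := by
        rcases h with ⟨a, ha⟩ | ⟨a, ha⟩
        · rw [ha, hαD]
        · rw [ha, map_mul, hαd, hαD]
      have h2 := α.injective h1
      rw [h2] at h
      exact D3 w w h (Or.inl ⟨1, by rw [F10, mul_one]⟩) rfl
    · rcases h with ⟨a, ha⟩ | ⟨a, ha⟩
      · exact lemB α n hn hα w (Da a) ha (hαD a) m (P3 _ (Or.inl ⟨_, rfl⟩))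
      · exact lemB α n hn hα w (d * Da a) ha (by rw [map_mul, hαd, hαD]) m (P3 _ (Or.inr ⟨_, rfl⟩))
  exact hfinish hαD hαd hαw

end Cfsg.Agent.S3382
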