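import Cfsg.Statements.S3383

set_option autoImplicit false
open Cfsg

namespace Cfsg.Agent.S3383

open scoped Pointwise in
theorem cent_le {L : Type*} [Group L]
    (H : Subgroup L) (hH : Cfsg.IsFrobeniusComplement H) (h : L) (hh : h ∈ H) (h1 : h ≠ 1)
    (g : L) (hg : g * h = h * g) : g ∈ H := by
  by_contra hgn
  have h2 := hH.2.2 g hgn
  have h3 : h ∈ H ⊓ (MulAut.conj g • H) := by
    rw [Subgroup.mem_inf]
    refine ⟨hh, ?_⟩
    rw [Subgroup.mem_pointwise_smul_iff_inv_smul_mem]
    simp only [MulAut.smul_def, ← map_inv, MulAut.conj_apply, inv_inv]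
    have : g⁻¹ * h * g = h := by rw [mul_assoc, ← hg]; group
    rw [this]; exact hh
  rw [h2, Subgroup.mem_bot] at h3
  exact h1 h3

open scoped Pointwise in
/-- Let H be a Frobenius complement in a finite group L and K the Frobenius kernel (as a subgroup). Then K is characteristic in L, and every normal subgroup of L either contains K or is contained in K. -/
theorem result {L : Type*} [Group L] [Finite L]
    (H : Subgroup L) (hH : Cfsg.IsFrobeniusComplement H)
    (K : Subgroup L) (hK : (K : Set L) = Cfsg.frobeniusKernel H) :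
    K.Characteristic ∧ ∀ N : Subgroup L, N.Normal → K ≤ N ∨ N ≤ K := by
  have hmem : ∀ x : L, x ∈ K ↔ (x = 1 ∨ ∀ g : L, x ∉ MulAut.conj g • H) := by
    intro x
    rw [← SetLike.mem_coe, hK]; rfl
  have hconjmem : ∀ x g : L, x ∈ MulAut.conj g • H ↔ g⁻¹ * x * g ∈ H := by
    intro x g
    rw [Subgroup.mem_pointwise_smul_iff_inv_smul_mem]
    simp only [MulAut.smul_def, ← map_inv, MulAut.conj_apply, inv_inv]
  have hKn : K.Normal := by
    constructor
    intro x hx g
    rw [hmem] at hx ⊢
    rcases hx with rfl | hx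
    · left; simp
    · right
      intro g' hg'
      rw [hconjmem] at hg'
      apply hx (g⁻¹ * g')
      rw [hconjmem]
      convert hg' using 1
      group
  have hdisj : ∀ x : L, x ∈ K → x ∈ H → x = 1 := by
    intro x hx hxH
    rcases (hmem x).mp hx with h | h
    · exact h
    · exfalso
      apply h 1
      rw [hconjmem]; simpa using hxH
  -- coprime orders
  have hcop : (Nat.card H).Coprime (Nat.card K) := by
    apply Nat.Coprime.symm
    by_contra hnc
    obtain ⟨p, hp, hpK, hpH⟩ := Nat.Prime.not_coprime_iff_dvd.mp hnc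
    have := Fact.mk hp
    obtain ⟨⟨h, hh⟩, hho⟩ := exists_prime_orderOf_dvd_card' p hpH
    have hho' : orderOf h = p := by
      rw [← hho]; exact (Subgroup.orderOf_mk h hh).symm
    have hh1 : h ≠ 1 := by
      intro h0; rw [h0, orderOf_one] at hho'; exact hp.one_lt.ne hho'
    let φ : Subgroup.zpowers h →* MulAut K := (MulAut.conjNormal (H := K)).comp (Subgroup.subtype _)
    let _ : MulDistribMulAction (Subgroup.zpowers h) K := MulDistribMulAction.compHom K φ
    have hP : IsPGroup p (Subgroup.zpowers h) := by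
      apply IsPGroup.of_card (n := 1)
      rw [Nat.card_zpowers, hho', pow_one]
    have hmod := hP.card_modEq_card_fixedPoints K
    have hfix : Nat.card (MulAction.fixedPoints (Subgroup.zpowers h) K) = 1 := by
      rw [Nat.card_eq_one_iff_unique]
      refine ⟨⟨?_⟩, ⟨⟨1, ?_⟩⟩⟩
      · have key : ∀ a : MulAction.fixedPoints (Subgroup.zpowers h) K, (a : K) = 1 := by
          rintro ⟨a, ha⟩
          have h1 := ha ⟨h, Subgroup.mem_zpowers h⟩
          have h2 : h * (a : L) * h⁻¹ = a := by
            have := congrArg Subtype.val h1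
            exact this
          have h3 : (a : L) * h = h * a := by
            rw [mul_inv_eq_iff_eq_mul] at h2
            exact h2.symm
          have h4 := cent_le H hH h hh hh1 a h3
          exact Subtype.ext (hdisj _ a.2 h4)
        intro a b
        apply Subtype.ext
        rw [key a, key b]
      · intro g
        exact smul_one g
    rw [hfix] at hmod
    have h0 : Nat.card K ≡ 0 [MOD p] := (Nat.modEq_zero_iff_dvd).mpr hpK
    have := (h0.symm.trans hmod)
    have h2 := (Nat.modEq_zero_iff_dvd).mp this.symm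
    exact hp.one_lt.ne' (Nat.dvd_one.mp h2)
  constructor
  · rw [Subgroup.characteristic_iff_map_le]
    intro φ
    rintro _ ⟨x, hx, rfl⟩
    by_contra hn
    have h1 : φ x ^ Nat.card K = 1 := by
      rw [← map_pow]
      have : x ^ Nat.card K = 1 := by
        have := pow_card_eq_one' (G := K) (x := ⟨x, hx⟩)
        exact congrArg Subtype.val this
      rw [this, map_one]
    have hn' := hn
    rw [hmem] at hn'
    push Not at hn'
    obtain ⟨hne, g, hg⟩ := hn'
    have h2 : (φ x) ^ Nat.card H = 1 := by
      rw [hconjmem] at hg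
      have := pow_card_eq_one' (G := H) (x := ⟨_, hg⟩)
      have h3 : (g⁻¹ * φ x * g) ^ Nat.card H = 1 := congrArg Subtype.val this
      have h4 : (g⁻¹ * φ x * g) ^ Nat.card H = g⁻¹ * (φ x) ^ Nat.card H * g := by
        have := conj_pow (i := Nat.card H) (a := g⁻¹) (b := φ x)
        simpa using this
      rw [h4] at h3
      have h5 : (φ x) ^ Nat.card H = g * (g⁻¹ * (φ x) ^ Nat.card H * g) * g⁻¹ := by group
      rw [h5, h3]; group
    have h3 : orderOf (φ x) ∣ 1 := by
      rw [← hcop]
      exact Nat.dvd_gcd (orderOf_dvd_of_pow_eq_one h2) (orderOf_dvd_of_pow_eq_one h1)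
    have h4 : orderOf (φ x) = 1 := Nat.dvd_one.mp h3
    exact hne (orderOf_eq_one_iff.mp h4)
  · intro N hN
    by_cases hNK : N ≤ K
    · exact Or.inr hNK
    · left
      obtain ⟨n, hnN, hnK⟩ := SetLike.not_le_iff_exists.mp hNK
      rw [hmem] at hnK
      push Not at hnK
      obtain ⟨hn1, g, hg⟩ := hnK
      rw [hconjmem] at hg
      have hhN : g⁻¹ * n * g ∈ N := by
        have := hN.conj_mem n hnN g⁻¹
        simpa using this
      set h := g⁻¹ * n * g with hh
      have hh1 : h ≠ 1 := by
        intro h0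
        apply hn1
        have : n = g * h * g⁻¹ := by rw [hh]; group
        rw [this, h0]; group
      have hmap : ∀ k : K, (k : L)⁻¹ * (h * k * h⁻¹) ∈ K := by
        intro k
        exact K.mul_mem (K.inv_mem k.2) (hKn.conj_mem k k.2 h)
      have hinj : Function.Injective (fun k : K => (⟨(k : L)⁻¹ * (h * k * h⁻¹), hmap k⟩ : K)) := by
        intro a b hab
        have h1 : (a : L)⁻¹ * (h * a * h⁻¹) = (b : L)⁻¹ * (h * b * h⁻¹) := congrArg Subtype.val hab
        have h2 : ((b : L) * (a : L)⁻¹) * h = h * ((b : L) * (a : L)⁻¹) := by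
          have h3 : (b : L) * ((a : L)⁻¹ * (h * a * h⁻¹)) = h * b * h⁻¹ := by rw [h1]; group
          calc ((b : L) * (a : L)⁻¹) * h = ((b : L) * ((a : L)⁻¹ * (h * a * h⁻¹))) * (h * (a : L)⁻¹) := by group
            _ = (h * b * h⁻¹) * (h * (a : L)⁻¹) := by rw [h3]
            _ = h * ((b : L) * (a : L)⁻¹) := by group
        have h4 := cent_le H hH h hg hh1 _ h2
        have h5 := hdisj _ (K.mul_mem b.2 (K.inv_mem a.2)) h4
        exact Subtype.ext (mul_inv_eq_one.mp h5).symm
      have hsurj := Finite.surjective_of_injective hinj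
      intro k hk
      obtain ⟨a, ha⟩ := hsurj ⟨k, hk⟩
      have h1 : (a : L)⁻¹ * (h * a * h⁻¹) = k := congrArg Subtype.val ha
      rw [← h1]
      have : (a : L)⁻¹ * (h * a * h⁻¹) = ((a : L)⁻¹ * h * (a : L)⁻¹⁻¹) * h⁻¹ := by group
      rw [this]
      exact N.mul_mem (hN.conj_mem h hhN _) (N.inv_mem hhN)

end Cfsg.Agent.S3383
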