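import Cfsg.Statements.S3419
import Cfsg.Agent.Lib.H70.AltSpec

set_option autoImplicit false
open Cfsg

namespace Cfsg.Agent.S3419

/-- Let n ≥ 5 and let G be a finite group with the same order and the same set of element orders as the alternating group of degree n. Then G is not solvable. -/
theorem result {G : Type*} [Group G] [Finite G] (n : ℕ) (hn : 5 ≤ n)
    (hcard : Nat.card G = Nat.card ↥(alternatingGroup (Fin n)))
    (hspec : Set.range (orderOf : G → ℕ) = Set.range (orderOf : ↥(alternatingGroup (Fin n)) → ℕ)) :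
    ¬ Group.IsSolvable G := by
  have hgen : ∀ p q : ℕ, p.Prime → q.Prime → n < 2 * p → p < q → q ≤ n → ¬ Group.IsSolvable G := by
    intro p q hp hq h1 h2 h3
    haveI : Fact p.Prime := ⟨hp⟩
    haveI : Fact q.Prime := ⟨hq⟩
    have hp2 : p ≠ 2 := by omega
    exact H70.AltSpec.not_solvable (p := p) (q := q) (by omega)
      (H70.AltSpec.cond hn hcard hp hq (by omega) h1 (by omega) (by omega) h3)
      (H70.AltSpec.cond hn hcard hq hp (by omega) (by omega) h3 h1 (by omega))
      (H70.AltSpec.no_pq hp hq (by omega) (by omega) (by nlinarith [hp.two_le]) hspec)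
      (H70.AltSpec.dvd_card (by omega) hcard hp hp2 (by omega))
      (H70.AltSpec.dvd_card (by omega) hcard hq (by omega) h3)
  have hlow : ∀ p q a b : ℕ, p.Prime → q.Prime → p ≠ q → n < p + q → n < p * q → p ∣ Nat.card G → q ∣ Nat.card G →
      (∀ k, p ^ k ∣ Nat.card G → k ≤ a) → (∀ k, q ^ k ∣ Nat.card G → k ≤ b) →
      (∀ k, 1 ≤ k → k ≤ a → ¬ q ∣ p ^ k - 1) → (∀ k, 1 ≤ k → k ≤ b → ¬ p ∣ q ^ k - 1) → ¬ Group.IsSolvable G := by
    intro p q a b hp hq hpq h1 h2 h3 h4 h5 h6 h7 h8
    haveI : Fact p.Prime := ⟨hp⟩
    haveI : Fact q.Prime := ⟨hq⟩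
    exact H70.AltSpec.not_solvable (p := p) (q := q) hpq (fun k hk hd => h7 k hk (h5 k hd))
      (fun k hk hd => h8 k hk (h6 k hd)) (H70.AltSpec.no_pq hp hq hpq h1 h2 hspec) h3 h4
  have hC := H70.AltSpec.card_alt (by omega) hcard
  by_cases h11 : 11 ≤ n
  · obtain ⟨p, q, hp, hq, h1, h2, h3⟩ := H70.TwoPrimes.two_primes_half n h11
    exact hgen p q hp hq h1 h2 h3
  have hcase : n = 5 ∨ n = 6 ∨ n = 7 ∨ n = 8 ∨ n = 9 ∨ n = 10 := by omega
  rcases hcase with rfl | rfl | rfl | rfl | rfl | rfl
  · exact hgen 3 5 (by norm_num) (by norm_num) (by norm_num) (by norm_num) (by norm_num)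
  · have hG : Nat.card G = 360 := by
      have : (6 : ℕ).factorial = 720 := by decide
      omega
    apply hlow 3 5 2 1 (by norm_num) (by norm_num) (by norm_num) (by norm_num) (by norm_num)
    · rw [hG]; norm_num
    · rw [hG]; norm_num
    · intro k hk
      by_contra hc
      have := (pow_dvd_pow 3 (by omega : 3 ≤ k)).trans hk
      rw [hG] at this
      norm_num at this
    · intro k hk
      by_contra hc
      have := (pow_dvd_pow 5 (by omega : 2 ≤ k)).trans hk
      rw [hG] at this
      norm_num at this
    · intro k h1 h2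
      interval_cases k <;> norm_num
    · intro k h1 h2
      interval_cases k; norm_num
  · exact hgen 5 7 (by norm_num) (by norm_num) (by norm_num) (by norm_num) (by norm_num)
  · exact hgen 5 7 (by norm_num) (by norm_num) (by norm_num) (by norm_num) (by norm_num)
  · exact hgen 5 7 (by norm_num) (by norm_num) (by norm_num) (by norm_num) (by norm_num)
  · have hG : Nat.card G = 1814400 := by
      have : (10 : ℕ).factorial = 3628800 := by decide
      omega
    apply hlow 5 7 2 1 (by norm_num) (by norm_num) (by norm_num) (by norm_num) (by norm_num)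
    · rw [hG]; norm_num
    · rw [hG]; norm_num
    · intro k hk
      by_contra hc
      have := (pow_dvd_pow 5 (by omega : 3 ≤ k)).trans hk
      rw [hG] at this
      norm_num at this
    · intro k hk
      by_contra hc
      have := (pow_dvd_pow 7 (by omega : 2 ≤ k)).trans hk
      rw [hG] at this
      norm_num at this
    · intro k h1 h2
      interval_cases k <;> norm_num
    · intro k h1 h2
      interval_cases k; norm_num

end Cfsg.Agent.S3419
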