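import Cfsg.Statements.S3420
import Cfsg.Agent.Lib.H70.AltSpec

set_option autoImplicit false
open Cfsg

namespace Cfsg.Agent.S3420

/-- Let n ≥ 11 and let G be a finite group with the same order and the same set of element orders as the alternating group of degree n. Then G has normal subgroups N < H such that H/N is a non-abelian simple group whose order is divisible by every prime p with n/2 < p ≤ n. -/
theorem result {G : Type*} [Group G] [Finite G] (n : ℕ) (hn : 11 ≤ n)
    (hcard : Nat.card G = Nat.card ↥(alternatingGroup (Fin n)))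
    (hspec : Set.range (orderOf : G → ℕ) = Set.range (orderOf : ↥(alternatingGroup (Fin n)) → ℕ)) :
    ∃ (N H : Subgroup G) (_ : N.Normal), H.Normal ∧ N < H ∧
      IsSimpleGroup (↥H ⧸ N.subgroupOf H) ∧ ¬ IsMulCommutative (↥H ⧸ N.subgroupOf H) ∧
      ∀ p : ℕ, p.Prime → n < 2 * p → p ≤ n → p ∣ Nat.card (↥H ⧸ N.subgroupOf H) := by
  obtain ⟨p, q, hp, hq, h1, h2, h3⟩ := H70.TwoPrimes.two_primes_half n hn
  haveI : Fact p.Prime := ⟨hp⟩
  haveI : Fact q.Prime := ⟨hq⟩
  have hp2 : p ≠ 2 := by omega
  obtain ⟨N, H, hN, hHn, hNH, hs, hnc, hpH, hNp⟩ := H70.AltSpec.exists_simple (G := G) (p := p) (q := q) (by omega)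
      (H70.AltSpec.not_sq_dvd (by omega) hcard hp hp2 (by omega) h1)
      (H70.AltSpec.cond (by omega) hcard hp hq (by omega) h1 (by omega) (by omega) h3)
      (H70.AltSpec.cond (by omega) hcard hq hp (by omega) (by omega) h3 h1 (by omega))
      (H70.AltSpec.no_pq hp hq (by omega) (by omega) (by nlinarith [hp.two_le]) hspec)
      (H70.AltSpec.dvd_card (by omega) hcard hp hp2 (by omega))
      (H70.AltSpec.dvd_card (by omega) hcard hq (by omega) h3)
  refine ⟨N, H, hN, hHn, hNH, hs, hnc, ?_⟩
  intro r hr hr1 hr2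
  haveI : Fact r.Prime := ⟨hr⟩
  have hr0 : r ≠ 2 := by omega
  have key : r ∣ Nat.card H ∧ ¬ r ∣ Nat.card N := by
    by_cases hrp : r = p
    · subst hrp; exact ⟨hpH, hNp⟩
    · have hno := H70.AltSpec.no_pq (G := G) hp hr (Ne.symm hrp) (by omega) (by nlinarith [hp.two_le]) hspec
      have hrG := H70.AltSpec.dvd_card (G := G) (by omega) hcard hr hr0 hr2
      have hpG := H70.AltSpec.dvd_card (G := G) (by omega) hcard hp hp2 (by omega)
      constructor
      · by_contra hc
        have : r ∣ H.index := by
          have h4 := hrG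
          rw [← H.card_mul_index] at h4
          exact (hr.dvd_mul.1 h4).resolve_left hc
        obtain ⟨g, hg⟩ := H70.AltSpec.exists_of_normal (Ne.symm hrp)
          (H70.AltSpec.cond (by omega) hcard hp hr (Ne.symm hrp) h1 (by omega) hr1 hr2) H hpH this
        exact hno g hg
      · intro hrN
        have : p ∣ N.index := by
          have h4 := hpG
          rw [← N.card_mul_index] at h4
          exact (hp.dvd_mul.1 h4).resolve_left hNp
        obtain ⟨g, hg⟩ := H70.AltSpec.exists_of_normal hrp
          (H70.AltSpec.cond (by omega) hcard hr hp hrp hr1 hr2 h1 (by omega)) N hrN this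
        exact hno g (by rw [hg, mul_comm])
  have h4 := Subgroup.card_mul_index (N.subgroupOf H)
  have h5 : Nat.card (N.subgroupOf H) = Nat.card N := Nat.card_congr (Subgroup.subgroupOfEquivOfLe hNH.le).toEquiv
  have h6 := key.1
  rw [← h4, h5] at h6
  exact (hr.dvd_mul.1 h6).resolve_left key.2

end Cfsg.Agent.S3420
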