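import Cfsg.Statements.S3431
import Cfsg.Agent.Lib.H15.Nse2
import Cfsg.Agent.Lib.H15.Nse6
import Cfsg.Agent.Lib.H59.Ord360b

set_option autoImplicit false
open Cfsg

namespace Cfsg.Agent.S3431

/-- Let n be 4, 5 or 6 and let G be a finite group whose set of sizes of same-order classes (the set of numbers #{g : o(g) = m} over the element orders m of G) equals that of the alternating group of degree n. Then G is isomorphic to that alternating group. -/
theorem result {G : Type*} [Group G] [Finite G] (n : ℕ) (hn : n = 4 ∨ n = 5 ∨ n = 6)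
    (h : ((fun m : ℕ => Nat.card {g : G // orderOf g = m}) '' Set.range (orderOf : G → ℕ)) = ((fun m : ℕ => Nat.card {g : ↥(alternatingGroup (Fin n)) // orderOf g = m}) '' Set.range (orderOf : ↥(alternatingGroup (Fin n)) → ℕ))) :
    Nonempty (G ≃* ↥(alternatingGroup (Fin n))) := by
  rcases hn with rfl | rfl | rfl
  · exact H15.Nse.case4 (H15.Nse.hasSet_of _ H15.Nse.set4 h)
  · obtain ⟨hG, hs⟩ := H15.Nse.case5 (H15.Nse.hasSet_of _ H15.Nse.set5 h)
    exact H60.Ord60.iso_alt5 hG
  · obtain ⟨hG, hs⟩ := H15.Nse.case6 (H15.Nse.hasSet_of _ H15.Nse.set6 h)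
    exact H59.Ord360.main hG

end Cfsg.Agent.S3431
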