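import Cfsg.Statements.S3733

set_option autoImplicit false
open Cfsg
open scoped IsMulCommutative

namespace Cfsg.Agent.S3733

/-- The product of all conjugates of `v ∈ V` under `B` is centralized by `B`. -/
theorem prod_mem_centralizer {G : Type*} [Group G] [Finite G] (V : Subgroup G)
    [IsMulCommutative V] (B : Subgroup G) [Fintype B] (hB : ∀ b ∈ B, ∀ w : G, w ∈ V → b * w * b⁻¹ ∈ V)
    (f : B → V) (v : G) (hv : ∀ b : B, (f b : G) = b * v * (b : G)⁻¹) :
    ((∏ b : B, f b : V) : G) ∈ Subgroup.centralizer (B : Set G) := by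
  rw [Subgroup.mem_centralizer_iff]
  intro c hc
  have hcV : ∀ w : G, w ∈ V → c * w * c⁻¹ ∈ V := hB c hc
  -- conjugation by c as a monoid hom V → V
  let φ : V →* V :=
    { toFun := fun w => ⟨c * w * c⁻¹, hcV w w.2⟩
      map_one' := by ext; simp
      map_mul' := by intro x y; ext; simp [mul_assoc] }
  have h1 : φ (∏ b : B, f b) = ∏ b : B, f b := by
    rw [map_prod]
    apply Fintype.prod_bijective (fun b : B => (⟨c, hc⟩ : B) * b)
    · exact Group.mulLeft_bijective _
    · intro b
      apply Subtype.ext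
      simp only [φ, MonoidHom.coe_mk, OneHom.coe_mk, hv]
      simp [mul_assoc]
  have h2 := congrArg (Subtype.val) h1
  simp only [φ, MonoidHom.coe_mk, OneHom.coe_mk] at h2
  exact mul_inv_eq_iff_eq_mul.mp h2

/-- Let A and V be subgroups of a finite group with V abelian and nontrivial and A normalizing V. Suppose a nonempty finite family of proper subgroups of A partitions A: every non-identity element of A lies in exactly one member. If the number of members minus one is coprime to the order of V, then some member B of the family has a non-identity fixed point on V, that is V ∩ C(B) ≠ 1. -/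
theorem result {G : Type*} [Group G] [Finite G] (A V : Subgroup G) (hVab : IsMulCommutative V) (hV : V ≠ ⊥) (hAV : A ≤ Subgroup.normalizer (V : Set G)) (𝒜 : Finset (Subgroup G)) (hne : 𝒜.Nonempty) (hprop : ∀ B ∈ 𝒜, B < A) (hpart : ∀ a ∈ A, a ≠ 1 → ∃! B, B ∈ 𝒜 ∧ a ∈ B) (hk : (𝒜.card - 1).Coprime (Nat.card V)) : ∃ B ∈ 𝒜, V ⊓ Subgroup.centralizer (B : Set G) ≠ ⊥ := by
  classical
  by_contra hcon
  push Not at hcon
  apply hV
  rw [Subgroup.eq_bot_iff_forall]
  intro v hv
  have : Fintype G := Fintype.ofFinite G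
  have hconj : ∀ a ∈ A, ∀ w : G, w ∈ V → a * w * a⁻¹ ∈ V := by
    intro a ha w hw
    exact ((Subgroup.mem_normalizer_iff.mp (hAV ha)) w).mp hw
  -- function on all of G
  let F : G → V := fun a => if h : a ∈ A then ⟨a * v * a⁻¹, hconj a h v hv⟩ else 1
  have hF : ∀ a ∈ A, (F a : G) = a * v * a⁻¹ := by
    intro a ha
    simp [F, ha]
  have hsub : ∀ B : Subgroup G, B ≤ A → V ⊓ Subgroup.centralizer (B : Set G) = ⊥ → ∏ b : B, F b = 1 := by
    intro B hB hbot
    have h1 := prod_mem_centralizer V B (fun b hb => hconj b (hB hb)) (fun b => F b) v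
      (fun b => hF b (hB b.2))
    have h2 : ((∏ b : B, F b : V) : G) ∈ V ⊓ Subgroup.centralizer (B : Set G) := ⟨(∏ b : B, F b).2, h1⟩
    rw [hbot, Subgroup.mem_bot] at h2
    exact_mod_cast h2
  -- convert product over subtype to product over filter
  have hprod : ∀ B : Subgroup G, B ≤ A → V ⊓ Subgroup.centralizer (B : Set G) = ⊥ →
      ∏ b ∈ (Finset.univ.filter (fun g : G => g ∈ B ∧ g ≠ 1)), F b = (F 1)⁻¹ := by
    intro B hB hbot
    have h1 := hsub B hB hbot
    have h2 : ∏ b : B, F b = ∏ b ∈ Finset.univ.filter (fun g : G => g ∈ B), F b := by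
      symm
      apply Finset.prod_subtype
      intro x; simp
    rw [h2] at h1
    have h3 : Finset.univ.filter (fun g : G => g ∈ B) = insert 1 (Finset.univ.filter (fun g : G => g ∈ B ∧ g ≠ 1)) := by
      ext g
      simp only [Finset.mem_filter, Finset.mem_univ, true_and, Finset.mem_insert]
      constructor
      · intro hg
        by_cases hg1 : g = 1
        · left; exact hg1
        · right; exact ⟨hg, hg1⟩
      · rintro (rfl | h)
        · exact B.one_mem
        · exact h.1
    rw [h3, Finset.prod_insert (by simp)] at h1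
    exact eq_inv_of_mul_eq_one_right h1
  obtain ⟨B₀, hB₀⟩ := hne
  have hAbot : V ⊓ Subgroup.centralizer (A : Set G) = ⊥ := by
    rw [eq_bot_iff, ← hcon B₀ hB₀]
    exact inf_le_inf_left _ (Subgroup.centralizer_le (fun x hx => (hprop B₀ hB₀).le hx))
  have hA := hprod A le_rfl hAbot
  have hunion : Finset.univ.filter (fun g : G => g ∈ A ∧ g ≠ 1) =
      𝒜.biUnion (fun B => Finset.univ.filter (fun g : G => g ∈ B ∧ g ≠ 1)) := by
    ext g
    simp only [Finset.mem_filter, Finset.mem_univ, true_and, Finset.mem_biUnion]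
    constructor
    · rintro ⟨hg, hg1⟩
      obtain ⟨B, ⟨hB, hgB⟩, -⟩ := hpart g hg hg1
      exact ⟨B, hB, hgB, hg1⟩
    · rintro ⟨B, hB, hgB, hg1⟩
      exact ⟨(hprop B hB).le hgB, hg1⟩
  rw [hunion, Finset.prod_biUnion] at hA
  · have h4 : ∏ B ∈ 𝒜, ∏ b ∈ (Finset.univ.filter (fun g : G => g ∈ B ∧ g ≠ 1)), F b = ∏ B ∈ 𝒜, (F 1)⁻¹ := by
      apply Finset.prod_congr rfl
      intro B hB
      exact hprod B (hprop B hB).le (hcon B hB)
    rw [h4, Finset.prod_const] at hA
    have hF1 : F 1 = ⟨v, hv⟩ := by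
      apply Subtype.ext
      rw [hF 1 A.one_mem]
      simp
    have hcard : 1 ≤ 𝒜.card := Finset.card_pos.mpr ⟨B₀, hB₀⟩
    have h5 : (F 1) ^ (𝒜.card - 1) = 1 := by
      have : ((F 1)⁻¹) ^ (𝒜.card - 1) = 1 := by
        have h6 : ((F 1)⁻¹) ^ (𝒜.card - 1) * (F 1)⁻¹ = (F 1)⁻¹ := by
          rw [← pow_succ, Nat.sub_add_cancel hcard]
          exact hA
        exact mul_eq_right.mp h6
      rwa [inv_pow, inv_eq_one] at this
    have h7 : (F 1) ^ (Nat.card V) = 1 := pow_card_eq_one'
    have h8 : orderOf (F 1) ∣ Nat.gcd (𝒜.card - 1) (Nat.card V) :=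
      Nat.dvd_gcd (orderOf_dvd_of_pow_eq_one h5) (orderOf_dvd_of_pow_eq_one h7)
    rw [Nat.Coprime] at hk
    rw [hk, Nat.dvd_one, orderOf_eq_one_iff, hF1] at h8
    exact congrArg Subtype.val h8
  · intro B hB C hC hBC
    rw [Function.onFun, Finset.disjoint_left]
    intro g hg hg'
    simp only [Finset.mem_filter, Finset.mem_univ, true_and] at hg hg'
    obtain ⟨D, -, hD⟩ := hpart g ((hprop B hB).le hg.1) hg.2
    exact hBC ((hD B ⟨hB, hg.1⟩).trans (hD C ⟨hC, hg'.1⟩).symm)

end Cfsg.Agent.S3733
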