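import Cfsg.Statements.S3734
import Cfsg.Agent.Lib.H65.CoCyclic
import Cfsg.Agent.Lib.H65.Semi

set_option autoImplicit false
open Cfsg

namespace Cfsg.Agent.S3734

open scoped commutatorElement

/-- Let A and G be subgroups of a finite group with A abelian, A normalizing G and the orders of A and G coprime. Then G is generated by the fixed-point subgroups C_G(B) of those subgroups B of A for which A/B is cyclic (that is, A = ⟨B, a⟩ for some a), and [G, A] is generated by the commutator subgroups [C_G(B), A] over the same subgroups B. -/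
theorem result {X : Type*} [Group X] [Finite X] (A G : Subgroup X) (hAab : IsMulCommutative A) (hAG : A ≤ Subgroup.normalizer (G : Set X)) (hcop : (Nat.card A).Coprime (Nat.card G)) : (⨆ B ∈ {B : Subgroup X | B ≤ A ∧ ∃ a ∈ A, B ⊔ Subgroup.zpowers a = A}, G ⊓ Subgroup.centralizer (B : Set X)) = G ∧ (⨆ B ∈ {B : Subgroup X | B ≤ A ∧ ∃ a ∈ A, B ⊔ Subgroup.zpowers a = A}, ⁅G ⊓ Subgroup.centralizer (B : Set X), A⁆) = ⁅G, A⁆ := by
  set S : Set (Subgroup X) := {B : Subgroup X | B ≤ A ∧ ∃ a ∈ A, B ⊔ Subgroup.zpowers a = A} with hS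
  have hcomm : ∀ x ∈ A, ∀ y ∈ A, x * y = y * x := fun x hx y hy =>
    congrArg Subtype.val (mul_comm' (⟨x, hx⟩ : A) ⟨y, hy⟩)
  have hAB : ∀ B ∈ S, A ≤ Subgroup.normalizer (B : Set X) := by
    intro B hB
    rw [Subgroup.le_normalizer_iff]
    intro a ha b hb
    rw [hcomm a ha b (hB.1 hb), mul_inv_cancel_right]
    exact hb
  have hAC : ∀ B ∈ S, A ≤ Subgroup.normalizer ((G ⊓ Subgroup.centralizer (B : Set X) : Subgroup X) : Set X) := by
    intro B hB
    exact H1.Coprime2.le_normalizer_inf hAG (H1.Coprime2.le_normalizer_centralizer (hAB B hB))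
  have hAsolv : Group.IsSolvable A := Group.isSolvable_of_comm (fun a b => hAab.is_comm.comm a b)
  constructor
  · apply le_antisymm
    · exact iSup₂_le (fun B _ => inf_le_left)
    · apply H65.CoCyclic.gen_cocyclic A G hAab hAG hcop
      intro B hBA hB
      exact le_iSup₂_of_le (f := fun (B : Subgroup X) (_ : B ∈ S) => G ⊓ Subgroup.centralizer (B : Set X)) B ⟨hBA, hB⟩ le_rfl
  · set H : Subgroup X := ⨆ B ∈ S, ⁅G ⊓ Subgroup.centralizer (B : Set X), A⁆ with hH
    have hHle : ∀ B ∈ S, ⁅G ⊓ Subgroup.centralizer (B : Set X), A⁆ ≤ H := fun B hB =>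
      le_iSup₂_of_le (f := fun (B : Subgroup X) (_ : B ∈ S) => ⁅G ⊓ Subgroup.centralizer (B : Set X), A⁆) B hB le_rfl
    apply le_antisymm
    · exact iSup₂_le (fun B _ => Subgroup.commutator_mono inf_le_left le_rfl)
    · -- normalizers of H
      have hnormH : ∀ T : Subgroup X, (∀ B ∈ S, T ≤ Subgroup.normalizer ((⁅G ⊓ Subgroup.centralizer (B : Set X), A⁆ : Subgroup X) : Set X)) →
          T ≤ Subgroup.normalizer (H : Set X) := by
        intro T hT
        have h1 : H = sSup {U : Subgroup X | ∃ B ∈ S, ⁅G ⊓ Subgroup.centralizer (B : Set X), A⁆ = U} := by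
          rw [hH]
          apply le_antisymm
          · exact iSup₂_le (fun B hB => le_sSup ⟨B, hB, rfl⟩)
          · apply sSup_le
            rintro _ ⟨B, hB, rfl⟩
            exact hHle B hB
        rw [h1]
        apply H65.Semi.le_normalizer_sSup
        rintro _ ⟨B, hB, rfl⟩
        exact hT B hB
      have hAH : A ≤ Subgroup.normalizer (H : Set X) :=
        hnormH A (fun B hB => H1.Coprime2.le_normalizer_commutator (hAC B hB) Subgroup.le_normalizer)
      let C : Subgroup X := G ⊓ Subgroup.centralizer (A : Set X)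
      have hCA : C ≤ Subgroup.normalizer (A : Set X) := inf_le_right.trans (Subgroup.centralizer_le_normalizer _)
      have hCle : ∀ B ∈ S, C ≤ G ⊓ Subgroup.centralizer (B : Set X) := fun B hB =>
        inf_le_inf_left _ (Subgroup.centralizer_le hB.1)
      have hCH : C ≤ Subgroup.normalizer (H : Set X) :=
        hnormH C (fun B hB => H1.Coprime2.le_normalizer_commutator ((hCle B hB).trans Subgroup.le_normalizer) hCA)
      have hG : G ≤ C ⊔ H := by
        apply H65.CoCyclic.gen_cocyclic A G hAab hAG hcop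
        intro B hBA hB
        have h1 := H1.Coprime2.commutator_sup_centralizer A (G ⊓ Subgroup.centralizer (B : Set X)) (hAC B ⟨hBA, hB⟩)
          (hcop.of_dvd_right (Subgroup.card_dvd_of_le inf_le_left)) (Or.inl hAsolv)
        rw [← h1]
        apply sup_le
        · exact (hHle B ⟨hBA, hB⟩).trans le_sup_right
        · exact le_trans (inf_le_inf_right _ inf_le_left) le_sup_left
      rw [Subgroup.commutator_le]
      intro g hg a ha
      obtain ⟨c, hc, h, hh, rfl⟩ := (H65.Semi.mem_sup_iff hCH).mp (hG hg)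
      have h1 : ⁅c, a⁆ = 1 := by
        rw [commutatorElement_eq_one_iff_mul_comm]
        exact ((Subgroup.mem_centralizer_iff.mp hc.2) a ha).symm
      have h2 : ⁅c * h, a⁆ = c * ⁅h, a⁆ * c⁻¹ * ⁅c, a⁆ := H1.Coprime2.commutatorElement_mul_left c h a
      rw [h2, h1, mul_one]
      have h3 : ⁅h, a⁆ ∈ H := by
        have h4 : ⁅h, a⁆ = h * (a * h⁻¹ * a⁻¹) := by simp [commutatorElement_def, mul_assoc]
        rw [h4]
        exact H.mul_mem hh ((Subgroup.mem_normalizer_iff.mp (hAH ha) _).mp (H.inv_mem hh))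
      exact (Subgroup.mem_normalizer_iff.mp (hCH hc) _).mp h3

end Cfsg.Agent.S3734
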