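import Cfsg.Statements.S3739
import Cfsg.Agent.Lib.H65.ThreeAct
import Cfsg.Agent.Lib.H65.PBasic2
import Cfsg.Agent.Lib.H1.Cores
import Cfsg.Agent.Lib.H2.GenCent
import Cfsg.Agent.Lib.H1.Coprime2

set_option autoImplicit false
open Cfsg

namespace Cfsg.Agent.S3739

open Subgroup
open scoped Pointwise

/-- The centralizer in `Q` of an element acting fixed point freely on `W`. -/
theorem centralizer_bot {G : Type*} [Group G] [Finite G] (Q W : Subgroup G) (hQ : IsPGroup 2 Q)
    (hQW : Q ≤ centralizer (W : Set G))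
    (hkey : ∀ u ∈ centralizer (W : Set G), u ^ 2 = 1 → u ∈ W) {a : G} (ha : W ⊓ centralizer {a} = ⊥) :
    Q ⊓ centralizer {a} = ⊥ := by
  have : Fact (Nat.Prime 2) := ⟨Nat.prime_two⟩
  by_contra hne
  obtain ⟨u, hu, huo⟩ := H65.PBasic2.exists_orderOf_eq (hQ.to_le inf_le_left) hne
  have h1 : u ∈ W := hkey u (hQW (mem_inf.mp hu).1) (by rw [← huo]; exact pow_orderOf_eq_one u)
  have h2 : u ∈ W ⊓ centralizer {a} := mem_inf.mpr ⟨h1, (mem_inf.mp hu).2⟩
  rw [ha, mem_bot] at h2
  rw [h2, orderOf_one] at huo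
  omega

/-- Let G be a finite group with C_G(O₂(G)) ≤ O₂(G) containing an element of order 6, and let d be a non-identity 3-element of G normalizing a nontrivial elementary abelian 2-subgroup W with C_W(d) = 1. Then G has an elementary abelian subgroup of order 8. -/
theorem result {G : Type*} [Group G] [Finite G] (hchar : Subgroup.centralizer (Cfsg.pCore 2 G : Set G) ≤ Cfsg.pCore 2 G) (hsix : ∃ g : G, orderOf g = 6) (d : G) (hd1 : d ≠ 1) (hd : IsPGroup 3 ↥(Subgroup.zpowers d)) (W : Subgroup G) (hW : Cfsg.IsElementaryAbelian 2 W) (hW1 : W ≠ ⊥) (hdW : d ∈ Subgroup.normalizer (W : Set G)) (hfpf : W ⊓ Subgroup.centralizer {d} = ⊥) : ∃ E : Subgroup G, Cfsg.IsElementaryAbelian 2 E ∧ Nat.card E = 8 := by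
  classical
  have h2p : Fact (Nat.Prime 2) := ⟨Nat.prime_two⟩
  have h3p : Fact (Nat.Prime 3) := ⟨Nat.prime_three⟩
  by_contra hno
  push Not at hno
  have hpg : ∀ E : Subgroup G, (∀ x ∈ E, x ^ 2 = 1) → IsPGroup 2 E := by
    intro E hE x
    exact ⟨1, by apply Subtype.ext; simpa using hE x x.2⟩
  have hR : ∀ E : Subgroup G, (∀ x ∈ E, ∀ y ∈ E, x * y = y * x) → (∀ x ∈ E, x ^ 2 = 1) → Nat.card E ≤ 4 := by
    intro E hE1 hE2
    by_contra hlt
    push Not at hlt
    have hEp := hpg E hE2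
    obtain ⟨n, hn⟩ := hEp.exists_card_eq
    have hn3 : 3 ≤ n := by
      by_contra hn3
      have : n ≤ 2 := by omega
      have h4 : (2:ℕ) ^ n ≤ 2 ^ 2 := Nat.pow_le_pow_right (by norm_num) this
      omega
    obtain ⟨F, hF, hFc⟩ := H65.PBasic2.exists_card_eq_of_ge (p := 2) (k := 3) hEp (by
      rw [hn]; exact Nat.pow_le_pow_right (by norm_num) hn3)
    exact hno F ⟨⟨⟨fun x y => Subtype.ext (hE1 x (hF x.2) y (hF y.2))⟩⟩, fun x hx => hE2 x (hF hx)⟩ (by omega)
  have hWc : ∀ x ∈ W, ∀ y ∈ W, x * y = y * x := fun x hx y hy =>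
    congrArg Subtype.val (hW.1.is_comm.comm (⟨x, hx⟩ : W) ⟨y, hy⟩)
  have hW2 := hW.2
  have hWp := hpg W hW2
  -- the counting principle
  have hcount : ∀ (a : G), IsPGroup 3 (zpowers a) → ∀ U : Subgroup G, a ∈ normalizer (U : Set G) →
      Nat.card U ≡ Nat.card (U ⊓ centralizer {a} : Subgroup G) [MOD 3] := by
    intro a ha U haU
    have h := H65.PBasic2.card_modEq_card_inf_centralizer (p := 3) (zpowers a) U ha (zpowers_le.mpr haU)
    rwa [H65.PBasic2.centralizer_zpowers] at h
  have hcardW : ∀ (E : Subgroup G), E ≠ ⊥ → IsPGroup 2 E → Nat.card E ≤ 4 → Nat.card E ≡ 1 [MOD 3] →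
      Nat.card E = 4 := by
    intro E hE hEp hle hmod
    obtain ⟨n, hn⟩ := hEp.exists_card_eq
    have hn0 : n ≠ 0 := by
      rintro rfl
      exact hE (Subgroup.card_eq_one.mp (by rw [hn]; norm_num))
    have hn2 : n ≤ 2 := by
      by_contra h
      have : (2:ℕ) ^ 3 ≤ 2 ^ n := Nat.pow_le_pow_right (by norm_num) (by omega)
      omega
    have : n = 1 ∨ n = 2 := by omega
    rcases this with rfl | rfl
    · rw [hn] at hmod; exact absurd hmod (by decide)
    · rw [hn]; norm_num
  have hW4 : Nat.card W = 4 := by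
    apply hcardW W hW1 hWp (hR W hWc hW2)
    have := hcount d hd W hdW
    rwa [hfpf, Subgroup.card_bot] at this
  let Q : Subgroup G := Cfsg.pCore 2 G
  have hQn : Q.Normal := by show (Cfsg.pCore 2 G).Normal; infer_instance
  have hQp : IsPGroup 2 Q := H1.Cores.isPGroup_pCore 2
  -- W is Omega_1 of the centre
  have hTp : IsPGroup 2 (Q ⊔ W : Subgroup G) := hQp.to_sup_of_normal_left hWp
  have hdQ : d ∈ normalizer (Q : Set G) := by rw [Subgroup.normalizer_eq_top]; exact mem_top d
  have hdT : zpowers d ≤ normalizer ((Q ⊔ W : Subgroup G) : Set G) :=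
    H65.Semi.le_normalizer_sup (zpowers_le.mpr hdQ) (zpowers_le.mpr hdW)
  have hTne : (Q ⊔ W : Subgroup G) ≠ ⊥ := fun h => hW1 (le_bot_iff.mp (h ▸ le_sup_right))
  have homgen : ∀ T : Subgroup G, W ≤ T → IsPGroup 2 T → T ≠ ⊥ → ∀ B : Subgroup G,
      B ≤ normalizer (T : Set G) → d ∈ B → W ≤ centralizer (T : Set G) ∧ B ≤ normalizer (W : Set G) := by
    intro T hWT hTp hTne B hBT hdB
    have hZne : T ⊓ centralizer (T : Set G) ≠ ⊥ :=
      H65.PBasic.inf_centralizer_ne_bot T T hTp hTp le_normalizer hTne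
    have hZc : ∀ x ∈ T ⊓ centralizer (T : Set G), ∀ y ∈ T ⊓ centralizer (T : Set G), x * y = y * x := by
      intro x hx y hy
      exact (mem_centralizer_iff.mp (mem_inf.mp hy).2) x (mem_inf.mp hx).1
    have hE := H65.PBasic2.om_ne_bot (hA := hZc) (hTp.to_le inf_le_left) hZne
    have hBE : B ≤ normalizer ((H65.PBasic2.om 2 _ hZc : Subgroup G) : Set G) := by
      apply H65.PBasic2.le_normalizer_om
      exact H65.Semi.le_normalizer_inf hBT (H1.Coprime2.le_normalizer_centralizer hBT)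
    have hEW : H65.PBasic2.om 2 _ hZc ≤ W := by
      intro x hx
      have hxc : x ∈ centralizer (W : Set G) := centralizer_le hWT (mem_inf.mp hx.1).2
      have h1 := H65.PBasic2.sup_zpowers_elementary hWc hW2 hxc hx.2
      have h2 := hR _ h1.1 h1.2
      have h3 : W = W ⊔ zpowers x := Subgroup.eq_of_le_of_card_ge le_sup_left (by rw [hW4]; exact h2)
      rw [h3]
      exact mem_sup_right (mem_zpowers x)
    have hE4 : Nat.card (H65.PBasic2.om 2 _ hZc : Subgroup G) = 4 := by
      apply hcardW _ hE (hpg _ (fun x hx => hx.2)) (hR _ (fun x hx y hy => hZc x hx.1 y hy.1) (fun x hx => hx.2))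
      have := hcount d hd _ (hBE hdB)
      have h1 : (H65.PBasic2.om 2 _ hZc : Subgroup G) ⊓ centralizer {d} = ⊥ := by
        rw [eq_bot_iff, ← hfpf]
        exact inf_le_inf_right _ hEW
      rwa [h1, Subgroup.card_bot] at this
    have hEeq : H65.PBasic2.om 2 _ hZc = W := Subgroup.eq_of_le_of_card_ge hEW (by rw [hW4, hE4])
    refine ⟨?_, by rw [← hEeq]; exact hBE⟩
    intro x hx
    rw [← hEeq] at hx
    exact (mem_inf.mp hx.1).2
  have hWQ : W ≤ Q := by
    have h1 := (homgen (Q ⊔ W) le_sup_right hTp hTne (zpowers d) hdT (mem_zpowers d)).1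
    exact (h1.trans (centralizer_le (show Q ≤ Q ⊔ W from le_sup_left))).trans hchar
  have hQne : Q ≠ ⊥ := fun h => hW1 (le_bot_iff.mp (h ▸ hWQ))
  obtain ⟨hWcQ, hWn⟩ := homgen Q hWQ hQp hQne ⊤ (by rw [Subgroup.normalizer_eq_top]) (mem_top d)
  have hQcW : Q ≤ centralizer (W : Set G) := by rwa [le_centralizer_iff] at hWcQ
  have hkey : ∀ u ∈ centralizer (W : Set G), u ^ 2 = 1 → u ∈ W := by
    intro x hxc hx2
    have h1 := H65.PBasic2.sup_zpowers_elementary hWc hW2 hxc hx2
    have h2 := hR _ h1.1 h1.2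
    have h3 : W = W ⊔ zpowers x := Subgroup.eq_of_le_of_card_ge le_sup_left (by rw [hW4]; exact h2)
    rw [h3]
    exact mem_sup_right (mem_zpowers x)
  have hWnormal : W.Normal := Subgroup.normalizer_eq_top_iff.mp (top_le_iff.mp hWn)
  -- dichotomy for 3-elements
  have hdich : ∀ a : G, IsPGroup 3 (zpowers a) → a ∉ centralizer (W : Set G) → W ⊓ centralizer {a} = ⊥ := by
    intro a ha hac
    have h1 := hcount a ha W (hWn (mem_top a))
    by_contra hne
    have h2 : Nat.card (W ⊓ centralizer {a} : Subgroup G) = 4 := by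
      apply hcardW _ hne (hWp.to_le inf_le_left)
      · rw [← hW4]; exact Subgroup.card_le_of_le inf_le_left
      · rw [hW4] at h1; exact h1.symm.trans (by decide)
    have h3 : W ⊓ centralizer {a} = W := Subgroup.eq_of_le_of_card_ge inf_le_left (by rw [hW4, h2])
    apply hac
    rw [mem_centralizer_iff]
    intro w hw
    rw [← h3] at hw
    exact (mem_centralizer_singleton_iff.mp (mem_inf.mp hw).2)
  -- an element of order 3 centralizing W
  obtain ⟨g, hg⟩ := hsix
  have hx3 : orderOf (g ^ 2) = 3 := by rw [orderOf_pow, hg]; norm_num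
  have ht2 : orderOf (g ^ 3) = 2 := by rw [orderOf_pow, hg]; norm_num
  have hpg3 : ∀ a : G, a ^ 3 = 1 → IsPGroup 3 (zpowers a) := by
    intro a ha
    rw [IsPGroup.iff_card, Nat.card_zpowers]
    rcases (Nat.dvd_prime Nat.prime_three).mp (orderOf_dvd_of_pow_eq_one ha) with h | h
    · exact ⟨0, by rw [h]; norm_num⟩
    · exact ⟨1, by rw [h]; norm_num⟩
  have hxC : g ^ 2 ∈ centralizer (W : Set G) := by
    by_contra hxC
    have h1 := hdich (g ^ 2) (hpg3 _ (by rw [← hx3]; exact pow_orderOf_eq_one _)) hxC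
    -- C_W(t)
    have hU : W ⊓ centralizer {g ^ 3} ≠ ⊥ := by
      rw [← H65.PBasic2.centralizer_zpowers]
      refine H65.PBasic.inf_centralizer_ne_bot (p := 2) (zpowers (g ^ 3)) W ?_ hWp
        (zpowers_le.mpr (hWn (mem_top _))) hW1
      rw [IsPGroup.iff_card, Nat.card_zpowers]
      exact ⟨1, by rw [ht2]; norm_num⟩
    have hxU : g ^ 2 ∈ normalizer ((W ⊓ centralizer {g ^ 3} : Subgroup G) : Set G) := by
      rw [mem_normalizer_iff]
      have hc : Commute (g ^ 2) (g ^ 3) := (Commute.refl g).pow_pow 2 3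
      have hfor : ∀ z : G, Commute z (g ^ 3) → ∀ w, w ∈ W ⊓ centralizer {g ^ 3} →
          z * w * z⁻¹ ∈ W ⊓ centralizer {g ^ 3} := by
        intro z hz w hw
        refine mem_inf.mpr ⟨hWnormal.conj_mem w (mem_inf.mp hw).1 z, ?_⟩
        rw [mem_centralizer_singleton_iff]
        have h5 : Commute w (g ^ 3) := mem_centralizer_singleton_iff.mp (mem_inf.mp hw).2
        exact (hz.mul_left h5).mul_left hz.inv_left
      intro w
      refine ⟨hfor _ hc w, fun h => ?_⟩
      have h6 := hfor _ hc.inv_left _ h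
      rwa [show (g ^ 2)⁻¹ * (g ^ 2 * w * (g ^ 2)⁻¹) * (g ^ 2)⁻¹⁻¹ = w by group] at h6
    have h2 := hcount (g ^ 2) (hpg3 _ (by rw [← hx3]; exact pow_orderOf_eq_one _)) _ hxU
    have h3 : (W ⊓ centralizer {g ^ 3} : Subgroup G) ⊓ centralizer {g ^ 2} = ⊥ := by
      rw [eq_bot_iff, ← h1]
      exact inf_le_inf_right _ inf_le_left
    rw [h3, Subgroup.card_bot] at h2
    have h4 : Nat.card (W ⊓ centralizer {g ^ 3} : Subgroup G) = 4 :=
      hcardW _ hU (hWp.to_le inf_le_left) (by rw [← hW4]; exact Subgroup.card_le_of_le inf_le_left) h2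
    have h5 : W ⊓ centralizer {g ^ 3} = W := Subgroup.eq_of_le_of_card_ge inf_le_left (by rw [hW4, h4])
    have h6 : g ^ 3 ∈ centralizer (W : Set G) := by
      rw [mem_centralizer_iff]
      intro w hw
      rw [← h5] at hw
      exact (mem_centralizer_singleton_iff.mp (mem_inf.mp hw).2)
    have h7 : g ^ 3 ∈ W := hkey _ h6 (by rw [← ht2]; exact pow_orderOf_eq_one _)
    have h8 : g ^ 3 ∈ W ⊓ centralizer {g ^ 2} :=
      mem_inf.mpr ⟨h7, by rw [mem_centralizer_singleton_iff]; exact ((Commute.refl g).pow_pow 3 2)⟩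
    rw [h1, mem_bot] at h8
    rw [h8, orderOf_one] at ht2
    omega
  -- the order of d
  have hdQ1 : Q ⊓ centralizer {d} = ⊥ := centralizer_bot Q W hQp hQcW hkey hfpf
  obtain ⟨n, hn⟩ := (IsPGroup.iff_card.mp hd)
  rw [Nat.card_zpowers] at hn
  have hn1 : 1 ≤ n := by
    rcases Nat.eq_zero_or_pos n with h | h
    · rw [h, pow_zero, orderOf_eq_one_iff] at hn
      exact absurd hn hd1
    · exact h
  have hd3 : orderOf d = 3 := by
    refine H65.ThreeAct.main hn1 hn Q hQp hdQ ?_ hdQ1 ?_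
    · have : (Nat.card (zpowers d)).Coprime (Nat.card Q) := by
        obtain ⟨m, hm⟩ := hQp.exists_card_eq
        rw [Nat.card_zpowers, hn, hm]
        exact Nat.Coprime.pow _ _ (by norm_num)
      rw [eq_bot_iff, ← (Subgroup.disjoint_of_coprime_natCard this).eq_bot]
      exact inf_le_inf_left _ hchar
    · intro V hVQ hV A hA hA2
      have hinj := V.subtype_injective
      have h1 := hR (A.map V.subtype) (by
        rintro _ ⟨x, hx, rfl⟩ _ ⟨y, hy, rfl⟩
        exact congrArg Subtype.val (hV.is_comm.comm x y)) (by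
        rintro _ ⟨x, hx, rfl⟩
        exact congrArg Subtype.val (hA2 x hx))
      have h2 : Nat.card (A.map V.subtype) = Nat.card A :=
        (Nat.card_congr (A.equivMapOfInjective V.subtype hinj).toEquiv).symm
      rw [h2] at h1
      norm_num
      exact h1
  -- Sylow 3-subgroup
  obtain ⟨S, hS⟩ := hd.exists_le_sylow
  have hdS : d ∈ (S : Subgroup G) := hS (mem_zpowers d)
  let C : Subgroup G := centralizer (W : Set G)
  have hCn : C.Normal := by show (centralizer (W : Set G)).Normal; infer_instance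
  have hSC : (S : Subgroup G) ⊓ C ≠ ⊥ := by
    obtain ⟨S', hS'⟩ := (hpg3 (g ^ 2) (by rw [← hx3]; exact pow_orderOf_eq_one _)).exists_le_sylow
    obtain ⟨h, hh⟩ := MulAction.exists_smul_eq G S' S
    intro hbot
    have h1 : h * g ^ 2 * h⁻¹ ∈ (S : Subgroup G) ⊓ C := by
      refine mem_inf.mpr ⟨?_, hCn.conj_mem _ hxC h⟩
      rw [← hh]
      show h * g ^ 2 * h⁻¹ ∈ MulAut.conj h • (S' : Subgroup G)
      exact Subgroup.smul_mem_pointwise_smul _ _ _ (hS' (mem_zpowers _))
    rw [hbot, mem_bot] at h1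
    have h2 : g ^ 2 = 1 := by
      have := congrArg (fun z => h⁻¹ * z * h) h1
      simpa [mul_assoc] using this
    rw [h2, orderOf_one] at hx3
    omega
  have hSSC : (S : Subgroup G) ≤ normalizer (((S : Subgroup G) ⊓ C : Subgroup G) : Set G) := by
    apply H65.Semi.le_normalizer_inf le_normalizer
    rw [Subgroup.normalizer_eq_top]
    exact le_top
  have hne := H65.PBasic.inf_centralizer_ne_bot (p := 3) (S : Subgroup G) ((S : Subgroup G) ⊓ C) S.isPGroup'
    (S.isPGroup'.to_le inf_le_left) hSSC hSC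
  obtain ⟨y, hy, hyo⟩ := H65.PBasic2.exists_orderOf_eq (p := 3)
    (S.isPGroup'.to_le (inf_le_left.trans inf_le_left)) hne
  have hyC : y ∈ centralizer (W : Set G) := (mem_inf.mp (mem_inf.mp hy).1).2
  have hyd : d * y = y * d := (mem_centralizer_iff.mp (mem_inf.mp hy).2) d hdS
  have hd3' : d ^ 3 = 1 := by rw [← hd3]; exact pow_orderOf_eq_one d
  have hy3' : y ^ 3 = 1 := by rw [← hyo]; exact pow_orderOf_eq_one y
  have hdC : ∀ i : ℤ, d ^ i ∈ centralizer (W : Set G) → d ^ i = 1 := by
    intro i hi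
    by_contra hne
    -- d is a power of d^i
    have h1 : zpowers (d ^ i) = zpowers d := by
      apply Subgroup.eq_of_le_of_card_ge (zpowers_le.mpr (zpow_mem (mem_zpowers d) i))
      rw [Nat.card_zpowers, Nat.card_zpowers, hd3]
      have : orderOf (d ^ i) ∣ 3 := orderOf_dvd_of_pow_eq_one (by
        rw [← zpow_natCast, ← zpow_mul, mul_comm, zpow_mul, zpow_natCast, hd3', one_zpow])
      rcases (Nat.dvd_prime Nat.prime_three).mp this with h | h
      · exact absurd (orderOf_eq_one_iff.mp h) hne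
      · rw [h]
    have h2 : d ∈ centralizer (W : Set G) := by
      have : zpowers (d ^ i) ≤ centralizer (W : Set G) := zpowers_le.mpr hi
      rw [h1] at this
      exact this (mem_zpowers d)
    apply hW1
    rw [eq_bot_iff, ← hfpf]
    apply le_inf le_rfl
    intro w hw
    rw [mem_centralizer_singleton_iff]
    exact (mem_centralizer_iff.mp h2) w hw
  have hdny : d ∉ zpowers y := by
    intro h
    have h2 : d ∈ centralizer (W : Set G) := (zpowers_le.mpr hyC) h
    have := hdC 1 (by rwa [zpow_one])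
    rw [zpow_one] at this
    exact hd1 this
  have hy1 : y ≠ 1 := by
    rintro rfl
    rw [orderOf_one] at hyo
    omega
  have hSQ : (Nat.card (S : Subgroup G)).Coprime (Nat.card Q) := by
    obtain ⟨m, hm⟩ := hQp.exists_card_eq
    obtain ⟨k, hk⟩ := S.isPGroup'.exists_card_eq
    rw [hm, hk]
    exact Nat.Coprime.pow _ _ (by norm_num)
  let A : Subgroup G := zpowers y ⊔ zpowers d
  have hyS : y ∈ (S : Subgroup G) := (mem_inf.mp (mem_inf.mp hy).1).1
  have hAS : A ≤ (S : Subgroup G) := sup_le (zpowers_le.mpr hyS) (zpowers_le.mpr hdS)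
  have hAQ : (Nat.card A).Coprime (Nat.card Q) :=
    Nat.Coprime.coprime_dvd_left (Subgroup.card_dvd_of_le hAS) hSQ
  have hgen := H2.GenCent.pgroup_case (Nat.card Q) G 2 Nat.prime_two A Q hQn hQp rfl hAQ 3 Nat.prime_three d y
    (mem_sup_right (mem_zpowers d)) (mem_sup_left (mem_zpowers y)) hyd hd3' hy3' hy1 hdny
  have hgenle : H2.GenCent.gen A Q ≤ Q ⊓ centralizer {y} := by
    refine iSup₂_le ?_
    rintro a ⟨haA, ha1⟩
    by_cases haC : a ∈ centralizer (W : Set G)
    · -- a is a nontrivial power of y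
      have hyn : zpowers y ≤ normalizer ((zpowers d : Subgroup G) : Set G) := by
        rw [zpowers_le, mem_normalizer_iff]
        have : ∀ z : G, Commute z d → ∀ w, w ∈ zpowers d → z * w * z⁻¹ = w := by
          intro z hz w hw
          obtain ⟨i, rfl⟩ := mem_zpowers_iff.mp hw
          rw [(hz.zpow_right i).eq, mul_inv_cancel_right]
        intro w
        constructor
        · intro hw
          rw [this y hyd.symm w hw]; exact hw
        · intro hw
          have h := this y⁻¹ (Commute.inv_left hyd.symm) _ hw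
          rw [show y⁻¹ * (y * w * y⁻¹) * y⁻¹⁻¹ = w by group] at h
          rwa [← h] at hw
      obtain ⟨b, hb, c, hc, rfl⟩ := (H65.Semi.mem_sup_iff hyn).mp haA
      obtain ⟨i, rfl⟩ := mem_zpowers_iff.mp hb
      obtain ⟨j, rfl⟩ := mem_zpowers_iff.mp hc
      have h1 : d ^ j ∈ centralizer (W : Set G) := by
        have := mul_mem (inv_mem (zpow_mem hyC i)) haC
        rwa [inv_mul_cancel_left] at this
      rw [hdC j h1, mul_one] at ha1 ⊢
      have h2 : zpowers (y ^ i) = zpowers y := by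
        apply Subgroup.eq_of_le_of_card_ge (zpowers_le.mpr (zpow_mem (mem_zpowers y) i))
        rw [Nat.card_zpowers, Nat.card_zpowers, hyo]
        have : orderOf (y ^ i) ∣ 3 := orderOf_dvd_of_pow_eq_one (by
          rw [← zpow_natCast, ← zpow_mul, mul_comm, zpow_mul, zpow_natCast, hy3', one_zpow])
        rcases (Nat.dvd_prime Nat.prime_three).mp this with h | h
        · exact absurd (orderOf_eq_one_iff.mp h) ha1
        · rw [h]
      rw [← H65.PBasic2.centralizer_zpowers, ← H65.PBasic2.centralizer_zpowers, h2]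
    · have ha3 : IsPGroup 3 (zpowers a) := S.isPGroup'.to_le (zpowers_le.mpr (hAS haA))
      rw [centralizer_bot Q W hQp hQcW hkey (hdich a ha3 haC)]
      exact bot_le
  have hyQ : y ∈ centralizer (Q : Set G) := by
    rw [mem_centralizer_iff]
    intro q hq
    exact mem_centralizer_singleton_iff.mp (mem_inf.mp (hgenle (hgen hq))).2
  have hyQ' : y ∈ (S : Subgroup G) ⊓ Q := mem_inf.mpr ⟨hyS, hchar hyQ⟩
  rw [(Subgroup.disjoint_of_coprime_natCard hSQ).eq_bot, mem_bot] at hyQ'
  exact hy1 hyQ'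

end Cfsg.Agent.S3739
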