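import Cfsg.Statements.S3741
import Cfsg.Agent.Lib.H65.PBasic
import Cfsg.Agent.Lib.H65.Pairing

set_option autoImplicit false
open Cfsg
open scoped commutatorElement

namespace Cfsg.Agent.S3741

/-- Let A and B be subgroups of a finite p-group with [A, B] ≤ A ∩ B and [A, B] of order at most p. Then |A : C_A(B)| = |B : C_B(A)|. -/
theorem result {G : Type*} [Group G] [Finite G] {p : ℕ} [Fact p.Prime] (hG : IsPGroup p G) (A B : Subgroup G) (hAB : ⁅A, B⁆ ≤ A ⊓ B) (hcard : Nat.card ↥⁅A, B⁆ ≤ p) : (A ⊓ Subgroup.centralizer (B : Set G)).relIndex A = (B ⊓ Subgroup.centralizer (A : Set G)).relIndex B := by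
  classical
  have hp : p.Prime := Fact.out
  set Z : Subgroup G := ⁅A, B⁆ with hZdef
  obtain ⟨n, hn⟩ := (hG.to_subgroup Z).exists_card_eq
  have hn1 : n = 0 ∨ n = 1 := by
    rw [hn] at hcard
    have : n ≤ 1 := by
      by_contra hlt
      push Not at hlt
      have h1 : p ^ 1 < p ^ n := Nat.pow_lt_pow_right hp.one_lt hlt
      rw [pow_one] at h1
      omega
    omega
  have hZp : Nat.card Z = 1 ∨ Nat.card Z = p := by
    rcases hn1 with rfl | rfl
    · left; simpa using hn
    · right; simpa using hn
  -- Z centralized by A and B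
  have hAn : A ≤ Subgroup.normalizer (Z : Set G) := Subgroup.normalizer_commutator_ge_left A B
  have hBn : B ≤ Subgroup.normalizer (Z : Set G) := Subgroup.normalizer_commutator_ge_right A B
  have hZA : Z ≤ Subgroup.centralizer (A : Set G) := by
    rcases hZp with h | h
    · rw [Subgroup.card_eq_one.mp h]; exact bot_le
    · exact H65.PBasic.le_centralizer_of_card_eq_prime A Z (hG.to_subgroup A) h hAn
  have hZB : Z ≤ Subgroup.centralizer (B : Set G) := by
    rcases hZp with h | h
    · rw [Subgroup.card_eq_one.mp h]; exact bot_le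
    · exact H65.PBasic.le_centralizer_of_card_eq_prime B Z (hG.to_subgroup B) h hBn
  have hZcomm : ∀ x ∈ Z, ∀ y ∈ Z, x * y = y * x := by
    intro x hx y hy
    have h1 : y ∈ A := (Subgroup.mem_inf.mp (hAB hy)).1
    exact (Subgroup.mem_centralizer_iff.mp (hZA hx) y h1).symm
  have hcyc : IsCyclic Z := by
    rcases hZp with h | h
    · have : Subsingleton Z := (Nat.card_eq_one_iff_unique.mp h).1
      infer_instance
    · exact isCyclic_of_prime_card h
  let _ : CommGroup Z :=
    { (inferInstance : Group Z) with mul_comm := fun x y => Subtype.ext (hZcomm x x.2 y y.2) }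
  obtain ⟨ι, hι⟩ := H65.Pairing.exists_embedding Z
  have hmem : ∀ a : A, ∀ b : B, ⁅(a : G), (b : G)⁆ ∈ Z := fun a b =>
    Subgroup.commutator_mem_commutator a.2 b.2
  have hright : ∀ a : A, ∀ b b' : B, ⁅(a : G), (b * b' : G)⁆ = ⁅(a : G), (b : G)⁆ * ⁅(a : G), (b' : G)⁆ := by
    intro a b b'
    have h1 := Subgroup.mem_centralizer_iff.mp (hZB (hmem a b')) b b.2
    have h2 : ⁅(a : G), (b * b' : G)⁆ = ⁅(a : G), (b : G)⁆ * (b * ⁅(a : G), (b' : G)⁆ * (b : G)⁻¹) := by
      simp only [commutatorElement_def]; group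
    rw [h2, h1, mul_inv_cancel_right]
  have hleft : ∀ a a' : A, ∀ b : B, ⁅(a * a' : G), (b : G)⁆ = ⁅(a : G), (b : G)⁆ * ⁅(a' : G), (b : G)⁆ := by
    intro a a' b
    have h1 := Subgroup.mem_centralizer_iff.mp (hZA (hmem a' b)) a a.2
    have h2 : ⁅(a * a' : G), (b : G)⁆ = (a * ⁅(a' : G), (b : G)⁆ * (a : G)⁻¹) * ⁅(a : G), (b : G)⁆ := by
      simp only [commutatorElement_def]; group
    rw [h2, h1, mul_inv_cancel_right]
    exact hZcomm _ (hmem a' b) _ (hmem a b)
  let f : A →* (B →* Z) :=
    { toFun := fun a =>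
        { toFun := fun b => ⟨⁅(a : G), (b : G)⁆, hmem a b⟩
          map_one' := by
            apply Subtype.ext
            simp [commutatorElement_def]
          map_mul' := by
            intro b b'
            apply Subtype.ext
            exact hright a b b' }
      map_one' := by
        ext b
        simp [commutatorElement_def]
      map_mul' := by
        intro a a'
        ext b
        exact hleft a a' b }
  have key := H65.Pairing.index_ker_eq ι hι f
  have h1 : f.ker = (A ⊓ Subgroup.centralizer (B : Set G)).subgroupOf A := by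
    ext a
    rw [MonoidHom.mem_ker, Subgroup.mem_subgroupOf, Subgroup.mem_inf, Subgroup.mem_centralizer_iff]
    constructor
    · intro h
      refine ⟨a.2, fun b hb => ?_⟩
      have h2 := congrArg Subtype.val (DFunLike.congr_fun h ⟨b, hb⟩)
      have h3 : ⁅(a : G), (b : G)⁆ = 1 := h2
      exact (commutatorElement_eq_one_iff_mul_comm.mp h3).symm
    · rintro ⟨-, h⟩
      ext b
      exact commutatorElement_eq_one_iff_mul_comm.mpr (h b b.2).symm
  have h2 : f.flip.ker = (B ⊓ Subgroup.centralizer (A : Set G)).subgroupOf B := by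
    ext b
    rw [MonoidHom.mem_ker, Subgroup.mem_subgroupOf, Subgroup.mem_inf, Subgroup.mem_centralizer_iff]
    constructor
    · intro h
      refine ⟨b.2, fun a ha => ?_⟩
      have h2 := congrArg Subtype.val (DFunLike.congr_fun h ⟨a, ha⟩)
      have h3 : ⁅(a : G), (b : G)⁆ = 1 := h2
      exact commutatorElement_eq_one_iff_mul_comm.mp h3
    · rintro ⟨-, h⟩
      ext a
      exact commutatorElement_eq_one_iff_mul_comm.mpr (h a a.2)
  rw [h1, h2] at key
  exact key

end Cfsg.Agent.S3741
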