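import Cfsg.Statements.S3744
import Cfsg.Agent.Lib.H65.PSolHall

set_option autoImplicit false
open Cfsg

namespace Cfsg.Agent.S3744

/-- A finite p-soluble group has a p-complement, all its p-complements are conjugate, and every subgroup of order prime to p lies in one of them. Here a p-complement is a subgroup of order prime to p whose index is a power of p. -/
theorem result {G : Type*} [Group G] [Finite G] {p : ℕ} [Fact p.Prime] (hG : Cfsg.IsPSolvable p G) : (∃ H : Subgroup G, (Nat.card H).Coprime p ∧ ∃ n : ℕ, H.index = p ^ n) ∧ (∀ H₁ H₂ : Subgroup G, (Nat.card H₁).Coprime p → (∃ n : ℕ, H₁.index = p ^ n) → (Nat.card H₂).Coprime p → (∃ n : ℕ, H₂.index = p ^ n) → ∃ g : G, H₂ = H₁.map (MulAut.conj g).toMonoidHom) ∧ (∀ U : Subgroup G, (Nat.card U).Coprime p → ∃ H : Subgroup G, (Nat.card H).Coprime p ∧ (∃ n : ℕ, H.index = p ^ n) ∧ ∃ g : G, U.map (MulAut.conj g).toMonoidHom ≤ H) := by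
  obtain ⟨h1, h2⟩ := H65.PSolHall.main hG
  refine ⟨?_, ?_, ?_⟩
  · obtain ⟨H, hH, -⟩ := h1 ⊥ (by rw [Subgroup.card_bot]; exact Nat.coprime_one_left p)
    exact ⟨H, hH⟩
  · intro H₁ H₂ a b c d
    obtain ⟨g, hg⟩ := h2 H₁ H₂ ⟨a, b⟩ ⟨c, d⟩
    exact ⟨g, hg.symm⟩
  · intro U hU
    obtain ⟨H, hH, hUH⟩ := h1 U hU
    refine ⟨H, hH.1, hH.2, 1, ?_⟩
    rintro _ ⟨x, hx, rfl⟩
    simpa using hUH hx

end Cfsg.Agent.S3744
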