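import Cfsg.Statements.S3746
import Cfsg.Agent.Lib.H26.Components

set_option autoImplicit false
open Cfsg

namespace Cfsg.Agent.S3746

open Subgroup
open scoped commutatorElement

/-- Let Z ≤ Z(G) be a central subgroup of a finite group G and E a subgroup of G containing Z whose image E/Z is a component of G/Z (subnormal and quasisimple). Then the derived subgroup [E, E] is a component of G. -/
theorem result {G : Type*} [Group G] [Finite G] (Z : Subgroup G) (hZ : Z ≤ Subgroup.center G) [Z.Normal] (E : Subgroup G) (hZE : Z ≤ E) (hE : Cfsg.IsComponent (E.map (QuotientGroup.mk' Z))) : Cfsg.IsComponent ⁅E, E⁆ := by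
  classical
  let f := QuotientGroup.mk' Z
  have hker : f.ker = Z := QuotientGroup.ker_mk' Z
  have hcomap : (E.map f).comap f = E := by
    rw [Subgroup.comap_map_eq, hker, sup_eq_left.mpr hZE]
  have hEsub : E.IsSubnormal := by
    have := hE.1.comap f
    rwa [hcomap] at this
  have hEE : (⁅E, E⁆).IsSubnormal := by
    apply H26.Subnormal.of_normal_subgroupOf hEsub (Subgroup.commutator_le_self _)
    have : (⁅E, E⁆).subgroupOf E = ⁅(⊤ : Subgroup E), ⊤⁆ := by
      apply Subgroup.map_injective E.subtype_injective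
      rw [Subgroup.map_commutator, ← MonoidHom.range_eq_map, Subgroup.range_subtype,
        Subgroup.subgroupOf_map_subtype, inf_eq_left.mpr (Subgroup.commutator_le_self _)]
    rw [this]
    infer_instance
  have hperf : ⁅E.map f, E.map f⁆ = E.map f := H26.Components.isPerfect hE
  have h1 : E = ⁅E, E⁆ ⊔ Z := by
    have h2 : (⁅E, E⁆).map f = E.map f := by rw [Subgroup.map_commutator, hperf]
    have h3 : ((⁅E, E⁆).map f).comap f = E := by rw [h2, hcomap]
    rw [Subgroup.comap_map_eq, hker] at h3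
    exact h3.symm
  have hZc : ∀ H : Subgroup G, ⁅H, Z⁆ = ⊥ := by
    intro H
    rw [Subgroup.commutator_comm, Subgroup.commutator_eq_bot_iff_le_centralizer]
    exact hZ.trans (Subgroup.center_le_centralizer _)
  have hmem : ∀ x ∈ E, ∃ a ∈ ⁅E, E⁆, ∃ z ∈ Z, a * z = x := by
    intro x hx
    rw [h1] at hx
    exact Subgroup.mem_sup_of_normal_right.mp hx
  have h4 : ⁅⁅E, E⁆, ⁅E, E⁆⁆ = ⁅E, E⁆ := by
    apply le_antisymm (Subgroup.commutator_le_self _)
    rw [Subgroup.commutator_le (H₃ := ⁅⁅E, E⁆, ⁅E, E⁆⁆)]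
    intro x hx y hy
    obtain ⟨a, ha, z, hz, rfl⟩ := hmem x hx
    obtain ⟨b, hb, w, hw, rfl⟩ := hmem y hy
    have hzc : ∀ g : G, z * g = g * z := fun g => (Subgroup.mem_center_iff.mp (hZ hz) g).symm
    have hwc : ∀ g : G, w * g = g * w := fun g => (Subgroup.mem_center_iff.mp (hZ hw) g).symm
    have : ⁅a * z, b * w⁆ = ⁅a, b⁆ := by
      rw [commutatorElement_def, commutatorElement_def, mul_inv_rev, mul_inv_rev]
      have e1 : a * z * (b * w) * (z⁻¹ * a⁻¹) * (w⁻¹ * b⁻¹) = a * (z * (b * w)) * z⁻¹ * a⁻¹ * w⁻¹ * b⁻¹ := by group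
      rw [e1, hzc (b * w)]
      have e2 : a * (b * w * z) * z⁻¹ * a⁻¹ * w⁻¹ * b⁻¹ = a * b * (w * a⁻¹) * w⁻¹ * b⁻¹ := by group
      rw [e2, hwc a⁻¹]
      group
    rw [this]
    exact Subgroup.commutator_mem_commutator ha hb
  refine ⟨hEE, ?_⟩
  let f' : ↥⁅E, E⁆ →* ↥(E.map f) :=
    { toFun := fun x => ⟨f x, Subgroup.mem_map_of_mem f (Subgroup.commutator_le_self _ x.2)⟩
      map_one' := by apply Subtype.ext; exact f.map_one
      map_mul' := fun x y => by apply Subtype.ext; exact f.map_mul x y }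
  apply H26.Quasisimple.of_quotient (X := ↥⁅E, E⁆) (Subgroup.isPerfect_iff.mpr h4) f' ?_ ?_ hE.2
  · rintro ⟨y, hy⟩
    obtain ⟨x, hx, rfl⟩ := hy
    obtain ⟨a, ha, z, hz, rfl⟩ := hmem x hx
    refine ⟨⟨a, ha⟩, ?_⟩
    apply Subtype.ext
    show f a = f (a * z)
    have : f z = 1 := (MonoidHom.mem_ker (f := f)).mp (by rw [hker]; exact hz)
    rw [f.map_mul, this, mul_one]
  · intro x hx
    rw [MonoidHom.mem_ker] at hx
    have h5 : f x = 1 := congrArg Subtype.val hx
    have h6 : (x : G) ∈ Z := by rw [← hker]; exact h5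
    rw [Subgroup.mem_center_iff]
    intro y
    apply Subtype.ext
    exact Subgroup.mem_center_iff.mp (hZ h6) y

end Cfsg.Agent.S3746
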