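import Cfsg.Statements.S3747
import Cfsg.Agent.Lib.H26.GenFitting

set_option autoImplicit false
open Cfsg

namespace Cfsg.Agent.S3747

open Subgroup

/-- The set of conjugates of a subgroup. -/
def conjs {G : Type*} [Group G] (K : Subgroup G) : Set (Subgroup G) :=
  {L : Subgroup G | ∃ g : G, L = K.map (MulAut.conj g).toMonoidHom}

theorem normalClosure_eq {G : Type*} [Group G] (K : Subgroup G) :
    Subgroup.normalClosure (K : Set G) = sSup (conjs K) := by
  apply le_antisymm
  · have hn : (sSup (conjs K)).Normal := by
      refine ⟨fun x hx g => ?_⟩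
      have hle : sSup (conjs K) ≤ (sSup (conjs K)).comap (MulAut.conj g).toMonoidHom := by
        refine sSup_le ?_
        rintro _ ⟨h, rfl⟩
        rw [← Subgroup.map_le_iff_le_comap]
        refine le_trans ?_ (le_sSup (⟨g * h, rfl⟩ : K.map (MulAut.conj (g * h)).toMonoidHom ∈ conjs K))
        rw [Subgroup.map_map]
        apply le_of_eq
        congr 1
        ext x
        simp [mul_assoc]
      exact hle hx
    apply Subgroup.normalClosure_le_normal
    have h1 : K ≤ sSup (conjs K) := by
      apply le_sSup
      refine ⟨1, ?_⟩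
      simp only [map_one]
      exact (Subgroup.map_id K).symm
    exact h1
  · refine sSup_le ?_
    rintro _ ⟨g, rfl⟩
    have hn : (Subgroup.normalClosure (K : Set G)).Normal := Subgroup.normalClosure_normal
    rintro _ ⟨x, hx, rfl⟩
    exact hn.conj_mem x (Subgroup.subset_normalClosure hx) g

theorem part_a {G : Type*} [Group G] [Finite G] (K : Subgroup G) (hK : Cfsg.IsComponent K)
    (hZ : Subgroup.center ↥K = ⊥) : (Subgroup.normalClosure (K : Set G) ≠ ⊥ ∧ ∀ N : Subgroup G, N.Normal →
      N ≤ Subgroup.normalClosure (K : Set G) → N = ⊥ ∨ N = Subgroup.normalClosure (K : Set G)) := by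
  have hKM : K ≤ Subgroup.normalClosure (K : Set G) := Subgroup.le_normalClosure
  refine ⟨fun h => H26.Components.ne_bot hK (le_bot_iff.mp (h ▸ hKM)), ?_⟩
  intro N hN hNM
  by_cases hKN : K ≤ N
  · right
    exact le_antisymm hNM (Subgroup.normalClosure_le_normal hKN)
  · left
    have hcomp : ∀ L ∈ conjs K, IsComponent L := by
      rintro _ ⟨g, rfl⟩
      exact (H26.Components.map_conj_iff g).mpr hK
    have hcom : ∀ L ∈ conjs K, ⁅L, N⁆ = ⊥ := by
      intro L hL
      refine (H26.Components.le_or_commutator_eq_bot_of_normal (hcomp L hL)).resolve_left ?_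
      obtain ⟨g, rfl⟩ := hL
      intro h
      apply hKN
      intro x hx
      have h1 := h (Subgroup.mem_map_of_mem _ hx)
      have h2 := hN.conj_mem _ h1 g⁻¹
      simpa [mul_assoc] using h2
    have hcen : ∀ L ∈ conjs K, L ⊓ centralizer (L : Set G) = ⊥ := by
      rintro _ ⟨g, rfl⟩
      have h1 : K ⊓ centralizer (K : Set G) = ⊥ := by
        rw [← H26.GenFitting.map_center, hZ, Subgroup.map_bot]
      rw [eq_bot_iff]
      rintro _ ⟨⟨x, hx, rfl⟩, hx2⟩
      have h2 : x ∈ K ⊓ centralizer (K : Set G) := by
        refine mem_inf.mpr ⟨hx, ?_⟩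
        rw [mem_centralizer_iff]
        intro y hy
        have := (mem_centralizer_iff.mp hx2) _ (Subgroup.mem_map_of_mem (MulAut.conj g).toMonoidHom hy)
        rw [← map_mul, ← map_mul] at this
        exact (MulAut.conj g).injective this
      rw [h1, mem_bot] at h2
      rw [h2, map_one]
      exact one_mem _
    have h1 := H26.GenFitting.centre_iSup_le (conjs K) (by
      intro A hA B hB hAB
      exact H26.Components.commutator_eq_bot_of_ne (hcomp A hA) (hcomp B hB) hAB)
    have h2 : ⨆ L : conjs K, ((L : Subgroup G) ⊓ Subgroup.centralizer ((L : Subgroup G) : Set G)) = ⊥ := by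
      rw [iSup_eq_bot]
      rintro ⟨L, hL⟩
      exact hcen L hL
    rw [h2, ← normalClosure_eq] at h1
    rw [eq_bot_iff]
    refine le_trans (le_inf hNM ?_) h1
    rw [← Subgroup.commutator_eq_bot_iff_le_centralizer, Subgroup.commutator_comm, normalClosure_eq]
    exact H26.Basic.commutator_sSup_left_eq_bot hcom

/-- Let G be a finite group. (a) If K is a component of G with trivial centre, then the normal closure of K in G is a minimal normal subgroup of G. (b) If the Fitting subgroup of G is trivial, then the layer E(G) is generated by the minimal normal subgroups of G. -/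
theorem result {G : Type*} [Group G] [Finite G] : (∀ K : Subgroup G, Cfsg.IsComponent K → Subgroup.center ↥K = ⊥ → (Subgroup.normalClosure (K : Set G) ≠ ⊥ ∧ ∀ N : Subgroup G, N.Normal → N ≤ Subgroup.normalClosure (K : Set G) → N = ⊥ ∨ N = Subgroup.normalClosure (K : Set G))) ∧ (Cfsg.fittingSubgroup G = ⊥ → sSup {N : Subgroup G | N ≠ ⊥ ∧ N.Normal ∧ ∀ N' : Subgroup G, N'.Normal → N' ≤ N → N' = ⊥ ∨ N' = N} = Cfsg.layer G) := by
  refine ⟨part_a, fun hF => ?_⟩
  have hgf : generalizedFittingSubgroup G = layer G := by
    rw [generalizedFittingSubgroup, hF, sup_bot_eq]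
  have hln : (layer G).Normal := inferInstance
  apply le_antisymm
  · refine sSup_le ?_
    rintro N ⟨hN1, hN, hmin⟩
    rcases hmin (N ⊓ layer G) inferInstance inf_le_left with h | h
    · exfalso
      apply hN1
      have h1 : N ≤ centralizer (layer G : Set G) := by
        rw [← Subgroup.commutator_eq_bot_iff_le_centralizer, eq_bot_iff, ← h]
        exact Subgroup.commutator_le_inf N (layer G)
      have h2 := H26.Components.centralizer_gFitting_le (G := G)
      rw [hgf] at h2
      rw [← inf_eq_left.mpr (h1.trans h2)]
      exact h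
    · exact inf_eq_left.mp h
  · refine sSup_le ?_
    intro K hK
    have hK' : IsComponent K := hK
    have hZ : center K = ⊥ := by
      apply Subgroup.map_injective K.subtype_injective
      rw [Subgroup.map_bot, H26.GenFitting.map_center, eq_bot_iff, ← hF]
      exact (H26.GenFitting.component_centre_le_layer_centre hK').trans H26.GenFitting.centre_layer_le_fitting
    obtain ⟨h1, h2⟩ := part_a K hK' hZ
    exact (Subgroup.le_normalClosure).trans (le_sSup ⟨h1, Subgroup.normalClosure_normal, h2⟩)

end Cfsg.Agent.S3747
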