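import Cfsg.Statements.S3749
import Cfsg.Agent.Lib.H65.PBasic2
import Cfsg.Agent.Lib.H1.Coprime2
import Cfsg.Agent.Lib.H1.Cores
import Cfsg.Agent.Lib.H1.Hall

set_option autoImplicit false
open Cfsg

namespace Cfsg.Agent.S3749

open Subgroup
open scoped Pointwise

/-- Call a proper subgroup M of G primitive when M = N_G(N) for every non-trivial normal subgroup N of M. Let M be a primitive subgroup of the finite group G, p a prime with O_p(M) ≠ 1, and N a normal subgroup of G with M ∩ N = 1. Then p does not divide the order of N; for every prime q there is exactly one Sylow q-subgroup of N normalized by M; and if the order of N has at least two prime divisors then M is not a maximal subgroup of G. -/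
theorem result {G : Type*} [Group G] [Finite G] (M : Subgroup G) (hM : M ≠ ⊤) (hprim : ∀ N : Subgroup G, N ≤ M → M ≤ Subgroup.normalizer (N : Set G) → N ≠ ⊥ → Subgroup.normalizer (N : Set G) = M) {p : ℕ} [Fact p.Prime] (hOp : Cfsg.pCore p ↥M ≠ ⊥) (N : Subgroup G) [N.Normal] (hMN : M ⊓ N = ⊥) : ¬ p ∣ Nat.card N ∧ (∀ q : ℕ, [Fact q.Prime] → ∃! Q : Sylow q ↥N, M ≤ Subgroup.normalizer ((Q : Subgroup ↥N).map N.subtype : Set G)) ∧ ((∃ q r : ℕ, q.Prime ∧ r.Prime ∧ q ≠ r ∧ q ∣ Nat.card N ∧ r ∣ Nat.card N) → ¬ IsCoatom M) := by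
  classical
  let P : Subgroup G := (pCore p M).map M.subtype
  have hPM : P ≤ M := Subgroup.map_subtype_le _
  have hMP : M ≤ normalizer (P : Set G) := by
    rw [le_normalizer_iff]
    rintro m hm _ ⟨x, hx, rfl⟩
    have hn : (pCore p M).Normal := inferInstance
    exact ⟨⟨m, hm⟩ * x * ⟨m, hm⟩⁻¹, hn.conj_mem x hx ⟨m, hm⟩, rfl⟩
  have hPne : P ≠ ⊥ := by
    intro h
    exact hOp ((Subgroup.map_eq_bot_iff_of_injective _ M.subtype_injective).mp h)
  have hPp : IsPGroup p P := (H1.Cores.isPGroup_pCore p).map _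
  have hnorm := hprim P hPM hMP hPne
  have hPN : P ≤ normalizer (N : Set G) := by rw [Subgroup.normalizer_eq_top]; exact le_top
  have hMnN : M ≤ normalizer (N : Set G) := by rw [Subgroup.normalizer_eq_top]; exact le_top
  have hCN : N ⊓ centralizer (P : Set G) = ⊥ := by
    rw [eq_bot_iff, ← hMN]
    refine le_inf ?_ inf_le_left
    exact inf_le_right.trans ((Subgroup.centralizer_le_normalizer _).trans hnorm.le)
  have hpN : ¬ p ∣ Nat.card N := by
    intro hd
    have h1 := H65.PBasic2.card_modEq_card_inf_centralizer P N hPp hPN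
    rw [hCN, Subgroup.card_bot] at h1
    have h2 : Nat.card N ≡ 0 [MOD p] := (Nat.modEq_zero_iff_dvd).mpr hd
    have h3 : 1 ≡ 0 [MOD p] := h1.symm.trans h2
    exact (Fact.out : p.Prime).one_lt.ne' (Nat.dvd_one.mp ((Nat.modEq_zero_iff_dvd).mp h3))
  have hcop : (Nat.card P).Coprime (Nat.card N) := by
    obtain ⟨k, hk⟩ := IsPGroup.iff_card.mp hPp
    rw [hk]
    exact Nat.Coprime.pow_left k ((Nat.Prime.coprime_iff_not_dvd (Fact.out : p.Prime)).mpr hpN)
  have hPs : Group.IsSolvable P := by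
    have := hPp.isNilpotent
    infer_instance
  have hex : ∀ q : ℕ, ∀ _ : Fact q.Prime, ∃ S : Subgroup G, H1.Coprime2.IsSylIn q N S ∧
      M ≤ normalizer (S : Set G) := by
    intro q hq
    obtain ⟨S, hS, hPS⟩ := H1.Coprime2.exists_invariant_sylow P N hPN hcop (Or.inl hPs) q
    refine ⟨S, hS, ?_⟩
    intro m hm
    have hS' := hS.smul (hMnN hm)
    have hPS' : P ≤ normalizer ((MulAut.conj m • S : Subgroup G) : Set G) := by
      exact H65.Semi.le_normalizer_map_conj hPS (hMP hm)
    obtain ⟨c, hc, hc2⟩ := H1.Coprime2.conj_invariant_sylow P N hPN hcop (Or.inl hPs) q S _ hS hS' hPS hPS'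
    rw [hCN, mem_bot] at hc
    rw [hc, map_one, one_smul] at hc2
    exact H1.SZ.mem_normalizer_of_conj_smul_eq hc2.symm
  refine ⟨hpN, ?_, ?_⟩
  · intro q hq
    obtain ⟨S, hS, hMS⟩ := hex q hq
    obtain ⟨Q, hQ⟩ := hS.exists_sylow
    refine ⟨Q, by simp only; rw [hQ]; exact hMS, ?_⟩
    intro Q' hQ'
    have h1 := H1.Coprime2.isSylIn_map Q'
    obtain ⟨c, hc, hc2⟩ := H1.Coprime2.conj_invariant_sylow P N hPN hcop (Or.inl hPs) q S _ hS h1
      (hPM.trans hMS) (hPM.trans hQ')
    rw [hCN, mem_bot] at hc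
    rw [hc, map_one, one_smul, ← hQ] at hc2
    exact Sylow.ext (Subgroup.map_injective N.subtype_injective hc2).symm
  · rintro ⟨q, r, hq, hr, hqr, hqd, hrd⟩ hco
    have hqf : Fact q.Prime := ⟨hq⟩
    obtain ⟨S, hS, hMS⟩ := hex q hqf
    have hSne : S ≠ ⊥ := by
      intro h
      have h1 := hS.2
      rw [h, Subgroup.card_bot] at h1
      have h2 : 1 ≤ (Nat.card N).factorization q :=
        (hq.dvd_iff_one_le_factorization Nat.card_pos.ne').mp hqd
      have h3 := Nat.one_lt_pow (by omega : (Nat.card N).factorization q ≠ 0) hq.one_lt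
      omega
    have hlt : M < S ⊔ M := by
      refine lt_of_le_of_ne le_sup_right ?_
      intro h
      apply hSne
      have h1 : S ≤ M := by rw [h]; exact le_sup_left
      rw [eq_bot_iff, ← hMN]
      exact le_inf h1 hS.1
    have htop := hco.2 _ hlt
    -- S = N
    have h1 : N ≤ S := by
      intro x hx
      have h2 : x ∈ M ⊔ S := by rw [sup_comm, htop]; exact mem_top x
      obtain ⟨y, hy, z, hz, rfl⟩ := (H65.Semi.mem_sup_iff hMS).mp h2
      have h3 : y ∈ M ⊓ N := by
        refine mem_inf.mpr ⟨hy, ?_⟩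
        have := mul_mem hx (inv_mem (hS.1 hz))
        rwa [mul_inv_cancel_right] at this
      rw [hMN, mem_bot] at h3
      rw [h3, one_mul]
      exact hz
    have h2 : Nat.card N = q ^ (Nat.card N).factorization q := by
      rw [← hS.2]
      exact congrArg (fun K : Subgroup G => Nat.card K) (le_antisymm h1 hS.1)
    rw [h2] at hrd
    exact hqr ((Nat.prime_dvd_prime_iff_eq hr hq).mp (hr.dvd_of_dvd_pow hrd)).symm

end Cfsg.Agent.S3749
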