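import Cfsg.Statements.S3750
import Cfsg.Agent.Lib.H65.PrimSub
import Cfsg.Agent.Lib.H26.GenFitting

set_option autoImplicit false
open Cfsg

namespace Cfsg.Agent.S3750

open Subgroup

/-- Call a proper subgroup M of G primitive when M = N_G(N) for every non-trivial normal subgroup N of M. Let M be a primitive subgroup of the finite group G and N a normal subgroup of G with M ∩ F*(N) ≠ 1. Then F(G) = 1 and F*(N) = F*(G) = E(G); in particular every minimal normal subgroup of G is contained in N. -/
theorem result {G : Type*} [Group G] [Finite G] (M : Subgroup G) (hM : M ≠ ⊤) (hprim : ∀ N : Subgroup G, N ≤ M → M ≤ Subgroup.normalizer (N : Set G) → N ≠ ⊥ → Subgroup.normalizer (N : Set G) = M) (N : Subgroup G) [N.Normal] (hMF : M ⊓ (Cfsg.generalizedFittingSubgroup ↥N).map N.subtype ≠ ⊥) : Cfsg.fittingSubgroup G = ⊥ ∧ (Cfsg.generalizedFittingSubgroup ↥N).map N.subtype = Cfsg.generalizedFittingSubgroup G ∧ Cfsg.generalizedFittingSubgroup G = Cfsg.layer G ∧ ∀ K : Subgroup G, K.Normal → K ≠ ⊥ → (∀ K' : Subgroup G, K'.Normal → K' ≤ K → K'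 = ⊥ ∨ K' = K) → K ≤ N := by
  classical
  have hX := H26.GenFitting.map_subtype_gFitting_normal N
  set X : Subgroup G := (Cfsg.generalizedFittingSubgroup ↥N).map N.subtype with hXdef
  have hXn : X.Normal := by rw [hX]; infer_instance
  have hXN : X ≤ N := Subgroup.map_subtype_le _
  -- C_G(X) = 1
  have hMX : M ≤ normalizer ((M ⊓ X : Subgroup G) : Set G) := by
    rw [le_normalizer_iff]
    intro m hm x hx
    exact mem_inf.mpr ⟨mul_mem (mul_mem hm (mem_inf.mp hx).1) (inv_mem hm), hXn.conj_mem x (mem_inf.mp hx).2 m⟩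
  have hnorm := hprim (M ⊓ X) inf_le_left hMX hMF
  have hC : centralizer (X : Set G) = ⊥ := by
    have h1 : centralizer (X : Set G) ≤ M := by
      refine le_trans ?_ hnorm.le
      exact (centralizer_le (show M ⊓ X ≤ X from inf_le_right)).trans
        (Subgroup.centralizer_le_normalizer _)
    have h2 : (centralizer (X : Set G)).Normal := inferInstance
    exact H65.PrimSub.subnormal_eq_bot hM hprim h2.isSubnormal h1
  have hcomm : ∀ K : Subgroup G, ⁅K, X⁆ = ⊥ → K = ⊥ := by
    intro K hK
    rw [eq_bot_iff, ← hC]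
    exact Subgroup.commutator_eq_bot_iff_le_centralizer.mp hK
  -- all components lie in N
  have hlayerN : layer G ≤ N := by
    refine sSup_le fun K hK => ?_
    have hK' : IsComponent K := hK
    rcases H26.Components.le_or_commutator_eq_bot_of_normal hK' (H := N) with h | h
    · exact h
    · exfalso
      apply H26.Components.ne_bot hK'
      exact hcomm K (H26.Basic.commutator_eq_bot_mono h le_rfl hXN)
  have hlayerX : layer G ≤ X := by
    rw [hX]
    exact le_inf hlayerN H26.Components.layer_le_gFitting
  -- F(G) ∩ N = 1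
  have hFN : N ⊓ fittingSubgroup G = ⊥ := by
    have hFX : N ⊓ fittingSubgroup G ≤ X := by
      rw [hX]
      exact inf_le_inf_left N (by rw [generalizedFittingSubgroup]; exact le_sup_right)
    -- X = E(G) (N ⊓ F(G))
    have hXle : ∀ x ∈ X, ∃ a ∈ layer G, ∃ b ∈ N ⊓ fittingSubgroup G, a * b = x := by
      intro x hx
      have hx' := hx
      rw [hX] at hx'
      obtain ⟨a, ha, b, hb, rfl⟩ := H26.Components.mem_gFitting_iff.mp (mem_inf.mp hx').2
      refine ⟨a, ha, b, mem_inf.mpr ⟨?_, hb⟩, rfl⟩
      have := mul_mem (inv_mem (hlayerN ha)) (mem_inf.mp hx').1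
      rwa [inv_mul_cancel_left] at this
    set F := N ⊓ fittingSubgroup G with hF
    have hFnil : Group.IsNilpotent F := by
      have := H1.Cores.isNilpotent_fittingSubgroup (G := G)
      exact Group.nilpotent_of_mulEquiv (Subgroup.subgroupOfEquivOfLe (show F ≤ fittingSubgroup G from inf_le_right))
    by_contra hne
    have hnt : Nontrivial F := (Subgroup.nontrivial_iff_ne_bot F).mpr hne
    have hZ : center F ≠ ⊥ := Group.IsNilpotent.center_ne_bot _
    apply hZ
    have h1 : (center F).map F.subtype = ⊥ := by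
      apply hcomm
      rw [Subgroup.commutator_eq_bot_iff_le_centralizer]
      rintro _ ⟨z, hz, rfl⟩
      rw [mem_centralizer_iff]
      intro x hx
      obtain ⟨a, ha, b, hb, rfl⟩ := hXle x hx
      have h2 : b * (z : G) = z * b := congrArg Subtype.val (Subgroup.mem_center_iff.mp hz ⟨b, hb⟩)
      have h3 : a * (z : G) = z * a :=
        H26.Basic.commute_of_commutator_eq_bot H26.Components.commutator_layer_fittingSubgroup ha
          (mem_inf.mp z.2).2
      show a * b * (z : G) = z * (a * b)
      rw [mul_assoc, h2, ← mul_assoc, h3, mul_assoc]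
    exact (Subgroup.map_eq_bot_iff_of_injective _ F.subtype_injective).mp h1
  have hXlayer : X = layer G := by
    apply le_antisymm ?_ hlayerX
    intro x hx
    have hx' := hx
    rw [hX] at hx'
    obtain ⟨a, ha, b, hb, rfl⟩ := H26.Components.mem_gFitting_iff.mp (mem_inf.mp hx').2
    have h1 : b ∈ N ⊓ fittingSubgroup G := by
      refine mem_inf.mpr ⟨?_, hb⟩
      have := mul_mem (inv_mem (hlayerN ha)) (mem_inf.mp hx').1
      rwa [inv_mul_cancel_left] at this
    rw [hFN, mem_bot] at h1
    rw [h1, mul_one]
    exact ha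
  have hF : fittingSubgroup G = ⊥ := by
    apply hcomm
    rw [hXlayer, Subgroup.commutator_comm]
    exact H26.Components.commutator_layer_fittingSubgroup
  have hgf : generalizedFittingSubgroup G = layer G := by
    rw [generalizedFittingSubgroup, hF, sup_bot_eq]
  refine ⟨hF, by rw [hXlayer, hgf], hgf, ?_⟩
  intro K hK hKne hmin
  rcases hmin (K ⊓ N) inferInstance inf_le_left with h | h
  · exfalso
    apply hKne
    apply hcomm
    apply H26.Basic.commutator_eq_bot_mono (H := K) (K := N) ?_ le_rfl hXN
    rw [eq_bot_iff, ← h]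
    exact Subgroup.commutator_le_inf K N
  · exact inf_eq_left.mp h

end Cfsg.Agent.S3750
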