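import Cfsg.Statements.S3751
import Cfsg.Agent.Lib.H65.MaxLocal

set_option autoImplicit false
open Cfsg

namespace Cfsg.Agent.S3751

open Subgroup H65.MaxLocal

/-- Two distinct subgroups M₁, M₂ of G form a primitive pair when, for {i, j} = {1, 2}, every non-trivial normal subgroup A of M_i contained in M₁ ∩ M₂ satisfies N_{M_j}(A) = M₁ ∩ M₂; the pair has characteristic p when moreover C_{M_i}(O_p(M_i)) ≤ O_p(M_i) for both i and O_p(M₁)O_p(M₂) ≤ M₁ ∩ M₂. Let G be a finite group, p a prime dividing its order, with O_p(G) = 1 and every p-local subgroup of characteristic p. Then either G has a primitive pair of characteristic p, or every maximal p-local subgroup M of G is strongly p-embedded in G: M is a proper subgroup, p divides its order, and for every g ∉ M the order of M ∩ gMg⁻¹ is prime to p. -/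
theorem result {G : Type*} [Group G] [Finite G] {p : ℕ} [Fact p.Prime] (hloc : Cfsg.IsOfLocalCharacteristic p G) (hOp : Cfsg.pCore p G = ⊥) : (∃ M₁ M₂ : Subgroup G, M₁ ≠ M₂ ∧ (∀ A : Subgroup G, A ≠ ⊥ → A ≤ M₁ ⊓ M₂ → (M₁ ≤ Subgroup.normalizer (A : Set G) → M₂ ⊓ Subgroup.normalizer (A : Set G) = M₁ ⊓ M₂) ∧ (M₂ ≤ Subgroup.normalizer (A : Set G) → M₁ ⊓ Subgroup.normalizer (A : Set G) = M₁ ⊓ M₂)) ∧ Subgroup.centralizer (Cfsg.pCore p ↥M₁ : Set ↥M₁) ≤ Cfsg.pCore p ↥M₁ ∧ Subgroup.centralizer (Cfsg.pCore p ↥M₂ : Set ↥M₂) ≤ Cfsg.pCore p ↥M₂ ∧ (Cfsg.pCore p ↥M₁).map M₁.subtype ⊔ (Cfsg.pCore p ↥M₂).map M₂.subtype ≤ M₁ ⊓ M₂) ∨ (∀ M : Subgroup G, (∃ T : Subgroup G, IsPGroup p T ∧ T ≠ ⊥ ∧ M = Subgroup.normalizer (T : Set G)) → (∀ L : Subgroup G, (∃ T : Subgroup G, IsPGroup p T ∧ T ≠ ⊥ ∧ L = Subgroup.normalizer (T : Set G)) → M ≤ L → L = M) → M ≠ ⊤ ∧ p ∣ Nat.card M ∧ ∀ g : G, g ∉ M → ¬ p ∣ Nat.card ↥(M ⊓ M.map (MulAut.conj g).toMonoidHom)) := by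
  classical
  have hchar : ∀ M : Subgroup G, IsMaxLoc p M → centralizer (pCore p M : Set M) ≤ pCore p M := by
    rintro M ⟨⟨T, hT, hT1, rfl⟩, -⟩
    exact hloc.2 T hT hT1
  by_cases hex : ∃ M₁ M₂ : Subgroup G, IsMaxLoc p M₁ ∧ IsMaxLoc p M₂ ∧ M₁ ≠ M₂ ∧
      p ∣ Nat.card (M₁ ⊓ M₂ : Subgroup G)
  · left
    obtain ⟨M₁, M₂, S, h1, h2, hne, hS1, hS2⟩ := exists_common_sylow hex
    refine ⟨M₁, M₂, hne, ?_, hchar M₁ h1, hchar M₂ h2, ?_⟩
    · intro A hA hAM
      constructor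
      · intro hM
        rw [normalizer_eq h1 (hchar M₁ h1) (hAM.trans inf_le_left) hA hM, inf_comm]
      · intro hM
        rw [normalizer_eq h2 (hchar M₂ h2) (hAM.trans inf_le_right) hA hM]
    · refine sup_le ?_ ?_
      · exact (opc_le_of_isSylOf hS1).trans (le_inf hS1.1 hS2.1)
      · exact (opc_le_of_isSylOf hS2).trans (le_inf hS1.1 hS2.1)
  · right
    intro M hM hmax
    have hMax : IsMaxLoc p M := ⟨hM, hmax⟩
    obtain ⟨T, hT, hT1, hMT⟩ := hM
    refine ⟨?_, ?_, ?_⟩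
    · intro htop
      apply hT1
      rw [htop] at hMT
      have hn : T.Normal := Subgroup.normalizer_eq_top_iff.mp hMT.symm
      exact le_bot_iff.mp (hOp ▸ H1.Cores.le_pCore hn hT)
    · have h1 : p ∣ Nat.card T := by
        rcases hT.card_eq_or_dvd with h | h
        · exact absurd (Subgroup.card_eq_one.mp h) hT1
        · exact h
      refine h1.trans (Subgroup.card_dvd_of_le ?_)
      rw [hMT]
      exact le_normalizer
    · intro g hg hd
      apply hex
      refine ⟨M, M.map (MulAut.conj g).toMonoidHom, hMax, isMaxLoc_conj hMax g, ?_, hd⟩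
      intro heq
      apply hg
      rw [← normalizer_self hMax, mem_normalizer_iff]
      intro x
      constructor
      · intro hx
        rw [heq]
        exact ⟨x, hx, rfl⟩
      · intro hx
        rw [heq] at hx
        obtain ⟨y, hy, hyx⟩ := hx
        have : y = x := (MulAut.conj g).injective hyx
        rwa [← this]

end Cfsg.Agent.S3751
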