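import Cfsg.Statements.S3754
import Cfsg.Agent.Lib.H65.HH123
import Cfsg.Agent.Lib.H65.CoCyclic
import Cfsg.Agent.Lib.H65.MaxLocal
import Cfsg.Agent.Lib.H26.PxQ
import Cfsg.Agent.Lib.H3.PBasic
import Cfsg.Agent.Lib.H1.SZ
import Cfsg.Agent.Lib.H1.Hall
import Cfsg.Agent.Lib.H28.RelHall

set_option autoImplicit false
open Cfsg

namespace Cfsg.Agent.S3754

open Subgroup H65.MaxLocal H26.PxQ
open scoped commutatorElement Pointwise

theorem coprime_left {p : ℕ} {n m : ℕ} (h : n.Coprime p) (hm : m ∣ n) : m.Coprime p :=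
  Nat.Coprime.coprime_dvd_left hm h

/-- `p`-elements times a normalized `p'`-subgroup: elements of order prime to `p` lie in it. -/
theorem mem_of_coprime {G : Type*} [Group G] [Finite G] {p : ℕ} [Fact p.Prime] {A C : Subgroup G}
    (hA : IsPGroup p A) (hAC : A ≤ normalizer (C : Set G)) {g : G} (hg : g ∈ A ⊔ C)
    (hgp : (orderOf g).Coprime p) : g ∈ C := by
  obtain ⟨a, ha, c, hc, rfl⟩ := (H65.Semi.mem_sup_iff hAC).mp hg
  -- (a c)^m ∈ a^m C
  have key : ∀ m : ℕ, ∃ d ∈ C, (a * c) ^ m = a ^ m * d := by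
    intro m
    induction m with
    | zero => exact ⟨1, one_mem _, by simp⟩
    | succ m ih =>
      obtain ⟨d, hd, h⟩ := ih
      refine ⟨(a⁻¹ * d * a) * c, mul_mem ?_ hc, ?_⟩
      · have := (mem_normalizer_iff.mp (hAC (inv_mem ha)) d).mp hd
        rwa [inv_inv] at this
      · rw [pow_succ, h, pow_succ]
        group
  -- a has p-power order
  obtain ⟨k, hk⟩ := hA ⟨a, ha⟩
  have hak : a ^ p ^ k = 1 := congrArg Subtype.val hk
  set m := orderOf (a * c) with hm
  -- choose j with j m ≡ 1 mod p^k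
  have hcop : Nat.Coprime m (p ^ k) := Nat.Coprime.pow_right k hgp
  obtain ⟨d, hd, h⟩ := key m
  rw [pow_orderOf_eq_one] at h
  have ham : a ^ m ∈ C := by
    have : a ^ m = d⁻¹ := eq_inv_of_mul_eq_one_left h.symm
    rw [this]; exact inv_mem hd
  -- a ∈ C since a is a power of a^m
  have h1 : a ∈ zpowers (a ^ m) := by
    have h2 : Nat.Coprime (orderOf a) m :=
      (Nat.Coprime.coprime_dvd_left (orderOf_dvd_of_pow_eq_one hak) hcop.symm)
    obtain ⟨u, hu⟩ := exists_pow_eq_self_of_coprime h2.symm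
    exact mem_zpowers_iff.mpr ⟨(u : ℤ), by rw [zpow_natCast]; exact hu⟩
  exact mul_mem ((zpowers_le.mpr ham) h1) hc

/-- Let M be a finite p-soluble group and A a p-subgroup of M with Φ(A) ≤ O_p(M) but A ≰ O_p(M). Then there is x ∈ O_{p,p'}(M) such that L = ⟨A, xAx⁻¹⟩ satisfies: x ∈ O^p(L) and O^p(L) ≤ O_{p,p'}(M); [O^p(L), A] = O^p(L); A ∩ O_p(L) has index p in A; and [A ∩ O_p(L), L] ≤ O_p(M). Here O^p(L) is the subgroup generated by the p'-elements of L and O_{p,p'}(M) the preimage of O_{p'}(M/O_p(M)). -/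
theorem result {M : Type*} [Group M] [Finite M] {p : ℕ} [Fact p.Prime] (hM : Cfsg.IsPSolvable p M) (A : Subgroup M) (hA : IsPGroup p A) (hΦ : (frattini ↥A).map A.subtype ≤ Cfsg.pCore p M) (hnot : ¬ A ≤ Cfsg.pCore p M) : ∃ x ∈ (Cfsg.pPrimeCore p (M ⧸ Cfsg.pCore p M)).comap (QuotientGroup.mk' (Cfsg.pCore p M)), x ∈ (Cfsg.pResidual p ↥(A ⊔ A.map (MulAut.conj x).toMonoidHom)).map (A ⊔ A.map (MulAut.conj x).toMonoidHom).subtype ∧ (Cfsg.pResidual p ↥(A ⊔ A.map (MulAut.conj x).toMonoidHom)).map (A ⊔ A.map (MulAut.conj x).toMonoidHom).subtype ≤ (Cfsg.pPrimeCore p (M ⧸ Cfsg.pCore p M)).comap (QuotientGroup.mk' (Cfsg.pCore p M)) ∧ ⁅(Cfsg.pResidual p ↥(A ⊔ A.map (MulAut.conj x).toMonoidHom)).map (A ⊔ A.map (MulAut.conj x).toMonoidHom).subtype, A⁆ = (Cfsg.pResidual p ↥(A ⊔ A.map (MulAut.conj x).toMonoidHom)).map (A ⊔ A.map (MulAut.conj x).toMonoidHom).subtype ∧ (A ⊓ (Cfsg.pCore p ↥(A ⊔ A.map (MulAut.conj x).toMonoidHom)).map (A ⊔ A.map (MulAut.conj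 x).toMonoidHom).subtype).relIndex A = p ∧ ⁅A ⊓ (Cfsg.pCore p ↥(A ⊔ A.map (MulAut.conj x).toMonoidHom)).map (A ⊔ A.map (MulAut.conj x).toMonoidHom).subtype, A ⊔ A.map (MulAut.conj x).toMonoidHom⁆ ≤ Cfsg.pCore p M := by
  classical
  have hp : p.Prime := Fact.out
  set Q := pCore p M with hQ
  have hQp : IsPGroup p Q := H1.Cores.isPGroup_pCore p
  set f := QuotientGroup.mk' Q with hf
  have hfs : Function.Surjective f := QuotientGroup.mk'_surjective Q
  have hfker : ∀ x : M, f x = 1 ↔ x ∈ Q := fun x => QuotientGroup.eq_one_iff x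
  set Kb := pPrimeCore p (M ⧸ Q) with hKb
  have hKbcop : (Nat.card Kb).Coprime p := H1.Cores.coprime_card_pPrimeCore p
  have hKbn : Kb.Normal := by rw [hKb]; infer_instance
  set Ab := A.map f with hAb
  have hAbp : IsPGroup p Ab := hA.map f
  have hAbne : Ab ≠ ⊥ := by
    intro h
    apply hnot
    intro a ha
    rw [← hfker]
    have : f a ∈ Ab := Subgroup.mem_map_of_mem f ha
    rwa [h, mem_bot] at this
  have hAbc : ∀ x ∈ Ab, ∀ y ∈ Ab, x * y = y * x := by
    rintro _ ⟨a, ha, rfl⟩ _ ⟨b, hb, rfl⟩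
    have h1 : ⁅(⟨a, ha⟩ : A), (⟨b, hb⟩ : A)⁆ ∈ frattini A :=
      H3.PBasic.commutator_le_frattini hA (Subgroup.commutator_mem_commutator (mem_top _) (mem_top _))
    have h2 : a * b * a⁻¹ * b⁻¹ ∈ Q := hΦ ⟨_, h1, rfl⟩
    rw [← hfker, map_mul, map_mul, map_mul, map_inv, map_inv] at h2
    rw [mul_inv_eq_one] at h2
    exact mul_inv_eq_iff_eq_mul.mp h2
  have hAbexp : ∀ x ∈ Ab, x ^ p = 1 := by
    rintro _ ⟨a, ha, rfl⟩
    have h1 : (⟨a, ha⟩ : A) ^ p ∈ frattini A := H3.PBasic.pow_mem_frattini hA _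
    have h2 : a ^ p ∈ Q := hΦ ⟨_, h1, rfl⟩
    rw [← hfker, map_pow] at h2
    exact h2
  have hAbcomm : IsMulCommutative Ab := ⟨⟨fun x y => Subtype.ext (hAbc x x.2 y y.2)⟩⟩
  have hAbK : Ab ≤ normalizer (Kb : Set (M ⧸ Q)) := by rw [Subgroup.normalizer_eq_top]; exact le_top
  obtain ⟨nA, hnA⟩ := IsPGroup.iff_card.mp hAbp
  have hcop : (Nat.card Ab).Coprime (Nat.card Kb) := by
    rw [hnA]; exact Nat.Coprime.pow_left _ hKbcop.symm
  have hdisj : ∀ C : Subgroup (M ⧸ Q), C ≤ Kb → Ab ⊓ C = ⊥ := by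
    intro C hC
    apply disjoint_iff.mp
    apply Subgroup.disjoint_of_coprime_natCard
    exact Nat.Coprime.coprime_dvd_right (Subgroup.card_dvd_of_le hC) hcop
  -- step 2
  obtain ⟨Bb, hBbA, ⟨a0, ha0, hBa0⟩, hBbK⟩ : ∃ Bb : Subgroup (M ⧸ Q), Bb ≤ Ab ∧
      (∃ a ∈ Ab, Bb ⊔ zpowers a = Ab) ∧ ¬ Kb ⊓ centralizer (Bb : Set (M ⧸ Q)) ≤ centralizer (Ab : Set (M ⧸ Q)) := by
    by_contra hcon
    push Not at hcon
    have h1 : Kb ≤ centralizer (Ab : Set (M ⧸ Q)) := by
      apply H65.CoCyclic.gen_cocyclic Ab Kb hAbcomm hAbK hcop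
      rintro B hB ⟨a, ha, hBa⟩
      exact hcon B hB ⟨a, ha, hBa⟩
    have h2 : Ab ≤ Kb := by
      refine le_trans ?_ (H65.HH123.centralizer_pPrimeCore_le (H37.PSolv.quotient hM Q) (H1.Cores.pCore_quotient_pCore p))
      rwa [le_centralizer_iff] at h1
    apply hAbne
    rw [← hdisj Ab h2, inf_idem]
  set Cb := Kb ⊓ centralizer (Bb : Set (M ⧸ Q)) with hCb
  have hCbcop : (Nat.card Cb).Coprime p := coprime_left hKbcop (Subgroup.card_dvd_of_le inf_le_left)
  have hAbCb : Ab ≤ normalizer (Cb : Set (M ⧸ Q)) := by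
    rw [le_normalizer_iff]
    intro a ha c hc
    refine mem_inf.mpr ⟨hKbn.conj_mem c (mem_inf.mp hc).1 a, ?_⟩
    rw [mem_centralizer_iff]
    intro b hb
    have h1 : Commute b a := hAbc b (hBbA hb) a ha
    have h2 : Commute b c := (mem_centralizer_iff.mp (mem_inf.mp hc).2) b hb
    exact (h1.mul_right h2).mul_right h1.inv_right
  have hBbne : Bb ≠ Ab := by
    intro h
    apply hBbK
    rw [hCb, h]; exact inf_le_right
  -- index of Bb
  have hBbidx : Bb.relIndex Ab = p := by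
    have hn : (Bb.subgroupOf Ab).Normal := by
      rw [Subgroup.normal_subgroupOf_iff_le_normalizer hBbA, le_normalizer_iff]
      intro a ha b hb
      rw [hAbc a ha b (hBbA hb), mul_inv_cancel_right]
      exact hb
    have hcyc : ∀ y : Ab ⧸ Bb.subgroupOf Ab, y ∈ zpowers ((⟨a0, ha0⟩ : Ab) : Ab ⧸ Bb.subgroupOf Ab) := by
      intro y
      obtain ⟨⟨y, hy⟩, rfl⟩ := QuotientGroup.mk_surjective y
      have hy' := hy
      rw [← hBa0] at hy'
      have hz : zpowers a0 ≤ normalizer (Bb : Set (M ⧸ Q)) := by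
        rw [le_normalizer_iff]
        intro a ha b hb
        rw [hAbc a ((zpowers_le.mpr ha0) ha) b (hBbA hb), mul_inv_cancel_right]
        exact hb
      rw [sup_comm] at hy'
      obtain ⟨z, hz1, b, hb, hzb⟩ := (H65.Semi.mem_sup_iff hz).mp hy'
      obtain ⟨i, rfl⟩ := mem_zpowers_iff.mp hz1
      refine mem_zpowers_iff.mpr ⟨i, ?_⟩
      rw [← QuotientGroup.mk_zpow, QuotientGroup.eq, mem_subgroupOf]
      have : ((((⟨a0, ha0⟩ : Ab) ^ i)⁻¹ * (⟨y, hy⟩ : Ab) : Ab) : M ⧸ Q) = (a0 ^ i)⁻¹ * y := rfl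
      rw [this, ← hzb, inv_mul_cancel_left]
      exact hb
    have hcard : Bb.relIndex Ab ∣ p := by
      rw [Subgroup.relIndex, Subgroup.index_eq_card, ← orderOf_eq_card_of_forall_mem_zpowers hcyc]
      apply orderOf_dvd_of_pow_eq_one
      rw [← QuotientGroup.mk_pow]
      have : (⟨a0, ha0⟩ : Ab) ^ p = 1 := Subtype.ext (hAbexp a0 ha0)
      rw [this, QuotientGroup.mk_one]
    rcases (Nat.dvd_prime hp).mp hcard with h | h
    · exact absurd (le_antisymm hBbA (relIndex_eq_one.mp h)) hBbne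
    · exact h
  -- lifts
  set B := A ⊓ Bb.comap f with hB
  have hBA : B ≤ A := inf_le_left
  have hBmap : B.map f = Bb := by
    apply le_antisymm
    · rintro _ ⟨b, hb, rfl⟩
      exact (mem_inf.mp hb).2
    · intro b hb
      obtain ⟨a, ha, rfl⟩ := hBbA hb
      exact ⟨a, mem_inf.mpr ⟨ha, hb⟩, rfl⟩
  have hBidx : B.relIndex A = p := by
    have h1 : B.subgroupOf A = (Bb.subgroupOf Ab).comap (f.subgroupMap A) := by
      ext x
      rw [mem_subgroupOf, mem_comap, mem_subgroupOf]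
      constructor
      · intro hx
        exact (mem_inf.mp hx).2
      · intro hx
        exact mem_inf.mpr ⟨x.2, hx⟩
    rw [Subgroup.relIndex, h1, Subgroup.index_comap_of_surjective _ (f.subgroupMap_surjective A)]
    exact hBbidx
  set C := Cb.comap f with hC
  let Lx : M → Subgroup M := fun x => A ⊔ A.map (MulAut.conj x).toMonoidHom
  -- if Lx x is a p-group and x ∈ C then f x centralizes Ab
  have hpg : ∀ x ∈ C, IsPGroup p (Lx x) → f x ∈ centralizer (Ab : Set (M ⧸ Q)) := by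
    intro x hx hL
    have hLb : IsPGroup p ((Lx x).map f) := hL.map f
    have hdis : (Lx x).map f ⊓ Cb = ⊥ := by
      obtain ⟨k, hk⟩ := IsPGroup.iff_card.mp hLb
      apply disjoint_iff.mp
      apply Subgroup.disjoint_of_coprime_natCard
      rw [hk]
      exact Nat.Coprime.pow_left _ hCbcop.symm
    rw [mem_centralizer_iff]
    rintro _ ⟨a, ha, rfl⟩
    have h1 : f x * f a * (f x)⁻¹ * (f a)⁻¹ ∈ (Lx x).map f ⊓ Cb := by
      refine mem_inf.mpr ⟨?_, ?_⟩
      · refine ⟨x * a * x⁻¹ * a⁻¹, ?_, by simp⟩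
        exact mul_mem (mem_sup_right ⟨a, ha, rfl⟩) (inv_mem (mem_sup_left ha))
      · have h2 : f a * (f x)⁻¹ * (f a)⁻¹ ∈ Cb :=
          (mem_normalizer_iff.mp (hAbCb (Subgroup.mem_map_of_mem f ha)) _).mp (inv_mem hx)
        have := mul_mem (show f x ∈ Cb from hx) h2
        simpa [mul_assoc] using this
    rw [hdis, mem_bot, mul_inv_eq_one] at h1
    exact (mul_inv_eq_iff_eq_mul.mp h1).symm
  let S : Set M := {x | x ∈ C ∧ ¬ IsPGroup p (Lx x)}
  have hSne : S.Nonempty := by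
    by_contra hcon
    rw [Set.not_nonempty_iff_eq_empty] at hcon
    apply hBbK
    intro y hy
    obtain ⟨x, rfl⟩ := hfs y
    apply hpg x hy
    by_contra hne
    have : x ∈ S := ⟨hy, hne⟩
    rw [hcon] at this
    exact this
  obtain ⟨x, hxS, hmin⟩ := Set.exists_min_image S (fun x => Nat.card (Lx x)) (Set.toFinite S) hSne
  obtain ⟨hxC, hxL⟩ := hxS
  set L := Lx x with hL
  have hAL : A ≤ L := le_sup_left
  set O := opUp p L with hO
  have hOL : O ≤ L := opUp_le p L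
  -- the image of L
  set Lb := L.map f with hLb
  have hAbLb : Ab ≤ Lb := Subgroup.map_mono hAL
  have hLxle : ∀ y ∈ C, (Lx y).map f ≤ Ab ⊔ Cb := by
    intro y hy
    rw [Subgroup.map_sup]
    refine sup_le le_sup_left ?_
    rintro _ ⟨_, ⟨a, ha, rfl⟩, rfl⟩
    have : f ((MulAut.conj y).toMonoidHom a) = f y * f a * (f y)⁻¹ := by simp
    rw [this]
    exact mul_mem (mul_mem (mem_sup_right hy) (mem_sup_left (Subgroup.mem_map_of_mem f ha))) (inv_mem (mem_sup_right hy))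
  have hLble : Lb ≤ Ab ⊔ Cb := hLxle x hxC
  have hOC : O ≤ C := by
    rw [hO, opUp, Subgroup.closure_le]
    rintro g ⟨hg, hgp⟩
    apply mem_of_coprime hAbp hAbCb (hLble (Subgroup.mem_map_of_mem f hg))
    exact coprime_left hgp (orderOf_map_dvd f g)
  -- Rb
  set Rb := Lb ⊓ Cb with hRb
  have hRbn : Lb ≤ normalizer (Rb : Set (M ⧸ Q)) := by
    apply H65.Semi.le_normalizer_inf le_normalizer
    exact hLble.trans (sup_le hAbCb le_normalizer)
  have hRbcop : (Nat.card Rb).Coprime p := coprime_left hCbcop (Subgroup.card_dvd_of_le inf_le_right)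
  have hLbeq : Lb = Ab ⊔ Rb := by
    apply le_antisymm
    · intro y hy
      obtain ⟨a, ha, c, hc, rfl⟩ := (H65.Semi.mem_sup_iff hAbCb).mp (hLble hy)
      refine mul_mem (mem_sup_left ha) (mem_sup_right (mem_inf.mpr ⟨?_, hc⟩))
      have := mul_mem (inv_mem (hAbLb ha)) hy
      rwa [inv_mul_cancel_left] at this
    · exact sup_le hAbLb inf_le_left
  have hrel : Rb.relIndex Lb = Nat.card Ab := by
    have h1 : Ab ⊓ Rb = ⊥ := hdisj Rb (inf_le_right.trans inf_le_left)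
    have h2 : Rb.relIndex (Ab ⊔ Rb) = Rb.relIndex Ab :=
      H28.RelHall.relIndex_sup_eq (hAbLb.trans hRbn)
    rw [hLbeq, h2, ← Subgroup.inf_relIndex_right, inf_comm, h1, Subgroup.relIndex_bot_left]
  set Ax := Ab.map (MulAut.conj (f x)).toMonoidHom with hAx
  have hAxLb : Ax ≤ Lb := by
    rintro _ ⟨_, ⟨a, ha, rfl⟩, rfl⟩
    refine ⟨x * a * x⁻¹, mem_sup_right ⟨a, ha, rfl⟩, by simp⟩
  have hAxcard : Nat.card Ax = Nat.card Ab :=
    (Nat.card_congr (Ab.equivMapOfInjective _ (MulAut.conj (f x)).injective).toEquiv).symm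
  have hLbp : Group.IsSolvable Rb ∨ ∀ [(Rb.subgroupOf Lb).Normal], Group.IsSolvable (Lb ⧸ Rb.subgroupOf Lb) := by
    right
    intro hn
    have : IsPGroup p (Lb ⧸ Rb.subgroupOf Lb) := by
      apply IsPGroup.of_card (n := nA)
      rw [← Subgroup.index_eq_card]
      change Rb.relIndex Lb = _
      rw [hrel, hnA]
    have := this.isNilpotent
    infer_instance
  obtain ⟨rb, hrb, hrbA⟩ := H1.SZ.conj_of_card_rel Lb Rb inf_le_left hRbn
    (by rw [hrel, hnA]; exact Nat.Coprime.pow_right _ hRbcop) hLbp Ab Ax hAbLb hAxLb hrel.symm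
    (by rw [hAxcard, hrel])
  -- lift rb into O
  obtain ⟨r, hrO, hrf⟩ : ∃ r ∈ O, f r = rb := by
    obtain ⟨l, hl, hlf⟩ := (mem_inf.mp hrb).1
    have hrbp : (orderOf rb).Coprime p := by
      apply coprime_left hRbcop
      rw [← Subgroup.orderOf_mk rb hrb]
      exact orderOf_dvd_natCard _
    obtain ⟨k, hk⟩ := exists_pow_mem_opUp (p := p) hl
    have hcop2 : Nat.Coprime (orderOf rb) (p ^ k) := Nat.Coprime.pow_right _ hrbp
    obtain ⟨u, hu⟩ := exists_pow_eq_self_of_coprime hcop2.symm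
    refine ⟨(l ^ p ^ k) ^ u, pow_mem hk _, ?_⟩
    rw [map_pow, map_pow, hlf]
    exact hu
  have hrC : r ∈ C := hOC hrO
  have hrL : r ∈ L := hOL hrO
  have hLrle : Lx r ≤ L := by
    refine sup_le hAL ?_
    rintro _ ⟨a, ha, rfl⟩
    exact mul_mem (mul_mem hrL (hAL ha)) (inv_mem hrL)
  have hLrnot : ¬ IsPGroup p (Lx r) := by
    intro h
    apply hxL
    -- image of Lx r is Lb
    have h1 : IsPGroup p ((Lx r).map f) := h.map f
    have h2 : Lb ≤ (Lx r).map f := by
      rw [hLb, hL]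
      show (A ⊔ A.map (MulAut.conj x).toMonoidHom).map f ≤ _
      rw [Subgroup.map_sup]
      refine sup_le (Subgroup.map_mono le_sup_left) ?_
      rintro _ ⟨_, ⟨a, ha, rfl⟩, rfl⟩
      have h3 : f ((MulAut.conj x).toMonoidHom a) ∈ Ax := ⟨f a, Subgroup.mem_map_of_mem f ha, by simp⟩
      rw [← hrbA, H1.SZ.conj_smul_eq_map] at h3
      obtain ⟨_, ⟨a', ha', rfl⟩, h4⟩ := h3
      rw [← h4, ← hrf]
      exact ⟨r * a' * r⁻¹, mem_sup_right ⟨a', ha', rfl⟩, by simp⟩
    have h3 : IsPGroup p Lb := h1.to_le h2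
    have h4 : IsPGroup p (L.map f) := h3
    -- L is a p-group
    have h5 : IsPGroup p (Lb.comap f) := h3.comap_of_ker_isPGroup f (by rw [QuotientGroup.ker_mk']; exact hQp)
    exact h5.to_le (Subgroup.map_le_iff_le_comap.mp le_rfl)
  have hLreq : Lx r = L := by
    apply Subgroup.eq_of_le_of_card_ge hLrle
    exact hmin r ⟨hrC, hLrnot⟩
  have hres : ∀ H : Subgroup M, (pResidual p H).map H.subtype = opUp p H := by
    intro H
    rw [← opUp_top, map_opUp_of_injective p H.subtype_injective, ← MonoidHom.range_eq_map, Subgroup.range_subtype]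
  have hCK : C ≤ Kb.comap f := Subgroup.comap_mono inf_le_left
  have hLr : A ⊔ A.map (MulAut.conj r).toMonoidHom = L := hLreq
  refine ⟨r, hCK hrC, ?_⟩
  rw [hLr, hres]
  have hLAO : L ≤ A ⊔ O := by
    rw [← hLr]
    refine sup_le le_sup_left ?_
    rintro _ ⟨a, ha, rfl⟩
    exact mul_mem (mul_mem (mem_sup_right hrO) (mem_sup_left ha)) (inv_mem (mem_sup_right hrO))
  have hLnO : L ≤ normalizer (O : Set M) := le_normalizer_opUp p L
  -- commutators of B with L lie in Q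
  have hBL : ∀ b ∈ B, ∀ l ∈ L, l * b * l⁻¹ * b⁻¹ ∈ Q := by
    intro b hb l hl
    have h1 : L ≤ (centralizer (Bb : Set (M ⧸ Q))).comap f := by
      rw [← hLr]
      have hA1 : A ≤ (centralizer (Bb : Set (M ⧸ Q))).comap f := by
        intro a ha
        rw [mem_comap, mem_centralizer_iff]
        intro y hy
        exact hAbc y (hBbA hy) _ (Subgroup.mem_map_of_mem f ha)
      have hr1 : r ∈ (centralizer (Bb : Set (M ⧸ Q))).comap f := (mem_inf.mp (show f r ∈ Cb from hrC)).2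
      refine sup_le hA1 ?_
      rintro _ ⟨a, ha, rfl⟩
      exact mul_mem (mul_mem hr1 (hA1 ha)) (inv_mem hr1)
    have h2 := (mem_centralizer_iff.mp (h1 hl)) (f b) (hBmap ▸ Subgroup.mem_map_of_mem f hb)
    rw [← hfker, map_mul, map_mul, map_mul, map_inv, map_inv, ← h2, mul_inv_cancel_right, mul_inv_cancel]
  have hBopc : B ≤ opc p L := by
    have h1 : B ≤ normalizer ((Q ⊓ L : Subgroup M) : Set M) := by
      apply H65.Semi.le_normalizer_inf
      · rw [Subgroup.normalizer_eq_top]; exact le_top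
      · exact (hBA.trans hAL).trans le_normalizer
    have h2 : IsPGroup p (B ⊔ (Q ⊓ L) : Subgroup M) :=
      (hA.to_le hBA).to_sup_of_normal_right' (hQp.to_le inf_le_left) h1
    refine le_trans le_sup_left (le_opc (sup_le (hBA.trans hAL) inf_le_right) ?_ h2)
    rw [le_normalizer_iff]
    intro l hl y hy
    obtain ⟨b, hb, q, hq, rfl⟩ := (H65.Semi.mem_sup_iff h1).mp hy
    have h3 : l * (b * q) * l⁻¹ = (l * b * l⁻¹ * b⁻¹) * b * (l * q * l⁻¹) := by group
    rw [h3]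
    have hQn : Q.Normal := by rw [hQ]; infer_instance
    have h4 : l * b * l⁻¹ * b⁻¹ ∈ Q ⊓ L := by
      refine mem_inf.mpr ⟨hBL b hb l hl, ?_⟩
      exact mul_mem (mul_mem (mul_mem hl (hAL (hBA hb))) (inv_mem hl)) (inv_mem (hAL (hBA hb)))
    have h5 : l * q * l⁻¹ ∈ Q ⊓ L := mem_inf.mpr ⟨hQn.conj_mem q (mem_inf.mp hq).1 l,
      mul_mem (mul_mem hl (mem_inf.mp hq).2) (inv_mem hl)⟩
    exact mul_mem (mul_mem (mem_sup_right h4) (mem_sup_left hb)) (mem_sup_right h5)
  have hAnot : ¬ A ≤ opc p L := by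
    intro h
    apply hLrnot
    have h1 : L ≤ opc p L := by
      conv_lhs => rw [← hLr]
      refine sup_le h ?_
      rintro _ ⟨a, ha, rfl⟩
      exact (mem_normalizer_iff.mp (le_normalizer_opc hrL) a).mp (h ha)
    have h2 : IsPGroup p L := isPGroup_opc.to_le h1
    rwa [← hLreq] at h2
  have hinf : A ⊓ opc p L = B := by
    have h1 : B ≤ A ⊓ opc p L := le_inf hBA hBopc
    have h2 := Subgroup.relIndex_mul_relIndex B (A ⊓ opc p L) A h1 inf_le_left
    rw [hBidx] at h2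
    have h3 : B.relIndex (A ⊓ opc p L) ∣ p := Dvd.intro _ h2
    rcases (Nat.dvd_prime hp).mp h3 with h4 | h4
    · exact le_antisymm (relIndex_eq_one.mp h4) h1
    · exfalso
      rw [h4] at h2
      have h5 : (A ⊓ opc p L).relIndex A = 1 := by
        have h6 : p * (A ⊓ opc p L).relIndex A = p * 1 := by rw [mul_one]; exact h2
        exact Nat.eq_of_mul_eq_mul_left hp.pos h6
      exact hAnot ((relIndex_eq_one.mp h5).trans inf_le_right)
  refine ⟨hrO, hOC.trans hCK, ?_, ?_, ?_⟩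
  · -- [O, A] = O
    apply le_antisymm
    · rw [Subgroup.commutator_comm, Subgroup.commutator_le]
      intro a ha o ho
      rw [commutatorElement_def]
      exact mul_mem ((mem_normalizer_iff.mp (hLnO (hAL ha)) o).mp ho) (inv_mem ho)
    · set N := ⁅O, A⁆ with hN
      have hAN : A ≤ normalizer (N : Set M) := le_normalizer_commutator (hAL.trans hLnO) le_normalizer
      have hLAN : L ≤ A ⊔ N := by
        conv_lhs => rw [← hLr]
        refine sup_le le_sup_left ?_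
        rintro _ ⟨a, ha, rfl⟩
        have : (MulAut.conj r).toMonoidHom a = ⁅r, a⁆ * a := by
          rw [commutatorElement_def]; simp
        rw [this]
        exact mul_mem (mem_sup_right (Subgroup.commutator_mem_commutator hrO ha)) (mem_sup_left ha)
      rw [opUp, Subgroup.closure_le]
      rintro g ⟨hg, hgp⟩
      exact mem_of_coprime hA hAN (hLAN hg) hgp
  · show (A ⊓ opc p L).relIndex A = p
    rw [hinf, hBidx]
  · show ⁅A ⊓ opc p L, L⁆ ≤ Q
    rw [hinf, Subgroup.commutator_comm, Subgroup.commutator_le]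
    intro l hl b hb
    rw [commutatorElement_def]
    exact hBL b hb l hl

end Cfsg.Agent.S3754
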