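import Cfsg.Statements.S3760

set_option autoImplicit false
open Cfsg

namespace Cfsg.Agent.S3760

theorem mem_normalizer_of_map_eq {G : Type*} [Group G] (K : Subgroup G) (n : G)
    (h : K.map (MulAut.conj n).toMonoidHom = K) : n ∈ Subgroup.normalizer (K : Set G) := by
  rw [Subgroup.mem_normalizer_iff]
  intro k
  constructor
  · intro hk
    have h1 : n * k * n⁻¹ ∈ K.map (MulAut.conj n).toMonoidHom := ⟨k, hk, by simp⟩
    rwa [h] at h1
  · intro hk
    have h1 : n * k * n⁻¹ ∈ K.map (MulAut.conj n).toMonoidHom := by rw [h]; exact hk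
    obtain ⟨y, hy, hyk⟩ := h1
    have h2 : n * y * n⁻¹ = n * k * n⁻¹ := by simpa using hyk
    have h3 : y = k := by
      have := mul_right_cancel h2
      exact mul_left_cancel this
    rw [← h3]; exact hy

theorem map_mul_conj {G : Type*} [Group G] (K : Subgroup G) (a b : G) :
    K.map (MulAut.conj (a * b)).toMonoidHom =
      (K.map (MulAut.conj b).toMonoidHom).map (MulAut.conj a).toMonoidHom := by
  rw [Subgroup.map_map]
  congr 1
  ext x
  simp [mul_assoc]

theorem map_of_mem_normalizer {G : Type*} [Group G] (K : Subgroup G) (n : G)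
    (h : n ∈ Subgroup.normalizer (K : Set G)) : K.map (MulAut.conj n).toMonoidHom = K := by
  rw [Subgroup.mem_normalizer_iff] at h
  ext k
  constructor
  · rintro ⟨y, hy, rfl⟩
    simpa using (h y).mp hy
  · intro hk
    refine ⟨n⁻¹ * k * n, ?_, by simp [mul_assoc]⟩
    apply (h _).mpr
    simpa [mul_assoc] using hk

/-- Let the group G act transitively on a set X, let x ∈ X with stabilizer H = G_x, and let K ≤ H. Then N_G(K) acts transitively on the set of fixed points of K if and only if every G-conjugate of K contained in H is already an H-conjugate of K. -/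
theorem result {G : Type*} [Group G] {X : Type*} [MulAction G X] (htrans : ∀ a b : X, ∃ g : G, g • a = b) (x : X) (K : Subgroup G) (hK : K ≤ MulAction.stabilizer G x) : (∀ a b : X, (∀ k ∈ K, k • a = a) → (∀ k ∈ K, k • b = b) → ∃ g ∈ Subgroup.normalizer (K : Set G), g • a = b) ↔ ∀ g : G, K.map (MulAut.conj g).toMonoidHom ≤ MulAction.stabilizer G x → ∃ h ∈ MulAction.stabilizer G x, K.map (MulAut.conj g).toMonoidHom = K.map (MulAut.conj h).toMonoidHom := by
  constructor
  · intro h g hg
    have hfix : ∀ k ∈ K, k • (g⁻¹ • x) = g⁻¹ • x := by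
      intro k hk
      have h1 : g * k * g⁻¹ ∈ MulAction.stabilizer G x := hg ⟨k, hk, by simp⟩
      rw [MulAction.mem_stabilizer_iff] at h1
      rw [eq_inv_smul_iff, smul_smul, smul_smul, h1]
    obtain ⟨n, hn, hnx⟩ := h x (g⁻¹ • x) (fun k hk => MulAction.mem_stabilizer_iff.mp (hK hk)) hfix
    refine ⟨g * n, ?_, ?_⟩
    · rw [MulAction.mem_stabilizer_iff, mul_smul, hnx, smul_inv_smul]
    · rw [map_mul_conj, map_of_mem_normalizer K n hn]
  · intro h a b ha hb
    have key : ∀ a : X, (∀ k ∈ K, k • a = a) → ∃ n ∈ Subgroup.normalizer (K : Set G), n • x = a := by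
      intro a ha
      obtain ⟨g, hg⟩ := htrans x a
      have h1 : K.map (MulAut.conj g⁻¹).toMonoidHom ≤ MulAction.stabilizer G x := by
        rintro _ ⟨k, hk, rfl⟩
        rw [MulAction.mem_stabilizer_iff]
        simp only [MulEquiv.toMonoidHom_eq_coe, MonoidHom.coe_coe, MulAut.conj_apply, inv_inv]
        rw [mul_smul, hg, mul_smul, ha k hk, ← hg, inv_smul_smul]
      obtain ⟨c, hc, hce⟩ := h g⁻¹ h1
      refine ⟨g * c, ?_, ?_⟩
      · apply mem_normalizer_of_map_eq
        rw [map_mul_conj, ← hce, ← map_mul_conj, mul_inv_cancel]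
        exact map_of_mem_normalizer K 1 (Subgroup.one_mem _)
      · rw [mul_smul, MulAction.mem_stabilizer_iff.mp hc, hg]
    obtain ⟨n, hn, hnx⟩ := key a ha
    obtain ⟨m, hm, hmx⟩ := key b hb
    refine ⟨m * n⁻¹, (Subgroup.normalizer (K : Set G)).mul_mem hm ((Subgroup.normalizer (K : Set G)).inv_mem hn), ?_⟩
    rw [← hnx, ← hmx, mul_smul, inv_smul_smul]

end Cfsg.Agent.S3760
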