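import Cfsg.Statements.S3763
import Cfsg.Agent.Lib.H91.ExtModel
import Cfsg.Agent.Lib.H3.ExtraspecialUnique

set_option autoImplicit false
open Cfsg

namespace Cfsg.Agent.S3763

open H91.ExtModel

theorem rank_iff_zero (m k : ℕ) : Cfsg.PRankLE 2 k (EM m 0) ↔ m + 2 ≤ k := by
  constructor
  · intro h
    have h1 := h (A0 m 0) A0_elem.1 A0_elem.2
    rw [card_A0_zero] at h1
    exact (Nat.pow_le_pow_iff_right (by norm_num)).mp h1
  · intro h A hA hA2
    have hp : IsPGroup 2 A := fun a => ⟨1, by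
      rw [pow_one]; exact Subtype.ext (hA2 a a.2)⟩
    haveI : Fact (Nat.Prime 2) := ⟨Nat.prime_two⟩
    obtain ⟨j, hj⟩ := hp.exists_card_eq
    rw [hj]
    exact Nat.pow_le_pow_right (by norm_num) ((rank_le ⟨hA, hA2⟩ hj).trans h)

theorem rank_iff_one (m k : ℕ) : Cfsg.PRankLE 2 k (EM m 1) ↔ m + 1 ≤ k := by
  constructor
  · intro h
    have h1 := h (A0 m 1) A0_elem.1 A0_elem.2
    rw [card_A0_one] at h1
    exact (Nat.pow_le_pow_iff_right (by norm_num)).mp h1
  · intro h A hA hA2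
    have hp : IsPGroup 2 A := fun a => ⟨1, by
      rw [pow_one]; exact Subtype.ext (hA2 a a.2)⟩
    haveI : Fact (Nat.Prime 2) := ⟨Nat.prime_two⟩
    obtain ⟨j, hj⟩ := hp.exists_card_eq
    rw [hj]
    exact Nat.pow_le_pow_right (by norm_num) ((rank_le_one ⟨hA, hA2⟩ hj).trans h)

theorem rank_of_equiv {E : Type*} {F : Type*} [Group E] [Group F] (e : E ≃* F) {k : ℕ} (h : Cfsg.PRankLE 2 k F) :
    Cfsg.PRankLE 2 k E := by
  intro A hA hA2
  have h1 := h (A.map e.toMonoidHom) (by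
    refine ⟨⟨?_⟩⟩
    rintro ⟨_, a, ha, rfl⟩ ⟨_, b, hb, rfl⟩
    apply Subtype.ext
    have := congrArg Subtype.val (hA.is_comm.comm ⟨a, ha⟩ ⟨b, hb⟩)
    show e a * e b = e b * e a
    rw [← map_mul, ← map_mul]
    exact congrArg e this) (by
    rintro _ ⟨a, ha, rfl⟩
    show e a ^ 2 = 1
    rw [← map_pow, hA2 a ha, map_one])
  rwa [Subgroup.card_map_of_injective e.injective] at h1

theorem rank_iff_of_equiv {E : Type*} {F : Type*} [Group E] [Group F] (e : E ≃* F) (k : ℕ) :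
    Cfsg.PRankLE 2 k E ↔ Cfsg.PRankLE 2 k F :=
  ⟨rank_of_equiv e.symm, rank_of_equiv e⟩

theorem model {E : Type*} [Group E] [Finite E] (hE : Cfsg.IsExtraspecial 2 E) (m : ℕ)
    (hm : Nat.card E = 2 ^ (2 * (m + 1) + 1)) : Nonempty (E ≃* EM m 0) ∨ Nonempty (E ≃* EM m 1) := by
  have h0 : Cfsg.IsExtraspecial 2 (EM m 0) := extraspecial
  have h1 : Cfsg.IsExtraspecial 2 (EM m 1) := extraspecial
  rcases H3.ExtraspecialUnique.three_two_groups (Nat.card E) (E₁ := E) (E₂ := EM m 0) (E₃ := EM m 1)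
    (H3.Extraspecial.commutator_le hE.1) hE.2 (H3.Extraspecial.commutator_le h0.1) h0.2
    (H3.Extraspecial.commutator_le h1.1) h1.2 (by rw [hm, card_EM]) (by rw [card_EM, card_EM]) le_rfl with h | h | h
  · exact Or.inl h
  · first
    | exact Or.inr h
    | (exfalso
       obtain ⟨e⟩ := h
       have h2 := (rank_iff_of_equiv e (m + 1)).mpr ((rank_iff_one m (m + 1)).mpr le_rfl)
       rw [rank_iff_zero] at h2
       omega)
  · first
    | exact Or.inr h
    | (exfalso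
       obtain ⟨e⟩ := h
       have h2 := (rank_iff_of_equiv e (m + 1)).mpr ((rank_iff_one m (m + 1)).mpr le_rfl)
       rw [rank_iff_zero] at h2
       omega)

/-- Let E be an extraspecial 2-group of order 2^(2n+1). Then the largest elementary abelian subgroups of E have order 2^n or 2^(n+1); and two extraspecial 2-groups of the same order whose largest elementary abelian subgroups have the same order are isomorphic. -/
theorem result {E : Type*} [Group E] [Finite E] (hE : Cfsg.IsExtraspecial 2 E) (n : ℕ) (hn : Nat.card E = 2 ^ (2 * n + 1)) : ((Cfsg.PRankLE 2 n E ∧ ¬ Cfsg.PRankLE 2 (n - 1) E) ∨ (Cfsg.PRankLE 2 (n + 1) E ∧ ¬ Cfsg.PRankLE 2 n E)) ∧ ∀ (E' : Type*) [Group E'] [Finite E'], Cfsg.IsExtraspecial 2 E' → Nat.card E' = Nat.card E → (∀ k : ℕ, Cfsg.PRankLE 2 k E ↔ Cfsg.PRankLE 2 k E') → Nonempty (E ≃* E') := by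
  haveI : Fact (Nat.Prime 2) := ⟨Nat.prime_two⟩
  obtain ⟨n', hn'1, hn'⟩ := H3.Extraspecial.card_eq_of_isExtraspecial hE
  have hnn : n' = n := by
    rw [hn] at hn'
    have := Nat.pow_right_injective (le_refl 2) hn'
    omega
  subst hnn
  obtain ⟨m, rfl⟩ : ∃ m, n' = m + 1 := ⟨n' - 1, by omega⟩
  have hmod := model hE m hn
  refine ⟨?_, ?_⟩
  · rcases hmod with ⟨⟨e⟩⟩ | ⟨⟨e⟩⟩
    · right
      rw [rank_iff_of_equiv e, rank_iff_of_equiv e, rank_iff_zero, rank_iff_zero]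
      omega
    · left
      rw [rank_iff_of_equiv e, rank_iff_of_equiv e, rank_iff_one, rank_iff_one]
      omega
  · intro E' _ _ hE' hcard hrank
    have hmod' := model hE' m (hcard.trans hn)
    rcases hmod with ⟨⟨e⟩⟩ | ⟨⟨e⟩⟩ <;> rcases hmod' with ⟨⟨f⟩⟩ | ⟨⟨f⟩⟩
    · exact ⟨e.trans f.symm⟩
    · exfalso
      have := hrank (m + 1)
      rw [rank_iff_of_equiv e, rank_iff_of_equiv f, rank_iff_zero, rank_iff_one] at this
      omega
    · exfalso
      have := hrank (m + 1)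
      rw [rank_iff_of_equiv e, rank_iff_of_equiv f, rank_iff_zero, rank_iff_one] at this
      omega
    · exact ⟨e.trans f.symm⟩

end Cfsg.Agent.S3763
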