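import Cfsg.Statements.S3766
import Cfsg.Agent.Lib.H65.Chief

set_option autoImplicit false
open Cfsg

namespace Cfsg.Agent.S3766

/-- Let G be a finite solvable group and N a normal subgroup of G. Call a pair V < U of normal subgroups of G a chief factor of G when no normal subgroup of G lies strictly between them; an element g centralizes the chief factor U/V when u g u⁻¹ g⁻¹ ∈ V for all u ∈ U. Then an element of G lies in the Fitting subgroup F(N) if and only if it lies in N and centralizes every chief factor of G; and also if and only if it lies in N and centralizes every chief factor U/V of G with U ≤ F(N). -/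
theorem result {G : Type*} [Group G] [Finite G] (hG : Group.IsSolvable G) (N : Subgroup G) [N.Normal] (g : G) : (g ∈ (Cfsg.fittingSubgroup ↥N).map N.subtype ↔ g ∈ N ∧ ∀ U V : Subgroup G, (U.Normal ∧ V.Normal ∧ V < U ∧ ∀ W : Subgroup G, W.Normal → V ≤ W → W ≤ U → W = V ∨ W = U) → ∀ u ∈ U, u * g * u⁻¹ * g⁻¹ ∈ V) ∧ (g ∈ (Cfsg.fittingSubgroup ↥N).map N.subtype ↔ g ∈ N ∧ ∀ U V : Subgroup G, (U.Normal ∧ V.Normal ∧ V < U ∧ ∀ W : Subgroup G, W.Normal → V ≤ W → W ≤ U → W = V ∨ W = U) → U ≤ (Cfsg.fittingSubgroup ↥N).map N.subtype → ∀ u ∈ U, u * g * u⁻¹ * g⁻¹ ∈ V) := by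
  have hFn : ((fittingSubgroup N).map N.subtype).Normal := by
    rw [H1.Cores.map_subtype_fittingSubgroup]; infer_instance
  have hFnil : Group.IsNilpotent ((fittingSubgroup N).map N.subtype : Subgroup G) := by
    have h1 : Group.IsNilpotent (fittingSubgroup N) := H1.Cores.isNilpotent_fittingSubgroup
    exact Group.nilpotent_of_mulEquiv ((fittingSubgroup N).equivMapOfInjective _ N.subtype_injective)
  have h1 : g ∈ (Cfsg.fittingSubgroup ↥N).map N.subtype → g ∈ N ∧ ∀ U V : Subgroup G, (U.Normal ∧ V.Normal ∧ V < U ∧ ∀ W : Subgroup G, W.Normal → V ≤ W → W ≤ U → W = V ∨ W = U) → ∀ u ∈ U, u * g * u⁻¹ * g⁻¹ ∈ V :=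
    fun hg => ⟨Subgroup.map_subtype_le _ hg, fun U V hUV u hu =>
      H65.Chief.nilpotent_centralizes hFnil hUV u hu g hg⟩
  have h2 : (g ∈ N ∧ ∀ U V : Subgroup G, (U.Normal ∧ V.Normal ∧ V < U ∧ ∀ W : Subgroup G, W.Normal → V ≤ W → W ≤ U → W = V ∨ W = U) → U ≤ (Cfsg.fittingSubgroup ↥N).map N.subtype → ∀ u ∈ U, u * g * u⁻¹ * g⁻¹ ∈ V) → g ∈ (Cfsg.fittingSubgroup ↥N).map N.subtype :=
    fun h => H65.Chief.main hG N h
  exact ⟨⟨h1, fun h => h2 ⟨h.1, fun U V hUV _ => h.2 U V hUV⟩⟩, ⟨fun h => ⟨(h1 h).1, fun U V hUV _ => (h1 h).2 U V hUV⟩, h2⟩⟩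

end Cfsg.Agent.S3766
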