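import Cfsg.Statements.S3771
import Cfsg.Agent.S3741

set_option autoImplicit false
open Cfsg
open scoped commutatorElement

namespace Cfsg.Agent.S3771

open Subgroup

/-- Let p be a prime and R a finite p-group of p-rank at most 2 (no elementary abelian subgroup of order p³) in which every element has order dividing p. Then R has order at most p³. -/
theorem result {R : Type*} [Group R] [Finite R] {p : ℕ} [Fact p.Prime] (hR : IsPGroup p R) (hrank : Cfsg.PRankLE p 2 R) (hexp : ∀ x : R, x ^ p = 1) : Nat.card R ≤ p ^ 3 := by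
  classical
  have hp : p.Prime := Fact.out
  obtain ⟨A, hAn, hAc, hA⟩ := H65.PBasic.exists_selfcentralizing hR
  have hA2 : Nat.card A ≤ p ^ 2 := hrank A hAc (fun a _ => hexp a)
  by_cases hA1 : A = ⊥
  · -- then R is trivial
    have h1 : (⊤ : Subgroup R) = ⊥ := by
      rw [← hA1, ← hA, hA1]
      rw [eq_comm, eq_top_iff]
      intro x _
      rw [mem_centralizer_iff]
      intro y hy
      rw [SetLike.mem_coe, mem_bot] at hy
      simp [hy]
    have h2 : Nat.card R = 1 := by
      rw [← Subgroup.card_top, h1, Subgroup.card_bot]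
    rw [h2]
    exact Nat.one_le_pow _ _ hp.pos
  · -- Z₁ = A ∩ Z(R)
    let Z₁ : Subgroup R := A ⊓ center R
    have hZ1 : Z₁ ≠ ⊥ := H65.PBasic.inf_center_ne_bot hR A hA1
    have hZn : Z₁.Normal := inferInstance
    have hpZ : p ≤ Nat.card Z₁ := by
      rcases (hR.to_subgroup Z₁).card_eq_or_dvd with h | h
      · exact absurd (Subgroup.card_eq_one.mp h) hZ1
      · exact Nat.le_of_dvd Nat.card_pos h
    have hrel : Z₁.relIndex A * Nat.card Z₁ = Nat.card A := by
      have h := Subgroup.relIndex_mul_relIndex ⊥ Z₁ A bot_le inf_le_left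
      rw [Subgroup.relIndex_bot_left, Subgroup.relIndex_bot_left] at h
      rw [mul_comm]; exact h
    have hrelp : Z₁.relIndex A ≤ p := by
      by_contra hlt
      push Not at hlt
      have : p * p < Z₁.relIndex A * Nat.card Z₁ :=
        Nat.mul_lt_mul_of_lt_of_le hlt hpZ Nat.card_pos
      rw [hrel] at this
      rw [pow_two] at hA2
      omega
    -- [A, R] ≤ Z₁ or |A : Z₁| = 1
    have hcomm : ⁅A, (⊤ : Subgroup R)⁆ ≤ Z₁ := by
      -- image of A in R / Z₁ has order at most p
      have hcard : Nat.card (A.map (QuotientGroup.mk' Z₁)) = Z₁.relIndex A := by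
        rw [← Subgroup.relIndex_ker, QuotientGroup.ker_mk']
      have hcen : A.map (QuotientGroup.mk' Z₁) ≤ centralizer ((⊤ : Subgroup (R ⧸ Z₁)) : Set (R ⧸ Z₁)) := by
        rcases (hR.to_quotient Z₁).to_subgroup (A.map (QuotientGroup.mk' Z₁)) |>.card_eq_or_dvd with h | h
        · rw [Subgroup.card_eq_one.mp h]; exact bot_le
        · apply H65.PBasic.le_centralizer_of_card_eq_prime (p := p) _ _ ((hR.to_quotient Z₁).to_subgroup _)
          · exact le_antisymm (hcard ▸ hrelp) (Nat.le_of_dvd Nat.card_pos h)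
          · have : (A.map (QuotientGroup.mk' Z₁)).Normal := hAn.map _ (QuotientGroup.mk'_surjective Z₁)
            rw [normalizer_eq_top]
      rw [commutator_le]
      intro a ha r _
      rw [← QuotientGroup.eq_one_iff]
      have h1 := mem_centralizer_iff.mp (hcen (mem_map_of_mem (QuotientGroup.mk' Z₁) ha)) (QuotientGroup.mk' Z₁ r) (mem_top _)
      change ((⁅a, r⁆ : R) : R ⧸ Z₁) = 1
      have h3 : ((⁅a, r⁆ : R) : R ⧸ Z₁) = ⁅(QuotientGroup.mk' Z₁ a), (QuotientGroup.mk' Z₁ r)⁆ := by
        rw [← map_commutatorElement]; rfl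
      rw [h3]
      exact commutatorElement_eq_one_iff_mul_comm.mpr h1.symm
    -- the order of [A, R] is at most p
    have hcard' : Nat.card ↥⁅A, (⊤ : Subgroup R)⁆ ≤ p := by
      by_cases hZA : Z₁ = A
      · -- then A is central and [A,R] = 1
        have : ⁅A, (⊤ : Subgroup R)⁆ = ⊥ := by
          rw [commutator_eq_bot_iff_le_centralizer]
          rw [Subgroup.coe_top, centralizer_univ, ← hZA]
          exact inf_le_right
        rw [this, Subgroup.card_bot]
        exact hp.pos
      · -- |Z₁| < |A| ≤ p²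
        have hlt : Nat.card Z₁ < Nat.card A := by
          rcases lt_or_ge (Nat.card Z₁) (Nat.card A) with h | h
          · exact h
          · exact absurd (Subgroup.eq_of_le_of_card_ge inf_le_left h) hZA
        obtain ⟨k, hk⟩ := (hR.to_subgroup Z₁).exists_card_eq
        have hk1 : k ≤ 1 := by
          by_contra hk1
          push Not at hk1
          have : p ^ 2 ≤ p ^ k := Nat.pow_le_pow_right hp.pos hk1
          rw [← hk] at this
          omega
        calc Nat.card ↥⁅A, (⊤ : Subgroup R)⁆ ≤ Nat.card Z₁ := Subgroup.card_le_of_le hcomm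
          _ = p ^ k := hk
          _ ≤ p ^ 1 := Nat.pow_le_pow_right hp.pos hk1
          _ = p := pow_one p
    have hle : ⁅A, (⊤ : Subgroup R)⁆ ≤ A ⊓ ⊤ := by
      rw [inf_top_eq]
      exact hcomm.trans inf_le_left
    have key := Cfsg.Agent.S3741.result hR A ⊤ hle hcard'
    rw [Subgroup.coe_top, centralizer_univ, top_inf_eq, hA, Subgroup.relIndex_top_right] at key
    have h1 : A.index ≤ p := by
      rw [← key]; exact hrelp
    calc Nat.card R = Nat.card A * A.index := (Subgroup.card_mul_index A).symm
      _ ≤ p ^ 2 * p := Nat.mul_le_mul hA2 h1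
      _ = p ^ 3 := by ring

end Cfsg.Agent.S3771
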