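import Cfsg.Statements.S3772
import Cfsg.Agent.Lib.H65.PBasic
import Cfsg.Agent.Lib.H65.Frat
import Cfsg.Agent.Lib.H65.GaussSum
import Cfsg.Agent.Lib.H3.PBasic
import Cfsg.Agent.Lib.H3.ClassTwo
import Cfsg.Agent.Lib.H3.Extraspecial

set_option autoImplicit false
open Cfsg

namespace Cfsg.Agent.S3772

open scoped commutatorElement

theorem card_sq_eq {G : Type*} [Group G] [Finite G] (hG : IsPGroup 2 G) (hΦ : Nat.card (frattini G) = 2)
    (d : ℕ) (hd : (frattini G).index = 2 ^ d) :
    ∃ j c : ℕ, Nat.card {x : G // x ^ 2 = 1} = j ∧ Nat.card (Subgroup.center G) = 2 ^ c ∧ 1 ≤ c ∧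
      1 ≤ j ∧ j < 2 ^ (d + 1) ∧ commutator G ≤ Subgroup.center G ∧
      ((2 * j : ℤ) - 2 ^ (d + 1) = 0 ∨ ((2 * j : ℤ) - 2 ^ (d + 1)) ^ 2 = 2 ^ (d + 1 + c)) := by
  classical
  have : Fact (Nat.Prime 2) := ⟨Nat.prime_two⟩
  have : Fintype G := Fintype.ofFinite G
  have hcardG : Nat.card G = 2 ^ (d + 1) := by
    rw [← Subgroup.card_mul_index (frattini G), hΦ, hd, pow_succ, mul_comm]
  have hΦn : (frattini G).Normal := inferInstance
  have hΦc : frattini G ≤ Subgroup.center G := by
    have := H65.PBasic.le_centralizer_of_card_eq_prime (⊤ : Subgroup G) (frattini G) (hG.to_subgroup _) hΦ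
      (by rw [Subgroup.normalizer_eq_top])
    rwa [Subgroup.coe_top, Subgroup.centralizer_univ] at this
  have hcommΦ : commutator G ≤ frattini G := H3.PBasic.commutator_le_frattini hG
  have hZ : commutator G ≤ Subgroup.center G := hcommΦ.trans hΦc
  have hcm : ∀ x y : G, ⁅x, y⁆ ∈ frattini G := fun x y => hcommΦ (by
    rw [commutator_def]
    exact Subgroup.commutator_mem_commutator (Subgroup.mem_top _) (Subgroup.mem_top _))
  have hpm : ∀ x : G, x ^ 2 ∈ frattini G := fun x => H3.PBasic.pow_mem_frattini hG x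
  -- the isomorphism Φ ≃ ℤˣ
  have hU : Nat.card ℤˣ = 2 := by
    rw [Nat.card_eq_fintype_card, Fintype.card_units_int]
  let ε : frattini G ≃* ℤˣ := mulEquivOfPrimeCardEq hΦ hU
  let s : G → ℤˣ := fun x => ε ⟨x ^ 2, hpm x⟩
  let b : G →* (G →* ℤˣ) :=
    { toFun := fun x =>
        { toFun := fun y => ε ⟨⁅x, y⁆, hcm x y⟩
          map_one' := by
            rw [← map_one ε]
            congr 1
            apply Subtype.ext
            simp
          map_mul' := by
            intro y y'
            rw [← map_mul]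
            congr 1
            apply Subtype.ext
            exact H3.ClassTwo.mul_right hZ x y y' }
      map_one' := by
        ext y
        simp only [MonoidHom.coe_mk, OneHom.coe_mk, MonoidHom.one_apply]
        congr 1
        rw [← map_one ε]
        congr 1
        apply Subtype.ext
        simp
      map_mul' := by
        intro x x'
        ext y
        simp only [MonoidHom.coe_mk, OneHom.coe_mk, MonoidHom.mul_apply]
        congr 1
        rw [← map_mul]
        congr 1
        apply Subtype.ext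
        exact H3.ClassTwo.mul_left hZ x x' y }
  have hb : ∀ u v, s (u * v) = s u * s v * b u v := by
    intro u v
    have h1 : b u v = (ε ⟨⁅v, u⁆, hcm v u⟩) := by
      have h2 : (⟨⁅v, u⁆, hcm v u⟩ : frattini G) = (⟨⁅u, v⁆, hcm u v⟩ : frattini G)⁻¹ := by
        apply Subtype.ext
        simp
      rw [h2, map_inv, Int.units_inv_eq_self]
      rfl
    rw [h1]
    show ε _ = ε _ * ε _ * ε _
    rw [← map_mul, ← map_mul]
    congr 1
    apply Subtype.ext
    have := H3.ClassTwo.mul_pow hZ u v 2
    simpa using this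
  have key := H65.GaussSum.sq_sum s b hb
  -- S = 2 j - |G|
  have hs1 : ∀ x : G, s x = 1 ↔ x ^ 2 = 1 := by
    intro x
    constructor
    · intro h
      have h1 : (⟨x ^ 2, hpm x⟩ : frattini G) = 1 := ε.map_eq_one_iff.mp h
      exact congrArg Subtype.val h1
    · intro h
      show ε _ = 1
      rw [MulEquiv.map_eq_one_iff]
      exact Subtype.ext h
  have hj : Nat.card {x : G // x ^ 2 = 1} = (Finset.univ.filter (fun x : G => x ^ 2 = 1)).card := by
    rw [Nat.card_eq_fintype_card, Fintype.card_subtype]
  have hS : (∑ x, (s x : ℤ)) = 2 * (Nat.card {x : G // x ^ 2 = 1} : ℤ) - 2 ^ (d + 1) := by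
    have h1 : ∀ x : G, (s x : ℤ) = 2 * (if x ^ 2 = 1 then 1 else 0) - 1 := by
      intro x
      by_cases hx : x ^ 2 = 1
      · rw [(hs1 x).mpr hx, if_pos hx]; norm_num
      · have h2 : s x = -1 := by
          rcases Int.units_eq_one_or (s x) with h | h
          · exact absurd ((hs1 x).mp h) hx
          · exact h
        rw [h2, if_neg hx]; norm_num
    rw [Finset.sum_congr rfl (fun x _ => h1 x), Finset.sum_sub_distrib, ← Finset.mul_sum, Finset.sum_boole,
      Finset.sum_const, Finset.card_univ, ← Nat.card_eq_fintype_card (α := G), hcardG, hj]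
    simp
  have hker : b.flip.ker = Subgroup.center G := by
    ext y
    rw [MonoidHom.mem_ker, Subgroup.mem_center_iff]
    constructor
    · intro h x
      have h1 : b x y = 1 := by
        have := DFunLike.congr_fun h x
        simpa using this
      have h2 : (⟨⁅x, y⁆, hcm x y⟩ : frattini G) = 1 := ε.map_eq_one_iff.mp h1
      exact commutatorElement_eq_one_iff_mul_comm.mp (congrArg Subtype.val h2)
    · intro h
      ext x
      have h1 : ⁅x, y⁆ = 1 := commutatorElement_eq_one_iff_mul_comm.mpr (h x)
      have h2 : b x y = 1 := by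
        show ε _ = 1
        rw [MulEquiv.map_eq_one_iff]
        exact Subtype.ext h1
      simp [h2]
  obtain ⟨c, hc⟩ := (hG.to_subgroup (Subgroup.center G)).exists_card_eq
  rw [hS, hker, hc, hcardG] at key
  refine ⟨_, c, rfl, hc, ?_, ?_, ?_, hZ, ?_⟩
  · -- 1 ≤ c
    by_contra h0
    have h0' : c = 0 := by omega
    rw [h0', pow_zero, Subgroup.card_eq_one] at hc
    rw [hc, le_bot_iff] at hΦc
    rw [hΦc, Subgroup.card_bot] at hΦ
    omega
  · have : Nonempty {x : G // x ^ 2 = 1} := ⟨⟨1, one_pow 2⟩⟩
    exact Nat.card_pos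
  · -- not every element squares to 1
    rw [← hcardG]
    by_contra hge
    push Not at hge
    have hall : ∀ x : G, x ^ 2 = 1 := by
      have h1 : Function.Bijective (Subtype.val : {x : G // x ^ 2 = 1} → G) := by
        rw [Nat.bijective_iff_injective_and_card]
        exact ⟨Subtype.val_injective, le_antisymm (Nat.card_le_card_of_injective _ Subtype.val_injective) hge⟩
      intro x
      obtain ⟨y, rfl⟩ := h1.2 x
      exact y.2
    have hcomm : commutator G ≤ (⊥ : Subgroup G) := by
      rw [commutator_def, Subgroup.commutator_le]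
      intro x _ y _
      rw [Subgroup.mem_bot, commutatorElement_eq_one_iff_mul_comm]
      have hx : x⁻¹ = x := inv_eq_of_mul_eq_one_left (by rw [← sq]; exact hall x)
      have hy : y⁻¹ = y := inv_eq_of_mul_eq_one_left (by rw [← sq]; exact hall y)
      have hxy : (x * y)⁻¹ = x * y := inv_eq_of_mul_eq_one_left (by rw [← sq]; exact hall _)
      rw [mul_inv_rev, hx, hy] at hxy
      exact hxy.symm
    have := H65.Frat.frattini_le_of (p := 2) (⊥ : Subgroup G) (fun x => by rw [hall x]; exact Subgroup.mem_bot.mpr rfl) hcomm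
    rw [le_bot_iff.mp this, Subgroup.card_bot] at hΦ
    omega
  · rcases key with h | h
    · left
      exact pow_eq_zero_iff (two_ne_zero) |>.mp h
    · right
      rw [h, pow_add]
      push_cast
      ring

/-- Let G be a finite 2-group whose Frattini subgroup Φ(G) has order 2, with |G : Φ(G)| = 2^d, and let j be the number of elements x of G with x² = 1. Then j = 2^d, or j = 2^d + 2^(d−r) or j = 2^d − 2^(d−r) for some positive integer r with 2r ≤ d. Moreover if d = 2r and j is 2^d + 2^r or 2^d − 2^r, then G is extraspecial. -/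
theorem result {G : Type*} [Group G] [Finite G] (hG : IsPGroup 2 G) (hΦ : Nat.card (frattini G) = 2) (d : ℕ) (hd : (frattini G).index = 2 ^ d) : (Nat.card {x : G // x ^ 2 = 1} = 2 ^ d ∨ ∃ r : ℕ, 1 ≤ r ∧ 2 * r ≤ d ∧ (Nat.card {x : G // x ^ 2 = 1} = 2 ^ d + 2 ^ (d - r) ∨ Nat.card {x : G // x ^ 2 = 1} + 2 ^ (d - r) = 2 ^ d)) ∧ (∀ r : ℕ, d = 2 * r → (Nat.card {x : G // x ^ 2 = 1} = 2 ^ d + 2 ^ r ∨ Nat.card {x : G // x ^ 2 = 1} + 2 ^ r = 2 ^ d) → Cfsg.IsExtraspecial 2 G) := by
  have : Fact (Nat.Prime 2) := ⟨Nat.prime_two⟩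
  obtain ⟨j, c, hj, hc, hc1, hj1, hj2, hZ, key⟩ := card_sq_eq hG hΦ d hd
  rw [hj]
  -- analysis of the square
  have hm : (2 * j : ℤ) - 2 ^ (d + 1) = 0 ∨ ∃ e : ℕ, 2 * e = d + 1 + c ∧
      ((2 * j : ℤ) - 2 ^ (d + 1) = 2 ^ e ∨ (2 * j : ℤ) - 2 ^ (d + 1) = - 2 ^ e) := by
    rcases key with h | h
    · left; exact h
    · right
      set S : ℤ := (2 * j : ℤ) - 2 ^ (d + 1) with hSdef
      have h1 : S.natAbs ^ 2 = 2 ^ (d + 1 + c) := by
        zify
        rw [sq_abs]
        exact h
      obtain ⟨e, he, hSe⟩ := (Nat.dvd_prime_pow Nat.prime_two).mp (h1 ▸ dvd_pow_self _ two_ne_zero : S.natAbs ∣ 2 ^ (d + 1 + c))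
      refine ⟨e, ?_, ?_⟩
      · rw [hSe, ← pow_mul] at h1
        have := Nat.pow_right_injective le_rfl h1
        omega
      · rcases Int.natAbs_eq S with h2 | h2
        · left; rw [h2, hSe]; push_cast; rfl
        · right; rw [h2, hSe]; push_cast; rfl
  have hpow : (2 : ℤ) ^ (d + 1) = 2 * 2 ^ d := by rw [pow_succ]; ring
  constructor
  · rcases hm with h | ⟨e, he, h⟩
    · left
      rw [hpow] at h
      have : (j : ℤ) = 2 ^ d := by linarith
      exact_mod_cast this
    · right
      have he1 : 1 ≤ e := by omega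
      have hpe : (2 : ℤ) ^ e = 2 * 2 ^ (e - 1) := by
        conv_lhs => rw [← Nat.sub_add_cancel he1, pow_succ]
        ring
      have hed : e ≤ d := by
        by_contra hlt
        push Not at hlt
        have h3 : (2 : ℤ) ^ (d + 1) ≤ 2 ^ e := pow_le_pow_right₀ (by norm_num) hlt
        have hj2' : (j : ℤ) < 2 ^ (d + 1) := by exact_mod_cast hj2
        have hj1' : (1 : ℤ) ≤ j := by exact_mod_cast hj1
        rcases h with h | h
        · linarith
        · linarith
      refine ⟨d + 1 - e, by omega, by omega, ?_⟩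
      have hde : d - (d + 1 - e) = e - 1 := by omega
      rw [hde]
      rcases h with h | h
      · left
        rw [hpow, hpe] at h
        have : (j : ℤ) = 2 ^ d + 2 ^ (e - 1) := by linarith
        exact_mod_cast this
      · right
        rw [hpow, hpe] at h
        have : (j : ℤ) + 2 ^ (e - 1) = 2 ^ d := by linarith
        exact_mod_cast this
  · intro r hr hjr
    have hSr : (2 * j : ℤ) - 2 ^ (d + 1) = 2 ^ (r + 1) ∨ (2 * j : ℤ) - 2 ^ (d + 1) = - 2 ^ (r + 1) := by
      rcases hjr with h | h
      · left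
        have h' : (j : ℤ) = 2 ^ d + 2 ^ r := by exact_mod_cast h
        rw [h', pow_succ, pow_succ]; ring
      · right
        have h' : (j : ℤ) = 2 ^ d - 2 ^ r := by
          have : (j : ℤ) + 2 ^ r = 2 ^ d := by exact_mod_cast h
          linarith
        rw [h', pow_succ, pow_succ]; ring
    have hc' : c = 1 := by
      have h1 : ((2 * j : ℤ) - 2 ^ (d + 1)) ^ 2 = 2 ^ (2 * r + 2) := by
        rcases hSr with h | h
        · rw [h, ← pow_mul]; ring_nf
        · rw [h, neg_sq, ← pow_mul]; ring_nf
      rcases key with h | h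
      · rw [h] at h1
        have : (0 : ℤ) < 2 ^ (2 * r + 2) := by positivity
        rw [← h1] at this
        norm_num at this
      · rw [h1] at h
        have h2 : (2 : ℕ) ^ (2 * r + 2) = 2 ^ (d + 1 + c) := by exact_mod_cast h
        have h3 := Nat.pow_right_injective le_rfl h2
        omega
    rw [hc', pow_one] at hc
    -- G is not abelian
    have hr0 : 1 ≤ d := by
      by_contra h0
      have h0' : d = 0 := by omega
      rw [h0', pow_zero, Subgroup.index_eq_one] at hd
      have hlt : frattini G ≠ ⊤ := by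
        have hnt : Nontrivial G := by
          rw [← Finite.one_lt_card_iff_nontrivial, ← Subgroup.card_top (G := G), ← hd, hΦ]
          norm_num
        obtain ⟨K, hK, -⟩ := (eq_top_or_exists_le_coatom (⊥ : Subgroup G)).resolve_left bot_ne_top
        intro h
        exact hK.1 (top_le_iff.mp (h ▸ frattini_le_coatom hK))
      exact hlt hd
    apply H3.Extraspecial.isExtraspecial_of hZ hc
    by_contra hcon
    push Not at hcon
    have htop : Subgroup.center G = ⊤ := by
      rw [eq_top_iff]
      intro x _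
      rw [Subgroup.mem_center_iff]
      intro y
      exact commutatorElement_eq_one_iff_mul_comm.mp (hcon y x)
    have hcardG : Nat.card G = 2 ^ (d + 1) := by
      rw [← Subgroup.card_mul_index (frattini G), hΦ, hd, pow_succ, mul_comm]
    rw [htop, Subgroup.card_top, hcardG] at hc
    have : d + 1 = 1 := Nat.pow_right_injective le_rfl (by simpa using hc)
    omega

end Cfsg.Agent.S3772
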