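import Cfsg.Statements.S3773
import Cfsg.Agent.Lib.H65.SqCount
import Cfsg.Agent.Lib.H65.Frat
import Cfsg.Agent.Lib.H3.PBasic

set_option autoImplicit false
open Cfsg

namespace Cfsg.Agent.S3773

open scoped commutatorElement

/-- Let G be a finite 2-group of nilpotency class at most 2 and exponent dividing 4 in which the elements x with x² = 1 form a subgroup N. Then |G| ≤ |N|³, and |G| < |N|³ unless G is special. -/
theorem result {G : Type*} [Group G] [Finite G] (hG : IsPGroup 2 G) (hcl : (⊤ : Subgroup G).lowerCentralSeries 2 = ⊥) (hexp : ∀ x : G, x ^ 4 = 1) (hN : ∀ x y : G, x ^ 2 = 1 → y ^ 2 = 1 → (x * y) ^ 2 = 1) : Nat.card G ≤ Nat.card {x : G // x ^ 2 = 1} ^ 3 ∧ (¬ Cfsg.IsSpecial 2 G → Nat.card G < Nat.card {x : G // x ^ 2 = 1} ^ 3) := by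
  classical
  have : Fact (Nat.Prime 2) := ⟨Nat.prime_two⟩
  have hZ : commutator G ≤ Subgroup.center G := by
    apply H3.ClassTwo.commutator_le_center_of_class_two
    rw [← Subgroup.top_lowerCentralSeries_one]
    exact hcl
  let N : Subgroup G :=
    { carrier := {x | x ^ 2 = 1}
      mul_mem' := fun {x y} hx hy => hN x y hx hy
      one_mem' := one_pow 2
      inv_mem' := by
        intro x hx
        have hx' : x ^ 2 = 1 := hx
        show x⁻¹ ^ 2 = 1
        rw [inv_pow, hx', inv_one] }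
  have hNmem : ∀ x : G, x ∈ N ↔ x ^ 2 = 1 := fun x => Iff.rfl
  have hNcard : Nat.card {x : G // x ^ 2 = 1} = Nat.card N := rfl
  have hsqN : ∀ x : G, x ^ 2 ∈ N := by
    intro x
    rw [hNmem, ← pow_mul]
    exact hexp x
  -- commutators have order at most 2
  have hcm2 : ∀ x y : G, ⁅x, y⁆ ^ 2 = 1 := by
    intro y x
    have h1 := H3.ClassTwo.mul_pow hZ x y 2
    have h2 : ((x * y) ^ 2) ^ 2 = 1 := hsqN (x * y)
    have h3 : (x ^ 2 * y ^ 2) ^ 2 = 1 := N.mul_mem (hsqN x) (hsqN y)
    have h4 : Commute ⁅y, x⁆ (x ^ 2 * y ^ 2) := H3.ClassTwo.commute_comm hZ y x _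
    rw [h1, Nat.choose_self, pow_one, h4.symm.mul_pow, h3, one_mul] at h2
    exact h2
  have hsqZ : ∀ x : G, x ^ 2 ∈ Subgroup.center G := by
    intro x
    rw [Subgroup.mem_center_iff]
    intro y
    have h1 := H3.ClassTwo.pow_right hZ y x 2
    rw [hcm2] at h1
    exact commutatorElement_eq_one_iff_mul_comm.mp h1
  have hcmZ : ∀ x y : G, ⁅x, y⁆ ∈ Subgroup.center G := H3.ClassTwo.commutator_le_center_iff.mp hZ
  let Z₁ : Subgroup G := N ⊓ Subgroup.center G
  obtain ⟨g, hg⟩ := hG.exists_card_eq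
  obtain ⟨n, hn⟩ := (hG.to_subgroup N).exists_card_eq
  obtain ⟨m, hm⟩ := (hG.to_subgroup Z₁).exists_card_eq
  obtain ⟨z, hz⟩ := (hG.to_subgroup (Subgroup.center G)).exists_card_eq
  have hinj : ∀ a b : ℕ, (2 : ℕ) ^ a ≤ 2 ^ b → a ≤ b := fun a b h => (Nat.pow_le_pow_iff_right (by norm_num)).mp h
  have hmn : m ≤ n := by
    apply hinj; rw [← hm, ← hn]
    exact Subgroup.card_le_of_le inf_le_left
  have hmz : m ≤ z := by
    apply hinj; rw [← hm, ← hz]
    exact Subgroup.card_le_of_le inf_le_right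
  have hmain : g + z ≤ 2 * (n + m) := by
    apply H65.SqCount.main Z₁ inf_le_right (fun x hx => hx.1)
      (fun x => Subgroup.mem_inf.mpr ⟨hsqN x, hsqZ x⟩)
      (fun x y => Subgroup.mem_inf.mpr ⟨hcm2 x y, hcmZ x y⟩) g m z n hg hm
    · rw [hz]
    · rw [hNcard, hn]
  have hle : Nat.card G ≤ Nat.card {x : G // x ^ 2 = 1} ^ 3 := by
    rw [hg, hNcard, hn, ← pow_mul]
    exact Nat.pow_le_pow_right (by norm_num) (by omega)
  refine ⟨hle, fun hns => lt_of_le_of_ne hle ?_⟩
  intro heq
  apply hns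
  have hg3 : g = 3 * n := by
    rw [hg, hNcard, hn, ← pow_mul] at heq
    have := Nat.pow_right_injective le_rfl heq
    omega
  have hmn' : m = n := by omega
  have hzn' : z = n := by omega
  have hNZ₁ : Z₁ = N := Subgroup.eq_of_le_of_card_ge inf_le_left (by rw [hm, hn, hmn'])
  have hZZ₁ : Z₁ = Subgroup.center G := Subgroup.eq_of_le_of_card_ge inf_le_right (by rw [hm, hz, hmn', hzn'])
  have hNZ : N = Subgroup.center G := hNZ₁.symm.trans hZZ₁
  have hcommN : commutator G = Subgroup.center G := by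
    by_contra hne
    -- a nontrivial character of N = Z(G) trivial on G'
    have hlt : commutator G < Subgroup.center G := lt_of_le_of_ne hZ hne
    obtain ⟨a, haZ, haC⟩ := SetLike.exists_of_lt hlt
    let Z := Subgroup.center G
    let C : Subgroup Z := (commutator G).subgroupOf Z
    let _ : CommGroup (Z ⧸ C) :=
      { (inferInstance : Group (Z ⧸ C)) with
        mul_comm := by
          intro x y
          induction x using QuotientGroup.induction_on with
          | H x =>
            induction y using QuotientGroup.induction_on with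
            | H y =>
              show ((x * y : Z) : Z ⧸ C) = ((y * x : Z) : Z ⧸ C)
              congr 1
              exact Subtype.ext ((Subgroup.mem_center_iff.mp y.2) x) }
    have hQ2 : ∀ x : Z ⧸ C, x ^ 2 = 1 := by
      intro x
      induction x using QuotientGroup.induction_on with
      | H x =>
        rw [← QuotientGroup.mk_pow]
        have : x ^ 2 = 1 := by
          apply Subtype.ext
          have hx : (x : G) ∈ N := by rw [hNZ]; exact x.2
          exact hx
        rw [this]; rfl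
    have hen := H65.SqCount.hasEnough_of_sq hQ2
    have hane : ((⟨a, haZ⟩ : Z) : Z ⧸ C) ≠ 1 := by
      intro h
      rw [QuotientGroup.eq_one_iff, Subgroup.mem_subgroupOf] at h
      exact haC h
    obtain ⟨φ, hφ⟩ := CommGroup.exists_apply_ne_one_of_hasEnoughRootsOfUnity (Z ⧸ C) ℤ hane
    let χ : Z →* ℤˣ := φ.comp (QuotientGroup.mk' C)
    have hχC : ∀ x : Z, (x : G) ∈ commutator G → χ x = 1 := by
      intro x hx
      have : (QuotientGroup.mk' C) x = 1 := (QuotientGroup.eq_one_iff x).mpr (Subgroup.mem_subgroupOf.mpr hx)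
      show φ ((QuotientGroup.mk' C) x) = 1
      rw [this, map_one]
    have hcmm : ∀ x y : G, ⁅x, y⁆ ∈ commutator G := by
      intro x y
      rw [commutator_def]
      exact Subgroup.commutator_mem_commutator (Subgroup.mem_top _) (Subgroup.mem_top _)
    -- σ x = χ (x²) is a homomorphism
    let σ : G →* ℤˣ :=
      { toFun := fun x => χ ⟨x ^ 2, hsqZ x⟩
        map_one' := by
          rw [← map_one χ]; congr 1; apply Subtype.ext; simp
        map_mul' := by
          intro x y
          have h1 : (⟨(x * y) ^ 2, hsqZ (x * y)⟩ : Z) = ⟨x ^ 2, hsqZ x⟩ * ⟨y ^ 2, hsqZ y⟩ * ⟨⁅y, x⁆, hcmZ y x⟩ := by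
            apply Subtype.ext
            have := H3.ClassTwo.mul_pow hZ x y 2
            simpa using this
          rw [h1, map_mul, map_mul, hχC ⟨⁅y, x⁆, hcmZ y x⟩ (hcmm y x), mul_one] }
    let G₁ : Subgroup G := σ.ker
    have hidx : σ.ker.index ≤ 2 := by
      rw [Subgroup.index_ker]
      calc Nat.card σ.range ≤ Nat.card ℤˣ := Subgroup.card_le_card_group _
        _ = 2 := by rw [Nat.card_eq_fintype_card, Fintype.card_units_int]
    have hG₁ : IsPGroup 2 G₁ := hG.to_subgroup _
    obtain ⟨g₁, hg₁⟩ := hG₁.exists_card_eq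
    have hg₁g : g ≤ g₁ + 1 := by
      apply hinj
      rw [← hg, pow_succ, ← hg₁, ← Subgroup.card_mul_index G₁]
      exact Nat.mul_le_mul_left _ hidx
    -- the subgroup H = ker χ inside G₁
    let K : Subgroup G := χ.ker.map Z.subtype
    have hKmem : ∀ x : G, x ∈ K ↔ ∃ hx : x ∈ Z, χ ⟨x, hx⟩ = 1 := by
      intro x
      constructor
      · rintro ⟨y, hy, rfl⟩
        exact ⟨y.2, hy⟩
      · rintro ⟨hx, h⟩
        exact ⟨⟨x, hx⟩, h, rfl⟩
    have hZG₁ : Z ≤ G₁ := by
      intro x hx
      rw [MonoidHom.mem_ker]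
      show χ ⟨x ^ 2, hsqZ x⟩ = 1
      have hx' : x ∈ N := by rw [hNZ]; exact hx
      rw [← map_one χ]; congr 1; exact Subtype.ext hx'
    have hKG₁ : K ≤ G₁ := by
      intro x hx
      obtain ⟨hxZ, -⟩ := (hKmem x).mp hx
      exact hZG₁ hxZ
    have hKcard : Nat.card K * 2 ≤ 2 ^ n := by
      have h1 : Nat.card K = Nat.card χ.ker := Nat.card_congr (χ.ker.equivMapOfInjective Z.subtype Z.subtype_injective).toEquiv.symm
      have h2 : χ.ker.index ≠ 1 := by
        intro h
        rw [Subgroup.index_eq_one] at h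
        apply hφ
        have : (⟨a, haZ⟩ : Z) ∈ χ.ker := by rw [h]; exact Subgroup.mem_top _
        exact MonoidHom.mem_ker.mp this
      have h3 : χ.ker.index ≠ 0 := Subgroup.FiniteIndex.index_ne_zero
      calc Nat.card K * 2 ≤ Nat.card χ.ker * χ.ker.index := by
            rw [h1]; exact Nat.mul_le_mul_left _ (by omega)
        _ = 2 ^ n := by rw [Subgroup.card_mul_index, ← hzn']; exact hz
    obtain ⟨k, hk⟩ := (hG.to_subgroup K).exists_card_eq
    have hkn : k + 1 ≤ n := by
      apply hinj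
      rw [pow_succ, ← hk]
      exact hKcard
    have hmain₁ : g₁ + n ≤ 2 * (n + k) := by
      apply H65.SqCount.main (G := G₁) (K.subgroupOf G₁) ?_ ?_ ?_ ?_ g₁ k n n hg₁ ?_ ?_ ?_
      · intro x hx
        rw [Subgroup.mem_subgroupOf] at hx
        obtain ⟨hxZ, -⟩ := (hKmem x).mp hx
        rw [Subgroup.mem_center_iff]
        intro y
        exact Subtype.ext ((Subgroup.mem_center_iff.mp hxZ) y)
      · intro x hx
        rw [Subgroup.mem_subgroupOf] at hx
        obtain ⟨hxZ, -⟩ := (hKmem x).mp hx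
        have hx' : (x : G) ∈ N := by rw [hNZ]; exact hxZ
        exact Subtype.ext hx'
      · intro x
        rw [Subgroup.mem_subgroupOf, hKmem]
        refine ⟨hsqZ x, ?_⟩
        exact MonoidHom.mem_ker.mp x.2
      · intro x y
        rw [Subgroup.mem_subgroupOf, hKmem]
        exact ⟨hcmZ x y, hχC _ (hcmm _ _)⟩
      · rw [Nat.card_congr (Subgroup.subgroupOfEquivOfLe hKG₁).toEquiv, hk]
      · -- 2^n divides |Z(G₁)|
        have h1 : Z.subgroupOf G₁ ≤ Subgroup.center G₁ := by
          intro x hx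
          rw [Subgroup.mem_center_iff]
          intro y
          exact Subtype.ext ((Subgroup.mem_center_iff.mp (Subgroup.mem_subgroupOf.mp hx)) y)
        have h2 := Subgroup.card_dvd_of_le h1
        rwa [Nat.card_congr (Subgroup.subgroupOfEquivOfLe hZG₁).toEquiv, hz, hzn'] at h2
      · rw [← hn]
        refine Nat.card_congr ⟨fun x => ⟨x.1.1, congrArg Subtype.val x.2⟩, fun x => ⟨⟨x.1, hZG₁ (hNZ.le x.2)⟩, Subtype.ext x.2⟩, fun x => rfl, fun x => rfl⟩
    omega
  refine ⟨hG, ?_, hcommN⟩
  apply le_antisymm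
  · rw [← hNZ]
    apply H65.Frat.frattini_le_of (p := 2) N hsqN
    rw [hNZ]; exact hZ
  · rw [← hcommN]
    exact H3.PBasic.commutator_le_frattini hG

end Cfsg.Agent.S3773
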