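import Cfsg.Statements.S3774

set_option autoImplicit false
open Cfsg

namespace Cfsg.Agent.S3774

theorem card_ne_one (α : Type*) [Finite α] (x : α) : Nat.card {a : α // a ≠ x} = Nat.card α - 1 := by
  classical
  have h := Nat.card_congr (Equiv.optionSubtypeNe x)
  rw [Finite.card_option] at h
  omega

theorem map_center {G : Type*} [Group G] (a : MulAut G) (z : G) (hz : z ∈ Subgroup.center G) :
    a z ∈ Subgroup.center G := by
  rw [Subgroup.mem_center_iff] at hz ⊢
  intro g
  have h := hz (a.symm g)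
  have h2 := congrArg a h
  simpa using h2

/-- Let G be a nontrivial finite 2-group whose automorphism group permutes the involutions of G transitively. Then every involution of G is central, so that the involutions together with 1 form the subgroup Ω₁(Z(G)), and if this subgroup has order q then |G| is a power of q. -/
theorem result {G : Type*} [Group G] [Finite G] [Nontrivial G] (hG : IsPGroup 2 G) (htrans : ∀ x y : G, x ≠ 1 → x ^ 2 = 1 → y ≠ 1 → y ^ 2 = 1 → ∃ a : MulAut G, a x = y) : (∀ x : G, x ^ 2 = 1 → x ∈ Subgroup.center G) ∧ ∃ m : ℕ, Nat.card G = Nat.card {z : G // z ^ 2 = 1} ^ m := by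
  classical
  have : Fact (Nat.Prime 2) := ⟨Nat.prime_two⟩
  have hZ : Nontrivial (Subgroup.center G) := hG.center_nontrivial
  -- an involution in the centre
  obtain ⟨z, hz1, hz2, hzc⟩ : ∃ z : G, z ≠ 1 ∧ z ^ 2 = 1 ∧ z ∈ Subgroup.center G := by
    have hZp : IsPGroup 2 (Subgroup.center G) := hG.to_subgroup _
    obtain ⟨n, hn⟩ := hZp.exists_card_eq
    have hn1 : 1 < Nat.card (Subgroup.center G) := Finite.one_lt_card_iff_nontrivial.mpr hZ
    have hdvd : 2 ∣ Nat.card (Subgroup.center G) := by
      rw [hn]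
      apply dvd_pow_self
      rintro rfl
      rw [hn] at hn1
      simp at hn1
    obtain ⟨c, hc⟩ := exists_prime_orderOf_dvd_card' 2 hdvd
    refine ⟨c, ?_, ?_, c.2⟩
    · intro h
      have : c = 1 := Subtype.ext h
      rw [this, orderOf_one] at hc
      omega
    · have := pow_orderOf_eq_one c
      rw [hc] at this
      exact_mod_cast congrArg Subtype.val this
  have hcen : ∀ x : G, x ^ 2 = 1 → x ∈ Subgroup.center G := by
    intro x hx
    by_cases hx1 : x = 1
    · rw [hx1]; exact Subgroup.one_mem _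
    · obtain ⟨a, ha⟩ := htrans z x hz1 hz2 hx1 hx
      rw [← ha]
      exact map_center a z hzc
  refine ⟨hcen, ?_⟩
  -- the subgroup of involutions
  let Ω : Subgroup G :=
    { carrier := {x | x ^ 2 = 1}
      mul_mem' := by
        intro x y hx hy
        simp only [Set.mem_ofPred_eq] at hx hy ⊢
        have hc : x * y = y * x := ((Subgroup.mem_center_iff.mp (hcen x hx)) y).symm
        have : Commute x y := hc
        rw [this.mul_pow, hx, hy, one_mul]
      one_mem' := by simp
      inv_mem' := by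
        intro x hx
        simp only [Set.mem_ofPred_eq] at hx ⊢
        rw [inv_pow, hx, inv_one] }
  have hΩ : Nat.card {z : G // z ^ 2 = 1} = Nat.card Ω := rfl
  obtain ⟨n, hn⟩ := (hG.to_subgroup Ω).exists_card_eq
  obtain ⟨m, hm⟩ := hG.exists_card_eq
  have hq : Nat.card {z : G // z ^ 2 = 1} = 2 ^ n := by rw [hΩ, hn]
  -- the involution attached to g
  have horder : ∀ g : G, g ≠ 1 → 2 * (orderOf g / 2) = orderOf g := by
    intro g hg
    obtain ⟨k, hk⟩ := (IsPGroup.iff_orderOf.mp hG) g
    rw [hk]
    cases k with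
    | zero =>
      exfalso
      apply hg
      rw [← orderOf_eq_one_iff, hk]; rfl
    | succ k => rw [pow_succ]; omega
  let I := {x : G // x ≠ 1 ∧ x ^ 2 = 1}
  let S := {g : G // g ≠ 1}
  have ht : ∀ g : S, (g : G) ^ (orderOf (g : G) / 2) ≠ 1 ∧ ((g : G) ^ (orderOf (g : G) / 2)) ^ 2 = 1 := by
    rintro ⟨g, hg⟩
    have h1 := horder g hg
    constructor
    · intro h
      have h2 := orderOf_dvd_of_pow_eq_one h
      have hpos : 0 < orderOf g := orderOf_pos g
      have h3 : orderOf g ≤ orderOf g / 2 := Nat.le_of_dvd (by omega) h2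
      omega
    · simp only
      rw [← pow_mul, mul_comm, h1, pow_orderOf_eq_one]
  let t : S → I := fun g => ⟨(g : G) ^ (orderOf (g : G) / 2), ht g⟩
  let i0 : I := ⟨z, hz1, hz2⟩
  have hfib : ∀ i : I, Nat.card {g : S // t g = i} = Nat.card {g : S // t g = i0} := by
    intro i
    obtain ⟨a, ha⟩ := htrans i i0 i.2.1 i.2.2 hz1 hz2
    refine Nat.card_congr ⟨fun g => ⟨⟨a g.1.1, ?_⟩, ?_⟩, fun g => ⟨⟨a.symm g.1.1, ?_⟩, ?_⟩, ?_, ?_⟩
    · intro h
      apply g.1.2
      have := congrArg a.symm h
      simpa using this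
    · have h := g.2
      apply Subtype.ext
      have h' := congrArg Subtype.val h
      simp only [t] at h' ⊢
      rw [MulEquiv.orderOf_eq, ← map_pow, h', ha]
    · intro h
      apply g.1.2
      have := congrArg a h
      simpa using this
    · have h := g.2
      apply Subtype.ext
      have h' := congrArg Subtype.val h
      simp only [t] at h' ⊢
      rw [MulEquiv.orderOf_eq, ← map_pow, h', ← ha]
      simp
    · intro g
      apply Subtype.ext; apply Subtype.ext
      simp
    · intro g
      apply Subtype.ext; apply Subtype.ext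
      simp
  have hcardS : Nat.card S = Nat.card I * Nat.card {g : S // t g = i0} := by
    have e : S ≃ Σ i : I, {g : S // t g = i} := (Equiv.sigmaFiberEquiv t).symm
    have : Finite I := inferInstanceAs (Finite {x : G // x ≠ 1 ∧ x ^ 2 = 1})
    have : Finite S := inferInstanceAs (Finite {x : G // x ≠ 1})
    have : Fintype I := Fintype.ofFinite I
    rw [Nat.card_congr e, Nat.card_sigma]
    rw [Finset.sum_congr rfl (fun i _ => hfib i), Finset.sum_const, Finset.card_univ, Nat.card_eq_fintype_card (α := I), smul_eq_mul]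
  have hS : Nat.card S = 2 ^ m - 1 := by
    have h1 := card_ne_one G 1
    rw [← hm]
    exact h1
  have hI : Nat.card I = 2 ^ n - 1 := by
    rw [← hq]
    have e : I ≃ {x : {z : G // z ^ 2 = 1} // x ≠ ⟨1, one_pow 2⟩} :=
      { toFun := fun x => ⟨⟨x.1, x.2.2⟩, fun h => x.2.1 (congrArg Subtype.val h)⟩
        invFun := fun x => ⟨x.1.1, fun h => x.2 (Subtype.ext h), x.1.2⟩
        left_inv := fun x => rfl
        right_inv := fun x => rfl }
    rw [Nat.card_congr e]
    exact card_ne_one _ _
  have hdvd : 2 ^ n - 1 ∣ 2 ^ m - 1 := by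
    rw [← hI, ← hS, hcardS]
    exact dvd_mul_right _ _
  have hgcd : 2 ^ (Nat.gcd n m) - 1 = 2 ^ n - 1 := by
    rw [← Nat.pow_sub_one_gcd_pow_sub_one]
    exact Nat.gcd_eq_left hdvd
  have hnm : Nat.gcd n m = n := by
    have h1 : 1 ≤ 2 ^ n := Nat.one_le_two_pow
    have h2 : 1 ≤ 2 ^ (Nat.gcd n m) := Nat.one_le_two_pow
    have h3 : 2 ^ (Nat.gcd n m) = 2 ^ n := by omega
    exact Nat.pow_right_injective le_rfl h3
  obtain ⟨k, hk⟩ := Nat.gcd_eq_left_iff_dvd.mp hnm
  refine ⟨k, ?_⟩
  rw [hq, hm, hk, pow_mul]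

end Cfsg.Agent.S3774
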