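import Cfsg.Statements.S3778
import Cfsg.Agent.Lib.H66.Commutators
import Mathlib.Algebra.Order.BigOperators.Ring.Finset

set_option autoImplicit false
open Cfsg

namespace Cfsg.Agent.S3778

open Subgroup
open scoped commutatorElement

/-- chains: the product of the strict steps bounds the index of a subgroup -/
theorem pow_card_le_index {G : Type*} [Group G] [Finite G] {p : ℕ} [Fact p.Prime] (hG : IsPGroup p G)
    (C : Subgroup G) (γ : ℕ → Subgroup G) (hγ : ∀ j, (γ j).Normal) (hanti : ∀ j, γ (j + 1) ≤ γ j) (n : ℕ)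
    (S : Finset ℕ) (hS : ∀ j ∈ S, j < n ∧ ¬ γ j ≤ γ (j + 1) ⊔ C) :
    p ^ S.card ≤ C.index := by
  classical
  have hp : p.Prime := Fact.out
  -- relIndex of γ n ⊔ C in γ 0 ⊔ C
  have key : ∀ n, ∀ S : Finset ℕ, (∀ j ∈ S, j < n ∧ ¬ γ j ≤ γ (j + 1) ⊔ C) →
      p ^ S.card ≤ (γ n ⊔ C).relIndex (γ 0 ⊔ C) := by
    intro n
    induction n with
    | zero =>
      intro S hS
      have : S = ∅ := by
        rw [Finset.eq_empty_iff_forall_notMem]
        intro j hj
        exact absurd (hS j hj).1 (by omega)
      rw [this]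
      simp
    | succ n ih =>
      intro S hS
      have hle1 : γ (n + 1) ⊔ C ≤ γ n ⊔ C := sup_le_sup_right (hanti n) C
      have hle2 : ∀ m, γ m ⊔ C ≤ γ 0 ⊔ C := by
        intro m
        induction m with
        | zero => exact le_rfl
        | succ m ihm => exact (sup_le_sup_right (hanti m) C).trans ihm
      have hmul := Subgroup.relIndex_mul_relIndex _ _ _ hle1 (hle2 n)
      by_cases hn : n ∈ S
      · have hS' : ∀ j ∈ S.erase n, j < n ∧ ¬ γ j ≤ γ (j + 1) ⊔ C := by
          intro j hj
          rw [Finset.mem_erase] at hj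
          have := hS j hj.2
          exact ⟨by omega, this.2⟩
        have h1 := ih (S.erase n) hS'
        have h2 : p ≤ (γ (n + 1) ⊔ C).relIndex (γ n ⊔ C) := by
          have hne : (γ (n + 1) ⊔ C).relIndex (γ n ⊔ C) ≠ 1 := by
            intro h
            rw [Subgroup.relIndex_eq_one] at h
            exact (hS n hn).2 (le_sup_left.trans h)
          obtain ⟨k, hk⟩ := IsPGroup.iff_card.1 hG
          have h3 : (γ (n + 1) ⊔ C).relIndex (γ n ⊔ C) ∣ p ^ k := by
            rw [← hk]
            exact (Subgroup.relIndex_dvd_card _ _).trans (Subgroup.card_subgroup_dvd_card _)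
          obtain ⟨t, _, ht⟩ := (Nat.dvd_prime_pow hp).1 h3
          rw [ht]
          have ht1 : t ≠ 0 := by rintro rfl; exact hne (by simpa using ht)
          exact Nat.le_self_pow ht1 p
        rw [← hmul, ← Finset.card_erase_add_one hn, pow_succ, mul_comm]
        exact Nat.mul_le_mul h2 h1
      · have hS' : ∀ j ∈ S, j < n ∧ ¬ γ j ≤ γ (j + 1) ⊔ C := by
          intro j hj
          have := hS j hj
          refine ⟨?_, this.2⟩
          rcases Nat.lt_or_ge j n with h | h
          · exact h
          · exfalso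
            have : j = n := by omega
            exact hn (this ▸ hj)
        refine (ih S hS').trans ?_
        rw [← hmul]
        apply Nat.le_mul_of_pos_left
        exact Nat.pos_of_dvd_of_pos (Subgroup.relIndex_dvd_card _ _) Nat.card_pos
  refine (key n S hS).trans ?_
  have h1 : C ≤ γ n ⊔ C := le_sup_right
  have h2 : (γ n ⊔ C).relIndex (γ 0 ⊔ C) ∣ C.index := by
    have h3 : (γ n ⊔ C).relIndex (γ 0 ⊔ C) ∣ (γ n ⊔ C).index := by
      apply Subgroup.relIndex_dvd_index_of_le
      have : ∀ m, γ m ⊔ C ≤ γ 0 ⊔ C := by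
        intro m
        induction m with
        | zero => exact le_rfl
        | succ m ihm => exact (sup_le_sup_right (hanti m) C).trans ihm
      exact this n
    exact h3.trans (Subgroup.index_dvd_of_le h1)
  exact Nat.le_of_dvd (Nat.pos_of_ne_zero Subgroup.index_ne_zero_of_finite) h2

theorem result {G : Type*} [Group G] [Finite G] {p : ℕ} [Fact p.Prime] (hG : IsPGroup p G) (b : ℕ) (hb : ∀ x : G, (Subgroup.centralizer ({x} : Set G)).index ≤ p ^ b) : ∃ c : ℕ, (⊤ : Subgroup G).lowerCentralSeries c = ⊥ ∧ (b ≠ 0 → (c - 1) * (p - 1) < b * p ∧ c ≤ 2 * b) ∧ (b = 0 → c ≤ 1) := by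
  classical
  have hp : p.Prime := Fact.out
  have hnil : Group.IsNilpotent G := hG.isNilpotent
  have := Fintype.ofFinite G
  let γ : ℕ → Subgroup G := fun j => (⊤ : Subgroup G).lowerCentralSeries j
  have hγn : ∀ j, (γ j).Normal := fun j => inferInstance
  have hanti : ∀ j, γ (j + 1) ≤ γ j := fun j => Subgroup.lowerCentralSeries_antitone _ (Nat.le_succ j)
  -- class
  have hex : ∃ n, γ n = ⊥ := (Subgroup.nilpotent_iff_lowerCentralSeries (G := G)).1 inferInstance
  let c := Nat.find hex
  have hc : γ c = ⊥ := Nat.find_spec hex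
  have hcmin : ∀ m < c, γ m ≠ ⊥ := fun m hm => Nat.find_min hex hm
  have hmono : ∀ i j, i ≤ j → γ j ≤ γ i := fun i j h => Subgroup.lowerCentralSeries_antitone _ h
  -- two-step centralizers: D j = {x | [γ j, x] ≤ γ (j+2)}
  let D : ℕ → Subgroup G := fun j =>
    (Subgroup.centralizer (((γ j).map (QuotientGroup.mk' (γ (j + 2))) : Subgroup (G ⧸ γ (j + 2))) :
      Set (G ⧸ γ (j + 2)))).comap (QuotientGroup.mk' (γ (j + 2)))
  have hD : ∀ j x, x ∈ D j ↔ ∀ y ∈ γ j, ⁅y, x⁆ ∈ γ (j + 2) := by
    intro j x
    simp only [D, Subgroup.mem_comap, Subgroup.mem_centralizer_iff]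
    constructor
    · intro h y hy
      have h1 := h ((QuotientGroup.mk' (γ (j + 2))) y) ⟨y, hy, rfl⟩
      rw [← commutatorElement_eq_one_iff_mul_comm, ← map_commutatorElement] at h1
      rwa [QuotientGroup.mk'_apply, QuotientGroup.eq_one_iff] at h1
    · rintro h _ ⟨y, hy, rfl⟩
      rw [← commutatorElement_eq_one_iff_mul_comm, ← map_commutatorElement]
      rw [QuotientGroup.mk'_apply, QuotientGroup.eq_one_iff]
      exact h y hy
  have hDproper : ∀ j, j + 1 < c → D j ≠ ⊤ := by
    intro j hj h
    have h1 : γ (j + 1) ≤ γ (j + 2) := by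
      have h2 : γ (j + 1) = ⁅γ j, (⊤ : Subgroup G)⁆ := rfl
      rw [h2, Subgroup.commutator_le]
      intro y hy x _
      exact (hD j x).1 (by rw [h]; trivial) y hy
    have h3 : γ (j + 1) = ⊥ := by
      apply H66.Commutators.eq_bot_of_le_commutator
      exact h1
    exact hcmin (j + 1) hj h3
  -- the key estimate for one element
  have hone : ∀ x : G, ((Finset.range (c - 1)).filter (fun j => x ∉ D j)).card ≤ b := by
    intro x
    have h1 := pow_card_le_index hG (Subgroup.centralizer ({x} : Set G)) γ hγn hanti (c - 1)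
      ((Finset.range (c - 1)).filter (fun j => x ∉ D j)) (by
        intro j hj
        rw [Finset.mem_filter, Finset.mem_range] at hj
        refine ⟨hj.1, ?_⟩
        intro hle
        apply hj.2
        rw [hD]
        intro y hy
        obtain ⟨g, hg, z, hz, rfl⟩ := Subgroup.mem_sup_of_normal_left.1 (hle hy)
        have hzx : z * x = x * z := by
          have := Subgroup.mem_centralizer_iff.1 hz x rfl
          exact this.symm
        have h2 : ⁅g * z, x⁆ = ⁅g, x⁆ := by
          rw [commutatorElement_def, commutatorElement_def, mul_inv_rev]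
          calc g * z * x * (z⁻¹ * g⁻¹) * x⁻¹ = g * (z * x) * z⁻¹ * g⁻¹ * x⁻¹ := by group
            _ = g * (x * z) * z⁻¹ * g⁻¹ * x⁻¹ := by rw [hzx]
            _ = g * x * g⁻¹ * x⁻¹ := by group
        rw [h2]
        exact Subgroup.commutator_mem_commutator hg (Subgroup.mem_top x))
    have h2 := h1.trans (hb x)
    exact (Nat.pow_le_pow_iff_right hp.one_lt).1 h2
  -- double counting
  have hcard : ∀ j ∈ Finset.range (c - 1), p * (Finset.univ.filter (fun x : G => x ∈ D j)).card ≤ Fintype.card G := by
    intro j hj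
    rw [Finset.mem_range] at hj
    have h1 : (Finset.univ.filter (fun x : G => x ∈ D j)).card = Nat.card (D j) := by
      rw [Nat.card_eq_fintype_card, Fintype.card_subtype]
    rw [h1, ← Nat.card_eq_fintype_card, ← Subgroup.index_mul_card (D j)]
    apply Nat.mul_le_mul_right
    obtain ⟨k, hk⟩ := IsPGroup.iff_card.1 hG
    have h3 : (D j).index ∣ p ^ k := by
      rw [← hk]; exact Subgroup.index_dvd_card _
    obtain ⟨t, _, ht⟩ := (Nat.dvd_prime_pow hp).1 h3
    rw [ht]
    have ht1 : t ≠ 0 := by
      rintro rfl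
      exact hDproper j (by omega) (Subgroup.index_eq_one.1 (by simpa using ht))
    exact Nat.le_self_pow ht1 p
  refine ⟨c, hc, ?_, ?_⟩
  · intro hb0
    have hmain : (c - 1) * (p - 1) < b * p := by
      -- sum over x of #{j : x ∈ D j}
      have hswap : ∑ x : G, ((Finset.range (c - 1)).filter (fun j => x ∈ D j)).card =
          ∑ j ∈ Finset.range (c - 1), (Finset.univ.filter (fun x : G => x ∈ D j)).card := by
        simp only [Finset.card_filter]
        rw [Finset.sum_comm]
      have hlow : ∀ x : G, c - 1 ≤ ((Finset.range (c - 1)).filter (fun j => x ∈ D j)).card + b := by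
        intro x
        have h1 := Finset.card_filter_add_card_filter_not (s := Finset.range (c - 1)) (fun j => x ∈ D j)
        rw [Finset.card_range] at h1
        have := hone x
        omega
      -- strict at x = 1
      have hstrict : (c - 1) < ((Finset.range (c - 1)).filter (fun j => (1 : G) ∈ D j)).card + b := by
        have h1 : (Finset.range (c - 1)).filter (fun j => (1 : G) ∈ D j) = Finset.range (c - 1) := by
          apply Finset.filter_true_of_mem
          intro j _; exact one_mem _
        rw [h1, Finset.card_range]; omega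
      have hsum : Fintype.card G * (c - 1) <
          ∑ x : G, (((Finset.range (c - 1)).filter (fun j => x ∈ D j)).card + b) := by
        have : Fintype.card G * (c - 1) = ∑ _x : G, (c - 1) := by simp
        rw [this]
        exact Finset.sum_lt_sum (fun x _ => hlow x) ⟨1, Finset.mem_univ _, hstrict⟩
      rw [Finset.sum_add_distrib, hswap] at hsum
      simp only [Finset.sum_const, Finset.card_univ, smul_eq_mul] at hsum
      have hup : p * ∑ j ∈ Finset.range (c - 1), (Finset.univ.filter (fun x : G => x ∈ D j)).card ≤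
          (c - 1) * Fintype.card G := by
        rw [Finset.mul_sum]
        calc _ ≤ ∑ _j ∈ Finset.range (c - 1), Fintype.card G := Finset.sum_le_sum hcard
          _ = _ := by simp
      have hG0 : 0 < Fintype.card G := Fintype.card_pos
      obtain ⟨p', rfl⟩ : ∃ p', p = p' + 1 := ⟨p - 1, by have := hp.pos; omega⟩
      simp only [Nat.add_sub_cancel]
      set T := ∑ j ∈ Finset.range (c - 1), (Finset.univ.filter (fun x : G => x ∈ D j)).card
      set g := Fintype.card G
      by_contra hcon
      push Not at hcon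
      have e1 : g * (c - 1) + 1 ≤ T + g * b := hsum
      have e2 : (p' + 1) * T ≤ (c - 1) * g := hup
      have e3 : b * (p' + 1) ≤ (c - 1) * p' := hcon
      have e4 : (p' + 1) * (g * (c - 1) + 1) ≤ (p' + 1) * (T + g * b) := Nat.mul_le_mul_left _ e1
      have e5 : g * (b * (p' + 1)) ≤ g * ((c - 1) * p') := Nat.mul_le_mul_left _ e3
      nlinarith
    refine ⟨hmain, ?_⟩
    have hp2 : 2 ≤ p := hp.two_le
    by_contra hcon
    push Not at hcon
    have h1 : 2 * b ≤ c - 1 := by omega
    have h2 : 2 * b * (p - 1) ≤ (c - 1) * (p - 1) := Nat.mul_le_mul_right _ h1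
    have h3 : b * p ≤ 2 * b * (p - 1) := by
      have : p ≤ 2 * (p - 1) := by omega
      calc b * p ≤ b * (2 * (p - 1)) := Nat.mul_le_mul_left _ this
        _ = 2 * b * (p - 1) := by ring
    omega
  · intro hb0
    subst hb0
    by_contra hcon
    push Not at hcon
    have hD0 : D 0 = ⊤ := by
      rw [eq_top_iff]
      intro x _
      have h1 := hone x
      by_contra hx
      have h2 : (0 : ℕ) ∈ (Finset.range (c - 1)).filter (fun j => x ∉ D j) := by
        rw [Finset.mem_filter, Finset.mem_range]
        exact ⟨by omega, hx⟩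
      have := Finset.card_pos.2 ⟨0, h2⟩
      omega
    exact hDproper 0 (by omega) hD0

end Cfsg.Agent.S3778
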