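import Cfsg.Statements.S3781
import Cfsg.Agent.Lib.H66.Commutators

set_option autoImplicit false
open Cfsg

namespace Cfsg.Agent.S3781

theorem result {G : Type*} [Group G] [Finite G] {p : ℕ} [Fact p.Prime] (hG : IsPGroup p G) (n : ℕ) (hn : 1 ≤ n) (N : Subgroup G) [N.Normal] (hN : N ≤ (⊤ : Subgroup G).lowerCentralSeries (n - 1)) (i : ℕ) (hi : 1 < i) (hne : N.lowerCentralSeries i ≠ ⊥) : p ^ n ≤ (N.lowerCentralSeries i).relIndex (N.lowerCentralSeries (i - 1)) := by
  have hp : p.Prime := Fact.out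
  have hnil : Group.IsNilpotent G := hG.isNilpotent
  by_contra hlt
  push Not at hlt
  obtain ⟨j, rfl⟩ : ∃ j, i = j + 1 := ⟨i - 1, by omega⟩
  simp only [Nat.add_sub_cancel] at hlt
  have hle : N.lowerCentralSeries (j + 1) ≤ N.lowerCentralSeries j :=
    Subgroup.lowerCentralSeries_antitone N (Nat.le_succ j)
  -- the index is a power of p
  obtain ⟨m, hm⟩ : ∃ m, (N.lowerCentralSeries (j + 1)).relIndex (N.lowerCentralSeries j) = p ^ m := by
    obtain ⟨k, hk⟩ := IsPGroup.iff_card.1 hG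
    have h1 : (N.lowerCentralSeries (j + 1)).relIndex (N.lowerCentralSeries j) ∣ p ^ k := by
      rw [← hk]
      exact (Subgroup.relIndex_dvd_card _ _).trans (Subgroup.card_subgroup_dvd_card _)
    obtain ⟨m, _, hm⟩ := (Nat.dvd_prime_pow hp).1 h1
    exact ⟨m, hm⟩
  have hmn : m < n := by
    rw [hm] at hlt
    exact (Nat.pow_lt_pow_iff_right hp.one_lt).1 hlt
  have h1 := H66.Commutators.commutator_lcs_le_of_relIndex hG (N.lowerCentralSeries j)
    (N.lowerCentralSeries (j + 1)) hle m hm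
  have h2 : N ≤ (⊤ : Subgroup G).lowerCentralSeries m :=
    hN.trans (Subgroup.lowerCentralSeries_antitone _ (by omega))
  have h3 : N.lowerCentralSeries (j + 1) ≤ ⁅N.lowerCentralSeries (j + 1), (⊤ : Subgroup G)⁆ := by
    refine le_trans ?_ h1
    rw [Subgroup.lowerCentralSeries_succ]
    exact Subgroup.commutator_mono le_rfl h2
  exact hne (H66.Commutators.eq_bot_of_le_commutator _ h3)

end Cfsg.Agent.S3781
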