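import Cfsg.Statements.S3783
import Cfsg.Agent.Lib.H66.PLen2
import Cfsg.Agent.Lib.H66.PRed
import Cfsg.Agent.Lib.H66.Fpf2
import Cfsg.Agent.Lib.H66.CopAb

set_option autoImplicit false

open Subgroup Cfsg H66.PLen H66.PLen2
open scoped commutatorElement

namespace Cfsg.Agent.S3783

universe u

/-- hypotheses -/
def Hyp (p n : ℕ) (G : Type u) [Group G] : Prop :=
  IsPSolvable p G ∧ (∀ q : ℕ, q.Prime → q ≠ p → ∀ Q : Subgroup G, IsPGroup q Q →
    ∀ x ∈ Q, ∀ y ∈ Q, x * y = y * x) ∧ ∀ x : G, (∃ k, x ^ p ^ k = 1) → x ^ p ^ n = 1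

theorem lift_pelement {p : ℕ} [hp : Fact p.Prime] {G : Type u} [Group G] [Finite G] (N : Subgroup G) [N.Normal]
    (y : G ⧸ N) {k : ℕ} (hy : y ^ p ^ k = 1) : ∃ x : G, QuotientGroup.mk' N x = y ∧ ∃ l, x ^ p ^ l = 1 := by
  have h1 : IsPGroup p (zpowers y) := by
    obtain ⟨j, _, hj⟩ := (Nat.dvd_prime_pow hp.out).1 (orderOf_dvd_of_pow_eq_one hy)
    exact IsPGroup.of_card (n := j) (by rw [Nat.card_zpowers, hj])
  obtain ⟨S, hS⟩ := exists_pgroup_lift N _ h1
  obtain ⟨s, hs, hsy⟩ := hS (mem_zpowers y)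
  refine ⟨s, hsy, ?_⟩
  obtain ⟨l, hl⟩ := S.2 ⟨s, hs⟩
  exact ⟨l, congrArg Subtype.val hl⟩

theorem hyp_quotient {p n : ℕ} [hp : Fact p.Prime] {G : Type u} [Group G] [Finite G] (N : Subgroup G) [N.Normal]
    (h : Hyp p n G) : Hyp p n (G ⧸ N) := by
  obtain ⟨h1, h2, h3⟩ := h
  refine ⟨H37.PSolv.quotient h1 N, ?_, ?_⟩
  · intro q hq hqp Q hQ x hx y hy
    haveI := Fact.mk hq
    obtain ⟨S, hS⟩ := exists_pgroup_lift N Q hQ
    obtain ⟨s, hs, rfl⟩ := hS hx
    obtain ⟨t, ht, rfl⟩ := hS hy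
    rw [← map_mul, ← map_mul, h2 q hq hqp S S.2 s hs t ht]
  · rintro y ⟨k, hk⟩
    obtain ⟨x, rfl, hx⟩ := lift_pelement N y hk
    rw [← map_pow, h3 x hx, map_one]

theorem fixed_of_fixed {G : Type*} [Group G] {p n i : ℕ} (hp : p.Prime) {x b : G} (hx : x ^ p ^ (n + 1) = 1)
    (hi0 : 0 < i) (hi : i < p ^ (n + 1)) (h : x ^ i * b = b * x ^ i) : x ^ p ^ n * b = b * x ^ p ^ n := by
  have h1 : Commute (x ^ i) b := h
  -- gcd i (p^(n+1)) = p^a with a ≤ n
  obtain ⟨a, ha, hgcd⟩ := (Nat.dvd_prime_pow hp).1 (Nat.gcd_dvd_right i (p ^ (n + 1)))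
  have han : a ≤ n := by
    by_contra hcon
    have ha' : a = n + 1 := by omega
    rw [ha'] at hgcd
    have := Nat.le_of_dvd hi0 (hgcd ▸ Nat.gcd_dvd_left i (p ^ (n + 1)))
    omega
  have h2 : Commute (x ^ p ^ a) b := by
    have h3 : x ^ p ^ a ∈ zpowers (x ^ i) := by
      have h4 : (p ^ a : ℤ) = i * Nat.gcdA i (p ^ (n + 1)) + (p ^ (n + 1) : ℕ) * Nat.gcdB i (p ^ (n + 1)) := by
        rw [← Nat.gcd_eq_gcd_ab, hgcd]; push_cast; rfl
      refine ⟨Nat.gcdA i (p ^ (n + 1)), ?_⟩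
      have h5 : x ^ ((p ^ a : ℕ) : ℤ) = x ^ (i * Nat.gcdA i (p ^ (n + 1)) + (p ^ (n + 1) : ℕ) * Nat.gcdB i (p ^ (n + 1)) : ℤ) := by
        rw [← h4]; push_cast; rfl
      rw [zpow_add, zpow_mul, zpow_mul, zpow_natCast, zpow_natCast, zpow_natCast, hx, one_zpow, mul_one] at h5
      exact h5.symm
    obtain ⟨j, hj⟩ := h3
    rw [← hj]
    exact h1.zpow_left j
  have h3 : x ^ p ^ n = (x ^ p ^ a) ^ p ^ (n - a) := by
    rw [← pow_mul, ← pow_add]; congr 2; omega
  rw [h3]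
  exact (h2.pow_left _).eq

theorem key (p : ℕ) [hp : Fact p.Prime] (n : ℕ) {G : Type u} [Group G] [Finite G]
    (hG : Hyp p (n + 1) G) (hcore : pPrimeCore p G = ⊥) (x : G) (hx : ∃ k, x ^ p ^ k = 1) :
    x ^ p ^ n ∈ pCore p G := by
  by_contra hz
  obtain ⟨k, hk⟩ := hx
  obtain ⟨hps, hab, hexp⟩ := hG
  obtain ⟨q, hq, hqp, Q, hQ, x', hxx', hxn, hxc⟩ := H66.PRed.exists_qgroup hps x k hk n hz
  set R := pCore p G with hR
  have hRp : IsPGroup p R := H1.Cores.isPGroup_pCore p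
  haveI := Fact.mk hq
  have hx'p := H66.PRed.pow_eq_one_of_coset R hRp hk hxx'
  have hx'e := hexp x' hx'p
  set z := x' ^ p ^ n with hzdef
  have hzp : z ^ p = 1 := by rw [hzdef, ← pow_mul, ← pow_succ]; exact hx'e
  have hAQ : zpowers z ≤ normalizer (Q : Set G) := by
    rw [Subgroup.zpowers_le]; exact Subgroup.pow_mem _ hxn _
  have hX'Q : zpowers x' ≤ normalizer (Q : Set G) := by rw [Subgroup.zpowers_le]; exact hxn
  have hcard : ∀ (y : G), (∃ l, y ^ p ^ l = 1) → ∃ j, Nat.card (zpowers y) = p ^ j := by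
    rintro y ⟨l, hl⟩
    obtain ⟨j, _, hj⟩ := (Nat.dvd_prime_pow hp.out).1 (orderOf_dvd_of_pow_eq_one hl)
    exact ⟨j, by rw [Nat.card_zpowers, hj]⟩
  have hQcop : ∀ j, (p ^ j).Coprime (Nat.card Q) := by
    intro j
    obtain ⟨m, hm⟩ := IsPGroup.iff_card.mp hQ
    rw [hm]
    exact Nat.Coprime.pow _ _ ((Nat.coprime_primes hp.out hq).2 (Ne.symm hqp))
  have hcopz : (Nat.card (zpowers z)).Coprime (Nat.card Q) := by
    obtain ⟨j, hj⟩ := hcard z ⟨1, by rw [pow_one]; exact hzp⟩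
    rw [hj]; exact hQcop j
  set B := ⁅Q, zpowers z⁆ with hB
  have hBQ : B ≤ Q := H1.Coprime2.commutator_le_left hAQ
  have hBz : B ⊓ centralizer (zpowers z : Set G) = ⊥ :=
    H66.CopAb.commutator_inf_centralizer (zpowers z) Q (hab q hq hqp Q hQ) hAQ hcopz
  have hBx : zpowers x' ≤ normalizer (B : Set G) := by
    apply H1.Coprime2.le_normalizer_commutator hX'Q
    rw [Subgroup.zpowers_le]
    apply Subgroup.centralizer_le_normalizer
    rw [Subgroup.mem_centralizer_iff]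
    rintro _ ⟨j, rfl⟩
    have : Commute x' (z ^ j) := ((Commute.refl x').pow_right _).zpow_right j
    exact this.eq.symm
  -- the automorphism
  have hcent : B ≤ centralizer (R : Set G) := by
    apply H66.Fpf2.le_centralizer_of_prod (σ := MulAut.conj x') (n := p ^ (n + 1)) (pow_pos hp.out.pos _) R B
    · exact H66.Fpf.map_char _ R
    · exact hRp.isNilpotent
    · intro v hv
      have h1 := H66.Fpf2.mul_pow_eq_prod v x' (p ^ (n + 1))
      rw [hx'e, mul_one] at h1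
      rw [← h1]
      apply hexp
      obtain ⟨l, hl⟩ := hx'p
      apply H66.PRed.pow_eq_one_of_coset R hRp hl
      have := (inferInstance : R.Normal).conj_mem v hv x'⁻¹
      simpa [mul_assoc] using this
    · intro b hb
      rw [MulAut.conj_apply]
      exact H1.Coprime.conj_mem_of_le_normalizer hBx (mem_zpowers x') hb
    · have h1 : Nat.card B ∣ Nat.card Q := Subgroup.card_dvd_of_le hBQ
      obtain ⟨j, hj⟩ := IsPGroup.iff_card.mp hRp
      rw [hj]
      exact ((hQcop j).coprime_dvd_right h1).symm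
    · intro i hi0 hi b hb hbi
      rw [← map_pow, MulAut.conj_apply] at hbi
      have h1 : x' ^ i * b = b * x' ^ i := by
        rw [← mul_inv_eq_iff_eq_mul]; exact hbi
      have h2 := fixed_of_fixed hp.out hx'e hi0 hi h1
      have h3 : b ∈ B ⊓ centralizer (zpowers z : Set G) := by
        refine Subgroup.mem_inf.mpr ⟨hb, ?_⟩
        rw [Subgroup.mem_centralizer_iff]
        rintro _ ⟨j, rfl⟩
        have h4 : Commute z b := h2
        exact (h4.zpow_left j).eq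
      rw [hBz, Subgroup.mem_bot] at h3
      exact h3
  -- B ≤ R so B = 1
  have h1 : B ≤ R := hcent.trans (H37.PSolv.centralizer_pCore_le hps hcore)
  have h2 : B = ⊥ := by
    rw [← Subgroup.card_eq_one]
    obtain ⟨j, hj⟩ := IsPGroup.iff_card.mp hRp
    have h3 := (hQcop j)
    rw [← hj] at h3
    exact Nat.Coprime.eq_one_of_dvd (h3.symm.coprime_dvd_left (Subgroup.card_dvd_of_le hBQ) |>.coprime_dvd_right (dvd_refl _)) (Subgroup.card_dvd_of_le h1)
  apply hxc
  rw [hB, Subgroup.commutator_comm, Subgroup.commutator_eq_bot_iff_le_centralizer] at h2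
  exact h2 (mem_zpowers z)

theorem main (p : ℕ) [hp : Fact p.Prime] (n : ℕ) : ∀ (G : Type u) [Group G] [Finite G],
    Hyp p n G → PLengthLE p n G := by
  induction n with
  | zero =>
    rintro G _ _ ⟨_, _, h3⟩
    rw [pLengthLE_zero_iff, Nat.coprime_comm, hp.out.coprime_iff_not_dvd]
    intro hdvd
    obtain ⟨x, hx⟩ := exists_prime_orderOf_dvd_card' (G := G) p hdvd
    have h4 := h3 x ⟨1, by rw [pow_one, ← hx]; exact pow_orderOf_eq_one x⟩
    rw [pow_zero, pow_one] at h4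
    rw [h4, orderOf_one] at hx
    exact hp.out.one_lt.ne hx
  | succ n ih =>
    intro G _ _ hG
    apply pLengthLE_of_quotient_coprime (pPrimeCore p G) (H1.Cores.coprime_card_pPrimeCore p)
    have hX := hyp_quotient (pPrimeCore p G) hG
    have hcore : pPrimeCore p (G ⧸ pPrimeCore p G) = ⊥ := H1.Cores.pPrimeCore_quotient_pPrimeCore p
    refine pLengthLE_succ_of (⊥ : Subgroup _) (pCore p (G ⧸ pPrimeCore p G)) bot_le (by simp) ?_ ?_
    · rw [relIndex_bot_left]
      exact IsPGroup.iff_card.mp (H1.Cores.isPGroup_pCore p)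
    · apply ih
      have hY := hyp_quotient (pCore p (G ⧸ pPrimeCore p G)) hX
      refine ⟨hY.1, hY.2.1, ?_⟩
      rintro y ⟨k, hk⟩
      obtain ⟨x, rfl, hx⟩ := lift_pelement _ y hk
      rw [← map_pow]
      exact (QuotientGroup.eq_one_iff _).mpr (key p n hX hcore x hx)

/-- Let G be a finite p-soluble group in which, for every prime q ≠ p, the Sylow q-subgroups are abelian. If the Sylow p-subgroups of G have exponent dividing p^n, then G has p-length at most n. -/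
theorem result {G : Type*} [Group G] [Finite G] {p : ℕ} [Fact p.Prime] (hG : Cfsg.IsPSolvable p G) (hab : ∀ (q : ℕ) [Fact q.Prime], q ≠ p → ∀ Q : Sylow q G, IsMulCommutative (Q : Subgroup G)) (n : ℕ) (hexp : ∀ (P : Sylow p G), ∀ x ∈ (P : Subgroup G), x ^ p ^ n = 1) : Cfsg.PLengthLE p n G := by
  apply main p n G
  refine ⟨hG, ?_, ?_⟩
  · intro q hq hqp Q hQ x hx y hy
    haveI := Fact.mk hq
    obtain ⟨S, hS⟩ := hQ.exists_le_sylow
    have h1 := hab q hqp S
    have h2 := h1.is_comm.comm ⟨x, hS hx⟩ ⟨y, hS hy⟩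
    exact congrArg Subtype.val h2
  · rintro x ⟨k, hk⟩
    have h1 : IsPGroup p (zpowers x) := by
      have hp : p.Prime := Fact.out
      obtain ⟨j, _, hj⟩ := (Nat.dvd_prime_pow hp).1 (orderOf_dvd_of_pow_eq_one hk)
      exact IsPGroup.of_card (n := j) (by rw [Nat.card_zpowers, hj])
    obtain ⟨S, hS⟩ := h1.exists_le_sylow
    exact hexp S x (hS (mem_zpowers x))

end Cfsg.Agent.S3783
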