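import Cfsg.Statements.S3784
import Mathlib.Tactic
import Mathlib.NumberTheory.Fermat

set_option autoImplicit false
open Cfsg

namespace Cfsg.Agent.S3784

theorem odd_dvd_two_pow {T n : ℕ} (hT : Odd T) (h : T ∣ 2 ^ n) : T = 1 := by
  have h1 : Nat.Coprime T (2 ^ n) := (Nat.Coprime.pow_right _ hT.coprime_two_right)
  exact Nat.Coprime.eq_one_of_dvd h1 h

theorem result (p q a b : ℕ) (hp : p.Prime) (hq : q.Prime) (ha : 1 ≤ a) (hb : 1 ≤ b) (h : p ^ a = q ^ b + 1) : (p = 2 ∧ b = 1 ∧ a.Prime ∧ q + 1 = 2 ^ a) ∨ (q = 2 ∧ a = 1 ∧ (∃ m : ℕ, b = 2 ^ m) ∧ p = 2 ^ b + 1) ∨ (p ^ a = 9 ∧ q ^ b = 8) := by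
  rcases hq.eq_two_or_odd' with rfl | hqo
  · -- q = 2
    have hpo : Odd p := by
      rcases hp.eq_two_or_odd' with rfl | h1
      · exfalso
        have h1 : Even (2 ^ a) := (even_two).pow_of_ne_zero (by omega)
        have h2 : Even (2 ^ b) := (even_two).pow_of_ne_zero (by omega)
        rw [h] at h1
        exact absurd h1 (Nat.not_even_iff_odd.2 h2.add_one)
      · exact h1
    rcases Nat.eq_or_lt_of_le ha with h1 | h1
    · right; left
      subst h1
      rw [pow_one] at h
      refine ⟨rfl, rfl, ?_, h⟩
      have := Nat.pow_of_pow_add_prime (a := 2) (n := b) (by norm_num) (by omega) (h ▸ hp)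
      exact this
    · right; right
      rcases Nat.even_or_odd a with hae | hao
      · obtain ⟨c, hc⟩ := hae
        have hc1 : 1 ≤ c := by omega
        have hpc : 3 ≤ p ^ c := by
          have h3 : 3 ≤ p := by
            rcases hpo with ⟨k, hk⟩
            have := hp.two_le
            omega
          calc 3 ≤ p := h3
            _ = p ^ 1 := (pow_one p).symm
            _ ≤ p ^ c := Nat.pow_le_pow_right hp.pos hc1
        obtain ⟨x, hx⟩ : ∃ x, p ^ c = x + 1 := ⟨p ^ c - 1, by omega⟩
        have h2 : x * (x + 2) = 2 ^ b := by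
          have h4 : p ^ a = (p ^ c) * (p ^ c) := by rw [hc, pow_add]
          rw [h4, hx] at h
          have : x * (x + 2) + 1 = (x + 1) * (x + 1) := by ring
          omega
        obtain ⟨i, hi, hi'⟩ := (Nat.dvd_prime_pow Nat.prime_two).1 (Dvd.intro _ h2)
        obtain ⟨j, hj, hj'⟩ := (Nat.dvd_prime_pow Nat.prime_two).1 (Dvd.intro_left _ h2)
        have hx2 : x = 2 := by
          rcases i with _ | _ | i
          · omega
          · simpa using hi'
          · exfalso
            have h5 : 4 ∣ x := by
              rw [hi', pow_succ, pow_succ]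
              exact ⟨2 ^ i, by ring⟩
            have hj2 : 2 ≤ j := by
              by_contra hlt
              have : j ≤ 1 := by omega
              have h6 : (2 : ℕ) ^ j ≤ 2 ^ 1 := Nat.pow_le_pow_right (by norm_num) this
              omega
            have h7 : 4 ∣ x + 2 := by
              rw [hj']
              exact pow_dvd_pow 2 hj2
            omega
        have h8 : 2 ^ b = 8 := by rw [← h2, hx2]
        refine ⟨?_, h8⟩
        rw [h, h8]
      · exfalso
        -- p^a - 1 = (p-1) T with T odd
        obtain ⟨c, hc⟩ := hao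
        have hc1 : 1 ≤ c := by omega
        obtain ⟨x, hx⟩ : ∃ x, p = x + 1 := ⟨p - 1, by have := hp.two_le; omega⟩
        have hx2 : 2 ≤ x := by
          rcases hpo with ⟨k, hk⟩
          have := hp.two_le
          omega
        have hdvd1 : p ^ 2 - 1 ∣ p ^ (2 * c) - 1 := by
          rw [pow_mul]
          simpa using Nat.sub_dvd_pow_sub_pow (p ^ 2) 1 c
        have hdvd2 : 2 * x ∣ p ^ 2 - 1 := by
          have : p ^ 2 - 1 = x * (x + 2) := by
            rw [hx]
            have : (x + 1) ^ 2 = x * (x + 2) + 1 := by ring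
            omega
          rw [this]
          obtain ⟨k, hk⟩ := hpo
          refine ⟨k + 1, ?_⟩
          have : x = 2 * k := by omega
          rw [this]; ring
        obtain ⟨u, hu⟩ := hdvd2.trans hdvd1
        have hpos : 1 ≤ p ^ (2 * c) := Nat.one_le_pow _ _ hp.pos
        have h2 : 2 ^ b = x * (2 * (p * u) + 1) := by
          have h3 : p ^ a = p * p ^ (2 * c) := by rw [hc]; ring
          have h4 : p ^ (2 * c) = 2 * x * u + 1 := by omega
          rw [h3, h4] at h
          have h5 : p * (2 * x * u + 1) = x * (2 * (p * u) + 1) + 1 := by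
            have : p * (2 * x * u + 1) = 2 * x * p * u + p := by ring
            rw [this]
            nth_rewrite 2 [hx]
            ring
          omega
        have h6 := odd_dvd_two_pow (T := 2 * (p * u) + 1) ⟨p * u, rfl⟩ (Dvd.intro_left _ h2.symm)
        have h7 : u = 0 := by
          have : p * u = 0 := by omega
          rcases Nat.mul_eq_zero.1 this with h8 | h8
          · exact absurd h8 hp.ne_zero
          · exact h8
        rw [h7] at hu
        have h9 : 1 < p ^ (2 * c) := Nat.one_lt_pow (by omega) hp.one_lt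
        omega
  · -- q odd
    have hqb : Odd (q ^ b) := hqo.pow
    have hp2 : p = 2 := by
      rcases hp.eq_two_or_odd' with rfl | h1
      · rfl
      · exfalso
        have h2 : Odd (p ^ a) := h1.pow
        rw [h] at h2
        exact absurd h2 (Nat.not_odd_iff_even.2 hqb.add_one)
    subst hp2
    have hq3 : 3 ≤ q := by
      rcases hqo with ⟨k, hk⟩
      have := hq.two_le
      omega
    have hbo : b = 1 := by
      rcases Nat.even_or_odd b with hbe | hbo
      · exfalso
        obtain ⟨c, hc⟩ := hbe
        have h1 : q ^ b % 4 = 1 := by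
          rw [hc, ← two_mul, pow_mul, Nat.pow_mod]
          have : q ^ 2 % 4 = 1 := by
            rcases hqo with ⟨k, hk⟩
            rw [hk]
            have : (2 * k + 1) ^ 2 = 4 * (k * k + k) + 1 := by ring
            omega
          rw [this]; simp
        have ha1 : a = 1 := by
          by_contra hne
          have : 4 ∣ 2 ^ a := pow_dvd_pow 2 (show 2 ≤ a by omega)
          omega
        rw [ha1] at h
        have : 1 < q ^ b := Nat.one_lt_pow (by omega) hq.one_lt
        omega
      · obtain ⟨c, hc⟩ := hbo
        by_contra hne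
        have hc1 : 1 ≤ c := by omega
        have hdvd1 : q ^ 2 - 1 ∣ q ^ (2 * c) - 1 := by
          rw [pow_mul]
          simpa using Nat.sub_dvd_pow_sub_pow (q ^ 2) 1 c
        have hdvd2 : 2 * (q + 1) ∣ q ^ 2 - 1 := by
          obtain ⟨k, hk⟩ := hqo
          refine ⟨k, ?_⟩
          have : q ^ 2 = 2 * (q + 1) * k + 1 := by rw [hk]; ring
          omega
        obtain ⟨u, hu⟩ := hdvd2.trans hdvd1
        have hpos : 1 ≤ q ^ (2 * c) := Nat.one_le_pow _ _ hq.pos
        have h2 : 2 ^ a = (q + 1) * (2 * (q * u) + 1) := by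
          have h3 : q ^ b = q * q ^ (2 * c) := by rw [hc]; ring
          have h4 : q ^ (2 * c) = 2 * (q + 1) * u + 1 := by omega
          rw [h, h3, h4]
          ring
        have h6 := odd_dvd_two_pow (T := 2 * (q * u) + 1) ⟨q * u, rfl⟩ (Dvd.intro_left _ h2.symm)
        have h7 : u = 0 := by
          have : q * u = 0 := by omega
          rcases Nat.mul_eq_zero.1 this with h8 | h8
          · exact absurd h8 hq.ne_zero
          · exact h8
        rw [h7] at hu
        have h9 : 1 < q ^ (2 * c) := Nat.one_lt_pow (by omega) hq.one_lt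
        omega
    left
    refine ⟨rfl, hbo, ?_, ?_⟩
    · rw [hbo, pow_one] at h
      have h1 : q = 2 ^ a - 1 := by omega
      have ha1 : a ≠ 1 := by
        intro h2
        rw [h2] at h
        omega
      exact (Nat.prime_of_pow_sub_one_prime ha1 (h1 ▸ hq)).2
    · rw [hbo, pow_one] at h
      exact h.symm

end Cfsg.Agent.S3784
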