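import Cfsg.Statements.S3785
import Cfsg.Agent.Lib.H1.Cores
import Cfsg.Agent.Lib.H1.Solv
import Cfsg.Agent.Lib.H66.OmegaOne
import Cfsg.Agent.Lib.H66.SylowLe

set_option autoImplicit false

open Subgroup

namespace Cfsg.Agent.S3785

/-- Let G be a finite solvable group whose Fitting subgroup F(G) has odd order. If an element g of G commutes with every element of prime order of F(G), then g ∈ F(G). -/
theorem result {G : Type*} [Group G] [Finite G] (hG : Group.IsSolvable G) (hodd : Odd (Nat.card (Cfsg.fittingSubgroup G))) (g : G) (hg : ∀ x ∈ Cfsg.fittingSubgroup G, (orderOf x).Prime → g * x = x * g) : g ∈ Cfsg.fittingSubgroup G := by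
  classical
  set F := Cfsg.fittingSubgroup G with hF
  set X : Set G := {x | x ∈ F ∧ (orderOf x).Prime} with hX
  set C := centralizer X with hC
  have hXn : X ⊆ X := le_rfl
  have hconj : ∀ x ∈ X, ∀ g : G, g * x * g⁻¹ ∈ X := by
    rintro x ⟨h1, h2⟩ g
    refine ⟨(inferInstance : F.Normal).conj_mem x h1 g, ?_⟩
    have : orderOf (g * x * g⁻¹) = orderOf x := by
      have := orderOf_injective (MulAut.conj g).toMonoidHom (MulAut.conj g).injective x
      simpa using this
    rw [this]; exact h2
  have hCn : C.Normal := by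
    constructor
    intro c hc g
    rw [hC, Subgroup.mem_centralizer_iff] at hc ⊢
    intro x hx
    have h1 := hc _ (hconj x hx g⁻¹)
    calc x * (g * c * g⁻¹) = g * ((g⁻¹ * x * g⁻¹⁻¹) * c) * g⁻¹ := by group
      _ = g * (c * (g⁻¹ * x * g⁻¹⁻¹)) * g⁻¹ := by rw [h1]
      _ = g * c * g⁻¹ * x := by group
  have hgC : g ∈ C := by
    rw [hC, Subgroup.mem_centralizer_iff]
    rintro x ⟨h1, h2⟩
    exact (hg x h1 h2).symm
  have hcf : centralizer (F : Set G) ≤ F := H1.Solv.centralizer_fitting_le hG
  -- q-subgroups of C centralize O_p(G), p ≠ q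
  have hcent : ∀ p : ℕ, p.Prime → ∀ q : ℕ, q.Prime → q ≠ p → ∀ Q : Subgroup G, Q ≤ C →
      IsPGroup q Q → Q ≤ centralizer (Cfsg.pCore p G : Set G) := by
    intro p hp q hq hne Q hQC hQ
    haveI := Fact.mk hp
    haveI := Fact.mk hq
    have hPp := H1.Cores.isPGroup_pCore (G := G) p
    by_cases hbot : Cfsg.pCore p G = ⊥
    · rw [hbot]
      intro a _
      rw [Subgroup.mem_centralizer_iff]
      rintro _ rfl
      simp
    have hp2 : p ≠ 2 := by
      rintro rfl
      haveI : Nontrivial (Cfsg.pCore 2 G) := by rwa [Subgroup.nontrivial_iff_ne_bot]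
      have h1 : 2 ∣ Nat.card (Cfsg.pCore 2 G) := by
        obtain ⟨n, hn⟩ := IsPGroup.iff_card.mp hPp
        rw [hn]
        apply dvd_pow_self
        rintro rfl
        rw [pow_zero] at hn
        have := Finite.one_lt_card (α := Cfsg.pCore 2 G)
        omega
      have h2 : 2 ∣ Nat.card F := h1.trans (Subgroup.card_dvd_of_le (H1.Cores.pCore_le_fittingSubgroup 2))
      exact (Nat.not_even_iff_odd.mpr hodd) (even_iff_two_dvd.mpr h2)
    apply H66.OmegaOne.le_centralizer_of_odd hp2 Q _ hPp
      (by rw [Subgroup.normalizer_eq_top]; exact le_top)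
    · obtain ⟨n, hn⟩ := IsPGroup.iff_card.mp hPp
      obtain ⟨m, hm⟩ := IsPGroup.iff_card.mp hQ
      rw [hn, hm]
      exact Nat.Coprime.pow _ _ ((Nat.coprime_primes hq hp).2 hne)
    · intro x hx hxp a ha
      by_cases hx1 : x = 1
      · rw [hx1]; simp
      have h1 : orderOf x = p := orderOf_eq_prime hxp hx1
      exact (Subgroup.mem_centralizer_iff.mp (hQC ha) x
        ⟨H1.Cores.pCore_le_fittingSubgroup p hx, by rw [h1]; exact hp⟩).symm
  -- the subgroups D q
  have hDle : ∀ q : ℕ, q.Prime → C ⊓ (⨅ p : {p : Nat.Primes // (p : ℕ) ≠ q},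
      centralizer (Cfsg.pCore (p : ℕ) G : Set G)) ≤ F := by
    intro q hq
    haveI := Fact.mk hq
    set D := C ⊓ (⨅ p : {p : Nat.Primes // (p : ℕ) ≠ q},
      centralizer (Cfsg.pCore (p : ℕ) G : Set G)) with hD
    have hDn : D.Normal := by
      haveI : (⨅ p : {p : Nat.Primes // (p : ℕ) ≠ q},
        centralizer (Cfsg.pCore (p : ℕ) G : Set G)).Normal :=
        Subgroup.normal_iInf_normal fun p => inferInstance
      exact Subgroup.normal_inf_normal _ _
    have hDp : ∀ p : ℕ, p.Prime → p ≠ q → D ≤ centralizer (Cfsg.pCore p G : Set G) := by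
      intro p hp hne
      exact inf_le_right.trans (iInf_le (fun p : {p : Nat.Primes // (p : ℕ) ≠ q} =>
        centralizer (Cfsg.pCore (p : ℕ) G : Set G)) ⟨⟨p, hp⟩, hne⟩)
    apply H1.Cores.le_fittingSubgroup hDn
    have hquot : IsPGroup q (D ⧸ Subgroup.center D) := by
      apply H66.SylowLe.isPGroup_quotient _ hq
      intro r hr hrq R hR
      haveI := Fact.mk hr
      set R' := R.map D.subtype with hR'
      have hR'p : IsPGroup r R' := hR.map _
      have hR'D : R' ≤ D := Subgroup.map_subtype_le _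
      have hR'F : R' ≤ F := by
        apply le_trans _ hcf
        rw [Subgroup.le_centralizer_iff, hF, H1.Cores.fittingSubgroup_eq_iSup_pCore, iSup_le_iff]
        rintro ⟨p, hp⟩
        rw [Subgroup.le_centralizer_iff]
        by_cases hpq : p = q
        · subst hpq
          exact hcent p hp r hr hrq R' (hR'D.trans inf_le_left) hR'p
        · exact hR'D.trans (hDp p hp hpq)
      have hR'r : R' ≤ Cfsg.pCore r G := by
        have h1 : ¬ r ∣ (Cfsg.pCore r G).relIndex F := H1.Cores.not_dvd_relIndex_pCore_fittingSubgroup r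
        have h2 : (Cfsg.pCore r G).relIndex R' ∣ (Cfsg.pCore r G).relIndex F := by
          rw [← Subgroup.relIndex_subgroupOf hR'F]
          exact Subgroup.relIndex_dvd_index_of_normal _ _
        have h3 : (Cfsg.pCore r G).relIndex R' ∣ Nat.card R' := Subgroup.relIndex_dvd_card _ _
        obtain ⟨n, hn⟩ := IsPGroup.iff_card.mp hR'p
        rw [hn] at h3
        obtain ⟨k, _, hk⟩ := (Nat.dvd_prime_pow hr).1 h3
        rw [← Subgroup.relIndex_eq_one]
        rw [hk] at h2 ⊢
        rcases Nat.eq_zero_or_pos k with hk0 | hk0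
        · rw [hk0, pow_zero]
        · exact absurd ((dvd_pow_self r hk0.ne').trans h2) h1
      intro x hx
      rw [Subgroup.mem_center_iff]
      intro d
      ext
      have h1 : (x : G) ∈ Cfsg.pCore r G := hR'r ⟨x, hx, rfl⟩
      exact (Subgroup.mem_centralizer_iff.mp (hDp r hr hrq d.2) _ h1).symm
    haveI : Group.IsNilpotent (D ⧸ Subgroup.center D) := hquot.isNilpotent
    exact Group.of_quotient_center_nilpotent inferInstance
  have hCF : C ≤ F := by
    apply H66.SylowLe.le_of_forall
    intro q hq Q hQC hQ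
    apply le_trans _ (hDle q hq)
    apply le_inf hQC
    apply le_iInf
    rintro ⟨⟨p, hp⟩, hne⟩
    exact hcent p hp q hq (Ne.symm hne) Q hQC hQ
  exact hCF hgC

end Cfsg.Agent.S3785
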