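import Cfsg.Statements.S3787
import Cfsg.Agent.Lib.H1.WrSec2

set_option autoImplicit false
open Cfsg

namespace Cfsg.Agent.S3787

/-- Let G be a finite p-soluble group, p an odd prime not of the form 2^k + 1, and suppose the wreath product C_p ≀ C_p (of order p^(p+1)) is not involved in a Sylow p-subgroup of G: no section of a Sylow p-subgroup is isomorphic to it. Then G has p-length at most 1. -/
theorem result {G : Type*} [Group G] [Finite G] {p : ℕ} [Fact p.Prime] (hp2 : p ≠ 2) (hnf : (¬ ∃ k : ℕ, p = 2 ^ k + 1)) (hG : Cfsg.IsPSolvable p G) (P : Sylow p G) (hwr : ∀ (W : Type) [Group W] [Finite W], (∃ (B : Subgroup W) (t : W), B.Normal ∧ IsMulCommutative B ∧ (∀ b ∈ B, b ^ p = 1) ∧ Nat.card B = p ^ p ∧ orderOf t = p ∧ t ∉ B ∧ Nat.card W = p ^ (p + 1) ∧ Nat.card ↥(B ⊓ Subgroup.centralizer ({t} : Set W)) = p) → ¬ Cfsg.Involves W ↥(P : Subgroup G)) : Cfsg.PLengthLE p 1 G := by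
  classical
  set N := pPrimeCore p G with hN
  have hNn : N.Normal := inferInstance
  apply H66.PLen.pLengthLE_of_quotient_coprime N (H1.Cores.coprime_card_pPrimeCore p)
  have hX : Cfsg.IsPSolvable p (G ⧸ N) := H37.PSolv.quotient hG N
  have hcore : pPrimeCore p (G ⧸ N) = ⊥ := H1.Cores.pPrimeCore_quotient_pPrimeCore p
  refine H66.PLen.pLengthLE_succ_of (⊥ : Subgroup (G ⧸ N)) (pCore p (G ⧸ N)) bot_le (by simp) ?_ ?_
  · rw [Subgroup.relIndex_bot_left]
    exact IsPGroup.iff_card.mp (H1.Cores.isPGroup_pCore p)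
  · rw [H66.PLen.pLengthLE_zero_iff, Nat.coprime_comm, (Fact.out : p.Prime).coprime_iff_not_dvd]
    intro hdvd
    obtain ⟨y, hy⟩ := exists_prime_orderOf_dvd_card' (G := (G ⧸ N) ⧸ pCore p (G ⧸ N)) p hdvd
    have hyp : y ^ p ^ 1 = 1 := by rw [pow_one]; exact orderOf_dvd_iff_pow_eq_one.mp (dvd_of_eq hy)
    obtain ⟨x, rfl, l, hl⟩ := H1.WrSec2.lift_pelement _ y hyp
    obtain ⟨H, hH, M₀, hM₀, hW⟩ := H1.WrSec2.key hp2 hnf hX hcore x l hl (by
        intro h
        have h1 : QuotientGroup.mk' (pCore p (G ⧸ N)) x = 1 := (QuotientGroup.eq_one_iff _).mpr h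
        have h2 := orderOf_eq_one_iff.mpr h1
        exact (Fact.out : p.Prime).one_lt.ne (h2.symm.trans hy)) (by
        rw [pow_one, ← map_pow] at hyp
        exact (QuotientGroup.eq_one_iff _).mp hyp)
    obtain ⟨W, hWg, hWf, ⟨e⟩⟩ := Finite.exists_type_univ_nonempty_mulEquiv.{_, 0} (H ⧸ M₀)
    have hW' : H1.WrSec.Wr p W := hW.of_equiv e
    refine hwr W hW' ?_
    -- Involves W P
    obtain ⟨S, hS⟩ := H66.PLen2.exists_pgroup_lift N H hH
    have h1 : Cfsg.Involves W H :=
      H51.Involves.involves_of_surjective ⊤ ((e.toMonoidHom.comp (QuotientGroup.mk' M₀)).comp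
        (Subgroup.topEquiv (G := H)).toMonoidHom)
        ((e.surjective.comp (QuotientGroup.mk'_surjective M₀)).comp (Subgroup.topEquiv (G := H)).surjective)
    have h2 : Cfsg.Involves H (S : Subgroup G) := by
      let π : (S : Subgroup G) →* G ⧸ N := (QuotientGroup.mk' N).comp (S : Subgroup G).subtype
      refine H51.Involves.involves_of_surjective (H.comap π) ((π.comp (H.comap π).subtype).codRestrict H (fun z => z.2)) ?_
      rintro ⟨h, hh⟩
      obtain ⟨s, hs, rfl⟩ := hS hh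
      exact ⟨⟨⟨s, hs⟩, hh⟩, rfl⟩
    have h3 : Cfsg.Involves (S : Subgroup G) (P : Subgroup G) :=
      H51.Involves.involves_of_equiv (Sylow.equiv S P)
    exact H51.Involves.involves_trans (H51.Involves.involves_trans h1 h2) h3

end Cfsg.Agent.S3787
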