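import Cfsg.Statements.S3790
import Cfsg.Agent.Lib.H66.PLen2

set_option autoImplicit false

open Subgroup Cfsg H66.PLen H66.PLen2

namespace Cfsg.Agent.S3790

universe u

theorem step (p : ℕ) [hp : Fact p.Prime] (M : ℕ) (q₀ : ℕ) [hq : Fact q₀.Prime] (hne : q₀ ≠ p)
    (C : ∀ (G : Type u) [Group G], Prop)
    (hCsub : ∀ (G : Type u) [Group G] [Finite G] (N : Subgroup G) [N.Normal], C G → C N)
    (hCquot : ∀ (G : Type u) [Group G] [Finite G] (N : Subgroup G) [N.Normal], C G → C (G ⧸ N))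
    (hbase : ∀ (G : Type u) [Group G] [Finite G], C G → (Nat.card G).Coprime q₀ → PLengthLE p M G)
    (l : ℕ) : ∀ (G : Type u) [Group G] [Finite G], C G → PLengthLE q₀ l G →
      PLengthLE p ((1 + l) * M) G := by
  induction l with
  | zero =>
    intro G _ _ hC hl
    rw [pLengthLE_zero_iff] at hl
    have := hbase G hC hl
    simpa using this
  | succ l ih =>
    intro G _ _ hC hl
    set N := pPrimeCore q₀ G with hN
    have h1 : PLengthLE p M N := hbase N (hCsub G N hC) (H1.Cores.coprime_card_pPrimeCore q₀)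
    have h2 : PLengthLE q₀ (l + 1) (G ⧸ N) := pLengthLE_quotient hl N
    have h3 := pLengthLE_quotient_pCore h2 (H1.Cores.pPrimeCore_quotient_pPrimeCore q₀)
    have h4 := ih ((G ⧸ N) ⧸ pCore q₀ (G ⧸ N)) (hCquot _ _ (hCquot G N hC)) h3
    have h5 : PLengthLE p 0 (pCore q₀ (G ⧸ N)) := by
      rw [pLengthLE_zero_iff]
      obtain ⟨n, hn⟩ := IsPGroup.iff_card.mp (H1.Cores.isPGroup_pCore (G := G ⧸ N) q₀)
      rw [hn]
      exact Nat.Coprime.pow_left _ ((Nat.coprime_primes hq.out hp.out).2 hne)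
    have h6 := pLengthLE_add _ h5 h4
    have h7 := pLengthLE_add _ h1 h6
    have h8 : M + (0 + (1 + l) * M) = (1 + (l + 1)) * M := by ring
    rw [← h8]; exact h7

theorem main (p : ℕ) [hp : Fact p.Prime] (r : ℕ) : ∀ (q : Fin r → ℕ) (hq : ∀ i, (q i).Prime ∧ q i ≠ p)
    (l : Fin r → ℕ) (G : Type u) [Group G] [Finite G],
    (∀ s : ℕ, s.Prime → s ∣ Nat.card G → s ≠ p → ∃ i, q i = s) →
    (∀ i, PLengthLE (q i) (l i) G) → PLengthLE p (Finset.univ.prod fun i => 1 + l i) G := by
  induction r with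
  | zero =>
    intro q hq l G _ _ hcov hl
    simp only [Finset.univ_eq_empty, Finset.prod_empty]
    apply pLengthLE_one_of_isPGroup
    have h1 : ∀ s : ℕ, s.Prime → s ∣ Nat.card G → s = p := by
      intro s hs hsd
      by_contra hne
      obtain ⟨i, _⟩ := hcov s hs hsd hne
      exact Fin.elim0 i
    exact IsPGroup.of_card (Nat.eq_prime_pow_of_unique_prime_dvd Nat.card_pos.ne'
      (fun hd hdd => h1 _ hd hdd))
  | succ r ih =>
    intro q hq l G _ _ hcov hl
    haveI : Fact (q 0).Prime := ⟨(hq 0).1⟩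
    rw [Fin.prod_univ_succ]
    apply step p (∏ i : Fin r, (1 + l i.succ)) (q 0) (hq 0).2
      (fun G _ => (Finite G ∧ ∀ s : ℕ, s.Prime → s ∣ Nat.card G → s ≠ p → ∃ i, q i = s) ∧
        ∀ i : Fin r, PLengthLE (q i.succ) (l i.succ) G) _ _ _ (l 0) G ⟨⟨inferInstance, hcov⟩, fun i => hl _⟩ (hl 0)
    · rintro G _ _ N _ ⟨⟨_, h1⟩, h2⟩
      refine ⟨⟨inferInstance, fun s hs hsd => h1 s hs (hsd.trans (Subgroup.card_subgroup_dvd_card _))⟩, fun i => ?_⟩
      haveI : Fact (q i.succ).Prime := ⟨(hq _).1⟩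
      exact pLengthLE_subgroup (h2 i) N
    · rintro G _ _ N _ ⟨⟨_, h1⟩, h2⟩
      refine ⟨⟨inferInstance, fun s hs hsd => h1 s hs (hsd.trans (Subgroup.card_quotient_dvd_card _))⟩, fun i => ?_⟩
      haveI : Fact (q i.succ).Prime := ⟨(hq _).1⟩
      exact pLengthLE_quotient (h2 i) N
    · rintro G _ _ ⟨⟨_, h1⟩, h2⟩ hcop
      apply ih (fun i => q i.succ) (fun i => hq _) (fun i => l i.succ) G _ h2
      intro s hs hsd hsp
      obtain ⟨i, hi⟩ := h1 s hs hsd hsp
      rcases Fin.eq_zero_or_eq_succ i with rfl | ⟨j, rfl⟩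
      · exfalso
        subst hi
        have h3 : q 0 ∣ 1 := by
          have h4 := Nat.dvd_gcd hsd (dvd_refl (q 0))
          rw [Nat.Coprime.gcd_eq_one hcop] at h4
          exact h4
        exact hs.one_lt.ne' (Nat.dvd_one.mp h3)
      · exact ⟨j, hi⟩

/-- Let G be a finite solvable group and p a prime. Suppose p₁, …, p_r are distinct primes, all different from p, that include every prime dividing the order of G other than p, and that G has p_i-length at most l_i for each i. Then G has p-length at most the product of the numbers 1 + l_i. -/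
theorem result {G : Type*} [Group G] [Finite G] (hG : Group.IsSolvable G) (p : ℕ) [Fact p.Prime] (r : ℕ) (q : Fin r → ℕ) (hq : ∀ i, (q i).Prime ∧ q i ≠ p) (hinj : Function.Injective q) (hcover : ∀ s : ℕ, s.Prime → s ∣ Nat.card G → s ≠ p → ∃ i, q i = s) (l : Fin r → ℕ) (hl : ∀ i, Cfsg.PLengthLE (q i) (l i) G) : Cfsg.PLengthLE p (Finset.univ.prod fun i => 1 + l i) G :=
  main p r q hq l G hcover hl

end Cfsg.Agent.S3790
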