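import Cfsg.Statements.S3791
import Cfsg.Agent.Lib.H66.PLen2
import Cfsg.Agent.Lib.H1.Solv

set_option autoImplicit false

open Subgroup Cfsg H66.PLen H66.PLen2

namespace Cfsg.Agent.S3791

universe u

theorem main (r : ℕ) (q : Fin r → ℕ) (hq : ∀ i, (q i).Prime) (d : Fin r → ℕ) (n : ℕ) :
    ∀ (l : Fin r → ℕ) (G : Type u) [Group G] [Finite G], Group.IsSolvable G → Nat.card G = n →
    (∀ s : ℕ, s.Prime → s ∣ Nat.card G → ∃ i, q i = s) →
    (∀ i, ∀ P : Subgroup G, IsPGroup (q i) P → derivedSeries P (d i) = ⊥) →
    (∀ i, PLengthLE (q i) (l i) G) →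
    derivedSeries G (Finset.univ.sum fun i => d i * l i) = ⊥ := by
  classical
  induction n using Nat.strong_induction_on with
  | _ n ih =>
  intro l G _ _ hs hn hcov hd hl
  apply eq_bot_of_le_pPrimeCore
  intro s hsp hsd
  obtain ⟨i, rfl⟩ := hcov s hsp hsd
  haveI : Fact (q i).Prime := ⟨hsp⟩
  set N := pPrimeCore (q i) G with hN
  rw [← QuotientGroup.ker_mk' N, ← Subgroup.map_eq_bot_iff,
    map_derivedSeries_eq (QuotientGroup.mk'_surjective N)]
  set X := G ⧸ N with hX
  have hXcore : pPrimeCore (q i) X = ⊥ := H1.Cores.pPrimeCore_quotient_pPrimeCore (q i)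
  have hXs : Group.IsSolvable X := inferInstance
  have hdquot : ∀ (Y : Type u) [Group Y] [Finite Y] (K : Subgroup Y) [K.Normal],
      (∀ i, ∀ P : Subgroup Y, IsPGroup (q i) P → derivedSeries P (d i) = ⊥) →
      (∀ i, ∀ P : Subgroup (Y ⧸ K), IsPGroup (q i) P → derivedSeries P (d i) = ⊥) := by
    intro Y _ _ K _ hY j P hP
    haveI : Fact (q j).Prime := ⟨hq j⟩
    obtain ⟨S, hS⟩ := exists_pgroup_lift K P hP
    have h1 := hY j S S.2
    have h2 := ds_of_surjective ((QuotientGroup.mk' K).subgroupMap (S : Subgroup Y))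
      ((QuotientGroup.mk' K).subgroupMap_surjective _) h1
    exact ds_of_injective (Subgroup.inclusion hS) (Subgroup.inclusion_injective hS) h2
  have hXd := hdquot G N hd
  have hXl : ∀ j, PLengthLE (q j) (l j) X := by
    intro j
    haveI : Fact (q j).Prime := ⟨hq j⟩
    exact pLengthLE_quotient (hl j) N
  by_cases htriv : Subsingleton X
  · rw [eq_bot_iff]
    intro x _
    rw [Subgroup.mem_bot]
    exact Subsingleton.elim _ _
  haveI : Nontrivial X := not_subsingleton_iff_nontrivial.mp htriv
  -- the core R is nontrivial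
  set R := pCore (q i) X with hR
  have hRbot : R ≠ ⊥ := by
    intro h
    have h1 := H1.Solv.centralizer_pCore_le hXs (q i) hXcore
    rw [← hR, h] at h1
    have h2 : (⊤ : Subgroup X) ≤ ⊥ := by
      refine le_trans ?_ h1
      intro x _
      rw [Subgroup.mem_centralizer_iff]
      intro y hy
      have : y = 1 := hy
      rw [this]; simp
    exact top_ne_bot (le_bot_iff.mp h2)
  have hRp : IsPGroup (q i) R := H1.Cores.isPGroup_pCore _
  have hRd : derivedSeries R (d i) = ⊥ := hXd i R hRp
  have hli : 0 < l i := by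
    by_contra h0
    have h1 : l i = 0 := by omega
    have h2 := hXl i
    rw [h1, pLengthLE_zero_iff] at h2
    have h3 : Nat.card R = 1 := by
      obtain ⟨m, hm⟩ := IsPGroup.iff_card.mp hRp
      have h4 := h2.coprime_dvd_left (Subgroup.card_subgroup_dvd_card R)
      rw [hm] at h4 ⊢
      rcases Nat.eq_zero_or_pos m with h5 | h5
      · rw [h5, pow_zero]
      · exfalso
        have h6 : q i ∣ 1 := by
          rw [← h4]; exact Nat.dvd_gcd (dvd_pow_self _ h5.ne') dvd_rfl
        exact hsp.one_lt.ne' (Nat.dvd_one.mp h6)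
    exact hRbot (Subgroup.card_eq_one.mp h3)
  obtain ⟨m, hm⟩ : ∃ m, l i = m + 1 := ⟨l i - 1, by omega⟩
  have hRl : PLengthLE (q i) m (X ⧸ R) := pLengthLE_quotient_pCore (by rw [← hm]; exact hXl i) hXcore
  have hcard : Nat.card (X ⧸ R) < n := by
    have h1 : Nat.card (X ⧸ R) < Nat.card X := by
      rw [← Subgroup.card_mul_index R, ← Subgroup.index_eq_card]
      have h2 : 1 < Nat.card R := by
        rw [Finite.one_lt_card_iff_nontrivial, Subgroup.nontrivial_iff_ne_bot]; exact hRbot
      have h3 : 0 < R.index := Nat.pos_of_ne_zero Subgroup.index_ne_zero_of_finite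
      nlinarith
    have h2 : Nat.card X ≤ Nat.card G :=
      Nat.le_of_dvd Nat.card_pos (Subgroup.card_quotient_dvd_card _)
    omega
  have h1 := ih _ hcard (Function.update l i m) (X ⧸ R) inferInstance rfl
    (by
      intro s hs' hsd'
      exact hcov s hs' ((hsd'.trans (Subgroup.card_quotient_dvd_card _)).trans
        (Subgroup.card_quotient_dvd_card _)))
    (hdquot X R hXd)
    (by
      intro j
      by_cases hj : j = i
      · subst hj
        rw [Function.update_self]; exact hRl
      · rw [Function.update_of_ne hj]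
        haveI : Fact (q j).Prime := ⟨hq j⟩
        exact pLengthLE_quotient (hXl j) R)
  have hsum : (∑ j, d j * l j) = (∑ j, d j * Function.update l i m j) + d i := by
    rw [← Finset.add_sum_erase _ _ (Finset.mem_univ i), ← Finset.add_sum_erase _ (fun j => d j * Function.update l i m j) (Finset.mem_univ i)]
    rw [Function.update_self, hm]
    have : ∑ j ∈ Finset.univ.erase i, d j * l j = ∑ j ∈ Finset.univ.erase i, d j * Function.update l i m j := by
      apply Finset.sum_congr rfl
      intro j hj
      rw [Function.update_of_ne (Finset.ne_of_mem_erase hj)]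
    rw [this]; ring
  rw [hsum]
  set a := ∑ j, d j * Function.update l i m j with ha
  -- derivedSeries X a ≤ R
  have h2 : derivedSeries X a ≤ R := by
    rw [← QuotientGroup.ker_mk' R, ← Subgroup.map_eq_bot_iff,
      map_derivedSeries_eq (QuotientGroup.mk'_surjective R)]
    exact h1
  -- derivedSeries X (a + b) ≤ map (derivedSeries R b)
  have h3 : ∀ b, derivedSeries X (a + b) ≤ (derivedSeries R b).map R.subtype := by
    intro b
    induction b with
    | zero =>
      rw [add_zero, derivedSeries_zero, ← MonoidHom.range_eq_map, Subgroup.range_subtype]; exact h2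
    | succ b ihb =>
      rw [← add_assoc, derivedSeries_succ, derivedSeries_succ, Subgroup.map_commutator]
      exact Subgroup.commutator_mono ihb ihb
  rw [eq_bot_iff]
  have h4 := h3 (d i)
  rwa [hRd, Subgroup.map_bot] at h4

/-- The Hall–Higman bound on derived length: let G be a finite solvable group, let p₁, …, p_r be distinct primes that include every prime dividing the order of G, and suppose that for each i the Sylow p_i-subgroups of G have derived length at most d_i and G has p_i-length at most l_i. Then G has derived length at most Σ d_i l_i. -/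
theorem result {G : Type*} [Group G] [Finite G] (hG : Group.IsSolvable G) (r : ℕ) (q : Fin r → ℕ) (hq : ∀ i, (q i).Prime) (hinj : Function.Injective q) (hcover : ∀ s : ℕ, s.Prime → s ∣ Nat.card G → ∃ i, q i = s) (d l : Fin r → ℕ) (hd : ∀ i, ∀ P : Subgroup G, (haveI := Fact.mk (hq i); ∃ S : Sylow (q i) G, (S : Subgroup G) = P) → derivedSeries ↥P (d i) = ⊥) (hl : ∀ i, Cfsg.PLengthLE (q i) (l i) G) : derivedSeries G (Finset.univ.sum fun i => d i * l i) = ⊥ := by
  apply main r q hq d _ l G hG rfl hcover _ hl
  intro i P hP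
  haveI := Fact.mk (hq i)
  obtain ⟨S, hS⟩ := hP.exists_le_sylow
  exact ds_of_injective (Subgroup.inclusion hS) (Subgroup.inclusion_injective hS) (hd i S ⟨S, rfl⟩)

end Cfsg.Agent.S3791
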