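import Cfsg.Statements.S3793
import Cfsg.Agent.Lib.H66.SGRed

set_option autoImplicit false
open Cfsg

namespace Cfsg.Agent.S3793

open Subgroup H66.Fpf in
theorem main {p : ℕ} (hp : p.Prime) (hp2 : p ≠ 2) (n : ℕ) : ∀ (G : Type*) [Group G] [Finite G],
    Group.IsSolvable G → ∀ σ : MulAut G, σ ^ p ^ n = 1 → (∀ g : G, σ g = g → g = 1) → H66.FH.FH n G := by
  induction n with
  | zero =>
    intro G _ _ hG σ hσ hfpf
    rw [pow_zero, pow_one] at hσ
    apply H66.FH.zero_of_subsingleton
    intro g
    exact hfpf g (by rw [hσ]; rfl)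
  | succ m ih =>
    intro G _ _ hG σ hσ hfpf
    have := Fact.mk hp
    set z := σ ^ p ^ m with hz
    -- the normal closure of the elements x⁻¹ z(x)
    set N := Subgroup.normalClosure {y : G | ∃ x : G, y = x⁻¹ * z x} with hN
    have hNσ : N.map σ.toMonoidHom = N := by
      have h1 : ∀ u ∈ N, σ u ∈ N := by
        intro u hu
        have h2 : N ≤ N.comap σ.toMonoidHom := by
          rw [hN]
          apply Subgroup.normalClosure_le_normal
          rintro y ⟨x, rfl⟩
          change σ (x⁻¹ * z x) ∈ N
          have h3 : σ (x⁻¹ * z x) = (σ x)⁻¹ * z (σ x) := by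
            rw [map_mul, map_inv]
            have : σ (z x) = z (σ x) := by
              rw [hz]
              change (σ * σ ^ p ^ m) x = (σ ^ p ^ m * σ) x
              rw [← pow_succ, ← pow_succ']
            rw [this]
          rw [h3]
          exact Subgroup.subset_normalClosure ⟨σ x, rfl⟩
        exact h2 hu
      apply Subgroup.eq_of_le_of_card_ge
      · rintro _ ⟨u, hu, rfl⟩
        exact h1 u hu
      · rw [Nat.card_congr (N.equivMapOfInjective _ σ.injective).toEquiv.symm]
    have hNnil : Group.IsNilpotent N := by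
      apply H66.NilCore.isNilpotent_of_map
      intro r hr
      have := Fact.mk hr
      have : (Cfsg.pPrimeCore r G).Characteristic := H1.Cores.pPrimeCore_characteristic r
      have hM := map_char σ (Cfsg.pPrimeCore r G)
      have h1 := fun x => H66.SGRed.fix_mod_pCore (G := G ⧸ Cfsg.pPrimeCore r G) inferInstance (p := p) (r := r)
        hp2 (quot σ _ hM) m (quot_pow_eq_one σ _ hM hσ) (quot_fpf hfpf _ hM)
        (H1.Cores.pPrimeCore_quotient_pPrimeCore r) x
      have h2 : N.map (QuotientGroup.mk' (Cfsg.pPrimeCore r G)) ≤ Cfsg.pCore r (G ⧸ Cfsg.pPrimeCore r G) := by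
        rw [Subgroup.map_le_iff_le_comap, hN]
        apply Subgroup.normalClosure_le_normal
        rintro y ⟨x, rfl⟩
        rw [SetLike.mem_coe, Subgroup.mem_comap]
        have h3 := h1 (QuotientGroup.mk' _ x)
        rw [quot_pow_mk] at h3
        rw [map_mul, map_inv]
        exact h3
      exact (IsPGroup.to_le (H1.Cores.isPGroup_pCore r) h2).isNilpotent
    apply H66.FH.succ_of N hNnil
    apply ih (G ⧸ N) inferInstance (quot σ N hNσ) _ (quot_fpf hfpf N hNσ)
    ext x
    obtain ⟨u, rfl⟩ := QuotientGroup.mk'_surjective N x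
    rw [quot_pow_mk, MulAut.one_apply]
    symm
    rw [← inv_mul_eq_one, ← map_inv, ← map_mul]
    apply (QuotientGroup.eq_one_iff _).mpr
    exact Subgroup.subset_normalClosure ⟨u, rfl⟩

/-- The Shult–Gross Theorem: let p be an odd prime and G a finite solvable group with an automorphism σ of order p^n fixing only the identity. Then G has Fitting height at most n: G has Fitting height at most m when there is a chain of normal subgroups 1 = F₀ ≤ F₁ ≤ ⋯ ≤ F_m = G with each F_{i+1}/F_i nilpotent. -/
theorem result {G : Type*} [Group G] [Finite G] (hG : Group.IsSolvable G) {p : ℕ} (hp : p.Prime) (hp2 : p ≠ 2) (σ : MulAut G) (n : ℕ) (hσ : orderOf σ = p ^ n) (hfpf : ∀ g : G, σ g = g → g = 1) : ∃ F : Fin (n + 1) → Subgroup G, F 0 = ⊥ ∧ F (Fin.last n) = ⊤ ∧ Monotone F ∧ (∀ i, (F i).Normal) ∧ ∀ i : Fin n, ∃ k : ℕ, (F i.succ).lowerCentralSeries k ≤ F i.castSucc := by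
  exact main hp hp2 n G hG σ (by rw [← hσ]; exact pow_orderOf_eq_one σ) hfpf

end Cfsg.Agent.S3793
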