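import Cfsg.Statements.S3794
import Cfsg.Agent.Lib.H66.Fpf
import Cfsg.Agent.Lib.H66.NilCore
import Cfsg.Agent.Lib.H1.Solv

set_option autoImplicit false

open Subgroup H66.Fpf
open scoped commutatorElement

namespace Cfsg.Agent.S3794

theorem pow_two_apply {G : Type*} [Group G] (σ : MulAut G) (x : G) : (σ ^ 2) x = σ (σ x) := rfl

/-- the case `O_{p'}(G) = 1`. -/
theorem main {G : Type*} [Group G] [Finite G] (hG : Group.IsSolvable G) (σ : MulAut G) (hσ : σ ^ 4 = 1)
    (hfpf : ∀ g : G, σ g = g → g = 1) (p : ℕ) [hp : Fact p.Prime] (hcore : Cfsg.pPrimeCore p G = ⊥) :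
    commutator G ≤ Cfsg.pCore p G := by
  classical
  have hodd : Odd (Nat.card G) := odd_card hfpf (k := 2) hσ
  have h4 : ∀ x, σ (σ (σ (σ x))) = x := by
    intro x
    have : (σ ^ 4) x = x := by rw [hσ]; rfl
    exact this
  set P := Cfsg.pCore p G with hP
  have hPp : IsPGroup p P := H1.Cores.isPGroup_pCore p
  have hPσ : P.map σ.toMonoidHom = P := map_char σ P
  have hCP : centralizer (P : Set G) ≤ P := H1.Solv.centralizer_pCore_le hG p hcore
  -- no element of order 2
  have hsq : ∀ x : G, x * x = 1 → x = 1 := by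
    intro x hx
    have h1 : orderOf x ∣ 2 := orderOf_dvd_of_pow_eq_one (by rw [sq]; exact hx)
    have h2 : orderOf x ∣ Nat.card G := orderOf_dvd_natCard x
    have h3 : orderOf x ∣ 1 := by
      have : Nat.Coprime 2 (Nat.card G) := (Nat.coprime_two_left).mpr hodd
      rw [← this]; exact Nat.dvd_gcd h1 h2
    rw [← orderOf_eq_one_iff]; exact Nat.dvd_one.mp h3
  -- the quotient H = G / P
  set H := G ⧸ P with hH
  let σH : MulAut H := quot σ P hPσ
  have hσH : ∀ g : G, σH (QuotientGroup.mk' P g) = QuotientGroup.mk' P (σ g) := fun g => rfl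
  have hfH : ∀ x, σH x = x → x = 1 := quot_fpf hfpf P hPσ
  have hHs : Group.IsSolvable H := inferInstance
  -- key claim: elements of prime to p order mod P with σ² y = y⁻¹ are in P
  have hclaim : ∀ y : G, σ (σ y) = y⁻¹ → (∀ x : G, x ∈ Subgroup.zpowers y → IsCoprime (orderOf x : ℤ) p →
      x ∈ P) := by
    intro y hy x hx hxp
    have hxc : (orderOf x).Coprime p := Nat.isCoprime_iff_coprime.mp hxp
    obtain ⟨k, rfl⟩ := Subgroup.mem_zpowers_iff.mp hx
    set z := y ^ k with hz
    have hzσ : σ (σ z) = z⁻¹ := by rw [hz, map_zpow, map_zpow, hy, inv_zpow]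
    have hzc := commute_of_inv hfpf hzσ
    -- B = ⟨z, σ z⟩
    set B := Subgroup.closure ({z, σ z} : Set G) with hB
    have hBσ : ∀ b ∈ B, σ b ∈ B := by
      intro b hb
      induction hb using Subgroup.closure_induction with
      | mem w hw =>
        rcases hw with rfl | hw
        · exact Subgroup.subset_closure (by simp)
        · rw [Set.mem_singleton_iff.mp hw, hzσ]
          exact B.inv_mem (Subgroup.subset_closure (by simp))
      | one => rw [map_one]; exact B.one_mem
      | mul a b _ _ ha hb => rw [map_mul]; exact B.mul_mem ha hb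
      | inv a _ ha => rw [map_inv]; exact B.inv_mem ha
    have hBcomm : ∀ a ∈ B, ∀ b ∈ B, a * b = b * a := by
      have h1 : B ≤ centralizer (B : Set G) := by
        rw [hB, Subgroup.centralizer_closure, Subgroup.closure_le]
        intro a ha
        rw [SetLike.mem_coe, Subgroup.mem_centralizer_iff]
        intro b hb
        rcases ha with rfl | ha <;> rcases hb with rfl | hb
        · rfl
        · rw [Set.mem_singleton_iff.mp hb]; exact hzc.symm
        · rw [Set.mem_singleton_iff.mp ha]; exact hzc
        · rw [Set.mem_singleton_iff.mp ha, Set.mem_singleton_iff.mp hb]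
      intro a ha b hb
      exact (Subgroup.mem_centralizer_iff.mp (h1 ha) b hb).symm
    have hBinv : ∀ b ∈ B, σ (σ b) = b⁻¹ := by
      intro b hb
      induction hb using Subgroup.closure_induction with
      | mem w hw =>
        rcases hw with rfl | hw
        · exact hzσ
        · rw [Set.mem_singleton_iff.mp hw, hzσ, map_inv]
      | one => simp
      | mul a b ha' hb' ha hb =>
        rw [map_mul, map_mul, ha, hb, mul_inv_rev]
        rw [← mul_inv_rev, ← mul_inv_rev, hBcomm a ha' b hb']
      | inv a _ ha => rw [map_inv, map_inv, ha]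
    -- order of B
    have hBpow : ∀ b ∈ B, b ^ orderOf z = 1 := by
      intro b hb
      induction hb using Subgroup.closure_induction with
      | mem w hw =>
        rcases hw with rfl | hw
        · exact pow_orderOf_eq_one _
        · rw [Set.mem_singleton_iff.mp hw, ← map_pow, pow_orderOf_eq_one, map_one]
      | one => simp
      | mul a b ha' hb' ha hb =>
        have : Commute a b := hBcomm a ha' b hb'
        rw [this.mul_pow, ha, hb, one_mul]
      | inv a _ ha => rw [inv_pow, ha, inv_one]
    have hBp : (Nat.card B).Coprime p := by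
      rw [Nat.coprime_comm, hp.out.coprime_iff_not_dvd]
      intro hdvd
      obtain ⟨b, hb⟩ := exists_prime_orderOf_dvd_card' (G := B) p hdvd
      have h1 : (b : G) ^ orderOf z = 1 := hBpow b b.2
      have h2 : orderOf (b : G) ∣ orderOf z := orderOf_dvd_of_pow_eq_one h1
      rw [Subgroup.orderOf_coe, hb] at h2
      have h3 : p ∣ 1 := by rw [← hxc]; exact Nat.dvd_gcd h2 dvd_rfl
      exact hp.out.one_lt.ne' (Nat.dvd_one.mp h3)
    have hcopP : (Nat.card B).Coprime (Nat.card P) := by
      obtain ⟨n, hn⟩ := IsPGroup.iff_card.mp hPp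
      rw [hn]
      exact Nat.Coprime.pow_right _ hBp
    have h1 := le_centralizer_of_frobenius hfpf (n := 4) (by norm_num) hσ P B hPσ hPp.isNilpotent hBσ hcopP
      (by
        intro i hi0 hi4 b hb hib
        interval_cases i
        · exact hfpf b hib
        · have h2 : σ (σ b) = b := hib
          rw [hBinv b hb] at h2
          apply hsq
          nth_rewrite 1 [← h2]
          group
        · have h2 : σ (σ (σ b)) = b := hib
          have h3 := congrArg σ h2
          rw [h4] at h3
          exact hfpf b h3.symm)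
    exact hCP (h1 (Subgroup.subset_closure (by simp)))
  -- σ² centralizes F(H)
  set F := Cfsg.fittingSubgroup H with hF
  have hFcop : (Nat.card F).Coprime p := by
    rw [Nat.coprime_comm, hp.out.coprime_iff_not_dvd]
    intro hdvd
    have h1 : Cfsg.pCore p H = ⊥ := H1.Cores.pCore_quotient_pCore p
    have h2 := H1.Cores.not_dvd_relIndex_pCore_fittingSubgroup (G := H) p
    rw [h1, Subgroup.relIndex_bot_left] at h2
    exact h2 hdvd
  have hFchar : F.Characteristic := H1.Cores.fittingSubgroup_characteristic
  have hFσ : ∀ x ∈ F, σH x ∈ F := fun x hx => apply_mem σH (map_char σH F) hx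
  have hFcent : ∀ x ∈ F, σH (σH x) = x := by
    intro x hx
    obtain ⟨g, rfl⟩ := QuotientGroup.mk'_surjective P x
    set y := g⁻¹ * σ (σ g) with hy
    have hyσ : σ (σ y) = y⁻¹ := by
      rw [hy, map_mul, map_mul, h4, map_inv, map_inv]; group
    have hyF : QuotientGroup.mk' P y ∈ F := by
      rw [hy, map_mul, map_inv]
      exact F.mul_mem (F.inv_mem hx) (hFσ _ (hFσ _ hx))
    -- the order of mk y is prime to p
    have hm : (orderOf (QuotientGroup.mk' P y)).Coprime p := by
      have h1 : orderOf (QuotientGroup.mk' P y) ∣ Nat.card F := by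
        have := orderOf_dvd_natCard (⟨_, hyF⟩ : F)
        rwa [Subgroup.orderOf_mk] at this
      exact hFcop.coprime_dvd_left h1
    set m := orderOf (QuotientGroup.mk' P y) with hmdef
    have hymP : y ^ m ∈ P := by
      have h1 : QuotientGroup.mk' P (y ^ m) = 1 := by rw [map_pow, hmdef, pow_orderOf_eq_one]
      exact (QuotientGroup.eq_one_iff _).mp h1
    obtain ⟨k, hk⟩ := hPp ⟨_, hymP⟩
    have hk' : (y ^ m) ^ p ^ k = 1 := congrArg Subtype.val hk
    -- y' = y ^ (p ^ k)
    have h1 : y ^ p ^ k ∈ P := by
      apply hclaim y hyσ _ (Subgroup.npow_mem_zpowers y _)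
      rw [Nat.isCoprime_iff_coprime]
      have h2 : orderOf (y ^ p ^ k) ∣ m := by
        apply orderOf_dvd_of_pow_eq_one
        rw [← pow_mul, mul_comm, pow_mul]; exact hk'
      exact hm.coprime_dvd_left h2
    have h2 : (QuotientGroup.mk' P y) ^ p ^ k = 1 := by
      rw [← map_pow]; exact (QuotientGroup.eq_one_iff _).mpr h1
    have h3 : m ∣ p ^ k := orderOf_dvd_of_pow_eq_one h2
    have h4' : m = 1 := Nat.Coprime.eq_one_of_dvd (hm.pow_right k) h3
    have h5 : QuotientGroup.mk' P y = 1 := by
      rw [← orderOf_eq_one_iff]; exact h4'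
    rw [hy, map_mul, map_inv, inv_mul_eq_one] at h5
    exact h5.symm
  -- σ² is trivial on H
  have hCF : centralizer (F : Set H) ≤ F := H1.Solv.centralizer_fitting_le hHs
  have hσH4 : ∀ x, σH (σH (σH (σH x))) = x := by
    intro x
    obtain ⟨g, rfl⟩ := QuotientGroup.mk'_surjective P x
    rw [hσH, hσH, hσH, hσH, h4]
  have hHodd : ∀ x : H, x * x = 1 → x = 1 := by
    intro x hx
    have h1 : orderOf x ∣ 2 := orderOf_dvd_of_pow_eq_one (by rw [sq]; exact hx)
    have h2 : orderOf x ∣ Nat.card G :=
      (orderOf_dvd_natCard x).trans (Subgroup.card_quotient_dvd_card _)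
    have h3 : orderOf x ∣ 1 := by
      have : Nat.Coprime 2 (Nat.card G) := (Nat.coprime_two_left).mpr hodd
      rw [← this]; exact Nat.dvd_gcd h1 h2
    rw [← orderOf_eq_one_iff]; exact Nat.dvd_one.mp h3
  have hall : ∀ x : H, σH (σH x) = x := by
    intro x
    have h1 : x⁻¹ * σH (σH x) ∈ F := by
      apply hCF
      rw [Subgroup.mem_centralizer_iff]
      intro f hf
      have h2 : x * f * x⁻¹ ∈ F := (inferInstance : F.Normal).conj_mem f hf x
      have h3 := hFcent _ h2
      rw [map_mul, map_mul, map_mul, map_mul, hFcent f hf, map_inv, map_inv] at h3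
      -- τx f τx⁻¹ = x f x⁻¹
      calc f * (x⁻¹ * σH (σH x)) = x⁻¹ * (x * f * x⁻¹) * σH (σH x) := by group
        _ = x⁻¹ * (σH (σH x) * f * (σH (σH x))⁻¹) * σH (σH x) := by rw [h3]
        _ = x⁻¹ * σH (σH x) * f := by group
    have h2 := hFcent _ h1
    rw [map_mul, map_mul, hσH4, map_inv, map_inv] at h2
    have h3 : x⁻¹ * σH (σH x) = 1 := by
      apply hHodd
      nth_rewrite 1 [← h2]
      group
    exact (inv_mul_eq_one.mp h3).symm
  have hcommH : ∀ x y : H, Commute x y := by
    intro x y
    exact MonoidHom.FixedPointFree.commute_all_of_involutive (φ := σH) hfH hall x y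
  rw [commutator_eq_closure, Subgroup.closure_le]
  rintro _ ⟨a, b, rfl⟩
  have h1 : QuotientGroup.mk' P ⁅a, b⁆ = 1 := by
    rw [map_commutatorElement, commutatorElement_eq_one_iff_mul_comm]
    exact hcommH _ _
  exact (QuotientGroup.eq_one_iff _).mp h1

/-- Let G be a finite solvable group with an automorphism σ satisfying σ⁴ = 1 and fixing only the identity. Then the derived subgroup G' is nilpotent. -/
theorem result {G : Type*} [Group G] [Finite G] (hG : Group.IsSolvable G) (σ : MulAut G) (hσ : σ ^ 4 = 1) (hfpf : ∀ g : G, σ g = g → g = 1) : Group.IsNilpotent (commutator G) := by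
  apply H66.NilCore.isNilpotent_of_map
  intro p hp
  haveI := Fact.mk hp
  haveI : (Cfsg.pPrimeCore p G).Characteristic := H1.Cores.pPrimeCore_characteristic p
  have hN := map_char σ (Cfsg.pPrimeCore p G)
  have h1 := main (G := G ⧸ Cfsg.pPrimeCore p G) inferInstance (quot σ _ hN) (quot_pow_eq_one σ _ hN hσ)
    (quot_fpf hfpf _ hN) p (H1.Cores.pPrimeCore_quotient_pPrimeCore p)
  have h2 : (commutator G).map (QuotientGroup.mk' (Cfsg.pPrimeCore p G)) ≤
      commutator (G ⧸ Cfsg.pPrimeCore p G) := by
    rw [commutator_def, Subgroup.map_commutator]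
    exact Subgroup.commutator_mono le_top le_top
  exact (IsPGroup.to_le (H1.Cores.isPGroup_pCore p) (h2.trans h1)).isNilpotent

end Cfsg.Agent.S3794
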