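import Cfsg.Statements.S3795
import Cfsg.Agent.Lib.H66.GrossE
-- import your own Cfsg.Agent.* helpers here

set_option autoImplicit false
open Cfsg

namespace Cfsg.Agent.S3795

open Subgroup in
theorem core_lemma {G : Type*} [Group G] [Finite G] (N : Subgroup G)
    (h : ∀ r : ℕ, r.Prime → Group.IsNilpotent ((N.map (QuotientGroup.mk' (Cfsg.pPrimeCore r G))).map
      (QuotientGroup.mk' (Cfsg.pCore r (G ⧸ Cfsg.pPrimeCore r G))))) :
    ∃ K, Group.IsNilpotent (N.lowerCentralSeries K) := by
  classical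
  have h1 : ∀ r : ℕ, r.Prime → ∃ k, (N.lowerCentralSeries k).map (QuotientGroup.mk' (Cfsg.pPrimeCore r G)) ≤
      Cfsg.pCore r (G ⧸ Cfsg.pPrimeCore r G) := by
    intro r hr
    obtain ⟨k, hk⟩ := (Subgroup.isNilpotent_iff_lowerCentralSeries _).mp (h r hr)
    refine ⟨k, ?_⟩
    rw [← map_lowerCentralSeries, ← map_lowerCentralSeries, Subgroup.map_eq_bot_iff,
      QuotientGroup.ker_mk'] at hk
    exact hk
  choose! k hk using h1
  set K := ∑ q ∈ (Nat.card G).primeFactors, k q with hK
  refine ⟨K, ?_⟩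
  apply H66.NilCore.isNilpotent_of_map
  intro r hr
  have := Fact.mk hr
  by_cases hrd : r ∣ Nat.card G
  · have hmem : r ∈ (Nat.card G).primeFactors := by
      rw [Nat.mem_primeFactors]; exact ⟨hr, hrd, Nat.card_pos.ne'⟩
    have hle : k r ≤ K := Finset.single_le_sum (f := k) (fun _ _ => Nat.zero_le _) hmem
    have h2 := (map_mono (Subgroup.lowerCentralSeries_antitone N hle)).trans (hk r hr)
    exact (IsPGroup.to_le (H1.Cores.isPGroup_pCore r) h2).isNilpotent
  · have h1 : (⊤ : Subgroup G) ≤ Cfsg.pPrimeCore r G :=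
      H1.Cores.le_pPrimeCore inferInstance (by
        rw [Subgroup.card_top]; exact ((Nat.Prime.coprime_iff_not_dvd hr).mpr hrd).symm)
    have h2 : (N.lowerCentralSeries K).map (QuotientGroup.mk' (Cfsg.pPrimeCore r G)) = ⊥ := by
      rw [Subgroup.map_eq_bot_iff, QuotientGroup.ker_mk']
      exact le_top.trans h1
    rw [h2]
    infer_instance

open Subgroup in
theorem step {G : Type*} [Group G] [Finite G] (N : Subgroup G) [N.Normal]
    (h : ∀ r : ℕ, r.Prime → Group.IsNilpotent ((N.map (QuotientGroup.mk' (Cfsg.pPrimeCore r G))).map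
      (QuotientGroup.mk' (Cfsg.pCore r (G ⧸ Cfsg.pPrimeCore r G))))) {n : ℕ}
    (hn : H66.FH.FH n (G ⧸ N)) : H66.FH.FH (n + 2) G := by
  obtain ⟨K, hK⟩ := core_lemma N h
  set N2 := N.lowerCentralSeries K with hN2
  have hN2n : N2.Normal := inferInstance
  have hle : N2 ≤ N := by
    have := Subgroup.lowerCentralSeries_antitone N (Nat.zero_le K)
    rwa [Subgroup.lowerCentralSeries_zero] at this
  apply H66.FH.succ_of N2 hK
  have hle' : N2 ≤ N.comap (MonoidHom.id G) := hle
  have hsurj : Function.Surjective (QuotientGroup.map N2 N (MonoidHom.id G) hle') := by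
    intro y
    obtain ⟨x, rfl⟩ := QuotientGroup.mk'_surjective N y
    exact ⟨QuotientGroup.mk' N2 x, rfl⟩
  refine H66.FH.succ_of_hom (QuotientGroup.map N2 N (MonoidHom.id G) hle') hsurj ?_ hn
  have hker : (QuotientGroup.map N2 N (MonoidHom.id G) hle').ker = N.map (QuotientGroup.mk' N2) := by
    ext y
    obtain ⟨x, rfl⟩ := QuotientGroup.mk'_surjective N2 y
    rw [MonoidHom.mem_ker]
    have e : (QuotientGroup.map N2 N (MonoidHom.id G) hle') (QuotientGroup.mk' N2 x) = QuotientGroup.mk' N x := rfl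
    rw [e]
    constructor
    · intro h1
      exact ⟨x, (QuotientGroup.eq_one_iff x).mp h1, rfl⟩
    · rintro ⟨x', hx', h1⟩
      have h2 : x'⁻¹ * x ∈ N2 := QuotientGroup.eq.mp h1
      have h3 : x ∈ N := by
        have := N.mul_mem hx' (hle h2)
        rwa [mul_inv_cancel_left] at this
      exact (QuotientGroup.eq_one_iff x).mpr h3
  rw [hker, Subgroup.isNilpotent_iff_lowerCentralSeries]
  refine ⟨K, ?_⟩
  rw [← map_lowerCentralSeries, Subgroup.map_eq_bot_iff, QuotientGroup.ker_mk']

open Subgroup H66.Fpf in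
theorem main (m : ℕ) : ∀ (G : Type*) [Group G] [Finite G],
    Group.IsSolvable G → ∀ σ : MulAut G, σ ^ 2 ^ (m + 2) = 1 → (∀ g : G, σ g = g → g = 1) →
    H66.FH.FH (2 * (m + 1)) G := by
  induction m with
  | zero =>
    intro G _ _ hG σ hσ hfpf
    have h0 : H66.FH.FH 0 (G ⧸ (⊤ : Subgroup G)) := by
      apply H66.FH.zero_of_subsingleton
      intro g
      obtain ⟨u, rfl⟩ := QuotientGroup.mk'_surjective _ g
      exact (QuotientGroup.eq_one_iff _).mpr (Subgroup.mem_top _)
    refine step (⊤ : Subgroup G) ?_ h0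
    intro r hr
    have := Fact.mk hr
    have : (Cfsg.pPrimeCore r G).Characteristic := H1.Cores.pPrimeCore_characteristic r
    have hM := map_char σ (Cfsg.pPrimeCore r G)
    have h1 := H66.Gross.redB (G := G ⧸ Cfsg.pPrimeCore r G) inferInstance (r := r)
      (quot σ _ hM) (quot_pow_eq_one σ _ hM hσ) (quot_fpf hfpf _ hM)
      (H1.Cores.pPrimeCore_quotient_pPrimeCore r)
    infer_instance
  | succ m ih =>
    intro G _ _ hG σ hσ hfpf
    set z := σ ^ 2 ^ (m + 2) with hz
    -- the normal closure of the elements x⁻¹ z(x)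
    set N := Subgroup.normalClosure {y : G | ∃ x : G, y = x⁻¹ * z x} with hN
    have hNσ : N.map σ.toMonoidHom = N := by
      have h1 : ∀ u ∈ N, σ u ∈ N := by
        intro u hu
        have h2 : N ≤ N.comap σ.toMonoidHom := by
          rw [hN]
          apply Subgroup.normalClosure_le_normal
          rintro y ⟨x, rfl⟩
          change σ (x⁻¹ * z x) ∈ N
          have h3 : σ (x⁻¹ * z x) = (σ x)⁻¹ * z (σ x) := by
            rw [map_mul, map_inv]
            have : σ (z x) = z (σ x) := by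
              rw [hz]
              change (σ * σ ^ 2 ^ (m + 2)) x = (σ ^ 2 ^ (m + 2) * σ) x
              rw [← pow_succ, ← pow_succ']
            rw [this]
          rw [h3]
          exact Subgroup.subset_normalClosure ⟨σ x, rfl⟩
        exact h2 hu
      apply Subgroup.eq_of_le_of_card_ge
      · rintro _ ⟨u, hu, rfl⟩
        exact h1 u hu
      · rw [Nat.card_congr (N.equivMapOfInjective _ σ.injective).toEquiv.symm]
    have hcl : H66.FH.FH (2 * (m + 1)) (G ⧸ N) := by
      apply ih (G ⧸ N) inferInstance (quot σ N hNσ) _ (quot_fpf hfpf N hNσ)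
      ext x
      obtain ⟨u, rfl⟩ := QuotientGroup.mk'_surjective N x
      rw [quot_pow_mk, MulAut.one_apply]
      symm
      rw [← inv_mul_eq_one, ← map_inv, ← map_mul]
      apply (QuotientGroup.eq_one_iff _).mpr
      exact Subgroup.subset_normalClosure ⟨u, rfl⟩
    refine step N ?_ hcl
    intro r hr
    have := Fact.mk hr
    have : (Cfsg.pPrimeCore r G).Characteristic := H1.Cores.pPrimeCore_characteristic r
    have hM := map_char σ (Cfsg.pPrimeCore r G)
    have h1 := H66.Gross.redA (G := G ⧸ Cfsg.pPrimeCore r G) inferInstance (r := r)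
      (quot σ _ hM) (m + 2) (quot_pow_eq_one σ _ hM hσ) (quot_fpf hfpf _ hM)
      (H1.Cores.pPrimeCore_quotient_pPrimeCore r)
    have h2 : N.map (QuotientGroup.mk' (Cfsg.pPrimeCore r G)) ≤
        Subgroup.normalClosure {y : G ⧸ Cfsg.pPrimeCore r G | ∃ x : G ⧸ Cfsg.pPrimeCore r G,
          y = x⁻¹ * ((quot σ _ hM) ^ 2 ^ (m + 2)) x} := by
      rw [Subgroup.map_le_iff_le_comap, hN]
      apply Subgroup.normalClosure_le_normal
      rintro y ⟨x, rfl⟩
      rw [SetLike.mem_coe, Subgroup.mem_comap]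
      apply Subgroup.subset_normalClosure
      refine ⟨QuotientGroup.mk' _ x, ?_⟩
      rw [quot_pow_mk, map_mul, map_inv]
    obtain ⟨k, hk⟩ := (Subgroup.isNilpotent_iff_lowerCentralSeries _).mp h1
    rw [Subgroup.isNilpotent_iff_lowerCentralSeries]
    refine ⟨k, ?_⟩
    rw [eq_bot_iff, ← hk]
    exact Subgroup.lowerCentralSeries_mono k (map_mono h2)

/-- Gross's Theorem: let G be a finite solvable group with an automorphism σ of order 2^n, n > 1, fixing only the identity. Then G has Fitting height at most 2n − 2: G has Fitting height at most m when there is a chain of normal subgroups 1 = F₀ ≤ F₁ ≤ ⋯ ≤ F_m = G with each F_{i+1}/F_i nilpotent. -/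
theorem result {G : Type*} [Group G] [Finite G] (hG : Group.IsSolvable G) (σ : MulAut G) (n : ℕ) (hn : 1 < n) (hσ : orderOf σ = 2 ^ n) (hfpf : ∀ g : G, σ g = g → g = 1) : ∃ F : Fin ((2 * n - 2) + 1) → Subgroup G, F 0 = ⊥ ∧ F (Fin.last (2 * n - 2)) = ⊤ ∧ Monotone F ∧ (∀ i, (F i).Normal) ∧ ∀ i : Fin (2 * n - 2), ∃ k : ℕ, (F i.succ).lowerCentralSeries k ≤ F i.castSucc := by
  obtain ⟨m, rfl⟩ : ∃ m, n = m + 2 := ⟨n - 2, by omega⟩
  have h1 : 2 * (m + 2) - 2 = 2 * (m + 1) := by omega
  rw [h1]
  exact main m G hG σ (by rw [← hσ]; exact pow_orderOf_eq_one σ) hfpf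

end Cfsg.Agent.S3795
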