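import Cfsg.Statements.S3796
import Cfsg.Agent.Lib.H66.WardD
import Cfsg.Agent.Lib.H66.Semi
import Cfsg.Agent.Lib.H66.NilCore
-- import your own Cfsg.Agent.* helpers here

set_option autoImplicit false
open Cfsg

namespace Cfsg.Agent.S3796

open Subgroup in
theorem not_dvd_card {G : Type*} [Group G] [Finite G] {p : ℕ} [hp : Fact p.Prime] (A : Subgroup (MulAut G))
    (hAp : ∀ a ∈ A, a ^ p = 1) (hfpf : ∀ g : G, (∀ a ∈ A, a g = g) → g = 1) : ¬ p ∣ Nat.card G := by
  have hApG : IsPGroup p A := fun x => ⟨1, Subtype.ext (by rw [pow_one]; exact hAp x x.2)⟩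
  have h1 := hApG.card_modEq_card_fixedPoints G
  have h2 : MulAction.fixedPoints A G = {1} := by
    ext g
    rw [MulAction.mem_fixedPoints, Set.mem_singleton_iff]
    constructor
    · intro h
      exact hfpf g (fun a ha => h ⟨a, ha⟩)
    · rintro rfl a
      change (a : MulAut G) 1 = 1
      exact map_one _
  rw [h2, Nat.card_coe_set_eq, Set.ncard_singleton] at h1
  intro h
  have h3 : Nat.card G ≡ 0 [MOD p] := (Nat.modEq_zero_iff_dvd).mpr h
  have h4 := h1.symm.trans h3
  exact hp.out.one_lt.ne' (Nat.dvd_one.mp ((Nat.modEq_zero_iff_dvd).mp h4))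

open Subgroup in
theorem aux {G : Type*} [Group G] [Finite G] (hG : Group.IsSolvable G) {p : ℕ} [hp : Fact p.Prime]
    (A : Subgroup (MulAut G)) (hAc : ∀ a ∈ A, ∀ b ∈ A, a * b = b * a) (hAp : ∀ a ∈ A, a ^ p = 1)
    (hcard : Nat.card A = p ^ 2) (hfpf : ∀ g : G, (∀ a ∈ A, a g = g) → g = 1) (r : ℕ) (hr : r.Prime) :
    ∃ k, ∀ x ∈ (⊤ : Subgroup G).lowerCentralSeries k, ∃ a : ℕ, x ^ r ^ a ∈ Cfsg.pPrimeCore r G := by
  classical
  have := Fact.mk hr
  have hpG := not_dvd_card A hAp hfpf
  set M := Cfsg.pPrimeCore r G with hM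
  have hMchar : M.Characteristic := H1.Cores.pPrimeCore_characteristic r
  have hMinv : ∀ a ∈ A, ∀ x ∈ M, a x ∈ M := by
    intro a _ x hx
    have := characteristic_iff_le_comap.mp hMchar a
    exact this hx
  let i := H66.Semi.i A
  let j := H66.Semi.j A
  have hiinj : Function.Injective i := H66.Semi.i_injective A
  have hjinj : Function.Injective j := H66.Semi.j_injective A
  set MX := M.map i with hMX
  have hMXn : MX.Normal := H66.Semi.normal_map A M hMinv
  have hirn : (i.range).Normal := by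
    rw [MonoidHom.range_eq_map]
    exact H66.Semi.normal_map A ⊤ (fun _ _ _ _ => mem_top _)
  let π := QuotientGroup.mk' MX
  let φ : G →* (H66.Semi.X A ⧸ MX) := π.comp i
  let ψ : A →* (H66.Semi.X A ⧸ MX) := π.comp j
  have hφr : φ.range = i.range.map π := MonoidHom.range_comp π i
  have hψr : ψ.range = j.range.map π := MonoidHom.range_comp π j
  have hcardi : Nat.card i.range = Nat.card G := (Nat.card_congr (MonoidHom.ofInjective hiinj).toEquiv).symm
  have hcardj : Nat.card j.range = p ^ 2 := by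
    rw [← hcard]; exact (Nat.card_congr (MonoidHom.ofInjective hjinj).toEquiv).symm
  have hMXi : MX ≤ i.range := by
    rintro _ ⟨x, _, rfl⟩; exact ⟨x, rfl⟩
  have hcop : ∀ K : Subgroup (H66.Semi.X A), K ≤ i.range → (Nat.card j.range).Coprime (Nat.card K) := by
    intro K hK
    rw [hcardj]
    apply Nat.Coprime.pow_left
    rw [Nat.Prime.coprime_iff_not_dvd hp.out]
    intro h
    apply hpG
    rw [← hcardi]
    exact h.trans (card_dvd_of_le hK)
  have hfixX : i.range ⊓ centralizer (j.range : Set (H66.Semi.X A)) = ⊥ := by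
    rw [eq_bot_iff]
    rintro _ ⟨⟨x, rfl⟩, h⟩
    rw [mem_bot]
    have h1 : x = 1 := by
      apply hfpf
      intro a ha
      exact (H66.Semi.commute_iff A ⟨a, ha⟩ x).mp (mem_centralizer_iff.mp h _ ⟨⟨a, ha⟩, rfl⟩)
    rw [h1, map_one]
  have hjp : IsPGroup p j.range := IsPGroup.of_card hcardj
  have hjs : Group.IsSolvable j.range := by
    have : Group.IsNilpotent j.range := hjp.isNilpotent
    infer_instance
  have hGs : Group.IsSolvable φ.range := Group.isSolvable_of_surjective φ.rangeRestrict_surjective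
  have hφn : (φ.range).Normal := by
    rw [hφr]; exact hirn.map π (QuotientGroup.mk'_surjective MX)
  have hker : ∀ x : G, φ x = 1 ↔ x ∈ M := by
    intro x
    change QuotientGroup.mk' MX (i x) = 1 ↔ _
    rw [← H66.Semi.mem_map_iff A (N := M)]
    exact QuotientGroup.eq_one_iff (i x)
  have hψinj : Function.Injective ψ := by
    rw [injective_iff_map_eq_one]
    intro a ha
    have h1 : j a ∈ MX := (QuotientGroup.eq_one_iff (j a)).mp ha
    have h2 : j a ∈ j.range ⊓ MX := ⟨⟨a, rfl⟩, h1⟩
    rw [H1.Coprime.inf_eq_bot_of_coprime_card (hcop MX hMXi), mem_bot] at h2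
    exact hjinj (by rw [h2, map_one])
  have hstep := H66.Ward.step (X := H66.Semi.X A ⧸ MX) φ.range hGs (p := p) ψ.range (by
      rintro _ ⟨a, rfl⟩ _ ⟨b, rfl⟩
      rw [← map_mul, ← map_mul]
      congr 1
      exact Subtype.ext (hAc a a.2 b b.2)) (by
      rintro _ ⟨a, rfl⟩
      rw [← map_pow]
      have : a ^ p = 1 := Subtype.ext (hAp a a.2)
      rw [this, map_one]) (by
      rw [← hcard]; exact (Nat.card_congr (MonoidHom.ofInjective hψinj).toEquiv).symm) (by
      intro h
      exact hpG (h.trans (card_range_dvd φ))) (by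
      rw [hφr, hψr, H1.Coprime.map_inf_centralizer j.range i.range MX (by rw [normalizer_eq_top]; exact le_top)
        (hcop MX hMXi) (Or.inl hjs) hMXi, hfixX, Subgroup.map_bot]) r (by
      have hk : φ.ker = M := by
        ext x
        rw [MonoidHom.mem_ker]; exact hker x
      let e : (G ⧸ M) ≃* φ.range :=
        (QuotientGroup.quotientMulEquivOfEq hk.symm).trans (QuotientGroup.quotientKerEquivRange φ)
      have h1 := H1.Cores.map_equiv_pPrimeCore r e
      rw [H1.Cores.pPrimeCore_quotient_pPrimeCore, Subgroup.map_bot] at h1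
      exact h1.symm)
  obtain ⟨k, hk⟩ := Subgroup.nilpotent_iff_lowerCentralSeries.mp hstep
  refine ⟨k, ?_⟩
  intro x hx
  set P := Cfsg.pCore r φ.range with hP
  have hPr : IsPGroup r P := H1.Cores.isPGroup_pCore r
  have h1 : ((⊤ : Subgroup G).lowerCentralSeries k).map ((QuotientGroup.mk' P).comp φ.rangeRestrict) = ⊥ := by
    rw [map_lowerCentralSeries]
    have h2 : (⊤ : Subgroup G).map ((QuotientGroup.mk' P).comp φ.rangeRestrict) = ⊤ := by
      rw [← MonoidHom.range_eq_map, MonoidHom.range_eq_top]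
      exact (QuotientGroup.mk'_surjective P).comp φ.rangeRestrict_surjective
    rw [h2, hk]
  have h2 : QuotientGroup.mk' P (φ.rangeRestrict x) = 1 := by
    have : (QuotientGroup.mk' P).comp φ.rangeRestrict x ∈
        ((⊤ : Subgroup G).lowerCentralSeries k).map ((QuotientGroup.mk' P).comp φ.rangeRestrict) := ⟨x, hx, rfl⟩
    rw [h1] at this
    exact this
  have h3 : φ.rangeRestrict x ∈ P := (QuotientGroup.eq_one_iff _).mp h2
  obtain ⟨a, ha⟩ := hPr ⟨_, h3⟩
  refine ⟨a, ?_⟩
  rw [← hker, map_pow]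
  have := congrArg (fun t : P => ((t : φ.range) : H66.Semi.X A ⧸ MX)) ha
  exact this

/-- Ward's Theorem: let G be a finite solvable group and A an elementary abelian group of automorphisms of G of order p² (p a prime) with no non-identity common fixed point. Then G has Fitting height at most 2: G has Fitting height at most m when there is a chain of normal subgroups 1 = F₀ ≤ F₁ ≤ ⋯ ≤ F_m = G with each F_{i+1}/F_i nilpotent. -/
theorem result {G : Type*} [Group G] [Finite G] (hG : Group.IsSolvable G) {p : ℕ} (hp : p.Prime) (A : Subgroup (MulAut G)) (hA : Cfsg.IsElementaryAbelian p A) (hcard : Nat.card A = p ^ 2) (hfpf : ∀ g : G, (∀ a ∈ A, a g = g) → g = 1) : ∃ F : Fin (2 + 1) → Subgroup G, F 0 = ⊥ ∧ F (Fin.last 2) = ⊤ ∧ Monotone F ∧ (∀ i, (F i).Normal) ∧ ∀ i : Fin 2, ∃ k : ℕ, (F i.succ).lowerCentralSeries k ≤ F i.castSucc := by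
  classical
  have := Fact.mk hp
  have hAc : ∀ a ∈ A, ∀ b ∈ A, a * b = b * a := by
    intro a ha b hb
    have h1 := hA.1
    have h2 := (hA.1.is_comm.comm (⟨a, ha⟩ : A) ⟨b, hb⟩)
    exact congrArg Subtype.val h2
  have h1 := aux hG A hAc hA.2 hcard hfpf
  choose! k hk using h1
  set K := ∑ q ∈ (Nat.card G).primeFactors, k q with hK
  set N := (⊤ : Subgroup G).lowerCentralSeries K with hN
  have hNn : N.Normal := inferInstance
  have hNnil : Group.IsNilpotent N := by
    apply H66.NilCore.isNilpotent_of_map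
    intro r hr
    have := Fact.mk hr
    have hp : IsPGroup r (N.map (QuotientGroup.mk' (Cfsg.pPrimeCore r G))) := by
      rintro ⟨_, x, hx, rfl⟩
      by_cases hrd : r ∣ Nat.card G
      · have hmem : r ∈ (Nat.card G).primeFactors := by
          rw [Nat.mem_primeFactors]; exact ⟨hr, hrd, Nat.card_pos.ne'⟩
        have hle : k r ≤ K := Finset.single_le_sum (f := k) (fun _ _ => Nat.zero_le _) hmem
        obtain ⟨a, ha⟩ := hk r hr x (Subgroup.lowerCentralSeries_antitone _ hle hx)
        refine ⟨a, Subtype.ext ?_⟩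
        change (QuotientGroup.mk' (Cfsg.pPrimeCore r G) x) ^ r ^ a = 1
        rw [← map_pow]
        exact (QuotientGroup.eq_one_iff _).mpr ha
      · have h1 : (⊤ : Subgroup G) ≤ Cfsg.pPrimeCore r G :=
          H1.Cores.le_pPrimeCore inferInstance (by
            rw [Subgroup.card_top]; exact ((Nat.Prime.coprime_iff_not_dvd hr).mpr hrd).symm)
        refine ⟨0, Subtype.ext ?_⟩
        change (QuotientGroup.mk' (Cfsg.pPrimeCore r G) x) ^ r ^ 0 = 1
        rw [← map_pow]
        exact (QuotientGroup.eq_one_iff _).mpr (h1 (Subgroup.mem_top _))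
    exact hp.isNilpotent
  have hQnil : Group.IsNilpotent (G ⧸ N) := by
    rw [Subgroup.nilpotent_iff_lowerCentralSeries]
    refine ⟨K, ?_⟩
    have h1 : (⊤ : Subgroup (G ⧸ N)) = (⊤ : Subgroup G).map (QuotientGroup.mk' N) := by
      rw [← MonoidHom.range_eq_map, QuotientGroup.range_mk']
    rw [h1, ← Subgroup.map_lowerCentralSeries, Subgroup.map_eq_bot_iff, QuotientGroup.ker_mk']
  have h2 : H66.FH.FH 2 G := by
    apply H66.FH.succ_of N hNnil
    apply H66.FH.succ_of (⊤ : Subgroup (G ⧸ N)) inferInstance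
    apply H66.FH.zero_of_subsingleton
    intro g
    obtain ⟨u, rfl⟩ := QuotientGroup.mk'_surjective _ g
    exact (QuotientGroup.eq_one_iff _).mpr (Subgroup.mem_top _)
  exact h2

end Cfsg.Agent.S3796
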