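import Cfsg.Statements.S3797
import Cfsg.Agent.Lib.H66.Thom2

set_option autoImplicit false
open Cfsg

namespace Cfsg.Agent.S3797

/-- Let G be a finite solvable group of even order whose Sylow 2-subgroups contain more than one involution, and suppose all involutions of G are conjugate. Then G has 2-length at most 1, and a Sylow 2-subgroup S of G is either homocyclic (a direct product of cyclic groups of one common order) or a non-abelian 2-group with more than one involution admitting a solvable group of automorphisms transitive on its involutions. -/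
theorem result {G : Type*} [Group G] [Finite G] (hG : Group.IsSolvable G) (heven : Even (Nat.card G)) (S : Sylow 2 G) (htwo : ∃ x y : G, x ∈ (S : Subgroup G) ∧ y ∈ (S : Subgroup G) ∧ x ≠ y ∧ x ≠ 1 ∧ x ^ 2 = 1 ∧ y ≠ 1 ∧ y ^ 2 = 1) (hconj : ∀ x y : G, x ≠ 1 → x ^ 2 = 1 → y ≠ 1 → y ^ 2 = 1 → IsConj x y) : Cfsg.PLengthLE 2 1 G ∧ ((∃ m r : ℕ, Nonempty (↥(S : Subgroup G) ≃* (Fin r → Multiplicative (ZMod (2 ^ m))))) ∨ (¬ IsMulCommutative (S : Subgroup G) ∧ ∃ Y : Subgroup (MulAut ↥(S : Subgroup G)), Group.IsSolvable Y ∧ ∀ x y : ↥(S : Subgroup G), x ≠ 1 → x ^ 2 = 1 → y ≠ 1 → y ^ 2 = 1 → ∃ a ∈ Y, a x = y)) := by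
  obtain ⟨h1, h2⟩ := H66.Thom.final hG S htwo hconj
  refine ⟨h1, ?_⟩
  let f := (S : Subgroup G).normalizerMonoidHom
  have hf : ∀ (n : Subgroup.normalizer ((S : Subgroup G) : Set G)) (r : (S : Subgroup G)),
      ((f n r : (S : Subgroup G)) : G) = n * r * (n : G)⁻¹ := fun n r => rfl
  have key : ∀ x y : (S : Subgroup G), x ≠ 1 → x ^ 2 = 1 → y ≠ 1 → y ^ 2 = 1 → ∃ a ∈ f.range, a x = y := by
    intro x y hx hx' hy hy'
    obtain ⟨n, hn, he⟩ := h2 x x.2 y y.2 (fun e => hx (Subtype.ext e)) (by rw [← Subgroup.coe_pow, hx', Subgroup.coe_one])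
      (fun e => hy (Subtype.ext e)) (by rw [← Subgroup.coe_pow, hy', Subgroup.coe_one])
    exact ⟨f ⟨n, hn⟩, ⟨_, rfl⟩, Subtype.ext (by rw [hf]; exact he)⟩
  by_cases hc : IsMulCommutative (S : Subgroup G)
  · left
    refine H66.Thom.homocyc S.isPGroup' (fun a b => hc.is_comm.comm a b) ?_
    intro x y hx hx' hy hy'
    obtain ⟨a, _, ha⟩ := key x y hx (by rw [pow_two, hx']) hy (by rw [pow_two, hy'])
    exact ⟨a, ha⟩
  · right
    refine ⟨hc, f.range, ?_, key⟩
    have h3 : Group.IsSolvable (Subgroup.normalizer ((S : Subgroup G) : Set G)) :=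
      Group.isSolvable_of_isSolvable_injective (f := (Subgroup.normalizer ((S : Subgroup G) : Set G)).subtype)
        (Subgroup.normalizer ((S : Subgroup G) : Set G)).subtype_injective
    exact Group.isSolvable_of_surjective (f := f.rangeRestrict) f.rangeRestrict_surjective

end Cfsg.Agent.S3797
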