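import Cfsg.Statements.S3798
import Cfsg.Agent.Lib.H1.Cores
import Cfsg.Agent.Lib.H30.PLen
import Cfsg.Agent.Lib.H37.PSolv
import Cfsg.Agent.Lib.H66.OmegaOne
import Cfsg.Agent.Lib.H66.CopFrattini

set_option autoImplicit false

open Subgroup
open scoped commutatorElement

namespace Cfsg.Agent.S3798

universe u

/-- a nontrivial element of a `p`-subgroup has a power of order `p`. -/
theorem exists_pow_order {G : Type*} [Group G] [Finite G] {p : ℕ} [hp : Fact p.Prime] (H : Subgroup G)
    (h : p ∣ Nat.card H) : ∃ x ∈ H, x ≠ 1 ∧ x ^ p = 1 := by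
  obtain ⟨x, hx⟩ := exists_prime_orderOf_dvd_card' (G := H) p h
  refine ⟨x, x.2, ?_, ?_⟩
  · intro h1
    have h2 : x = 1 := by ext; exact h1
    rw [h2, orderOf_one] at hx
    exact hp.out.one_lt.ne hx
  · have h1 : x ^ p = 1 := by rw [← hx]; exact pow_orderOf_eq_one x
    have := congrArg Subtype.val h1
    simpa using this

theorem main {G : Type*} [Group G] [Finite G] {p : ℕ} [hp : Fact p.Prime] (hp2 : p ≠ 2)
    (hdvd : p ∣ Nat.card G) (hG : Cfsg.IsPSolvable p G) (hcore : Cfsg.pPrimeCore p G = ⊥)
    (htrans : ∀ U V : Subgroup G, Nat.card U = p → Nat.card V = p →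
      ∃ a : MulAut G, U.map a.toMonoidHom = V) : (Cfsg.pCore p G).index.Coprime p := by
  classical
  haveI hnt : Nontrivial G := by
    apply Finite.one_lt_card_iff_nontrivial.mp
    exact lt_of_lt_of_le hp.out.one_lt (Nat.le_of_dvd Nat.card_pos hdvd)
  set R := Cfsg.pCore p G with hR
  have hRp : IsPGroup p R := H1.Cores.isPGroup_pCore p
  have hRchar : R.Characteristic := inferInstance
  have hRmap : ∀ a : MulAut G, ∀ x ∈ R, a x ∈ R := by
    intro a x hx
    rw [Subgroup.characteristic_iff_map_le] at hRchar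
    exact hRchar a ⟨x, hx, rfl⟩
  have hRbot : R ≠ ⊥ := by
    rcases H37.PSolv.core_ne_bot hG with h | h
    · exact h
    · exact absurd hcore h
  have hCR : centralizer (R : Set G) ≤ R := H37.PSolv.centralizer_pCore_le hG hcore
  -- characteristic subgroups containing an element of order p contain all of them
  have hall : ∀ W : Subgroup G, (∀ a : MulAut G, ∀ x ∈ W, a x ∈ W) → (∃ w ∈ W, w ≠ 1 ∧ w ^ p = 1) →
      ∀ x : G, x ^ p = 1 → x ∈ W := by
    rintro W hW ⟨w, hwW, hw1, hwp⟩ x hx
    by_cases hx1 : x = 1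
    · rw [hx1]; exact W.one_mem
    have h1 : orderOf w = p := orderOf_eq_prime hwp hw1
    have h2 : orderOf x = p := orderOf_eq_prime hx hx1
    obtain ⟨a, ha⟩ := htrans (zpowers w) (zpowers x) (by rw [Nat.card_zpowers, h1])
      (by rw [Nat.card_zpowers, h2])
    have h3 : x ∈ (zpowers w).map a.toMonoidHom := by rw [ha]; exact mem_zpowers x
    obtain ⟨y, hy, rfl⟩ := h3
    apply hW
    exact (Subgroup.zpowers_le.mpr hwW) hy
  -- the subgroup V
  let V : Subgroup G :=
    { carrier := {x | x ∈ R ∧ (∀ r ∈ R, r * x = x * r) ∧ x ^ p = 1}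
      mul_mem' := by
        rintro a b ⟨ha, ha2, ha3⟩ ⟨hb, hb2, hb3⟩
        refine ⟨R.mul_mem ha hb, ?_, ?_⟩
        · intro r hr
          rw [← mul_assoc, ha2 r hr, mul_assoc, hb2 r hr, mul_assoc]
        · have hc : Commute a b := hb2 a ha
          rw [hc.mul_pow, ha3, hb3, one_mul]
      one_mem' := ⟨R.one_mem, by simp, by simp⟩
      inv_mem' := by
        rintro a ⟨ha, ha2, ha3⟩
        refine ⟨R.inv_mem ha, ?_, by rw [inv_pow, ha3, inv_one]⟩
        intro r hr
        have := ha2 r⁻¹ (R.inv_mem hr)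
        have h2 := congrArg (fun z => z⁻¹) this
        simpa using h2.symm }
  have hVR : V ≤ R := fun x hx => hx.1
  have hVchar : ∀ a : MulAut G, ∀ x ∈ V, a x ∈ V := by
    rintro a x ⟨h1, h2, h3⟩
    refine ⟨hRmap a x h1, ?_, by rw [← map_pow, h3, map_one]⟩
    intro r hr
    have h4 := h2 _ (hRmap a⁻¹ r hr)
    have h5 := congrArg a h4
    simpa using h5
  have hVex : ∃ w ∈ V, w ≠ 1 ∧ w ^ p = 1 := by
    haveI : Nontrivial R := by rwa [Subgroup.nontrivial_iff_ne_bot]
    haveI := hRp.center_nontrivial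
    have h1 : IsPGroup p (Subgroup.center R) := hRp.to_subgroup _
    have h2 : p ∣ Nat.card (Subgroup.center R) := by
      obtain ⟨n, hn⟩ := IsPGroup.iff_card.mp h1
      rw [hn]
      apply dvd_pow_self
      rintro rfl
      rw [pow_zero] at hn
      have := Finite.one_lt_card (α := Subgroup.center R)
      omega
    obtain ⟨x, hx, hx1, hxp⟩ := exists_pow_order (G := R) (Subgroup.center R) h2
    refine ⟨x, ⟨x.2, ?_, ?_⟩, ?_, ?_⟩
    · intro r hr
      have := (Subgroup.mem_center_iff.mp hx) ⟨r, hr⟩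
      exact congrArg Subtype.val this
    · have := congrArg Subtype.val hxp
      simpa using this
    · intro h; apply hx1; ext; exact h
    · have := congrArg Subtype.val hxp
      simpa using this
  have hVall := hall V hVchar hVex
  -- assume p divides |G/R|
  by_contra hidx
  have hpidx : p ∣ R.index := by
    by_contra h
    exact hidx ((Nat.Prime.coprime_iff_not_dvd hp.out).mpr h).symm
  have hQs := H37.PSolv.quotient hG R
  haveI hntQ : Nontrivial (G ⧸ R) := by
    apply Finite.one_lt_card_iff_nontrivial.mp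
    rw [← Subgroup.index_eq_card]
    exact lt_of_lt_of_le hp.out.one_lt (Nat.le_of_dvd (Nat.pos_of_ne_zero Subgroup.index_ne_zero_of_finite) hpidx)
  have hQcore : Cfsg.pPrimeCore p (G ⧸ R) ≠ ⊥ := by
    rcases H37.PSolv.core_ne_bot hQs with h | h
    · exact absurd (H1.Cores.pCore_quotient_pCore p) h
    · exact h
  set K := (Cfsg.pPrimeCore p (G ⧸ R)).comap (QuotientGroup.mk' R) with hK
  have hRK : R ≤ K := by
    intro r hr
    rw [hK, Subgroup.mem_comap]
    have : QuotientGroup.mk' R r = 1 := (QuotientGroup.eq_one_iff r).mpr hr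
    rw [this]; exact one_mem _
  have hRrel : R.relIndex K = Nat.card (Cfsg.pPrimeCore p (G ⧸ R)) := by
    have h1 := H1.Cores.card_comap_mk' R (Cfsg.pPrimeCore p (G ⧸ R))
    have h2 := H3.PBasic.card_mul_relIndex hRK
    rw [← h2] at h1
    exact Nat.eq_of_mul_eq_mul_left Nat.card_pos h1
  have hcop : (Nat.card R).Coprime (R.relIndex K) := by
    obtain ⟨n, hn⟩ := IsPGroup.iff_card.mp hRp
    rw [hn, hRrel]
    exact Nat.Coprime.pow_left _ (H1.Cores.coprime_card_pPrimeCore p).symm
  have hKmap : ∀ a : MulAut G, ∀ x ∈ K, a x ∈ K := by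
    intro a x hx
    let e : G ⧸ R ≃* G ⧸ R := QuotientGroup.congr R R a (by
      apply le_antisymm
      · rintro _ ⟨x, hx, rfl⟩; exact hRmap a x hx
      · intro x hx; exact ⟨a⁻¹ x, hRmap a⁻¹ x hx, by simp⟩)
    have h1 := H1.Cores.map_equiv_pPrimeCore p e
    rw [hK, Subgroup.mem_comap] at hx ⊢
    have h2 : e (QuotientGroup.mk' R x) ∈ Cfsg.pPrimeCore p (G ⧸ R) := by
      rw [← h1]; exact ⟨_, hx, rfl⟩
    exact h2
  have hRs : Group.IsSolvable R := by
    have := hRp.isNilpotent
    infer_instance
  obtain ⟨L, hLK, hRL, hsup, hLc, hfrat⟩ := H66.CopFrattini.exists_compl R K hRK hcop hRs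
  have hLp : (Nat.card L).Coprime (Nat.card R) := by rw [hLc]; exact hcop.symm
  have hLbot : L ≠ ⊥ := by
    intro h
    rw [h, Subgroup.card_bot] at hLc
    rw [hRrel] at hLc
    exact hQcore (Subgroup.card_eq_one.mp hLc.symm)
  -- V ⊓ C(K) is characteristic
  set W := V ⊓ centralizer (K : Set G) with hW
  have hWchar : ∀ a : MulAut G, ∀ x ∈ W, a x ∈ W := by
    rintro a x ⟨h1, h2⟩
    refine ⟨hVchar a x h1, ?_⟩
    change x ∈ centralizer (K : Set G) at h2
    change a x ∈ centralizer (K : Set G)
    rw [Subgroup.mem_centralizer_iff] at h2 ⊢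
    intro k hk
    have h4 := h2 _ (hKmap a⁻¹ k hk)
    have h5 := congrArg a h4
    simpa using h5
  have hWno : ∀ x ∈ W, x = 1 := by
    intro x hx
    by_contra hx1
    have h1 := hall W hWchar ⟨x, hx, hx1, hx.1.2.2⟩
    have h2 : L ≤ centralizer (R : Set G) := by
      apply H66.OmegaOne.le_centralizer_of_odd hp2 L R hRp
        (by rw [Subgroup.normalizer_eq_top]; exact le_top) hLp
      intro y hy hyp a ha
      exact Subgroup.mem_centralizer_iff.mp (h1 y hyp).2 a (hLK ha)
    apply hLbot
    have h3 := h2.trans hCR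
    rw [eq_bot_iff, ← hRL]
    exact le_inf h3 le_rfl
  -- N_G(L) contains an element of order p
  have hNR : R ⊓ normalizer (L : Set G) = ⊥ := by
    by_contra hne
    have h1 : IsPGroup p (R ⊓ normalizer (L : Set G) : Subgroup G) := hRp.to_le inf_le_left
    have h2 : p ∣ Nat.card (R ⊓ normalizer (L : Set G) : Subgroup G) := by
      obtain ⟨n, hn⟩ := IsPGroup.iff_card.mp h1
      rw [hn]
      apply dvd_pow_self
      rintro rfl
      rw [pow_zero] at hn
      exact hne (Subgroup.card_eq_one.mp hn)
    obtain ⟨x, hx, hx1, hxp⟩ := exists_pow_order _ h2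
    apply hx1
    apply hWno
    refine ⟨hVall x hxp, ?_⟩
    change x ∈ centralizer (K : Set G)
    rw [Subgroup.mem_centralizer_iff]
    have hxV := hVall x hxp
    -- x centralizes R and L
    have h3 : K ≤ centralizer ({x} : Set G) := by
      rw [← hsup]
      apply sup_le
      · intro r hr
        rw [Subgroup.mem_centralizer_iff]
        intro z hz
        rw [Set.mem_singleton_iff.mp hz]
        exact (hxV.2.1 r hr).symm
      · intro l hl
        rw [Subgroup.mem_centralizer_iff]
        intro z hz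
        rw [Set.mem_singleton_iff.mp hz]
        have h4 : ⁅x, l⁆ ∈ R ⊓ L := by
          refine ⟨?_, ?_⟩
          · have h5 := (inferInstance : R.Normal).conj_mem _ (R.inv_mem hx.1) l
            have h6 := R.mul_mem hx.1 h5
            simpa [commutatorElement_def, mul_assoc] using h6
          · have h5 := (Subgroup.mem_normalizer_iff.mp hx.2 l).mp hl
            have h6 := L.mul_mem h5 (L.inv_mem hl)
            simpa [commutatorElement_def, mul_assoc] using h6
        rw [hRL, Subgroup.mem_bot, commutatorElement_eq_one_iff_mul_comm] at h4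
        exact h4
    intro k hk
    have := (Subgroup.mem_centralizer_iff.mp (h3 hk)) x rfl
    exact this.symm
  have hNcard : Nat.card (normalizer (L : Set G)) = R.index := by
    have h1 := H66.CopFrattini.card_normal_sup R (normalizer (L : Set G)) hNR
    rw [hfrat, Subgroup.card_top, ← Subgroup.card_mul_index R] at h1
    exact (Nat.eq_of_mul_eq_mul_left Nat.card_pos h1).symm
  obtain ⟨y, hy, hy1, hyp⟩ := exists_pow_order (p := p) (normalizer (L : Set G)) (by rw [hNcard]; exact hpidx)
  have h1 : y ∈ R ⊓ normalizer (L : Set G) := ⟨hVR (hVall y hyp), hy⟩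
  rw [hNR, Subgroup.mem_bot] at h1
  exact hy1 h1

/-- The Gaschütz–Yen Theorem: let G be a finite p-soluble group, p an odd prime dividing its order, such that the automorphism group of G permutes the subgroups of G of order p transitively. Then G has p-length at most 1. -/
theorem result {G : Type*} [Group G] [Finite G] {p : ℕ} [Fact p.Prime] (hp : p ≠ 2) (hdvd : p ∣ Nat.card G) (hG : Cfsg.IsPSolvable p G) (htrans : ∀ U V : Subgroup G, Nat.card U = p → Nat.card V = p → ∃ a : MulAut G, U.map a.toMonoidHom = V) : Cfsg.PLengthLE p 1 G := by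
  classical
  have hprime : p.Prime := Fact.out
  rw [H30.PLen.pLengthLE_one_iff]
  set N := Cfsg.pPrimeCore p G with hN
  have hNc : (Nat.card N).Coprime p := H1.Cores.coprime_card_pPrimeCore p
  have hidx : (Cfsg.pPrimePCore p G).index = (Cfsg.pCore p (G ⧸ N)).index := by
    unfold Cfsg.pPrimePCore
    exact Subgroup.index_comap_of_surjective _ (QuotientGroup.mk'_surjective _)
  rw [hidx]
  have hNchar : N.Characteristic := H1.Cores.pPrimeCore_characteristic p
  have hNmap : ∀ a : MulAut G, ∀ x ∈ N, a x ∈ N := by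
    intro a x hx
    rw [Subgroup.characteristic_iff_map_le] at hNchar
    exact hNchar a ⟨x, hx, rfl⟩
  -- lifting subgroups of order p
  have hlift : ∀ U : Subgroup (G ⧸ N), Nat.card U = p → ∃ U' : Subgroup G, Nat.card U' = p ∧
      U'.map (QuotientGroup.mk' N) = U := by
    intro U hU
    set W := U.comap (QuotientGroup.mk' N) with hW
    have hWc : Nat.card W = Nat.card N * p := by
      rw [hW, H1.Cores.card_comap_mk', hU]
    obtain ⟨x, hx, hx1, hxp⟩ := exists_pow_order (p := p) W (by rw [hWc]; exact dvd_mul_left _ _)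
    have hxo : orderOf x = p := orderOf_eq_prime hxp hx1
    refine ⟨zpowers x, by rw [Nat.card_zpowers, hxo], ?_⟩
    apply Subgroup.eq_of_le_of_card_ge
    · rw [Subgroup.map_le_iff_le_comap, Subgroup.zpowers_le]; exact hx
    · rw [hU]
      have h1 : Nat.card ((zpowers x).map (QuotientGroup.mk' N)) ∣ p := by
        have := Subgroup.card_map_dvd (H := zpowers x) (QuotientGroup.mk' N)
        rwa [Nat.card_zpowers, hxo] at this
      rcases (Nat.dvd_prime hprime).1 h1 with h2 | h2
      · exfalso
        have h3 := Subgroup.card_eq_one.mp h2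
        have h4 : x ∈ N := by
          have h5 : QuotientGroup.mk' N x ∈ (zpowers x).map (QuotientGroup.mk' N) :=
            ⟨x, mem_zpowers x, rfl⟩
          rw [h3, Subgroup.mem_bot] at h5
          exact (QuotientGroup.eq_one_iff x).mp h5
        have h6 : p ∣ Nat.card N := by
          rw [← hxo]
          have := orderOf_dvd_natCard (⟨x, h4⟩ : N)
          rwa [Subgroup.orderOf_mk] at this
        have h7 : p ∣ 1 := by
          rw [← hNc]; exact Nat.dvd_gcd h6 dvd_rfl
        exact hprime.one_lt.ne' (Nat.dvd_one.mp h7)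
      · rw [h2]
  apply main hp
  · have h1 := Subgroup.card_mul_index N
    rw [← h1] at hdvd
    rw [← Subgroup.index_eq_card]
    exact (Nat.Coprime.dvd_of_dvd_mul_left hNc.symm hdvd)
  · exact H37.PSolv.quotient hG N
  · exact H1.Cores.pPrimeCore_quotient_pPrimeCore p
  · intro U V hU hV
    obtain ⟨U', hU', rfl⟩ := hlift U hU
    obtain ⟨V', hV', rfl⟩ := hlift V hV
    obtain ⟨a, ha⟩ := htrans U' V' hU' hV'
    let e : G ⧸ N ≃* G ⧸ N := QuotientGroup.congr N N a (by
      apply le_antisymm
      · rintro _ ⟨x, hx, rfl⟩; exact hNmap a x hx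
      · intro x hx; exact ⟨a⁻¹ x, hNmap a⁻¹ x hx, by simp⟩)
    refine ⟨e, ?_⟩
    rw [← ha, Subgroup.map_map, Subgroup.map_map]
    congr 1

end Cfsg.Agent.S3798
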