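import Cfsg.Statements.S3800
import Cfsg.Agent.Lib.H66.CoprimeConj

set_option autoImplicit false
open Cfsg

namespace Cfsg.Agent.S3800

theorem result {G : Type*} [Group G] [Finite G] {p : ℕ} [Fact p.Prime] (N : Subgroup G) [N.Normal] (hN : (Nat.card N).Coprime p) (P : Subgroup G) (hP : IsPGroup p P) : Subgroup.normalizer ((P.map (QuotientGroup.mk' N)) : Set (G ⧸ N)) = (Subgroup.normalizer (P : Set G)).map (QuotientGroup.mk' N) ∧ Subgroup.centralizer ((P.map (QuotientGroup.mk' N)) : Set (G ⧸ N)) = (Subgroup.centralizer (P : Set G)).map (QuotientGroup.mk' N) :=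
  ⟨H66.CoprimeConj.normalizer_map_mk' N hN P hP, H66.CoprimeConj.centralizer_map_mk' N hN P hP⟩

end Cfsg.Agent.S3800
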