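import Cfsg.Statements.S3951
import Cfsg.Agent.Lib.H69.TwistedProduct
import Cfsg.Agent.Lib.H69.SchurMetacyclic
import Cfsg.Agent.Lib.H69.CyclicSurj

set_option autoImplicit false
open Cfsg

namespace Cfsg.Agent.S3951

open H69.TwistedProduct
open scoped commutatorElement

/-- the bilinear cocycle -/
def bil (m n : ℕ) (hnm : n ∣ m) : Bilin (Multiplicative (ZMod m × ZMod n)) (ZMod n) where
  toFun x y := (ZMod.castHom hnm (ZMod n)) (Multiplicative.toAdd x).1 * (Multiplicative.toAdd y).2
  mul_left a b c := by
    rw [toAdd_mul, Prod.fst_add, map_add, add_mul]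
  mul_right a b c := by
    rw [toAdd_mul, Prod.snd_add, mul_add]

/-- For positive integers `m` and `n` with `n` dividing `m`, the Schur multiplier of the abelian group `ZMod m × ZMod n` (written multiplicatively) is cyclic of order `n`. In particular the elementary abelian group of order `p ^ 2` has multiplier of order `p`. -/
theorem result (m n : ℕ) [NeZero m] [NeZero n] (hnm : n ∣ m) : Cfsg.HasCyclicSchurMultiplier (Multiplicative (ZMod m × ZMod n)) n := by
  constructor
  · let c := bil m n hnm
    refine ⟨TP c, inferInstance, inferInstance, proj c, ⟨proj_surjective c, ?_, ?_⟩, ?_⟩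
    · intro x hx
      have hx1 : x.fst = 1 := hx
      rw [Subgroup.mem_center_iff]
      intro g
      apply TP.ext
      · rw [fst_mul, fst_mul, hx1, one_mul, mul_one]
      · rw [snd_mul, snd_mul, hx1, c.one_left, c.one_right, add_comm g.snd]
    · -- the kernel is generated by a commutator
      intro x hx
      have hx1 : x.fst = 1 := hx
      let a : TP c := ⟨Multiplicative.ofAdd (1, 0), 0⟩
      let b : TP c := ⟨Multiplicative.ofAdd (0, 1), 0⟩
      have hab : a * b = (⟨1, 1⟩ : TP c) * (b * a) := by
        apply TP.ext
        · rw [fst_mul, fst_mul, fst_mul]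
          change Multiplicative.ofAdd ((1, 0) : ZMod m × ZMod n) * Multiplicative.ofAdd ((0, 1) : ZMod m × ZMod n) =
            1 * (Multiplicative.ofAdd ((0, 1) : ZMod m × ZMod n) * Multiplicative.ofAdd ((1, 0) : ZMod m × ZMod n))
          rw [one_mul, mul_comm]
        · rw [snd_mul, snd_mul, snd_mul]
          change (0 : ZMod n) + 0 + (ZMod.castHom hnm (ZMod n)) (1 : ZMod m) * 1 =
            1 + (0 + 0 + (ZMod.castHom hnm (ZMod n)) (0 : ZMod m) * 0) + c.toFun 1 _
          rw [map_one, c.one_left]
          simp
      have hcomm : (⟨1, 1⟩ : TP c) = ⁅a, b⁆ := by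
        rw [commutatorElement_def, hab]; group
      have hpow : ∀ k : ℕ, (⟨1, 1⟩ : TP c) ^ k = ⟨1, (k : ZMod n)⟩ := by
        intro k
        induction k with
        | zero =>
          rw [pow_zero]
          apply TP.ext
          · rfl
          · change (0 : ZMod n) = ((0 : ℕ) : ZMod n)
            simp
        | succ k ih =>
          rw [pow_succ, ih]
          apply TP.ext
          · rw [fst_mul]
            exact one_mul _
          · rw [snd_mul]
            change (k : ZMod n) + 1 + c.toFun 1 _ = ((k + 1 : ℕ) : ZMod n)
            rw [c.one_left]; push_cast; ring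
      have hx2 : x = (⟨1, 1⟩ : TP c) ^ (x.snd.val) := by
        rw [hpow]
        apply TP.ext
        · exact hx1
        · change x.snd = _
          rw [ZMod.natCast_zmod_val]
      rw [hx2, hcomm]
      exact Subgroup.pow_mem _ (Subgroup.commutator_mem_commutator (Subgroup.mem_top a) (Subgroup.mem_top b)) _
    · refine ⟨MulEquiv.mk' ⟨fun x => Multiplicative.ofAdd x.1.snd, fun t => ⟨⟨1, Multiplicative.toAdd t⟩, rfl⟩, ?_, ?_⟩ ?_⟩
      · rintro ⟨x, hx⟩
        apply Subtype.ext
        apply TP.ext
        · exact (hx : x.fst = 1).symm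
        · rfl
      · intro t; rfl
      · rintro ⟨x, hx⟩ ⟨y, hy⟩
        have hx1 : x.fst = 1 := hx
        change Multiplicative.ofAdd (x * y).snd = Multiplicative.ofAdd x.snd * Multiplicative.ofAdd y.snd
        rw [snd_mul, hx1, c.one_left, add_zero]
        rfl
  · intro Γ _ _ σ hσ
    let α : Multiplicative (ZMod m × ZMod n) := Multiplicative.ofAdd (1, 0)
    let β : Multiplicative (ZMod m × ZMod n) := Multiplicative.ofAdd (0, 1)
    have hgen : Subgroup.closure ({α, β} : Set (Multiplicative (ZMod m × ZMod n))) = ⊤ := by
      rw [Subgroup.eq_top_iff']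
      intro x
      have hx : x = α ^ ((Multiplicative.toAdd x).1.val) * β ^ ((Multiplicative.toAdd x).2.val) := by
        apply Multiplicative.toAdd.injective
        change Multiplicative.toAdd x = (Multiplicative.toAdd x).1.val • ((1, 0) : ZMod m × ZMod n) +
          (Multiplicative.toAdd x).2.val • ((0, 1) : ZMod m × ZMod n)
        apply Prod.ext
        · simp
        · simp
      rw [hx]
      exact mul_mem (Subgroup.pow_mem _ (Subgroup.subset_closure (by simp)) _)
        (Subgroup.pow_mem _ (Subgroup.subset_closure (by simp)) _)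
    obtain ⟨c, hc1, -, -, hc2⟩ := H69.SchurMetacyclic.exists_generator_ker σ hσ α β hgen m n 1 0 1
      (by
        apply Multiplicative.toAdd.injective
        change m • ((1, 0) : ZMod m × ZMod n) = 0
        apply Prod.ext <;> simp)
      (by
        apply Multiplicative.toAdd.injective
        change n • ((0, 1) : ZMod m × ZMod n) = (0 : ℤ) • ((1, 0) : ZMod m × ZMod n)
        apply Prod.ext <;> simp)
      (by
        rw [zpow_one, mul_comm β, mul_inv_cancel_right])
      (fun i _ => one_dvd i)
    apply H69.CyclicSurj.exists_surjective_of_le_zpowers σ.ker n (c ^ (1 : ℤ)) hc1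
    rw [zpow_one]
    simpa using hc2

end Cfsg.Agent.S3951
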