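import Cfsg.Statements.S3950
import Cfsg.Agent.S3951
import Cfsg.Agent.S3979
import Cfsg.Agent.Lib.H69.SchurBasic

set_option autoImplicit false
open Cfsg

namespace Cfsg.Agent.S3950

open H69.TwistedProduct
open scoped commutatorElement

/-- a noncyclic finite abelian group maps onto `C_p × C_p`. -/
theorem exists_surj {G : Type*} [CommGroup G] [Finite G] (hG : ¬ IsCyclic G) :
    ∃ p : ℕ, p.Prime ∧ ∃ f : G →* Multiplicative (ZMod p × ZMod p), Function.Surjective f := by
  obtain ⟨ι, hι, n, hn, ⟨e⟩⟩ := CommGroup.equiv_prod_multiplicative_zmod_of_finite G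
  by_cases hcop : Pairwise (Function.onFun Nat.Coprime n)
  · exfalso
    apply hG
    classical
    let e1 := ZMod.prodEquivPi n hcop
    let e2 : Multiplicative (ZMod (∏ i, n i)) ≃* ((i : ι) → Multiplicative (ZMod (n i))) :=
      MulEquiv.mk' ⟨fun x => fun i => Multiplicative.ofAdd (e1 (Multiplicative.toAdd x) i),
        fun x => Multiplicative.ofAdd (e1.symm (fun i => Multiplicative.toAdd (x i))),
        fun x => by
          change Multiplicative.ofAdd (e1.symm (e1 (Multiplicative.toAdd x))) = x
          rw [RingEquiv.symm_apply_apply]; rfl,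
        fun x => by
          funext i
          change Multiplicative.ofAdd (e1 (e1.symm (fun i => Multiplicative.toAdd (x i))) i) = x i
          rw [RingEquiv.apply_symm_apply]; rfl⟩ (by
        intro x y
        funext i
        change Multiplicative.ofAdd (e1 (Multiplicative.toAdd x + Multiplicative.toAdd y) i) = _
        rw [map_add]
        rfl)
    have hc : IsCyclic (Multiplicative (ZMod (∏ i, n i))) := inferInstance
    exact isCyclic_of_surjective (e2.trans e.symm).toMonoidHom (e2.trans e.symm).surjective
  · rw [Pairwise] at hcop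
    push Not at hcop
    obtain ⟨i, j, hij, hnc⟩ := hcop
    obtain ⟨p, hp, hpi, hpj⟩ := Nat.Prime.not_coprime_iff_dvd.1 hnc
    refine ⟨p, hp, ?_⟩
    let F : ((i : ι) → Multiplicative (ZMod (n i))) →* Multiplicative (ZMod p × ZMod p) :=
      { toFun := fun x => Multiplicative.ofAdd (ZMod.castHom hpi (ZMod p) (Multiplicative.toAdd (x i)),
          ZMod.castHom hpj (ZMod p) (Multiplicative.toAdd (x j)))
        map_one' := by
          apply Multiplicative.toAdd.injective
          change (ZMod.castHom hpi (ZMod p) 0, ZMod.castHom hpj (ZMod p) 0) = (0 : ZMod p × ZMod p)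
          rw [map_zero, map_zero]; rfl
        map_mul' := fun x y => by
          apply Multiplicative.toAdd.injective
          change (ZMod.castHom hpi (ZMod p) (Multiplicative.toAdd (x i) + Multiplicative.toAdd (y i)),
            ZMod.castHom hpj (ZMod p) (Multiplicative.toAdd (x j) + Multiplicative.toAdd (y j))) = _
          rw [map_add, map_add]; rfl }
    refine ⟨F.comp e.toMonoidHom, ?_⟩
    have hF : Function.Surjective F := by
      intro y
      classical
      obtain ⟨u, hu⟩ := ZMod.castHom_surjective hpi (Multiplicative.toAdd y).1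
      obtain ⟨v, hv⟩ := ZMod.castHom_surjective hpj (Multiplicative.toAdd y).2
      let w : (k : ι) → Multiplicative (ZMod (n k)) :=
        Function.update (Function.update 1 i (Multiplicative.ofAdd u)) j (Multiplicative.ofAdd v)
      have hwi : w i = Multiplicative.ofAdd u := by
        simp only [w]
        rw [Function.update_of_ne hij, Function.update_self]
      have hwj : w j = Multiplicative.ofAdd v := by
        simp only [w]
        rw [Function.update_self]
      refine ⟨w, ?_⟩
      apply Multiplicative.toAdd.injective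
      change (ZMod.castHom hpi (ZMod p) (Multiplicative.toAdd (w i)),
        ZMod.castHom hpj (ZMod p) (Multiplicative.toAdd (w j))) = _
      rw [hwi, hwj]
      exact Prod.ext hu hv
    exact hF.comp e.surjective

/-- A finite abelian group has trivial Schur multiplier if and only if it is cyclic. -/
theorem result {G : Type*} [CommGroup G] [Finite G] : Cfsg.HasCyclicSchurMultiplier G 1 ↔ IsCyclic G := by
  constructor
  · intro h
    by_contra hG
    obtain ⟨p, hp, f, hf⟩ := exists_surj hG
    have : NeZero p := ⟨hp.ne_zero⟩
    let c := Cfsg.Agent.S3951.bil p p (dvd_refl p)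
    let E : Subgroup (G × TP c) :=
      { carrier := {x | f x.1 = proj c x.2}
        mul_mem' := fun {a b} ha hb => by
          change f (a.1 * b.1) = proj c (a.2 * b.2)
          rw [map_mul, map_mul, ha, hb]
        one_mem' := by
          change f 1 = proj c 1
          rw [map_one, map_one]
        inv_mem' := fun {a} ha => by
          change f (a.1⁻¹) = proj c (a.2⁻¹)
          rw [map_inv, map_inv, ha] }
    let τ : E →* G := (MonoidHom.fst G (TP c)).comp E.subtype
    have hmem : ∀ (g : G) (x : TP c), f g = x.fst → (g, x) ∈ E := fun g x hx => hx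
    let a : TP c := ⟨Multiplicative.ofAdd (1, 0), 0⟩
    let b : TP c := ⟨Multiplicative.ofAdd (0, 1), 0⟩
    have hab : a * b = (⟨1, 1⟩ : TP c) * (b * a) := by
      apply TP.ext
      · rw [fst_mul, fst_mul, fst_mul]
        change Multiplicative.ofAdd ((1, 0) : ZMod p × ZMod p) * Multiplicative.ofAdd ((0, 1) : ZMod p × ZMod p) =
          1 * (Multiplicative.ofAdd ((0, 1) : ZMod p × ZMod p) * Multiplicative.ofAdd ((1, 0) : ZMod p × ZMod p))
        rw [one_mul, mul_comm]
      · rw [snd_mul, snd_mul, snd_mul]
        change (0 : ZMod p) + 0 + (ZMod.castHom (dvd_refl p) (ZMod p)) (1 : ZMod p) * 1 =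
          1 + (0 + 0 + (ZMod.castHom (dvd_refl p) (ZMod p)) (0 : ZMod p) * 0) + c.toFun 1 _
        rw [map_one, c.one_left]
        simp
    have hcomm : ⁅a, b⁆ = (⟨1, 1⟩ : TP c) := by
      rw [commutatorElement_def, hab]; group
    have hpow : ∀ k : ℕ, (⟨1, 1⟩ : TP c) ^ k = ⟨1, (k : ZMod p)⟩ := by
      intro k
      induction k with
      | zero =>
        rw [pow_zero]
        apply TP.ext
        · rfl
        · change (0 : ZMod p) = ((0 : ℕ) : ZMod p)
          simp
      | succ k ih =>
        rw [pow_succ, ih]
        apply TP.ext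
        · rw [fst_mul]
          exact one_mul _
        · rw [snd_mul]
          change (k : ZMod p) + 1 + c.toFun 1 _ = ((k + 1 : ℕ) : ZMod p)
          rw [c.one_left]; push_cast; ring
    have hstem : IsStemExtension τ := by
      refine ⟨?_, ?_, ?_⟩
      · intro g
        exact ⟨⟨(g, ⟨f g, 0⟩), hmem g _ rfl⟩, rfl⟩
      · rintro ⟨⟨g, x⟩, hx⟩ hk
        have hg : g = 1 := hk
        subst hg
        have hx1 : x.fst = 1 := by
          have : f 1 = x.fst := hx
          rw [← this, map_one]
        rw [Subgroup.mem_center_iff]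
        rintro ⟨⟨g', x'⟩, hx'⟩
        apply Subtype.ext
        apply Prod.ext
        · exact mul_comm _ _
        · apply TP.ext
          · change x'.fst * x.fst = x.fst * x'.fst
            rw [hx1, one_mul, mul_one]
          · change x'.snd + x.snd + c.toFun x'.fst x.fst = x.snd + x'.snd + c.toFun x.fst x'.fst
            rw [hx1, c.one_left, c.one_right, add_comm x'.snd]
      · rintro ⟨⟨g, x⟩, hx⟩ hk
        have hg : g = 1 := hk
        subst hg
        have hx1 : x.fst = 1 := by
          have : f 1 = x.fst := hx
          rw [← this, map_one]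
        obtain ⟨ga, hga⟩ := hf a.fst
        obtain ⟨gb, hgb⟩ := hf b.fst
        have hx2 : x = ⁅a, b⁆ ^ (x.snd.val) := by
          rw [hcomm, hpow]
          apply TP.ext
          · exact hx1
          · rw [ZMod.natCast_zmod_val]
        have hE : (⟨((1 : G), x), hx⟩ : E) = ⁅(⟨(ga, a), hmem _ _ hga⟩ : E), (⟨(gb, b), hmem _ _ hgb⟩ : E)⁆ ^ (x.snd.val) := by
          apply Subtype.ext
          apply Prod.ext
          · change (1 : G) = (ga * gb * ga⁻¹ * gb⁻¹) ^ (x.snd.val)
            rw [mul_comm ga gb]
            simp
          · exact hx2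
        rw [hE]
        exact Subgroup.pow_mem _ (Subgroup.commutator_mem_commutator (Subgroup.mem_top _) (Subgroup.mem_top _)) _
    have hker := H69.SchurBasic.ker_eq_bot_of_hasCyclic_one h E τ hstem
    have h1 : (⟨((1 : G), (⟨1, 1⟩ : TP c)), hmem 1 _ (map_one f)⟩ : E) ∈ τ.ker := rfl
    rw [hker, Subgroup.mem_bot] at h1
    have h2 : (⟨1, 1⟩ : TP c) = 1 := congrArg (fun y : E => (y : G × TP c).2) h1
    have h3 : (1 : ZMod p) = 0 := congrArg TP.snd h2
    have : Fact p.Prime := ⟨hp⟩
    exact one_ne_zero h3
  · intro h
    exact Cfsg.Agent.S3979.result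

end Cfsg.Agent.S3950
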