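import Cfsg.Statements.S3952
import Cfsg.Agent.Lib.H68.SchurExp

set_option autoImplicit false
open Cfsg

namespace Cfsg.Agent.S3952

/-- If `A` is the Schur multiplier of the finite group `Q`, then the square of the exponent of `A` divides the order of `Q`. -/
theorem result {Q : Type*} [Group Q] [Finite Q] {A : Type*} [CommGroup A] (hA : Cfsg.HasSchurMultiplier Q A) : Monoid.exponent A ^ 2 ∣ Nat.card Q := by
  obtain ⟨⟨Γ, _, _, σ, ⟨hs, hc, hA'⟩, ⟨e⟩⟩, -⟩ := hA
  have hcomm : ∀ a b : σ.ker, a * b = b * a := fun a b => Subtype.ext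
    ((Subgroup.mem_center_iff.1 (hc b.2)) a)
  letI : CommGroup σ.ker := { (inferInstance : Group σ.ker) with mul_comm := hcomm }
  have hAf : Finite A := Finite.of_equiv _ e.toEquiv
  obtain ⟨e1⟩ := CommGroup.monoidHom_mulEquiv_of_hasEnoughRootsOfUnity A ℂ
  obtain ⟨a, ha⟩ := Monoid.exists_orderOf_eq_exponent (G := A) (Monoid.ExponentExists.of_finite)
  set l : A →* ℂˣ := e1.symm a with hl
  have hl1 : orderOf l = Monoid.exponent A := by
    rw [hl, ← ha]
    exact MulEquiv.orderOf_eq e1.symm a
  set lam : σ.ker →* ℂˣ := l.comp e.toMonoidHom with hlam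
  have h1 : orderOf lam = orderOf l := by
    let φ : (A →* ℂˣ) →* (σ.ker →* ℂˣ) :=
      { toFun := fun χ => χ.comp e.toMonoidHom
        map_one' := rfl
        map_mul' := fun _ _ => rfl }
    have hφ : Function.Injective φ := by
      intro χ ψ h
      ext x
      obtain ⟨y, rfl⟩ := e.surjective x
      exact congrArg Units.val (DFunLike.congr_fun h y)
    exact orderOf_injective φ hφ l
  have h2 := H68.SchurExp.sq_dvd σ.ker hc hA' lam
  rw [h1, hl1] at h2
  have h3 : σ.ker.index = Nat.card Q := by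
    rw [Subgroup.index_ker, MonoidHom.range_eq_top_of_surjective σ hs, Subgroup.card_top]
  rwa [h3] at h2

end Cfsg.Agent.S3952
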