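import Cfsg.Statements.S3953
import Cfsg.Agent.Lib.H68.SchurTrans

set_option autoImplicit false
open Cfsg

namespace Cfsg.Agent.S3953

/-- Let `P` be a Sylow `p`-subgroup of the finite group `G`, let `A` be the Schur multiplier of `G` and `B` that of `P`. Then the `p`-primary component of `A` is isomorphic to a direct factor of `B`: there are subgroups `C` and `D` of `B` meeting trivially and generating `B`, with `C` isomorphic to the `p`-primary component of `A`. -/
theorem result {G : Type*} [Group G] [Finite G] (p : ℕ) [Fact p.Prime] (P : Sylow p G) {A B : Type*} [CommGroup A] [CommGroup B] (hA : Cfsg.HasSchurMultiplier G A) (hB : Cfsg.HasSchurMultiplier P B) : ∃ C D : Subgroup B, C ⊓ D = ⊥ ∧ C ⊔ D = ⊤ ∧ Nonempty (CommGroup.primaryComponent A p ≃* C) := by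
  obtain ⟨tr, co, hco⟩ := H68.SchurTrans.exists_cor_tr (P : Subgroup G) hA hB
  have hp : p.Prime := Fact.out
  have hAf : Finite A := (H69.SchurBasic.finite_of_hasSchurMultiplier hA).2
  have hcardA : Nat.card A ≠ 0 := Nat.card_pos.ne'
  set N := ordCompl[p] (Nat.card A) with hN
  have hNp : ¬ p ∣ N := Nat.not_dvd_ordCompl hp hcardA
  have hpm : ¬ p ∣ (P : Subgroup G).index := P.not_dvd_index
  have hpg : IsPGroup p (CommGroup.primaryComponent A p) := CommGroup.primaryComponent.isPGroup
  have hNmem : ∀ a : A, a ^ N ∈ CommGroup.primaryComponent A p := by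
    intro a
    refine ⟨(Nat.card A).factorization p, ?_⟩
    rw [← pow_mul, mul_comm, Nat.ordProj_mul_ordCompl_eq_self, pow_card_eq_one']
  have hcop : ¬ p ∣ (P : Subgroup G).index * N := by
    intro h
    rcases (hp.dvd_mul).1 h with h | h
    · exact hpm h
    · exact hNp h
  have hinj : ∀ a ∈ CommGroup.primaryComponent A p, a ^ ((P : Subgroup G).index * N) = 1 → a = 1 := by
    intro a ha h
    have h1 := (hpg.powEquiv' hcop).injective (a₁ := ⟨a, ha⟩) (a₂ := 1) (Subtype.ext (by simpa using h))
    exact congrArg Subtype.val h1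
  have htr : Function.Injective (tr.comp (CommGroup.primaryComponent A p).subtype) := by
    rw [injective_iff_map_eq_one]
    intro a ha
    apply Subtype.ext
    apply hinj _ a.2
    have h1 : co (tr (a : A)) = 1 := by
      have : tr (a : A) = 1 := ha
      rw [this, map_one]
    rw [hco] at h1
    rw [pow_mul, h1, one_pow]
  refine ⟨(tr.comp (CommGroup.primaryComponent A p).subtype).range, (powMonoidHom N |>.comp co).ker, ?_, ?_,
    ⟨MonoidHom.ofInjective htr⟩⟩
  · rw [Subgroup.eq_bot_iff_forall]
    intro b hb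
    obtain ⟨⟨a, rfl⟩, h2⟩ := Subgroup.mem_inf.1 hb
    have h3 : (co (tr (a : A))) ^ N = 1 := h2
    rw [hco, ← pow_mul] at h3
    have h4 := hinj _ a.2 h3
    show tr (a : A) = 1
    rw [h4, map_one]
  · rw [eq_top_iff]
    intro b _
    obtain ⟨a, ha⟩ := (hpg.powEquiv' hcop).surjective ⟨(co b) ^ N, hNmem _⟩
    have ha' : (a : A) ^ ((P : Subgroup G).index * N) = (co b) ^ N := congrArg Subtype.val ha
    have h1 : b = tr (a : A) * (b * (tr (a : A))⁻¹) := by
      rw [mul_comm b, mul_inv_cancel_left]
    rw [h1]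
    apply Subgroup.mul_mem_sup
    · exact ⟨a, rfl⟩
    · show (co (b * (tr (a : A))⁻¹)) ^ N = 1
      rw [map_mul, map_inv, hco, mul_pow, inv_pow, ← pow_mul, ha', mul_inv_cancel]

end Cfsg.Agent.S3953
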