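import Cfsg.Statements.S3957
import Cfsg.Agent.Lib.H69.SchurCover

set_option autoImplicit false
universe u v
open Cfsg

namespace Cfsg.Agent.S3957

open H69.SchurUniv H69.SchurCover in
/-- Let `Q` be a finite group with Schur multiplier `A` and let `τ : Δ →* Q` be a finite stem extension, `Δ` in the universe of `Q`. Then there is a finite stem extension `σ : Γ →* Q` with kernel isomorphic to `A` (a Schur covering group) and a surjective homomorphism `β : Γ →* Δ` with `τ ∘ β = σ`. -/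
theorem result {Q : Type u} [Group Q] [Finite Q] {A : Type v} [CommGroup A] (hA : Cfsg.HasSchurMultiplier Q A) {Δ : Type u} [Group Δ] [Finite Δ] (τ : Δ →* Q) (hτ : Cfsg.IsStemExtension τ) : ∃ (Γ : Type u) (_ : Group Γ) (_ : Finite Γ) (σ : Γ →* Q), Cfsg.IsStemExtension σ ∧ Nonempty (σ.ker ≃* A) ∧ ∃ β : Γ →* Δ, Function.Surjective β ∧ τ.comp β = σ := by
  have hf := canon_surjective Q
  obtain ⟨e⟩ := nonempty_equiv_M hA (canon Q) hf
  obtain ⟨φ, S, hφ, hφs, hS1, hS2, hS3, hS4⟩ := exists_complement_lift (canon Q) hf τ hτ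
  have := normal_of_le_ker (canon Q) hS2
  refine ⟨Ext (canon Q) ⧸ S, inferInstance, finite_quot (canon Q) S hS2 hS4, prS (canon Q) S hS2,
    prS_stem (canon Q) hf S hS2 hS4, ⟨(kerEquiv (canon Q) S hS2 hS4 hS3).symm.trans e.symm⟩,
    QuotientGroup.lift S φ (fun _ hx => hS1 hx), ?_, ?_⟩
  · intro d
    obtain ⟨x, rfl⟩ := hφs d
    exact ⟨QuotientGroup.mk x, rfl⟩
  · apply QuotientGroup.monoidHom_ext
    rw [MonoidHom.comp_assoc]
    exact hφ

end Cfsg.Agent.S3957
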