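import Cfsg.Statements.S3958
import Cfsg.Agent.Lib.H69.SchurCover

set_option autoImplicit false
universe u v
open Cfsg

namespace Cfsg.Agent.S3958

open H69.SchurUniv H69.SchurCover in
/-- Let `σ : Γ →* Q` be a finite stem extension of the finite group `Q` with `Γ` of trivial Schur multiplier. Then `σ` is a Schur covering group of `Q`: for every finite stem extension `τ : Δ →* Q` with `Δ` in the same universe as `Q`, the kernel of `τ` is a homomorphic image of the kernel of `σ`. -/
theorem result {Q : Type u} [Group Q] [Finite Q] {Γ : Type v} [Group Γ] [Finite Γ] (σ : Γ →* Q) (hσ : Cfsg.IsStemExtension σ) (hΓ : Cfsg.HasCyclicSchurMultiplier Γ 1) (Δ : Type u) [Group Δ] [Finite Δ] (τ : Δ →* Q) (hτ : Cfsg.IsStemExtension τ) : ∃ π : σ.ker →* τ.ker, Function.Surjective π := by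
  have hf := canon_surjective Q
  obtain ⟨φ, S, hφ, hφs, hS1, hS2, hS3, hS4⟩ := exists_complement_lift (canon Q) hf σ hσ
  have := normal_of_le_ker (canon Q) hS2
  let β : Ext (canon Q) ⧸ S →* Γ := QuotientGroup.lift S φ (fun _ hx => hS1 hx)
  have hβs : Function.Surjective β := by
    intro d
    obtain ⟨x, rfl⟩ := hφs d
    exact ⟨QuotientGroup.mk x, rfl⟩
  have hβ : σ.comp β = prS (canon Q) S hS2 := by
    apply QuotientGroup.monoidHom_ext
    rw [MonoidHom.comp_assoc]
    exact hφ
  have hst := prS_stem (canon Q) hf S hS2 hS4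
  have hker : β.ker ≤ (prS (canon Q) S hS2).ker := by
    intro x hx
    rw [MonoidHom.mem_ker, ← hβ, MonoidHom.comp_apply, MonoidHom.mem_ker.1 hx, map_one]
  obtain ⟨π, hπ⟩ := exists_surj_ker_inf_commutator hΓ β hβs (hker.trans hst.2.1)
  rw [inf_eq_left.2 (hker.trans hst.2.2)] at hπ
  have hβker : β.ker = ⊥ := by
    rw [← hπ, eq_bot_iff]
    rintro _ ⟨a, rfl⟩
    have : a = 1 := Subsingleton.elim _ _
    rw [this, map_one]
    exact Subgroup.one_mem _
  have hβi : Function.Injective β := (MonoidHom.ker_eq_bot_iff β).1 hβker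
  -- the kernel of `σ` is isomorphic to `M`
  have hφ' : ∀ e, σ (φ e) = pr (canon Q) e := fun e => DFunLike.congr_fun hφ e
  let ψ : M (canon Q) →* σ.ker := (φ.comp (M (canon Q)).subtype).codRestrict σ.ker (by
    intro m
    rw [MonoidHom.mem_ker]
    show σ (φ m) = 1
    rw [hφ']
    exact m.2.1)
  have h1 := map_ker_inf_commutator (pr (canon Q)) (pr_surjective hf) σ hσ.2.1 φ hφ
  rw [inf_eq_left.2 hσ.2.2] at h1
  have hψ : Function.Bijective ψ := by
    constructor
    · rw [injective_iff_map_eq_one]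
      intro m hm
      have h2 : φ m = 1 := congrArg Subtype.val hm
      have h3 : β (QuotientGroup.mk (m : Ext (canon Q))) = β 1 := by
        rw [map_one]; exact h2
      have h4 := hβi h3
      rw [QuotientGroup.eq_one_iff] at h4
      have h5 : (m : Ext (canon Q)) ∈ S ⊓ M (canon Q) := ⟨h4, m.2⟩
      rw [hS3, Subgroup.mem_bot] at h5
      exact Subtype.ext h5
    · rintro ⟨y, hy⟩
      rw [← h1] at hy
      obtain ⟨m, hm, rfl⟩ := hy
      exact ⟨⟨m, hm⟩, rfl⟩
  let e := MulEquiv.ofBijective ψ hψ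
  obtain ⟨π', hπ'⟩ := (exists_hasSchurMultiplier Q).2 Δ τ hτ
  exact ⟨π'.comp e.symm.toMonoidHom, hπ'.comp e.symm.surjective⟩

end Cfsg.Agent.S3958
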