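import Cfsg.Statements.S3960
import Cfsg.Agent.Lib.H69.SchurPerfect

set_option autoImplicit false
universe u
open Cfsg

namespace Cfsg.Agent.S3960

open H69.SchurUniv H69.SchurCover H69.SchurPerfect in
/-- A finite perfect group `Q` has a universal central extension: a finite perfect group `G` in the universe of `Q` and a surjective homomorphism `π : G →* Q` with central kernel such that for every group `X` in that universe and every surjective homomorphism `ξ : X →* Q` with central kernel there is exactly one homomorphism `η : G →* X` with `ξ ∘ η = π`. -/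
theorem result {Q : Type u} [Group Q] [Finite Q] (hQ : Group.IsPerfect Q) : ∃ (G : Type u) (_ : Group G) (_ : Finite G) (π : G →* Q), Group.IsPerfect G ∧ Function.Surjective π ∧ π.ker ≤ Subgroup.center G ∧ ∀ (X : Type u) [Group X] (ξ : X →* Q), Function.Surjective ξ → ξ.ker ≤ Subgroup.center X → ∃! η : G →* X, ξ.comp η = π := by
  have hf := canon_surjective Q
  have hp := pr_surjective hf
  have hc := ker_pr_le_center (canon Q)
  have hperf := perfect_commutator hQ (pr (canon Q)) hp hc
  refine ⟨commutator (Ext (canon Q)), inferInstance, finite_commutator (pr (canon Q)) hc,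
    (pr (canon Q)).comp (commutator (Ext (canon Q))).subtype, hperf, ?_, ?_, ?_⟩
  · intro q
    obtain ⟨e, he, hq⟩ := exists_mem_commutator hQ (pr (canon Q)) hp q
    exact ⟨⟨e, he⟩, hq⟩
  · intro x hx
    rw [Subgroup.mem_center_iff]
    intro g
    exact Subtype.ext (ker_pr_comm (canon Q) hx g)
  · intro X _ ξ hξ hξc
    obtain ⟨φ, hφ⟩ := exists_lift (canon Q) ξ hξ hξc (MonoidHom.id Q)
    refine ⟨φ.comp (commutator (Ext (canon Q))).subtype, ?_, ?_⟩
    · show ξ.comp (φ.comp _) = _
      rw [← MonoidHom.comp_assoc, hφ]
      rfl
    · intro η hη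
      apply hom_eq_of_perfect hperf ξ hξc
      rw [hη, ← MonoidHom.comp_assoc, hφ]
      rfl

end Cfsg.Agent.S3960
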