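import Cfsg.Statements.S3962
import Mathlib

set_option autoImplicit false
open Cfsg

namespace Cfsg.Agent.S3962

lemma commutator_le_ker_of_comm {G H : Type*} [Group G] [Group H] (f : G →* H)
    (h : ∀ a b, f a * f b = f b * f a) : commutator G ≤ f.ker := by
  rw [commutator_def, Subgroup.commutator_le]
  intro a _ b _
  rw [MonoidHom.mem_ker, map_commutatorElement, commutatorElement_eq_one_iff_mul_comm]
  exact h a b

/-- Let `G` be a perfect group and `π : G →* Q` a surjective homomorphism whose kernel is central. Then `π` maps the centre of `G` onto the centre of `Q`. Taking `π` to be the map to `G ⧸ Z(G)` shows that the central quotient of a perfect group has trivial centre. -/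
theorem result {G Q : Type*} [Group G] [Group Q] (hG : Group.IsPerfect G) (π : G →* Q) (hπ : Function.Surjective π) (hker : π.ker ≤ Subgroup.center G) : (Subgroup.center G).map π = Subgroup.center Q := by
  apply le_antisymm
  · rintro _ ⟨z, hz, rfl⟩
    rw [Subgroup.mem_center_iff]
    intro q
    obtain ⟨g, rfl⟩ := hπ q
    rw [← map_mul, ← map_mul, Subgroup.mem_center_iff.1 hz g]
  · intro z hz
    obtain ⟨x, rfl⟩ := hπ z
    refine ⟨x, ?_, rfl⟩
    have hc : ∀ g : G, x * g * x⁻¹ * g⁻¹ ∈ Subgroup.center G := by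
      intro g
      apply hker
      rw [MonoidHom.mem_ker, map_mul, map_mul, map_mul, map_inv, map_inv,
        ← Subgroup.mem_center_iff.1 hz (π g)]
      group
    let f : G →* Subgroup.center G :=
      { toFun := fun g => ⟨x * g * x⁻¹ * g⁻¹, hc g⟩
        map_one' := by
          apply Subtype.ext
          simp
        map_mul' := by
          intro g h
          apply Subtype.ext
          show x * (g * h) * x⁻¹ * (g * h)⁻¹ = (x * g * x⁻¹ * g⁻¹) * (x * h * x⁻¹ * h⁻¹)
          have h1 := Subgroup.mem_center_iff.1 (hc h) g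
          calc x * (g * h) * x⁻¹ * (g * h)⁻¹
              = x * g * x⁻¹ * ((x * h * x⁻¹ * h⁻¹) * g⁻¹) := by group
            _ = x * g * x⁻¹ * (g⁻¹ * (g * (x * h * x⁻¹ * h⁻¹)) * g⁻¹) := by group
            _ = x * g * x⁻¹ * (g⁻¹ * ((x * h * x⁻¹ * h⁻¹) * g) * g⁻¹) := by rw [h1]
            _ = _ := by group }
    have hf : commutator G ≤ f.ker := commutator_le_ker_of_comm f
      (fun a b => Subtype.ext (Subgroup.mem_center_iff.1 (hc b) (x * a * x⁻¹ * a⁻¹)))
    rw [hG.commutator_eq_top] at hf
    show x ∈ Subgroup.center G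
    rw [Subgroup.mem_center_iff]
    intro g
    have h1 : f g = 1 := hf (Subgroup.mem_top g)
    have hfg : ((f g : Subgroup.center G) : G) = x * g * x⁻¹ * g⁻¹ := rfl
    have h2 : x * g * x⁻¹ * g⁻¹ = 1 := by rw [← hfg, h1]; rfl
    have h3 : x * g * x⁻¹ = g := by rwa [mul_inv_eq_one] at h2
    have h4 : x * g = g * x := mul_inv_eq_iff_eq_mul.1 h3
    exact h4.symm

end Cfsg.Agent.S3962
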