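import Cfsg.Statements.S3963
import Cfsg.Agent.Lib.H69.SchurMetacyclic

set_option autoImplicit false
open Cfsg

namespace Cfsg.Agent.S3963

lemma closure_eq_top (n : ℕ) [NeZero n] :
    Subgroup.closure ({QuaternionGroup.a 1, QuaternionGroup.xa 0} : Set (QuaternionGroup n)) = ⊤ := by
  rw [eq_top_iff]
  rintro x -
  have ha : ∀ i : ZMod (2 * n), QuaternionGroup.a i ∈
      Subgroup.closure ({QuaternionGroup.a 1, QuaternionGroup.xa 0} : Set (QuaternionGroup n)) := by
    intro i
    have h1 : (QuaternionGroup.a i : QuaternionGroup n) = (QuaternionGroup.a 1) ^ i.val := by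
      rw [QuaternionGroup.a_one_pow, ZMod.natCast_zmod_val]
    rw [h1]
    exact Subgroup.pow_mem _ (Subgroup.subset_closure (by simp)) _
  rcases x with i | i
  · exact ha i
  · have h1 : (QuaternionGroup.xa i : QuaternionGroup n) = QuaternionGroup.xa 0 * QuaternionGroup.a i := by
      rw [QuaternionGroup.xa_mul_a, zero_add]
    rw [h1]
    exact Subgroup.mul_mem _ (Subgroup.subset_closure (by simp)) (ha i)

/-- For every `n ≥ 1` the dicyclic (generalized quaternion) group of order `4 n` has trivial Schur multiplier. -/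
theorem result (n : ℕ) [NeZero n] : Cfsg.HasCyclicSchurMultiplier (QuaternionGroup n) 1 := by
  apply H69.SchurBasic.hasCyclic_one_of_ker_eq_bot
  intro Γ _ _ σ hσ
  have hr : (QuaternionGroup.xa 0 : QuaternionGroup n) * QuaternionGroup.a 1 * (QuaternionGroup.xa 0)⁻¹ =
      (QuaternionGroup.a 1) ^ (-1 : ℤ) := by
    rw [zpow_neg, zpow_one, mul_inv_eq_iff_eq_mul, eq_inv_mul_iff_mul_eq]
    simp
  obtain ⟨c, h1, h2, h3, h4⟩ := H69.SchurMetacyclic.exists_generator_ker σ hσ
    (QuaternionGroup.a 1) (QuaternionGroup.xa 0) (closure_eq_top n) (2 * n) 2 (-1) n n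
    (QuaternionGroup.a_one_pow_n) (by rw [zpow_natCast, QuaternionGroup.xa_sq, QuaternionGroup.a_one_pow])
    hr (by
      intro i hi
      have h5 : (QuaternionGroup.a 1 : QuaternionGroup n) ^ (2 * i) = 1 := by
        rw [← zpow_mul] at hi
        have : (-1 - 1 : ℤ) * i = -(2 * i) := by ring
        rw [this, zpow_neg, inv_eq_one] at hi
        exact hi
      rw [← orderOf_dvd_iff_zpow_eq_one, QuaternionGroup.orderOf_a_one] at h5
      have h6 : (2 : ℤ) * n ∣ 2 * i := by exact_mod_cast h5
      exact (mul_dvd_mul_iff_left (by norm_num)).1 h6)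
  rw [eq_bot_iff]
  refine h1.trans ?_
  rw [h3, Subgroup.zpowers_one_eq_bot]

end Cfsg.Agent.S3963
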