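import Cfsg.Statements.S3964
import Cfsg.Agent.Lib.H69.SchurMetacyclic

set_option autoImplicit false
open Cfsg

namespace Cfsg.Agent.S3964

lemma closure_eq_top (n : ℕ) [NeZero n] :
    Subgroup.closure ({DihedralGroup.r 1, DihedralGroup.sr 0} : Set (DihedralGroup n)) = ⊤ := by
  rw [eq_top_iff]
  rintro x -
  have ha : ∀ i : ZMod n, DihedralGroup.r i ∈
      Subgroup.closure ({DihedralGroup.r 1, DihedralGroup.sr 0} : Set (DihedralGroup n)) := by
    intro i
    have h1 : (DihedralGroup.r i : DihedralGroup n) = (DihedralGroup.r 1) ^ i.val := by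
      rw [DihedralGroup.r_one_pow, ZMod.natCast_zmod_val]
    rw [h1]
    exact Subgroup.pow_mem _ (Subgroup.subset_closure (by simp)) _
  rcases x with i | i
  · exact ha i
  · have h1 : (DihedralGroup.sr i : DihedralGroup n) = DihedralGroup.sr 0 * DihedralGroup.r i := by
      rw [DihedralGroup.sr_mul_r, zero_add]
    rw [h1]
    exact Subgroup.mul_mem _ (Subgroup.subset_closure (by simp)) (ha i)

/-- For odd `n` the dihedral group of order `2 n` has trivial Schur multiplier. -/
theorem result (n : ℕ) (hn : Odd n) : Cfsg.HasCyclicSchurMultiplier (DihedralGroup n) 1 := by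
  have : NeZero n := ⟨hn.pos.ne'⟩
  apply H69.SchurBasic.hasCyclic_one_of_ker_eq_bot
  intro Γ _ _ σ hσ
  have hr : (DihedralGroup.sr 0 : DihedralGroup n) * DihedralGroup.r 1 * (DihedralGroup.sr 0)⁻¹ =
      (DihedralGroup.r 1) ^ (-1 : ℤ) := by
    rw [zpow_neg, zpow_one]
    simp
  obtain ⟨c, h1, h2, h3, h4⟩ := H69.SchurMetacyclic.exists_generator_ker σ hσ
    (DihedralGroup.r 1) (DihedralGroup.sr 0) (closure_eq_top n) n 2 (-1) 0 n
    (DihedralGroup.r_one_pow_n) (by rw [pow_two, DihedralGroup.sr_mul_self, zpow_zero])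
    hr (by
      intro i hi
      have h5 : (DihedralGroup.r 1 : DihedralGroup n) ^ (2 * i) = 1 := by
        rw [← zpow_mul] at hi
        have : (-1 - 1 : ℤ) * i = -(2 * i) := by ring
        rw [this, zpow_neg, inv_eq_one] at hi
        exact hi
      rw [← orderOf_dvd_iff_zpow_eq_one, DihedralGroup.orderOf_r_one] at h5
      have hcop : IsCoprime (n : ℤ) 2 := by
        have := Nat.isCoprime_iff_coprime.2 (Nat.coprime_two_right.2 hn)
        exact_mod_cast this
      exact hcop.dvd_of_dvd_mul_left h5)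
  rw [eq_bot_iff]
  refine h1.trans ?_
  rw [zpow_natCast, h2, Subgroup.zpowers_one_eq_bot]

end Cfsg.Agent.S3964
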