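import Cfsg.Statements.S3966
import Mathlib

set_option autoImplicit false
open Cfsg

namespace Cfsg.Agent.S3966

/-- the map `a i ↦ r i`, `xa i ↦ sr i`. -/
def σ (n : ℕ) : QuaternionGroup n →* DihedralGroup n where
  toFun x := match x with
    | QuaternionGroup.a i => DihedralGroup.r (ZMod.castHom (Dvd.intro_left 2 rfl) (ZMod n) i)
    | QuaternionGroup.xa i => DihedralGroup.sr (ZMod.castHom (Dvd.intro_left 2 rfl) (ZMod n) i)
  map_one' := by
    rw [QuaternionGroup.one_def]
    simp only [map_zero, DihedralGroup.r_zero]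
  map_mul' := by
    rintro (i | i) (j | j)
    · simp only [QuaternionGroup.a_mul_a, DihedralGroup.r_mul_r, map_add]
    · simp only [QuaternionGroup.a_mul_xa, DihedralGroup.r_mul_sr, map_sub]
    · simp only [QuaternionGroup.xa_mul_a, DihedralGroup.sr_mul_r, map_add]
    · simp only [QuaternionGroup.xa_mul_xa, DihedralGroup.sr_mul_sr, map_sub, map_add,
        map_natCast, CharP.cast_eq_zero, zero_add]

lemma σ_surjective (n : ℕ) : Function.Surjective (σ n) := by
  have h : Function.Surjective (ZMod.castHom (Dvd.intro_left 2 rfl : n ∣ 2 * n) (ZMod n)) :=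
    ZMod.castHom_surjective _
  rintro (i | i)
  · obtain ⟨j, hj⟩ := h i
    refine ⟨QuaternionGroup.a j, ?_⟩
    show DihedralGroup.r _ = _
    rw [hj]
  · obtain ⟨j, hj⟩ := h i
    refine ⟨QuaternionGroup.xa j, ?_⟩
    show DihedralGroup.sr _ = _
    rw [hj]

lemma card_ker (n : ℕ) [NeZero n] : Nat.card (σ n).ker = 2 := by
  have h1 := Subgroup.card_eq_card_quotient_mul_card_subgroup (σ n).ker
  have h2 : Nat.card (QuaternionGroup n ⧸ (σ n).ker) = Nat.card (DihedralGroup n) :=
    Nat.card_congr (QuotientGroup.quotientKerEquivOfSurjective (σ n) (σ_surjective n)).toEquiv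
  rw [h2, Nat.card_eq_fintype_card, QuaternionGroup.card, DihedralGroup.nat_card] at h1
  have h3 : 0 < n := Nat.pos_of_ne_zero (NeZero.ne n)
  have h4 : 2 * n * 2 = 2 * n * Nat.card (σ n).ker := by rw [← h1]; ring
  exact (Nat.eq_of_mul_eq_mul_left (by omega) h4).symm

lemma ker_eq (n : ℕ) [NeZero n] : (σ n).ker = Subgroup.zpowers (QuaternionGroup.a n) := by
  symm
  apply Subgroup.eq_of_le_of_card_ge
  · rw [Subgroup.zpowers_le, MonoidHom.mem_ker]
    show DihedralGroup.r _ = _
    simp only [map_natCast, CharP.cast_eq_zero, DihedralGroup.r_zero]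
  · have h3 : 0 < n := Nat.pos_of_ne_zero (NeZero.ne n)
    rw [card_ker, Nat.card_zpowers, ← QuaternionGroup.a_one_pow, orderOf_pow,
      QuaternionGroup.orderOf_a_one, Nat.gcd_mul_left_left, Nat.mul_div_cancel _ h3]

/-- For even `n ≥ 2` the dicyclic group of order `4 n` is a stem extension of the dihedral group of order `2 n` with kernel of order `2`: there is a surjective homomorphism `QuaternionGroup n →* DihedralGroup n` whose kernel is central, lies in the commutator subgroup and has two elements. Together with the order of the multiplier this exhibits the dicyclic group as a Schur covering group of the dihedral group. -/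
theorem result (n : ℕ) [NeZero n] (hn : Even n) : ∃ σ : QuaternionGroup n →* DihedralGroup n, Cfsg.IsStemExtension σ ∧ Nat.card σ.ker = 2 := by
  refine ⟨σ n, ⟨σ_surjective n, ?_, ?_⟩, card_ker n⟩
  · rw [ker_eq, Subgroup.zpowers_le, Subgroup.mem_center_iff]
    have h2n : (n : ZMod (2 * n)) + n = 0 := by
      have : ((2 * n : ℕ) : ZMod (2 * n)) = 0 := CharP.cast_eq_zero _ _
      rw [← this]; push_cast; ring
    have h2n' : -(n : ZMod (2 * n)) = n := (eq_neg_of_add_eq_zero_left h2n).symm
    rintro (i | i)
    · rw [QuaternionGroup.a_mul_a, QuaternionGroup.a_mul_a, add_comm]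
    · rw [QuaternionGroup.a_mul_xa, QuaternionGroup.xa_mul_a, sub_eq_add_neg, h2n']
  · rw [ker_eq, Subgroup.zpowers_le]
    obtain ⟨m, hm⟩ := hn
    have h1 : (QuaternionGroup.a (-2) : QuaternionGroup n) ∈ commutator (QuaternionGroup n) := by
      have h2 : (QuaternionGroup.a (-2) : QuaternionGroup n) =
          (commutatorElement).bracket (QuaternionGroup.xa 0 : QuaternionGroup n) (QuaternionGroup.a 1) := by
        rw [commutatorElement_def, eq_mul_inv_iff_mul_eq, eq_mul_inv_iff_mul_eq]
        simp only [QuaternionGroup.a_mul_a, QuaternionGroup.a_mul_xa, QuaternionGroup.xa_mul_a]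
        congr 1
        ring
      rw [h2]
      exact Subgroup.commutator_mem_commutator (Subgroup.mem_top _) (Subgroup.mem_top _)
    have h3 : (QuaternionGroup.a n : QuaternionGroup n) = (QuaternionGroup.a (-2))⁻¹ ^ m := by
      have h4 : (QuaternionGroup.a (-2) : QuaternionGroup n)⁻¹ = (QuaternionGroup.a 1) ^ 2 := by
        rw [inv_eq_iff_mul_eq_one, QuaternionGroup.a_one_pow, QuaternionGroup.a_mul_a]
        simp
      rw [h4, ← pow_mul, QuaternionGroup.a_one_pow, hm]
      congr 1
      push_cast
      ring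
    rw [h3]
    exact Subgroup.pow_mem _ (Subgroup.inv_mem _ h1) _

end Cfsg.Agent.S3966
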