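import Cfsg.Statements.S3965
import Cfsg.Agent.S3964
import Cfsg.Agent.S3966
import Cfsg.Agent.Lib.H69.SchurMetacyclic
import Cfsg.Agent.Lib.H69.CyclicSurj

set_option autoImplicit false
open Cfsg

namespace Cfsg.Agent.S3965

/-- For even `n ≥ 2` the dihedral group of order `2 n` has Schur multiplier cyclic of order `2`. -/
theorem result (n : ℕ) [NeZero n] (hn : Even n) : Cfsg.HasCyclicSchurMultiplier (DihedralGroup n) 2 := by
  constructor
  · obtain ⟨σ, hσ, hcard⟩ := Cfsg.Agent.S3966.result n hn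
    refine ⟨QuaternionGroup n, inferInstance, inferInstance, σ, hσ, ?_⟩
    have h1 : Nat.card (Multiplicative (ZMod 2)) = 2 := by
      rw [Nat.card_congr Multiplicative.toAdd, Nat.card_zmod]
    have : Fact (Nat.Prime 2) := ⟨Nat.prime_two⟩
    exact ⟨mulEquivOfPrimeCardEq (p := 2) hcard h1⟩
  · intro Γ _ _ σ hσ
    have hr : (DihedralGroup.sr 0 : DihedralGroup n) * DihedralGroup.r 1 * (DihedralGroup.sr 0)⁻¹ =
        (DihedralGroup.r 1) ^ (-1 : ℤ) := by
      rw [zpow_neg, zpow_one]
      simp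
    obtain ⟨m, hm⟩ := hn
    obtain ⟨c, h1, h2, h3, h4⟩ := H69.SchurMetacyclic.exists_generator_ker σ hσ
      (DihedralGroup.r 1) (DihedralGroup.sr 0) (Cfsg.Agent.S3964.closure_eq_top n) n 2 (-1) 0 m
      (DihedralGroup.r_one_pow_n) (by rw [pow_two, DihedralGroup.sr_mul_self, zpow_zero])
      hr (by
        intro i hi
        have h5 : (DihedralGroup.r 1 : DihedralGroup n) ^ (2 * i) = 1 := by
          rw [← zpow_mul] at hi
          have : (-1 - 1 : ℤ) * i = -(2 * i) := by ring
          rw [this, zpow_neg, inv_eq_one] at hi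
          exact hi
        rw [← orderOf_dvd_iff_zpow_eq_one, DihedralGroup.orderOf_r_one] at h5
        have h6 : (2 : ℤ) * m ∣ 2 * i := by
          rw [hm] at h5
          push_cast at h5
          rwa [two_mul (m : ℤ)]
        exact (mul_dvd_mul_iff_left (by norm_num)).1 h6)
    apply H69.CyclicSurj.exists_surjective_of_le_zpowers σ.ker 2 _ h1
    rw [zpow_natCast, ← pow_mul, mul_two, ← hm, h2]

end Cfsg.Agent.S3965
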