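import Cfsg.Statements.S3967
import Cfsg.Agent.Lib.H69.MetacyclicPres
import Cfsg.Agent.Lib.H69.SchurMetacyclic
import Cfsg.Agent.Lib.H69.CyclicSurj

set_option autoImplicit false
open Cfsg

namespace Cfsg.Agent.S3967

open Subgroup H69.MetacyclicPres
open scoped commutatorElement

theorem pow_gcd_mem {X : Type*} [Group X] (x : X) (k N : ℕ) (hN : x ^ N = 1) :
    x ^ (Nat.gcd k N) ∈ zpowers (x ^ k) := by
  have h := Nat.gcd_eq_gcd_ab k N
  rw [← zpow_natCast x (Nat.gcd k N), h, zpow_add, zpow_mul, zpow_mul, zpow_natCast, zpow_natCast, hN,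
    one_zpow, mul_one]
  exact zpow_mem (mem_zpowers _) _

/-- the arithmetic of the statement -/
theorem arith (m n r l : ℕ) (hm : 0 < m) (hr : 0 < r) (hrn : r ^ n ≡ 1 [MOD m]) :
    ∃ d o k h g T : ℕ, Nat.gcd m (r - 1) = d ∧ m = o * d ∧ r - 1 = k * d ∧ 0 < d ∧ 0 < o ∧ o.Coprime k ∧
      Nat.gcd m (r - 1) * Nat.gcd m (∑ i ∈ Finset.range n, r ^ i) / m = h ∧
      Nat.gcd m (∑ i ∈ Finset.range n, r ^ i) = o * h ∧ h ∣ d ∧ 0 < h ∧ Nat.gcd l h = g ∧
      0 < g ∧ m * l / Nat.gcd m (r - 1) = T ∧ T = o * l := by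
  obtain ⟨o, ho⟩ := Nat.gcd_dvd_left m (r - 1)
  obtain ⟨k, hk⟩ := Nat.gcd_dvd_right m (r - 1)
  set d := Nat.gcd m (r - 1) with hd
  have hd0 : 0 < d := Nat.gcd_pos_of_pos_left _ hm
  have ho0 : 0 < o := by
    rcases Nat.eq_zero_or_pos o with h | h
    · rw [h, mul_zero] at ho; omega
    · exact h
  have hcop : o.Coprime k := by
    have : d * Nat.gcd o k = d * 1 := by
      rw [← Nat.gcd_mul_left, ← ho, ← hk, mul_one]
    exact Nat.eq_of_mul_eq_mul_left hd0 this
  set S := ∑ i ∈ Finset.range n, r ^ i with hS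
  have hgeom : (r - 1) * S = r ^ n - 1 := by
    rw [hS, mul_comm]
    exact geom_sum_mul_of_one_le hr n
  have hmS : m ∣ (r - 1) * S := by
    rw [hgeom]
    exact (Nat.modEq_iff_dvd' (Nat.one_le_pow _ _ hr)).1 hrn.symm
  have hoS : o ∣ S := by
    rw [hk] at hmS
    have h1 : d * o ∣ d * (k * S) := by rw [← ho, ← mul_assoc]; exact hmS
    exact hcop.dvd_of_dvd_mul_left (Nat.dvd_of_mul_dvd_mul_left hd0 h1)
  obtain ⟨h, hh⟩ : o ∣ Nat.gcd m S := Nat.dvd_gcd ⟨d, by rw [ho, mul_comm]⟩ hoS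
  have hh1 : d * Nat.gcd m S / m = h := by
    rw [hh, ← mul_assoc, ← ho, Nat.mul_div_cancel_left _ hm]
  have hh0 : 0 < h := by
    rcases Nat.eq_zero_or_pos h with h' | h'
    · have := Nat.gcd_pos_of_pos_left S hm
      rw [hh, h', mul_zero] at this; omega
    · exact h'
  have hhd : h ∣ d := by
    have h1 : o * h ∣ o * d := by
      rw [← hh, mul_comm o d, ← ho]; exact Nat.gcd_dvd_left _ _
    exact Nat.dvd_of_mul_dvd_mul_left ho0 h1
  refine ⟨d, o, k, h, Nat.gcd l h, m * l / d, rfl, ?_, ?_, hd0, ho0, hcop, hh1, hh, hhd, hh0, rfl,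
    Nat.gcd_pos_of_pos_right _ hh0, rfl, ?_⟩
  · rw [mul_comm]; exact ho
  · rw [mul_comm]; exact hk
  · conv_lhs => rw [ho]
    rw [mul_assoc, Nat.mul_div_cancel_left _ hd0]

/-- the parameters of the cover -/
theorem arith2 {m n r : ℕ} {d o k h g S : ℕ} (hm : 0 < m) (hr : 0 < r) (hrd : r - 1 = k * d) (hmo : m = o * d)
    (ho0 : 0 < o)
    (hcop : o.Coprime k) (hS : S = ∑ i ∈ Finset.range n, r ^ i) (hoh : Nat.gcd m S = o * h) (hgh : g ∣ h)
    (hg0 : 0 < g) :
    ∃ R : ℕ, 0 < R ∧ R ≡ r [MOD m] ∧ Nat.gcd (R - 1) (m * g) = d ∧ R ^ n ≡ 1 [MOD (m * g)] ∧ d ∣ R - 1 := by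
  have hN : 0 < m * g := Nat.mul_pos hm hg0
  have : NeZero (m * g) := ⟨hN.ne'⟩
  have : NeZero o := ⟨ho0.ne'⟩
  have hoN : o ∣ m * g := Dvd.dvd.mul_right ⟨d, hmo⟩ g
  have hku : IsUnit ((k : ℕ) : ZMod o) := (ZMod.isUnit_iff_coprime k o).2 hcop.symm
  obtain ⟨u, hu⟩ := hku
  obtain ⟨v, hv⟩ := ZMod.unitsMap_surjective hoN u
  set w : ℕ := (v : ZMod (m * g)).val with hw
  have hwcop : w.Coprime (m * g) := by
    rw [← ZMod.isUnit_iff_coprime, hw, ZMod.natCast_zmod_val]
    exact v.isUnit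
  have hwk : w ≡ k [MOD o] := by
    rw [← ZMod.natCast_eq_natCast_iff, ← hu, ← hv, ZMod.unitsMap_def, Units.coe_map, hw]
    simp only [ZMod.natCast_val]
    rfl
  refine ⟨1 + w * d, by omega, ?_, ?_, ?_, ?_⟩
  · have h1 : r = 1 + k * d := by omega
    rw [h1, hmo]
    exact (Nat.ModEq.mul_right' d hwk).add_left 1
  · rw [Nat.add_sub_cancel_left, Nat.Coprime.gcd_mul_left_cancel _ hwcop]
    exact Nat.gcd_eq_left (Dvd.dvd.mul_right ⟨o, by rw [hmo, mul_comm]⟩ g)
  · have hRr : 1 + w * d ≡ r [MOD m] := by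
      have h1 : r = 1 + k * d := by omega
      rw [h1, hmo]
      exact (Nat.ModEq.mul_right' d hwk).add_left 1
    have hSR : (∑ i ∈ Finset.range n, (1 + w * d) ^ i) ≡ S [MOD m] := by
      rw [hS]
      rw [← ZMod.natCast_eq_natCast_iff]
      push_cast
      have h2 : (1 + (w : ZMod m) * (d : ZMod m)) = (r : ZMod m) := by
        have := (ZMod.natCast_eq_natCast_iff _ _ _).2 hRr
        push_cast at this
        exact this
      rw [h2]
    have hdiv : o * g ∣ ∑ i ∈ Finset.range n, (1 + w * d) ^ i := by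
      have h3 : o * g ∣ Nat.gcd m S := by rw [hoh]; exact mul_dvd_mul_left o hgh
      exact (hSR.dvd_iff (h3.trans (Nat.gcd_dvd_left _ _))).2 (h3.trans (Nat.gcd_dvd_right _ _))
    have h4 : m * g ∣ (∑ i ∈ Finset.range n, (1 + w * d) ^ i) * ((1 + w * d) - 1) := by
      rw [Nat.add_sub_cancel_left, hmo]
      calc o * d * g = (o * g) * d := by ring
        _ ∣ _ := mul_dvd_mul hdiv (dvd_mul_left d w)
    rw [geom_sum_mul_of_one_le (by omega)] at h4
    exact ((Nat.modEq_iff_dvd' (Nat.one_le_pow _ _ (by omega))).2 h4).symm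
  · rw [Nat.add_sub_cancel_left]; exact dvd_mul_left d w

/-- Let `m, n ≥ 1`, `r ≥ 1` with `r ^ n ≡ 1 (mod m)`, and `l` a natural number; put `d = gcd(m, r - 1)`, `t = m l / d` and `h = d · gcd(m, 1 + r + ⋯ + r^(n-1)) / m`. The group presented by generators `a, b` and relations `a ^ m = 1`, `b ^ n = a ^ t`, `b a b⁻¹ = a ^ r` (a metacyclic group of order `m n`) has Schur multiplier cyclic of order `gcd(l, h)`. -/
theorem result (m n r l : ℕ) (hm : 0 < m) (hn : 0 < n) (hr : 0 < r) (hrn : r ^ n ≡ 1 [MOD m]) : Cfsg.HasCyclicSchurMultiplier (PresentedGroup ({FreeGroup.of true ^ m, (FreeGroup.of false) ^ n * (FreeGroup.of true ^ (m * l / Nat.gcd m (r - 1)))⁻¹, FreeGroup.of false * FreeGroup.of true * (FreeGroup.of false)⁻¹ * (FreeGroup.of true ^ r)⁻¹} : Set (FreeGroup Bool))) (Nat.gcd l (Nat.gcd m (r - 1) * Nat.gcd m (∑ i ∈ Finset.range n, r ^ i) / m)) := by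
  obtain ⟨d, o, k, h, g, T, hd, hmo, hrd, hd0, ho0, hcop, hh, hoh, hhd, hh0, hg, hg0, hT, hTo⟩ :=
    arith m n r l hm hr hrn
  rw [hh, hg, hT]
  change Cfsg.HasCyclicSchurMultiplier (P m n r T) g
  have hgl : g ∣ l := hg ▸ Nat.gcd_dvd_left _ _
  have hgh : g ∣ h := hg ▸ Nat.gcd_dvd_right _ _
  have hgd : g ∣ d := hgh.trans hhd
  -- orders
  have hTr : T * r ≡ T [MOD m] := by
    have h1 : r = 1 + k * d := by omega
    have h2 : T * r = T + m * (l * k) := by
      rw [h1, hTo, hmo]; ring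
    rw [h2]
    exact Nat.add_modulus_mul_modEq_iff.mpr rfl
  have hordQ : orderOf (ga m n r T) = m := orderOf_ga hm hn hrn hTr
  constructor
  · -- the cover
    obtain ⟨R, hR0, hRr, hRd, hRn, hdR⟩ := arith2 (n := n) hm hr hrd hmo ho0 hcop rfl hoh hgh hg0
    obtain ⟨w, hw⟩ := hdR
    have hN : 0 < m * g := Nat.mul_pos hm hg0
    have hTR : T * R ≡ T [MOD (m * g)] := by
      obtain ⟨l', hl'⟩ := hgl
      have h1 : R = 1 + d * w := by omega
      have h2 : T * R = T + (m * g) * (l' * w) := by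
        rw [h1, hTo, hmo, hl']; ring
      rw [h2]
      exact Nat.add_modulus_mul_modEq_iff.mpr rfl
    have hord : orderOf (ga (m * g) n R T) = m * g := orderOf_ga hN hn hRn hTR
    set A := ga (m * g) n R T with hA
    set B := gb (m * g) n R T with hB
    have hAM : A ^ (m * g) = 1 := ga_pow _ _ _ _
    have hBn : B ^ n = A ^ T := gb_pow _ _ _ _
    have hBA : B * A * B⁻¹ = A ^ R := gb_conj _ _ _ _
    have hgen : Subgroup.closure ({A, B} : Set (P (m * g) n R T)) = ⊤ := closure_gen _ _ _ _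
    have hpowr : ∀ {X : Type} [Group X] (x : X), x ^ m = 1 → x ^ R = x ^ r := by
      intro X _ x hx
      exact pow_eq_pow_iff_modEq.2 (hRr.of_dvd (orderOf_dvd_of_pow_eq_one hx))
    obtain ⟨p, hpa, hpb⟩ := exists_lift (m * g) n R T (ga m n r T) (gb m n r T)
      (by rw [pow_mul, ga_pow, one_pow]) (gb_pow _ _ _ _)
      (by rw [gb_conj]; exact (hpowr _ (ga_pow _ _ _ _)).symm)
    -- `A ^ m` is central
    have hcenB : Commute B (A ^ m) := by
      have h1 : B * A ^ m * B⁻¹ = A ^ m := by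
        rw [← conj_pow, hBA, ← pow_mul]
        apply pow_eq_pow_iff_modEq.2
        rw [hord]
        obtain ⟨d', hd'⟩ := hgd
        have h1 : R = 1 + d * w := by omega
        have h2 : R * m = m + (m * g) * (d' * w) := by rw [h1]; nth_rewrite 1 [hd']; ring
        rw [h2]
        exact Nat.add_modulus_mul_modEq_iff.mpr rfl
      exact mul_inv_eq_iff_eq_mul.1 h1
    have hcen : A ^ m ∈ center (P (m * g) n R T) := by
      rw [mem_center_iff]
      intro x
      have hx : x ∈ Subgroup.closure ({A, B} : Set (P (m * g) n R T)) := by rw [hgen]; exact mem_top _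
      have hle : Subgroup.closure ({A, B} : Set (P (m * g) n R T)) ≤ centralizer {A ^ m} := by
        rw [Subgroup.closure_le]
        rintro z (rfl | rfl)
        · rw [SetLike.mem_coe, mem_centralizer_singleton_iff]
          exact (Commute.refl A).pow_right m
        · rw [SetLike.mem_coe, mem_centralizer_singleton_iff]
          exact hcenB
      exact mem_centralizer_singleton_iff.1 (hle hx)
    have hzc : zpowers (A ^ m) ≤ center (P (m * g) n R T) := by
      rw [zpowers_le]; exact hcen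
    have hnorm : (zpowers (A ^ m)).Normal := by
      constructor
      intro x hx y
      have := mem_center_iff.1 (hzc hx) y
      rw [this, mul_inv_cancel_right]
      exact hx
    -- the kernel
    have hker : p.ker = zpowers (A ^ m) := by
      apply le_antisymm
      · obtain ⟨q, hqa, hqb⟩ := exists_lift m n r T (A : P (m * g) n R T ⧸ zpowers (A ^ m))
          (B : P (m * g) n R T ⧸ zpowers (A ^ m))
          (by rw [← QuotientGroup.mk_pow, QuotientGroup.eq_one_iff]; exact mem_zpowers _)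
          (by rw [← QuotientGroup.mk_pow, hBn, QuotientGroup.mk_pow])
          (by
            rw [← hpowr (A : P (m * g) n R T ⧸ zpowers (A ^ m))
              (by rw [← QuotientGroup.mk_pow, QuotientGroup.eq_one_iff]; exact mem_zpowers _)]
            rw [← QuotientGroup.mk_pow, ← hBA]
            rfl)
        have hqp : q.comp p = QuotientGroup.mk' (zpowers (A ^ m)) := by
          apply hom_ext
          · rw [MonoidHom.comp_apply, hpa, hqa]; rfl
          · rw [MonoidHom.comp_apply, hpb, hqb]; rfl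
        intro x hx
        rw [MonoidHom.mem_ker] at hx
        have h1 : QuotientGroup.mk' (zpowers (A ^ m)) x = 1 := by
          rw [← hqp, MonoidHom.comp_apply, hx, map_one]
        exact (QuotientGroup.eq_one_iff x).1 h1
      · rw [zpowers_le, MonoidHom.mem_ker, map_pow, hpa, ga_pow]
    have hsurj : Function.Surjective p := by
      rw [← MonoidHom.range_eq_top, eq_top_iff, ← closure_gen m n r T, Subgroup.closure_le]
      rintro z (rfl | rfl)
      · exact ⟨A, hpa⟩
      · exact ⟨B, hpb⟩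
    have hcomm : A ^ m ∈ commutator (P (m * g) n R T) := by
      have h1 : A ^ (R - 1) ∈ commutator (P (m * g) n R T) := by
        have h2 : A ^ (R - 1) = ⁅B, A⁆ := by
          rw [commutatorElement_def, hBA, ← div_eq_mul_inv, eq_div_iff_mul_eq', ← pow_succ]
          congr 1; omega
        rw [h2]
        exact commutator_mem_commutator (mem_top _) (mem_top _)
      have h3 : A ^ d ∈ zpowers (A ^ (R - 1)) := by
        have := pow_gcd_mem A (R - 1) (m * g) hAM
        rwa [hRd] at this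
      have h4 : A ^ m = (A ^ d) ^ o := by rw [← pow_mul, mul_comm d o, ← hmo]
      rw [h4]
      exact pow_mem ((zpowers_le.2 h1) h3) _
    refine ⟨P (m * g) n R T, inferInstance, finite hN hn, p, ⟨hsurj, ?_, ?_⟩, ?_⟩
    · rw [hker]; exact hzc
    · rw [hker, zpowers_le]; exact hcomm
    · have hordm : orderOf (A ^ m) = g := by
        rw [orderOf_pow_of_dvd hm.ne' (by rw [hord]; exact dvd_mul_right m g), hord,
          Nat.mul_div_cancel_left _ hm]
      have : NeZero g := ⟨hg0.ne'⟩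
      have hc : IsCyclic p.ker := by rw [hker]; infer_instance
      have hcard : Nat.card p.ker = g := by rw [hker, Nat.card_zpowers, hordm]
      have hc2 : IsCyclic (Multiplicative (ZMod g)) := inferInstance
      exact ⟨mulEquivOfCyclicCardEq (by rw [hcard]; simp)⟩
  · intro Γ _ _ σ hσ
    have hmr : (ga m n r T) ^ m = 1 := ga_pow _ _ _ _
    obtain ⟨c, hc1, hc2, hc3, hc4⟩ := H69.SchurMetacyclic.exists_generator_ker σ hσ (ga m n r T) (gb m n r T)
      (closure_gen m n r T) m n (r : ℤ) (T : ℤ) (o : ℤ) hmr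
      (by rw [zpow_natCast]; exact gb_pow _ _ _ _) (by rw [zpow_natCast]; exact gb_conj _ _ _ _)
      (by
        intro i hi
        rw [← zpow_mul, ← orderOf_dvd_iff_zpow_eq_one, hordQ] at hi
        have h1 : (r : ℤ) - 1 = k * d := by
          have : r = 1 + k * d := by omega
          rw [this]; push_cast; ring
        rw [h1, hmo] at hi
        push_cast at hi
        have h2 : (o : ℤ) ∣ k * i := by
          have h3 : (d : ℤ) * o ∣ d * (k * i) := by
            calc (d : ℤ) * o = o * d := mul_comm _ _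
              _ ∣ (k : ℤ) * d * i := hi
              _ = d * (k * i) := by ring
          exact (mul_dvd_mul_iff_left (by exact_mod_cast hd0.ne')).1 h3
        exact (Nat.isCoprime_iff_coprime.2 hcop).dvd_of_dvd_mul_left h2)
    apply H69.CyclicSurj.exists_surjective_of_le_zpowers σ.ker g (c ^ (o : ℤ)) hc1
    rw [zpow_natCast, ← pow_mul]
    rw [zpow_natCast] at hc3
    have hc5 : c ^ (∑ i ∈ Finset.range n, r ^ i) = 1 := by
      rw [← zpow_natCast]
      push_cast
      exact hc4
    rw [← orderOf_dvd_iff_pow_eq_one] at hc2 hc3 hc5 ⊢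
    have h6 : orderOf c ∣ o * h := by rw [← hoh]; exact Nat.dvd_gcd hc2 hc5
    rw [← hg, ← Nat.gcd_mul_left]
    exact Nat.dvd_gcd (hTo ▸ hc3) h6

end Cfsg.Agent.S3967
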