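import Cfsg.Statements.S3968
import Cfsg.Agent.Lib.H82.Const
import Cfsg.Agent.Lib.H82.Deg
import Cfsg.Agent.Lib.H4.Integral
import Cfsg.Agent.Lib.H4.Eigen
import Cfsg.Agent.Lib.H4.CenterIndex

set_option autoImplicit false
open Cfsg

namespace Cfsg.Agent.S3968

open H18.CharBasic H18.CharOrtho H18.CharQuot
open scoped commutatorElement

/-- `χ` vanishes at noncentral elements of class size prime to `p`. -/
theorem vanish {G : Type*} [Group G] [Finite G] (p : ℕ) (hp : p.Prime) (χ : Cfsg.IrrCharacter G)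
    (hdeg : χ.1 1 = p) (hfaith : ∀ g : G, χ.1 g = χ.1 1 → g = 1) (hc : Subgroup.center G = ⊥)
    (g : G) (hg : g ≠ 1) (hcop : ¬ p ∣ (Subgroup.centralizer ({g} : Set G)).index) : χ.1 g = 0 := by
  obtain ⟨n, ρ, hρ, hρχ⟩ := χ.2
  have hfin : (Module.finrank ℂ (Fin n → ℂ)) = p := by
    have : ((Module.finrank ℂ (Fin n → ℂ) : ℕ) : ℂ) = (p : ℂ) := by
      rw [← ρ.char_one, hρχ, hdeg]
    exact_mod_cast this
  rcases H4.Integral.char_eq_zero_or_norm_eq ρ hρ g
    (by rw [hfin]; exact (Nat.Prime.coprime_iff_not_dvd hp).2 hcop) with h | h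
  · rw [hρχ] at h; exact h
  · exfalso
    obtain ⟨ω, hω⟩ := (H4.Eigen.norm_char_eq_iff ρ g).mp h
    apply hg
    have hmem : g ∈ Subgroup.center G := by
      rw [Subgroup.mem_center_iff]
      intro x
      have h1 : ρ (x * g) = ρ (g * x) := by
        rw [map_mul, map_mul, hω]
        ext v
        simp
      have h2 : ρ ((x * g) * (g * x)⁻¹) = 1 := by
        rw [map_mul, h1, ← map_mul, mul_inv_cancel, map_one]
      have h3 : (x * g) * (g * x)⁻¹ = 1 := by
        apply hfaith
        rw [← hρχ, Representation.character, Representation.character, h2, map_one ρ]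
      exact mul_inv_eq_one.1 h3
    rw [hc, Subgroup.mem_bot] at hmem
    exact hmem

/-- Let `p` be a prime and `G` a finite group with a faithful irreducible complex character of degree `p` (so `G` is an irreducible linear group in `p` variables). If `p ^ 2` divides the order of `G`, then the centre of `G` is nontrivial. -/
theorem result {G : Type*} [Group G] [Finite G] (p : ℕ) (hp : p.Prime) (χ : Cfsg.IrrCharacter G) (hdeg : χ.1 1 = p) (hfaith : ∀ g : G, χ.1 g = χ.1 1 → g = 1) (hdiv : p ^ 2 ∣ Nat.card G) : Subgroup.center G ≠ ⊥ := by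
  intro hc
  haveI : Fact p.Prime := ⟨hp⟩
  obtain ⟨P⟩ : Nonempty (Sylow p G) := inferInstance
  have hPdvd : p ^ 2 ∣ Nat.card ↥(P : Subgroup G) := P.pow_dvd_card_of_pow_dvd_card hdiv
  have hPpos : 0 < Nat.card ↥(P : Subgroup G) := Nat.card_pos
  have := Fintype.ofFinite G
  have := Fintype.ofFinite ↥(P : Subgroup G)
  -- zeros on central elements of P
  have hz : ∀ z : ↥(P : Subgroup G), z ∈ Subgroup.center ↥(P : Subgroup G) → z ≠ 1 → χ.1 z = 0 := by
    intro z hzc hz1
    apply vanish p hp χ hdeg hfaith hc _ (fun h => hz1 (Subtype.ext h))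
    intro hd
    have h1 : (P : Subgroup G) ≤ Subgroup.centralizer ({(z : G)} : Set G) := by
      intro x hx
      rw [Subgroup.mem_centralizer_singleton_iff]
      have := Subgroup.mem_center_iff.1 hzc ⟨x, hx⟩
      exact (congrArg Subtype.val this)
    exact P.not_dvd_index (hd.trans (Subgroup.index_dvd_of_le h1))
  -- the restriction to P
  set φ : ↥(P : Subgroup G) → ℂ := fun x => χ.1 x with hφ
  have hφc : IsCharacter ↥(P : Subgroup G) φ :=
    isCharacter_restrict (P : Subgroup G) (isCharacter_of_isIrr χ.2)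
  have hφ1 : φ 1 = p := hdeg
  have hφd : charDegree φ = p := H82.Deg.charDegree_eq_of hφ1
  -- no linear-only decomposition unless P abelian
  by_cases hab : ∀ a b : ↥(P : Subgroup G), a * b = b * a
  · -- P abelian
    obtain ⟨m, hm⟩ := inner_char_natCast hφc (isCharacter_one (G := ↥(P : Subgroup G)))
    have h1 : classInner φ (fun _ => 1) = (Nat.card ↥(P : Subgroup G) : ℂ)⁻¹ * p := by
      unfold classInner
      rw [Finset.sum_eq_single (1 : ↥(P : Subgroup G))]
      · simp [hφ1]
      · intro b _ hb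
        have : φ b = 0 := hz b (by
          rw [Subgroup.mem_center_iff]; intro g; exact hab g b) hb
        rw [this, zero_mul]
      · intro h; exact absurd (Finset.mem_univ _) h
    rw [h1] at hm
    have h2 : (p : ℂ) = ((Nat.card ↥(P : Subgroup G) * m : ℕ) : ℂ) := by
      push_cast
      rw [← hm]
      field_simp
    have h3 : p = Nat.card ↥(P : Subgroup G) * m := by exact_mod_cast h2
    have h4 : p ^ 2 ∣ p := hPdvd.trans ⟨m, h3⟩
    have h5 := Nat.le_of_dvd hp.pos h4
    nlinarith [hp.two_le]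
  · -- nonabelian
    obtain ⟨s, hs, hsum⟩ := exists_multiset hφc
    have hex : ∃ ψ ∈ s, ψ 1 ≠ 1 := by
      by_contra hcon
      push Not at hcon
      apply hab
      intro a b
      have hker : ∀ ψ ∈ s, ψ ⁅a, b⁆ = ψ 1 := by
        intro ψ hψ
        obtain ⟨f, hf⟩ := exists_hom_of_degree_one (isCharacter_of_isIrr (hs ψ hψ)) (hcon ψ hψ)
        rw [hf]
        simp [commutatorElement_def, mul_comm]
      have h1 : φ ⁅a, b⁆ = φ 1 := by
        rw [hsum]
        have e1 : ∀ t : Multiset (↥(P : Subgroup G) → ℂ), (∀ ψ ∈ t, ψ ⁅a, b⁆ = ψ 1) →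
            t.sum ⁅a, b⁆ = t.sum 1 := by
          intro t
          induction t using Multiset.induction_on with
          | empty => intro _; simp
          | cons ψ t ih =>
            intro ht
            rw [Multiset.sum_cons, Pi.add_apply, Pi.add_apply, ht ψ (Multiset.mem_cons_self _ _),
              ih (fun θ hθ => ht θ (Multiset.mem_cons_of_mem hθ))]
        exact e1 s hker
      have h2 : ((⁅a, b⁆ : ↥(P : Subgroup G)) : G) = 1 := hfaith _ h1
      have h3 : ⁅a, b⁆ = 1 := Subtype.ext h2
      exact commutatorElement_eq_one_iff_mul_comm.1 h3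
    obtain ⟨ψ, hψs, hψ1⟩ := hex
    have hψ := hs ψ hψs
    -- degree of ψ
    have hd1 : charDegree ψ ∣ Nat.card ↥(P : Subgroup G) := H82.Deg.degree_dvd_card ⟨ψ, hψ⟩
    obtain ⟨k, hk⟩ := IsPGroup.iff_card.1 P.isPGroup'
    rw [hk] at hd1
    obtain ⟨j, hj, hj2⟩ := (Nat.dvd_prime_pow hp).1 hd1
    have hj0 : j ≠ 0 := by
      rintro rfl
      apply hψ1
      rw [← H82.Deg.coe_charDegree (isCharacter_of_isIrr hψ), hj2]
      simp
    have hple : p ≤ charDegree ψ := by
      rw [hj2]
      exact Nat.le_self_pow hj0 p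
    -- φ = ψ + rest
    obtain ⟨t, ht⟩ := Multiset.exists_cons_of_mem hψs
    have hrest : IsCharacter ↥(P : Subgroup G) t.sum :=
      isCharacter_multiset_sum t (fun θ hθ => isCharacter_of_isIrr (hs θ (by
        rw [ht]; exact Multiset.mem_cons_of_mem hθ)))
    have hsum2 : φ = ψ + t.sum := by rw [hsum, ht, Multiset.sum_cons]
    have hdd : charDegree φ = charDegree ψ + charDegree t.sum := by
      rw [hsum2]; exact H82.Const.charDegree_add (isCharacter_of_isIrr hψ) hrest
    have hz0 : t.sum = 0 := H82.Const.eq_zero_of_charDegree hrest (by omega)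
    rw [hz0, add_zero] at hsum2
    -- a nontrivial central element
    haveI : Nontrivial ↥(P : Subgroup G) := by
      rw [← Finite.one_lt_card_iff_nontrivial]
      have := Nat.le_of_dvd hPpos hPdvd
      nlinarith [hp.two_le]
    have hcn := P.isPGroup'.bot_lt_center
    obtain ⟨z, hzc, hz1⟩ := SetLike.exists_of_lt hcn
    rw [Subgroup.mem_bot] at hz1
    have hφz := hz z hzc hz1
    obtain ⟨n, ρ, hρ, hρχ⟩ := hψ
    obtain ⟨c, hcs⟩ := H4.CenterIndex.exists_scalar_of_center ρ hρ hzc
    have hn := (H4.Eigen.norm_char_eq_iff ρ z).2 ⟨c, hcs⟩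
    rw [hρχ, ← hsum2] at hn
    change ‖φ z‖ = _ at hn
    rw [show φ z = 0 from hφz] at hn
    simp only [norm_zero] at hn
    have h7 : ((Module.finrank ℂ (Fin n → ℂ) : ℕ) : ℂ) = p := by
      rw [← ρ.char_one, hρχ, ← hsum2, hφ1]
    have h8 : Module.finrank ℂ (Fin n → ℂ) = p := by exact_mod_cast h7
    rw [h8] at hn
    have := hp.pos
    have h9 : (p : ℝ) = 0 := hn.symm
    have h10 : p = 0 := by exact_mod_cast h9
    omega

end Cfsg.Agent.S3968
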