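import Cfsg.Statements.S3970
import Cfsg.Agent.Lib.H69.AbSylow

set_option autoImplicit false
open Cfsg

namespace Cfsg.Agent.S3970

universe u

/-- the hypothesis on Sylow subgroups -/
def Hyp (G : Type u) [Group G] [Finite G] : Prop :=
  ∀ p : ℕ, p.Prime → p ∣ Nat.card G → (∃ q : ℕ, q.Prime ∧ q ∣ Nat.card G ∧ p < q) →
    ∀ P : Sylow p G, IsMulCommutative (P : Subgroup G) ∧ Group.rank (P : Subgroup G) ≤ 2

theorem main (k : ℕ) : ∀ (G : Type u) [Group G] [Finite G], Nat.card G = k → Hyp G →
    ¬ 12 ∣ Nat.card G → Group.IsSolvable G := by
  induction k using Nat.strong_induction_on with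
  | _ k ih =>
    intro G _ _ hk h h12
    by_cases hG1 : Nat.card G = 1
    · have : Subsingleton G := (Nat.card_eq_one_iff_unique.1 hG1).1
      infer_instance
    -- the smallest prime divisor
    set p := Nat.minFac (Nat.card G) with hp
    have hpp : p.Prime := Nat.minFac_prime hG1
    have hpf : Fact p.Prime := ⟨hpp⟩
    have hpG : p ∣ Nat.card G := Nat.minFac_dvd _
    have hmin : ∀ q : ℕ, q.Prime → q ∣ Nat.card G → p ≤ q := fun q hq hqG =>
      Nat.minFac_le_of_dvd hq.two_le hqG
    by_cases hlarge : ∃ q : ℕ, q.Prime ∧ q ∣ Nat.card G ∧ p < q
    · -- normal p-complement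
      obtain ⟨P⟩ : Nonempty (Sylow p G) := inferInstance
      obtain ⟨hab, hrk⟩ := h p hpp hpG hlarge P
      have hprime : ∀ q : ℕ, q.Prime → q ∣ Nat.card G → ∀ i, 1 ≤ i → i ≤ 2 → q ∣ p ^ i - 1 → q = p + 1 ∧ i = 2 := by
        intro q hq hqG i hi1 hi2 hqi
        have hpq := hmin q hq hqG
        have h2 := hpp.two_le
        interval_cases i
        · exfalso
          rw [pow_one] at hqi
          have := Nat.le_of_dvd (by omega) hqi
          omega
        · have h3 : p ^ 2 - 1 = (p - 1) * (p + 1) := by
            obtain ⟨m, hm⟩ : ∃ m, p = m + 1 := ⟨p - 1, by omega⟩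
            rw [hm, Nat.add_sub_cancel, show (m + 1) ^ 2 = m * (m + 1 + 1) + 1 by ring]
            simp
          rw [h3] at hqi
          rcases (Nat.Prime.dvd_mul hq).1 hqi with h4 | h4
          · exfalso
            have := Nat.le_of_dvd (by omega) h4
            omega
          · refine ⟨?_, rfl⟩
            have h5 := Nat.le_of_dvd (by omega) h4
            by_contra hne
            have h6 : q = p := by omega
            rw [h6] at h4
            have h7 : p ∣ 1 := (Nat.dvd_add_right (dvd_refl p)).1 h4
            have := Nat.le_of_dvd (by norm_num) h7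
            omega
      have hnpc : HasNormalPComplement p G := by
        by_cases h23 : p = 2 ∧ 3 ∣ Nat.card G
        · -- Sylow 2-subgroup of order 2
          obtain ⟨hp2, h3⟩ := h23
          have h4 : ¬ 4 ∣ Nat.card G := by
            intro h4
            apply h12
            exact Nat.Coprime.mul_dvd_of_dvd_of_dvd (by norm_num : Nat.Coprime 4 3) h4 h3
          have hPc : IsCyclic (P : Subgroup G) := by
            obtain ⟨n, hn⟩ := P.isPGroup'.exists_card_eq
            have hn1 : n ≤ 1 := by
              by_contra hn1
              push Not at hn1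
              apply h4
              have h5 : p ^ 2 ∣ Nat.card (P : Subgroup G) := by rw [hn]; exact pow_dvd_pow p hn1
              have h6 := h5.trans (Subgroup.card_subgroup_dvd_card (P : Subgroup G))
              rw [hp2] at h6
              simpa using h6
            interval_cases n
            · rw [pow_zero] at hn
              have : Subsingleton (P : Subgroup G) := (Nat.card_eq_one_iff_unique.1 hn).1
              infer_instance
            · rw [pow_one] at hn
              exact isCyclic_of_prime_card hn
          have hrk1 : Group.rank (P : Subgroup G) ≤ 1 := by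
            obtain ⟨g, hg⟩ := hPc.exists_generator
            have h5 : Subgroup.closure ((({g} : Finset (P : Subgroup G)) : Set (P : Subgroup G))) = ⊤ := by
              rw [Finset.coe_singleton, ← Subgroup.zpowers_eq_closure, Subgroup.eq_top_iff']
              exact hg
            have h6 := Group.rank_le h5
            simpa using h6
          apply H69.AbSylow.hasNPC P hab hrk1
          intro i hi1 hi2
          have : i = 1 := by omega
          subst this
          rw [pow_one, hp2]
          norm_num
        · apply H69.AbSylow.hasNPC P hab hrk
          intro i hi1 hi2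
          rw [← Nat.coprime_comm, Nat.Coprime, Nat.gcd_comm]
          by_contra hne
          obtain ⟨q, hq, hqd⟩ := Nat.exists_prime_and_dvd hne
          have hq1 : q ∣ Nat.card G := hqd.trans (Nat.gcd_dvd_left _ _)
          have hq2 : q ∣ p ^ i - 1 := hqd.trans (Nat.gcd_dvd_right _ _)
          obtain ⟨hqp, -⟩ := hprime q hq hq1 i hi1 hi2 hq2
          apply h23
          rcases hpp.eq_two_or_odd' with h2 | h2
          · exact ⟨h2, by rw [h2] at hqp; rw [hqp] at hq1; exact hq1⟩
          · exfalso
            have h3 : Even q := by rw [hqp]; exact h2.add_one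
            have h4 : q = 2 := (Nat.Prime.even_iff hq).1 h3
            have := hpp.two_le
            omega
      obtain ⟨P', N, hN, hc⟩ := hnpc
      have hidx : N.index = Nat.card (P' : Subgroup G) := hc.symm.index_eq_card
      obtain ⟨n, hn⟩ := P'.isPGroup'.exists_card_eq
      have hNG : Nat.card N ∣ Nat.card G := Subgroup.card_subgroup_dvd_card N
      have hcardN : Nat.card N * p ^ n = Nat.card G := by
        rw [← hn, ← hidx]; exact N.card_mul_index
      have hpN : ¬ p ∣ Nat.card N := by
        have h5 := P'.not_dvd_index
        have h6 : (P' : Subgroup G).index = Nat.card N := hc.index_eq_card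
        rwa [h6] at h5
      have hn0 : n ≠ 0 := by
        rintro rfl
        rw [pow_zero, mul_one] at hcardN
        rw [hcardN] at hpN
        exact hpN hpG
      have hlt : Nat.card N < k := by
        rw [← hk, ← hcardN]
        have h5 : 0 < Nat.card N := Nat.card_pos
        have h6 : 1 < p ^ n := Nat.one_lt_pow hn0 hpp.one_lt
        nlinarith
      have hNs : Group.IsSolvable N := by
        apply ih (Nat.card N) hlt N rfl
        · intro q hq hqN hex Q
          have hqf : Fact q.Prime := ⟨hq⟩
          obtain ⟨r, hr, hrN, hqr⟩ := hex
          have hqp : q ≠ p := by rintro rfl; exact hpN hqN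
          -- Q maps to a Sylow subgroup of G
          have hcq : Nat.card ((Q : Subgroup N).map N.subtype) = Nat.card (Q : Subgroup N) :=
            (Nat.card_congr ((Q : Subgroup N).equivMapOfInjective _ N.subtype_injective).toEquiv).symm
          have hQmax : ¬ q ∣ ((Q : Subgroup N).map N.subtype).index := by
            have h5 := Subgroup.card_mul_index ((Q : Subgroup N).map N.subtype)
            have h6 := Subgroup.card_mul_index (Q : Subgroup N)
            rw [hcq, ← hcardN, ← h6, mul_assoc] at h5
            have h7 := Nat.eq_of_mul_eq_mul_left (Nat.card_pos (α := (Q : Subgroup N))) h5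
            rw [h7]
            intro h8
            rcases (Nat.Prime.dvd_mul hq).1 h8 with h9 | h9
            · exact Q.not_dvd_index h9
            · exact hqp ((Nat.prime_dvd_prime_iff_eq hq hpp).1 (hq.dvd_of_dvd_pow h9))
          have hQp : IsPGroup q ((Q : Subgroup N).map N.subtype) := Q.isPGroup'.map _
          let Q' : Sylow q G := hQp.toSylow hQmax
          obtain ⟨h5, h6⟩ := h q hq (hqN.trans hNG) ⟨r, hr, hrN.trans hNG, hqr⟩ Q'
          have hQ' : (Q' : Subgroup G) = (Q : Subgroup N).map N.subtype := rfl
          have e : (Q : Subgroup N) ≃* (Q' : Subgroup G) :=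
            (Q : Subgroup N).equivMapOfInjective _ N.subtype_injective
          refine ⟨⟨⟨fun a b => ?_⟩⟩, ?_⟩
          · apply e.injective
            rw [map_mul, map_mul]
            exact h5.is_comm.comm _ _
          · rw [Group.rank_congr e]
            exact h6
        · intro h13
          exact h12 (h13.trans hNG)
      have hQs : Group.IsSolvable (G ⧸ N) := by
        have hpq : IsPGroup p (G ⧸ N) := by
          apply IsPGroup.of_card (n := n)
          rw [← hn, ← hidx]; rfl
        have := hpq.isNilpotent
        infer_instance
      rw [Group.isSolvable_iff_subgroup_quotient N]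
      exact ⟨hNs, hQs⟩
    · -- G is a p-group
      push Not at hlarge
      have hpq : IsPGroup p G := by
        rw [IsPGroup.iff_card]
        refine ⟨(Nat.card G).primeFactorsList.length, ?_⟩
        apply Nat.eq_prime_pow_of_unique_prime_dvd Nat.card_pos.ne'
        intro q hq hqG
        exact le_antisymm (hlarge q hq hqG) (hmin q hq hqG)
      have := hpq.isNilpotent
      infer_instance

/-- Let `G` be a finite group such that for every prime `p` dividing its order, other than the largest such prime, the Sylow `p`-subgroups are abelian and generated by at most two elements, and suppose `12` does not divide the order of `G`. Then `G` is solvable. In particular a group of cube-free order not divisible by `12` is solvable. -/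
theorem result {G : Type*} [Group G] [Finite G] (h : ∀ p : ℕ, p.Prime → p ∣ Nat.card G → (∃ q : ℕ, q.Prime ∧ q ∣ Nat.card G ∧ p < q) → ∀ P : Sylow p G, IsMulCommutative (P : Subgroup G) ∧ Group.rank (P : Subgroup G) ≤ 2) (h12 : ¬ 12 ∣ Nat.card G) : Group.IsSolvable G :=
  main _ G rfl h h12

end Cfsg.Agent.S3970
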