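import Cfsg.Statements.S3971
import Cfsg.Agent.Lib.H76.TwoGen

set_option autoImplicit false
open Cfsg
open scoped Pointwise

namespace Cfsg.Agent.S3971

/-- Let `G` be a finite group of order `2 ^ a * n` with `n` odd and not divisible by `3`, and suppose `G` has an element of order `2 ^ (a - 1)` (so a Sylow `2`-subgroup has a cyclic subgroup of index at most `2`). Then `G` has a normal subgroup of order `n`. -/
theorem result {G : Type*} [Group G] [Finite G] (a n : ℕ) (hG : Nat.card G = 2 ^ a * n) (hn : Odd n) (h3 : ¬ 3 ∣ n) (hx : ∃ x : G, orderOf x = 2 ^ (a - 1)) : ∃ N : Subgroup G, N.Normal ∧ Nat.card N = n := by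
  have h2f : Fact (Nat.Prime 2) := ⟨Nat.prime_two⟩
  obtain ⟨x, hx⟩ := hx
  rcases Nat.eq_zero_or_pos a with rfl | ha
  · exact ⟨⊤, inferInstance, by rw [Subgroup.card_top, hG, pow_zero, one_mul]⟩
  have h2n : ¬ 2 ∣ n := by rwa [← even_iff_two_dvd, Nat.not_even_iff_odd]
  -- order of Sylow subgroups
  have hPcard : ∀ P : Sylow 2 G, Nat.card (P : Subgroup G) = 2 ^ a := by
    intro P
    have h1 : 2 ^ a ∣ Nat.card (P : Subgroup G) := P.pow_dvd_card_of_pow_dvd_card (by rw [hG]; exact dvd_mul_right _ _)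
    obtain ⟨k, hk⟩ := P.isPGroup'.exists_card_eq
    have h2 : Nat.card (P : Subgroup G) ∣ 2 ^ a := by
      have h4 := Subgroup.card_subgroup_dvd_card (P : Subgroup G)
      rw [hG] at h4
      apply Nat.Coprime.dvd_of_dvd_mul_right _ h4
      rw [hk]
      exact Nat.Coprime.pow_left _ ((Nat.Prime.coprime_iff_not_dvd Nat.prime_two).2 h2n)
    exact Nat.dvd_antisymm h2 h1
  have hcyc : IsPGroup 2 (Subgroup.zpowers x) := IsPGroup.of_card (n := a - 1) (by rw [Nat.card_zpowers, hx])
  obtain ⟨P₀, hP₀⟩ := hcyc.exists_le_sylow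
  -- every 2-subgroup is 2-generated
  have key : ∀ D : Subgroup G, IsPGroup 2 D → (frattini D).index ∣ 2 ^ 2 := by
    intro D hD
    obtain ⟨P, hP⟩ := hD.exists_le_sylow
    obtain ⟨g, hg⟩ := MulAction.exists_smul_eq G P₀ P
    -- y := g x g⁻¹ ∈ P
    let y := g * x * g⁻¹
    have hyo : orderOf y = 2 ^ (a - 1) := by
      have : y = MulAut.conj g x := rfl
      rw [this, MulEquiv.orderOf_eq, hx]
    have hyP : Subgroup.zpowers y ≤ (P : Subgroup G) := by
      rw [Subgroup.zpowers_le, ← hg]
      have : MulAut.conj g • x ∈ (MulAut.conj g • (P₀ : Subgroup G)) :=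
        Subgroup.smul_mem_pointwise_smul _ _ _ (hP₀ (Subgroup.mem_zpowers x))
      exact this
    -- index in P is 2
    have hidx : (Subgroup.zpowers y).relIndex (P : Subgroup G) = 2 := by
      have h1 := Subgroup.card_mul_index ((Subgroup.zpowers y).subgroupOf (P : Subgroup G))
      rw [Nat.card_congr (Subgroup.subgroupOfEquivOfLe hyP).toEquiv, Nat.card_zpowers, hyo, hPcard P] at h1
      have h4 : 2 ^ a = 2 ^ (a - 1) * 2 := by
        rw [← pow_succ]; congr 1; omega
      rw [h4] at h1
      exact Nat.eq_of_mul_eq_mul_left (by positivity) h1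
    have hmeta : IsMetacyclic (P : Subgroup G) := by
      have hn : ((Subgroup.zpowers y).subgroupOf (P : Subgroup G)).Normal :=
        Subgroup.normal_of_index_eq_two hidx
      refine ⟨(Subgroup.zpowers y).subgroupOf (P : Subgroup G), hn, ?_, ?_⟩
      · exact isCyclic_of_surjective (Subgroup.subgroupOfEquivOfLe hyP).symm.toMonoidHom
          (Subgroup.subgroupOfEquivOfLe hyP).symm.surjective
      · exact isCyclic_of_prime_card (p := 2) hidx
    have hmetaD : IsMetacyclic D :=
      H76.TwoGen.metacyclic_of_injective (Subgroup.inclusion hP) (Subgroup.inclusion_injective hP) hmeta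
    obtain ⟨u, v, huv⟩ := H76.TwoGen.metacyclic_closure hmetaD
    exact H76.TwoGen.index_frattini_dvd hD huv
  have h1 := H76.TwoGen.hasNPC (p := 2) key (by
    rw [hG]
    norm_num
    apply Nat.Coprime.mul_left
    · exact Nat.Coprime.pow_left _ (by norm_num)
    · exact (Nat.Coprime.symm ((Nat.Prime.coprime_iff_not_dvd Nat.prime_three).2 h3)))
  obtain ⟨P, N, hN, hc⟩ := h1
  refine ⟨N, hN, ?_⟩
  have h4 := hc.card_mul_card
  rw [hPcard P, hG, mul_comm] at h4
  exact Nat.eq_of_mul_eq_mul_left (by positivity) h4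

end Cfsg.Agent.S3971
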