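import Cfsg.Statements.S3973
import Cfsg.Agent.Lib.H69.SchurRank

set_option autoImplicit false
open Cfsg

namespace Cfsg.Agent.S3973

open H69.SchurUniv H69.SchurCover H69.SchurRank

/-- the kernel of `Ext f → Q` is generated by the images of the relators. -/
theorem ker_le_closure {ι : Type*} (rels : Set (FreeGroup ι)) :
    (pr (PresentedGroup.mk rels)).ker ≤
      Subgroup.closure ((QuotientGroup.mk : FreeGroup ι → Ext (PresentedGroup.mk rels)) '' rels) := by
  set f := PresentedGroup.mk rels with hf
  have hkerf : f.ker = Subgroup.normalClosure rels := QuotientGroup.ker_mk' _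
  set H := Subgroup.closure ((QuotientGroup.mk : FreeGroup ι → Ext f) '' rels) with hH
  have hHK : H ≤ (pr f).ker := by
    rw [hH, Subgroup.closure_le]
    rintro _ ⟨r, hr, rfl⟩
    have : r ∈ f.ker := by rw [hkerf]; exact Subgroup.subset_normalClosure hr
    exact this
  have hHn : H.Normal := normal_of_le_ker f hHK
  have h1 : f.ker ≤ H.comap (QuotientGroup.mk' (relSub f)) := by
    refine hkerf.le.trans ?_
    apply Subgroup.normalClosure_le_normal
    intro r hr
    exact Subgroup.subset_closure ⟨r, hr, rfl⟩
  intro x hx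
  obtain ⟨x, rfl⟩ := QuotientGroup.mk_surjective x
  exact h1 hx

/-- If a finite group is presented by `n` generators and a finite set of `r` relators, then its Schur multiplier can be generated by `r - n` elements. In particular a finite group with a presentation having as many relators as generators has trivial Schur multiplier. -/
theorem result (n : ℕ) (rels : Finset (FreeGroup (Fin n))) [Finite (PresentedGroup (rels : Set (FreeGroup (Fin n))))] {A : Type*} [CommGroup A] [Finite A] (hA : Cfsg.HasSchurMultiplier (PresentedGroup (rels : Set (FreeGroup (Fin n)))) A) : Group.rank A ≤ rels.card - n := by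
  let f : FreeGroup (Fin n) →* PresentedGroup (rels : Set (FreeGroup (Fin n))) := PresentedGroup.mk _
  have hf : Function.Surjective f := PresentedGroup.mk_surjective _
  obtain ⟨e⟩ := nonempty_equiv_M hA f hf
  -- relators as elements of the kernel
  have hrel : ∀ r ∈ rels, (QuotientGroup.mk (r : FreeGroup (Fin n)) : Ext f) ∈ (pr f).ker := by
    intro r hr
    have hkerf : f.ker = Subgroup.normalClosure (rels : Set (FreeGroup (Fin n))) := QuotientGroup.ker_mk' _
    have : (r : FreeGroup (Fin n)) ∈ f.ker := by rw [hkerf]; exact Subgroup.subset_normalClosure hr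
    exact this
  let v : {r // r ∈ rels} → Additive (pr f).ker := fun r => Additive.ofMul ⟨_, hrel r.1 r.2⟩
  let ρ : ({r // r ∈ rels} →₀ ℤ) →ₗ[ℤ] Additive (pr f).ker := Finsupp.linearCombination ℤ v
  have hρ : Function.Surjective ρ := by
    rw [← LinearMap.range_eq_top, Finsupp.range_linearCombination, eq_top_iff]
    intro k _
    have h1 := ker_le_closure (rels : Set (FreeGroup (Fin n))) (Additive.toMul k).2
    have key : ∀ x : Ext f, x ∈ Subgroup.closure ((QuotientGroup.mk : FreeGroup (Fin n) → Ext f) '' rels) →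
        ∃ hx : x ∈ (pr f).ker, (Additive.ofMul ⟨x, hx⟩ : Additive (pr f).ker) ∈ Submodule.span ℤ (Set.range v) := by
      intro x hx
      induction hx using Subgroup.closure_induction with
      | mem x hx =>
        obtain ⟨r, hr, rfl⟩ := hx
        exact ⟨hrel r hr, Submodule.subset_span ⟨⟨r, hr⟩, rfl⟩⟩
      | one => exact ⟨Subgroup.one_mem _, Submodule.zero_mem _⟩
      | mul x y _ _ hx hy =>
        obtain ⟨hx1, hx2⟩ := hx
        obtain ⟨hy1, hy2⟩ := hy
        exact ⟨Subgroup.mul_mem _ hx1 hy1, Submodule.add_mem _ hx2 hy2⟩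
      | inv x _ hx =>
        obtain ⟨hx1, hx2⟩ := hx
        exact ⟨Subgroup.inv_mem _ hx1, Submodule.neg_mem _ hx2⟩
    obtain ⟨hx, hk⟩ := key _ h1
    exact hk
  let γ : ({r // r ∈ rels} →₀ ℤ) →ₗ[ℤ] (Fin n →₀ ℤ) := (alpha f).comp ρ
  have hrange : LinearMap.range γ = N f := by
    rw [LinearMap.range_comp, LinearMap.range_eq_top.2 hρ, Submodule.map_top]
  have h1 : Module.finrank ℤ (LinearMap.range γ) = n := by
    rw [hrange, finrank_N f hf]
    simp
  have h2 := Submodule.finrank_quotient_add_finrank (LinearMap.ker γ)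
  have h3 : Module.finrank ℤ ({r // r ∈ rels} →₀ ℤ) = rels.card := by
    rw [Module.finrank_finsupp_self]
    simp
  rw [(LinearMap.quotKerEquivRange γ).finrank_eq, h1, h3] at h2
  -- the surjection `ker γ → M`
  let φ : Multiplicative (LinearMap.ker γ) →* M f := MonoidHom.mk' (fun x =>
    ⟨((Additive.toMul (ρ (Multiplicative.toAdd x).1) : (pr f).ker) : Ext f),
      (alpha_eq_zero_iff f _).1 (Multiplicative.toAdd x).2⟩) (by
      intro x y
      apply Subtype.ext
      show ((Additive.toMul (ρ ((Multiplicative.toAdd x).1 + (Multiplicative.toAdd y).1)) : (pr f).ker) : Ext f) = _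
      rw [map_add]
      rfl)
  have hφ : Function.Surjective φ := by
    rintro ⟨m, hm⟩
    obtain ⟨x, hx⟩ := hρ (Additive.ofMul ⟨m, hm.1⟩)
    have hxk : x ∈ LinearMap.ker γ := by
      rw [LinearMap.mem_ker]
      show alpha f (ρ x) = 0
      rw [hx, alpha_eq_zero_iff]
      exact hm
    refine ⟨Multiplicative.ofAdd ⟨x, hxk⟩, Subtype.ext ?_⟩
    show ((Additive.toMul (ρ x) : (pr f).ker) : Ext f) = m
    rw [hx]
    rfl
  have h4 : Group.rank (M f) ≤ Module.finrank ℤ (LinearMap.ker γ) := rank_le_finrank φ hφ
  rw [Group.rank_congr e]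
  omega

end Cfsg.Agent.S3973
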