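import Cfsg.Statements.S3976
import Cfsg.Agent.Lib.H69.SubgroupCount

set_option autoImplicit false
open Cfsg
open scoped Pointwise

namespace Cfsg.Agent.S3976

/-- Let `p` be a prime and `G` a group of order `p ^ m`. For every `s ≤ m` the number of normal subgroups of `G` of order `p ^ s` is congruent to `1` modulo `p`. -/
theorem result {G : Type*} [Group G] [Finite G] (p m s : ℕ) (hp : p.Prime) (hG : Nat.card G = p ^ m) (hs : s ≤ m) : Nat.card {H : Subgroup G // H.Normal ∧ Nat.card H = p ^ s} ≡ 1 [MOD p] := by
  classical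
  have : Fact p.Prime := ⟨hp⟩
  have h1 := H69.SubgroupCount.card_modEq_one (G := G) p s hp (by rw [hG]; exact pow_dvd_pow p hs)
  have hcard : ∀ (g : ConjAct G) (H : Subgroup G), Nat.card (g • H : Subgroup G) = Nat.card H := by
    intro g H
    exact (Nat.card_congr (Subgroup.equivSMul g H).toEquiv).symm
  let inst : MulAction (ConjAct G) {H : Subgroup G // Nat.card H = p ^ s} :=
    { smul := fun g H => ⟨g • H.1, by rw [hcard]; exact H.2⟩
      one_smul := fun H => Subtype.ext (one_smul _ H.1)
      mul_smul := fun g h H => Subtype.ext (mul_smul g h H.1) }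
  have hpG : IsPGroup p (ConjAct G) := IsPGroup.of_card (n := m) hG
  have h2 := hpG.card_modEq_card_fixedPoints {H : Subgroup G // Nat.card H = p ^ s}
  have h3 : Nat.card (MulAction.fixedPoints (ConjAct G) {H : Subgroup G // Nat.card H = p ^ s}) =
      Nat.card {H : Subgroup G // H.Normal ∧ Nat.card H = p ^ s} := by
    apply Nat.card_congr
    refine ⟨fun H => ⟨H.1.1, ?_, H.1.2⟩, fun H => ⟨⟨H.1, H.2.2⟩, ?_⟩, fun H => rfl, fun H => rfl⟩
    · constructor
      intro n hn g
      have h4 : (ConjAct.toConjAct g) • H.1.1 = H.1.1 := congrArg Subtype.val (H.2 (ConjAct.toConjAct g))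
      have h5 : (ConjAct.toConjAct g) • n ∈ (ConjAct.toConjAct g) • H.1.1 :=
        Subgroup.smul_mem_pointwise_smul _ _ _ hn
      rw [h4, ConjAct.smul_def, ConjAct.ofConjAct_toConjAct] at h5
      exact h5
    · intro g
      apply Subtype.ext
      have := H.2.1
      exact Subgroup.Normal.conjAct this g
  rw [← h3]
  exact h2.symm.trans h1

end Cfsg.Agent.S3976
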