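import Cfsg.Statements.S3977
import Cfsg.Agent.Lib.H69.TwoGroupCyclic
import Cfsg.Agent.Lib.H24.OddPGroup

set_option autoImplicit false
open Cfsg

namespace Cfsg.Agent.S3977

/-- Let `p` be a prime and `G` a group of order `p ^ m` which has exactly one subgroup of order `p ^ s`, where `1 ≤ s < m`, and where `s ≥ 2` if `p = 2`. Then `G` is cyclic. (For `p = 2` and `s = 1` the generalized quaternion groups also occur; that case is the classical criterion for a unique involution.) -/
theorem result {G : Type*} [Group G] [Finite G] (p m s : ℕ) (hp : p.Prime) (hG : Nat.card G = p ^ m) (hs : 1 ≤ s) (hsm : s < m) (h2 : p ≠ 2 ∨ 2 ≤ s) (huniq : ∀ H K : Subgroup G, Nat.card H = p ^ s → Nat.card K = p ^ s → H = K) : IsCyclic G := by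
  have hpf : Fact p.Prime := ⟨hp⟩
  have hpG : IsPGroup p G := IsPGroup.of_card hG
  have hsdvd : p ^ s ∣ Nat.card G := by rw [hG]; exact pow_dvd_pow p hsm.le
  obtain ⟨H, hH⟩ := Sylow.exists_subgroup_card_pow_prime (G := G) p hsdvd
  have hmemH : ∀ x : G, x ^ p ^ s = 1 → x ∈ H := by
    intro x hx
    obtain ⟨c, hc, hc'⟩ := (Nat.dvd_prime_pow hp).1 (orderOf_dvd_of_pow_eq_one hx)
    obtain ⟨K, hK, hK'⟩ := Sylow.exists_subgroup_card_pow_prime_le p hsdvd (Subgroup.zpowers x)
      (by rw [Nat.card_zpowers, hc']) hc
    rw [huniq H K hH hK]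
    exact hK' (Subgroup.mem_zpowers x)
  obtain ⟨x, hx⟩ : ∃ x, x ∉ H := by
    by_contra h
    push Not at h
    have h1 : H = ⊤ := (Subgroup.eq_top_iff' H).2 h
    rw [h1, Subgroup.card_top, hG] at hH
    exact hsm.ne' (Nat.pow_right_injective hp.two_le hH)
  have hHx : H ≤ Subgroup.zpowers x := by
    have h1 : ∃ c, orderOf x = p ^ c := by
      obtain ⟨c, hc, hc'⟩ := (Nat.dvd_prime_pow hp).1 (show orderOf x ∣ p ^ m by
        rw [← hG]; exact orderOf_dvd_natCard x)
      exact ⟨c, hc'⟩
    obtain ⟨c, hc⟩ := h1
    have h3 : s < c := by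
      by_contra h
      push Not at h
      apply hx
      apply hmemH
      apply orderOf_dvd_iff_pow_eq_one.1
      rw [hc]
      exact pow_dvd_pow p h
    obtain ⟨K, hK⟩ := Sylow.exists_subgroup_card_pow_prime (G := Subgroup.zpowers x) (n := s) p (by
      rw [Nat.card_zpowers, hc]; exact pow_dvd_pow p h3.le)
    have h4 : K.map (Subgroup.zpowers x).subtype = H := by
      apply huniq _ _ _ hH
      rw [Nat.card_congr (K.equivMapOfInjective _ (Subgroup.zpowers x).subtype_injective).toEquiv.symm, hK]
    rw [← h4]
    rintro _ ⟨y, hy, rfl⟩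
    exact y.2
  have hHc : IsCyclic H := by
    have h1 : IsCyclic (H.subgroupOf (Subgroup.zpowers x)) := inferInstance
    exact isCyclic_of_surjective (Subgroup.subgroupOfEquivOfLe hHx).toMonoidHom
            (Subgroup.subgroupOfEquivOfLe hHx).surjective
  by_cases hp2 : p = 2
  · subst hp2
    have hs2 : 2 ≤ s := by
      rcases h2 with h | h
      · exact absurd rfl h
      · exact h
    obtain ⟨K, hK⟩ := Sylow.exists_subgroup_card_pow_prime (G := H) (n := 2) 2 (by
      rw [hH]; exact pow_dvd_pow 2 hs2)
    have hKc : Nat.card (K.map H.subtype) = 4 := by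
      rw [Nat.card_congr (K.equivMapOfInjective _ H.subtype_injective).toEquiv.symm, hK]
      norm_num
    refine H69.TwoGroupCyclic.isCyclic_of_four hpG (K.map H.subtype) hKc ?_ ?_
    · have h1 : IsCyclic K := inferInstance
      exact isCyclic_of_surjective (K.equivMapOfInjective _ H.subtype_injective).toMonoidHom
        (K.equivMapOfInjective _ H.subtype_injective).surjective
    · intro y hy
      have h1 : y ∈ H := by
        apply hmemH
        obtain ⟨t, rfl⟩ := Nat.exists_eq_add_of_le hs2
        rw [pow_add, pow_mul, show (2 : ℕ) ^ 2 = 4 by norm_num, hy, one_pow]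
      classical
      have : Fintype H := Fintype.ofFinite H
      have h3 : (K : Set H) = {z : H | z ^ 4 = 1} := by
        apply Set.eq_of_subset_of_ncard_le
        · intro z hz
          have h1 := pow_card_eq_one' (x := (⟨z, hz⟩ : K))
          rw [hK] at h1
          have h4 := congrArg Subtype.val h1
          simpa using h4
        · have h4 : {z : H | z ^ 4 = 1}.ncard ≤ 4 := by
            have h5 := IsCyclic.card_pow_eq_one_le (α := H) (n := 4) (by norm_num)
            have h6 : {z : H | z ^ 4 = 1} = ((Finset.univ.filter (fun z : H => z ^ 4 = 1) : Finset H) : Set H) := by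
              ext z; simp
            rw [h6, Set.ncard_coe_finset]
            exact h5
          calc _ ≤ 4 := h4
            _ = 2 ^ 2 := by norm_num
            _ = (K : Set H).ncard := hK.symm
        · exact Set.toFinite _
      have h4 : (⟨y, h1⟩ : H) ∈ (K : Set H) := by
        rw [h3]
        exact Subtype.ext hy
      exact ⟨⟨y, h1⟩, h4, rfl⟩
  · by_contra hnc
    obtain ⟨A, -, hA, hA1⟩ := H24.OddPGroup.exists_normal_elementary_sq hp2 hpG hnc
    have hAH : A ≤ H := by
      intro a ha
      apply hmemH
      obtain ⟨t, rfl⟩ := Nat.exists_eq_add_of_le hs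
      rw [pow_add, pow_one, pow_mul, hA1 a ha, one_pow]
    have hAc : IsCyclic A := by
      have h1 : IsCyclic (A.subgroupOf H) := inferInstance
      exact isCyclic_of_surjective (Subgroup.subgroupOfEquivOfLe hAH).toMonoidHom
            (Subgroup.subgroupOfEquivOfLe hAH).surjective
    obtain ⟨a, ha⟩ := hAc.exists_generator
    have h1 : orderOf a = p ^ 2 := by
      rw [← hA]
      exact orderOf_eq_card_of_forall_mem_zpowers ha
    have h3 : orderOf a ∣ p := by
      apply orderOf_dvd_of_pow_eq_one
      exact Subtype.ext (by simpa using hA1 a a.2)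
    rw [h1] at h3
    have h4 := Nat.le_of_dvd hp.pos h3
    have h5 := hp.one_lt
    nlinarith

end Cfsg.Agent.S3977
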