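import Cfsg.Statements.S3978
import Cfsg.Agent.Lib.H69.SchurProj
import Cfsg.Agent.Lib.H69.SchurProjConv

set_option autoImplicit false
open Cfsg

namespace Cfsg.Agent.S3978

theorem stem_id (Q : Type*) [Group Q] : Cfsg.IsStemExtension (MonoidHom.id Q) := by
  refine ⟨Function.surjective_id, ?_, ?_⟩
  · rw [MonoidHom.ker_id]; exact bot_le
  · rw [MonoidHom.ker_id]; exact bot_le

theorem subsingleton_ker_id (Q : Type*) [Group Q] (x : (MonoidHom.id Q).ker) : x = 1 :=
  Subtype.ext (MonoidHom.mem_ker.1 x.2)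

/-- A finite group `Q` has trivial Schur multiplier if and only if, for every `n`, every homomorphism from `Q` to the projective general linear group (the quotient of `GL n ℂ` by its centre) lifts to a homomorphism into `GL n ℂ`. -/
theorem result {Q : Type*} [Group Q] [Finite Q] : Cfsg.HasCyclicSchurMultiplier Q 1 ↔ ∀ (n : ℕ) (γ : Q →* (GL (Fin n) ℂ ⧸ Subgroup.center (GL (Fin n) ℂ))), ∃ ρ : Q →* GL (Fin n) ℂ, (QuotientGroup.mk' (Subgroup.center (GL (Fin n) ℂ))).comp ρ = γ := by
  constructor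
  · intro h n γ
    have hk : Nonempty ((MonoidHom.id Q).ker ≃* Multiplicative (ZMod 1)) :=
      ⟨{ toFun := fun _ => 1
         invFun := fun _ => 1
         left_inv := fun x => (subsingleton_ker_id Q x).symm
         right_inv := fun x => Subsingleton.elim _ _
         map_mul' := fun _ _ => by simp }⟩
    obtain ⟨ρ, hρ⟩ := H69.SchurProj.projective_lift h (MonoidHom.id Q) (stem_id Q) hk n γ
    exact ⟨ρ, by rw [hρ, MonoidHom.comp_id]⟩
  · intro h
    apply H69.SchurBasic.hasCyclic_one_of_ker_eq_bot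
    intro Δ _ _ τ hτ
    obtain ⟨π, hπ⟩ := H69.SchurProjConv.cover_of_lift (MonoidHom.id Q) (stem_id Q)
      (fun n γ => by
        obtain ⟨ρ, hρ⟩ := h n γ
        exact ⟨ρ, by rw [hρ, MonoidHom.comp_id]⟩) Δ τ hτ
    rw [Subgroup.eq_bot_iff_forall]
    intro x hx
    obtain ⟨y, hy⟩ := hπ ⟨x, hx⟩
    rw [subsingleton_ker_id Q y, map_one] at hy
    exact (congrArg Subtype.val hy).symm

end Cfsg.Agent.S3978
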