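import Cfsg.Statements.S3980
import Cfsg.Agent.Lib.H69.SchurProduct

set_option autoImplicit false
universe u v w
open Cfsg

namespace Cfsg.Agent.S3980

/-- Let `Q₁` and `Q₂` be finite groups whose commutator quotients have coprime orders, with Schur multipliers `A` and `B`. Then the Schur multiplier of `Q₁ × Q₂` is isomorphic to `A × B`. -/
theorem result {Q₁ : Type u} {Q₂ : Type v} [Group Q₁] [Group Q₂] [Finite Q₁] [Finite Q₂] {A B : Type w} [CommGroup A] [CommGroup B] (hA : Cfsg.HasSchurMultiplier Q₁ A) (hB : Cfsg.HasSchurMultiplier Q₂ B) (hcop : Nat.Coprime (Nat.card (Abelianization Q₁)) (Nat.card (Abelianization Q₂))) : Cfsg.HasSchurMultiplier (Q₁ × Q₂) (A × B) := by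
  have h := H69.SchurProduct.hasSchurMultiplier_prod hA hB
  have hsub : ∀ t : H69.SchurProduct.Tens Q₁ Q₂, t = 0 := by
    intro t
    induction t using TensorProduct.induction_on with
    | zero => rfl
    | add a b ha hb => rw [ha, hb, add_zero]
    | tmul a b =>
      obtain ⟨u, v, huv⟩ := Nat.isCoprime_iff_coprime.2 hcop
      have h1 : ((Nat.card (Abelianization Q₁) : ℤ)) • a = 0 := by
        rw [natCast_zsmul]
        exact pow_card_eq_one' (x := Additive.toMul a)
      have h2 : ((Nat.card (Abelianization Q₂) : ℤ)) • b = 0 := by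
        rw [natCast_zsmul]
        exact pow_card_eq_one' (x := Additive.toMul b)
      have h3 : a = (v * (Nat.card (Abelianization Q₂) : ℤ)) • a := by
        have h4 : ((u * (Nat.card (Abelianization Q₁) : ℤ)) + (v * (Nat.card (Abelianization Q₂) : ℤ))) • a = a := by
          rw [huv, one_zsmul]
        rw [add_smul, mul_smul, h1, smul_zero, zero_add] at h4
        exact h4.symm
      rw [h3, TensorProduct.smul_tmul, mul_smul, h2, smul_zero, TensorProduct.tmul_zero]
  have e : A × B × Multiplicative (H69.SchurProduct.Tens Q₁ Q₂) ≃* A × B :=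
    { toFun := fun x => (x.1, x.2.1)
      invFun := fun x => (x.1, x.2, 1)
      left_inv := by
        rintro ⟨a, b, t⟩
        have : t = 1 := hsub (Multiplicative.toAdd t)
        rw [this]
      right_inv := fun _ => rfl
      map_mul' := fun _ _ => rfl }
  exact H69.SchurCover.hasSchurMultiplier_congr e h

end Cfsg.Agent.S3980
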