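import Cfsg.Statements.S3994
import Cfsg.Agent.Lib.H69.FrobCount

set_option autoImplicit false
open Cfsg

namespace Cfsg.Agent.S3994

theorem coprime_part (N n : ℕ) (hN : 0 < N) : Nat.Coprime (N / Nat.gcd N (n ^ N)) n := by
  rw [Nat.coprime_iff_gcd_eq_one]
  by_contra hne
  obtain ⟨q, hq, hqd⟩ := Nat.exists_prime_and_dvd hne
  have h1 : q ∣ N / Nat.gcd N (n ^ N) := hqd.trans (Nat.gcd_dvd_left _ _)
  have h2 : q ∣ n := hqd.trans (Nat.gcd_dvd_right _ _)
  set v := N.factorization q with hv
  have h3 : q ^ v ∣ N := Nat.ordProj_dvd N q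
  have h4 : v ≤ N := by
    have h5 : q ^ v ≤ N := Nat.le_of_dvd hN h3
    have h6 : v < q ^ v := Nat.lt_pow_self hq.one_lt
    omega
  have h5 : q ^ v ∣ n ^ N := (pow_dvd_pow q h4).trans (pow_dvd_pow_of_dvd h2 N)
  have h6 : q ^ v ∣ Nat.gcd N (n ^ N) := Nat.dvd_gcd h3 h5
  have h7 : q ^ (v + 1) ∣ N := by
    have h8 : q ^ v * q ∣ Nat.gcd N (n ^ N) * (N / Nat.gcd N (n ^ N)) := mul_dvd_mul h6 h1
    rwa [Nat.mul_div_cancel' (Nat.gcd_dvd_left _ _), ← pow_succ] at h8
  exact Nat.pow_succ_factorization_not_dvd hN.ne' hq h7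

/-- Let G be a finite group and n a positive integer. The number of elements of G whose order is divisible by n is either 0 or divisible by the largest divisor of the order of G that is coprime to n. -/
theorem result {G : Type*} [Group G] [Finite G] (n : ℕ) (hn : 0 < n) :
    Nat.card {g : G // n ∣ orderOf g} = 0 ∨
      (Nat.card G / Nat.gcd (Nat.card G) (n ^ Nat.card G)) ∣ Nat.card {g : G // n ∣ orderOf g} := by
  classical
  right
  have : Fintype G := Fintype.ofFinite G
  set m := Nat.card G / Nat.gcd (Nat.card G) (n ^ Nat.card G) with hm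
  set m' := Nat.gcd (Nat.card G) (n ^ Nat.card G) with hm'
  have hcop1 : Nat.Coprime m n := coprime_part _ _ Nat.card_pos
  have hcop : Nat.Coprime m' m := by
    apply Nat.Coprime.symm
    exact (hcop1.pow_right (Nat.card G)).coprime_dvd_right (Nat.gcd_dvd_right _ _)
  have hmm : m' * m = Nat.card G := Nat.mul_div_cancel' (Nat.gcd_dvd_left _ _)
  obtain ⟨e, he1, he2⟩ := Nat.chineseRemainder hcop 1 0
  have hse : m ∣ e := (Nat.modEq_zero_iff_dvd).1 he2
  have hpow : ∀ g : G, g ^ (m' * m) = 1 := fun g => by rw [hmm]; exact pow_card_eq_one'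
  -- facts about the decomposition
  have hy1 : ∀ g : G, (g ^ e) ^ m' = 1 := by
    intro g
    obtain ⟨c, hc⟩ := hse
    rw [← pow_mul, hc]
    have : m * c * m' = (m' * m) * c := by ring
    rw [this, pow_mul, hpow, one_pow]
  have hz1 : ∀ g : G, (g * (g ^ e)⁻¹) ^ m = 1 := by
    intro g
    have hc : Commute g (g ^ e) := (Commute.refl g).pow_right e
    have h1 : (g * (g ^ e)⁻¹) ^ m = g ^ m * (g ^ (e * m))⁻¹ := by
      rw [(hc.inv_right).mul_pow, inv_pow, ← pow_mul]
    have h2 : g ^ (e * m) = g ^ m := by
      rw [pow_eq_pow_iff_modEq]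
      have h3 : e * m ≡ 1 * m [MOD m' * m] := Nat.ModEq.mul_right' m he1
      rw [one_mul] at h3
      exact h3.of_dvd (orderOf_dvd_of_pow_eq_one (hpow g))
    rw [h1, h2, mul_inv_cancel]
  have hye : ∀ y : G, y ^ m' = 1 → y ^ e = y := by
    intro x hx
    have h1 : x ^ e = x ^ 1 := by
      rw [pow_eq_pow_iff_modEq]
      exact he1.of_dvd (orderOf_dvd_of_pow_eq_one hx)
    rw [h1, pow_one]
  have hze : ∀ z : G, z ^ m = 1 → z ^ e = 1 := by
    intro z hz
    obtain ⟨c, hc⟩ := hse
    rw [hc, pow_mul, hz, one_pow]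
  have hord : ∀ y z : G, Commute y z → y ^ m' = 1 → z ^ m = 1 → (n ∣ orderOf (y * z) ↔ n ∣ orderOf y) := by
    intro y z hyz hy hz
    have h1 : orderOf y ∣ m' := orderOf_dvd_of_pow_eq_one hy
    have h2 : orderOf z ∣ m := orderOf_dvd_of_pow_eq_one hz
    rw [hyz.orderOf_mul_eq_mul_orderOf_of_coprime ((hcop.coprime_dvd_left h1).coprime_dvd_right h2)]
    constructor
    · intro h
      exact (hcop1.coprime_dvd_left h2).symm.dvd_of_dvd_mul_right h
    · intro h
      exact h.mul_right _
  let F : G → ℕ := fun y => (Finset.univ.filter (fun g : G => n ∣ orderOf g ∧ g ^ e = y)).card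
  have hsum : Nat.card {g : G // n ∣ orderOf g} = ∑ y, F y := by
    have h1 : Nat.card {g : G // n ∣ orderOf g} = (Finset.univ.filter (fun g : G => n ∣ orderOf g)).card := by
      rw [Nat.card_eq_fintype_card, Fintype.card_subtype]
    rw [h1, Finset.card_eq_sum_card_fiberwise (f := fun g => g ^ e) (t := Finset.univ)
      (fun _ _ => Finset.mem_univ _)]
    apply Finset.sum_congr rfl
    intro y _
    rw [Finset.filter_filter]
  rw [hsum]
  apply H69.CountLemmas.dvd_sum_of_classFun
  · intro g y
    have hoc : ∀ a x : G, orderOf (a * x * a⁻¹) = orderOf x := by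
      intro a x
      have := orderOf_injective (MulAut.conj a).toMonoidHom (MulAut.conj a).injective x
      simpa using this
    apply Finset.card_bij' (fun x _ => g⁻¹ * x * g) (fun x _ => g * x * g⁻¹)
    · intro x hx
      rw [Finset.mem_filter] at hx ⊢
      obtain ⟨-, hxW, hxe⟩ := hx
      have h1 := hoc g⁻¹ x
      rw [inv_inv] at h1
      have h2 := conj_pow (i := e) (a := g⁻¹) (b := x)
      rw [inv_inv] at h2
      refine ⟨Finset.mem_univ _, ?_, ?_⟩
      · rwa [h1]
      · rw [h2, hxe]; group
    · intro x hx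
      rw [Finset.mem_filter] at hx ⊢
      obtain ⟨-, hxW, hxe⟩ := hx
      refine ⟨Finset.mem_univ _, ?_, ?_⟩
      · rwa [hoc]
      · rw [conj_pow, hxe]
    · intro x _
      group
    · intro x _
      group
  · intro y
    by_cases hy0 : F y = 0
    · rw [hy0, mul_zero]; exact dvd_zero _
    · obtain ⟨g, hg⟩ := Finset.card_pos.1 (Nat.pos_of_ne_zero hy0)
      rw [Finset.mem_filter] at hg
      obtain ⟨-, hgW, hge⟩ := hg
      have hym : y ^ m' = 1 := by rw [← hge]; exact hy1 g
      have hny : n ∣ orderOf y := by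
        have h1 := hz1 g
        rw [hge] at h1
        have hgy : Commute g y := by rw [← hge]; exact (Commute.refl g).pow_right e
        have hc : Commute y (g * y⁻¹) := (hgy.mul_left ((Commute.refl y).inv_left)).symm
        have h2 := (hord y (g * y⁻¹) hc hym h1).1 (by
          have h3 : y * (g * y⁻¹) = g := by rw [hc.eq]; group
          rwa [h3])
        exact h2
      set C := Subgroup.centralizer ({y} : Set G) with hC
      have hFy : F y = Nat.card {z : C // z ^ m = 1} := by
        have h1 : F y = Nat.card {g : G // n ∣ orderOf g ∧ g ^ e = y} := by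
          rw [Nat.card_eq_fintype_card, Fintype.card_subtype]
        rw [h1]
        apply Nat.card_congr
        refine ⟨fun g => ⟨⟨g.1 * y⁻¹, ?_⟩, ?_⟩, fun z => ⟨y * z.1.1, ?_, ?_⟩, ?_, ?_⟩
        · have hgy : Commute g.1 y := by
            have := (Commute.refl g.1).pow_right e
            rwa [g.2.2] at this
          rw [Subgroup.mem_centralizer_singleton_iff]
          exact (hgy.mul_left ((Commute.refl y).inv_left)).eq
        · apply Subtype.ext
          have h2 := hz1 g.1
          rw [g.2.2] at h2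
          exact h2
        · have hcomm : Commute z.1.1 y := Subgroup.mem_centralizer_singleton_iff.1 z.1.2
          have hzs : z.1.1 ^ m = 1 := congrArg Subtype.val z.2
          exact (hord y z.1.1 hcomm.symm hym hzs).2 hny
        · have hcomm : Commute z.1.1 y := Subgroup.mem_centralizer_singleton_iff.1 z.1.2
          have hzs : z.1.1 ^ m = 1 := congrArg Subtype.val z.2
          rw [hcomm.symm.mul_pow, hye y hym, hze _ hzs, mul_one]
        · intro g
          have hgy : Commute g.1 y := by
            have := (Commute.refl g.1).pow_right e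
            rwa [g.2.2] at this
          apply Subtype.ext
          show y * (g.1 * y⁻¹) = g.1
          rw [← mul_assoc, ← hgy.eq]
          group
        · intro z
          have hcomm : Commute z.1.1 y := Subgroup.mem_centralizer_singleton_iff.1 z.1.2
          apply Subtype.ext
          apply Subtype.ext
          show y * z.1.1 * y⁻¹ = z.1.1
          rw [← hcomm.eq]
          group
      have h1 := H69.FrobCount.frobenius_dvd (G := C) (Nat.gcd m (Nat.card C)) (Nat.gcd_dvd_right _ _)
      rw [← H69.FrobCount.card_pow_eq_one_gcd, ← hFy] at h1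
      have h3 : m ∣ C.index * Nat.gcd m (Nat.card C) := by
        rw [← Nat.gcd_mul_left]
        apply Nat.dvd_gcd (dvd_mul_left _ _)
        rw [mul_comm, Subgroup.card_mul_index, ← hmm]
        exact dvd_mul_left _ _
      exact h3.trans (Nat.mul_dvd_mul_left _ h1)

end Cfsg.Agent.S3994
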