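import Cfsg.Statements.S3995
import Cfsg.Agent.Lib.H69.OrdTwo

set_option autoImplicit false
open Cfsg

namespace Cfsg.Agent.S3995

open H69.OrdCount H69.OrdClass H69.OrdEven H69.OrdTwo

/-- Let G be a finite group such that the numbers of elements of each order that occurs in G (the numbers #{g : o(g) = m}, m ranging over the element orders of G) take exactly two values, 1 and some n ≠ 1. Then either G is a p-group of exponent p and order at least 3 for some prime p, or G is the quaternion group of order 8, or G is cyclic of order 4, or G ≅ Z₂ × P for a p-group P of exponent p with p an odd prime. -/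
theorem result {G : Type*} [Group G] [Finite G] (n : ℕ) (hn : n ≠ 1) (h : ((fun m : ℕ => Nat.card {g : G // orderOf g = m}) '' Set.range (orderOf : G → ℕ)) = {1, n}) :
    (∃ p : ℕ, p.Prime ∧ IsPGroup p G ∧ 3 ≤ Nat.card G ∧ Monoid.exponent G = p) ∨
      Nonempty (G ≃* QuaternionGroup 2) ∨ (IsCyclic G ∧ Nat.card G = 4) ∨
      (∃ (p : ℕ) (P : Type) (_ : Group P) (_ : Finite P), p.Prime ∧ p ≠ 2 ∧ IsPGroup p P ∧ Monoid.exponent P = p ∧
        Nonempty (G ≃* Multiplicative (ZMod 2) × P)) := by
  have hmem : ∀ m, N G m ≠ 0 → N G m = 1 ∨ N G m = n := by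
    intro m hm
    obtain ⟨g, hg⟩ := N_ne_zero_iff.1 hm
    have h1 : N G m ∈ ((fun m : ℕ => Nat.card {g : G // orderOf g = m}) '' Set.range (orderOf : G → ℕ)) :=
      ⟨m, ⟨g, hg⟩, rfl⟩
    rw [h] at h1
    simpa using h1
  have hex : ∃ m, N G m ≠ 0 ∧ N G m = n := by
    have h1 : n ∈ ((fun m : ℕ => Nat.card {g : G // orderOf g = m}) '' Set.range (orderOf : G → ℕ)) := by
      rw [h]; simp
    obtain ⟨m, ⟨g, hg⟩, hm⟩ := h1
    exact ⟨m, N_ne_zero_iff.2 ⟨g, hg⟩, hm⟩
  have hval : ∀ m, 3 ≤ m → N G m ≠ 0 → N G m = n := by
    intro m hm hm0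
    rcases hmem m hm0 with h1 | h1
    · exfalso
      have := even_of_three_le (G := G) hm
      rw [h1] at this
      omega
    · exact h1
  obtain ⟨m₀, hm₀, hm₀n⟩ := hex
  have hm₀0 : m₀ ≠ 0 := by
    rintro rfl
    obtain ⟨g, hg⟩ := N_ne_zero_iff.1 hm₀
    exact (orderOf_pos g).ne' hg
  have hm₀1 : m₀ ≠ 1 := by
    rintro rfl
    rw [N_one] at hm₀n
    exact hn hm₀n.symm
  have hcard_ge : ∀ m, N G m ≤ Nat.card G := by
    intro m
    exact Nat.card_le_card_of_injective _ Subtype.val_injective
  by_cases h2 : 2 ∣ Nat.card G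
  · by_cases hN2 : N G 2 = 1
    · -- unique involution
      have hm₀2 : m₀ ≠ 2 := by
        rintro rfl
        exact hn (hm₀n.symm.trans hN2)
      by_cases hN4 : N G 4 = 0
      · right; right; right
        obtain ⟨M, z, hM, hidx, hnd, hzc, hz, hzM⟩ := exists_normal_odd hN2 hN4
        have hcardM : Nat.card ↥M * 2 = Nat.card G := by rw [← hidx]; exact M.card_mul_index
        -- an odd prime
        obtain ⟨p, hp, hp2, hpG⟩ : ∃ p : ℕ, p.Prime ∧ p ≠ 2 ∧ p ∣ Nat.card G := by
          by_contra hcon
          push Not at hcon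
          have h5 : ∀ q : ℕ, q.Prime → q ∣ m₀ → q = 2 := by
            intro q hq hqm
            by_contra hq2
            exact hcon q hq hq2 (hqm.trans (dvd_card hm₀))
          have h6 := Nat.eq_prime_pow_of_unique_prime_dvd hm₀0 (fun {q} hq hqm => h5 q hq hqm)
          have h7 : 2 ≤ m₀.primeFactorsList.length := by
            by_contra hlt
            push Not at hlt
            interval_cases m₀.primeFactorsList.length
            · exact hm₀1 (by simpa using h6)
            · exact hm₀2 (by simpa using h6)
          have h8 : 4 ∣ m₀ := by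
            rw [h6]
            exact pow_dvd_pow 2 h7
          exact ne_zero_of_dvd hm₀ h8 hm₀0 hN4
        have hpM : p ∣ Nat.card ↥M := by
          rw [← hcardM] at hpG
          exact (hp.dvd_mul.1 hpG).resolve_right (by
            rw [Nat.prime_dvd_prime_iff_eq hp Nat.prime_two]; exact hp2)
        have hall : ∀ q : ℕ, q.Prime → q ∣ Nat.card ↥M → q = p := by
          intro q hq hqM
          have hq2 : q ≠ 2 := by rintro rfl; exact hnd hqM
          exact unique_odd hval hq hq2 hp hp2 (hqM.trans (Subgroup.card_subgroup_dvd_card M)) hpG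
        have hsq : N ↥M (p ^ 2) = 0 := by
          by_contra hne
          exact N_subgroup M hne (square_eq_zero hval hp hp2 hpG)
        obtain ⟨hMp, hMe⟩ := exponent_eq hp hpM hall hsq
        -- the isomorphism
        have hcz : Nat.card ↥(Subgroup.zpowers z) = 2 := by rw [Nat.card_zpowers, hz]
        let e1 : Multiplicative (ZMod 2) ≃* ↥(Subgroup.zpowers z) :=
          mulEquivOfPrimeCardEq (p := 2) (by simp) hcz
        have hzcomm : ∀ (a : ↥(Subgroup.zpowers z)) (b : ↥M),
            Commute ((Subgroup.zpowers z).subtype a) (M.subtype b) := by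
          intro a b
          have h5 : (a : G) ∈ Subgroup.center G :=
            (Subgroup.zpowers_le.2 hzc) a.2
          exact (Subgroup.mem_center_iff.1 h5 (b : G)).symm
        let F : ↥(Subgroup.zpowers z) × ↥M →* G :=
          MonoidHom.noncommCoprod (Subgroup.zpowers z).subtype M.subtype hzcomm
        have hFi : Function.Injective F := by
          rw [injective_iff_map_eq_one]
          rintro ⟨a, b⟩ hab
          have h5 : (a : G) * (b : G) = 1 := hab
          have h6 : (a : G) ∈ M := by
            rw [eq_inv_of_mul_eq_one_left h5]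
            exact inv_mem b.2
          have h7 : Subgroup.zpowers z ⊓ M = ⊥ := by
            have h8 : Nat.card ↥(Subgroup.zpowers z ⊓ M : Subgroup G) ∣ 2 := by
              rw [← hcz]; exact Subgroup.card_dvd_of_le inf_le_left
            rcases (Nat.dvd_prime Nat.prime_two).1 h8 with h9 | h9
            · exact Subgroup.card_eq_one.1 h9
            · exfalso
              apply hnd
              rw [← h9]
              exact Subgroup.card_dvd_of_le inf_le_right
          have h8 : (a : G) ∈ Subgroup.zpowers z ⊓ M := Subgroup.mem_inf.2 ⟨a.2, h6⟩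
          rw [h7, Subgroup.mem_bot] at h8
          rw [h8, one_mul] at h5
          exact Prod.ext (Subtype.ext h8) (Subtype.ext h5)
        have hFb : Function.Bijective F := by
          rw [Nat.bijective_iff_injective_and_card]
          refine ⟨hFi, ?_⟩
          rw [Nat.card_prod, hcz, ← hcardM, mul_comm]
        let eM : Shrink.{0} ↥M ≃* ↥M := (equivShrink.{0} ↥M).symm.mulEquiv
        let e2 : G ≃* Multiplicative (ZMod 2) × Shrink.{0} ↥M :=
          (MulEquiv.ofBijective F hFb).symm.trans
            (MulEquiv.prodCongr e1.symm eM.symm)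
        refine ⟨p, Shrink.{0} ↥M, inferInstance, inferInstance, hp, hp2, ?_, ?_, ⟨e2⟩⟩
        · exact hMp.of_equiv eM.symm
        · rw [Monoid.exponent_eq_of_mulEquiv eM]
          exact hMe
      · rcases two_group hval hN2 hN4 with h5 | h5
        · exact Or.inr (Or.inl h5)
        · exact Or.inr (Or.inr (Or.inl h5))
    · -- several involutions
      left
      have h3 : N G 2 = n := (hmem 2 (prime_ne_zero Nat.prime_two h2)).resolve_left hN2
      have hodd : ¬ 2 ∣ N G 2 := not_dvd_N Nat.prime_two h2
      have hno : ∀ m, 3 ≤ m → N G m = 0 := by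
        intro m hm
        by_contra hne
        have h5 := hval m hm hne
        have := even_of_three_le (G := G) hm
        rw [h5, ← h3] at this
        exact hodd this
      have hall : ∀ q : ℕ, q.Prime → q ∣ Nat.card G → q = 2 := by
        intro q hq hqG
        by_contra hq2
        exact prime_ne_zero hq hqG (hno q (three_le hq hq2))
      obtain ⟨h5, h6⟩ := exponent_eq Nat.prime_two h2 hall (hno _ (by norm_num))
      refine ⟨2, Nat.prime_two, h5, ?_, h6⟩
      have h7 := hcard_ge 2
      have h8 : N G 2 ≠ 0 := prime_ne_zero Nat.prime_two h2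
      have h9 : Nat.card G ≠ 2 := by
        intro h9
        rw [h9] at h7
        have h10 : N G 2 = 2 := by omega
        rw [h10] at hodd
        exact hodd dvd_rfl
      omega
  · left
    have hm₀2 : m₀ ≠ 2 := by
      rintro rfl
      exact h2 (dvd_card hm₀)
    obtain ⟨p, hp, hpm⟩ := Nat.exists_prime_and_dvd hm₀1
    have hpG : p ∣ Nat.card G := hpm.trans (dvd_card hm₀)
    have hp2 : p ≠ 2 := by rintro rfl; exact h2 hpG
    have hall : ∀ q : ℕ, q.Prime → q ∣ Nat.card G → q = p := by
      intro q hq hqG
      have hq2 : q ≠ 2 := by rintro rfl; exact h2 hqG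
      exact unique_odd hval hq hq2 hp hp2 hqG hpG
    obtain ⟨h5, h6⟩ := exponent_eq hp hpG hall (square_eq_zero hval hp hp2 hpG)
    exact ⟨p, hp, h5, (three_le hp hp2).trans (Nat.le_of_dvd Nat.card_pos hpG), h6⟩

end Cfsg.Agent.S3995
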