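import Cfsg.Statements.S3998
import Mathlib

set_option autoImplicit false
open Cfsg

namespace Cfsg.Agent.S3998

/-- all prime divisors of `n` are at least `r` -/
def Rough (r n : ℕ) : Prop := ∀ q : ℕ, q.Prime → q ∣ n → r ≤ q

/-- all prime divisors of `n` are less than `r` -/
def Smooth (r n : ℕ) : Prop := ∀ q : ℕ, q.Prime → q ∣ n → q < r

lemma Rough.dvd {r m n : ℕ} (h : Rough r n) (hd : m ∣ n) : Rough r m :=
  fun q hq hqm => h q hq (hqm.trans hd)

lemma Smooth.dvd {r m n : ℕ} (h : Smooth r n) (hd : m ∣ n) : Smooth r m :=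
  fun q hq hqm => h q hq (hqm.trans hd)

lemma Rough.mul {r m n : ℕ} (h : Rough r n) (h' : Rough r m) : Rough r (n * m) := by
  intro q hq hd
  rcases (Nat.Prime.dvd_mul hq).1 hd with h1 | h1
  · exact h q hq h1
  · exact h' q hq h1

lemma Smooth.mul {r m n : ℕ} (h : Smooth r n) (h' : Smooth r m) : Smooth r (n * m) := by
  intro q hq hd
  rcases (Nat.Prime.dvd_mul hq).1 hd with h1 | h1
  · exact h q hq h1
  · exact h' q hq h1

lemma coprime_of_rough_smooth {r m n : ℕ} (h : Rough r n) (h' : Smooth r m) : Nat.Coprime n m := by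
  apply Nat.Coprime.symm
  rw [Nat.coprime_iff_gcd_eq_one]
  by_contra hne
  obtain ⟨q, hq, hqd⟩ := Nat.exists_prime_and_dvd hne
  have h1 := h q hq (hqd.trans (Nat.gcd_dvd_right _ _))
  have h2 := h' q hq (hqd.trans (Nat.gcd_dvd_left _ _))
  omega

/-- The number of `r`-rough elements is the `r`-rough part of the order. -/
def T (G : Type*) [Group G] : Prop :=
  ∀ r : ℕ, ∃ d e : ℕ, Nat.card G = d * e ∧ Rough r d ∧ Smooth r e ∧
    Nat.card {g : G // Rough r (orderOf g)} = d

lemma supersolvable_of_surjective {G H : Type*} [Group G] [Group H] (f : G →* H)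
    (hf : Function.Surjective f) (hG : Cfsg.IsSupersolvable G) : Cfsg.IsSupersolvable H := by
  obtain ⟨n, N, h0, h1, hn, hs⟩ := hG
  refine ⟨n, fun i => (N i).map f, ?_, ?_, ?_, ?_⟩
  · simp [h0]
  · simp only [h1]
    exact Subgroup.map_top_of_surjective f hf
  · intro i
    exact (hn i).map f hf
  · intro i
    obtain ⟨g, hg⟩ := hs i
    refine ⟨f g, ?_⟩
    simp only [hg, Subgroup.map_sup, MonoidHom.map_zpowers]

lemma exists_prime_normal {G : Type*} [Group G] [Finite G] [Nontrivial G]
    (hG : Cfsg.IsSupersolvable G) :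
    ∃ b : G, (orderOf b).Prime ∧ (Subgroup.zpowers b).Normal := by
  obtain ⟨n, N, h0, h1, hn, hs⟩ := hG
  -- find first index with nontrivial subgroup
  have key : ∃ g : G, g ≠ 1 ∧ (Subgroup.zpowers g).Normal := by
    by_contra hcon
    push Not at hcon
    have hall : ∀ i : Fin (n + 1), N i = ⊥ := by
      intro i
      induction i using Fin.induction with
      | zero => exact h0
      | succ i ih =>
        obtain ⟨g, hg⟩ := hs i
        rw [ih, bot_sup_eq] at hg
        by_cases hg1 : g = 1
        · rw [hg, hg1]; simp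
        · exact absurd (hg ▸ hn i.succ) (hcon g hg1)
    have := hall (Fin.last n)
    rw [h1] at this
    exact absurd this top_ne_bot
  obtain ⟨g, hg1, hgn⟩ := key
  have hog : orderOf g ≠ 1 := by simpa [orderOf_eq_one_iff] using hg1
  set p := (orderOf g).minFac with hp
  have hpp : p.Prime := Nat.minFac_prime hog
  have hpd : p ∣ orderOf g := Nat.minFac_dvd _
  have hpos : 0 < orderOf g := orderOf_pos g
  refine ⟨g ^ (orderOf g / p), ?_, ?_⟩
  · rw [orderOf_pow_of_dvd (Nat.div_pos (Nat.le_of_dvd hpos hpd) hpp.pos).ne' (Nat.div_dvd_of_dvd hpd),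
      Nat.div_div_self hpd hpos.ne']
    exact hpp
  · constructor
    intro x hx y
    obtain ⟨k, rfl⟩ := Subgroup.mem_zpowers_iff.1 hx
    have h2 : y * g * y⁻¹ ∈ Subgroup.zpowers g := hgn.conj_mem g (Subgroup.mem_zpowers g) y
    obtain ⟨j, hj⟩ := Subgroup.mem_zpowers_iff.1 h2
    rw [Subgroup.mem_zpowers_iff]
    refine ⟨j * k, ?_⟩
    have h3 : y * (g ^ (orderOf g / p)) ^ k * y⁻¹ = ((y * g * y⁻¹) ^ (orderOf g / p)) ^ k := by
      rw [conj_pow, conj_zpow]
    rw [h3, ← hj]
    simp only [← zpow_natCast, ← zpow_mul]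
    congr 1
    ring

lemma rough_one (r : ℕ) : Rough r 1 := by
  intro q hq hd
  exact absurd (Nat.dvd_one.1 hd) hq.ne_one

lemma smooth_one (r : ℕ) : Smooth r 1 := by
  intro q hq hd
  exact absurd (Nat.dvd_one.1 hd) hq.ne_one

/-- order of an element versus order of its image modulo a normal subgroup -/
lemma orderOf_dvd_mul {G : Type*} [Group G] [Finite G] (N : Subgroup G) [N.Normal] (g : G) :
    orderOf g ∣ orderOf (g : G ⧸ N) * Nat.card N := by
  apply orderOf_dvd_of_pow_eq_one
  rw [pow_mul]
  have h1 : g ^ orderOf (g : G ⧸ N) ∈ N := by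
    rw [← QuotientGroup.eq_one_iff]
    rw [QuotientGroup.mk_pow]
    exact pow_orderOf_eq_one _
  have h2 : (((⟨_, h1⟩ : N) ^ Nat.card N : N) : G) = 1 := by
    rw [pow_card_eq_one']
    rfl
  rwa [Subgroup.coe_pow] at h2

lemma orderOf_mk_dvd {G : Type*} [Group G] (N : Subgroup G) [N.Normal] (g : G) :
    orderOf (g : G ⧸ N) ∣ orderOf g :=
  orderOf_map_dvd (QuotientGroup.mk' N) g

lemma rough_iff_of_rough_card {G : Type*} [Group G] [Finite G] (N : Subgroup G) [N.Normal] (r : ℕ)
    (hN : Rough r (Nat.card N)) (g : G) : Rough r (orderOf g) ↔ Rough r (orderOf (g : G ⧸ N)) := by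
  constructor
  · intro h
    exact h.dvd (orderOf_mk_dvd N g)
  · intro h
    exact (h.mul hN).dvd (orderOf_dvd_mul N g)

lemma card_rough_of_rough_card {G : Type*} [Group G] [Finite G] (N : Subgroup G) [N.Normal] (r : ℕ)
    (hN : Rough r (Nat.card N)) :
    Nat.card {g : G // Rough r (orderOf g)} =
      Nat.card N * Nat.card {g : G ⧸ N // Rough r (orderOf g)} := by
  have e1 : {g : G // Rough r (orderOf g)} ≃
      ((QuotientGroup.mk : G → G ⧸ N) ⁻¹' {g : G ⧸ N | Rough r (orderOf g)} : Set G) :=
    Equiv.subtypeEquivRight (fun g => rough_iff_of_rough_card N r hN g)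
  rw [Nat.card_congr e1, Nat.card_congr (QuotientGroup.preimageMkEquivSubgroupProdSet N _),
    Nat.card_prod]
  rfl

lemma commute_of_prime_normal {G : Type*} [Group G] [Finite G] (b : G) (hb : (orderOf b).Prime)
    [hN : (Subgroup.zpowers b).Normal] (r : ℕ) (hr : orderOf b < r) (x : G)
    (hx : Rough r (orderOf (x : G ⧸ Subgroup.zpowers b))) : Commute x b := by
  set B := Subgroup.zpowers b with hB
  have hcardB : Nat.card B = orderOf b := Nat.card_zpowers b
  -- the conjugation action
  set φ : MulAut B := MulAut.conjNormal x with hφ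
  have h1 : orderOf φ ∣ orderOf (x : G ⧸ B) := by
    apply orderOf_dvd_of_pow_eq_one
    have hmem : x ^ orderOf (x : G ⧸ B) ∈ B := by
      rw [← QuotientGroup.eq_one_iff, QuotientGroup.mk_pow]
      exact pow_orderOf_eq_one _
    rw [hφ, ← map_pow]
    ext ⟨y, hy⟩
    simp only [MulAut.conjNormal_apply, MulAut.one_apply]
    obtain ⟨i, hi⟩ := Subgroup.mem_zpowers_iff.1 hmem
    obtain ⟨j, hj⟩ := Subgroup.mem_zpowers_iff.1 hy
    rw [← hi, ← hj]
    group
  have h2 : orderOf φ ∣ orderOf b - 1 := by
    have h3 : orderOf φ ∣ Nat.card (MulAut B) := orderOf_dvd_natCard φ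
    rw [IsCyclic.card_mulAut, hcardB, Nat.totient_prime hb] at h3
    exact h3
  have h3 : orderOf φ = 1 := by
    by_contra hne
    obtain ⟨q, hq, hqd⟩ := Nat.exists_prime_and_dvd hne
    have := hx q hq (hqd.trans h1)
    have h4 := Nat.le_of_dvd (by have := hb.two_le; omega) (hqd.trans h2)
    omega
  rw [orderOf_eq_one_iff] at h3
  have h4 : φ ⟨b, Subgroup.mem_zpowers b⟩ = ⟨b, Subgroup.mem_zpowers b⟩ := by rw [h3]; rfl
  have h5 := congrArg Subtype.val h4
  simp only [hφ, MulAut.conjNormal_apply] at h5
  exact mul_inv_eq_iff_eq_mul.1 h5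

lemma T_of_prime_normal {G : Type*} [Group G] [Finite G] (b : G) (hb : (orderOf b).Prime)
    [hN : (Subgroup.zpowers b).Normal] (hT : T (G ⧸ Subgroup.zpowers b)) : T G := by
  intro r
  obtain ⟨d, e, hde, hd, he, hcount⟩ := hT r
  have hcard : Nat.card G = Nat.card (G ⧸ Subgroup.zpowers b) * orderOf b := by
    rw [Subgroup.card_eq_card_quotient_mul_card_subgroup (Subgroup.zpowers b), Nat.card_zpowers]
  rcases le_or_gt r (orderOf b) with hr | hr
  · have hrough : Rough r (Nat.card (Subgroup.zpowers b)) := by
      rw [Nat.card_zpowers]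
      intro q hq hqd
      rw [(Nat.prime_dvd_prime_iff_eq hq hb).1 hqd]
      exact hr
    refine ⟨orderOf b * d, e, ?_, ?_, he, ?_⟩
    · rw [hcard, hde]; ring
    · rw [Nat.card_zpowers] at hrough
      exact hrough.mul hd
    · rw [card_rough_of_rough_card (Subgroup.zpowers b) r hrough, hcount, Nat.card_zpowers]
  · refine ⟨d, e * orderOf b, ?_, hd, ?_, ?_⟩
    · rw [hcard, hde]; ring
    · apply he.mul
      intro q hq hqd
      rw [(Nat.prime_dvd_prime_iff_eq hq hb).1 hqd]
      exact hr
    · rw [← hcount]
      -- the bijection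
      let f : {g : G // Rough r (orderOf g)} →
          {g : G ⧸ Subgroup.zpowers b // Rough r (orderOf g)} :=
        fun g => ⟨(g.1 : G ⧸ Subgroup.zpowers b), g.2.dvd (orderOf_mk_dvd _ _)⟩
      have hsm : Smooth r (orderOf b) := by
        intro q hq hqd
        rw [(Nat.prime_dvd_prime_iff_eq hq hb).1 hqd]
        exact hr
      apply Nat.card_congr
      apply Equiv.ofBijective f
      constructor
      · rintro ⟨x, hx⟩ ⟨y, hy⟩ hxy
        have hxy' : (x : G ⧸ Subgroup.zpowers b) = (y : G ⧸ Subgroup.zpowers b) :=
          congrArg Subtype.val hxy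
        rw [QuotientGroup.eq] at hxy'
        obtain ⟨k, hk⟩ := Subgroup.mem_zpowers_iff.1 hxy'
        have hyx : y = x * b ^ k := by rw [hk]; group
        have hc : Commute x b :=
          commute_of_prime_normal b hb r hr x (hx.dvd (orderOf_mk_dvd _ _))
        have hc' : Commute x (b ^ k) := hc.zpow_right k
        have hxm : Rough r (orderOf x * orderOf y) := hx.mul hy
        have h1 : (b ^ k) ^ (orderOf x * orderOf y) = 1 := by
          have h2 : y ^ (orderOf x * orderOf y) = 1 := by
            rw [mul_comm, pow_mul, pow_orderOf_eq_one, one_pow]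
          rw [hyx, hc'.mul_pow, ← hyx] at h2
          rw [pow_mul x, pow_orderOf_eq_one, one_pow, one_mul] at h2
          exact h2
        have h3 : orderOf (b ^ k) ∣ orderOf b := orderOf_dvd_of_mem_zpowers ⟨k, rfl⟩
        have h4 : orderOf (b ^ k) ∣ orderOf x * orderOf y := orderOf_dvd_of_pow_eq_one h1
        have h5 : orderOf (b ^ k) = 1 :=
          Nat.eq_one_of_dvd_coprimes (coprime_of_rough_smooth hxm hsm) h4 h3
        rw [orderOf_eq_one_iff] at h5
        apply Subtype.ext
        simp [hyx, h5]
      · rintro ⟨x, hx⟩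
        obtain ⟨x, rfl⟩ := QuotientGroup.mk_surjective x
        have hc : Commute x b := commute_of_prime_normal b hb r hr x hx
        set m := orderOf (x : G ⧸ Subgroup.zpowers b) with hm
        have hmem : x ^ m ∈ Subgroup.zpowers b := by
          rw [← QuotientGroup.eq_one_iff, QuotientGroup.mk_pow]
          exact pow_orderOf_eq_one _
        obtain ⟨k, hk⟩ := Subgroup.mem_zpowers_iff.1 hmem
        have hcop : Nat.Coprime m (orderOf b) := coprime_of_rough_smooth hx hsm
        -- find j with b^(j m) = b^(-k)
        obtain ⟨u, v, huv⟩ : ∃ u v : ℤ, u * m + v * orderOf b = 1 := by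
          have := Nat.isCoprime_iff_coprime.2 hcop
          obtain ⟨u, v, h⟩ := this
          exact ⟨u, v, h⟩
        have hc' : Commute x (b ^ (-k * u)) := hc.zpow_right _
        have h1 : (x * b ^ (-k * u)) ^ m = 1 := by
          rw [hc'.mul_pow, ← hk, ← zpow_natCast (b ^ (-k * u)), ← zpow_mul, ← zpow_add]
          have h2 : k + -k * u * (m : ℤ) = (orderOf b : ℤ) * (k * v) := by
            have : u * (m : ℤ) = 1 - v * orderOf b := by linarith
            calc k + -k * u * (m : ℤ) = k - k * (u * m) := by ring
              _ = _ := by rw [this]; ring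
          rw [h2, zpow_mul, zpow_natCast, pow_orderOf_eq_one, one_zpow]
        refine ⟨⟨x * b ^ (-k * u), ?_⟩, ?_⟩
        · exact hx.dvd (orderOf_dvd_of_pow_eq_one h1)
        · apply Subtype.ext
          show ((x * b ^ (-k * u) : G) : G ⧸ Subgroup.zpowers b) = x
          rw [QuotientGroup.eq]
          rw [mul_inv_rev, mul_assoc, inv_mul_cancel, mul_one, ← zpow_neg]
          exact ⟨_, rfl⟩

lemma T_of_subsingleton {G : Type*} [Group G] [Finite G] [Subsingleton G] : T G := by
  intro r
  refine ⟨1, 1, by simp, rough_one r, smooth_one r, ?_⟩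
  rw [Nat.card_eq_one_iff_unique]
  refine ⟨⟨fun a b => Subtype.ext (Subsingleton.elim _ _)⟩, ⟨⟨1, ?_⟩⟩⟩
  rw [orderOf_one]
  exact rough_one r

theorem T_of_supersolvable (n : ℕ) : ∀ (G : Type*) [Group G] [Finite G], Nat.card G = n →
    Cfsg.IsSupersolvable G → T G := by
  induction n using Nat.strong_induction_on with
  | _ n ih =>
    intro G _ _ hn hG
    rcases subsingleton_or_nontrivial G with h | h
    · exact T_of_subsingleton
    · obtain ⟨b, hb, hN⟩ := exists_prime_normal hG
      apply T_of_prime_normal b hb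
      apply ih (Nat.card (G ⧸ Subgroup.zpowers b)) _ _ rfl
        (supersolvable_of_surjective (QuotientGroup.mk' _) (QuotientGroup.mk'_surjective _) hG)
      rw [← hn, Subgroup.card_eq_card_quotient_mul_card_subgroup (Subgroup.zpowers b),
        Nat.card_zpowers]
      have := hb.two_le
      have h2 : 0 < Nat.card (G ⧸ Subgroup.zpowers b) := Nat.card_pos
      nlinarith

theorem solvable_of_T (n : ℕ) : ∀ (G : Type*) [Group G] [Finite G], Nat.card G = n →
    T G → Group.IsSolvable G := by
  induction n using Nat.strong_induction_on with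
  | _ n ih =>
    intro G _ _ hn hT
    rcases subsingleton_or_nontrivial G with h | h
    · infer_instance
    · have hne : Nat.card G ≠ 1 := (Finite.one_lt_card (α := G)).ne'
      have hne0 : Nat.card G ≠ 0 := Nat.card_pos.ne'
      have hnon : (Nat.card G).primeFactors.Nonempty := by
        rw [Nat.nonempty_primeFactors]
        exact Finite.one_lt_card
      set p := (Nat.card G).primeFactors.max' hnon with hp
      have hpm : p ∈ (Nat.card G).primeFactors := Finset.max'_mem _ _
      have hpp : p.Prime := Nat.prime_of_mem_primeFactors hpm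
      have : Fact p.Prime := ⟨hpp⟩
      have hpd : p ∣ Nat.card G := Nat.dvd_of_mem_primeFactors hpm
      have hmax : ∀ q : ℕ, q.Prime → q ∣ Nat.card G → q ≤ p := by
        intro q hq hqd
        exact Finset.le_max' _ _ (Nat.mem_primeFactors.2 ⟨hq, hqd, hne0⟩)
      let P : Sylow p G := default
      obtain ⟨d, e, hde, hd, he, hcount⟩ := hT p
      have hPd : Nat.card P = d := by
        have h1 : Nat.card P ∣ d * e := hde ▸ Subgroup.card_subgroup_dvd_card _
        have hroughP : Rough p (Nat.card P) := by
          obtain ⟨k, hk⟩ := P.2.exists_card_eq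
          rw [hk]
          intro q hq hqd
          rw [(Nat.prime_dvd_prime_iff_eq hq hpp).1 (hq.dvd_of_dvd_pow hqd)]
        have h2 : Nat.card P ∣ d := (coprime_of_rough_smooth hroughP he).dvd_of_dvd_mul_right h1
        have h3 : d ∣ Nat.card P := by
          have h4 : d ∣ Nat.card P * (P : Subgroup G).index := by
            rw [Subgroup.card_mul_index, hde]
            exact dvd_mul_right _ _
          refine Nat.Coprime.dvd_of_dvd_mul_right ?_ h4
          rw [Nat.coprime_iff_gcd_eq_one]
          by_contra hne'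
          obtain ⟨q, hq, hqd⟩ := Nat.exists_prime_and_dvd hne'
          have h5 := hd q hq (hqd.trans (Nat.gcd_dvd_left _ _))
          have h6 : q ∣ (P : Subgroup G).index := hqd.trans (Nat.gcd_dvd_right _ _)
          have h7 := hmax q hq (h6.trans (Subgroup.index_dvd_card _))
          have h8 : q = p := le_antisymm h7 h5
          rw [h8] at h6
          exact P.not_dvd_index h6
        exact Nat.dvd_antisymm h2 h3
      have hset : ((P : Subgroup G) : Set G) = {g : G | Rough p (orderOf g)} := by
        apply Set.eq_of_subset_of_ncard_le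
        · intro g hg
          show Rough p (orderOf g)
          obtain ⟨k, hk⟩ := P.2.exists_card_eq
          have h1 : orderOf g ∣ Nat.card P := by
            have := orderOf_dvd_natCard (⟨g, hg⟩ : P)
            rwa [Subgroup.orderOf_mk] at this
          rw [hk] at h1
          intro q hq hqd
          rw [(Nat.prime_dvd_prime_iff_eq hq hpp).1 (hq.dvd_of_dvd_pow (hqd.trans h1))]
        · have h1 : Set.ncard {g : G | Rough p (orderOf g)} = d := hcount
          rw [h1, ← hPd]
          exact le_of_eq rfl
        · exact Set.toFinite _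
      have hmem : ∀ g : G, g ∈ (P : Subgroup G) ↔ Rough p (orderOf g) := by
        intro g
        rw [← SetLike.mem_coe, hset]
        rfl
      have hNorm : (P : Subgroup G).Normal := by
        constructor
        intro x hx y
        rw [hmem] at hx ⊢
        have : orderOf (y * x * y⁻¹) = orderOf x := by
          have := orderOf_injective (MulAut.conj y).toMonoidHom (MulAut.conj y).injective x
          simpa using this
        rwa [this]
      have hcardG : Nat.card G = Nat.card (G ⧸ (P : Subgroup G)) * Nat.card P :=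
        Subgroup.card_eq_card_quotient_mul_card_subgroup _
      have hPpos : 0 < Nat.card P := Nat.card_pos
      have hQpos : 0 < Nat.card (G ⧸ (P : Subgroup G)) := Nat.card_pos
      obtain ⟨k, hk⟩ := P.2.exists_card_eq
      have hPp : p ∣ Nat.card P := P.dvd_card_of_dvd_card hpd
      have hlt : Nat.card (G ⧸ (P : Subgroup G)) < n := by
        rw [← hn, hcardG]
        have := Nat.le_of_dvd hPpos hPp
        have := hpp.two_le
        nlinarith
      have hTQ : T (G ⧸ (P : Subgroup G)) := by
        intro r
        rcases le_or_gt r p with hr | hr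
        · obtain ⟨d', e', hde', hd', he', hcount'⟩ := hT r
          have hroughP : Rough r (Nat.card P) := by
            rw [hk]
            intro q hq hqd
            rw [(Nat.prime_dvd_prime_iff_eq hq hpp).1 (hq.dvd_of_dvd_pow hqd)]
            exact hr
          have h1 : Nat.card P ∣ d' := by
            apply (coprime_of_rough_smooth hroughP he').dvd_of_dvd_mul_right
            rw [← hde']
            exact Subgroup.card_subgroup_dvd_card _
          obtain ⟨c, hc⟩ := h1
          refine ⟨c, e', ?_, hd'.dvd ⟨_, by rw [hc, mul_comm]⟩, he', ?_⟩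
          · rw [hde', hc] at hcardG
            have : Nat.card P * (c * e') = Nat.card P * Nat.card (G ⧸ (P : Subgroup G)) := by
              rw [mul_comm (Nat.card P) (Nat.card (G ⧸ (P : Subgroup G))), ← hcardG]; ring
            exact (Nat.eq_of_mul_eq_mul_left hPpos this).symm
          · have h2 := card_rough_of_rough_card (P : Subgroup G) r hroughP
            rw [hcount', hc] at h2
            exact (Nat.eq_of_mul_eq_mul_left hPpos h2).symm
        · refine ⟨1, Nat.card (G ⧸ (P : Subgroup G)), by simp, rough_one r, ?_, ?_⟩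
          · intro q hq hqd
            exact lt_of_le_of_lt (hmax q hq (hqd.trans (Dvd.intro _ hcardG.symm))) hr
          · rw [Nat.card_eq_one_iff_unique]
            refine ⟨⟨?_⟩, ⟨⟨1, by rw [orderOf_one]; exact rough_one r⟩⟩⟩
            have huniq : ∀ x : G ⧸ (P : Subgroup G), Rough r (orderOf x) → x = 1 := by
              intro x hx
              by_contra hx1
              rw [← orderOf_eq_one_iff] at hx1
              obtain ⟨q, hq, hqd⟩ := Nat.exists_prime_and_dvd hx1
              have h3 := hx q hq hqd
              have h4 := hmax q hq ((hqd.trans (orderOf_dvd_natCard x)).trans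
                (Dvd.intro _ hcardG.symm))
              omega
            rintro ⟨x, hx⟩ ⟨y, hy⟩
            apply Subtype.ext
            exact (huniq x hx).trans (huniq y hy).symm
      have hsQ : Group.IsSolvable (G ⧸ (P : Subgroup G)) := ih _ hlt _ rfl hTQ
      have hsP : Group.IsSolvable (P : Subgroup G) := by
        have := P.2.isNilpotent
        infer_instance
      exact (Group.isSolvable_iff_subgroup_quotient (P : Subgroup G)).2 ⟨hsP, hsQ⟩

/-- Groups of the same order type admit an order-preserving bijection. -/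
lemma exists_orderEquiv {G H : Type*} [Group G] [Finite G] [Group H] [Finite H]
    (hT : (∀ m : ℕ, Nat.card {g : G // orderOf g = m} = Nat.card {h : H // orderOf h = m})) :
    ∃ e : G ≃ H, ∀ g, orderOf (e g) = orderOf g := by
  have h1 : ∀ m : ℕ, Nonempty ({g : G // orderOf g = m} ≃ {h : H // orderOf h = m}) :=
    fun m => Finite.card_eq.1 (hT m)
  let f := fun m => Classical.choice (h1 m)
  refine ⟨(Equiv.sigmaFiberEquiv (orderOf : G → ℕ)).symm.trans
    ((Equiv.sigmaCongrRight f).trans (Equiv.sigmaFiberEquiv (orderOf : H → ℕ))), ?_⟩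
  intro g
  simp only [Equiv.trans_apply, Equiv.sigmaCongrRight_apply]
  exact (f _ _).2

/-- Let G and H be finite groups with the same order type (for every m the same number of elements of order m). If G is supersolvable then H is solvable. -/
theorem result {G H : Type*} [Group G] [Finite G] [Group H] [Finite H] (hT : (∀ m : ℕ, Nat.card {g : G // orderOf g = m} = Nat.card {h : H // orderOf h = m})) (hG : Cfsg.IsSupersolvable G) :
    Group.IsSolvable H := by
  have hTG := T_of_supersolvable _ G rfl hG
  obtain ⟨e, he⟩ := exists_orderEquiv hT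
  apply solvable_of_T _ H rfl
  intro r
  obtain ⟨d, e', h1, h2, h3, h4⟩ := hTG r
  refine ⟨d, e', ?_, h2, h3, ?_⟩
  · rw [← h1]
    exact (Nat.card_congr e).symm
  · rw [← h4]
    symm
    apply Nat.card_congr
    exact e.subtypeEquiv (fun g => by rw [he])

end Cfsg.Agent.S3998
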