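import Cfsg.Statements.S3999
import Cfsg.Agent.S3359
import Cfsg.Agent.S3997
import Cfsg.Agent.Lib.H69.SameOrder
import Cfsg.Agent.Lib.H69.Fifteen
import Cfsg.Agent.Lib.H69.FrobData

set_option autoImplicit false
open Cfsg

namespace Cfsg.Agent.S3999

open Subgroup
open scoped Pointwise

theorem map_equiv {X Y : Type*} [Group X] [Group Y] (e : X ≃* Y) {C : Subgroup X}
    (hC : IsFrobeniusComplement C) : IsFrobeniusComplement (C.map e.toMonoidHom) := by
  obtain ⟨h1, h2, h3⟩ := hC
  refine ⟨?_, ?_, ?_⟩
  · intro h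
    apply h1
    rwa [Subgroup.map_eq_bot_iff_of_injective _ e.injective] at h
  · intro h
    apply h2
    rw [eq_top_iff]
    intro x _
    have : e x ∈ C.map e.toMonoidHom := by rw [h]; exact mem_top _
    obtain ⟨y, hy, hyx⟩ := this
    have := e.injective hyx
    rwa [← this]
  · intro g hg
    have hg' : e.symm g ∉ C := fun h => hg ⟨e.symm g, h, by simp⟩
    have h4 := h3 _ hg'
    rw [eq_bot_iff] at h4 ⊢
    rintro x hx
    rw [mem_inf] at hx
    obtain ⟨⟨y, hy, rfl⟩, hx2⟩ := hx
    rw [H1.SZ.mem_conj_smul] at hx2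
    obtain ⟨z, hz, hzy⟩ := hx2
    have hz2 : z = (e.symm g)⁻¹ * y * e.symm g := by
      apply e.injective
      rw [show e z = e.toMonoidHom z from rfl, hzy]
      simp
    have : y ∈ C ⊓ (MulAut.conj (e.symm g) • C) := by
      rw [mem_inf]
      refine ⟨hy, ?_⟩
      rw [H1.SZ.mem_conj_smul, ← hz2]
      exact hz
    have h5 := h4 this
    rw [mem_bot] at h5 ⊢
    rw [h5, map_one]

theorem solvable_iff {X : Type*} [Group X] [Finite X] {C N : Subgroup X} (hC : IsFrobeniusComplement C)
    (hN : (N : Set X) = frobeniusKernel C) (hNn : N.Normal) (hNc : N.IsComplement' C)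
    (hNnil : Group.IsNilpotent N) (hcop : (Nat.card C).Coprime (Nat.card N)) :
    Group.IsSolvable X ↔ (15 ∣ Nat.card C → ∃ x : X, orderOf x = 15) := by
  constructor
  · intro hs h15
    have hsC : Group.IsSolvable C := inferInstance
    obtain ⟨x, -, hx⟩ := H69.Fifteen.exists_fifteen hC hsC h15
    exact ⟨x, hx⟩
  · intro h
    have hsC : Group.IsSolvable C := by
      by_contra hns
      have hFC : ∃ (L : Type) (_ : Group L) (_ : Finite L) (H : Subgroup L),
          Cfsg.IsFrobeniusComplement H ∧ Nonempty (C ≃* H) := by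
        let e : X ≃* Shrink.{0} X := (Shrink.mulEquiv.{0} (α := X)).symm
        exact ⟨Shrink.{0} X, inferInstance, inferInstance, C.map e.toMonoidHom, map_equiv e hC,
          ⟨C.equivMapOfInjective e.toMonoidHom e.injective⟩⟩
      obtain ⟨h15, hno⟩ := H69.Fifteen.of_struct (Cfsg.Agent.S3359.result hns hFC)
      obtain ⟨x, hx⟩ := h h15
      have hxN : x ∉ N := by
        intro hxN
        have h1 : 15 ∣ Nat.card N := by
          rw [← hx, ← Subgroup.orderOf_mk x hxN]; exact orderOf_dvd_natCard _
        have := Nat.dvd_gcd h15 h1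
        rw [hcop] at this
        norm_num at this
      have hx1 : x ∉ frobeniusKernel C := by
        rw [← hN]; exact hxN
      simp only [frobeniusKernel, Set.mem_ofPred_eq, not_or, not_forall, not_not] at hx1
      obtain ⟨hx1, g, hg⟩ := hx1
      rw [H1.SZ.mem_conj_smul] at hg
      apply hno ⟨g⁻¹ * x * g, hg⟩
      rw [Subgroup.orderOf_mk]
      have := orderOf_injective (MulAut.conj g⁻¹).toMonoidHom (MulAut.conj g⁻¹).injective x
      rw [← hx, ← this]
      simp
    have hsN : Group.IsSolvable N := inferInstance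
    have hsQ : Group.IsSolvable (X ⧸ N) := by
      apply Group.isSolvable_of_surjective (f := (QuotientGroup.mk' N).comp C.subtype)
      intro y
      obtain ⟨x, rfl⟩ := QuotientGroup.mk_surjective y
      obtain ⟨⟨n, c⟩, hnc, -⟩ := hNc.existsUnique x
      refine ⟨c, ?_⟩
      change ((c : X) : X ⧸ N) = (x : X ⧸ N)
      rw [← hnc]
      change ((c : X) : X ⧸ N) = (((n : X) * (c : X) : X) : X ⧸ N)
      rw [QuotientGroup.mk_mul, (QuotientGroup.eq_one_iff (n : X)).2 n.2, one_mul]
    exact (Group.isSolvable_iff_subgroup_quotient N).2 ⟨hsN, hsQ⟩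

/-- Let F be a finite Frobenius group (it has a Frobenius complement) and G a finite group with the same order type as F (for every m the same number of elements of order m). Then G is a Frobenius group; moreover G is solvable if and only if F is. -/
theorem result {F G : Type*} [Group F] [Finite F] [Group G] [Finite G] (hF : (∃ C : Subgroup F, Cfsg.IsFrobeniusComplement C)) (hT : (∀ m : ℕ, Nat.card {g : F // orderOf g = m} = Nat.card {h : G // orderOf h = m})) :
    (∃ C : Subgroup G, Cfsg.IsFrobeniusComplement C) ∧ (Group.IsSolvable G ↔ Group.IsSolvable F) := by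
  classical
  obtain ⟨C, hC⟩ := hF
  obtain ⟨e, he⟩ := Cfsg.Agent.S3997.exists_orderEquiv hT
  obtain ⟨N, hN, hNn, hNc, hNnil⟩ := H1.FpfNilp.frobeniusKernel_nilpotent hC
  obtain ⟨hC1, hC2, hTI⟩ := id hC
  have hfpf := H1.FrobConj.fpf_of_TI hTI hN
  have hcop := H1.FrobSyl.coprime_card C N
    (by rw [Subgroup.normalizer_eq_top_iff.mpr hNn]; exact le_top) hfpf
  have hNb : N ≠ ⊥ := by
    rintro rfl
    apply hC2
    have := hNc.sup_eq_top
    rwa [bot_sup_eq] at this
  have hFcard : Nat.card F = Nat.card N * Nat.card C := hNc.card_mul.symm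
  have hGF : Nat.card G = Nat.card F := (Nat.card_congr e).symm
  have hfac : ∀ p, p ∈ (Nat.card N).primeFactors →
      (Nat.card F).factorization p = (Nat.card N).factorization p := by
    intro p hp
    rw [hFcard, Nat.factorization_mul Nat.card_pos.ne' Nat.card_pos.ne']
    have : (Nat.card C).factorization p = 0 := by
      apply Nat.factorization_eq_zero_of_not_dvd
      intro h
      have h2 := Nat.dvd_gcd h (Nat.dvd_of_mem_primeFactors hp)
      rw [hcop] at h2
      exact (Nat.prime_of_mem_primeFactors hp).one_lt.ne' (Nat.dvd_one.1 h2)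
    simp [this]
  -- normal Sylow subgroups
  have hs : ∀ p ∈ (Nat.card N).primeFactors, p.Prime ∧ ∀ Q : Sylow p G, (Q : Subgroup G).Normal := by
    intro p hp
    have hpp := Nat.prime_of_mem_primeFactors hp
    have := Fact.mk hpp
    refine ⟨hpp, fun Q => ?_⟩
    obtain ⟨P⟩ : Nonempty (Sylow p N) := inferInstance
    have hPN : (P : Subgroup N).Normal := by
      have := (Group.isNilpotent_of_finite_tfae (G := N)).out 0 3
      exact this.1 hNnil p ⟨hpp⟩ P
    have hPc : (P : Subgroup N).Characteristic := by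
      exact Sylow.characteristic_of_normal P hPN
    have hP1 : ((P : Subgroup N).map N.subtype).Normal := inferInstance
    have hcard : Nat.card ((P : Subgroup N).map N.subtype) = p ^ (Nat.card F).factorization p := by
      rw [Subgroup.card_map_of_injective N.subtype_injective, hfac p hp]
      exact P.card_eq_multiplicity
    let P' : Sylow p F := Sylow.ofCard ((P : Subgroup N).map N.subtype) hcard
    exact H69.SameOrder.sylow_normal e he P' hP1 Q
  obtain ⟨M, hM, hMf, hMc⟩ := H69.SameOrder.exists_normal_hall _ hs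
  have hMN : Nat.card M = Nat.card N := by
    rw [hMc, hGF]
    conv_rhs => rw [← Nat.prod_factorization_pow_eq_self (Nat.card_pos (α := N)).ne']
    rw [Nat.prod_factorization_eq_prod_primeFactors]
    exact Finset.prod_congr rfl (fun p hp => by rw [hfac p hp])
  have hMi : M.index = Nat.card C := by
    have h1 := M.card_mul_index
    rw [hMN, hGF, hFcard] at h1
    exact Nat.eq_of_mul_eq_mul_left Nat.card_pos h1
  have hmix : ∀ p q : ℕ, p.Prime → q.Prime → p ∣ Nat.card M → q ∣ M.index →
      ∀ g : G, orderOf g ≠ p * q := by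
    intro p q hp hq hpM hqM g hg
    obtain ⟨x, rfl⟩ := e.surjective g
    rw [he] at hg
    -- `x` has order `p * q`
    have hxN : x ∉ N := by
      intro hxN
      have h1 : p * q ∣ Nat.card N := by
        rw [← hg, ← Subgroup.orderOf_mk x hxN]; exact orderOf_dvd_natCard _
      have h2 := Nat.dvd_gcd (hMi ▸ hqM) ((dvd_mul_left q p).trans h1)
      rw [hcop] at h2
      exact hq.one_lt.ne' (Nat.dvd_one.1 h2)
    have hx1 : x ∉ frobeniusKernel C := by
      rw [← hN]; exact hxN
    simp only [frobeniusKernel, Set.mem_ofPred_eq, not_or, not_forall, not_not] at hx1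
    obtain ⟨hx1, g, hgx⟩ := hx1
    rw [H1.SZ.mem_conj_smul] at hgx
    have h1 : orderOf (g⁻¹ * x * g) = orderOf x := by
      have := orderOf_injective (MulAut.conj g⁻¹).toMonoidHom (MulAut.conj g⁻¹).injective x
      rw [← this]
      simp
    have h2 : p * q ∣ Nat.card C := by
      rw [← hg, ← h1, ← Subgroup.orderOf_mk _ hgx]; exact orderOf_dvd_natCard _
    have h3 := Nat.dvd_gcd ((dvd_mul_right p q).trans h2) (hMN ▸ hpM)
    rw [hcop] at h3
    exact hp.one_lt.ne' (Nat.dvd_one.1 h3)
  obtain ⟨C', hC', hMC'⟩ := H69.SameOrder.exists_complement M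
    (by rw [hMN]; exact fun h => hNb (Subgroup.card_eq_one.1 h))
    (by rw [hMi]; exact fun h => hC1 (Subgroup.card_eq_one.1 h))
    (by rw [hMN, hMi]; exact hcop.symm) hmix
  refine ⟨⟨C', hC'⟩, ?_⟩
  have hC'card : Nat.card C' = Nat.card C := by
    rw [← hMi]; exact (hMC'.symm.index_eq_card).symm
  obtain ⟨N', hN', hN'n, hN'c, hN'nil⟩ := H1.FpfNilp.frobeniusKernel_nilpotent hC'
  have hfpf' := H1.FrobConj.fpf_of_TI hC'.2.2 hN'
  have hcop' := H1.FrobSyl.coprime_card C' N'
    (by rw [Subgroup.normalizer_eq_top_iff.mpr hN'n]; exact le_top) hfpf'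
  rw [solvable_iff hC' hN' hN'n hN'c hN'nil hcop', solvable_iff hC hN hNn hNc hNnil hcop, hC'card]
  constructor
  · intro h h15
    obtain ⟨x, hx⟩ := h h15
    obtain ⟨y, rfl⟩ := e.surjective x
    exact ⟨y, by rw [← he, hx]⟩
  · intro h h15
    obtain ⟨x, hx⟩ := h h15
    exact ⟨e x, by rw [he, hx]⟩

end Cfsg.Agent.S3999
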