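import Cfsg.Statements.S4001
import Cfsg.Agent.Lib.H69.FrobData
import Cfsg.Agent.Lib.H69.TwoFrob

set_option autoImplicit false
open Cfsg

namespace Cfsg.Agent.S4001

open Subgroup H69.FrobData H69.TwoFrob
open scoped Pointwise

/-- `K/H` has odd order -/
theorem odd_of {G : Type*} [Group G] [Finite G] (H K : Subgroup G) [H.Normal] [K.Normal]
    (C : Subgroup ↥K) (e : ↥C ≃* ↥(K.map (QuotientGroup.mk' H)))
    (hN1 : H.subgroupOf K ≠ ⊥)
    (hfpf : ∀ c ∈ C, c ≠ 1 → H.subgroupOf K ⊓ centralizer {c} = ⊥)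
    (D : Subgroup (G ⧸ H)) (hD1 : D ≠ ⊥)
    (hDfpf : ∀ c ∈ D, c ≠ 1 → K.map (QuotientGroup.mk' H) ⊓ centralizer {c} = ⊥) :
    ¬ 2 ∣ Nat.card ↥C := by
  have hN2n : (K.map (QuotientGroup.mk' H)).Normal :=
    Subgroup.Normal.map ‹K.Normal› _ (QuotientGroup.mk'_surjective H)
  intro h2
  obtain ⟨t, ht⟩ := exists_prime_orderOf_dvd_card' 2 h2
  obtain ⟨d, hd, hd1⟩ := (Subgroup.ne_bot_iff_exists_ne_one).mp hD1 |> fun ⟨x, hx⟩ =>
    (⟨x, x.2, fun h => hx (Subtype.ext h)⟩ : ∃ y : G ⧸ H, y ∈ D ∧ y ≠ 1)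
  have h3 : orderOf (e t) = 2 := by rw [MulEquiv.orderOf_eq, ht]
  have hsmem : d * (e t : G ⧸ H) * d⁻¹ ∈ K.map (QuotientGroup.mk' H) := hN2n.conj_mem _ (e t).2 d
  have hs : orderOf (⟨d * (e t : G ⧸ H) * d⁻¹, hsmem⟩ : ↥(K.map (QuotientGroup.mk' H))) = 2 := by
    have h5 : orderOf (d * (e t : G ⧸ H) * d⁻¹) = orderOf ((e t : G ⧸ H)) := by
      have h4 := MulEquiv.orderOf_eq (MulAut.conj d) (e t : G ⧸ H)
      rwa [MulAut.conj_apply] at h4
    rw [Subgroup.orderOf_mk, h5, Subgroup.orderOf_coe, h3]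
  have h4 : orderOf (e.symm ⟨d * (e t : G ⧸ H) * d⁻¹, hsmem⟩) = 2 := by
    rw [MulEquiv.orderOf_eq, hs]
  have h5 : ((e.symm ⟨d * (e t : G ⧸ H) * d⁻¹, hsmem⟩ : ↥C) : ↥K) = (t : ↥K) := by
    apply involution_unique hN1 hfpf (Subtype.mem _) t.2
    · rw [Subgroup.orderOf_coe, h4]
    · rw [Subgroup.orderOf_coe, ht]
  have h6 : (⟨d * (e t : G ⧸ H) * d⁻¹, hsmem⟩ : ↥(K.map (QuotientGroup.mk' H))) = e t := by
    rw [← e.symm_apply_eq]
    exact Subtype.ext h5
  have h7 : d * (e t : G ⧸ H) * d⁻¹ = (e t : G ⧸ H) := congrArg Subtype.val h6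
  have h8 : (e t : G ⧸ H) ∈ K.map (QuotientGroup.mk' H) ⊓ centralizer {d} := by
    refine Subgroup.mem_inf.2 ⟨(e t).2, ?_⟩
    rw [Subgroup.mem_centralizer_singleton_iff]
    exact (mul_inv_eq_iff_eq_mul.1 h7).symm
  rw [hDfpf d hd hd1, Subgroup.mem_bot] at h8
  have h9 : e t = 1 := Subtype.ext h8
  rw [h9, orderOf_one] at h3
  omega

/-- Let G be a 2-Frobenius group: it has normal subgroups H < K with K a Frobenius group with kernel H and G/H a Frobenius group with kernel K/H. Then G is solvable; K/H has odd order coprime to the order of H and to the order of G/K (it is the image of an odd-order Hall subgroup); G/K is cyclic; and the prime graph of G has exactly two connected components, both complete: for distinct primes p, q dividing the order of G, G has an element of order pq exactly when p and q either both divide the order of K/H or both do not. -/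
theorem result {G : Type*} [Group G] [Finite G] (H K : Subgroup G) [H.Normal] [K.Normal] (hlt : H < K)
    (hK : ∃ C : Subgroup ↥K, Cfsg.IsFrobeniusComplement C ∧ Cfsg.frobeniusKernel C = (H.subgroupOf K : Set ↥K))
    (hGH : ∃ C : Subgroup (G ⧸ H), Cfsg.IsFrobeniusComplement C ∧ Cfsg.frobeniusKernel C = (K.map (QuotientGroup.mk' H) : Set (G ⧸ H))) :
    Group.IsSolvable G ∧ Odd (Nat.card (↥K ⧸ H.subgroupOf K)) ∧
      Nat.Coprime (Nat.card (↥K ⧸ H.subgroupOf K)) (Nat.card ↥H * Nat.card (G ⧸ K)) ∧ IsCyclic (G ⧸ K) ∧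
      ∀ p q : ℕ, p.Prime → q.Prime → p ≠ q → p ∣ Nat.card G → q ∣ Nat.card G →
        ((∃ g : G, orderOf g = p * q) ↔ (p ∣ Nat.card (↥K ⧸ H.subgroupOf K) ↔ q ∣ Nat.card (↥K ⧸ H.subgroupOf K))) := by
  have hle := hlt.le
  haveI hN2n : (K.map (QuotientGroup.mk' H)).Normal :=
    Subgroup.Normal.map ‹K.Normal› _ (QuotientGroup.mk'_surjective H)
  obtain ⟨C, hC, hC1, hN1, hcompl, hnil, hfpf, hcent, hcop⟩ := frob_data (H.subgroupOf K) hK
  obtain ⟨D, hD, hD1, hN2, hDcompl, hDnil, hDfpf, hDcent, hDcop⟩ :=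
    frob_data (K.map (QuotientGroup.mk' H)) hGH
  have hcardN : Nat.card ↥(H.subgroupOf K) = Nat.card ↥H := H1.SZ.card_subgroupOf_of_le hle
  have hidx : Nat.card (↥K ⧸ H.subgroupOf K) = Nat.card ↥C := by
    have := hcompl.symm.index_eq_card
    rwa [Subgroup.index_eq_card] at this
  have hHnil : Group.IsNilpotent ↥H :=
    Group.nilpotent_of_mulEquiv (Subgroup.subgroupOfEquivOfLe hle)
  obtain ⟨e⟩ := exists_iso H K hle C hcompl
  have hcardL : Nat.card ↥(K.map (QuotientGroup.mk' H)) = Nat.card ↥C :=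
    (Nat.card_congr e.toEquiv).symm
  have hCnil : Group.IsNilpotent ↥C := Group.nilpotent_of_mulEquiv e.symm
  have hodd := odd_of H K C e hN1 hfpf D hD1 hDfpf
  have hZ : IsZGroup ↥C := H1.FrobConj.isZGroup_of_odd hC hodd
  have hCcyc : IsCyclic ↥C := inferInstance
  have hLcyc : IsCyclic ↥(K.map (QuotientGroup.mk' H)) := isCyclic_of_surjective e e.surjective
  have hDcyc : IsCyclic ↥D := cyclic_of_fpf_cyclic hN2 hLcyc hDfpf
  obtain ⟨π, hπ⟩ := exists_surj H K hle D hDcompl
  have hGK : IsCyclic (G ⧸ K) := isCyclic_of_surjective _ hπ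
  have hcardGK : Nat.card (G ⧸ K) ∣ Nat.card ↥D := Subgroup.card_dvd_of_surjective _ hπ
  have hsolC : Group.IsSolvable ↥C := inferInstance
  have hsol : Group.IsSolvable G := by
    apply solvable H K inferInstance _ inferInstance
    exact Group.isSolvable_of_isSolvable_injective (f := e.symm.toMonoidHom) e.symm.injective
  have hcH : (Nat.card ↥C).Coprime (Nat.card ↥H) := by rwa [hcardN] at hcop
  have hcGK : (Nat.card ↥C).Coprime (Nat.card (G ⧸ K)) := by
    rw [hcardL] at hDcop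
    exact (Nat.Coprime.coprime_dvd_left hcardGK hDcop).symm
  have hcardK : Nat.card ↥H * Nat.card ↥C = Nat.card ↥K := by
    rw [← hcardL]; exact H1.Cores.card_map_mk' H K hle
  have hcardG : Nat.card ↥K * Nat.card (G ⧸ K) = Nat.card G := by
    rw [← Subgroup.index_eq_card]; exact Subgroup.card_mul_index K
  -- fixed point freeness in ambient form
  have hf1 : ∀ a ∈ K, a ∉ H → H ⊓ centralizer {a} = ⊥ := by
    intro a ha haH
    rw [eq_bot_iff]
    intro x hx
    rw [Subgroup.mem_inf, Subgroup.mem_centralizer_singleton_iff] at hx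
    rw [Subgroup.mem_bot]
    by_contra hx1
    have h1 := hcent ⟨x, hle hx.1⟩ (Subgroup.mem_subgroupOf.2 hx.1)
      (fun h => hx1 (congrArg Subtype.val h))
    have h2 : (⟨a, ha⟩ : ↥K) ∈ centralizer {(⟨x, hle hx.1⟩ : ↥K)} := by
      rw [Subgroup.mem_centralizer_singleton_iff]
      exact Subtype.ext hx.2.symm
    exact haH (Subgroup.mem_subgroupOf.1 (h1 h2))
  have hf2 : ∀ x ∈ K, x ∉ H → ∀ y : G, x * y = y * x → y ∈ K := by
    intro x hx hxH y hxy
    have h1 := hDcent (x : G ⧸ H) ((mem_map_iff H K hle x).2 hx)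
      (fun h => hxH ((QuotientGroup.eq_one_iff x).1 h))
    have h2 : (y : G ⧸ H) ∈ centralizer {(x : G ⧸ H)} := by
      rw [Subgroup.mem_centralizer_singleton_iff]
      rw [← QuotientGroup.mk_mul, ← QuotientGroup.mk_mul, hxy]
    exact (mem_map_iff H K hle y).1 (h1 h2)
  have hb1 : Nat.card ↥C ≠ 1 := fun h => hC1 (Subgroup.card_eq_one.1 h)
  rw [hidx]
  refine ⟨hsol, ?_, ?_, hGK, ?_⟩
  · rw [← Nat.not_even_iff_odd, even_iff_two_dvd]; exact hodd
  · exact Nat.Coprime.mul_right hcH hcGK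
  · -- one direction: mixed primes
    have hmixed : ∀ p q : ℕ, p.Prime → q.Prime → p ≠ q → p ∣ Nat.card ↥C → ¬ q ∣ Nat.card ↥C →
        ¬ ∃ g : G, orderOf g = p * q := by
      rintro p q hp hq hpq hpC hqC ⟨g, hg⟩
      have hx : orderOf (g ^ q) = p := by
        rw [orderOf_pow_of_dvd hq.ne_zero ⟨p, by rw [hg, mul_comm]⟩, hg,
          Nat.mul_div_cancel _ hq.pos]
      have hy : orderOf (g ^ p) = q := by
        rw [orderOf_pow_of_dvd hp.ne_zero ⟨q, hg⟩, hg, Nat.mul_div_cancel_left _ hp.pos]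
      have hxy : g ^ q * g ^ p = g ^ p * g ^ q := by rw [← pow_add, ← pow_add, add_comm]
      have hxK : g ^ q ∈ K := by
        apply mem_of_coprime K
        rw [hx]; exact Nat.Coprime.coprime_dvd_left hpC hcGK
      have hxH : g ^ q ∉ H := by
        intro h
        have h1 : p ∣ Nat.card ↥H := by
          rw [← hx, ← Subgroup.orderOf_mk (g ^ q) h]
          exact orderOf_dvd_natCard _
        exact hp.one_lt.ne' (Nat.eq_one_of_dvd_coprimes hcH hpC h1)
      have hyK : g ^ p ∈ K := hf2 _ hxK hxH _ hxy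
      have hyH : g ^ p ∈ H := by
        have h1 : (⟨g ^ p, hyK⟩ : ↥K) ∈ H.subgroupOf K := by
          apply mem_of_coprime
          rw [hidx, Subgroup.orderOf_mk, hy]
          exact (Nat.Prime.coprime_iff_not_dvd hq).2 hqC
        exact Subgroup.mem_subgroupOf.1 h1
      have h1 := hf1 _ hxK hxH
      have h2 : g ^ p ∈ H ⊓ centralizer {g ^ q} := by
        refine Subgroup.mem_inf.2 ⟨hyH, ?_⟩
        rw [Subgroup.mem_centralizer_singleton_iff]
        exact hxy.symm
      rw [h1, Subgroup.mem_bot] at h2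
      rw [h2, orderOf_one] at hy
      exact hq.one_lt.ne hy
    intro p q hp hq hpq hpG hqG
    constructor
    · rintro ⟨g, hg⟩
      constructor
      · intro h
        by_contra hq'
        exact hmixed p q hp hq hpq h hq' ⟨g, hg⟩
      · intro h
        by_contra hp'
        exact hmixed q p hq hp hpq.symm h hp' ⟨g, by rw [hg, mul_comm]⟩
    · intro hiff
      by_cases hpC : p ∣ Nat.card ↥C
      · obtain ⟨c, hc⟩ := exists_of_cyclic (B := ↥C) hp hq hpq hpC (hiff.1 hpC)
        exact ⟨((c : ↥K) : G), by rw [Subgroup.orderOf_coe, Subgroup.orderOf_coe, hc]⟩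
      · have hqC : ¬ q ∣ Nat.card ↥C := fun h => hpC (hiff.2 h)
        have hdiv : ∀ s : ℕ, s.Prime → s ∣ Nat.card G → ¬ s ∣ Nat.card ↥C →
            s ∣ Nat.card ↥H ∨ (s ∣ Nat.card (G ⧸ K) ∧ ¬ s ∣ Nat.card ↥K) := by
          intro s hs hsG hsC
          by_cases hsH : s ∣ Nat.card ↥H
          · exact Or.inl hsH
          · right
            have h1 : ¬ s ∣ Nat.card ↥K := by
              rw [← hcardK, hs.dvd_mul]
              push Not; exact ⟨hsH, hsC⟩
            refine ⟨?_, h1⟩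
            rw [← hcardG, hs.dvd_mul] at hsG
            exact hsG.resolve_left h1
        have hcross : ∀ s t : ℕ, s.Prime → t.Prime → s ∣ Nat.card ↥H → ¬ t ∣ Nat.card ↥K →
            t ∣ Nat.card G → ∃ g : G, orderOf g = s * t := by
          intro s t hs ht h1 h2 h3
          exact exists_cross hs ht H K hle hLcyc hHnil (by rw [hcardL]; exact hcH.symm)
            (by rw [hcardL]; exact hcGK) (by rw [hcardL]; exact hb1) hf1 hf2 h1 h2 h3
        rcases hdiv p hp hpG hpC with h1 | ⟨h1, h1'⟩ <;> rcases hdiv q hq hqG hqC with h2 | ⟨h2, h2'⟩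
        · exact exists_mul_nilpotent hHnil hp hq hpq h1 h2
        · exact hcross p q hp hq h1 h2' hqG
        · obtain ⟨g, hg⟩ := hcross q p hq hp h2 h1' hpG
          exact ⟨g, by rw [hg, mul_comm]⟩
        · obtain ⟨b, hb⟩ := exists_of_cyclic (B := G ⧸ K) hp hq hpq h1 h2
          exact exists_of_map (QuotientGroup.mk' K) (QuotientGroup.mk'_surjective K) hb

end Cfsg.Agent.S4001
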