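import Cfsg.Statements.S4002
import Cfsg.Agent.Lib.H69.ThreePrimes

set_option autoImplicit false
open Cfsg

namespace Cfsg.Agent.S4002

theorem primes (n : ℕ) (hn : 7 ≤ n) : ∃ p q r : ℕ, p.Prime ∧ q.Prime ∧ r.Prime ∧ p < q ∧ q < r ∧
    r ≤ n ∧ n < p * q := by
  by_cases h1 : n < 15
  · exact ⟨3, 5, 7, by norm_num, by norm_num, by norm_num, by norm_num, by norm_num, hn, h1⟩
  by_cases h2 : n < 35
  · exact ⟨5, 7, 11, by norm_num, by norm_num, by norm_num, by norm_num, by norm_num, by omega, h2⟩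
  by_cases h3 : n < 77
  · exact ⟨7, 11, 13, by norm_num, by norm_num, by norm_num, by norm_num, by norm_num, by omega, h3⟩
  set m := Nat.sqrt n with hm
  have hm8 : 8 ≤ m := by
    rw [hm, Nat.le_sqrt]
    omega
  have hmn : m * m ≤ n := Nat.sqrt_le n
  have hmn' : n < (m + 1) * (m + 1) := Nat.lt_succ_sqrt n
  obtain ⟨p, hp, hp1, hp2⟩ := Nat.exists_prime_lt_and_le_two_mul m (by omega)
  obtain ⟨q, hq, hq1, hq2⟩ := Nat.exists_prime_lt_and_le_two_mul p (by omega)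
  obtain ⟨r, hr, hr1, hr2⟩ := Nat.exists_prime_lt_and_le_two_mul q (by omega)
  refine ⟨p, q, r, hp, hq, hr, hq1, hr1, ?_, ?_⟩
  · have : r ≤ 8 * m := by omega
    nlinarith
  · have h4 : m + 1 ≤ p := hp1
    have h5 : m + 1 ≤ q := by omega
    calc n < (m + 1) * (m + 1) := hmn'
      _ ≤ p * q := Nat.mul_le_mul h4 h5

/-- If the set of element orders of a finite group G is {1, 2, …, n} with n ≥ 7, then G is not solvable. -/
theorem result {G : Type*} [Group G] [Finite G] (n : ℕ) (hn : 7 ≤ n) (h : Set.range (orderOf : G → ℕ) = {k : ℕ | 1 ≤ k ∧ k ≤ n}) : ¬ Group.IsSolvable G := by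
  intro hs
  obtain ⟨p, q, r, hp, hq, hr, hpq, hqr, hrn, hnpq⟩ := primes n hn
  have hdvd : ∀ s, 1 ≤ s → s ≤ n → s ∣ Nat.card G := by
    intro s h1 h2
    have h3 : s ∈ Set.range (orderOf : G → ℕ) := by rw [h]; exact ⟨h1, h2⟩
    obtain ⟨g, hg⟩ := h3
    rw [← hg]
    exact orderOf_dvd_natCard g
  have hle : ∀ g : G, orderOf g ≤ n := by
    intro g
    have h1 : orderOf g ∈ {k : ℕ | 1 ≤ k ∧ k ≤ n} := by rw [← h]; exact ⟨g, rfl⟩
    exact h1.2
  obtain ⟨g, hg⟩ := H69.ThreePrimes.three_primes hs hp hq hr hpq.ne (hpq.trans hqr).ne hqr.ne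
    (hdvd p hp.one_lt.le (by omega)) (hdvd q hq.one_lt.le (by omega)) (hdvd r hr.one_lt.le hrn)
  have h1 := hle g
  have h2 := hp.pos
  rcases hg with hg | hg | hg
  · rw [hg] at h1; omega
  · rw [hg] at h1
    have : p * q ≤ p * r := Nat.mul_le_mul_left p hqr.le
    omega
  · rw [hg] at h1
    have : p * q ≤ q * r := by rw [mul_comm]; exact Nat.mul_le_mul_left q (hpq.trans hqr).le
    omega

end Cfsg.Agent.S4002
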