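import Cfsg.Statements.S4004
import Cfsg.Agent.Lib.H69.OrdSolv
import Cfsg.Agent.Lib.H69.OrdTwo
import Cfsg.Agent.Lib.H69.TwoPrimeFrob

set_option autoImplicit false
open Cfsg

namespace Cfsg.Agent.S4004

open H69.OrdCount H69.OrdClass H69.OrdSolv

/-- two odd primes cannot have the same value -/
theorem no_same {G : Type*} [Group G] [Finite G] {p q : ℕ} (hp : p.Prime) (hq : q.Prime) (hpq : p ≠ q)
    (hall : ∀ s : ℕ, s.Prime → s ∣ Nat.card G → s = p ∨ s = q) (h1 : p ∣ Nat.card G)
    (h2 : q ∣ Nat.card G) (hp2 : N G (p ^ 2) = 0) (hq2 : N G (q ^ 2) = 0) (h : N G p = N G q) :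
    False := by
  have e1 := ordProj_dvd hp h1 hp2
  have e2 := ordProj_dvd hq h2 hq2
  rw [← h] at e2
  have hcard : Nat.card G = p ^ (Nat.card G).factorization p * q ^ (Nat.card G).factorization q := by
    obtain ⟨a, b, hab⟩ := H71.FourOrbits.exists_pow_mul_pow (Nat.card_pos (α := G)).ne' hp hq hall
    have hfp : (Nat.card G).factorization p = a := by
      rw [hab, Nat.factorization_mul (pow_ne_zero _ hp.ne_zero) (pow_ne_zero _ hq.ne_zero),
        hp.factorization_pow, hq.factorization_pow]
      simp [hpq.symm]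
    have hfq : (Nat.card G).factorization q = b := by
      rw [hab, Nat.factorization_mul (pow_ne_zero _ hp.ne_zero) (pow_ne_zero _ hq.ne_zero),
        hp.factorization_pow, hq.factorization_pow]
      simp [hpq]
    rw [hfp, hfq]; exact hab
  have hdvd : Nat.card G ∣ 1 + N G p := by
    rw [hcard]
    exact (Nat.Coprime.pow _ _ ((Nat.coprime_primes hp hq).2 hpq)).mul_dvd_of_dvd_of_dvd e1 e2
  have hle := Nat.le_of_dvd (by omega) hdvd
  have hpos := prime_ne_zero hp h1
  -- counting
  have hsum : 1 + N G p + N G q ≤ Nat.card G := by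
    classical
    have := Fintype.ofFinite G
    unfold N
    rw [Nat.card_eq_fintype_card, Nat.card_eq_fintype_card, Nat.card_eq_fintype_card,
      Fintype.card_subtype, Fintype.card_subtype]
    have hd1 : Disjoint (Finset.univ.filter fun g : G => orderOf g = p)
        (Finset.univ.filter fun g : G => orderOf g = q) := by
      rw [Finset.disjoint_left]
      intro g hg hg'
      rw [Finset.mem_filter] at hg hg'
      exact hpq (hg.2.symm.trans hg'.2)
    rw [add_assoc, ← Finset.card_union_of_disjoint hd1]
    have hd2 : (1 : G) ∉ (Finset.univ.filter fun g : G => orderOf g = p) ∪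
        (Finset.univ.filter fun g : G => orderOf g = q) := by
      rw [Finset.mem_union, Finset.mem_filter, Finset.mem_filter, orderOf_one]
      rintro (h | h)
      · exact hp.one_lt.ne h.2
      · exact hq.one_lt.ne h.2
    rw [add_comm, ← Finset.card_insert_of_notMem hd2]
    exact Finset.card_le_univ _
  omega

/-- Let G be a finite group of odd order in which the numbers of elements of each order that occurs (the numbers #{g : o(g) = m}, m ranging over the element orders of G) take exactly three different values. Then the order of G has at most two prime divisors; and if it has exactly two, then every Sylow subgroup of G for a prime dividing its order has prime exponent, G is a Frobenius group, and some Frobenius complement of G has prime order. -/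
theorem result {G : Type*} [Group G] [Finite G] (hodd : Odd (Nat.card G)) (h : (((fun m : ℕ => Nat.card {g : G // orderOf g = m}) '' Set.range (orderOf : G → ℕ))).ncard = 3) :
    (Nat.card G).primeFactors.card ≤ 2 ∧
      ((Nat.card G).primeFactors.card = 2 →
        (∀ (p : ℕ) [Fact p.Prime] (P : Sylow p G), p ∣ Nat.card G → Monoid.exponent ↥(P : Subgroup G) = p) ∧
        ∃ C : Subgroup G, Cfsg.IsFrobeniusComplement C ∧ (Nat.card ↥C).Prime) := by
  have hsol : Group.IsSolvable G := solvable_three h
  have hn2 : ¬ 2 ∣ Nat.card G := by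
    intro h2
    rw [← Nat.not_even_iff_odd] at hodd
    exact hodd (even_iff_two_dvd.2 h2)
  have hmem : ∀ m, N G m ≠ 0 → N G m ∈
      ((fun m : ℕ => Nat.card {g : G // orderOf g = m}) '' Set.range (orderOf : G → ℕ)) := by
    intro m hm
    obtain ⟨g, hg⟩ := N_ne_zero_iff.1 hm
    exact ⟨m, ⟨g, hg⟩, rfl⟩
  have h1 : (1 : ℕ) ∈
      ((fun m : ℕ => Nat.card {g : G // orderOf g = m}) '' Set.range (orderOf : G → ℕ)) := by
    have := hmem 1 (by rw [N_one]; exact one_ne_zero)
    rwa [N_one] at this
  obtain ⟨α, β, hαβ, hα1, hβ1, hs'⟩ := ncard_three h h1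
  have hval : ∀ m, 3 ≤ m → N G m ≠ 0 → N G m = α ∨ N G m = β := by
    intro m hm hm0
    have h3 := hmem m hm0
    rw [hs'] at h3
    rcases h3 with h3 | h3
    · exfalso
      have := even_of_three_le (G := G) hm
      rw [h3] at this
      omega
    · exact h3
  have hodd2 : ∀ p : ℕ, p ∣ Nat.card G → p ≠ 2 := by rintro p hp rfl; exact hn2 hp
  constructor
  · by_contra hcon
    push Not at hcon
    obtain ⟨p, q, r, hp, hq, hr, hpq, hpr, hqr⟩ := Finset.two_lt_card_iff.1 hcon
    rw [Nat.mem_primeFactors] at hp hq hr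
    exact not_three hval hp.1 (hodd2 p hp.2.1) hq.1 (hodd2 q hq.2.1) hr.1 (hodd2 r hr.2.1)
      hpq hpr hqr hp.2.1 hq.2.1 hr.2.1
  · intro h2
    obtain ⟨p, q, hpq, hpf⟩ := Finset.card_eq_two.1 h2
    have hp : p.Prime ∧ p ∣ Nat.card G := by
      have : p ∈ (Nat.card G).primeFactors := by rw [hpf]; simp
      rw [Nat.mem_primeFactors] at this
      exact ⟨this.1, this.2.1⟩
    have hq : q.Prime ∧ q ∣ Nat.card G := by
      have : q ∈ (Nat.card G).primeFactors := by rw [hpf]; simp
      rw [Nat.mem_primeFactors] at this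
      exact ⟨this.1, this.2.1⟩
    have hall : ∀ s : ℕ, s.Prime → s ∣ Nat.card G → s = p ∨ s = q := by
      intro s hs hsG
      have : s ∈ (Nat.card G).primeFactors := Nat.mem_primeFactors.2 ⟨hs, hsG, Nat.card_pos.ne'⟩
      rw [hpf] at this
      simpa using this
    have hp2 := hodd2 p hp.2
    have hq2 := hodd2 q hq.2
    have hpsq := no_square hval hp.1 hp2 hq.1 hq2 hpq hp.2 hq.2
    have hqsq := no_square hval hq.1 hq2 hp.1 hp2 hpq.symm hq.2 hp.2
    have hsq : ∀ s : ℕ, s.Prime → s ∣ Nat.card G → N G (s ^ 2) = 0 := by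
      intro s hs hsG
      rcases hall s hs hsG with rfl | rfl
      · exact hpsq
      · exact hqsq
    constructor
    · intro r _ P hrG
      have hr : r.Prime := Fact.out
      have hrP : r ∣ Nat.card (P : Subgroup G) := by
        have := P.pow_dvd_card_of_pow_dvd_card (n := 1) (by rwa [pow_one])
        rwa [pow_one] at this
      refine (H69.OrdTwo.exponent_eq hr hrP ?_ ?_).2
      · intro t ht htP
        obtain ⟨n, hn⟩ := IsPGroup.iff_card.1 P.isPGroup'
        rw [hn] at htP
        exact (Nat.prime_dvd_prime_iff_eq ht hr).1 (ht.dvd_of_dvd_pow htP)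
      · by_contra hne
        exact H69.OrdTwo.N_subgroup _ hne (hsq r hr hrG)
    · -- mixed orders do not occur
      have hmix : N G (p * q) = 0 := by
        have hval' := fun m hm h' => (hval m hm h').symm
        rcases hval p (three_le hp.1 hp2) (prime_ne_zero hp.1 hp.2) with a | a <;>
        rcases hval q (three_le hq.1 hq2) (prime_ne_zero hq.1 hq.2) with b | b
        · exact (no_same hp.1 hq.1 hpq hall hp.2 hq.2 hpsq hqsq (a.trans b.symm)).elim
        · exact diff hval hp.1 hp2 hq.1 hq2 hpq hp.2 hq.2 a b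
        · exact diff hval' hp.1 hp2 hq.1 hq2 hpq hp.2 hq.2 a b
        · exact (no_same hp.1 hq.1 hpq hall hp.2 hq.2 hpsq hqsq (a.trans b.symm)).elim
      have hnt : Nontrivial G := by
        rw [← Finite.one_lt_card_iff_nontrivial]
        exact lt_of_lt_of_le hp.1.one_lt (Nat.le_of_dvd Nat.card_pos hp.2)
      obtain ⟨r, hr, hcore⟩ := H1.Hall.exists_pCore_ne_bot hsol
      have hFr := Fact.mk hr
      have hrG : r ∣ Nat.card G := by
        obtain ⟨n, hn⟩ := IsPGroup.iff_card.1 (H1.Cores.isPGroup_pCore (G := G) r)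
        have hn0 : n ≠ 0 := by
          rintro rfl
          rw [pow_zero] at hn
          exact hcore (Subgroup.card_eq_one.1 hn)
        have h5 : r ∣ Nat.card (Cfsg.pCore r G) := by rw [hn]; exact dvd_pow_self r hn0
        exact h5.trans (Subgroup.card_subgroup_dvd_card _)
      rcases hall r hr hrG with h5 | h5
      · rw [h5] at hcore
        exact H69.TwoPrimeFrob.main hp.1 hq.1 hpq hq2 hsol hall hq.2 hpsq hqsq hmix hcore
      · rw [h5] at hcore
        exact H69.TwoPrimeFrob.main hq.1 hp.1 hpq.symm hp2 hsol (fun s hs hsG => (hall s hs hsG).symm)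
          hp.2 hqsq hpsq (by rw [mul_comm]; exact hmix) hcore

end Cfsg.Agent.S4004
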