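import Cfsg.Statements.S4005
import Cfsg.Agent.Lib.H69.Spec23

set_option autoImplicit false
open Cfsg

namespace Cfsg.Agent.S4005

open H69.Spec23

theorem comm_of_sq {G : Type*} [Group G] (H : Subgroup G) (h : ∀ x ∈ H, x ^ 2 = 1) :
    ∀ x ∈ H, ∀ y ∈ H, x * y = y * x := by
  have hi : ∀ x ∈ H, x⁻¹ = x := by
    intro x hx
    have := h x hx
    rw [pow_two] at this
    exact inv_eq_of_mul_eq_one_right this
  intro x hx y hy
  have h1 := hi _ (mul_mem hx hy)
  rw [mul_inv_rev, hi x hx, hi y hy] at h1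
  exact h1.symm

/-- A finite group whose set of element orders is exactly {1, 2, 3} has either a normal elementary abelian 3-subgroup of index 2 or a normal elementary abelian 2-subgroup of index 3. -/
theorem result {G : Type*} [Group G] [Finite G] (h : Set.range (orderOf : G → ℕ) = {k : ℕ | 1 ≤ k ∧ k ≤ 3}) :
    (∃ N : Subgroup G, N.Normal ∧ Cfsg.IsElementaryAbelian 3 N ∧ N.index = 2) ∨
      (∃ N : Subgroup G, N.Normal ∧ Cfsg.IsElementaryAbelian 2 N ∧ N.index = 3) := by
  have hs2 : ∀ g : G, g ^ 2 = 1 ∨ g ^ 3 = 1 := by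
    intro g
    have h1 : orderOf g ∈ {k : ℕ | 1 ≤ k ∧ k ≤ 3} := by rw [← h]; exact ⟨g, rfl⟩
    obtain ⟨h2, h3⟩ := h1
    have h4 : orderOf g = 1 ∨ orderOf g = 2 ∨ orderOf g = 3 := by omega
    rcases h4 with h4 | h4 | h4
    · left; apply orderOf_dvd_iff_pow_eq_one.1; rw [h4]; norm_num
    · left; apply orderOf_dvd_iff_pow_eq_one.1; rw [h4]
    · right; apply orderOf_dvd_iff_pow_eq_one.1; rw [h4]
  have hS : S G := by
    intro g
    rcases hs2 g with h1 | h1
    · left; rw [show (4 : ℕ) = 2 * 2 by norm_num, pow_mul, h1, one_pow]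
    · right; exact h1
  have hex : ∀ k, 1 ≤ k → k ≤ 3 → ∃ g : G, orderOf g = k := by
    intro k h1 h2
    have : k ∈ Set.range (orderOf : G → ℕ) := by rw [h]; exact ⟨h1, h2⟩
    exact this
  obtain ⟨t, ht⟩ := hex 2 (by norm_num) (by norm_num)
  obtain ⟨x, hx⟩ := hex 3 (by norm_num) (by norm_num)
  have h3 : 3 ∣ Nat.card G := by rw [← hx]; exact orderOf_dvd_natCard x
  have hsq : ∀ g : G, g ^ 4 = 1 → g ^ 2 = 1 := by
    intro g hg
    rcases hs2 g with h1 | h1
    · exact h1
    · rw [eq_one_of hg h1, one_pow]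
  by_cases hN1 : pCore 3 G = ⊥
  · right
    have hnt : Nontrivial G := ⟨⟨x, 1, by rintro rfl; rw [orderOf_one] at hx; norm_num at hx⟩⟩
    have hN2 := pCore_ne_bot hS hN1
    refine ⟨pCore 2 G, inferInstance, ?_, ?_⟩
    · have h1 : ∀ y ∈ pCore 2 G, y ^ 2 = 1 := fun y hy =>
        hsq y (pow_four_of_isPGroup hS _ (H1.Cores.isPGroup_pCore 2) y hy)
      exact ⟨⟨⟨fun a b => Subtype.ext (comm_of_sq _ h1 a a.2 b b.2)⟩⟩, h1⟩
    · rcases card_quotient hS h3 hN1 with h1 | ⟨h1, -⟩
      · exact h1
      · exfalso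
        obtain ⟨P⟩ : Nonempty (Sylow 2 G) := inferInstance
        have hPsq : ∀ y ∈ (P : Subgroup G), y ^ 2 = 1 := fun y hy =>
          hsq y (pow_four_of_isPGroup hS _ P.isPGroup' y hy)
        have hPN : (P : Subgroup G) ≤ pCore 2 G := by
          refine le_trans ?_ (centralizer_pCore_two hS hN2)
          intro y hy
          rw [Subgroup.mem_centralizer_iff]
          intro n hn
          exact comm_of_sq _ hPsq n (H1.Cores.pCore_le_sylow P hn) y hy
        have h2 : (pCore 2 G).index ∣ (P : Subgroup G).index := Subgroup.index_dvd_of_le hPN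
        rw [h1] at h2
        exact P.not_dvd_index (dvd_trans (by norm_num) h2)
  · left
    refine ⟨pCore 3 G, inferInstance, isElementaryAbelian hS t ht, ?_⟩
    have hcomp := isComplement hS hN1 t ht
    rw [hcomp.symm.index_eq_card]
    have ht1 : t ≠ 1 := by
      rintro rfl
      rw [orderOf_one] at ht
      norm_num at ht
    have hset : ((Subgroup.centralizer ({t} : Set G) : Subgroup G) : Set G) = {1, t} := by
      ext g
      rw [SetLike.mem_coe, Set.mem_insert_iff, Set.mem_singleton_iff]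
      constructor
      · intro hg
        by_cases hg1 : g = 1
        · exact Or.inl hg1
        · right
          apply eq_of_involution hS hN1 t ht g hg
          exact orderOf_eq_prime (hsq g (centralizer_pow_four hS hN1 t ht g hg)) hg1
      · rintro (rfl | rfl)
        · exact one_mem _
        · rw [Subgroup.mem_centralizer_singleton_iff]
    have h1 : Nat.card (Subgroup.centralizer ({t} : Set G)) =
        ((Subgroup.centralizer ({t} : Set G) : Subgroup G) : Set G).ncard := rfl
    rw [h1, hset, Set.ncard_pair (Ne.symm ht1)]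

end Cfsg.Agent.S4005
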