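import Cfsg.Statements.S4006
import Cfsg.Agent.Lib.H69.Spec23
import Cfsg.Agent.Lib.H69.FpfS3
import Cfsg.Agent.Lib.H10.Dihedral

set_option autoImplicit false
open Cfsg

namespace Cfsg.Agent.S4006

open H69.Spec23
open scoped commutatorElement

theorem comm_of_sq {G : Type*} [Group G] (H : Subgroup G) (h : ∀ x ∈ H, x ^ 2 = 1) :
    ∀ x ∈ H, ∀ y ∈ H, x * y = y * x := by
  have hi : ∀ x ∈ H, x⁻¹ = x := by
    intro x hx
    have := h x hx
    rw [pow_two] at this
    exact inv_eq_of_mul_eq_one_right this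
  intro x hx y hy
  have h1 := hi _ (mul_mem hx hy)
  rw [mul_inv_rev, hi x hx, hi y hy] at h1
  exact h1.symm

/-- groups of class at most two, elementwise -/
theorem class_le_two {K : Type*} [Group K] [Group.IsNilpotent K] (h : ∀ a b c : K, ⁅a, ⁅b, c⁆⁆ = 1) :
    Group.nilpotencyClass K ≤ 2 := by
  rw [← Subgroup.lowerCentralSeries_eq_bot_iff_nilpotencyClass_le]
  have h2eq : Subgroup.lowerCentralSeries (⊤ : Subgroup K) 2 = ⁅⁅(⊤ : Subgroup K), (⊤ : Subgroup K)⁆, (⊤ : Subgroup K)⁆ := rfl
  rw [h2eq, Subgroup.commutator_eq_bot_iff_le_centralizer, Subgroup.commutator_le]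
  intro a _ b _
  rw [Subgroup.mem_centralizer_iff]
  intro c _
  exact commutatorElement_eq_one_iff_mul_comm.1 (h c a b)

theorem order_three {H : Type*} [Group H] [Finite H] (hS : S H) (hc : Nat.card H = 6)
    (h3 : pCore 3 H ≠ ⊥) (hc3 : Nat.card (pCore 3 H) = 3) (t : H) (ht : orderOf t = 2) :
    Nonempty (H ≃* Equiv.Perm (Fin 3)) := by
  obtain ⟨y, hy, hy1⟩ : ∃ y ∈ pCore 3 H, y ≠ 1 := by
    by_contra h
    push Not at h
    exact h3 ((Subgroup.eq_bot_iff_forall _).2 h)
  have hyo : orderOf y = 3 :=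
    orderOf_eq_prime (pow_three_of_isPGroup hS _ (H1.Cores.isPGroup_pCore 3) y hy) hy1
  have htt : t * t = 1 := by
    have := pow_orderOf_eq_one t
    rwa [ht, pow_two] at this
  have hinv := inverts hS t ht y hy
  have hty : t ∉ Subgroup.zpowers y := by
    intro h
    have h1 : orderOf t ∣ 3 := by
      have h2 := orderOf_dvd_natCard (⟨t, h⟩ : Subgroup.zpowers y)
      rwa [Subgroup.orderOf_mk, Nat.card_zpowers, hyo] at h2
    rw [ht] at h1
    norm_num at h1
  have hinj := H10.Dihedral.lift_injective 3 t y htt hyo hinv hty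
  have hbij : Function.Bijective (H10.Dihedral.lift 3 t y htt (hyo ▸ pow_orderOf_eq_one y) hinv) := by
    rw [Nat.bijective_iff_injective_and_card]
    refine ⟨hinj, ?_⟩
    rw [DihedralGroup.nat_card, hc]
  obtain ⟨e⟩ := H10.Dihedral.dihedral_three_mulEquiv
  exact ⟨(MulEquiv.ofBijective _ hbij).symm.trans e⟩

/-- A finite group whose set of element orders is exactly {1, 2, 3, 4} has a normal subgroup N such that either N is a 2-group of exponent 4 and nilpotency class at most 2 with G/N of order 3, or N is an elementary abelian 2-group with G/N isomorphic to the symmetric group of degree 3, or N is an elementary abelian 3-group with G/N cyclic of order 4 or quaternion of order 8. -/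
theorem result {G : Type*} [Group G] [Finite G] (h : Set.range (orderOf : G → ℕ) = {k : ℕ | 1 ≤ k ∧ k ≤ 4}) :
    ∃ (N : Subgroup G) (_ : N.Normal),
      (IsPGroup 2 ↥N ∧ Monoid.exponent ↥N = 4 ∧ Group.nilpotencyClass ↥N ≤ 2 ∧ N.index = 3) ∨
      (Cfsg.IsElementaryAbelian 2 N ∧ Nonempty (G ⧸ N ≃* Equiv.Perm (Fin 3))) ∨
      (Cfsg.IsElementaryAbelian 3 N ∧ ((IsCyclic (G ⧸ N) ∧ N.index = 4) ∨ Nonempty (G ⧸ N ≃* QuaternionGroup 2))) := by
  have hS : S G := by
    intro g
    have h1 : orderOf g ∈ {k : ℕ | 1 ≤ k ∧ k ≤ 4} := by rw [← h]; exact ⟨g, rfl⟩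
    obtain ⟨h2, h3⟩ := h1
    have h4 : orderOf g = 1 ∨ orderOf g = 2 ∨ orderOf g = 3 ∨ orderOf g = 4 := by omega
    rcases h4 with h4 | h4 | h4 | h4
    · left; apply orderOf_dvd_iff_pow_eq_one.1; rw [h4]; norm_num
    · left; apply orderOf_dvd_iff_pow_eq_one.1; rw [h4]; norm_num
    · right; apply orderOf_dvd_iff_pow_eq_one.1; rw [h4]
    · left; apply orderOf_dvd_iff_pow_eq_one.1; rw [h4]
  have hex : ∀ k, 1 ≤ k → k ≤ 4 → ∃ g : G, orderOf g = k := by
    intro k h1 h2
    have : k ∈ Set.range (orderOf : G → ℕ) := by rw [h]; exact ⟨h1, h2⟩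
    exact this
  obtain ⟨t, ht⟩ := hex 2 (by norm_num) (by norm_num)
  obtain ⟨x, hx⟩ := hex 3 (by norm_num) (by norm_num)
  obtain ⟨w, hw⟩ := hex 4 (by norm_num) (by norm_num)
  have hx3 : x ^ 3 = 1 := by rw [← hx]; exact pow_orderOf_eq_one x
  have hw4 : w ^ 4 = 1 := by rw [← hw]; exact pow_orderOf_eq_one w
  have hx1 : x ≠ 1 := by rintro rfl; rw [orderOf_one] at hx; norm_num at hx
  have hw2 : w ^ 2 ≠ 1 := by
    intro h1
    have := orderOf_dvd_of_pow_eq_one h1
    rw [hw] at this
    norm_num at this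
  have h3 : 3 ∣ Nat.card G := by rw [← hx]; exact orderOf_dvd_natCard x
  by_cases hN1 : pCore 3 G = ⊥
  · have hnt : Nontrivial G := ⟨⟨x, 1, hx1⟩⟩
    have hN2 := pCore_ne_bot hS hN1
    have hN4 : ∀ n ∈ pCore 2 G, n ^ 4 = 1 := fun n hn =>
      pow_four_of_isPGroup hS _ (H1.Cores.isPGroup_pCore 2) n hn
    have hC : ∀ n ∈ pCore 2 G, x * n * x⁻¹ = n → n = 1 := by
      intro n hn hxn
      rcases hS.eq_one (mul_inv_eq_iff_eq_mul.1 hxn).symm (hN4 n hn) hx3 with h1 | h1
      · exact h1
      · exact absurd h1 hx1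
    have hxN : ∀ N : Subgroup G, IsPGroup 2 N → x ∉ N := by
      intro N hN hxN
      exact hx1 (eq_one_of (pow_four_of_isPGroup hS N hN x hxN) hx3)
    rcases card_quotient hS h3 hN1 with h1 | ⟨h1, h2, h5, s', hs'⟩
    · refine ⟨pCore 2 G, inferInstance, Or.inl ⟨H1.Cores.isPGroup_pCore 2, ?_, ?_, h1⟩⟩
      · apply Nat.dvd_antisymm
        · apply Monoid.exponent_dvd_of_forall_pow_eq_one
          intro g
          exact Subtype.ext (by simpa using hN4 g g.2)
        · have hwN : w ∈ pCore 2 G := by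
            have h6 : (QuotientGroup.mk' (pCore 2 G) w) = 1 := by
              apply eq_one_of
              · rw [← map_pow, hw4, map_one]
              · have : Nat.card (G ⧸ pCore 2 G) = 3 := h1
                rw [← this]
                exact pow_card_eq_one'
            exact (QuotientGroup.eq_one_iff w).1 h6
          have h6 : orderOf (⟨w, hwN⟩ : pCore 2 G) = 4 := by rw [Subgroup.orderOf_mk]; exact hw
          rw [← h6]
          exact Monoid.order_dvd_exponent _
      · have hnil : Group.IsNilpotent (pCore 2 G) :=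
          have : Fact (Nat.Prime 2) := ⟨Nat.prime_two⟩
          (H1.Cores.isPGroup_pCore (G := G) 2).isNilpotent
        apply class_le_two
        intro a b c
        apply Subtype.ext
        exact H69.Engel2.class_two_of_fpf (pCore 2 G) x hx3 hC (fun n hn h => eq_one_of (hN4 n hn) h)
          a b c a.2 b.2 c.2
    · refine ⟨pCore 2 G, inferInstance, Or.inr (Or.inl ⟨?_, ?_⟩)⟩
      · have hSq : S (G ⧸ pCore 2 G) := hS.quotient _
        set q := QuotientGroup.mk' (pCore 2 G) with hq
        obtain ⟨s, rfl⟩ := QuotientGroup.mk'_surjective (pCore 2 G) s'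
        have hq1 : ∀ z : G, q z = 1 ↔ z ∈ pCore 2 G := fun z => QuotientGroup.eq_one_iff z
        -- q x in the 3-core
        have hqx : q x ∈ pCore 3 (G ⧸ pCore 2 G) := by
          have h6 := (pCore 3 (G ⧸ pCore 2 G)).card_mul_index
          have h7 : Nat.card (G ⧸ pCore 2 G) = 6 := h1
          rw [h5, h7] at h6
          have h8 : (pCore 3 (G ⧸ pCore 2 G)).index = 2 := by omega
          have h9 : (QuotientGroup.mk' (pCore 3 (G ⧸ pCore 2 G)) (q x)) = 1 := by
            have e1 : (QuotientGroup.mk' (pCore 3 (G ⧸ pCore 2 G)) (q x)) ^ 2 = 1 := by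
              have e0 := pow_card_eq_one' (x := QuotientGroup.mk' (pCore 3 (G ⧸ pCore 2 G)) (q x))
              have e00 : Nat.card ((G ⧸ pCore 2 G) ⧸ pCore 3 (G ⧸ pCore 2 G)) = 2 := h8
              rwa [e00] at e0
            have e2 : (QuotientGroup.mk' (pCore 3 (G ⧸ pCore 2 G)) (q x)) ^ 3 = 1 := by
              rw [← map_pow, ← map_pow, hx3, map_one, map_one]
            rw [pow_succ, e1, one_mul] at e2
            exact e2
          exact (QuotientGroup.eq_one_iff (q x)).1 h9
        have hinv : q s * q x * (q s)⁻¹ = (q x)⁻¹ := inverts hSq (q s) hs' (q x) hqx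
        have hh : s * x * s⁻¹ * x ∈ pCore 2 G := by
          rw [← hq1, map_mul, map_mul, map_mul, map_inv, hinv]
          group
        -- conjugate
        have hC' : ∀ n ∈ pCore 2 G, x⁻¹ * n * x⁻¹⁻¹ = n → n = 1 := by
          intro n hn h
          apply hC n hn
          calc x * n * x⁻¹ = x * (x⁻¹ * n * x⁻¹⁻¹) * x⁻¹ := by rw [h]
            _ = n := by group
        obtain ⟨n, hn, hnh⟩ := H69.Engel2.exists_left (pCore 2 G) x⁻¹ hC' (s * x * s⁻¹ * x)⁻¹ (inv_mem hh)
        have hsx : s * x * s⁻¹ = n * x⁻¹ * n⁻¹ := by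
          have h6 : s * x * s⁻¹ * x = (x⁻¹ * n * x⁻¹⁻¹ * n⁻¹)⁻¹ := by rw [← hnh, inv_inv]
          calc s * x * s⁻¹ = (s * x * s⁻¹ * x) * x⁻¹ := by group
            _ = n * x⁻¹ * n⁻¹ := by rw [h6]; group
        set t' := n⁻¹ * s with ht'
        have ht'x : t' * x * t'⁻¹ = x⁻¹ := by
          calc t' * x * t'⁻¹ = n⁻¹ * (s * x * s⁻¹) * n := by rw [ht']; group
            _ = x⁻¹ := by rw [hsx]; group
        have hqt' : q t' = q s := by
          rw [ht', map_mul, map_inv, (hq1 n).2 hn, inv_one, one_mul]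
        have hqs2 : q s * q s = 1 := by
          have := pow_orderOf_eq_one (q s)
          rwa [hs', pow_two] at this
        have htt : t' * t' = 1 := by
          apply hC
          · rw [← hq1, map_mul, hqt', hqs2]
          · have h6 : t' * t' * x * (t' * t')⁻¹ = x := by
              calc t' * t' * x * (t' * t')⁻¹ = t' * (t' * x * t'⁻¹) * t'⁻¹ := by group
                _ = t' * x⁻¹ * t'⁻¹ := by rw [ht'x]
                _ = (t' * x * t'⁻¹)⁻¹ := by group
                _ = x := by rw [ht'x, inv_inv]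
            have h7 : t' * t' * x = x * (t' * t') := mul_inv_eq_iff_eq_mul.1 h6
            rw [← h7]; group
        have hti : t'⁻¹ = t' := inv_eq_of_mul_eq_one_right htt
        have hf : ∀ m ∈ pCore 2 G, (m * (t' * m * t'⁻¹)) ^ 2 = 1 := by
          intro m hm
          have h6 : m * (t' * m * t'⁻¹) = (m * t') ^ 2 := by
            rw [pow_two, hti]; group
          rw [h6, ← pow_mul]
          rcases hS (m * t') with h7 | h7
          · exact h7
          · exfalso
            have h8 := congrArg q h7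
            rw [map_pow, map_mul, (hq1 m).2 hm, one_mul, hqt', map_one] at h8
            have h9 := orderOf_dvd_of_pow_eq_one h8
            rw [hs'] at h9
            norm_num at h9
        have hsq : ∀ m ∈ pCore 2 G, m ^ 2 = 1 := fun m hm =>
          H69.FpfS3.pow_two_eq_one (pCore 2 G) x t' hx3 htt ht'x hC hN4 hf m hm
        exact ⟨⟨⟨fun a b => Subtype.ext (comm_of_sq _ hsq a a.2 b b.2)⟩⟩, hsq⟩
      · exact order_three (hS.quotient _) h1 h2 h5 s' hs'
  · refine ⟨pCore 3 G, inferInstance, Or.inr (Or.inr ⟨isElementaryAbelian hS t ht, ?_⟩)⟩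
    have hcomp := isComplement hS hN1 t ht
    let T := Subgroup.centralizer ({t} : Set G)
    have e : G ⧸ pCore 3 G ≃* T := hcomp.symm.QuotientMulEquiv
    have hT4 : ∀ g : T, g ^ 4 = 1 := fun g =>
      Subtype.ext (by simpa using centralizer_pow_four hS hN1 t ht g g.2)
    -- an element of order 4 in T
    obtain ⟨v, hv⟩ : ∃ v : T, orderOf v = 4 := by
      refine ⟨e (QuotientGroup.mk' _ w), ?_⟩
      rw [MulEquiv.orderOf_eq]
      have h1 : orderOf (QuotientGroup.mk' (pCore 3 G) w) ∣ 2 ^ 2 := by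
        apply orderOf_dvd_of_pow_eq_one
        rw [← map_pow, show 2 ^ 2 = 4 by norm_num, hw4, map_one]
      obtain ⟨k, hk, hk'⟩ := (Nat.dvd_prime_pow Nat.prime_two).1 h1
      have h2 : (QuotientGroup.mk' (pCore 3 G) w) ^ 2 ≠ 1 := by
        intro h2
        rw [← map_pow] at h2
        have h6 : w ^ 2 ∈ pCore 3 G := (QuotientGroup.eq_one_iff _).1 h2
        have h7 := pow_three_of_isPGroup hS _ (H1.Cores.isPGroup_pCore 3) _ h6
        apply hw2
        apply eq_one_of _ h7
        rw [← pow_mul, mul_comm, pow_mul, hw4, one_pow]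
      have h6 : k = 2 := by
        by_contra hne
        have h7 : k ≤ 1 := by omega
        apply h2
        apply orderOf_dvd_iff_pow_eq_one.1
        rw [hk']
        calc 2 ^ k ∣ 2 ^ 1 := pow_dvd_pow 2 h7
          _ = 2 := by norm_num
      rw [hk', h6]
      norm_num
    have h2f : Fact (Nat.Prime 2) := ⟨Nat.prime_two⟩
    have hcard : Nat.card (G ⧸ pCore 3 G) = Nat.card T := Nat.card_congr e.toEquiv
    rcases H1.FrobSyl.cyclic_or_quaternion T (pCore 3 G) hN1 (by
      rw [Subgroup.normalizer_eq_top_iff.2 inferInstance]; exact le_top) (fpf hS hN1 t ht) 2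
      (isPGroup_centralizer hS hN1 t ht) with h1 | ⟨-, n, ⟨f⟩⟩
    · left
      refine ⟨isCyclic_of_surjective e.symm.toMonoidHom e.symm.surjective, ?_⟩
      obtain ⟨c, hc⟩ := h1.exists_generator
      have h2 : orderOf c = Nat.card T := orderOf_eq_card_of_forall_mem_zpowers hc
      rw [Subgroup.index, hcard]
      apply Nat.dvd_antisymm
      · rw [← h2]
        exact orderOf_dvd_of_pow_eq_one (hT4 c)
      · rw [← hv]
        exact orderOf_dvd_natCard v
    · have hn : n ≤ 1 := by
        by_contra hn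
        push Not at hn
        have h2 : orderOf (f.symm (QuaternionGroup.a 1)) ∣ 4 := orderOf_dvd_of_pow_eq_one (hT4 _)
        rw [MulEquiv.orderOf_eq, QuaternionGroup.orderOf_a_one] at h2
        have h6 : 2 * 2 ^ n ≤ 4 := Nat.le_of_dvd (by norm_num) h2
        have h7 : 2 ^ 2 ≤ 2 ^ n := Nat.pow_le_pow_right (by norm_num) hn
        omega
      interval_cases n
      · left
        have hc4 : Nat.card T = 4 := by
          rw [Nat.card_congr f.toEquiv, Nat.card_eq_fintype_card]
          have : NeZero (2 ^ 0) := ⟨by norm_num⟩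
          rw [QuaternionGroup.card]
          norm_num
        have hTc : IsCyclic T := isCyclic_of_orderOf_eq_card v (by rw [hv, hc4])
        refine ⟨isCyclic_of_surjective e.symm.toMonoidHom e.symm.surjective, ?_⟩
        rw [Subgroup.index, hcard, hc4]
      · right
        have f' : T ≃* QuaternionGroup 2 := by simpa using f
        exact ⟨e.trans f'⟩

end Cfsg.Agent.S4006
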