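import Cfsg.Statements.S4198
import Mathlib
import Cfsg.Agent.Lib.H73.PartitionBound

set_option autoImplicit false
open Cfsg

namespace Cfsg.Agent.S4198

open Equiv.Perm Multiset

/-- cycle type of a conjugacy class -/
noncomputable def ct (n : ℕ) : ConjClasses (Equiv.Perm (Fin n)) → Multiset ℕ :=
  Quotient.lift (fun σ => σ.cycleType) (fun _ _ h => Equiv.Perm.isConj_iff_cycleType_eq.mp h)

theorem ct_mk (n : ℕ) (σ : Equiv.Perm (Fin n)) : ct n (ConjClasses.mk σ) = σ.cycleType := rfl

theorem ct_injective (n : ℕ) : Function.Injective (ct n) := by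
  intro a b h
  obtain ⟨σ, rfl⟩ := ConjClasses.mk_surjective a
  obtain ⟨τ, rfl⟩ := ConjClasses.mk_surjective b
  rw [ct_mk, ct_mk] at h
  exact ConjClasses.mk_eq_mk_iff_isConj.mpr (Equiv.Perm.isConj_iff_cycleType_eq.mpr h)

/-- second part -/
theorem upper (n : ℕ) (hn : 5 ≤ n) : Nat.card (ConjClasses (Equiv.Perm (Fin n))) ≤ 2 ^ (n - 2) := by
  refine le_trans ?_ (H73.PartitionBound.PS_le n hn)
  have hfin : Finite (H73.PartitionBound.PS n) := (H73.PartitionBound.PS_finite n).to_subtype
  rw [← Nat.card_coe_set_eq]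
  have key : ∀ σ : Equiv.Perm (Fin n), σ.partition.parts ∈ H73.PartitionBound.PS n := by
    intro σ
    refine ⟨fun a ha => σ.partition.parts_pos ha, ?_⟩
    rw [σ.partition.parts_sum, Fintype.card_fin]
  let f : ConjClasses (Equiv.Perm (Fin n)) → H73.PartitionBound.PS n :=
    Quotient.lift (fun σ => ⟨σ.partition.parts, key σ⟩) (fun a b h => by
      apply Subtype.ext
      change a.partition.parts = b.partition.parts
      rw [(Equiv.Perm.partition_eq_of_isConj (σ := a) (τ := b)).mp h])
  apply Nat.card_le_card_of_injective f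
  intro a b h
  obtain ⟨σ, rfl⟩ := ConjClasses.mk_surjective a
  obtain ⟨τ, rfl⟩ := ConjClasses.mk_surjective b
  have h1 : σ.partition.parts = τ.partition.parts := congrArg Subtype.val h
  exact ConjClasses.mk_eq_mk_iff_isConj.mpr (Equiv.Perm.partition_eq_of_isConj.mpr (Nat.Partition.ext h1))

/-- all cycle types -/
noncomputable def T (n : ℕ) : Finset (Multiset ℕ) := Finset.univ.image (fun σ : Equiv.Perm (Fin n) => σ.cycleType)

theorem mem_T {n : ℕ} {m : Multiset ℕ} : m ∈ T n ↔ m.sum ≤ n ∧ ∀ a ∈ m, 2 ≤ a := by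
  rw [T, Finset.mem_image]
  have := Equiv.Perm.exists_with_cycleType_iff (Fin n) (m := m)
  rw [Fintype.card_fin] at this
  rw [← this]
  simp

/-- the split ones -/
def Split (n : ℕ) (m : Multiset ℕ) : Prop := (∀ c ∈ m, Odd c) ∧ n ≤ m.sum + 1 ∧ ∀ i, m.count i ≤ 1

theorem card_T (n : ℕ) : Nat.card (ConjClasses (Equiv.Perm (Fin n))) = (T n).card := by
  classical
  rw [← Fintype.card_coe, ← Nat.card_eq_fintype_card]
  apply Nat.card_congr
  apply Equiv.ofBijective (fun C => (⟨ct n C, by
    obtain ⟨σ, rfl⟩ := ConjClasses.mk_surjective C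
    rw [T, Finset.mem_image]
    exact ⟨σ, Finset.mem_univ _, rfl⟩⟩ : T n))
  constructor
  · intro a b h
    exact ct_injective n (congrArg Subtype.val h)
  · rintro ⟨m, hm⟩
    rw [T, Finset.mem_image] at hm
    obtain ⟨σ, -, rfl⟩ := hm
    exact ⟨ConjClasses.mk σ, rfl⟩

open Classical in
theorem split_lt (n : ℕ) (hn : 5 ≤ n) :
    ((T n).filter (fun m => Split n m)).card < ((T n).filter (fun m => Odd (m.sum + m.card))).card := by
  -- largest part
  have hmax : ∀ m ∈ (T n).filter (fun m => Split n m), ∃ s ∈ m, ∀ t ∈ m, t ≤ s := by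
    intro m hm
    rw [Finset.mem_filter, mem_T] at hm
    have hne : m.toFinset.Nonempty := by
      rw [Finset.nonempty_iff_ne_empty]
      intro h
      rw [Multiset.toFinset_eq_empty] at h
      have := hm.2.2.1
      rw [h, Multiset.sum_zero] at this
      omega
    obtain ⟨s, hs, hs'⟩ := Finset.exists_max_image m.toFinset id hne
    exact ⟨s, Multiset.mem_toFinset.mp hs, fun t ht => hs' t (Multiset.mem_toFinset.mpr ht)⟩
  choose! s hs hs' using hmax
  have hs3 : ∀ m ∈ (T n).filter (fun m => Split n m), 3 ≤ s m ∧ Odd (s m) := by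
    intro m hm
    have h1 := hm
    rw [Finset.mem_filter, mem_T] at h1
    have h2 := h1.1.2 _ (hs m hm)
    have h3 := h1.2.1 _ (hs m hm)
    refine ⟨?_, h3⟩
    rcases h3 with ⟨k, hk⟩
    omega
  let φ : Multiset ℕ → Multiset ℕ := fun m => (s m - 1) ::ₘ (m.erase (s m))
  have hinj : Set.InjOn φ ((T n).filter (fun m => Split n m) : Set (Multiset ℕ)) := by
    intro m hm k hk hmk
    have hmk' : (s m - 1) ::ₘ (m.erase (s m)) = (s k - 1) ::ₘ (k.erase (s k)) := hmk
    rw [Finset.mem_coe] at hm hk
    have h1 : s m - 1 ∈ (s k - 1) ::ₘ (k.erase (s k)) := by rw [← hmk']; exact Multiset.mem_cons_self _ _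
    have hsm := hs3 m hm
    have hsk := hs3 k hk
    have h3 : s m = s k := by
      rcases Multiset.mem_cons.mp h1 with h2 | h2
      · omega
      · exfalso
        have h4 := Multiset.mem_of_mem_erase h2
        have h5 := hk
        rw [Finset.mem_filter] at h5
        have h6 := h5.2.1 _ h4
        obtain ⟨i, hi⟩ := h6
        obtain ⟨j, hj⟩ := hsm.2
        omega
    rw [h3] at hmk'
    have h4 := (Multiset.cons_inj_right _).mp hmk'
    have h5 := Multiset.cons_erase (hs m hm)
    have h6 := Multiset.cons_erase (hs k hk)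
    rw [← h5, ← h6, h3, h4]
  rw [← Finset.card_image_of_injOn hinj]
  apply Finset.card_lt_card
  rw [Finset.ssubset_iff_of_subset]
  · refine ⟨{2}, ?_, ?_⟩
    · rw [Finset.mem_filter, mem_T, Multiset.sum_singleton, Multiset.card_singleton]
      refine ⟨⟨by omega, ?_⟩, by decide⟩
      intro a ha
      rw [Multiset.mem_singleton] at ha
      omega
    · rw [Finset.mem_image]
      rintro ⟨m, hm, hφ⟩
      have hφ' : (s m - 1) ::ₘ (m.erase (s m)) = {2} := hφ
      have h1 : s m - 1 ∈ ({2} : Multiset ℕ) := by rw [← hφ']; exact Multiset.mem_cons_self _ _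
      rw [Multiset.mem_singleton] at h1
      have h2 : m.erase (s m) = 0 := by
        have := congrArg Multiset.card hφ'
        rw [Multiset.card_cons, Multiset.card_singleton] at this
        exact Multiset.card_eq_zero.mp (by omega)
      have h5 := Multiset.cons_erase (hs m hm)
      rw [h2] at h5
      have h6 := hm
      rw [Finset.mem_filter] at h6
      have h7 := h6.2.2.1
      have h8 : m.sum = s m := by
        have h9 := congrArg Multiset.sum h5
        rw [Multiset.sum_cons, Multiset.sum_zero, add_zero] at h9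
        exact h9.symm
      have := hs3 m hm
      omega
  · intro k hk
    rw [Finset.mem_image] at hk
    obtain ⟨m, hm, rfl⟩ := hk
    have h5 := Multiset.cons_erase (hs m hm)
    have h6 := hm
    rw [Finset.mem_filter, mem_T] at h6
    have h3 := hs3 m hm
    have hsum : m.sum = s m + (m.erase (s m)).sum := by
      conv_lhs => rw [← h5]
      rw [Multiset.sum_cons]
    have hcardm : m.card = (m.erase (s m)).card + 1 := by
      conv_lhs => rw [← h5]
      rw [Multiset.card_cons]
    rw [Finset.mem_filter, mem_T]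
    change (((s m - 1) ::ₘ (m.erase (s m))).sum ≤ n ∧ _) ∧ Odd (((s m - 1) ::ₘ (m.erase (s m))).sum + _)
    rw [Multiset.sum_cons, Multiset.card_cons]
    refine ⟨⟨by omega, ?_⟩, ?_⟩
    · intro a ha
      rcases Multiset.mem_cons.mp ha with rfl | ha
      · omega
      · exact h6.1.2 a (Multiset.mem_of_mem_erase ha)
    · -- parity
      have hev : Even (m.sum + m.card) := by
        have h7 : ∀ c ∈ m, Odd c := h6.2.1
        have h8 : ∀ k : Multiset ℕ, (∀ c ∈ k, Odd c) → Even (k.sum + k.card) := by
          intro k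
          induction k using Multiset.induction_on with
          | empty => intro _; simp
          | cons a k ih =>
            intro hk
            rw [Multiset.sum_cons, Multiset.card_cons]
            have h9 := ih (fun c hc => hk c (Multiset.mem_cons_of_mem hc))
            obtain ⟨x, hx⟩ := hk a (Multiset.mem_cons_self _ _)
            obtain ⟨y, hy⟩ := h9
            exact ⟨x + y + 1, by omega⟩
        exact h8 m h7
      obtain ⟨x, hx⟩ := hev
      refine ⟨x - 1, ?_⟩
      omega

open Classical in
/-- first part -/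
theorem alt_lt (n : ℕ) (hn : 5 ≤ n) : Nat.card (ConjClasses (alternatingGroup (Fin n))) < Nat.card (ConjClasses (Equiv.Perm (Fin n))) := by
  have hft : Fintype (ConjClasses (alternatingGroup (Fin n))) := Fintype.ofFinite _
  let π : ConjClasses (alternatingGroup (Fin n)) → Multiset ℕ :=
    Quotient.lift (fun σ => (σ : Equiv.Perm (Fin n)).cycleType) (fun a b h => by
      have h1 : IsConj a b := h
      obtain ⟨c, hc⟩ := isConj_iff.mp h1
      apply Equiv.Perm.isConj_iff_cycleType_eq.mp
      exact isConj_iff.mpr ⟨c, by rw [← hc]; rfl⟩)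
  have hπ : ∀ σ : alternatingGroup (Fin n), π (ConjClasses.mk σ) = (σ : Equiv.Perm (Fin n)).cycleType := fun _ => rfl
  have hodd : ∃ t : Equiv.Perm (Fin n), t ∉ alternatingGroup (Fin n) := by
    refine ⟨Equiv.swap ⟨0, by omega⟩ ⟨1, by omega⟩, ?_⟩
    rw [Equiv.Perm.mem_alternatingGroup, Equiv.Perm.sign_swap (by simp)]
    decide
  obtain ⟨t, ht⟩ := hodd
  have hmulodd : ∀ a b : Equiv.Perm (Fin n), a ∉ alternatingGroup (Fin n) → b ∉ alternatingGroup (Fin n) →
      a * b ∈ alternatingGroup (Fin n) := by
    intro a b ha hb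
    rw [Equiv.Perm.mem_alternatingGroup] at ha hb ⊢
    rw [Equiv.Perm.sign_mul]
    rcases Int.units_eq_one_or (Equiv.Perm.sign a) with h | h
    · exact absurd h ha
    rcases Int.units_eq_one_or (Equiv.Perm.sign b) with h' | h'
    · exact absurd h' hb
    rw [h, h']; decide
  have hinvodd : t⁻¹ ∉ alternatingGroup (Fin n) := fun h => ht (by
    have := inv_mem h
    rwa [inv_inv] at this)
  have hcard : Nat.card (ConjClasses (alternatingGroup (Fin n))) =
      ∑ m ∈ (T n).filter (fun m => Even (m.sum + m.card)), (Finset.univ.filter (fun C => π C = m)).card := by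
    rw [Nat.card_eq_fintype_card, ← Finset.card_univ]
    apply Finset.card_eq_sum_card_fiberwise
    intro C _
    obtain ⟨σ, rfl⟩ := ConjClasses.mk_surjective C
    rw [hπ, Finset.mem_coe, Finset.mem_filter, T, Finset.mem_image]
    refine ⟨⟨σ, Finset.mem_univ _, rfl⟩, ?_⟩
    have h1 := σ.2
    rw [Equiv.Perm.mem_alternatingGroup, Equiv.Perm.sign_of_cycleType] at h1
    by_contra h2
    rw [Nat.not_even_iff_odd] at h2
    rw [h2.neg_one_pow] at h1
    exact absurd h1 (by decide)
  have hfib : ∀ m ∈ (T n).filter (fun m => Even (m.sum + m.card)),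
      (Finset.univ.filter (fun C => π C = m)).card ≤ 1 + if Split n m then 1 else 0 := by
    intro m _
    by_cases hemp : (Finset.univ.filter (fun C => π C = m)) = ∅
    · rw [hemp, Finset.card_empty]; exact Nat.zero_le _
    obtain ⟨C0, hC0⟩ := Finset.nonempty_iff_ne_empty.mpr hemp
    obtain ⟨x0, rfl⟩ := ConjClasses.mk_surjective C0
    rw [Finset.mem_filter, hπ] at hC0
    have hconj : ∀ y : alternatingGroup (Fin n), (y : Equiv.Perm (Fin n)).cycleType = m →
        ∃ g : Equiv.Perm (Fin n), g * x0 * g⁻¹ = y := by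
      intro y hy
      have h1 : IsConj (x0 : Equiv.Perm (Fin n)) y := Equiv.Perm.isConj_iff_cycleType_eq.mpr (hC0.2.trans hy.symm)
      exact isConj_iff.mp h1
    split_ifs with hsplit
    · -- at most two
      have hnorm : (alternatingGroup (Fin n)).Normal := inferInstance
      let x1 : alternatingGroup (Fin n) := ⟨t * x0 * t⁻¹, hnorm.conj_mem _ x0.2 t⟩
      have hsub : (Finset.univ.filter (fun C => π C = m)) ⊆ {ConjClasses.mk x0, ConjClasses.mk x1} := by
        intro C hC
        obtain ⟨y, rfl⟩ := ConjClasses.mk_surjective C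
        rw [Finset.mem_filter, hπ] at hC
        obtain ⟨g, hg⟩ := hconj y hC.2
        rw [Finset.mem_insert, Finset.mem_singleton]
        by_cases hgA : g ∈ alternatingGroup (Fin n)
        · left
          rw [ConjClasses.mk_eq_mk_iff_isConj, isConj_comm]
          exact isConj_iff.mpr ⟨⟨g, hgA⟩, Subtype.ext hg⟩
        · right
          rw [ConjClasses.mk_eq_mk_iff_isConj, isConj_comm]
          refine isConj_iff.mpr ⟨⟨g * t⁻¹, hmulodd _ _ hgA hinvodd⟩, Subtype.ext ?_⟩
          change g * t⁻¹ * (t * x0 * t⁻¹) * (g * t⁻¹)⁻¹ = y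
          rw [← hg]; group
      refine (Finset.card_le_card hsub).trans (Finset.card_le_two)
    · have hnot : ¬ Subgroup.centralizer {(x0 : Equiv.Perm (Fin n))} ≤ alternatingGroup (Fin n) := by
        rw [Equiv.Perm.centralizer_le_alternating_iff, Fintype.card_fin, hC0.2]
        exact hsplit
      rw [SetLike.not_le_iff_exists] at hnot
      obtain ⟨z, hz, hzA⟩ := hnot
      have hz' : z * x0 = x0 * z := Subgroup.mem_centralizer_singleton_iff.mp hz
      have hsub : (Finset.univ.filter (fun C => π C = m)) ⊆ {ConjClasses.mk x0} := by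
        intro C hC
        obtain ⟨y, rfl⟩ := ConjClasses.mk_surjective C
        rw [Finset.mem_filter, hπ] at hC
        obtain ⟨g, hg⟩ := hconj y hC.2
        rw [Finset.mem_singleton, ConjClasses.mk_eq_mk_iff_isConj, isConj_comm]
        by_cases hgA : g ∈ alternatingGroup (Fin n)
        · exact isConj_iff.mpr ⟨⟨g, hgA⟩, Subtype.ext hg⟩
        · refine isConj_iff.mpr ⟨⟨g * z, hmulodd _ _ hgA hzA⟩, Subtype.ext ?_⟩
          change g * z * x0 * (g * z)⁻¹ = y
          rw [mul_assoc g z, hz', ← hg]; group
      exact (Finset.card_le_card hsub).trans (by rw [Finset.card_singleton])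
  rw [card_T, hcard]
  have h1 : ∑ m ∈ (T n).filter (fun m => Even (m.sum + m.card)), (Finset.univ.filter (fun C => π C = m)).card ≤
      ((T n).filter (fun m => Even (m.sum + m.card))).card + ((T n).filter (fun m => Split n m)).card := by
    refine (Finset.sum_le_sum hfib).trans ?_
    rw [Finset.sum_add_distrib, Finset.sum_const, smul_eq_mul, mul_one, Finset.sum_ite, Finset.sum_const_zero, add_zero,
      Finset.sum_const, smul_eq_mul, mul_one]
    apply Nat.add_le_add_left
    apply Finset.card_le_card
    rw [Finset.filter_filter]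
    intro m hm
    rw [Finset.mem_filter] at hm ⊢
    exact ⟨hm.1, hm.2.2⟩
  have h2 := split_lt n hn
  have h3 : ((T n).filter (fun m => Even (m.sum + m.card))).card + ((T n).filter (fun m => Odd (m.sum + m.card))).card = (T n).card := by
    have := Finset.card_filter_add_card_filter_not (s := T n) (fun m : Multiset ℕ => Even (m.sum + m.card))
    simp only [Nat.not_even_iff_odd] at this
    exact this
  omega

/-- For n ≥ 5 the alternating group of degree n has strictly fewer conjugacy classes than the symmetric group of degree n, and the symmetric group of degree n (whose classes correspond to the partitions of n) has at most 2^(n−2) conjugacy classes. -/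
theorem result (n : ℕ) (hn : 5 ≤ n) : Nat.card (ConjClasses (alternatingGroup (Fin n))) < Nat.card (ConjClasses (Equiv.Perm (Fin n))) ∧ Nat.card (ConjClasses (Equiv.Perm (Fin n))) ≤ 2 ^ (n - 2) :=
  ⟨alt_lt n hn, upper n hn⟩

end Cfsg.Agent.S4198
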