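import Mathlib
import Cfsg.Statements.S4200

set_option autoImplicit false
open Cfsg

namespace Cfsg.Agent.S4200

theorem sum_card {G : Type*} [Group G] [Fintype G] :
    ∑ x : G, Nat.card {y : G // Commute x y} = Nat.card (ConjClasses G) * Nat.card G := by
  classical
  rw [← card_comm_eq_card_conjClasses_mul_card]
  rw [Nat.card_congr (Equiv.subtypeProdEquivSigmaSubtype (fun x y : G => Commute x y)), Nat.card_sigma]

theorem ind {X : Type*} [Group X] [Finite X] (Y C : Subgroup X) : Nat.card C ≤ Y.index * Nat.card (Y ⊓ C : Subgroup X) := by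
  have h1 := (Y.subgroupOf C).index_mul_card
  have e : Nat.card (Y.subgroupOf C) = Nat.card (Y ⊓ C : Subgroup X) := by
    rw [← Subgroup.inf_subgroupOf_right, Nat.card_congr (Subgroup.subgroupOfEquivOfLe (inf_le_right : Y ⊓ C ≤ C)).toEquiv]
  rw [← h1, e]
  refine Nat.mul_le_mul_right _ ?_
  have := Subgroup.relIndex_le_of_le_right (H := Y) (K := C) (L := ⊤) le_top (by
    rw [Subgroup.relIndex_top_right]; exact Subgroup.index_ne_zero_of_finite)
  rwa [Subgroup.relIndex_top_right] at this

theorem ind_eq {X : Type*} [Group X] [Finite X] (Y C : Subgroup X) (h : Nat.card C = Y.index * Nat.card (Y ⊓ C : Subgroup X))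
    (g : X) : ∃ c ∈ C, c⁻¹ * g ∈ Y := by
  have h1 := (Y.subgroupOf C).index_mul_card
  have e : Nat.card (Y.subgroupOf C) = Nat.card (Y ⊓ C : Subgroup X) := by
    rw [← Subgroup.inf_subgroupOf_right, Nat.card_congr (Subgroup.subgroupOfEquivOfLe (inf_le_right : Y ⊓ C ≤ C)).toEquiv]
  rw [← h1, e] at h
  have h2 : (Y.subgroupOf C).index = Y.index := Nat.eq_of_mul_eq_mul_right Nat.card_pos h
  have h3 : MulAction.stabilizer C ((1 : X) : X ⧸ Y) = Y.subgroupOf C := by
    ext c
    rw [MulAction.mem_stabilizer_iff, Subgroup.mem_subgroupOf]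
    have : c • ((1 : X) : X ⧸ Y) = (((c : X) * 1 : X) : X ⧸ Y) := rfl
    rw [this, mul_one, eq_comm, QuotientGroup.eq, inv_one, one_mul]
  have h4 := MulAction.index_stabilizer C ((1 : X) : X ⧸ Y)
  rw [h3, h2, Subgroup.index_eq_card] at h4
  have h5 : MulAction.orbit C ((1 : X) : X ⧸ Y) = Set.univ := by
    have h7 := Set.eq_of_subset_of_ncard_le (Set.subset_univ (MulAction.orbit C ((1 : X) : X ⧸ Y))) (by
      rw [← h4, Set.ncard_univ])
    exact h7
  have h6 : ((g : X) : X ⧸ Y) ∈ MulAction.orbit C ((1 : X) : X ⧸ Y) := by rw [h5]; trivial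
  obtain ⟨c, hc⟩ := h6
  refine ⟨c, c.2, ?_⟩
  have : c • ((1 : X) : X ⧸ Y) = (((c : X) * 1 : X) : X ⧸ Y) := rfl
  simp only [this, mul_one] at hc
  exact QuotientGroup.eq.mp hc


/-- Let Y be a subgroup of the finite group X, of index m. Then the numbers of conjugacy classes satisfy k(Y) ≤ m·k(X) and k(X) ≤ m·k(Y), and the second inequality is strict unless Y is normal in X. -/
theorem result {X : Type*} [Group X] [Finite X] (Y : Subgroup X) : Nat.card (ConjClasses Y) ≤ Y.index * Nat.card (ConjClasses X) ∧ Nat.card (ConjClasses X) ≤ Y.index * Nat.card (ConjClasses Y) ∧ (¬ Y.Normal → Nat.card (ConjClasses X) < Y.index * Nat.card (ConjClasses Y)) := by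
  classical
  have := Fintype.ofFinite X
  have hpos : 0 < Nat.card X := Nat.card_pos
  have hposY : 0 < Nat.card Y := Nat.card_pos
  have hidx : 0 < Y.index := Nat.pos_of_ne_zero Subgroup.index_ne_zero_of_finite
  have hXY : Nat.card X = Y.index * Nat.card Y := (Subgroup.index_mul_card Y).symm
  have hA : Nat.card (ConjClasses Y) * Nat.card Y ≤ Nat.card (ConjClasses X) * Nat.card X := by
    rw [← card_comm_eq_card_conjClasses_mul_card, ← card_comm_eq_card_conjClasses_mul_card]
    refine Nat.card_le_card_of_injective (fun p => ⟨((p.1.1 : X), (p.1.2 : X)), ?_⟩) ?_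
    · have h1 : Commute p.1.1 p.1.2 := p.2
      exact h1.map Y.subtype
    · intro a b hab
      have hab' := congrArg Subtype.val hab
      simp only [Prod.mk.injEq, SetLike.coe_eq_coe] at hab'
      exact Subtype.ext (Prod.ext hab'.1 hab'.2)
  have hcard : ∀ x : X, Nat.card {y : X // Commute x y} = Nat.card (Subgroup.centralizer {x}) := by
    intro x
    refine Nat.card_congr (Equiv.subtypeEquivRight ?_)
    intro y
    rw [Subgroup.mem_centralizer_singleton_iff]
    exact ⟨fun h => h.symm, fun h => h.symm⟩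
  have hcard' : ∀ x : X, Nat.card {y : Y // Commute x (y : X)} = Nat.card (Y ⊓ Subgroup.centralizer {x} : Subgroup X) := by
    intro x
    refine Nat.card_congr ⟨fun y => ⟨y.1, y.1.2, ?_⟩, fun y => ⟨⟨y.1, y.2.1⟩, ?_⟩, fun y => rfl, fun y => rfl⟩
    · have h1 : Commute x (y.1 : X) := y.2
      change (y.1 : X) ∈ Subgroup.centralizer {x}
      rw [Subgroup.mem_centralizer_singleton_iff]
      exact h1.symm
    · have h2 : (y.1 : X) ∈ Subgroup.centralizer {x} := y.2.2
      rw [Subgroup.mem_centralizer_singleton_iff] at h2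
      exact h2.symm
  have hcent : ∀ x : X, Nat.card {y : X // Commute x y} ≤ Y.index * Nat.card {y : Y // Commute x (y : X)} := by
    intro x
    rw [hcard, hcard']
    exact ind Y (Subgroup.centralizer {x})
  have hcentEq : ∀ x : X, Nat.card {y : X // Commute x y} = Y.index * Nat.card {y : Y // Commute x (y : X)} →
      ∀ g : X, ∃ c, Commute x c ∧ c⁻¹ * g ∈ Y := by
    intro x hx g
    rw [hcard, hcard'] at hx
    obtain ⟨c, hc, h⟩ := ind_eq Y (Subgroup.centralizer {x}) hx g
    rw [Subgroup.mem_centralizer_singleton_iff] at hc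
    exact ⟨c, hc.symm, h⟩
  have e1 : ∀ x : X, Nat.card {n : Y // Commute x (n : X)} = ∑ n : Y, if Commute x (n : X) then 1 else 0 := by
    intro x
    rw [Nat.card_eq_fintype_card, Fintype.card_subtype, Finset.card_filter]
  have e2 : ∀ n : Y, Nat.card {y : X // Commute (n : X) y} = ∑ y : X, if Commute y (n : X) then 1 else 0 := by
    intro x
    rw [Nat.card_eq_fintype_card, Fintype.card_subtype, Finset.card_filter]
    refine Finset.sum_congr rfl ?_
    intro y _
    simp only [Commute.symm_iff (a := y)]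
  have e3 : ∀ n : Y, Nat.card {y : Y // Commute (n : X) (y : X)} = Nat.card {y : Y // Commute n y} := by
    intro n
    refine Nat.card_congr (Equiv.subtypeEquivRight ?_)
    intro y
    constructor
    · intro h; exact Subtype.ext h
    · intro h; exact h.map Y.subtype
  have s1 : Nat.card (ConjClasses X) * Nat.card X ≤ ∑ x : X, Y.index * Nat.card {y : Y // Commute x (y : X)} := by
    rw [← sum_card]
    exact Finset.sum_le_sum (fun x _ => hcent x)
  have s2 : ∑ x : X, Y.index * Nat.card {y : Y // Commute x (y : X)} = Y.index * ∑ n : Y, Nat.card {y : X // Commute (n : X) y} := by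
    rw [← Finset.mul_sum]
    congr 1
    simp_rw [e1, e2]
    rw [Finset.sum_comm]
  have s3 : ∑ n : Y, Nat.card {y : X // Commute (n : X) y} ≤ ∑ n : Y, Y.index * Nat.card {y : Y // Commute (n : X) (y : X)} :=
    Finset.sum_le_sum (fun x _ => hcent x)
  have s4 : ∑ n : Y, Y.index * Nat.card {y : Y // Commute (n : X) (y : X)} = Y.index * (Nat.card (ConjClasses Y) * Nat.card Y) := by
    simp_rw [e3]
    rw [← Finset.mul_sum, sum_card]
  refine ⟨?_, ?_, ?_⟩
  · rw [hXY] at hA
    refine Nat.le_of_mul_le_mul_right (c := Nat.card Y) ?_ hposY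
    calc _ ≤ _ := hA
      _ = _ := by ring
  · refine Nat.le_of_mul_le_mul_right (c := Nat.card X) ?_ hpos
    calc Nat.card (ConjClasses X) * Nat.card X ≤ Y.index * ∑ n : Y, Nat.card {y : X // Commute (n : X) y} := s2 ▸ s1
      _ ≤ Y.index * (Y.index * (Nat.card (ConjClasses Y) * Nat.card Y)) := Nat.mul_le_mul_left _ (s4 ▸ s3)
      _ = Y.index * Nat.card (ConjClasses Y) * Nat.card X := by rw [hXY]; ring
  · intro hnn
    by_contra hlt
    rw [not_lt] at hlt
    apply hnn
    -- equality everywhere in s3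
    have hs3 : ¬ (∑ n : Y, Nat.card {y : X // Commute (n : X) y} < ∑ n : Y, Y.index * Nat.card {y : Y // Commute (n : X) (y : X)}) := by
      intro hcon
      have : Nat.card (ConjClasses X) * Nat.card X < Y.index * Nat.card (ConjClasses Y) * Nat.card X := by
        calc Nat.card (ConjClasses X) * Nat.card X ≤ Y.index * ∑ n : Y, Nat.card {y : X // Commute (n : X) y} := s2 ▸ s1
          _ < Y.index * (Y.index * (Nat.card (ConjClasses Y) * Nat.card Y)) := by
              rw [s4] at hcon
              exact Nat.mul_lt_mul_of_pos_left hcon hidx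
          _ = Y.index * Nat.card (ConjClasses Y) * Nat.card X := by rw [hXY]; ring
      have h5 := Nat.mul_le_mul_right (Nat.card X) hlt
      omega
    have heq : ∀ n : Y, Nat.card {y : X // Commute (n : X) y} = Y.index * Nat.card {y : Y // Commute (n : X) (y : X)} := by
      intro n
      by_contra hne
      apply hs3
      refine Finset.sum_lt_sum (fun x _ => hcent x) ⟨n, Finset.mem_univ _, lt_of_le_of_ne (hcent n) hne⟩
    constructor
    intro n hn g
    obtain ⟨c, hc, hcg⟩ := hcentEq n (heq ⟨n, hn⟩) g⁻¹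
    -- c⁻¹ g⁻¹ ∈ Y
    have h6 : g * n * g⁻¹ = (c⁻¹ * g⁻¹)⁻¹ * n * (c⁻¹ * g⁻¹) := by
      have : c * n * c⁻¹ = n := by rw [hc.symm.eq]; group
      calc g * n * g⁻¹ = g * (c * n * c⁻¹) * g⁻¹ := by rw [this]
        _ = _ := by group
    rw [h6]
    exact mul_mem (mul_mem (inv_mem hcg) hn) hcg


end Cfsg.Agent.S4200
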