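import Mathlib
import Cfsg.Statements.S4201

set_option autoImplicit false
open Cfsg

namespace Cfsg.Agent.S4201

theorem sum_card {G : Type*} [Group G] [Fintype G] :
    ∑ x : G, Nat.card {y : G // Commute x y} = Nat.card (ConjClasses G) * Nat.card G := by
  classical
  rw [← card_comm_eq_card_conjClasses_mul_card]
  rw [Nat.card_congr (Equiv.subtypeProdEquivSigmaSubtype (fun x y : G => Commute x y)), Nat.card_sigma]


/-- If N is a normal subgroup of the finite group X then k(X) ≤ k(N)·k(X ⧸ N), where k denotes the number of conjugacy classes. -/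
theorem result {X : Type*} [Group X] [Finite X] (N : Subgroup X) [N.Normal] : Nat.card (ConjClasses X) ≤ Nat.card (ConjClasses N) * Nat.card (ConjClasses (X ⧸ N)) := by
  classical
  have := Fintype.ofFinite X
  have hpos : 0 < Nat.card X := Nat.card_pos
  have h1 : ∀ x : X, Nat.card {y : X // Commute x y} ≤
      Nat.card {n : N // Commute x (n : X)} * Nat.card {z : X ⧸ N // Commute (x : X ⧸ N) z} := by
    intro x
    -- fibres
    let f : {y : X // Commute x y} → {z : X ⧸ N // Commute (x : X ⧸ N) z} := fun y => ⟨(y : X), by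
      have h2 : Commute x (y : X) := y.2
      have := h2.map (QuotientGroup.mk' N)
      exact this⟩
    have hfib : ∀ z, Nat.card {y // f y = z} ≤ Nat.card {n : N // Commute x (n : X)} := by
      intro z
      by_cases hz : Nonempty {y // f y = z}
      · obtain ⟨⟨y0, hy0⟩⟩ := hz
        refine Nat.card_le_card_of_injective (fun y => ⟨⟨(y0 : X)⁻¹ * (y.1 : X), ?_⟩, ?_⟩) ?_
        · have h2 : f y0 = f y.1 := by rw [hy0, y.2]
          have h3 : ((y0 : X) : X ⧸ N) = ((y.1 : X) : X ⧸ N) := congrArg Subtype.val h2
          exact QuotientGroup.eq.mp h3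
        · have h5 : Commute x (y0 : X) := y0.2
          have h6 : Commute x (y.1 : X) := y.1.2
          exact (h5.inv_right).mul_right h6
        · intro a b hab
          have h4 := congrArg (fun t : {n : N // Commute x (n : X)} => (t.1 : X)) hab
          simp only [mul_right_inj] at h4
          exact Subtype.ext (Subtype.ext h4)
      · rw [not_nonempty_iff] at hz
        simp
    calc Nat.card {y : X // Commute x y} = Nat.card (Σ z, {y // f y = z}) :=
          (Nat.card_congr (Equiv.sigmaFiberEquiv f)).symm
      _ = ∑ z, Nat.card {y // f y = z} := Nat.card_sigma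
      _ ≤ ∑ z : {z : X ⧸ N // Commute (x : X ⧸ N) z}, Nat.card {n : N // Commute x (n : X)} :=
          Finset.sum_le_sum (fun z _ => hfib z)
      _ = Nat.card {n : N // Commute x (n : X)} * Nat.card {z : X ⧸ N // Commute (x : X ⧸ N) z} := by
          rw [Finset.sum_const, smul_eq_mul, Finset.card_univ, ← Nat.card_eq_fintype_card, mul_comm]
  have h2 : ∀ z : X ⧸ N, ∑ x ∈ Finset.univ.filter (fun x : X => (x : X ⧸ N) = z), Nat.card {n : N // Commute x (n : X)} ≤
      Nat.card (ConjClasses N) * Nat.card N := by
    intro z
    rw [← sum_card]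
    have e1 : ∀ x : X, Nat.card {n : N // Commute x (n : X)} = ∑ n : N, if Commute x (n : X) then 1 else 0 := by
      intro x
      rw [Nat.card_eq_fintype_card, Fintype.card_subtype, Finset.card_filter]
    have e2 : ∀ n : N, Nat.card {y : N // Commute n y} = ∑ y : N, if Commute n y then 1 else 0 := by
      intro x
      rw [Nat.card_eq_fintype_card, Fintype.card_subtype, Finset.card_filter]
    simp_rw [e1]
    rw [Finset.sum_comm]
    refine Finset.sum_le_sum ?_
    intro n _
    rw [← Finset.sum_filter, ← Finset.card_eq_sum_ones, Nat.card_eq_fintype_card, Fintype.card_subtype]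
    by_cases hne : (Finset.filter (fun x : X => Commute x (n : X)) (Finset.filter (fun x : X => (x : X ⧸ N) = z) Finset.univ)).Nonempty
    · obtain ⟨x0, hx0⟩ := hne
      simp only [Finset.mem_filter, Finset.mem_univ, true_and] at hx0
      refine Finset.card_le_card_of_injOn (fun x => if h : x0⁻¹ * x ∈ N then ⟨x0⁻¹ * x, h⟩ else 1) ?_ ?_
      · intro x hx
        simp only [Finset.coe_filter, Finset.mem_filter, Finset.mem_univ, true_and, Set.mem_setOf_eq] at hx ⊢
        have h3 : x0⁻¹ * x ∈ N := QuotientGroup.eq.mp (hx0.1.trans hx.1.symm)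
        rw [dif_pos h3]
        have h4 : Commute (n : X) (x0⁻¹ * x) := (hx0.2.symm.inv_right).mul_right hx.2.symm
        exact Subtype.ext h4
      · intro a ha b hb hab
        simp only [Finset.coe_filter, Finset.mem_filter, Finset.mem_univ, true_and, Set.mem_setOf_eq] at ha hb
        have h3 : x0⁻¹ * a ∈ N := QuotientGroup.eq.mp (hx0.1.trans ha.1.symm)
        have h4 : x0⁻¹ * b ∈ N := QuotientGroup.eq.mp (hx0.1.trans hb.1.symm)
        simp only [dif_pos h3, dif_pos h4, Subtype.mk.injEq, mul_right_inj] at hab
        exact hab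
    · rw [Finset.not_nonempty_iff_eq_empty] at hne
      rw [hne]; simp
  have h3 : Nat.card (ConjClasses X) * Nat.card X ≤
      (Nat.card (ConjClasses N) * Nat.card (ConjClasses (X ⧸ N))) * Nat.card X := by
    rw [← sum_card]
    calc ∑ x : X, Nat.card {y : X // Commute x y}
        ≤ ∑ x : X, Nat.card {n : N // Commute x (n : X)} * Nat.card {z : X ⧸ N // Commute (x : X ⧸ N) z} :=
          Finset.sum_le_sum (fun x _ => h1 x)
      _ = ∑ z : X ⧸ N, ∑ x ∈ Finset.univ.filter (fun x : X => (x : X ⧸ N) = z),
            Nat.card {n : N // Commute x (n : X)} * Nat.card {z : X ⧸ N // Commute (x : X ⧸ N) z} := by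
          rw [Finset.sum_fiberwise]
      _ = ∑ z : X ⧸ N, (∑ x ∈ Finset.univ.filter (fun x : X => (x : X ⧸ N) = z),
            Nat.card {n : N // Commute x (n : X)}) * Nat.card {w : X ⧸ N // Commute z w} := by
          refine Finset.sum_congr rfl ?_
          intro z _
          rw [Finset.sum_mul]
          refine Finset.sum_congr rfl ?_
          intro x hx
          rw [Finset.mem_filter] at hx
          rw [hx.2]
      _ ≤ ∑ z : X ⧸ N, (Nat.card (ConjClasses N) * Nat.card N) * Nat.card {w : X ⧸ N // Commute z w} :=
          Finset.sum_le_sum (fun z _ => Nat.mul_le_mul_right _ (h2 z))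
      _ = (Nat.card (ConjClasses N) * Nat.card N) * (Nat.card (ConjClasses (X ⧸ N)) * Nat.card (X ⧸ N)) := by
          rw [← Finset.mul_sum, sum_card]
      _ = (Nat.card (ConjClasses N) * Nat.card (ConjClasses (X ⧸ N))) * Nat.card X := by
          rw [Subgroup.card_eq_card_quotient_mul_card_subgroup N]; ring
  exact Nat.le_of_mul_le_mul_right h3 hpos


end Cfsg.Agent.S4201
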