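import Mathlib
import Cfsg.Statements.S4203
import Cfsg.Agent.Lib.H73.SolvSmall

set_option autoImplicit false
open Cfsg

namespace Cfsg.Agent.S4203

open H73.SolvSmall

theorem map_index_eq {G : Type*} [Group G] [Finite G] (N M : Subgroup G) (h : M ⊔ N = ⊤) (hN : N.Normal) :
    M.index = (M.subgroupOf N).index := by
  have h1 : Nat.card (M ⊔ N : Subgroup G) * Nat.card (M ⊓ N : Subgroup G) = Nat.card M * Nat.card N := by
    have e0 : N.relIndex (M ⊔ N) = N.relIndex M := Subgroup.relIndex_sup_right M N
    have a1 : Nat.card N * N.relIndex (M ⊔ N) = Nat.card (M ⊔ N : Subgroup G) := by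
      have := (N.subgroupOf (M ⊔ N)).card_mul_index
      rwa [Nat.card_congr (Subgroup.subgroupOfEquivOfLe (le_sup_right : N ≤ M ⊔ N)).toEquiv] at this
    have a2 : Nat.card (M ⊓ N : Subgroup G) * N.relIndex M = Nat.card M := by
      have := (N.subgroupOf M).card_mul_index
      have e : Nat.card (N.subgroupOf M) = Nat.card (M ⊓ N : Subgroup G) := by
        rw [← Subgroup.inf_subgroupOf_left, Nat.card_congr (Subgroup.subgroupOfEquivOfLe (inf_le_left : M ⊓ N ≤ M)).toEquiv]
      rwa [e] at this
    rw [e0] at a1
    rw [← a1, ← a2]; ring
  have h2 : Nat.card (M.subgroupOf N) = Nat.card (M ⊓ N : Subgroup G) := by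
    rw [← Subgroup.inf_subgroupOf_right, Nat.card_congr (Subgroup.subgroupOfEquivOfLe (inf_le_right : M ⊓ N ≤ N)).toEquiv]
  rw [h, Subgroup.card_top] at h1
  have h3 := (M.subgroupOf N).index_mul_card
  have h4 := M.index_mul_card
  rw [h2] at h3
  have p1 : 0 < Nat.card (M ⊓ N : Subgroup G) := Nat.card_pos
  have p2 : 0 < Nat.card M := Nat.card_pos
  have h5 : M.index * (Nat.card M * Nat.card (M ⊓ N : Subgroup G)) = (M.subgroupOf N).index * (Nat.card M * Nat.card (M ⊓ N : Subgroup G)) := by
    calc M.index * (Nat.card M * Nat.card (M ⊓ N : Subgroup G)) = (M.index * Nat.card M) * Nat.card (M ⊓ N : Subgroup G) := by ring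
      _ = Nat.card M * Nat.card N := by rw [h4, h1]
      _ = Nat.card M * ((M.subgroupOf N).index * Nat.card (M ⊓ N : Subgroup G)) := by rw [h3]
      _ = _ := by ring
  exact Nat.eq_of_mul_eq_mul_right (Nat.mul_pos p2 p1) h5

/-- index of a subgroup containing a Sylow normalizer is 1 mod p -/
theorem index_modEq_one {G : Type*} [Group G] [Finite G] {p : ℕ} [Fact p.Prime] (P : Sylow p G) (M : Subgroup G)
    (h : Subgroup.normalizer ((P : Subgroup G) : Set G) ≤ M) : M.index ≡ 1 [MOD p] := by
  have hPM : (P : Subgroup G) ≤ M := Subgroup.le_normalizer.trans h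
  have h1 : (Subgroup.normalizer ((P : Subgroup G) : Set G)).index ≡ 1 [MOD p] := by
    have h3 : Nat.card (Sylow p G) = (Subgroup.normalizer ((P : Subgroup G) : Set G)).index := P.card_eq_index_normalizer
    rw [← h3]; exact card_sylow_modEq_one p G
  have h2 : (Subgroup.normalizer ((P : Subgroup G) : Set G)).relIndex M ≡ 1 [MOD p] := by
    have h3 : Nat.card (Sylow p M) = (Subgroup.normalizer (((P.subtype hPM : Sylow p M) : Subgroup M) : Set M)).index :=
      (P.subtype hPM).card_eq_index_normalizer
    have h4 : Subgroup.normalizer (((P.subtype hPM : Sylow p M) : Subgroup M) : Set M) =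
        (Subgroup.normalizer ((P : Subgroup G) : Set G)).subgroupOf M := by
      ext x
      rw [Subgroup.mem_subgroupOf, Subgroup.mem_normalizer_iff, Subgroup.mem_normalizer_iff]
      constructor
      · intro hx y
        constructor
        · intro hy
          have := (hx ⟨y, hPM hy⟩).mp hy
          exact this
        · intro hy
          have h5 : y ∈ M := by
            have h6 := hPM hy
            have h7 : y = (x : G)⁻¹ * ((x : G) * y * (x : G)⁻¹) * (x : G) := by group
            rw [h7]
            exact mul_mem (mul_mem (inv_mem x.2) h6) x.2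
          have := (hx ⟨y, h5⟩).mpr hy
          exact this
      · intro hx y
        exact hx y
    rw [h4] at h3
    show ((Subgroup.normalizer ((P : Subgroup G) : Set G)).subgroupOf M).index ≡ 1 [MOD p]
    rw [← h3]
    exact card_sylow_modEq_one p M
  have h3 := Subgroup.relIndex_mul_index h
  have h4 : (Subgroup.normalizer ((P : Subgroup G) : Set G)).relIndex M * M.index ≡ 1 * M.index [MOD p] := h2.mul_right _
  rw [h3, one_mul] at h4
  exact h4.symm.trans h1

universe u in
theorem main : ∀ (n : ℕ) (G : Type u) [Group G] [Finite G], Nat.card G = n →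
    (∀ M : Subgroup G, IsCoatom M → ∃ p : ℕ, p.Prime ∧ (M.index = p ∨ M.index = p ^ 2)) → Group.IsSolvable G := by
  intro n
  induction n using Nat.strong_induction_on with
  | _ n ih =>
    intro G _ _ hn h
    by_cases htriv : Subsingleton G
    · infer_instance
    rw [not_subsingleton_iff_nontrivial] at htriv
    -- quotients
    have hquot : ∀ N : Subgroup G, ∀ _ : N.Normal, N ≠ ⊥ → Group.IsSolvable (G ⧸ N) := by
      intro N hN hNb
      refine ih (Nat.card (G ⧸ N)) ?_ (G ⧸ N) rfl ?_
      · rw [← hn, Subgroup.card_eq_card_quotient_mul_card_subgroup N]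
        have h1 : 1 < Nat.card N := by
          rw [Subgroup.one_lt_card_iff_ne_bot]; exact hNb
        have h2 : 0 < Nat.card (G ⧸ N) := Nat.card_pos
        nlinarith
      · intro M hM
        have h1 := Subgroup.isCoatom_comap_of_surjective (QuotientGroup.mk'_surjective N) hM
        obtain ⟨p, hp, h2⟩ := h _ h1
        rw [Subgroup.index_comap_of_surjective _ (QuotientGroup.mk'_surjective N)] at h2
        exact ⟨p, hp, h2⟩
    have hclose : ∀ N : Subgroup G, ∀ _ : N.Normal, N ≠ ⊥ → Group.IsSolvable N → Group.IsSolvable G := by
      intro N hN hNb hs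
      exact (Group.isSolvable_iff_subgroup_quotient N).mpr ⟨hs, hquot N hN hNb⟩
    obtain ⟨N, -, hN, hNb, hmin⟩ := exists_minimal_normal (inferInstance : (⊤ : Subgroup G).Normal) top_ne_bot
    -- the largest prime divisor of |N|
    have hN1 : 1 < Nat.card N := by rw [Subgroup.one_lt_card_iff_ne_bot]; exact hNb
    obtain ⟨p, hp, hpN, hpmax⟩ : ∃ p : ℕ, p.Prime ∧ p ∣ Nat.card N ∧ ∀ q : ℕ, q.Prime → q ∣ Nat.card N → q ≤ p := by
      have hne : (Nat.card N).primeFactors.Nonempty := Nat.nonempty_primeFactors.mpr hN1
      refine ⟨(Nat.card N).primeFactors.max' hne, ?_, ?_, ?_⟩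
      · exact Nat.prime_of_mem_primeFactors (Finset.max'_mem _ hne)
      · exact Nat.dvd_of_mem_primeFactors (Finset.max'_mem _ hne)
      · intro q hq hqN
        exact Finset.le_max' _ _ (Nat.mem_primeFactors.mpr ⟨hq, hqN, Nat.card_pos.ne'⟩)
    have := Fact.mk hp
    obtain ⟨P⟩ : Nonempty (Sylow p N) := inferInstance
    have hPne : (P : Subgroup N) ≠ ⊥ := P.ne_bot_of_dvd_card hpN
    by_cases hnorm : Subgroup.normalizer (((P : Subgroup N).map N.subtype : Subgroup G) : Set G) = ⊤
    · -- P normal in G
      have hPn : ((P : Subgroup N).map N.subtype).Normal := Subgroup.normalizer_eq_top_iff.mp hnorm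
      refine hclose _ hPn ?_ ?_
      · intro h1
        rw [Subgroup.map_eq_bot_iff_of_injective _ N.subtype_injective] at h1
        exact hPne h1
      · exact isSolvable_of_isPGroup hp (P.isPGroup'.map _)
    · obtain ⟨M, hM, hle⟩ := (eq_top_or_exists_le_coatom (Subgroup.normalizer (((P : Subgroup N).map N.subtype : Subgroup G) : Set G))).resolve_left hnorm
      have hMN : M ⊔ N = ⊤ := by
        rw [eq_top_iff, ← P.normalizer_sup_eq_top]
        exact sup_le_sup_right hle N
      have hidx := map_index_eq N M hMN hN
      have hle' : Subgroup.normalizer ((P : Subgroup N) : Set N) ≤ M.subgroupOf N := by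
        intro x hx
        rw [Subgroup.mem_subgroupOf]
        apply hle
        rw [Subgroup.mem_normalizer_iff] at hx ⊢
        intro y
        constructor
        · rintro ⟨z, hz, rfl⟩
          exact ⟨x * z * x⁻¹, (hx z).mp hz, by simp⟩
        · rintro ⟨z, hz, hzy⟩
          refine ⟨x⁻¹ * z * x, ?_, ?_⟩
          · have := (hx (x⁻¹ * z * x)).mpr (by
              have e : x * (x⁻¹ * z * x) * x⁻¹ = z := by group
              rw [e]; exact hz)
            exact this
          · have h1 : (z : G) = (x : G) * y * (x : G)⁻¹ := hzy
            simp only [Subgroup.subtype_apply, Subgroup.coe_mul, Subgroup.coe_inv, InvMemClass.coe_inv]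
            rw [h1]; group
      have hmod := index_modEq_one P (M.subgroupOf N) hle'
      rw [← hidx] at hmod
      obtain ⟨q, hq, hMq⟩ := h M hM
      have hqN : q ∣ Nat.card N := by
        have h1 : M.index ∣ Nat.card N := by rw [hidx]; exact Subgroup.index_dvd_card _
        rcases hMq with h2 | h2
        · rw [h2] at h1; exact h1
        · rw [h2] at h1; exact (dvd_pow_self q two_ne_zero).trans h1
      have hqp := hpmax q hq hqN
      have hq2 := hq.two_le
      have hp2 := hp.two_le
      have hqne : q ≠ p := by
        rintro rfl
        have h1 : M.index ≡ 0 [MOD q] := by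
          rcases hMq with h2 | h2
          · rw [h2]; exact Nat.modEq_zero_iff_dvd.mpr dvd_rfl
          · rw [h2]; exact Nat.modEq_zero_iff_dvd.mpr (dvd_pow_self q two_ne_zero)
        have h2 := (h1.symm.trans hmod)
        have h3 := (Nat.modEq_iff_dvd' (by omega)).mp h2
        simp at h3
        omega
      have hqlt : q < p := lt_of_le_of_ne hqp hqne
      have h4 : M.index = 4 := by
        rcases hMq with h2 | h2
        · exfalso
          rw [h2] at hmod
          have h3 := (Nat.modEq_iff_dvd' (by omega)).mp hmod.symm
          have := Nat.le_of_dvd (by omega) h3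
          omega
        · rw [h2] at hmod
          have h3 := (Nat.modEq_iff_dvd' (by nlinarith)).mp hmod.symm
          have h5 : q ^ 2 - 1 = (q + 1) * (q - 1) := by
            have := Nat.sq_sub_sq q 1
            simpa using this
          rw [h5] at h3
          rcases (Nat.Prime.dvd_mul hp).mp h3 with h6 | h6
          · have := Nat.le_of_dvd (by omega) h6
            have hpq : p = q + 1 := by omega
            -- consecutive primes
            have hq' : q = 2 := by
              by_contra hne
              have o1 : Odd q := hq.odd_of_ne_two hne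
              have o2 : Odd p := hp.odd_of_ne_two (by omega)
              rw [hpq] at o2
              rcases o1 with ⟨a, ha⟩
              rcases o2 with ⟨b, hb⟩
              omega
            rw [h2, hq']; norm_num
          · have := Nat.le_of_dvd (by omega) h6
            omega
      -- the core of M
      have hcoreS : Group.IsSolvable (G ⧸ M.normalCore) := by
        classical
        have hfin : Fintype (G ⧸ M) := Fintype.ofFinite _
        have : Group.IsSolvable (Equiv.Perm (G ⧸ M)) :=
          isSolvable_perm_of_card_four (by rw [← Subgroup.index_eq_card, h4])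
        have hk := Subgroup.normalCore_eq_ker M
        refine Group.isSolvable_of_isSolvable_injective (f := QuotientGroup.lift M.normalCore (MulAction.toPermHom G (G ⧸ M)) (by
          intro x hx
          rw [hk] at hx
          exact hx)) ?_
        rw [injective_iff_map_eq_one]
        intro a
        induction a using QuotientGroup.induction_on with
        | H z =>
          intro hz
          rw [QuotientGroup.lift_mk] at hz
          rw [QuotientGroup.eq_one_iff, hk]
          exact hz
      have hinf : N ⊓ M.normalCore = ⊥ := by
        have hni : (N ⊓ M.normalCore).Normal := Subgroup.normal_inf_normal _ _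
        rcases hmin _ hni inf_le_left with h1 | h1
        · exact h1
        · exfalso
          have h2 : N ≤ M := (inf_eq_left.mp h1).trans (Subgroup.normalCore_le M)
          rw [sup_eq_left.mpr h2] at hMN
          exact hM.1 hMN
      refine hclose N hN hNb ?_
      refine Group.isSolvable_of_isSolvable_injective (f := (QuotientGroup.mk' M.normalCore).comp N.subtype) ?_
      rw [injective_iff_map_eq_one]
      intro a ha
      have h1 : (a : G) ∈ M.normalCore := (QuotientGroup.eq_one_iff _).mp ha
      have h2 : (a : G) ∈ N ⊓ M.normalCore := ⟨a.2, h1⟩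
      rw [hinf, Subgroup.mem_bot] at h2
      exact Subtype.ext h2


/-- A finite group in which every maximal subgroup has index a prime or the square of a prime is solvable. -/
theorem result {G : Type*} [Group G] [Finite G] (h : ∀ M : Subgroup G, IsCoatom M → ∃ p : ℕ, p.Prime ∧ (M.index = p ∨ M.index = p ^ 2)) : Group.IsSolvable G := by
  exact main (Nat.card G) G rfl h


end Cfsg.Agent.S4203
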