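import Cfsg.Statements.S4204

set_option autoImplicit false
open Cfsg

namespace Cfsg.Agent.S4204

theorem le_iff_map {G : Type*} [Group G] (N : Subgroup G) [N.Normal] (W : Subgroup G) :
    W ≤ N ↔ W.map (QuotientGroup.mk' N) = ⊥ := by
  rw [Subgroup.map_eq_bot_iff, QuotientGroup.ker_mk']

theorem comm_sup {G : Type*} [Group G] (X Y Z N : Subgroup G) [N.Normal] (h1 : ⁅X, Y⁆ ≤ N) (h2 : ⁅X, Z⁆ ≤ N) :
    ⁅X, Y ⊔ Z⁆ ≤ N := by
  rw [le_iff_map, Subgroup.map_commutator, Subgroup.commutator_comm, Subgroup.commutator_eq_bot_iff_le_centralizer] at h1 h2 ⊢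
  rw [Subgroup.map_sup]
  exact sup_le h1 h2

theorem iSup_comm {G : Type*} [Group G] {ι : Sort*} (X : ι → Subgroup G) (Y N : Subgroup G) [N.Normal]
    (h : ∀ i, ⁅X i, Y⁆ ≤ N) : ⁅⨆ i, X i, Y⁆ ≤ N := by
  rw [le_iff_map, Subgroup.map_commutator, Subgroup.commutator_eq_bot_iff_le_centralizer, Subgroup.map_iSup]
  refine iSup_le ?_
  intro i
  have := h i
  rwa [le_iff_map, Subgroup.map_commutator, Subgroup.commutator_eq_bot_iff_le_centralizer] at this

theorem key {G : Type*} [Group G] (A B : ℕ → Subgroup G) (H K : Subgroup G)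
    (nA : ∀ i, (A i).Normal) (nB : ∀ i, (B i).Normal)
    (sA : ∀ i, ⁅A i, H⁆ ≤ A (i + 1)) (sB : ∀ i, ⁅B i, K⁆ ≤ B (i + 1))
    (A0 : A 0 = ⊤) (B0 : B 0 = ⊤) (A1 : H ≤ A 1) (B1 : K ≤ B 1) (n : ℕ) :
    (H ⊔ K).lowerCentralSeries n ≤ ⨆ p : {p : ℕ × ℕ // p.1 + p.2 = n + 1}, A p.1.1 ⊓ B p.1.2 := by
  induction n with
  | zero =>
    rw [Subgroup.lowerCentralSeries_zero]
    refine sup_le ?_ ?_
    · refine le_trans ?_ (le_iSup _ ⟨(1, 0), rfl⟩)
      simp [A1, B0]
    · refine le_trans ?_ (le_iSup _ ⟨(0, 1), rfl⟩)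
      simp [B1, A0]
  | succ n ih =>
    rw [Subgroup.lowerCentralSeries_succ]
    refine (Subgroup.commutator_mono ih le_rfl).trans ?_
    have hnorm : (⨆ p : {p : ℕ × ℕ // p.1 + p.2 = n + 1 + 1}, A p.1.1 ⊓ B p.1.2).Normal := by
      have : ∀ p : {p : ℕ × ℕ // p.1 + p.2 = n + 1 + 1}, (A p.1.1 ⊓ B p.1.2).Normal := by
        intro i
        have := nA i.1.1
        have := nB i.1.2
        exact Subgroup.normal_inf_normal _ _
      exact Subgroup.iSup_normal (fun p : {p : ℕ × ℕ // p.1 + p.2 = n + 1 + 1} => A p.1.1 ⊓ B p.1.2)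
    refine iSup_comm _ _ _ ?_
    rintro ⟨⟨i, j⟩, hij⟩
    simp only at hij ⊢
    have n1 := nA i
    have n2 := nB j
    refine comm_sup _ _ _ _ ?_ ?_
    · have h1 : ⁅A i ⊓ B j, H⁆ ≤ A (i + 1) ⊓ B j := by
        refine le_inf ?_ ?_
        · exact (Subgroup.commutator_mono inf_le_left le_rfl).trans (sA i)
        · exact (Subgroup.commutator_mono inf_le_right le_rfl).trans (Subgroup.commutator_le_left _ _)
      refine h1.trans ?_
      exact le_iSup (fun p : {p : ℕ × ℕ // p.1 + p.2 = n + 1 + 1} => A p.1.1 ⊓ B p.1.2) ⟨(i + 1, j), by simp only; omega⟩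
    · have h1 : ⁅A i ⊓ B j, K⁆ ≤ A i ⊓ B (j + 1) := by
        refine le_inf ?_ ?_
        · exact (Subgroup.commutator_mono inf_le_left le_rfl).trans (Subgroup.commutator_le_left _ _)
        · exact (Subgroup.commutator_mono inf_le_right le_rfl).trans (sB _)
      refine h1.trans ?_
      exact le_iSup (fun p : {p : ℕ × ℕ // p.1 + p.2 = n + 1 + 1} => A p.1.1 ⊓ B p.1.2) ⟨(i, j + 1), by simp only; omega⟩


/-- If `H` and `K` are normal subgroups of a finite group with `H` nilpotent of class at most `c` and `K` nilpotent of class at most `d` (the terms with index `c`, respectively `d`, of their lower central series are trivial, indices starting at `0`), then `HK` is nilpotent of class at most `c + d`. -/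
theorem result {G : Type*} [Group G] [Finite G] (H K : Subgroup G) [H.Normal] [K.Normal] (c d : ℕ) (hH : H.lowerCentralSeries c = ⊥) (hK : K.lowerCentralSeries d = ⊥) : (H ⊔ K).lowerCentralSeries (c + d) = ⊥ := by
  have normH : ∀ n, (H.lowerCentralSeries n).Normal := by
    intro n
    induction n with
    | zero => rw [Subgroup.lowerCentralSeries_zero]; infer_instance
    | succ n ih => rw [Subgroup.lowerCentralSeries_succ]; infer_instance
  have normK : ∀ n, (K.lowerCentralSeries n).Normal := by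
    intro n
    induction n with
    | zero => rw [Subgroup.lowerCentralSeries_zero]; infer_instance
    | succ n ih => rw [Subgroup.lowerCentralSeries_succ]; infer_instance
  have := key (fun i => if i = 0 then ⊤ else H.lowerCentralSeries (i - 1))
    (fun i => if i = 0 then ⊤ else K.lowerCentralSeries (i - 1)) H K ?_ ?_ ?_ ?_ ?_ ?_ ?_ ?_ (c + d)
  · refine le_bot_iff.mp (this.trans ?_)
    refine iSup_le ?_
    rintro ⟨⟨i, j⟩, hij⟩
    simp only at hij ⊢
    by_cases hi : c + 1 ≤ i
    · rw [if_neg (by omega)]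
      have := H.lowerCentralSeries_antitone (show c ≤ i - 1 by omega)
      exact inf_le_left.trans (hH ▸ this)
    · rw [if_neg (show j ≠ 0 by omega)]
      have := K.lowerCentralSeries_antitone (show d ≤ j - 1 by omega)
      exact inf_le_right.trans (hK ▸ this)
  · intro i; split_ifs
    · infer_instance
    · exact normH _
  · intro i; split_ifs
    · infer_instance
    · exact normK _
  · intro i
    rcases i with _ | i
    · simp only [if_true, Nat.zero_add, one_ne_zero, if_false, Nat.sub_self, Subgroup.lowerCentralSeries_zero]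
      exact Subgroup.commutator_le_right _ _
    · simp only [Nat.add_eq_zero_iff, one_ne_zero, and_false, if_false, Nat.add_sub_cancel]
      rw [← Subgroup.lowerCentralSeries_succ]
  · intro i
    rcases i with _ | i
    · simp only [if_true, Nat.zero_add, one_ne_zero, if_false, Nat.sub_self, Subgroup.lowerCentralSeries_zero]
      exact Subgroup.commutator_le_right _ _
    · simp only [Nat.add_eq_zero_iff, one_ne_zero, and_false, if_false, Nat.add_sub_cancel]
      rw [← Subgroup.lowerCentralSeries_succ]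
  · simp
  · simp
  · simp
  · simp


end Cfsg.Agent.S4204
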