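import Cfsg.Statements.S4205

set_option autoImplicit false
open Cfsg

namespace Cfsg.Agent.S4205

/-- In a finite group whose upper central series reaches the whole group at step `c` (nilpotent of class at most `c`), starting from any subgroup and taking normalizers `c` times reaches the whole group. -/
theorem result {G : Type*} [Group G] [Finite G] (c : ℕ) (hG : Subgroup.upperCentralSeries G c = ⊤) (H : Subgroup G) : (fun K : Subgroup G => Subgroup.normalizer (K : Set G))^[c] H = ⊤ := by
  have key : ∀ n : ℕ, Subgroup.upperCentralSeries G n ≤ (fun K : Subgroup G => Subgroup.normalizer (K : Set G))^[n] H := by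
    intro n
    induction n with
    | zero => simp
    | succ n ih =>
      rw [Function.iterate_succ_apply']
      intro x hx
      rw [Subgroup.mem_upperCentralSeries_succ_iff] at hx
      set K := (fun K : Subgroup G => Subgroup.normalizer (K : Set G))^[n] H with hK
      show x ∈ Subgroup.normalizer (K : Set G)
      rw [Subgroup.mem_normalizer_iff]
      intro h
      have h1 := ih (hx h)
      constructor
      · intro hh
        have : x * h * x⁻¹ = (x * h * x⁻¹ * h⁻¹) * h := by group
        rw [this]
        exact mul_mem h1 hh
      · intro hh
        have : h = (x * h * x⁻¹ * h⁻¹)⁻¹ * (x * h * x⁻¹) := by group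
        rw [this]
        exact mul_mem (inv_mem h1) hh
  exact top_le_iff.mp (hG ▸ key c)


end Cfsg.Agent.S4205
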