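import Cfsg.Statements.S4206

set_option autoImplicit false
open Cfsg

namespace Cfsg.Agent.S4206

/-- Let `H 0 ≥ H 1 ≥ H 2 ≥ ⋯` be normal subgroups of a finite group and `L` a subgroup with `⁅H i, L⁆ ≤ H (i+1)` for all `i`. Then `⁅H i, γ⁆ ≤ H (i + j + 1)` where `γ` is the `j`-th term of the lower central series of `L` (indexed from `0`, so the term with index `j` is the `(j+1)`-fold commutator). -/
theorem result {G : Type*} [Group G] [Finite G] (H : ℕ → Subgroup G) (hN : ∀ i, (H i).Normal) (hdesc : ∀ i, H (i + 1) ≤ H i) (L : Subgroup G) (hL : ∀ i, ⁅H i, L⁆ ≤ H (i + 1)) (i j : ℕ) : ⁅H i, L.lowerCentralSeries j⁆ ≤ H (i + j + 1) := by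
  have three : ∀ (A B C N : Subgroup G) [N.Normal], ⁅⁅B, C⁆, A⁆ ≤ N → ⁅⁅C, A⁆, B⁆ ≤ N → ⁅⁅A, B⁆, C⁆ ≤ N := by
    intro A B C N _ h1 h2
    have e : ∀ X : Subgroup G, X ≤ N ↔ X.map (QuotientGroup.mk' N) = ⊥ := by
      intro X
      rw [Subgroup.map_eq_bot_iff, QuotientGroup.ker_mk']
    rw [e, Subgroup.map_commutator, Subgroup.map_commutator] at h1 h2 ⊢
    exact Subgroup.commutator_commutator_eq_bot_of_rotate h1 h2
  induction j generalizing i with
  | zero =>
    rw [Subgroup.lowerCentralSeries_zero]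
    exact hL i
  | succ j ih =>
    rw [Subgroup.lowerCentralSeries_succ, Subgroup.commutator_comm]
    haveI := hN (i + (j + 1) + 1)
    refine three (L.lowerCentralSeries j) L (H i) (H (i + (j + 1) + 1)) ?_ ?_
    · have h1 : ⁅L, H i⁆ ≤ H (i + 1) := by rw [Subgroup.commutator_comm]; exact hL i
      refine (Subgroup.commutator_mono h1 le_rfl).trans ?_
      refine (ih (i + 1)).trans (le_of_eq ?_)
      congr 1; ring
    · refine (Subgroup.commutator_mono (ih i) le_rfl).trans ?_
      refine (hL (i + j + 1)).trans (le_of_eq ?_)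
      congr 1


end Cfsg.Agent.S4206
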