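import Cfsg.Statements.S4207
import Mathlib
import Cfsg.Agent.Lib.H73.GenTuples

set_option autoImplicit false
open Cfsg

namespace Cfsg.Agent.S4207

open H73.GenTuples
open scoped commutatorElement

theorem aut_eq_one {P : Type*} [Group P] {r : ℕ} (s : Fin r → P) (hs : Subgroup.closure (Set.range s) = ⊤)
    (α : MulAut P) (h : ∀ i, α (s i) = s i) : α = 1 := by
  apply MulEquiv.ext
  intro x
  have hx : x ∈ Subgroup.closure (Set.range s) := by rw [hs]; exact Subgroup.mem_top x
  induction hx using Subgroup.closure_induction with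
  | mem y hy => obtain ⟨i, rfl⟩ := hy; exact h i
  | one => rw [map_one, map_one]
  | mul y z _ _ hy hz => rw [map_mul, map_mul, hy, hz]
  | inv y _ hy => rw [map_inv, map_inv, hy]

theorem card_frattini {P : Type*} [Group P] [Finite P] {p n r : ℕ} [hp : Fact p.Prime] (hP : Nat.card P = p ^ n)
    (hr : (frattini P).index = p ^ r) : Nat.card (frattini P) = p ^ (n - r) := by
  have h := (frattini P).card_mul_index
  rw [hP, hr] at h
  have hrn : r ≤ n := by
    have : p ^ r ∣ p ^ n := ⟨Nat.card (frattini P), by rw [← h]; ring⟩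
    exact (Nat.pow_dvd_pow_iff_le_right hp.out.one_lt).mp this
  have h2 : p ^ n = p ^ (n - r) * p ^ r := by rw [← pow_add, Nat.sub_add_cancel hrn]
  rw [h2] at h
  exact Nat.eq_of_mul_eq_mul_right (pow_pos hp.out.pos r) h

/-- Let `P` be a group of order `p^n` whose Frattini subgroup has index `p^r`. Then any group of automorphisms of `P` each of which induces the identity on the Frattini quotient has order dividing `p^(r(n-r))`; in particular it is a `p`-group. -/
theorem result {P : Type*} [Group P] [Finite P] {p n r : ℕ} [Fact p.Prime] (hP : Nat.card P = p ^ n) (hr : (frattini P).index = p ^ r) (A : Subgroup (MulAut P)) (hA : ∀ α ∈ A, ∀ x : P, α x * x⁻¹ ∈ frattini P) : Nat.card A ∣ p ^ (r * (n - r)) := by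
  have hPp : IsPGroup p P := IsPGroup.of_card hP
  have hnil := hPp.isNilpotent
  have hp := (Fact.out : p.Prime)
  have hcount : Nat.card {t : Fin r → P ⧸ frattini P // Subgroup.closure (Set.range t) = ⊤} = ∏ i ∈ Finset.range r, (p ^ r - p ^ i) := by
    apply card_generating
    · intro x y
      obtain ⟨x, rfl⟩ := QuotientGroup.mk_surjective x
      obtain ⟨y, rfl⟩ := QuotientGroup.mk_surjective y
      rw [← QuotientGroup.mk_mul, ← QuotientGroup.mk_mul]
      apply QuotientGroup.eq.mpr
      apply H1.Frat.commutator_le_frattini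
      have : (x * y)⁻¹ * (y * x) = ⁅y⁻¹, x⁻¹⁆ := by rw [commutatorElement_def]; group
      rw [this, commutator_def]
      exact Subgroup.commutator_mem_commutator (Subgroup.mem_top _) (Subgroup.mem_top _)
    · intro x
      obtain ⟨x, rfl⟩ := QuotientGroup.mk_surjective x
      rw [← QuotientGroup.mk_pow]
      exact (QuotientGroup.eq_one_iff _).mpr (H1.Frat.pow_mem_frattini hPp x)
    · rw [← Subgroup.index_eq_card, hr]
  have hne : Nonempty {t : Fin r → P ⧸ frattini P // Subgroup.closure (Set.range t) = ⊤} := by
    have h0 : Nat.card {t : Fin r → P ⧸ frattini P // Subgroup.closure (Set.range t) = ⊤} ≠ 0 := by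
      rw [hcount]
      apply Finset.prod_ne_zero_iff.mpr
      intro i hi
      rw [Finset.mem_range] at hi
      have : p ^ i < p ^ r := Nat.pow_lt_pow_right hp.one_lt hi
      omega
    exact (Nat.card_ne_zero.mp h0).1
  obtain ⟨⟨t, ht⟩⟩ := hne
  have hmk : ∀ α ∈ A, ∀ x : P, ((α x : P) : P ⧸ frattini P) = (x : P ⧸ frattini P) := by
    intro α hα x
    symm
    apply QuotientGroup.eq.mpr
    have h1 := hA α hα x
    have hn : (frattini P).Normal := inferInstance
    have h2 := hn.conj_mem _ h1 x⁻¹
    have h3 : x⁻¹ * (α x * x⁻¹) * x⁻¹⁻¹ = x⁻¹ * α x := by group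
    rwa [h3] at h2
  let X := {s : Fin r → P // (fun i => (s i : P ⧸ frattini P)) = t}
  let act : MulAction A X :=
    { smul := fun α s => ⟨fun i => (α : MulAut P) (s.1 i), by
        refine Eq.trans ?_ s.2
        funext i
        exact hmk α α.2 (s.1 i)⟩
      one_smul := fun s => rfl
      mul_smul := fun α β s => rfl }
  have h1 : Nat.card A ∣ Nat.card X := by
    apply card_dvd_of_free
    intro s α h
    apply Subtype.ext
    apply aut_eq_one s.1
    · rw [closure_eq_top_iff, s.2]
      exact ht
    · intro i
      exact congrFun (congrArg Subtype.val h) i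
  rw [card_lifts, card_frattini hP hr, ← pow_mul, mul_comm] at h1
  exact h1

end Cfsg.Agent.S4207
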