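import Cfsg.Statements.S4211
import Mathlib
import Cfsg.Agent.Lib.H73.Hamiltonian

set_option autoImplicit false
open Cfsg

namespace Cfsg.Agent.S4211

open H73.Hamiltonian
open scoped commutatorElement

/-- A finite non-abelian group in which every subgroup is normal is the internal direct product of a subgroup isomorphic to the quaternion group of order `8`, an elementary abelian `2`-subgroup and an abelian subgroup of odd order. -/
theorem result {G : Type*} [Group G] [Finite G] (hna : ¬ IsMulCommutative G) (hn : ∀ H : Subgroup G, H.Normal) : ∃ Q E A : Subgroup G, Nonempty (Q ≃* QuaternionGroup 2) ∧ Cfsg.IsElementaryAbelian 2 E ∧ IsMulCommutative A ∧ Odd (Nat.card A) ∧ E ⊓ A = ⊥ ∧ Q ⊓ (E ⊔ A) = ⊥ ∧ Q ⊔ (E ⊔ A) = ⊤ := by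
  classical
  have hna' : ∃ x y : G, ¬ Commute x y := by
    by_contra hc
    push Not at hc
    exact hna ⟨⟨fun a b => (hc a b).eq⟩⟩
  obtain ⟨x, y, -, hx2, hy2, hc1, hco⟩ := exists_pair hn hna'
  obtain ⟨hQiso, hyx, hxy, hxo, hyo⟩ := quaternion hn hx2 hy2 hc1 hco
  set c := ⁅x, y⁆ with hc
  set Q := Subgroup.zpowers x ⊔ Subgroup.zpowers y with hQ
  have hxQ : x ∈ Q := Subgroup.mem_sup_left (Subgroup.mem_zpowers x)
  have hyQ : y ∈ Q := Subgroup.mem_sup_right (Subgroup.mem_zpowers y)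
  have hc2 : c ^ 2 = 1 := by rw [← hco]; exact pow_orderOf_eq_one c
  have hcQ : c ∈ Q := by rw [← hx2]; exact pow_mem hxQ 2
  have hcx : Commute c x := by rw [← hx2]; exact (Commute.refl x).pow_left 2
  have hcy : Commute c y := by rw [← hy2]; exact (Commute.refl y).pow_left 2
  set C := Subgroup.centralizer (Q : Set G) with hC
  have hCmem : ∀ z : G, Commute z x → Commute z y → z ∈ C := by
    intro z hzx hzy
    have h1 : Q ≤ Subgroup.centralizer {z} := by
      rw [hQ, sup_le_iff, Subgroup.zpowers_le, Subgroup.zpowers_le]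
      exact ⟨Subgroup.mem_centralizer_singleton_iff.mpr hzx.eq.symm, Subgroup.mem_centralizer_singleton_iff.mpr hzy.eq.symm⟩
    rw [hC, Subgroup.mem_centralizer_iff]
    intro q hq
    exact Subgroup.mem_centralizer_singleton_iff.mp (h1 hq)
  have hCx : ∀ z ∈ C, Commute z x := fun z hz => (Subgroup.mem_centralizer_iff.mp hz x hxQ).symm
  have hCy : ∀ z ∈ C, Commute z y := fun z hz => (Subgroup.mem_centralizer_iff.mp hz y hyQ).symm
  have hcC : c ∈ C := hCmem c hcx hcy
  -- no elements of order 4 in `C`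
  have hno4 : ∀ z ∈ C, z ^ 4 = 1 → z ^ 2 = 1 := by
    intro z hz hz4
    by_contra hz2
    have hzx := hCx z hz
    have hzy := hCy z hz
    have hcom : ⁅x * z, y⁆ = c := by
      rw [hc, commutatorElement_def, commutatorElement_def, mul_inv_rev]
      calc x * z * y * (z⁻¹ * x⁻¹) * y⁻¹ = x * (z * y) * z⁻¹ * x⁻¹ * y⁻¹ := by group
        _ = x * (y * z) * z⁻¹ * x⁻¹ * y⁻¹ := by rw [hzy.eq]
        _ = x * y * x⁻¹ * y⁻¹ := by group
    have h1 := (comm_mem hn (x * z) y).1
    rw [hcom] at h1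
    have hw4 : (x * z) ^ 4 = 1 := by
      rw [hzx.symm.mul_pow, hz4, mul_one, ← hxo, pow_orderOf_eq_one]
    have hw2 : (x * z) ^ 2 = c * z ^ 2 := by rw [hzx.symm.mul_pow, hx2]
    have hwc : ¬ Commute (x * z) y := by
      intro h
      rw [commutatorElement_eq_one_iff_commute.mpr h] at hcom
      exact hc1 hcom.symm
    obtain ⟨j, hj⟩ : ∃ j : ℕ, (x * z) ^ j = c := mem_powers_iff_mem_zpowers.mpr h1
    have h5 : (x * z) ^ (j % 4) = c := by
      rw [← hj]
      exact (pow_eq_pow_mod j hw4).symm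
    have h6 : j % 4 < 4 := Nat.mod_lt _ (by norm_num)
    generalize j % 4 = i at h5 h6
    interval_cases i
    · rw [pow_zero] at h5; exact hc1 h5.symm
    · rw [pow_one] at h5
      apply hwc
      rw [h5]; exact hcy
    · rw [hw2] at h5
      exact hz2 (mul_eq_left.mp h5)
    · apply hwc
      have h7 : (x * z) = c⁻¹ := by
        apply eq_inv_of_mul_eq_one_right
        rw [← h5, ← pow_succ]; exact hw4
      rw [h7]; exact hcy.inv_left
  -- `C` is abelian
  have hCdn : ∀ H : Subgroup C, H.Normal := by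
    intro H
    have h1 := hn (H.map C.subtype)
    have h2 : H = (H.map C.subtype).subgroupOf C := by
      rw [Subgroup.subgroupOf, Subgroup.comap_map_eq_self_of_injective (Subgroup.subtype_injective _)]
    rw [h2]
    infer_instance
  have hCab : ∀ a ∈ C, ∀ b ∈ C, Commute a b := by
    intro a ha b hb
    by_contra hab
    obtain ⟨x', y', -, hx', hy', hc', hco'⟩ := exists_pair hCdn ⟨⟨a, ha⟩, ⟨b, hb⟩, fun h => hab (congrArg Subtype.val h.eq)⟩
    have h1 : x' ^ 4 = 1 := by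
      have : x' ^ 4 = (x' ^ 2) ^ 2 := by rw [← pow_mul]
      rw [this, hx', ← hco', pow_orderOf_eq_one]
    have h2 := hno4 x' x'.2 (by
      have := congrArg Subtype.val h1
      exact this)
    have h3 : x' ^ 2 = 1 := Subtype.ext h2
    rw [hx'] at h3
    exact hc' h3
  -- the subgroups `E0`, `A`
  let E0 : Subgroup G :=
    { carrier := {z | z ∈ C ∧ z ^ 2 = 1}
      mul_mem' := fun {a b} ha hb => ⟨mul_mem ha.1 hb.1, by rw [(hCab a ha.1 b hb.1).mul_pow, ha.2, hb.2, one_mul]⟩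
      one_mem' := ⟨one_mem C, one_pow 2⟩
      inv_mem' := fun {a} ha => ⟨inv_mem ha.1, by rw [inv_pow, ha.2, inv_one]⟩ }
  let A : Subgroup G :=
    { carrier := {z | z ∈ C ∧ Odd (orderOf z)}
      mul_mem' := fun {a b} ha hb => ⟨mul_mem ha.1 hb.1,
        Odd.of_dvd_nat (ha.2.mul hb.2) ((hCab a ha.1 b hb.1).orderOf_mul_dvd_mul_orderOf)⟩
      one_mem' := ⟨one_mem C, by rw [orderOf_one]; exact odd_one⟩
      inv_mem' := fun {a} ha => ⟨inv_mem ha.1, by rw [orderOf_inv]; exact ha.2⟩ }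
  have hE0 : ∀ z, z ∈ E0 ↔ z ∈ C ∧ z ^ 2 = 1 := fun z => Iff.rfl
  have hA : ∀ z, z ∈ A ↔ z ∈ C ∧ Odd (orderOf z) := fun z => Iff.rfl
  have hcE0 : c ∈ E0 := ⟨hcC, hc2⟩
  -- complement of `⟨c⟩` in `E0`
  obtain ⟨E, ⟨hEE0, hcE⟩, hmax⟩ := (Set.toFinite {E : Subgroup G | E ≤ E0 ∧ c ∉ E}).exists_maximal
    ⟨⊥, bot_le, fun h => hc1 (Subgroup.mem_bot.mp h)⟩
  have hEc : ∀ z ∈ E0, ∃ e ∈ E, z = e ∨ z = c * e := by
    intro z hz
    by_cases hzE : z ∈ E
    · exact ⟨z, hzE, Or.inl rfl⟩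
    · have h1 : c ∈ E ⊔ Subgroup.zpowers z := by
        by_contra hcn
        have h2 := hmax (y := E ⊔ Subgroup.zpowers z) ⟨sup_le hEE0 (Subgroup.zpowers_le.mpr hz), hcn⟩ le_sup_left
        exact hzE (h2 (Subgroup.mem_sup_right (Subgroup.mem_zpowers z)))
      have hEn := hn E
      rw [Subgroup.mem_sup_of_normal_left] at h1
      obtain ⟨e, he, w, hw, hew⟩ := h1
      obtain ⟨j, hj⟩ : ∃ j : ℕ, z ^ j = w := mem_powers_iff_mem_zpowers.mpr hw
      rcases Nat.even_or_odd j with ⟨i, hi⟩ | ⟨i, hi⟩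
      · exfalso
        have h3 : w = 1 := by rw [← hj, hi, ← two_mul, pow_mul, hz.2, one_pow]
        rw [h3, mul_one] at hew
        exact hcE (hew ▸ he)
      · have h3 : w = z := by rw [← hj, hi, pow_succ, pow_mul, hz.2, one_pow, one_mul]
        rw [h3] at hew
        refine ⟨e⁻¹, inv_mem he, Or.inr ?_⟩
        have h4 : Commute c e := hCab c hcC e (hEE0 he).1
        have h5 : z = e⁻¹ * c := by rw [← hew]; group
        rw [h5]
        exact (h4.inv_right).eq.symm
  have hEA : ∀ z ∈ C, ∃ e ∈ E0, ∃ a ∈ A, z = e * a := by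
    intro z hz
    set m := orderOf z with hm
    have hm0 : m ≠ 0 := (orderOf_pos z).ne'
    obtain ⟨k, s, hs, hks⟩ := Nat.exists_eq_pow_mul_and_not_dvd hm0 2 (by norm_num)
    have hodd : Odd s := by rw [← Nat.not_even_iff_odd, even_iff_two_dvd]; exact hs
    have hk1 : k ≤ 1 := by
      by_contra hk1
      push Not at hk1
      have h1 : (z ^ (2 ^ (k - 2) * s)) ^ 4 = 1 := by
        rw [← pow_mul]
        have : 2 ^ (k - 2) * s * 4 = m := by
          rw [hks]
          obtain ⟨i, rfl⟩ : ∃ i, k = i + 2 := ⟨k - 2, by omega⟩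
          rw [Nat.add_sub_cancel, pow_add]; ring
        rw [this, hm, pow_orderOf_eq_one]
      have h2 := hno4 _ (pow_mem hz _) h1
      rw [← pow_mul] at h2
      have h3 := orderOf_dvd_of_pow_eq_one h2
      rw [← hm, hks] at h3
      have h5 : 0 < s := Nat.pos_of_ne_zero (by rintro rfl; exact hs (dvd_zero 2))
      have h4 := Nat.le_of_dvd (by positivity) h3
      obtain ⟨i, rfl⟩ : ∃ i, k = i + 2 := ⟨k - 2, by omega⟩
      rw [Nat.add_sub_cancel, pow_add] at h4
      have h6 : 0 < 2 ^ i := by positivity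
      nlinarith [Nat.mul_pos h6 h5]
    have hms : m ∣ 2 * s := by
      rw [hks]
      apply Nat.mul_dvd_mul_right
      have : 2 ^ k ∣ 2 ^ 1 := pow_dvd_pow 2 hk1
      rwa [pow_one] at this
    refine ⟨z ^ s, ⟨pow_mem hz s, ?_⟩, (z ^ (s - 1))⁻¹, ⟨inv_mem (pow_mem hz _), ?_⟩, ?_⟩
    · rw [← pow_mul, mul_comm]
      exact orderOf_dvd_iff_pow_eq_one.mp hms
    · rw [orderOf_inv]
      refine Odd.of_dvd_nat hodd ?_
      apply orderOf_dvd_of_pow_eq_one
      rw [← pow_mul, ← orderOf_dvd_iff_pow_eq_one]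
      refine hms.trans ?_
      apply Nat.mul_dvd_mul_right
      obtain ⟨i, hi⟩ := hodd
      rw [hi, Nat.add_sub_cancel]
      exact dvd_mul_right 2 i
    · obtain ⟨i, hi⟩ := hodd
      rw [hi, Nat.add_sub_cancel, pow_succ]
      have h7 : Commute (z ^ (2 * i)) z := (Commute.refl z).pow_left _
      rw [h7.eq, mul_inv_cancel_right]
  refine ⟨Q, E, A, hQiso, ⟨?_, ?_⟩, ?_, ?_, ?_, ?_, ?_⟩
  · exact ⟨⟨fun a b => Subtype.ext (hCab a (hEE0 a.2).1 b (hEE0 b.2).1).eq⟩⟩
  · intro a ha; exact (hEE0 ha).2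
  · exact ⟨⟨fun a b => Subtype.ext (hCab a a.2.1 b b.2.1).eq⟩⟩
  · rw [← Nat.not_even_iff_odd, even_iff_two_dvd]
    intro hd
    have := Fact.mk Nat.prime_two
    obtain ⟨z, hz⟩ := exists_prime_orderOf_dvd_card' 2 hd
    have h1 : Odd (orderOf (z : G)) := z.2.2
    rw [Subgroup.orderOf_coe, hz] at h1
    exact absurd h1 (by decide)
  · rw [eq_bot_iff]
    rintro z ⟨hzE, hzA⟩
    rw [Subgroup.mem_bot]
    have h1 : z ^ 2 = 1 := (hEE0 hzE).2
    have h2 : Odd (orderOf z) := hzA.2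
    have h3 := orderOf_dvd_of_pow_eq_one h1
    rcases (Nat.dvd_prime Nat.prime_two).mp h3 with h4 | h4
    · exact orderOf_eq_one_iff.mp h4
    · rw [h4] at h2; exact absurd h2 (by decide)
  · rw [eq_bot_iff]
    rintro z ⟨hzQ, hzEA⟩
    have hEn := hn E
    have hEAC : E ⊔ A ≤ C := sup_le (fun e he => (hEE0 he).1) (fun a ha => ha.1)
    have hzC : z ∈ C := hEAC hzEA
    -- `z` central in `Q`: `z = 1` or `z = c`
    have hzc : z = 1 ∨ z = c := by
      -- `z ∈ ⟨x⟩ ⟨y⟩`
      have hnx := hn (Subgroup.zpowers x)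
      have h1 : z ∈ Subgroup.zpowers x ⊔ Subgroup.zpowers y := hzQ
      rw [Subgroup.mem_sup_of_normal_left] at h1
      obtain ⟨a, ha, b, hb, hab⟩ := h1
      obtain ⟨i, hi⟩ : ∃ i : ℕ, x ^ i = a := mem_powers_iff_mem_zpowers.mpr ha
      obtain ⟨j, hj⟩ : ∃ j : ℕ, y ^ j = b := mem_powers_iff_mem_zpowers.mpr hb
      have hzx := hCx z hzC
      have hzy := hCy z hzC
      -- `y ^ j` commutes with `x`
      have h2 : Commute (y ^ j) x := by
        have h3 : y ^ j = (x ^ i)⁻¹ * z := by rw [hi, hj, ← hab]; group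
        rw [h3]
        exact (((Commute.refl x).pow_left i).inv_left).mul_left hzx
      have h3 : Commute (x ^ i) y := by
        have h3 : x ^ i = z * (y ^ j)⁻¹ := by rw [hi, hj, ← hab]; group
        rw [h3]
        exact hzy.mul_left (((Commute.refl y).pow_left j).inv_left)
      have h4 : c ^ i = 1 := by
        rw [← comm_pow hc.symm hcx i]
        exact commutatorElement_eq_one_iff_commute.mpr h3
      have h5 : (c⁻¹) ^ j = 1 := by
        have h6 : ⁅y, x⁆ = c⁻¹ := by rw [hc, commutatorElement_inv]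
        rw [← comm_pow h6 hcy.inv_left j]
        exact commutatorElement_eq_one_iff_commute.mpr h2
      rw [inv_pow, inv_eq_one] at h5
      have h6 := orderOf_dvd_of_pow_eq_one h4
      have h7 := orderOf_dvd_of_pow_eq_one h5
      rw [hco] at h6 h7
      obtain ⟨i', rfl⟩ := h6
      obtain ⟨j', rfl⟩ := h7
      have h8 : z = c ^ (i' + j') := by
        rw [← hab, ← hi, ← hj, pow_mul, pow_mul, hx2, hy2, ← pow_add]
      rcases Nat.even_or_odd (i' + j') with ⟨t, ht⟩ | ⟨t, ht⟩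
      · left; rw [h8, ht, ← two_mul, pow_mul, hc2, one_pow]
      · right; rw [h8, ht, pow_succ, pow_mul, hc2, one_pow, one_mul]
    rcases hzc with h | h
    · rw [h]; exact one_mem _
    · exfalso
      have hzEA' : z ∈ E ⊔ A := hzEA
      rw [Subgroup.mem_sup_of_normal_left] at hzEA'
      obtain ⟨e, he, a, ha, hea⟩ := hzEA'
      have he2 : e ^ 2 = 1 := (hEE0 he).2
      have ha2 : a ^ 2 = 1 := by
        have h1 : (e * a) ^ 2 = 1 := by rw [hea, h, hc2]
        rw [(hCab e (hEE0 he).1 a ha.1).mul_pow, he2, one_mul] at h1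
        exact h1
      have h2 : Odd (orderOf a) := ha.2
      have h3 := orderOf_dvd_of_pow_eq_one ha2
      have h4 : a = 1 := by
        rcases (Nat.dvd_prime Nat.prime_two).mp h3 with h4 | h4
        · exact orderOf_eq_one_iff.mp h4
        · rw [h4] at h2; exact absurd h2 (by decide)
      rw [h4, mul_one, h] at hea
      exact hcE (hea ▸ he)
  · rw [eq_top_iff]
    intro g _
    obtain ⟨q, hq, h1, h2⟩ := exists_mul hn hxo hyo hyx hxy g
    have h3 : q⁻¹ * g ∈ C := hCmem _ (mul_inv_eq_iff_eq_mul.mp h1) (mul_inv_eq_iff_eq_mul.mp h2)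
    obtain ⟨e0, he0, a, ha, hea⟩ := hEA _ h3
    have hg : g = q * (e0 * a) := by rw [← hea]; group
    rw [hg]
    apply mul_mem (Subgroup.mem_sup_left hq)
    have haT : a ∈ Q ⊔ (E ⊔ A) := Subgroup.mem_sup_right (Subgroup.mem_sup_right ha)
    obtain ⟨e, he, h4 | h4⟩ := hEc e0 he0
    · rw [h4]
      exact mul_mem (Subgroup.mem_sup_right (Subgroup.mem_sup_left he)) haT
    · rw [h4]
      exact mul_mem (mul_mem (Subgroup.mem_sup_left hcQ) (Subgroup.mem_sup_right (Subgroup.mem_sup_left he))) haT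

end Cfsg.Agent.S4211
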