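import Cfsg.Statements.S4212
import Mathlib
import Cfsg.Agent.Lib.H73.FrobClass

set_option autoImplicit false
open Cfsg

namespace Cfsg.Agent.S4212

/-- Let `G` be a finite group of order `g`, `c` an element whose conjugacy class has `h` elements, and `n` a natural number. Then the number of elements `x` of `G` with `x^n` conjugate to `c` is a multiple of `gcd(hn, g)`. -/
theorem result {G : Type*} [Group G] [Finite G] (c : G) (n : ℕ) : Nat.gcd (Nat.card {y : G // IsConj c y} * n) (Nat.card G) ∣ Nat.card {x : G // IsConj c (x ^ n)} := by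
  classical
  set C := Subgroup.centralizer ({c} : Set G) with hC
  have hcC : c ∈ C := Subgroup.mem_centralizer_singleton_iff.2 rfl
  have hclass : Nat.card {y : G // IsConj c y} = C.index := by
    have h4 := MulAction.index_stabilizer (ConjAct G) c
    rw [ConjAct.stabilizer_eq_centralizer] at h4
    have h5 : (MulAction.orbit (ConjAct G) c) = {y : G | IsConj c y} := by
      ext x
      rw [ConjAct.mem_orbit_conjAct]
      exact isConj_comm
    rw [h5] at h4
    exact h4.symm
  have hcount : Nat.card {x : G // IsConj c (x ^ n)} = Nat.card {y : G // IsConj c y} * Nat.card {x : G // x ^ n = c} := by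
    -- choose conjugating elements
    have hch : ∀ y : {y : G // IsConj c y}, ∃ g : G, g * c * g⁻¹ = y := fun y => isConj_iff.mp y.2
    choose k hk using hch
    rw [← Nat.card_prod]
    apply Nat.card_congr
    have hinv : ∀ g : G, ∀ x : G, (g⁻¹ * x * g) ^ n = g⁻¹ * x ^ n * g := by
      intro g x
      have := conj_pow (i := n) (a := g⁻¹) (b := x)
      rwa [inv_inv] at this
    refine
      { toFun := fun x => (⟨x.1 ^ n, x.2⟩, ⟨(k ⟨x.1 ^ n, x.2⟩)⁻¹ * x.1 * k ⟨x.1 ^ n, x.2⟩, ?_⟩)
        invFun := fun x => ⟨k x.1 * x.2.1 * (k x.1)⁻¹, ?_⟩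
        left_inv := ?_
        right_inv := ?_ }
    · have h1 := hk ⟨x.1 ^ n, x.2⟩
      simp only at h1
      rw [hinv]
      nth_rewrite 2 [← h1]
      group
    · rw [conj_pow, x.2.2, hk]; exact x.1.2
    · intro x
      apply Subtype.ext
      simp only
      group
    · rintro ⟨⟨y, hy⟩, ⟨x, hx⟩⟩
      have h1 : (k ⟨y, hy⟩ * x * (k ⟨y, hy⟩)⁻¹) ^ n = y := by
        rw [conj_pow, hx, hk]
      have h2 : (⟨(k ⟨y, hy⟩ * x * (k ⟨y, hy⟩)⁻¹) ^ n, by rw [h1]; exact hy⟩ : {y : G // IsConj c y}) = ⟨y, hy⟩ := Subtype.ext h1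
      apply Prod.ext
      · exact h2
      · apply Subtype.ext
        simp only
        rw [h2]
        group
  have hsol : Nat.card {x : G // x ^ n = c} = Nat.card {x : C // x ^ n = (⟨c, hcC⟩ : C)} := by
    apply Nat.card_congr
    refine ⟨fun x => ⟨⟨x.1, ?_⟩, ?_⟩, fun x => ⟨x.1.1, congrArg Subtype.val x.2⟩, fun _ => rfl, fun _ => rfl⟩
    · rw [Subgroup.mem_centralizer_singleton_iff]
      have h1 : Commute x.1 (x.1 ^ n) := (Commute.refl x.1).pow_right n
      rw [x.2] at h1
      exact h1.eq
    · exact Subtype.ext x.2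
  have hcen : (⟨c, hcC⟩ : C) ∈ Subgroup.center C := by
    rw [Subgroup.mem_center_iff]
    intro z
    exact Subtype.ext (Subgroup.mem_centralizer_singleton_iff.1 z.2)
  have h1 := H73.FrobClass.main _ C rfl n _ hcen
  rw [hcount, hsol, hclass]
  have h2 : Nat.gcd (C.index * n) (Nat.card G) = C.index * Nat.gcd n (Nat.card C) := by
    rw [← Nat.gcd_mul_left]
    congr 1
    rw [mul_comm, Subgroup.card_mul_index]
  rw [h2]
  exact Nat.mul_dvd_mul_left _ h1

end Cfsg.Agent.S4212
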