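import Cfsg.Statements.S4213
import Mathlib
import Cfsg.Agent.Lib.H69.FrobCount
import Cfsg.Agent.Lib.H61.Isospec
import Cfsg.Agent.Lib.H73.Bas

set_option autoImplicit false
open Cfsg

namespace Cfsg.Agent.S4213

universe u

theorem card_preimage {G : Type*} [Group G] (K : Subgroup G) (T : Set (G ⧸ K)) :
    Nat.card {x : G // (x : G ⧸ K) ∈ T} = Nat.card T * Nat.card K := by
  have h1 := Nat.card_congr (QuotientGroup.preimageMkEquivSubgroupProdSet K T)
  rw [Nat.card_prod, mul_comm] at h1
  exact h1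

/-- a subset of the same cardinality as a finite set is everything -/
theorem eq_of_card {G : Type*} [Finite G] {S T : Set G} (h : S ⊆ T) (hc : Nat.card T ≤ Nat.card S) : S = T :=
  Set.eq_of_subset_of_ncard_le h hc (Set.toFinite T)

theorem main : ∀ (N : ℕ) (G : Type u) [Group G] [Finite G] [Group.IsSolvable G] (n : ℕ), Nat.card G = N → n ∣ Nat.card G →
    Nat.card {x : G // x ^ n = 1} = n → ∃ H : Subgroup G, (H : Set G) = {x : G | x ^ n = 1} := by
  intro N
  induction N using Nat.strong_induction_on with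
  | _ N ih =>
  intro G _ _ _ n hN hn hcount
  classical
  have hGpos : 0 < Nat.card G := Nat.card_pos
  have hn0 : n ≠ 0 := by rintro rfl; rw [zero_dvd_iff] at hn; omega
  by_cases htriv : (⊤ : Subgroup G) = ⊥
  · refine ⟨⊤, ?_⟩
    ext x
    have hx : x = 1 := by
      have : x ∈ (⊤ : Subgroup G) := Subgroup.mem_top x
      rw [htriv, Subgroup.mem_bot] at this
      exact this
    simp [hx]
  have hTsol : Group.IsSolvable (⊤ : Subgroup G) := inferInstance
  obtain ⟨K, p, hKn, -, hKb, hp, hKc, hKe⟩ := H61.Isospec.exists_elemAb_normal (⊤ : Subgroup G) htriv hTsol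
  have := Fact.mk hp
  have hKp : IsPGroup p K := fun x => ⟨1, by rw [pow_one]; exact hKe x⟩
  have hKe' : ∀ x ∈ K, x ^ p = 1 := fun x hx => congrArg Subtype.val (hKe ⟨x, hx⟩)
  obtain ⟨i, hi⟩ := hKp.exists_card_eq
  have hi0 : i ≠ 0 := by
    rintro rfl
    rw [pow_zero, Subgroup.card_eq_one] at hi
    exact hKb hi
  have hcardG : Nat.card G = Nat.card (G ⧸ K) * p ^ i := by
    rw [Subgroup.card_eq_card_quotient_mul_card_subgroup K, hi]
  have hlt : Nat.card (G ⧸ K) < N := hN ▸ H73.Bas.card_quotient_lt hKb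
  have hqpos : 0 < Nat.card (G ⧸ K) := Nat.card_pos
  have hppos : 0 < p ^ i := pow_pos hp.pos i
  -- if `x̄ ^ m = 1` and `m p ∣ n`, then `x ^ n = 1`
  have hpow : ∀ (m : ℕ) (x : G), (x : G ⧸ K) ^ m = 1 → m * p ∣ n → x ^ n = 1 := by
    intro m x hx hd
    rw [← QuotientGroup.mk_pow, QuotientGroup.eq_one_iff] at hx
    obtain ⟨c, rfl⟩ := hd
    rw [pow_mul, pow_mul, hKe' _ hx, one_pow]
  by_cases hpn : p ∣ n
  · obtain ⟨j, n1, hn1, hnj⟩ := Nat.exists_eq_pow_mul_and_not_dvd hn0 p hp.ne_one
    have hj0 : j ≠ 0 := by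
      rintro rfl
      rw [pow_zero, one_mul] at hnj
      rw [hnj] at hpn
      exact hn1 hpn
    by_cases hij : i ≤ j
    · -- case 1a
      set m := p ^ (j - i) * n1 with hm
      have hnm : n = m * p ^ i := by
        rw [hnj, hm]
        have : p ^ j = p ^ (j - i) * p ^ i := by rw [← pow_add, Nat.sub_add_cancel hij]
        rw [this]; ring
      have hmd : m ∣ Nat.card (G ⧸ K) := by
        rw [hnm, hcardG] at hn
        exact Nat.dvd_of_mul_dvd_mul_right hppos hn
      have hmp : m * p ∣ n := by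
        rw [hnm]
        exact Nat.mul_dvd_mul_left m (dvd_pow_self p hi0)
      have hT := H69.FrobCount.frobenius_dvd m hmd
      have hTpos : 0 < Nat.card {g : G ⧸ K // g ^ m = 1} := by
        have : Nonempty {g : G ⧸ K // g ^ m = 1} := ⟨⟨1, one_pow m⟩⟩
        exact Nat.card_pos
      have hsub : {x : G | (x : G ⧸ K) ∈ {g : G ⧸ K | g ^ m = 1}} ⊆ {x : G | x ^ n = 1} := by
        intro x hx
        exact hpow m x hx hmp
      have hcardpre := card_preimage K {g : G ⧸ K | g ^ m = 1}
      rw [hi] at hcardpre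
      have hle : m ≤ Nat.card {g : G ⧸ K // g ^ m = 1} := Nat.le_of_dvd hTpos hT
      have hle2 : Nat.card {x : G // (x : G ⧸ K) ∈ {g : G ⧸ K | g ^ m = 1}} ≤ n := by
        rw [← hcount]
        exact Nat.card_le_card_of_injective (fun x => (⟨x.1, hsub x.2⟩ : {x : G // x ^ n = 1}))
          (fun a b hab => Subtype.ext (Subtype.mk.inj hab))
      have hTm : Nat.card {g : G ⧸ K // g ^ m = 1} = m := by
        apply le_antisymm _ hle
        have h3 : Nat.card {g : G ⧸ K // g ^ m = 1} * p ^ i ≤ m * p ^ i := by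
          rw [← hnm]
          exact hcardpre ▸ hle2
        exact Nat.le_of_mul_le_mul_right h3 hppos
      have heq : {x : G | (x : G ⧸ K) ∈ {g : G ⧸ K | g ^ m = 1}} = {x : G | x ^ n = 1} := by
        apply eq_of_card hsub
        have h4 : Nat.card {x : G | (x : G ⧸ K) ∈ {g : G ⧸ K | g ^ m = 1}} = n := by
          have h5 : Nat.card {x : G | (x : G ⧸ K) ∈ {g : G ⧸ K | g ^ m = 1}} = Nat.card {g : G ⧸ K // g ^ m = 1} * p ^ i := hcardpre
          rw [h5, hTm, hnm]
        rw [h4]
        exact hcount.le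
      obtain ⟨H, hH⟩ := ih _ hlt (G ⧸ K) m rfl hmd hTm
      refine ⟨H.comap (QuotientGroup.mk' K), ?_⟩
      rw [← heq]
      ext x
      change (x : G ⧸ K) ∈ (H : Set (G ⧸ K)) ↔ _
      rw [hH]
      rfl
    · -- case 1b
      exfalso
      push Not at hij
      have hn1d : n1 ∣ Nat.card (G ⧸ K) := by
        have h1 : n1 ∣ Nat.card (G ⧸ K) * p ^ i := by
          rw [← hcardG]
          exact (Dvd.intro_left _ hnj.symm).trans hn
        have h2 : Nat.Coprime n1 (p ^ i) := (((Nat.Prime.coprime_iff_not_dvd hp).mpr hn1).pow_left i).symm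
        exact h2.dvd_of_dvd_mul_right h1
      have hmp : n1 * p ∣ n := by
        rw [hnj, mul_comm]
        exact Nat.mul_dvd_mul_right (dvd_pow_self p hj0) n1
      have hT := H69.FrobCount.frobenius_dvd n1 hn1d
      have hTpos : 0 < Nat.card {g : G ⧸ K // g ^ n1 = 1} := by
        have : Nonempty {g : G ⧸ K // g ^ n1 = 1} := ⟨⟨1, one_pow n1⟩⟩
        exact Nat.card_pos
      have hcardpre := card_preimage K {g : G ⧸ K | g ^ n1 = 1}
      rw [hi] at hcardpre
      have hle : n1 ≤ Nat.card {g : G ⧸ K // g ^ n1 = 1} := Nat.le_of_dvd hTpos hT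
      have hle2 : Nat.card {x : G // (x : G ⧸ K) ∈ {g : G ⧸ K | g ^ n1 = 1}} ≤ n := by
        rw [← hcount]
        exact Nat.card_le_card_of_injective (fun x => (⟨x.1, hpow n1 x.1 x.2 hmp⟩ : {x : G // x ^ n = 1}))
          (fun a b hab => Subtype.ext (Subtype.mk.inj hab))
      rw [hcardpre] at hle2
      have h3 : Nat.card {g : G ⧸ K // g ^ n1 = 1} * p ^ i ≤ n := hle2
      have h4 : p ^ j < p ^ i := Nat.pow_lt_pow_right hp.one_lt hij
      have h5 : 0 < n1 := Nat.pos_of_ne_zero (by rintro rfl; exact hn1 (dvd_zero p))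
      have h6 : n < n1 * p ^ i := by
        rw [hnj, mul_comm]
        exact Nat.mul_lt_mul_of_pos_left h4 h5
      have h7 : n1 * p ^ i ≤ Nat.card {g : G ⧸ K // g ^ n1 = 1} * p ^ i := Nat.mul_le_mul_right _ hle
      omega
  · -- case 2
    have hcop : Nat.Coprime n p := ((Nat.Prime.coprime_iff_not_dvd hp).mpr hpn).symm
    have hnd : n ∣ Nat.card (G ⧸ K) := by
      rw [hcardG] at hn
      exact (hcop.pow_right i).dvd_of_dvd_mul_right hn
    have hT := H69.FrobCount.frobenius_dvd n hnd
    have hTpos : 0 < Nat.card {g : G ⧸ K // g ^ n = 1} := by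
      have : Nonempty {g : G ⧸ K // g ^ n = 1} := ⟨⟨1, one_pow n⟩⟩
      exact Nat.card_pos
    obtain ⟨e, he1, he2⟩ := Nat.chineseRemainder hcop 1 0
    have hpe : p ∣ e := (Nat.modEq_zero_iff_dvd).1 he2
    have hsurj : Function.Surjective (fun x : {x : G // x ^ n = 1} => (⟨(x.1 : G ⧸ K), by
        rw [← QuotientGroup.mk_pow, x.2, QuotientGroup.mk_one]⟩ : {g : G ⧸ K // g ^ n = 1})) := by
      rintro ⟨x, hx⟩
      obtain ⟨x, rfl⟩ := QuotientGroup.mk_surjective x
      refine ⟨⟨x ^ e, ?_⟩, ?_⟩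
      · have hx' : x ^ n ∈ K := by
          rwa [← QuotientGroup.mk_pow, QuotientGroup.eq_one_iff] at hx
        obtain ⟨c, rfl⟩ := hpe
        have : p * c * n = n * p * c := by ring
        rw [← pow_mul, this, pow_mul, pow_mul, hKe' _ hx', one_pow]
      · apply Subtype.ext
        change ((x ^ e : G) : G ⧸ K) = (x : G ⧸ K)
        rw [QuotientGroup.mk_pow]
        conv_rhs => rw [← pow_one (x : G ⧸ K)]
        rw [pow_eq_pow_iff_modEq]
        exact he1.of_dvd (orderOf_dvd_of_pow_eq_one hx)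
    have hle : Nat.card {g : G ⧸ K // g ^ n = 1} ≤ n := by
      have := Nat.card_le_card_of_surjective _ hsurj
      rwa [hcount] at this
    have hTn : Nat.card {g : G ⧸ K // g ^ n = 1} = n := le_antisymm hle (Nat.le_of_dvd hTpos hT)
    obtain ⟨H, hH⟩ := ih _ hlt (G ⧸ K) n rfl hnd hTn
    set T := H.comap (QuotientGroup.mk' K) with hTdef
    have hKT : K ≤ T := by
      intro k hk
      have h1 : QuotientGroup.mk' K k = 1 := (QuotientGroup.eq_one_iff k).mpr hk
      rw [hTdef, Subgroup.mem_comap, h1]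
      exact one_mem H
    have hHn : Nat.card H = n := by
      rw [← hTn]
      have h1 : Nat.card (H : Set (G ⧸ K)) = Nat.card ({g : G ⧸ K | g ^ n = 1} : Set (G ⧸ K)) := by rw [hH]
      exact h1
    have hTcard : Nat.card T = n * p ^ i := by
      have h1 := card_preimage K (H : Set (G ⧸ K))
      rw [hi] at h1
      rw [← hHn]
      exact h1
    have hidx : (K.subgroupOf T).index = n := by
      have h1 := (K.subgroupOf T).card_mul_index
      rw [H73.Bas.card_subgroupOf, inf_eq_left.mpr hKT, hi, hTcard, mul_comm n] at h1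
      exact Nat.eq_of_mul_eq_mul_left hppos h1
    obtain ⟨B, hB⟩ := Subgroup.exists_right_complement'_of_coprime (N := K.subgroupOf T) (by
      rw [hidx, H73.Bas.card_subgroupOf, inf_eq_left.mpr hKT, hi]
      exact (hcop.pow_right i).symm)
    have hBcard : Nat.card B = n := by
      have h1 := hB.symm.index_eq_card
      rw [hidx] at h1
      exact h1.symm
    refine ⟨B.map T.subtype, ?_⟩
    apply eq_of_card
    · intro x hx
      obtain ⟨b, hb, rfl⟩ := hx
      have h1 : (⟨b, hb⟩ : B) ^ n = 1 := by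
        rw [← hBcard]; exact pow_card_eq_one'
      have h2 := congrArg (fun t : B => ((t : T) : G)) h1
      exact h2
    · have h1 : Nat.card ((B.map T.subtype : Subgroup G) : Set G) = n := by
        change Nat.card (B.map T.subtype : Subgroup G) = n
        rw [Subgroup.card_map_of_injective (Subgroup.subtype_injective _), hBcard]
      rw [h1]
      exact hcount.le

/-- If `G` is a finite solvable group and `n` divides the order of `G` and exactly `n` elements `x` of `G` satisfy `x^n = 1`, then these elements form a normal subgroup. -/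
theorem result {G : Type*} [Group G] [Finite G] [Group.IsSolvable G] (n : ℕ) (hn : n ∣ Nat.card G) (hcount : Nat.card {x : G // x ^ n = 1} = n) : ∃ H : Subgroup G, H.Normal ∧ (H : Set G) = {x : G | x ^ n = 1} := by
  obtain ⟨H, hH⟩ := main _ G n rfl hn hcount
  refine ⟨H, ⟨?_⟩, hH⟩
  intro x hx g
  have h1 : x ∈ (H : Set G) := hx
  change g * x * g⁻¹ ∈ (H : Set G)
  rw [hH] at h1 ⊢
  have h2 : x ^ n = 1 := h1
  change (g * x * g⁻¹) ^ n = 1
  rw [conj_pow, h2, mul_one, mul_inv_cancel]

end Cfsg.Agent.S4213
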