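import Cfsg.Statements.S4214
import Mathlib
import Cfsg.Agent.Lib.H1.Hall
import Cfsg.Agent.Lib.H61.Isospec
import Cfsg.Agent.Lib.H73.Bas
import Cfsg.Agent.Lib.H73.SolvSmall

set_option autoImplicit false
open Cfsg

namespace Cfsg.Agent.S4214

open H73.Bas

universe u

/-- chief factor -/
def IsChief {G : Type*} [Group G] (K L : Subgroup G) : Prop :=
  K.Normal ∧ L.Normal ∧ K < L ∧ (∀ M : Subgroup G, M.Normal → K ≤ M → M ≤ L → M = K ∨ M = L)

def Good (G : Type*) [Group G] (m a : ℕ) : Prop :=
  (∃ q e : ℕ, q.Prime ∧ a = q ^ e) ∧ (∃ K L : Subgroup G, IsChief K L ∧ a ∣ K.relIndex L) ∧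
    (∃ q : ℕ, q.Prime ∧ q ∣ m ∧ a ≡ 1 [MOD q])

noncomputable def cnt (G : Type*) [Group G] (m : ℕ) : ℕ := Nat.card {H : Subgroup G // Nat.card H = m}

theorem card_eq_index {G X : Type*} [Group G] (N : Subgroup G) (f : G → X) (hs : Function.Surjective f)
    (h : ∀ a b, f a = f b ↔ a⁻¹ * b ∈ N) : Nat.card X = N.index := by
  rw [Subgroup.index_eq_card]
  symm
  apply Nat.card_congr
  refine Equiv.ofBijective (Quotient.lift f (fun a b hab => (h a b).mpr ?_)) ⟨?_, ?_⟩
  · exact (QuotientGroup.leftRel_apply).mp hab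
  · intro x y hxy
    induction x using Quotient.inductionOn
    induction y using Quotient.inductionOn
    apply Quotient.sound
    exact (QuotientGroup.leftRel_apply).mpr ((h _ _).mp hxy)
  · intro x
    obtain ⟨g, rfl⟩ := hs x
    exact ⟨Quotient.mk _ g, rfl⟩

theorem good_quotient {G : Type*} [Group G] (N : Subgroup G) [N.Normal] {m m' a : ℕ} (hm : m' ∣ m) (h : Good (G ⧸ N) m' a) :
    Good G m a := by
  obtain ⟨h1, ⟨K, L, ⟨hK, hL, hKL, hmax⟩, ha⟩, q, hq, hqm, hqa⟩ := h
  have hsurj := QuotientGroup.mk'_surjective N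
  refine ⟨h1, ⟨K.comap (QuotientGroup.mk' N), L.comap (QuotientGroup.mk' N), ⟨hK.comap _, hL.comap _, ?_, ?_⟩, ?_⟩, q, hq, hqm.trans hm, hqa⟩
  · exact (Subgroup.comap_lt_comap_of_surjective hsurj).mpr hKL
  · intro M hM hKM hML
    have hNM : N ≤ M := by
      refine le_trans ?_ hKM
      intro x hx
      have h2 : QuotientGroup.mk' N x = 1 := (QuotientGroup.eq_one_iff x).mpr hx
      rw [Subgroup.mem_comap, h2]
      exact one_mem K
    have hMeq : (M.map (QuotientGroup.mk' N)).comap (QuotientGroup.mk' N) = M := by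
      rw [Subgroup.comap_map_eq, QuotientGroup.ker_mk', sup_eq_left.mpr hNM]
    have h3 := hmax (M.map (QuotientGroup.mk' N)) (hM.map _ hsurj) (by
      rw [← Subgroup.comap_le_comap_of_surjective hsurj, hMeq]; exact hKM) (by
      rw [← Subgroup.comap_le_comap_of_surjective hsurj, hMeq]; exact hML)
    rcases h3 with h3 | h3
    · left; rw [← hMeq, h3]
    · right; rw [← hMeq, h3]
  · have : (K.comap (QuotientGroup.mk' N)).relIndex (L.comap (QuotientGroup.mk' N)) = K.relIndex L := by
      rw [Subgroup.relIndex_comap, Subgroup.map_comap_eq_self_of_surjective hsurj]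
    rw [this]
    exact ha

/-- conjugates of a subgroup -/
theorem cnt_eq_index {G : Type*} [Group G] [Finite G] (hs : Group.IsSolvable G) (m n : ℕ) (hG : Nat.card G = m * n)
    (hmn : Nat.Coprime m n) (H : Subgroup G) (hH : Nat.card H = m) :
    cnt G m = (Subgroup.normalizer (H : Set G)).index := by
  let f : G → {K : Subgroup G // Nat.card K = m} := fun g =>
    ⟨H.map (MulAut.conj g).toMonoidHom, by rw [Subgroup.card_map_of_injective (MulAut.conj g).injective, hH]⟩
  apply card_eq_index _ f
  · rintro ⟨K, hK⟩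
    obtain ⟨g, hg⟩ := H1.Hall.conj_of_card_eq hs m n hG hmn H K hH hK
    exact ⟨g, Subtype.ext hg⟩
  · intro a b
    have h1 : f a = f b ↔ H.map (MulAut.conj (a⁻¹ * b)).toMonoidHom = H := by
      have h2 : H.map (MulAut.conj (a⁻¹ * b)).toMonoidHom = (H.map (MulAut.conj b).toMonoidHom).map (MulAut.conj a⁻¹).toMonoidHom := by
        rw [Subgroup.map_map]
        congr 1
        ext x
        simp [mul_assoc]
      have h3 : (H.map (MulAut.conj a).toMonoidHom).map (MulAut.conj a⁻¹).toMonoidHom = H := by
        rw [Subgroup.map_map]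
        have : (MulAut.conj a⁻¹).toMonoidHom.comp (MulAut.conj a).toMonoidHom = MonoidHom.id G := by
          ext x
          simp [mul_assoc]
        rw [this, Subgroup.map_id]
      rw [h2]
      constructor
      · intro h
        have h4 : H.map (MulAut.conj a).toMonoidHom = H.map (MulAut.conj b).toMonoidHom := congrArg Subtype.val h
        rw [← h4, h3]
      · intro h
        apply Subtype.ext
        change H.map (MulAut.conj a).toMonoidHom = H.map (MulAut.conj b).toMonoidHom
        have h5 := h3.trans h.symm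
        exact Subgroup.map_injective (MulAut.conj a⁻¹).injective h5
    rw [h1]
    constructor
    · intro h
      rw [Subgroup.mem_normalizer_iff]
      intro x
      constructor
      · intro hx
        have : (MulAut.conj (a⁻¹ * b)).toMonoidHom x ∈ H.map (MulAut.conj (a⁻¹ * b)).toMonoidHom := ⟨x, hx, rfl⟩
        rw [h] at this
        exact this
      · intro hx
        rw [← h] at hx
        obtain ⟨y, hy, hyx⟩ := hx
        have := (MulAut.conj (a⁻¹ * b)).injective hyx
        rw [← this]; exact hy
    · intro h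
      rw [Subgroup.mem_normalizer_iff] at h
      apply Subgroup.eq_of_le_of_card_ge
      · rintro _ ⟨x, hx, rfl⟩
        exact (h x).mp hx
      · rw [Subgroup.card_map_of_injective (MulAut.conj _).injective]

theorem cnt_eq_of_equiv {G : Type*} [Group G] (L : Subgroup G) (m : ℕ) :
    cnt L m = Nat.card {H : Subgroup G // H ≤ L ∧ Nat.card H = m} := by
  apply Nat.card_congr
  refine
    { toFun := fun H => ⟨H.1.map L.subtype, Subgroup.map_subtype_le _, by
        rw [Subgroup.card_map_of_injective (Subgroup.subtype_injective _)]; exact H.2⟩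
      invFun := fun H => ⟨H.1.subgroupOf L, by rw [card_subgroupOf, inf_eq_left.mpr H.2.1]; exact H.2.2⟩
      left_inv := ?_
      right_inv := ?_ }
  · intro H
    apply Subtype.ext
    change (H.1.map L.subtype).subgroupOf L = H.1
    rw [Subgroup.subgroupOf, Subgroup.comap_map_eq_self_of_injective (Subgroup.subtype_injective _)]
  · intro H
    apply Subtype.ext
    change (H.1.subgroupOf L).map L.subtype = H.1
    rw [Subgroup.subgroupOf_map_subtype, inf_eq_left.mpr H.2.1]

/-- case 1 -/
theorem cnt_quotient {G : Type*} [Group G] [Finite G] {m n : ℕ} (hG : Nat.card G = m * n)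
    (hmn : Nat.Coprime m n) (N : Subgroup G) [N.Normal] (hN : Nat.card N ∣ m) :
    cnt G m = cnt (G ⧸ N) (m / Nat.card N) ∧ Nat.card (G ⧸ N) = m / Nat.card N * n ∧ Nat.Coprime (m / Nat.card N) n := by
  have hpos : 0 < Nat.card N := Nat.card_pos
  obtain ⟨m', hm'⟩ := hN
  have hdiv : m / Nat.card N = m' := by rw [hm', Nat.mul_div_cancel_left _ hpos]
  rw [hdiv]
  have hsurj := QuotientGroup.mk'_surjective N
  have hNle : ∀ H : Subgroup G, Nat.card H = m → N ≤ H := by
    intro H hH
    have h1 := card_sup_mul_card_inf H N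
    have h2 : Nat.card (H ⊔ N : Subgroup G) ∣ m * n := by rw [← hG]; exact Subgroup.card_subgroup_dvd_card _
    have h3 : m ∣ Nat.card (H ⊔ N : Subgroup G) := by rw [← hH]; exact Subgroup.card_dvd_of_le le_sup_left
    obtain ⟨t, ht⟩ := h3
    have hm0 : 0 < m := by rw [← hH]; exact Nat.card_pos
    rw [ht] at h2
    have h4 : t ∣ n := Nat.dvd_of_mul_dvd_mul_left hm0 h2
    rw [ht, hH, mul_assoc] at h1
    have h5 := Nat.eq_of_mul_eq_mul_left hm0 h1
    have h6 : t ∣ m := (Dvd.intro _ h5).trans (Dvd.intro _ hm'.symm)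
    have h7 : t = 1 := Nat.eq_one_of_dvd_coprimes hmn h6 h4
    rw [h7, one_mul] at h5
    have h8 : H ⊓ N = N := Subgroup.eq_of_le_of_card_ge inf_le_right h5.ge
    rw [← h8]; exact inf_le_left
  refine ⟨?_, ?_, ?_⟩
  · apply Nat.card_congr
    refine
      { toFun := fun H => ⟨H.1.map (QuotientGroup.mk' N), ?_⟩
        invFun := fun H => ⟨H.1.comap (QuotientGroup.mk' N), ?_⟩
        left_inv := ?_
        right_inv := ?_ }
    · have h1 := H1.Hall.card_map_mk_mul_card_inf H.1 N
      rw [inf_eq_right.mpr (hNle H.1 H.2), H.2] at h1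
      exact Nat.eq_of_mul_eq_mul_right hpos (h1.trans (hm'.trans (mul_comm _ _)))
    · have h1 := H1.Hall.card_map_mk_mul_card_inf (H.1.comap (QuotientGroup.mk' N)) N
      have h2 : N ≤ H.1.comap (QuotientGroup.mk' N) := by
        intro x hx
        have h2 : QuotientGroup.mk' N x = 1 := (QuotientGroup.eq_one_iff x).mpr hx
        rw [Subgroup.mem_comap, h2]
        exact one_mem _
      rw [inf_eq_right.mpr h2, Subgroup.map_comap_eq_self_of_surjective hsurj, H.2] at h1
      rw [← h1, hm', mul_comm]
    · intro H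
      apply Subtype.ext
      change (H.1.map (QuotientGroup.mk' N)).comap (QuotientGroup.mk' N) = H.1
      rw [Subgroup.comap_map_eq, QuotientGroup.ker_mk', sup_eq_left.mpr (hNle H.1 H.2)]
    · intro H
      apply Subtype.ext
      exact Subgroup.map_comap_eq_self_of_surjective hsurj _
  · have h1 := Subgroup.card_eq_card_quotient_mul_card_subgroup N
    rw [hG, hm'] at h1
    apply Nat.eq_of_mul_eq_mul_right hpos
    rw [← h1]; ring
  · rw [hm'] at hmn
    exact Nat.Coprime.coprime_mul_left hmn

/-- the count splits over `G ⧸ K`, for `K` of order prime to `m` -/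
theorem cnt_split {G : Type*} [Group G] [Finite G] (hs : Group.IsSolvable G) {m n n' : ℕ} (hG : Nat.card G = m * n)
    (hmn : Nat.Coprime m n) (K : Subgroup G) [K.Normal] (hK : n = Nat.card K * n') (H0 : Subgroup G) (hH0 : Nat.card H0 = m) :
    cnt G m = cnt (G ⧸ K) m * cnt (H0 ⊔ K : Subgroup G) m := by
  classical
  have hsurj := QuotientGroup.mk'_surjective K
  have hpos : 0 < Nat.card K := Nat.card_pos
  have hm0 : 0 < m := by rw [← hH0]; exact Nat.card_pos
  have hGK : Nat.card (G ⧸ K) = m * n' := by
    have h1 := Subgroup.card_eq_card_quotient_mul_card_subgroup K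
    rw [hG, hK] at h1
    apply Nat.eq_of_mul_eq_mul_right hpos
    rw [← h1]; ring
  have hmn' : Nat.Coprime m n' := Nat.Coprime.coprime_dvd_right (Dvd.intro_left _ hK.symm) hmn
  have hdisj : ∀ H : Subgroup G, Nat.card H = m → H ⊓ K = ⊥ := by
    intro H hH
    apply (Subgroup.disjoint_of_coprime_natCard _).eq_bot
    rw [hH]
    exact Nat.Coprime.coprime_dvd_right (Dvd.intro _ hK.symm) hmn
  have hmap : ∀ H : Subgroup G, Nat.card H = m → Nat.card (H.map (QuotientGroup.mk' K)) = m := by
    intro H hH
    rw [H1.Hall.card_map_mk_of_disjoint (hdisj H hH), hH]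
  -- count in the fibers
  have hfib : ∀ Hb : Subgroup (G ⧸ K), Nat.card Hb = m →
      Nat.card {H : Subgroup G // H ≤ Hb.comap (QuotientGroup.mk' K) ∧ Nat.card H = m} = cnt (H0 ⊔ K : Subgroup G) m := by
    intro Hb hHb
    obtain ⟨gb, hgb⟩ := H1.Hall.conj_of_card_eq (G := G ⧸ K) inferInstance m n' hGK hmn'
      (H0.map (QuotientGroup.mk' K)) Hb (hmap H0 hH0) hHb
    obtain ⟨g, rfl⟩ := hsurj gb
    have hL : Hb.comap (QuotientGroup.mk' K) = (H0 ⊔ K).map (MulAut.conj g).toMonoidHom := by
      have h1 : (H0 ⊔ K) = (H0.map (QuotientGroup.mk' K)).comap (QuotientGroup.mk' K) := by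
        rw [Subgroup.comap_map_eq, QuotientGroup.ker_mk']
      rw [h1]
      have hgb' : (H0.map (QuotientGroup.mk' K)).map (MulAut.conj (QuotientGroup.mk' K g)).toMonoidHom = Hb := hgb
      rw [← hgb']
      ext x
      constructor
      · rintro ⟨y, hy, hyx⟩
        refine ⟨g⁻¹ * x * g, ?_, ?_⟩
        · change (QuotientGroup.mk' K) (g⁻¹ * x * g) ∈ H0.map (QuotientGroup.mk' K)
          have : (QuotientGroup.mk' K) (g⁻¹ * x * g) = y := by
            have h2 : (QuotientGroup.mk' K g) * y * (QuotientGroup.mk' K g)⁻¹ = QuotientGroup.mk' K x := hyx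
            rw [map_mul, map_mul, map_inv, ← h2]
            group
          rw [this]; exact hy
        · change g * (g⁻¹ * x * g) * g⁻¹ = x
          group
      · rintro ⟨y, hy, hyx⟩
        have hyx' : g * y * g⁻¹ = x := hyx
        refine ⟨QuotientGroup.mk' K y, hy, ?_⟩
        change (QuotientGroup.mk' K g) * (QuotientGroup.mk' K y) * (QuotientGroup.mk' K g)⁻¹ = QuotientGroup.mk' K x
        rw [← map_inv, ← map_mul, ← map_mul, hyx']
    rw [cnt_eq_of_equiv, hL]
    symm
    have hconjinv : ∀ H : Subgroup G, (H.map (MulAut.conj g).toMonoidHom).map (MulAut.conj g⁻¹).toMonoidHom = H := by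
      intro H
      rw [Subgroup.map_map]
      have : (MulAut.conj g⁻¹).toMonoidHom.comp (MulAut.conj g).toMonoidHom = MonoidHom.id G := by
        ext x
        simp [mul_assoc]
      rw [this, Subgroup.map_id]
    have hconjinv' : ∀ H : Subgroup G, (H.map (MulAut.conj g⁻¹).toMonoidHom).map (MulAut.conj g).toMonoidHom = H := by
      intro H
      rw [Subgroup.map_map]
      have : (MulAut.conj g).toMonoidHom.comp (MulAut.conj g⁻¹).toMonoidHom = MonoidHom.id G := by
        ext x
        simp [mul_assoc]
      rw [this, Subgroup.map_id]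
    apply Nat.card_congr
    exact
      { toFun := fun H => ⟨H.1.map (MulAut.conj g).toMonoidHom, Subgroup.map_mono H.2.1, by
          rw [Subgroup.card_map_of_injective (MulAut.conj g).injective]; exact H.2.2⟩
        invFun := fun H => ⟨H.1.map (MulAut.conj g⁻¹).toMonoidHom, by
          have := Subgroup.map_mono (f := (MulAut.conj g⁻¹).toMonoidHom) H.2.1
          rwa [hconjinv] at this, by
          rw [Subgroup.card_map_of_injective (MulAut.conj g⁻¹).injective]; exact H.2.2⟩
        left_inv := fun H => Subtype.ext (hconjinv H.1)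
        right_inv := fun H => Subtype.ext (hconjinv' H.1) }
  have hsig : cnt G m = Nat.card (Σ Hb : {Hb : Subgroup (G ⧸ K) // Nat.card Hb = m},
      {H : Subgroup G // H ≤ Hb.1.comap (QuotientGroup.mk' K) ∧ Nat.card H = m}) := by
    apply Nat.card_congr
    refine
      { toFun := fun H => ⟨⟨H.1.map (QuotientGroup.mk' K), hmap H.1 H.2⟩, ⟨H.1, Subgroup.le_comap_map _ _, H.2⟩⟩
        invFun := fun H => ⟨H.2.1, H.2.2.2⟩
        left_inv := fun H => rfl
        right_inv := ?_ }
    rintro ⟨⟨Hb, hHb⟩, ⟨H, hH1, hH2⟩⟩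
    have h1 : H.map (QuotientGroup.mk' K) = Hb := by
      apply Subgroup.eq_of_le_of_card_ge
      · rw [Subgroup.map_le_iff_le_comap]; exact hH1
      · rw [hmap H hH2]; exact hHb.le
    subst h1
    rfl
  have hft : Fintype {Hb : Subgroup (G ⧸ K) // Nat.card Hb = m} := Fintype.ofFinite _
  rw [hsig, Nat.card_sigma]
  rw [Finset.sum_congr rfl (fun Hb _ => hfib Hb.1 Hb.2), Finset.sum_const, Finset.card_univ, ← Nat.card_eq_fintype_card, smul_eq_mul]
  rfl

theorem main : ∀ (N : ℕ) (G : Type u) [Group G] [Finite G] (_ : Group.IsSolvable G) (m n : ℕ), Nat.card G = N →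
    Nat.card G = m * n → Nat.Coprime m n → ∃ l : List ℕ, cnt G m = l.prod ∧ ∀ a ∈ l, Good G m a := by
  intro N
  induction N using Nat.strong_induction_on with
  | _ N ih =>
  intro G _ _ hs m n hN hG hmn
  classical
  have hm0 : m ≠ 0 := by
    rintro rfl
    rw [zero_mul] at hG
    exact Nat.card_pos.ne' hG
  by_cases hm1 : m = 1
  · refine ⟨[], ?_, by simp⟩
    rw [List.prod_nil, cnt, Nat.card_eq_one_iff_unique]
    refine ⟨⟨?_⟩, ⟨⟨⊥, by rw [hm1, Subgroup.card_bot]⟩⟩⟩
    rintro ⟨A, hA⟩ ⟨B, hB⟩
    rw [hm1, Subgroup.card_eq_one] at hA hB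
    exact Subtype.ext (hA.trans hB.symm)
  by_cases hcase : ∃ (q : ℕ) (L : Subgroup G), q.Prime ∧ q ∣ m ∧ L.Normal ∧ L ≠ ⊥ ∧ IsPGroup q L
  · obtain ⟨q, L, hq, hqm, hLn, hLb, hLq⟩ := hcase
    have := Fact.mk hq
    obtain ⟨e, he⟩ := hLq.exists_card_eq
    have hLd : Nat.card L ∣ m := by
      have h1 : Nat.card L ∣ m * n := by rw [← hG]; exact Subgroup.card_subgroup_dvd_card L
      have h2 : Nat.Coprime (Nat.card L) n := by
        rw [he]
        exact Nat.Coprime.pow_left e (Nat.Coprime.coprime_dvd_left hqm hmn)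
      exact h2.dvd_of_dvd_mul_right h1
    obtain ⟨h1, h2, h3⟩ := cnt_quotient hG hmn L hLd
    obtain ⟨l, hl1, hl2⟩ := ih (Nat.card (G ⧸ L)) (hN ▸ card_quotient_lt hLb) (G ⧸ L) inferInstance _ n rfl h2 h3
    exact ⟨l, h1.trans hl1, fun a ha => good_quotient L (Nat.div_dvd_of_dvd hLd) (hl2 a ha)⟩
  -- now no minimal normal subgroup of order dividing `m`
  have htop : (⊤ : Subgroup G) ≠ ⊥ := by
    intro h
    have h1 : Nat.card G = 1 := by rw [← Subgroup.card_top, h, Subgroup.card_bot]
    rw [hG] at h1
    exact hm1 (Nat.eq_one_of_mul_eq_one_right h1)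
  obtain ⟨K, -, hKn, hKb, hKmin⟩ := H73.SolvSmall.exists_minimal_normal (N := (⊤ : Subgroup G)) inferInstance htop
  have hKsol : Group.IsSolvable K := inferInstance
  obtain ⟨V, p, hVn, hVK, hVb, hp, hVc, hVe⟩ := H61.Isospec.exists_elemAb_normal K hKb hKsol
  have hVeq : V = K := (hKmin V hVn hVK).resolve_left hVb
  subst hVeq
  have hpF := Fact.mk hp
  have hVp : IsPGroup p V := fun x => ⟨1, by rw [pow_one]; exact hVe x⟩
  obtain ⟨e, he⟩ := hVp.exists_card_eq
  have hpm : ¬ p ∣ m := fun h => hcase ⟨p, V, hp, h, hVn, hVb, hVp⟩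
  have hVd : Nat.card V ∣ n := by
    have h1 : Nat.card V ∣ m * n := by rw [← hG]; exact Subgroup.card_subgroup_dvd_card V
    have h2 : Nat.Coprime (Nat.card V) m := by
      rw [he]; exact Nat.Coprime.pow_left e ((Nat.Prime.coprime_iff_not_dvd hp).mpr hpm)
    exact h2.dvd_of_dvd_mul_left h1
  obtain ⟨n', hn'⟩ := hVd
  have hchief : IsChief (⊥ : Subgroup G) V := by
    refine ⟨inferInstance, hVn, bot_lt_iff_ne_bot.mpr hVb, ?_⟩
    intro M hM _ hMV
    exact hKmin M hM hMV
  have hrel : (⊥ : Subgroup G).relIndex V = p ^ e := by rw [Subgroup.relIndex_bot_left, he]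
  obtain ⟨H0, hH0⟩ := H1.Hall.exists_card_eq hs m n hG hmn
  have hdisj : H0 ⊓ V = ⊥ := by
    apply (Subgroup.disjoint_of_coprime_natCard _).eq_bot
    rw [hH0]
    exact Nat.Coprime.coprime_dvd_right (Dvd.intro _ hn'.symm) hmn
  have hLcard : Nat.card (H0 ⊔ V : Subgroup G) = m * p ^ e := by
    have h1 := card_sup_mul_card_inf H0 V
    rw [hdisj, Subgroup.card_bot, mul_one, hH0, he] at h1
    exact h1
  have hcope : Nat.Coprime m (p ^ e) := (((Nat.Prime.coprime_iff_not_dvd hp).mpr hpm).pow_left e).symm
  have hGK : Nat.card (G ⧸ V) = m * n' := by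
    have h1 := Subgroup.card_eq_card_quotient_mul_card_subgroup V
    rw [hG, hn'] at h1
    apply Nat.eq_of_mul_eq_mul_right (Nat.card_pos (α := V))
    rw [← h1]; ring
  have hmn' : Nat.Coprime m n' := Nat.Coprime.coprime_dvd_right (Dvd.intro_left _ hn'.symm) hmn
  by_cases hL : H0 ⊔ V = ⊤
  · -- case 2b
    by_cases hfix : V ≤ Subgroup.centralizer (H0 : Set G)
    · exfalso
      have hH0n : H0.Normal := by
        apply normal_of_sup_eq_top hL Subgroup.le_normalizer
        exact hfix.trans (Subgroup.centralizer_le_normalizer _)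
      have hH0b : H0 ≠ ⊥ := by
        rintro rfl
        rw [Subgroup.card_bot] at hH0
        exact hm1 hH0.symm
      obtain ⟨W, q, hWn, hWH, hWb, hq, hWc, hWe⟩ := H61.Isospec.exists_elemAb_normal H0 hH0b inferInstance
      have := Fact.mk hq
      have hWq : IsPGroup q W := fun x => ⟨1, by rw [pow_one]; exact hWe x⟩
      refine hcase ⟨q, W, hq, ?_, hWn, hWb, hWq⟩
      obtain ⟨f, hf⟩ := hWq.exists_card_eq
      have hf0 : f ≠ 0 := by
        rintro rfl
        rw [pow_zero, Subgroup.card_eq_one] at hf
        exact hWb hf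
      have h1 : Nat.card W ∣ m := by rw [← hH0]; exact Subgroup.card_dvd_of_le hWH
      rw [hf] at h1
      exact (dvd_pow_self q hf0).trans h1
    · have hVab : V ≤ Subgroup.centralizer (V : Set G) := by
        intro v hv
        rw [Subgroup.mem_centralizer_iff]
        intro w hw
        exact congrArg Subtype.val (hVc ⟨w, hw⟩ ⟨v, hv⟩)
      have hCn : ∀ Q : Subgroup G, Subgroup.normalizer (Q : Set G) ⊔ V = ⊤ → V ⊓ Subgroup.centralizer (Q : Set G) = ⊥ ∨
          V ≤ Subgroup.centralizer (Q : Set G) := by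
        intro Q hQ
        have hn1 : (V ⊓ Subgroup.centralizer (Q : Set G)).Normal := by
          apply normal_of_sup_eq_top hQ
          · intro g hg
            rw [Subgroup.mem_normalizer_iff]
            have key : ∀ g ∈ Subgroup.normalizer (Q : Set G), ∀ x ∈ V ⊓ Subgroup.centralizer (Q : Set G),
                g * x * g⁻¹ ∈ V ⊓ Subgroup.centralizer (Q : Set G) := by
              rintro g hg x ⟨hx1, hx2⟩
              refine ⟨hVn.conj_mem x hx1 g, ?_⟩
              change g * x * g⁻¹ ∈ Subgroup.centralizer (Q : Set G)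
              rw [Subgroup.mem_centralizer_iff]
              intro y hy
              have h1 : g⁻¹ * y * g ∈ Q := (Subgroup.mem_normalizer_iff''.mp hg y).mp hy
              have h2 := Subgroup.mem_centralizer_iff.mp hx2 _ h1
              calc y * (g * x * g⁻¹) = g * ((g⁻¹ * y * g) * x) * g⁻¹ := by group
                _ = g * (x * (g⁻¹ * y * g)) * g⁻¹ := by rw [h2]
                _ = g * x * g⁻¹ * y := by group
            intro x
            constructor
            · exact key g hg x
            · intro hx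
              have h1 := key g⁻¹ (inv_mem hg) _ hx
              have h2 : g⁻¹ * (g * x * g⁻¹) * g⁻¹⁻¹ = x := by group
              rwa [h2] at h1
          · refine le_trans ?_ (Subgroup.centralizer_le_normalizer _)
            exact hVab.trans (Subgroup.centralizer_le inf_le_left)
        rcases hKmin _ hn1 inf_le_left with h | h
        · exact Or.inl h
        · right; rw [← h]; exact inf_le_right
      have hnorm0 : Subgroup.normalizer (H0 : Set G) ⊔ V = ⊤ := by
        rw [eq_top_iff, ← hL]
        exact sup_le_sup_right Subgroup.le_normalizer V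
      have hC0 := (hCn H0 hnorm0).resolve_right hfix
      -- the normalizer of `H0` is `H0`
      have hself : Subgroup.normalizer (H0 : Set G) = H0 := by
        apply le_antisymm _ Subgroup.le_normalizer
        intro g hg
        have hgt : g ∈ H0 ⊔ V := by rw [hL]; exact Subgroup.mem_top g
        rw [Subgroup.mem_sup_of_normal_right] at hgt
        obtain ⟨h, hh, v, hv, rfl⟩ := hgt
        have hvN : v ∈ Subgroup.normalizer (H0 : Set G) := by
          have := mul_mem (inv_mem (Subgroup.le_normalizer hh)) hg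
          rwa [inv_mul_cancel_left] at this
        have hvC : v ∈ V ⊓ Subgroup.centralizer (H0 : Set G) := by
          refine ⟨hv, ?_⟩
          change v ∈ Subgroup.centralizer (H0 : Set G)
          rw [Subgroup.mem_centralizer_iff]
          intro y hy
          have h1 : v * y * v⁻¹ * y⁻¹ ∈ H0 := mul_mem ((Subgroup.mem_normalizer_iff.mp hvN y).mp hy) (inv_mem hy)
          have h2 : v * y * v⁻¹ * y⁻¹ ∈ V := by
            have := mul_mem hv (hVn.conj_mem _ (inv_mem hv) y)
            have h3 : v * (y * v⁻¹ * y⁻¹) = v * y * v⁻¹ * y⁻¹ := by group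
            rwa [h3] at this
          have h3 : v * y * v⁻¹ * y⁻¹ ∈ H0 ⊓ V := ⟨h1, h2⟩
          rw [hdisj, Subgroup.mem_bot] at h3
          have h4 : v * y * v⁻¹ = y := mul_inv_eq_one.mp h3
          exact (mul_inv_eq_iff_eq_mul.mp h4).symm
        rw [hC0, Subgroup.mem_bot] at hvC
        rw [hvC, mul_one]; exact hh
      have hcount : cnt G m = p ^ e := by
        rw [cnt_eq_index hs m n hG hmn H0 hH0, hself]
        have h1 := H0.card_mul_index
        rw [hL, Subgroup.card_top] at hLcard
        rw [hH0, hLcard] at h1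
        exact Nat.eq_of_mul_eq_mul_left (Nat.pos_of_ne_zero hm0) h1
      -- `|V| ≡ 1` modulo a prime divisor of `m`
      have hmod : ∃ q : ℕ, q.Prime ∧ q ∣ m ∧ p ^ e ≡ 1 [MOD q] := by
        have hGKm : Nat.card (G ⧸ V) = m := by
          have h1 := Subgroup.card_eq_card_quotient_mul_card_subgroup V
          rw [hL, Subgroup.card_top] at hLcard
          rw [hLcard, he] at h1
          exact (Nat.eq_of_mul_eq_mul_right (pow_pos hp.pos e) h1).symm
        have htopb : (⊤ : Subgroup (G ⧸ V)) ≠ ⊥ := by
          intro h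
          have h1 : Nat.card (G ⧸ V) = 1 := by rw [← Subgroup.card_top, h, Subgroup.card_bot]
          exact hm1 (hGKm.symm.trans h1)
        obtain ⟨W, q, hWn, -, hWb, hq, hWc, hWe⟩ := H61.Isospec.exists_elemAb_normal (⊤ : Subgroup (G ⧸ V)) htopb inferInstance
        have := Fact.mk hq
        have hWq : IsPGroup q W := fun x => ⟨1, by rw [pow_one]; exact hWe x⟩
        obtain ⟨f, hf⟩ := hWq.exists_card_eq
        have hf0 : f ≠ 0 := by
          rintro rfl
          rw [pow_zero, Subgroup.card_eq_one] at hf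
          exact hWb hf
        have hqm : q ∣ m := by
          rw [← hGKm]
          exact (dvd_pow_self q hf0).trans (hf ▸ Subgroup.card_subgroup_dvd_card W)
        refine ⟨q, hq, hqm, ?_⟩
        have hqp : q ≠ p := by rintro rfl; exact hpm hqm
        set M := W.comap (QuotientGroup.mk' V) with hM
        have hMn : M.Normal := hWn.comap _
        have hVM : V ≤ M := by
          intro x hx
          have h2 : QuotientGroup.mk' V x = 1 := (QuotientGroup.eq_one_iff x).mpr hx
          rw [hM, Subgroup.mem_comap, h2]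
          exact one_mem W
        have hMmap : M.map (QuotientGroup.mk' V) = W := Subgroup.map_comap_eq_self_of_surjective (QuotientGroup.mk'_surjective V) _
        have hMcard : Nat.card M = q ^ f * p ^ e := by
          have h1 := H1.Hall.card_map_mk_mul_card_inf M V
          rw [hMmap, inf_eq_right.mpr hVM, hf, he] at h1
          exact h1.symm
        obtain ⟨Q⟩ : Nonempty (Sylow q M) := inferInstance
        set Q' : Subgroup G := (Q : Subgroup M).map M.subtype with hQ'
        have hQcard : Nat.card Q' = q ^ f := by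
          rw [hQ', Subgroup.card_map_of_injective (Subgroup.subtype_injective _), Sylow.card_eq_multiplicity, hMcard,
            Nat.factorization_mul (pow_ne_zero _ hq.ne_zero) (pow_ne_zero _ hp.ne_zero), hq.factorization_pow, hp.factorization_pow]
          simp [hqp.symm]
        have hQ'p : IsPGroup q Q' := Q.isPGroup'.map _
        have hQ'M : Q' ≤ M := Subgroup.map_subtype_le _
        have hMQ : M = Q' ⊔ V := by
          symm
          apply Subgroup.eq_of_le_of_card_ge (sup_le hQ'M hVM)
          have h1 := card_sup_mul_card_inf Q' V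
          have h2 : Q' ⊓ V = ⊥ := by
            apply (Subgroup.disjoint_of_coprime_natCard _).eq_bot
            rw [hQcard, he]
            exact Nat.Coprime.pow f e ((Nat.coprime_primes hq hp).mpr hqp)
          rw [h2, Subgroup.card_bot, mul_one, hQcard, he] at h1
          rw [hMcard, h1]
        have hF := Q.normalizer_sup_eq_top
        have hF' : Subgroup.normalizer (Q' : Set G) ⊔ V = ⊤ := by
          rw [eq_top_iff, ← hF]
          refine sup_le le_sup_left ?_
          rw [hMQ]
          exact sup_le (Subgroup.le_normalizer.trans le_sup_left) le_sup_right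
        rcases hCn Q' hF' with hC1 | hC1
        · -- fixed points
          letI : MulAction Q' V := MulAction.compHom V ((MulAut.conjNormal (G := G) (H := V)).comp Q'.subtype)
          have h1 := hQ'p.card_modEq_card_fixedPoints V
          have h2 : Nat.card (MulAction.fixedPoints Q' V) = 1 := by
            rw [Nat.card_eq_one_iff_unique]
            refine ⟨⟨?_⟩, ⟨⟨1, ?_⟩⟩⟩
            · have key : ∀ v : MulAction.fixedPoints Q' V, (v : V) = 1 := by
                rintro ⟨v, hv⟩
                apply Subtype.ext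
                have h3 : (v : G) ∈ V ⊓ Subgroup.centralizer (Q' : Set G) := by
                  refine ⟨v.2, ?_⟩
                  change (v : G) ∈ Subgroup.centralizer (Q' : Set G)
                  rw [Subgroup.mem_centralizer_iff]
                  intro y hy
                  have h4 := hv ⟨y, hy⟩
                  have h5 : y * (v : G) * y⁻¹ = v := congrArg Subtype.val h4
                  exact mul_inv_eq_iff_eq_mul.mp h5
                rw [hC1, Subgroup.mem_bot] at h3
                exact h3
              intro a b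
              exact Subtype.ext ((key a).trans (key b).symm)
            · intro y
              change (MulAut.conjNormal (y : G) (1 : V) : V) = 1
              rw [map_one]
          rw [h2, he] at h1
          exact h1
        · exfalso
          have hQ'n : Q'.Normal := by
            apply normal_of_sup_eq_top hF' le_rfl
            exact hC1.trans (Subgroup.centralizer_le_normalizer _)
          refine hcase ⟨q, Q', hq, hqm, hQ'n, ?_, hQ'p⟩
          intro h
          rw [h, Subgroup.card_bot] at hQcard
          have := Nat.one_lt_pow hf0 hq.one_lt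
          omega
      refine ⟨[p ^ e], by rw [List.prod_singleton, hcount], ?_⟩
      intro a ha
      rw [List.mem_singleton] at ha
      subst ha
      exact ⟨⟨p, e, hp, rfl⟩, ⟨⊥, V, hchief, by rw [hrel]⟩, hmod⟩
  · -- case 2a
    obtain ⟨l1, hl1, hl1'⟩ := ih (Nat.card (G ⧸ V)) (hN ▸ card_quotient_lt hVb) (G ⧸ V) inferInstance m n' rfl hGK hmn'
    obtain ⟨l2, hl2, hl2'⟩ := ih (Nat.card (H0 ⊔ V : Subgroup G)) (hN ▸ card_lt_of_ne_top hL) (H0 ⊔ V : Subgroup G) inferInstance
      m (p ^ e) rfl hLcard hcope
    refine ⟨l1 ++ l2, ?_, ?_⟩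
    · rw [List.prod_append, ← hl1, ← hl2]
      exact cnt_split hs hG hmn V hn' H0 hH0
    · intro a ha
      rcases List.mem_append.mp ha with ha | ha
      · exact good_quotient V dvd_rfl (hl1' a ha)
      · obtain ⟨h1, -, h3⟩ := hl2' a ha
        refine ⟨h1, ⟨⊥, V, hchief, ?_⟩, h3⟩
        rw [hrel]
        have h4 : a ∣ cnt (H0 ⊔ V : Subgroup G) m := by rw [hl2]; exact List.dvd_prod ha
        refine h4.trans ?_
        have hcard0 : Nat.card (H0.subgroupOf (H0 ⊔ V)) = m := by
          rw [card_subgroupOf, inf_eq_left.mpr le_sup_left, hH0]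
        rw [cnt_eq_index inferInstance m (p ^ e) hLcard hcope (H0.subgroupOf (H0 ⊔ V)) hcard0]
        have h5 : (H0.subgroupOf (H0 ⊔ V)).index = p ^ e := by
          have h6 := (H0.subgroupOf (H0 ⊔ V)).card_mul_index
          rw [hcard0, hLcard] at h6
          exact Nat.eq_of_mul_eq_mul_left (Nat.pos_of_ne_zero hm0) h6
        rw [← h5]
        exact Subgroup.index_dvd_of_le Subgroup.le_normalizer

/-- Let `G` be a finite solvable group of order `mn` with `gcd(m, n) = 1`. Then the number of subgroups of order `m` is a product of natural numbers each of which is a power of a prime, divides the order of some chief factor of `G` (a quotient `L/K` of normal subgroups `K < L` of `G` with no normal subgroup of `G` strictly between them), and is congruent to `1` modulo some prime divisor of `m`. -/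
theorem result {G : Type*} [Group G] [Finite G] [Group.IsSolvable G] (m n : ℕ) (hG : Nat.card G = m * n) (hmn : Nat.Coprime m n) : ∃ (k : ℕ) (f : Fin k → ℕ), Nat.card {H : Subgroup G // Nat.card H = m} = ∏ i, f i ∧ ∀ i, (∃ q e : ℕ, q.Prime ∧ f i = q ^ e) ∧ (∃ K L : Subgroup G, K.Normal ∧ L.Normal ∧ K < L ∧ (∀ M : Subgroup G, M.Normal → K ≤ M → M ≤ L → M = K ∨ M = L) ∧ f i ∣ K.relIndex L) ∧ (∃ q : ℕ, q.Prime ∧ q ∣ m ∧ f i ≡ 1 [MOD q]) := by
  obtain ⟨l, hl, hl'⟩ := main _ G inferInstance m n rfl hG hmn
  refine ⟨l.length, l.get, ?_, ?_⟩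
  · rw [← List.prod_ofFn, List.ofFn_get]
    exact hl
  · intro i
    obtain ⟨h1, ⟨K, L, ⟨hK, hL, hKL, hmax⟩, hd⟩, h3⟩ := hl' (l.get i) (List.get_mem l i)
    exact ⟨h1, ⟨K, L, hK, hL, hKL, hmax, hd⟩, h3⟩

end Cfsg.Agent.S4214
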