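import Cfsg.Statements.S4216
import Mathlib
import Cfsg.Agent.Lib.H73.TransferP

set_option autoImplicit false
open Cfsg

namespace Cfsg.Agent.S4216

open scoped commutatorElement
open MulAction

theorem core {G : Type*} [Group G] [Finite G] {p : ℕ} [hp : Fact p.Prime] (P : Sylow p G) (D : Subgroup G)
    (hDP : D ≤ P) (hN : (P : Subgroup G) ⊓ ⁅Subgroup.normalizer ((P : Subgroup G) : Set G), Subgroup.normalizer ((P : Subgroup G) : Set G)⁆ ≤ D)
    (hz : ∀ z : G, (P : Subgroup G) ⊓ (⁅(P : Subgroup G), (P : Subgroup G)⁆).map (MulAut.conj z).toMonoidHom ≤ D) :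
    (P : Subgroup G) ⊓ commutator G ≤ D := by
  classical
  set D' : Subgroup (P : Subgroup G) := D.subgroupOf P with hD'
  have hcomm : commutator (P : Subgroup G) ≤ D' := by
    rw [commutator_def, Subgroup.commutator_le]
    intro a _ b _
    rw [hD', Subgroup.mem_subgroupOf]
    apply hz 1
    refine ⟨(⁅a, b⁆ : (P : Subgroup G)).2, ⁅(a : G), (b : G)⁆, Subgroup.commutator_mem_commutator a.2 b.2, ?_⟩
    change (MulAut.conj (1 : G)) ⁅(a : G), (b : G)⁆ = ((⁅a, b⁆ : (P : Subgroup G)) : G)
    rw [map_one]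
    rfl
  have hDn : D'.Normal := Subgroup.Normal.of_commutator_le _ hcomm
  let A := (P : Subgroup G) ⧸ D'
  letI : CommGroup A :=
    { (inferInstance : Group A) with
      mul_comm := by
        intro x y
        obtain ⟨x, rfl⟩ := QuotientGroup.mk_surjective x
        obtain ⟨y, rfl⟩ := QuotientGroup.mk_surjective y
        apply QuotientGroup.eq.mpr
        apply hcomm
        have : (x * y)⁻¹ * (y * x) = ⁅y⁻¹, x⁻¹⁆ := by rw [commutatorElement_def]; group
        rw [this, commutator_def]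
        exact Subgroup.commutator_mem_commutator (Subgroup.mem_top _) (Subgroup.mem_top _) }
  let f : (P : Subgroup G) →* A := QuotientGroup.mk' D'
  have hf : ∀ x : (P : Subgroup G), f x = 1 ↔ (x : G) ∈ D := fun x => (QuotientGroup.eq_one_iff x)
  by_contra hle
  -- an element of minimal order
  obtain ⟨u, ⟨⟨huP, huG⟩, huD⟩, humin⟩ : ∃ u : G, (u ∈ (P : Subgroup G) ⊓ commutator G ∧ u ∉ D) ∧
      ∀ v : G, (v ∈ (P : Subgroup G) ⊓ commutator G ∧ v ∉ D) → orderOf u ≤ orderOf v := by
    have hne : {u : G | u ∈ (P : Subgroup G) ⊓ commutator G ∧ u ∉ D}.Nonempty := by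
      rw [SetLike.le_def] at hle
      push Not at hle
      obtain ⟨u, hu, hu'⟩ := hle
      exact ⟨u, hu, hu'⟩
    obtain ⟨u, hu, hmin⟩ := Set.exists_min_image _ (orderOf : G → ℕ) (Set.toFinite _) hne
    exact ⟨u, hu, hmin⟩
  have hGn : (commutator G).Normal := inferInstance
  have hsmall : ∀ (g : G) (k : ℕ), g⁻¹ * u ^ k * g ∈ (P : Subgroup G) → p ∣ k → g⁻¹ * u ^ k * g ∈ D := by
    intro g k hk hpk
    by_contra hD
    have h1 : g⁻¹ * u ^ k * g ∈ commutator G := by
      have := hGn.conj_mem _ (pow_mem huG k) g⁻¹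
      rwa [inv_inv] at this
    have h2 := humin _ ⟨⟨hk, h1⟩, hD⟩
    have h3 : orderOf (g⁻¹ * u ^ k * g) = orderOf (u ^ k) := by
      have := orderOf_injective (MulAut.conj g⁻¹).toMonoidHom (MulAut.conj g⁻¹).injective (u ^ k)
      simpa using this
    rw [h3] at h2
    obtain ⟨j, hj⟩ := (IsPGroup.iff_orderOf.mp P.isPGroup') ⟨u, huP⟩
    rw [Subgroup.orderOf_mk] at hj
    have hj0 : j ≠ 0 := by
      rintro rfl
      rw [pow_zero, orderOf_eq_one_iff] at hj
      exact huD (hj ▸ one_mem D)
    have h4 : orderOf (u ^ k) ∣ p ^ (j - 1) := by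
      apply orderOf_dvd_of_pow_eq_one
      obtain ⟨m, rfl⟩ := hpk
      rw [← pow_mul]
      have : p * m * p ^ (j - 1) = p ^ j * m := by
        obtain ⟨i, rfl⟩ : ∃ i, j = i + 1 := ⟨j - 1, by omega⟩
        rw [Nat.add_sub_cancel, pow_succ]; ring
      rw [this, pow_mul, ← hj, pow_orderOf_eq_one, one_pow]
    have h5 := Nat.le_of_dvd (pow_pos hp.out.pos _) h4
    have h6 : p ^ (j - 1) < p ^ j := Nat.pow_lt_pow_right hp.out.one_lt (by omega)
    rw [hj] at h2
    omega
  have key := H73.TransferP.transfer_eq_pow (P : Subgroup G) P.isPGroup' f u huP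
    (by
      intro g k h hk
      exact (hf _).mpr (hsmall g k h hk))
    (by
      intro g t h ht h'
      apply QuotientGroup.eq.mpr
      rw [hD', Subgroup.mem_subgroupOf]
      apply hz g⁻¹
      refine ⟨(_ : (P : Subgroup G)).2, ⁅u⁻¹, t⁻¹⁆, Subgroup.commutator_mem_commutator (inv_mem huP) (inv_mem ht), ?_⟩
      change (MulAut.conj g⁻¹) ⁅u⁻¹, t⁻¹⁆ = (g⁻¹ * u * g)⁻¹ * ((t * g)⁻¹ * u * (t * g))
      rw [MulAut.conj_apply, commutatorElement_def]
      group)
    (by
      intro g hg h
      symm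
      apply QuotientGroup.eq.mpr
      rw [hD', Subgroup.mem_subgroupOf]
      apply hN
      refine ⟨(_ : (P : Subgroup G)).2, ?_⟩
      change u⁻¹ * (g⁻¹ * u * g) ∈ _
      have h5 : u⁻¹ * (g⁻¹ * u * g) = ⁅u⁻¹, g⁻¹⁆ := by rw [commutatorElement_def]; group
      rw [h5]
      exact Subgroup.commutator_mem_commutator (Subgroup.le_normalizer (inv_mem huP)) (inv_mem hg))
    (by
      intro g h
      rw [← map_pow, hf]
      have h5 : (g⁻¹ * u * g) ^ p = g⁻¹ * u ^ p * g := by
        have := conj_pow (i := p) (a := g⁻¹) (b := u)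
        rwa [inv_inv] at this
      change (g⁻¹ * u * g) ^ p ∈ D
      rw [h5]
      apply hsmall g p _ dvd_rfl
      rw [← h5]
      exact pow_mem h p)
  have h1 : f.transfer u = 1 := by
    have h2 : commutator G ≤ (f.transfer).ker := Abelianization.commutator_subset_ker _
    exact MonoidHom.mem_ker.mp (h2 huG)
  rw [h1] at key
  have h2 : f ⟨u, huP⟩ ^ p = 1 := by
    rw [← map_pow, hf]
    have := hsmall 1 p (by simpa using pow_mem huP p) dvd_rfl
    simpa using this
  have h3 : Nat.Coprime p (Nat.card (fixedPoints P (G ⧸ (P : Subgroup G)))) := by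
    rw [Nat.Prime.coprime_iff_not_dvd hp.out]
    intro hd
    have h4 := P.isPGroup'.card_modEq_card_fixedPoints (G ⧸ (P : Subgroup G))
    have h5 : p ∣ Nat.card (G ⧸ (P : Subgroup G)) :=
      (Nat.modEq_zero_iff_dvd).mp (h4.trans ((Nat.modEq_zero_iff_dvd).mpr hd))
    rw [← Subgroup.index_eq_card] at h5
    exact P.not_dvd_index h5
  apply huD
  rw [← hf ⟨u, huP⟩, ← orderOf_eq_one_iff]
  exact Nat.eq_one_of_dvd_coprimes h3 (orderOf_dvd_of_pow_eq_one h2) (orderOf_dvd_of_pow_eq_one key.symm)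

/-- Grün's first Theorem: if `P` is a Sylow `p`-subgroup of the finite group `G`, then `P ∩ G'` is the subgroup generated by `P ∩ N_G(P)'` together with the subgroups `P ∩ z P' z⁻¹` for all `z ∈ G`, where `'` denotes the derived subgroup and `N_G(P)` the normalizer of `P`. -/
theorem result {G : Type*} [Group G] [Finite G] {p : ℕ} [Fact p.Prime] (P : Sylow p G) : (P : Subgroup G) ⊓ commutator G = ((P : Subgroup G) ⊓ ⁅Subgroup.normalizer ((P : Subgroup G) : Set G), Subgroup.normalizer ((P : Subgroup G) : Set G)⁆) ⊔ ⨆ z : G, (P : Subgroup G) ⊓ (⁅(P : Subgroup G), (P : Subgroup G)⁆).map (MulAut.conj z).toMonoidHom := by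
  apply le_antisymm
  · apply core P
    · exact sup_le inf_le_left (iSup_le (fun z => inf_le_left))
    · exact le_sup_left
    · intro z
      exact le_sup_of_le_right (le_iSup (fun z : G => (P : Subgroup G) ⊓ (⁅(P : Subgroup G), (P : Subgroup G)⁆).map (MulAut.conj z).toMonoidHom) z)
  · refine sup_le (inf_le_inf_left _ ?_) (iSup_le (fun z => inf_le_inf_left _ ?_))
    · rw [commutator_def]
      exact Subgroup.commutator_mono le_top le_top
    · rintro _ ⟨x, hx, rfl⟩
      have hx' : x ∈ commutator G := by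
        rw [commutator_def]
        exact Subgroup.commutator_mono le_top le_top hx
      have hGn : (commutator G).Normal := inferInstance
      exact hGn.conj_mem x hx' z

end Cfsg.Agent.S4216
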