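import Cfsg.Statements.S4217
import Mathlib
import Cfsg.Agent.Lib.H2.Gaschutz
import Cfsg.Agent.Lib.H73.Bas

set_option autoImplicit false
open Cfsg

namespace Cfsg.Agent.S4217

open H73.Bas
open scoped IsMulCommutative

/-- the part of `A` killed by `m` -/
def tors {G : Type*} [Group G] (A : Subgroup G) (hA : IsMulCommutative A) (m : ℕ) : Subgroup G where
  carrier := {g | g ∈ A ∧ g ^ m = 1}
  mul_mem' := by
    rintro a b ⟨ha, ha'⟩ ⟨hb, hb'⟩
    refine ⟨mul_mem ha hb, ?_⟩
    have h : Commute a b := congrArg Subtype.val (hA.is_comm.comm (⟨a, ha⟩ : A) ⟨b, hb⟩)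
    rw [h.mul_pow, ha', hb', one_mul]
  one_mem' := ⟨one_mem A, one_pow m⟩
  inv_mem' := by
    rintro a ⟨ha, ha'⟩
    exact ⟨inv_mem ha, by rw [inv_pow, ha', inv_one]⟩

theorem tors_normal {G : Type*} [Group G] (A : Subgroup G) [A.Normal] (hA : IsMulCommutative A) (m : ℕ) :
    (tors A hA m).Normal := by
  constructor
  rintro a ⟨ha, ha'⟩ g
  refine ⟨Subgroup.Normal.conj_mem ‹_› a ha g, ?_⟩
  rw [conj_pow, ha', mul_one, mul_inv_cancel]

theorem tors_le {G : Type*} [Group G] (A : Subgroup G) (hA : IsMulCommutative A) (m : ℕ) :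
    tors A hA m ≤ A := fun _ h => h.1

theorem step {G : Type*} [Group G] [Finite G] (A : Subgroup G) [A.Normal] (hA : IsMulCommutative A) {p : ℕ} (hp : p.Prime)
    (U K : Subgroup G) (hAU : A ≤ U) (hU : ¬ p ∣ U.index) (h1 : K ⊓ A = ⊥) (h2 : K ⊔ A = U) :
    ∃ L : Subgroup G, L.index = p ^ (Nat.card A).factorization p ∧ ¬ p ∣ Nat.card (L ⊓ A : Subgroup G) := by
  have := Fact.mk hp
  obtain ⟨m, hm⟩ := Nat.ordProj_dvd (Nat.card A) p
  have hmp : ¬ p ∣ m := by
    intro hd
    have h3 := Nat.pow_succ_factorization_not_dvd (Nat.card_pos (α := A)).ne' hp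
    apply h3
    rw [pow_succ]
    exact (Nat.mul_dvd_mul_left _ hd).trans (dvd_of_eq hm.symm)
  set B := tors A hA m with hB
  have hBn : B.Normal := tors_normal A hA m
  have hBA : B ≤ A := tors_le A hA m
  have hBp : ¬ p ∣ Nat.card B := by
    intro hd
    obtain ⟨x, hx⟩ := exists_prime_orderOf_dvd_card' p hd
    have h3 : x ^ m = 1 := Subtype.ext x.2.2
    have h4 := orderOf_dvd_of_pow_eq_one h3
    rw [hx] at h4
    exact hmp h4
  have hAb : IsPGroup p (A.map (QuotientGroup.mk' B)) := by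
    rintro ⟨_, x, hx, rfl⟩
    refine ⟨(Nat.card A).factorization p, ?_⟩
    apply Subtype.ext
    change (QuotientGroup.mk' B x) ^ _ = 1
    rw [← map_pow]
    apply (QuotientGroup.eq_one_iff _).mpr
    refine ⟨pow_mem hx _, ?_⟩
    rw [← pow_mul, ← hm]
    have := pow_card_eq_one' (x := (⟨x, hx⟩ : A))
    exact congrArg Subtype.val this
  have hcardmul : Nat.card (A.map (QuotientGroup.mk' B)) * Nat.card B = Nat.card A := by
    have h3 := Subgroup.card_mul_index (B.subgroupOf A)
    rw [card_subgroupOf, inf_eq_left.mpr hBA] at h3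
    have h4 : (B.subgroupOf A).index = Nat.card (A.map (QuotientGroup.mk' B)) := by
      have h5 := Subgroup.index_ker ((QuotientGroup.mk' B).subgroupMap A)
      rw [MonoidHom.range_eq_top.mpr ((QuotientGroup.mk' B).subgroupMap_surjective A), Subgroup.card_top] at h5
      rw [← h5]
      congr 1
      ext x
      rw [Subgroup.mem_subgroupOf, MonoidHom.mem_ker]
      constructor
      · intro hx
        exact Subtype.ext ((QuotientGroup.eq_one_iff _).mpr hx)
      · intro hx
        exact (QuotientGroup.eq_one_iff _).mp (congrArg Subtype.val hx)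
    rw [← h4, mul_comm]; exact h3
  have hcardA : Nat.card (A.map (QuotientGroup.mk' B)) = p ^ (Nat.card A).factorization p := by
    obtain ⟨j, hj⟩ := hAb.exists_card_eq
    rw [hj]
    congr 1
    rw [← hcardmul, Nat.factorization_mul (Nat.card_pos).ne' (Nat.card_pos).ne', hj, Finsupp.add_apply,
      Nat.Prime.factorization_pow hp, Finsupp.single_eq_same, Nat.factorization_eq_zero_of_not_dvd hBp, add_zero]
  have hAbn : (A.map (QuotientGroup.mk' B)).Normal := Subgroup.Normal.map ‹_› _ (QuotientGroup.mk'_surjective B)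
  have hAbc : IsMulCommutative (A.map (QuotientGroup.mk' B)) := by
    refine ⟨⟨?_⟩⟩
    rintro ⟨_, x, hx, rfl⟩ ⟨_, y, hy, rfl⟩
    apply Subtype.ext
    change QuotientGroup.mk' B x * QuotientGroup.mk' B y = QuotientGroup.mk' B y * QuotientGroup.mk' B x
    rw [← map_mul, ← map_mul]
    congr 1
    exact congrArg Subtype.val (hA.is_comm.comm (⟨x, hx⟩ : A) ⟨y, hy⟩)
  have hUi : (U.map (QuotientGroup.mk' B)).index = U.index :=
    Subgroup.index_map_eq _ (QuotientGroup.mk'_surjective B) (by rw [QuotientGroup.ker_mk']; exact hBA.trans hAU)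
  obtain ⟨H, hH⟩ := H2.Gaschutz.exists_complement (A.map (QuotientGroup.mk' B)) (U.map (QuotientGroup.mk' B))
    (by
      rw [hUi, hcardA]
      exact Nat.Coprime.pow_left _ ((Nat.Prime.coprime_iff_not_dvd hp).mpr hU))
    (K.map (QuotientGroup.mk' B)) (Subgroup.map_mono (h2 ▸ le_sup_left)) (by
      rw [eq_bot_iff]
      rintro _ ⟨⟨k, hk, rfl⟩, ⟨a, ha, hak⟩⟩
      have h3 : k⁻¹ * a ∈ B := by
        apply (QuotientGroup.eq_one_iff _).mp
        have h4 : QuotientGroup.mk' B (k⁻¹ * a) = 1 := by rw [map_mul, hak, map_inv, inv_mul_cancel]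
        exact h4
      have h5 : k ∈ K ⊓ A := by
        refine ⟨hk, ?_⟩
        have h6 := mul_mem ha (inv_mem (hBA h3))
        have h7 : a * (k⁻¹ * a)⁻¹ = k := by group
        rwa [h7] at h6
      rw [h1, Subgroup.mem_bot] at h5
      rw [h5, map_one]
      exact one_mem _)
    (by rw [← Subgroup.map_sup, sup_comm, h2])
  refine ⟨H.comap (QuotientGroup.mk' B), ?_, ?_⟩
  · rw [Subgroup.index_comap_of_surjective _ (QuotientGroup.mk'_surjective B), Subgroup.IsComplement'.index_eq_card hH, hcardA]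
  · intro hd
    apply hBp
    refine hd.trans (Subgroup.card_dvd_of_le ?_)
    rintro x ⟨hx1, hx2⟩
    have h3 : QuotientGroup.mk' B x ∈ (A.map (QuotientGroup.mk' B)) ⊓ H := ⟨⟨x, hx2, rfl⟩, hx1⟩
    rw [hH.disjoint.eq_bot, Subgroup.mem_bot] at h3
    exact (QuotientGroup.eq_one_iff _).mp h3

theorem induct {G : Type*} [Group G] [Finite G] (A : Subgroup G)
    (h : ∀ p : ℕ, p.Prime → ∃ L : Subgroup G, L.index = p ^ (Nat.card A).factorization p ∧ ¬ p ∣ Nat.card (L ⊓ A : Subgroup G))
    (T : Finset ℕ) (hT : ∀ p ∈ T, p.Prime) :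
    ∃ L : Subgroup G, L.index ≤ ∏ p ∈ T, p ^ (Nat.card A).factorization p ∧ ∀ p ∈ T, ¬ p ∣ Nat.card (L ⊓ A : Subgroup G) := by
  classical
  induction T using Finset.induction_on with
  | empty => exact ⟨⊤, by simp, by simp⟩
  | insert q T hq ih =>
    obtain ⟨L, hL1, hL2⟩ := ih (fun p hp => hT p (Finset.mem_insert_of_mem hp))
    obtain ⟨M, hM1, hM2⟩ := h q (hT q (Finset.mem_insert_self q T))
    refine ⟨M ⊓ L, ?_, ?_⟩
    · rw [Finset.prod_insert hq]
      refine Subgroup.index_inf_le.trans ?_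
      rw [hM1]
      exact Nat.mul_le_mul_left _ hL1
    · intro p hp hd
      rcases Finset.mem_insert.mp hp with rfl | hp
      · exact hM2 (hd.trans (Subgroup.card_dvd_of_le (inf_le_inf_right A inf_le_left)))
      · exact hL2 p hp (hd.trans (Subgroup.card_dvd_of_le (inf_le_inf_right A inf_le_right)))

/-- Let `A` be an abelian normal subgroup of the finite group `G`. Then `A` has a complement in `G` if and only if, for every prime `p` dividing the index of `A`, there are a Sylow `p`-subgroup `S` of `G/A` and a subgroup `K` of `G` with `K ∩ A = 1` and `KA` equal to the preimage of `S` (that is, `A` has a complement in the preimage of a Sylow `p`-subgroup of `G/A`). -/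
theorem result {G : Type*} [Group G] [Finite G] (A : Subgroup G) [A.Normal] (hA : IsMulCommutative A) : (∃ K : Subgroup G, K.IsComplement' A) ↔ ∀ p : ℕ, p.Prime → p ∣ A.index → ∃ (S : Sylow p (G ⧸ A)) (K : Subgroup G), K ⊓ A = ⊥ ∧ K ⊔ A = (S : Subgroup (G ⧸ A)).comap (QuotientGroup.mk' A) := by
  constructor
  · rintro ⟨K, hK⟩ p hp _
    obtain ⟨S⟩ : Nonempty (Sylow p (G ⧸ A)) := inferInstance
    have hAU : A ≤ (S : Subgroup (G ⧸ A)).comap (QuotientGroup.mk' A) := by
      intro a ha
      rw [Subgroup.mem_comap]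
      have : QuotientGroup.mk' A a = 1 := (QuotientGroup.eq_one_iff _).mpr ha
      rw [this]; exact one_mem _
    refine ⟨S, K ⊓ (S : Subgroup (G ⧸ A)).comap (QuotientGroup.mk' A), ?_, ?_⟩
    · rw [eq_bot_iff, ← hK.disjoint.eq_bot]
      exact inf_le_inf_right A inf_le_left
    · apply le_antisymm (sup_le inf_le_right hAU)
      intro x hx
      have hxt : x ∈ K ⊔ A := by rw [hK.sup_eq_top]; exact Subgroup.mem_top x
      rw [Subgroup.mem_sup_of_normal_right] at hxt
      obtain ⟨k, hk, a, ha, rfl⟩ := hxt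
      apply mul_mem
      · apply Subgroup.mem_sup_left
        refine ⟨hk, ?_⟩
        exact (Subgroup.mul_mem_cancel_right _ (hAU ha)).mp hx
      · exact Subgroup.mem_sup_right ha
  · intro h
    have hstep : ∀ p : ℕ, p.Prime → ∃ L : Subgroup G, L.index = p ^ (Nat.card A).factorization p ∧ ¬ p ∣ Nat.card (L ⊓ A : Subgroup G) := by
      intro p hp
      have := Fact.mk hp
      by_cases hd : p ∣ A.index
      · obtain ⟨S, K, hK1, hK2⟩ := h p hp hd
        refine step A hA hp _ K ?_ ?_ hK1 hK2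
        · rw [← hK2]; exact le_sup_right
        · rw [Subgroup.index_comap_of_surjective _ (QuotientGroup.mk'_surjective A)]
          exact S.not_dvd_index
      · exact step A hA hp A ⊥ le_rfl hd (bot_inf_eq _) (bot_sup_eq _)
    obtain ⟨L, hL1, hL2⟩ := induct A hstep (Nat.card A).primeFactors (fun p hp => Nat.prime_of_mem_primeFactors hp)
    have hprod : ∏ p ∈ (Nat.card A).primeFactors, p ^ (Nat.card A).factorization p = Nat.card A :=
      Nat.prod_factorization_pow_eq_self (Nat.card_pos (α := A)).ne'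
    rw [hprod] at hL1
    have hLA : L ⊓ A = ⊥ := by
      rw [← Subgroup.card_eq_one]
      by_contra hne
      obtain ⟨q, hq, hqd⟩ := Nat.exists_prime_and_dvd hne
      have hqA : q ∣ Nat.card A := hqd.trans (Subgroup.card_dvd_of_le inf_le_right)
      exact hL2 q (Nat.mem_primeFactors.mpr ⟨hq, hqA, (Nat.card_pos).ne'⟩) hqd
    refine ⟨L, Subgroup.isComplement'_of_card_mul_and_disjoint ?_ (disjoint_iff.mpr hLA)⟩
    have h3 := card_sup_mul_card_inf L A
    rw [hLA, Subgroup.card_bot, mul_one] at h3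
    rw [← h3]
    apply le_antisymm
    · exact Nat.card_le_card_of_injective _ (Subgroup.subtype_injective _)
    · rw [h3, ← L.card_mul_index]
      exact Nat.mul_le_mul_left _ hL1

end Cfsg.Agent.S4217
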