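import Cfsg.Statements.S4218
import Mathlib
import Cfsg.Agent.Lib.H1.Cores
import Cfsg.Agent.Lib.H1.Frat
import Cfsg.Agent.Lib.H1.Coprime2
import Cfsg.Agent.Lib.H37.PSolv
import Cfsg.Agent.Lib.H73.Bas

set_option autoImplicit false
open Cfsg

namespace Cfsg.Agent.S4218

open scoped commutatorElement
open H73.Bas

/-- the elements acting trivially on `R ⧸ F` -/
def actTriv {G : Type*} [Group G] (R F : Subgroup G) [hR : R.Normal] [hF : F.Normal] : Subgroup G where
  carrier := {y | ∀ x ∈ R, y * x * y⁻¹ * x⁻¹ ∈ F}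
  mul_mem' := by
    intro y z hy hz x hx
    have h1 := hF.conj_mem _ (hz x hx) y
    have h2 := mul_mem h1 (hy x hx)
    have h3 : y * (z * x * z⁻¹ * x⁻¹) * y⁻¹ * (y * x * y⁻¹ * x⁻¹) = y * z * x * (y * z)⁻¹ * x⁻¹ := by group
    rwa [h3] at h2
  one_mem' := by
    intro x _
    have : (1 : G) * x * 1⁻¹ * x⁻¹ = 1 := by group
    rw [this]; exact one_mem F
  inv_mem' := by
    intro y hy x hx
    have hx' : y⁻¹ * x * y ∈ R := by
      have := hR.conj_mem x hx y⁻¹
      rwa [inv_inv] at this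
    have h1 := inv_mem (hy _ hx')
    have h2 : (y * (y⁻¹ * x * y) * y⁻¹ * (y⁻¹ * x * y)⁻¹)⁻¹ = y⁻¹ * x * y⁻¹⁻¹ * x⁻¹ := by group
    rwa [h2] at h1

theorem actTriv_normal {G : Type*} [Group G] (R F : Subgroup G) [hR : R.Normal] [hF : F.Normal] : (actTriv R F).Normal := by
  constructor
  intro y hy g x hx
  have hx' : g⁻¹ * x * g ∈ R := by
    have := hR.conj_mem x hx g⁻¹
    rwa [inv_inv] at this
  have h1 := hF.conj_mem _ (hy _ hx') g
  have h2 : g * (y * (g⁻¹ * x * g) * y⁻¹ * (g⁻¹ * x * g)⁻¹) * g⁻¹ = g * y * g⁻¹ * x * (g * y * g⁻¹)⁻¹ * x⁻¹ := by group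
  rwa [h2] at h1

theorem core {G : Type*} [Group G] [Finite G] {p : ℕ} [hp : Fact p.Prime] (hG : Cfsg.IsPSolvable p G)
    (hcore : pPrimeCore p G = ⊥) (g : G) :
    (∀ x ∈ pCore p G, g * x * g⁻¹ * x⁻¹ ∈ (frattini (pCore p G)).map (pCore p G).subtype) ↔ g ∈ pCore p G := by
  set R := pCore p G with hR
  set F := (frattini R).map R.subtype with hF
  have hRp : IsPGroup p R := H1.Cores.isPGroup_pCore p
  have hFn : F.Normal := inferInstance
  constructor
  · intro h
    have hXn := actTriv_normal R F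
    have hgX : g ∈ actTriv R F := h
    have hXp : IsPGroup p (actTriv R F) := by
      apply isPGroup_of_prime_dvd
      intro q hq hqd
      by_contra hne
      have := Fact.mk hq
      obtain ⟨⟨y, hy⟩, hyo⟩ := exists_prime_orderOf_dvd_card' q hqd
      rw [Subgroup.orderOf_mk] at hyo
      obtain ⟨k, hk⟩ := (hRp.to_subgroup (frattini R)).exists_card_eq
      have h1 : Subgroup.zpowers y ≤ Subgroup.centralizer (R : Set G) := by
        apply H1.Coprime2.le_centralizer_of_frattini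
        · rw [Nat.card_zpowers, hyo, hk]
          exact Nat.Coprime.pow_right k ((Nat.coprime_primes hq hp.out).mpr hne)
        · intro a ha x hx
          have ha' : a ∈ actTriv R F := (Subgroup.zpowers_le.mpr hy) ha
          exact ha' x hx
      have h2 := h1.trans (H37.PSolv.centralizer_pCore_le hG hcore)
      have h3 : y ∈ R := h2 (Subgroup.mem_zpowers y)
      obtain ⟨j, hj⟩ := (IsPGroup.iff_orderOf.mp hRp) ⟨y, h3⟩
      rw [Subgroup.orderOf_mk, hyo] at hj
      have h4 : q ∣ p ^ j := by rw [← hj]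
      exact hne ((Nat.prime_dvd_prime_iff_eq hq hp.out).mp (hq.dvd_of_dvd_pow h4))
    exact H1.Cores.le_pCore hXn hXp hgX
  · intro hg x hx
    have hnil : Group.IsNilpotent R := hRp.isNilpotent
    refine ⟨⟨g, hg⟩ * ⟨x, hx⟩ * ⟨g, hg⟩⁻¹ * ⟨x, hx⟩⁻¹, ?_, rfl⟩
    apply H1.Frat.commutator_le_frattini
    rw [← commutatorElement_def, commutator_def]
    exact Subgroup.commutator_mem_commutator (Subgroup.mem_top _) (Subgroup.mem_top _)

/-- Let `G` be a finite `p`-solvable group, `N₀ = O_{p'}(G)`, `P₁ = O_{p',p}(G)`, and let `F ≤ P₁` be the preimage of the Frattini subgroup of `P₁/N₀`. Then an element `g` of `G` induces the identity on `P₁/F` by conjugation (that is, `g x g⁻¹ x⁻¹ ∈ F` for all `x ∈ P₁`) if and only if `g ∈ P₁`: the group `G/P₁` acts faithfully on `P₁/F`. -/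
theorem result {G : Type*} [Group G] [Finite G] {p : ℕ} [Fact p.Prime] (hG : Cfsg.IsPSolvable p G) (g : G) : (∀ x ∈ Cfsg.pPrimePCore p G, g * x * g⁻¹ * x⁻¹ ∈ ((frattini (↥(Cfsg.pPrimePCore p G) ⧸ (Cfsg.pPrimeCore p G).subgroupOf (Cfsg.pPrimePCore p G))).comap (QuotientGroup.mk' ((Cfsg.pPrimeCore p G).subgroupOf (Cfsg.pPrimePCore p G)))).map (Cfsg.pPrimePCore p G).subtype) ↔ g ∈ Cfsg.pPrimePCore p G := by
  set N := pPrimeCore p G with hN
  set P1 := pPrimePCore p G with hP1
  have hP1' : P1 = (pCore p (G ⧸ N)).comap (QuotientGroup.mk' N) := rfl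
  have hcore := core (G := G ⧸ N) (H37.PSolv.quotient hG N) (H1.Cores.pPrimeCore_quotient_pPrimeCore p) (QuotientGroup.mk' N g)
  have hmem : ∀ x : G, x ∈ P1 ↔ QuotientGroup.mk' N x ∈ pCore p (G ⧸ N) := fun x => Iff.rfl
  rw [hmem, ← hcore]
  -- the isomorphism `P₁ ⧸ N₀ ≃ R`
  let φ : P1 →* pCore p (G ⧸ N) :=
    ((QuotientGroup.mk' N).comp P1.subtype).codRestrict (pCore p (G ⧸ N)) (fun x => x.2)
  have hφ : Function.Surjective φ := by
    rintro ⟨y, hy⟩
    obtain ⟨x, rfl⟩ := QuotientGroup.mk'_surjective N y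
    exact ⟨⟨x, hy⟩, rfl⟩
  have hker : φ.ker = N.subgroupOf P1 := by
    ext x
    rw [MonoidHom.mem_ker, Subgroup.mem_subgroupOf]
    constructor
    · intro h
      exact (QuotientGroup.eq_one_iff _).mp (congrArg Subtype.val h)
    · intro h
      exact Subtype.ext ((QuotientGroup.eq_one_iff _).mpr h)
  let ψ : (P1 ⧸ N.subgroupOf P1) →* pCore p (G ⧸ N) := QuotientGroup.lift (N.subgroupOf P1) φ (fun x hx => by
    rw [← hker] at hx; exact hx)
  have hψs : Function.Surjective ψ := by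
    intro y
    obtain ⟨x, rfl⟩ := hφ y
    exact ⟨(x : P1 ⧸ N.subgroupOf P1), rfl⟩
  have hψi : Function.Injective ψ := by
    rw [injective_iff_map_eq_one]
    intro a ha
    obtain ⟨x, rfl⟩ := QuotientGroup.mk_surjective a
    have h1 : φ x = 1 := ha
    rw [← MonoidHom.mem_ker, hker] at h1
    exact (QuotientGroup.eq_one_iff _).mpr h1
  let e : (P1 ⧸ N.subgroupOf P1) ≃* pCore p (G ⧸ N) := MulEquiv.ofBijective ψ ⟨hψi, hψs⟩
  have hfrat : ∀ a : P1 ⧸ N.subgroupOf P1, a ∈ frattini (P1 ⧸ N.subgroupOf P1) ↔ e a ∈ frattini (pCore p (G ⧸ N)) := by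
    intro a
    constructor
    · intro h
      exact frattini_le_comap_frattini_of_surjective (φ := e.toMonoidHom) e.surjective h
    · intro h
      have h1 := frattini_le_comap_frattini_of_surjective (φ := e.symm.toMonoidHom) e.symm.surjective h
      have h2 : e.symm (e a) ∈ frattini (P1 ⧸ N.subgroupOf P1) := h1
      rwa [e.symm_apply_apply] at h2
  have key : ∀ z : G, z ∈ ((frattini (P1 ⧸ N.subgroupOf P1)).comap (QuotientGroup.mk' (N.subgroupOf P1))).map P1.subtype ↔
      QuotientGroup.mk' N z ∈ (frattini (pCore p (G ⧸ N))).map (pCore p (G ⧸ N)).subtype := by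
    intro z
    constructor
    · rintro ⟨x, hx, rfl⟩
      have h1 := (hfrat _).mp hx
      exact ⟨_, h1, rfl⟩
    · rintro ⟨y, hy, hyz⟩
      have hz : z ∈ P1 := by
        rw [hmem, ← hyz]; exact y.2
      refine ⟨⟨z, hz⟩, ?_, rfl⟩
      apply (hfrat _).mpr
      have h1 : e (QuotientGroup.mk' (N.subgroupOf P1) ⟨z, hz⟩) = y := by
        apply Subtype.ext
        exact hyz.symm
      rw [h1]; exact hy
  constructor
  · intro h x hx
    obtain ⟨x, rfl⟩ := QuotientGroup.mk'_surjective N x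
    have h1 := (key _).mp (h x hx)
    rw [map_mul, map_mul, map_mul, map_inv, map_inv] at h1
    exact h1
  · intro h x hx
    apply (key _).mpr
    rw [map_mul, map_mul, map_mul, map_inv, map_inv]
    exact h _ hx

end Cfsg.Agent.S4218
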