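import Mathlib
import Cfsg.Statements.S4219

set_option autoImplicit false
open Cfsg

namespace Cfsg.Agent.S4219

theorem key {G : Type*} [Group G] [Finite G] {α : Type*} [Fintype α] [MulAction G α] {t : ℕ}
    (hG : MulAction.IsMultiplyPretransitive G α t) (x : Fin t ↪ α) {p : ℕ} [Fact p.Prime]
    (H : Subgroup G) (hH : H = MulAction.stabilizer G x)
    (P : Sylow p H) (c : Fin t ↪ α)
    (hc : ∀ i, c i ∈ MulAction.fixedPoints ((P : Subgroup H).map H.subtype) α) :
    ∃ n ∈ Subgroup.normalizer (((P : Subgroup H).map H.subtype : Subgroup G) : Set G), n • c = x := by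
  obtain ⟨Q, hQ⟩ : ∃ Q : Subgroup G, Q = (P : Subgroup H).map H.subtype := ⟨_, rfl⟩
  rw [← hQ] at hc ⊢
  obtain ⟨g, hg⟩ := hG.exists_smul_eq c x
  -- `g Q g⁻¹ ≤ H`
  have hle : Q.map (MulAut.conj g).toMonoidHom ≤ H := by
    rintro _ ⟨y, hy, rfl⟩
    rw [hH, MulAction.mem_stabilizer_iff]
    have h1 : y • c = c := by
      ext i
      have := hc i ⟨y, hy⟩
      exact this
    show (g * y * g⁻¹) • x = x
    rw [← hg, mul_smul, mul_smul, inv_smul_smul, h1]
  have hcard : Nat.card ((Q.map (MulAut.conj g).toMonoidHom).subgroupOf H) = Nat.card P := by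
    rw [Nat.card_congr (Subgroup.subgroupOfEquivOfLe hle).toEquiv,
      Subgroup.card_map_of_injective (MulAut.conj g).injective, hQ,
      Subgroup.card_map_of_injective H.subtype_injective]
  have hp' : IsPGroup p ((Q.map (MulAut.conj g).toMonoidHom).subgroupOf H) := by
    obtain ⟨n, hn⟩ := P.isPGroup'.exists_card_eq
    exact IsPGroup.of_card (hcard.trans hn)
  obtain ⟨R, hR⟩ := hp'.exists_le_sylow
  have hR' : (Q.map (MulAut.conj g).toMonoidHom).subgroupOf H = (R : Subgroup H) := by
    refine Subgroup.eq_of_le_of_card_ge hR ?_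
    rw [hcard]
    exact (Sylow.card_eq_multiplicity R).trans (Sylow.card_eq_multiplicity P).symm |>.le
  obtain ⟨h, hh⟩ := MulAction.exists_smul_eq H R P
  refine ⟨h * g, ?_, ?_⟩
  · rw [Subgroup.mem_normalizer_iff]
    have hincl : ∀ y ∈ Q, ((h : G) * g) * y * ((h : G) * g)⁻¹ ∈ Q := by
      intro y hy
      have h1 : g * y * g⁻¹ ∈ H := hle ⟨y, hy, rfl⟩
      have h2 : (⟨g * y * g⁻¹, h1⟩ : H) ∈ (R : Subgroup H) := by
        rw [← hR', Subgroup.mem_subgroupOf]
        exact ⟨y, hy, rfl⟩
      have h3 : h * (⟨g * y * g⁻¹, h1⟩ : H) * h⁻¹ ∈ (P : Subgroup H) := by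
        rw [← hh]
        rw [Sylow.coe_subgroup_smul, Subgroup.mem_pointwise_smul_iff_inv_smul_mem]
        simpa [MulAut.smul_def, mul_assoc] using h2
      rw [hQ]
      refine ⟨_, h3, ?_⟩
      simp [mul_assoc]
    have hfin : ∀ y, ((h : G) * g) * y * ((h : G) * g)⁻¹ ∈ Q → y ∈ Q := by
      intro y hy
      have heq : Q.map (MulAut.conj ((h : G) * g)).toMonoidHom = Q := by
        refine Subgroup.eq_of_le_of_card_ge ?_ ?_
        · rintro _ ⟨z, hz, rfl⟩
          exact hincl z hz
        · rw [Subgroup.card_map_of_injective (MulAut.conj ((h : G) * g)).injective]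
      rw [← heq] at hy
      obtain ⟨z, hz, hzy⟩ := hy
      have : z = y := (MulAut.conj ((h : G) * g)).injective hzy
      rwa [← this]
    intro y
    exact ⟨hincl y, hfin y⟩
  · rw [mul_smul, hg]
    have h5 : ∀ y ∈ H, y • x = x := by
      intro y hy
      rw [hH, MulAction.mem_stabilizer_iff] at hy
      exact hy
    exact h5 h.1 h.2


/-- Let a finite group `G` act `t`-fold transitively on a finite set, let `H` be the stabilizer of `t` distinct points and `P` a Sylow `p`-subgroup of `H`. Then the normalizer of `P` in `G` is `t`-fold transitive on the fixed points of `P`: any `t` distinct fixed points of `P` can be carried to any other `t` distinct fixed points of `P` by an element normalizing `P`. -/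
theorem result {G : Type*} [Group G] [Finite G] {α : Type*} [Fintype α] [MulAction G α] {t : ℕ} (hG : MulAction.IsMultiplyPretransitive G α t) (x : Fin t ↪ α) {p : ℕ} [Fact p.Prime] (P : Sylow p (MulAction.stabilizer G x)) (a b : Fin t ↪ α) (ha : ∀ i, a i ∈ MulAction.fixedPoints ((P : Subgroup (MulAction.stabilizer G x)).map (MulAction.stabilizer G x).subtype) α) (hb : ∀ i, b i ∈ MulAction.fixedPoints ((P : Subgroup (MulAction.stabilizer G x)).map (MulAction.stabilizer G x).subtype) α) : ∃ g ∈ Subgroup.normalizer ((((P : Subgroup (MulAction.stabilizer G x)).map (MulAction.stabilizer G x).subtype) : Subgroup G) : Set G), g • a = b := by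
  obtain ⟨n1, hn1, h1⟩ := key hG x _ rfl P a ha
  obtain ⟨n2, hn2, h2⟩ := key hG x _ rfl P b hb
  refine ⟨n2⁻¹ * n1, mul_mem (inv_mem hn2) hn1, ?_⟩
  rw [mul_smul, h1, inv_smul_eq_iff, h2]


end Cfsg.Agent.S4219
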