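import Cfsg.Statements.S4222

set_option autoImplicit false
open Cfsg

namespace Cfsg.Agent.S4222

/-- If a normal subgroup `N` of a finite group is complete (its centre is trivial and every automorphism of `N` is inner), then the group is the internal direct product of `N` and the centralizer of `N`: the centralizer is a complement to `N`. -/
theorem result {T : Type*} [Group T] [Finite T] (N : Subgroup T) [N.Normal] (hz : Subgroup.center ↥N = ⊥) (ha : Function.Surjective (MulAut.conj : ↥N →* MulAut ↥N)) : (Subgroup.centralizer (N : Set T)).IsComplement' N := by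
  refine Subgroup.isComplement'_of_disjoint_and_mul_eq_univ ?_ ?_
  · rw [disjoint_iff, eq_bot_iff]
    intro x hx
    rw [Subgroup.mem_inf] at hx
    have : (⟨x, hx.2⟩ : N) ∈ Subgroup.center N := by
      rw [Subgroup.mem_center_iff]
      intro g
      apply Subtype.ext
      exact hx.1 g.1 g.2
    rw [hz, Subgroup.mem_bot] at this
    rw [Subgroup.mem_bot]
    exact congrArg Subtype.val this
  · rw [Set.eq_univ_iff_forall]
    intro g
    obtain ⟨n, hn⟩ := ha (MulAut.conjNormal g)
    refine Set.mem_mul.mpr ⟨g * (n : T)⁻¹, ?_, n, n.2, by group⟩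
    rw [SetLike.mem_coe, Subgroup.mem_centralizer_iff]
    intro h hh
    -- (g n⁻¹) commutes with h
    have h1 := congrArg (fun φ : MulAut N => ((φ ((MulAut.conj n)⁻¹ ⟨h, hh⟩) : N) : T)) hn
    simp only [MulAut.conjNormal_apply] at h1
    have h2 : ((MulAut.conj n)⁻¹ ⟨h, hh⟩ : N) = n⁻¹ * ⟨h, hh⟩ * n := by
      rw [← map_inv, MulAut.conj_apply]; simp
    rw [h2] at h1
    simp only [MulAut.conj_apply, Subgroup.coe_mul, Subgroup.coe_inv, InvMemClass.coe_inv, MulMemClass.coe_mul] at h1
    have h3 : h = g * ((n : T)⁻¹ * h * n) * g⁻¹ := by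
      rw [← h1]; group
    calc h * (g * (n : T)⁻¹) = (g * ((n : T)⁻¹ * h * n) * g⁻¹) * (g * (n : T)⁻¹) := by rw [← h3]
      _ = g * (n : T)⁻¹ * h := by group


end Cfsg.Agent.S4222
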