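import Mathlib
import Cfsg.Statements.S4225
import Cfsg.Agent.Lib.H73.RegQ

set_option autoImplicit false
open Cfsg

namespace Cfsg.Agent.S4225

/-- In a regular `p`-group, for every `k` the elements whose `p^k`-th power is `1` form a characteristic subgroup. -/
theorem result {G : Type*} [Group G] [Finite G] {p : ℕ} [Fact p.Prime] (hG : Cfsg.IsRegularPGroup p G) (k : ℕ) : ∃ H : Subgroup G, H.Characteristic ∧ (H : Set G) = {x : G | x ^ p ^ k = 1} := by
  let H : Subgroup G := 
    { carrier := {x : G | x ^ p ^ k = 1}
      one_mem' := by simp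
      mul_mem' := by
        intro a b ha hb
        have ha' : a ^ p ^ k = 1 := ha
        have hb' : b ^ p ^ k = 1 := hb
        have h := (H73.RegQ.pow_eq_iff hG k a⁻¹ b).mp (by rw [inv_pow, ha', hb', inv_one])
        rw [inv_inv] at h
        exact h
      inv_mem' := by
        intro a ha
        have ha' : a ^ p ^ k = 1 := ha
        show a⁻¹ ^ p ^ k = 1
        rw [inv_pow, ha', inv_one] }
  refine ⟨H, ?_, rfl⟩
  rw [Subgroup.characteristic_iff_le_comap]
  intro φ x hx
  have hx' : x ^ p ^ k = 1 := hx
  show φ x ^ p ^ k = 1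
  rw [← map_pow, hx', map_one]


end Cfsg.Agent.S4225
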