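import Cfsg.Statements.S4227
import Cfsg.Agent.S3783
import Cfsg.Agent.S0635
import Cfsg.Agent.Lib.H61.MatGroup
import Cfsg.Agent.Lib.H66.PLen
import Cfsg.Agent.Lib.H37.QuadCore

set_option autoImplicit false
open Cfsg

namespace Cfsg.Agent.S4227

/-- A finite group in which every element has order dividing `6` has `2`-length at most `1` and `3`-length at most `1`. -/
theorem result {G : Type*} [Group G] [Finite G] (h : ∀ x : G, x ^ 6 = 1) : Cfsg.PLengthLE 2 1 G ∧ Cfsg.PLengthLE 3 1 G := by
  haveI : Fact (Nat.Prime 2) := ⟨Nat.prime_two⟩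
  haveI : Fact (Nat.Prime 3) := ⟨Nat.prime_three⟩
  have hsol : Group.IsSolvable G :=
    H61.MatGroup.isSolvable_of_pow 2 3 6 1 1 Nat.prime_two Nat.prime_three (by norm_num) h
  have hp : ∀ p : ℕ, ∀ [Fact p.Prime], IsPSolvable p G := by
    intro p _
    exact H37.QuadCore.isPSolvable_of_isSolvable p _ G hsol rfl
  -- p-elements have order dividing p
  have hexp : ∀ (p q : ℕ) [Fact p.Prime], p * q = 6 → Nat.Coprime p q → ∀ (P : Sylow p G), ∀ x ∈ (P : Subgroup G), x ^ p = 1 := by
    intro p q _ hpq hco P x hx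
    obtain ⟨k, hk⟩ := P.2 ⟨x, hx⟩
    have h1 : x ^ p ^ k = 1 := by exact congrArg Subtype.val hk
    have h2 : orderOf x ∣ p ^ k := orderOf_dvd_of_pow_eq_one h1
    have h3 : orderOf x ∣ p * q := by rw [hpq]; exact orderOf_dvd_of_pow_eq_one (h x)
    have h4 : Nat.Coprime (orderOf x) q := Nat.Coprime.coprime_dvd_left h2 (Nat.Coprime.pow_left k hco)
    exact orderOf_dvd_iff_pow_eq_one.1 (Nat.Coprime.dvd_of_dvd_mul_right h4 h3)
  have hab2 : ∀ S : Sylow 2 G, IsMulCommutative (S : Subgroup G) := by
    intro S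
    refine ⟨⟨fun a b => ?_⟩⟩
    have h2 : ∀ x : (S : Subgroup G), x * x = 1 := by
      intro x
      have := hexp 2 3 rfl (by norm_num) S x x.2
      apply Subtype.ext
      rw [pow_two] at this
      exact this
    have hinv : ∀ x : (S : Subgroup G), x⁻¹ = x := fun x => inv_eq_of_mul_eq_one_left (h2 x)
    calc a * b = (a * b)⁻¹ := (hinv _).symm
      _ = b⁻¹ * a⁻¹ := mul_inv_rev _ _
      _ = b * a := by rw [hinv, hinv]
  constructor
  · obtain ⟨S⟩ : Nonempty (Sylow 2 G) := inferInstance
    have h1 := Cfsg.Agent.S0635.result (hp 2) S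
    apply H66.PLen.pLengthLE_mono _ h1
    haveI := S.2.isNilpotent
    haveI := hab2 S
    rw [Group.IsNilpotent.nilpotencyClass_le_one_iff]
    infer_instance
  · apply Cfsg.Agent.S3783.result (hp 3)
    · intro q hq hq3 Q
      by_cases hq2 : q = 2
      · subst hq2; exact hab2 Q
      · have : (Q : Subgroup G) = ⊥ := by
          rw [Subgroup.eq_bot_iff_forall]
          intro x hx
          obtain ⟨k, hk⟩ := Q.2 ⟨x, hx⟩
          have h1 : x ^ q ^ k = 1 := by exact congrArg Subtype.val hk
          have h2 : orderOf x ∣ q ^ k := orderOf_dvd_of_pow_eq_one h1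
          have h3 : orderOf x ∣ 6 := orderOf_dvd_of_pow_eq_one (h x)
          have h4 : Nat.Coprime (q ^ k) 6 := by
            apply Nat.Coprime.pow_left
            have e : (6 : ℕ) = 2 * 3 := rfl
            rw [e]
            exact Nat.Coprime.mul_right ((Nat.coprime_primes hq.out Nat.prime_two).2 hq2)
              ((Nat.coprime_primes hq.out Nat.prime_three).2 hq3)
          have h5 : orderOf x ∣ 1 := by
            rw [← Nat.Coprime.gcd_eq_one h4]; exact Nat.dvd_gcd h2 h3
          rw [← orderOf_eq_one_iff]; exact Nat.dvd_one.1 h5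
        rw [this]
        exact ⟨⟨fun a b => Subsingleton.elim _ _⟩⟩
    · intro P x hx
      rw [pow_one]
      exact hexp 3 2 rfl (by norm_num) P x hx

end Cfsg.Agent.S4227
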