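import Cfsg.Statements.S4275

set_option autoImplicit false
open Cfsg

namespace Cfsg.Agent.S4275

open MulAction

/-- Let G be a transitive group of permutations of a finite set Ω, let o ∈ Ω, and let α be an automorphism of G. Then α is induced by conjugation by a permutation of Ω normalizing G if and only if the image under α of the stabilizer of o fixes some point of Ω. -/
theorem result {Ω : Type*} [Fintype Ω] (G : Subgroup (Equiv.Perm Ω)) (htr : MulAction.IsPretransitive G Ω) (o : Ω) (α : G ≃* G) : (∃ σ : Equiv.Perm Ω, σ ∈ Subgroup.normalizer (G : Set (Equiv.Perm Ω)) ∧ ∀ g : G, ((α g : G) : Equiv.Perm Ω) = σ * (g : Equiv.Perm Ω) * σ⁻¹) ↔ ∃ ω : Ω, ∀ g ∈ (MulAction.stabilizer G o).map α.toMonoidHom, g • ω = ω := by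
  classical
  constructor
  · rintro ⟨σ, -, hσ⟩
    refine ⟨σ o, ?_⟩
    rintro _ ⟨g, hg, rfl⟩
    have hg' : (g : Equiv.Perm Ω) o = o := hg
    show ((α g : G) : Equiv.Perm Ω) (σ o) = σ o
    have h1 : σ⁻¹ (σ o) = o := σ.symm_apply_apply o
    rw [hσ, Equiv.Perm.mul_apply, Equiv.Perm.mul_apply, h1, hg']
  · rintro ⟨ω, hω⟩
    have hω' : ∀ g : G, g • o = o → α g • ω = ω := by
      intro g hg
      exact hω (α g) ⟨g, hg, rfl⟩
    -- equality of stabilizers by counting
    have hcard : ∀ g : G, α g • ω = ω → g • o = o := by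
      have h1 : (stabilizer G o).map α.toMonoidHom ≤ stabilizer G ω := by
        rintro _ ⟨g, hg, rfl⟩
        exact hω' g hg
      have h2 : (stabilizer G o).map α.toMonoidHom = stabilizer G ω := by
        apply Subgroup.eq_of_le_of_card_ge h1
        have e1 : Nat.card ((stabilizer G o).map α.toMonoidHom) = Nat.card (stabilizer G o) :=
          Subgroup.card_map_of_injective α.injective
        rw [e1]
        have e2 : (stabilizer G o).index = Nat.card Ω := index_stabilizer_of_transitive G o
        have e3 : (stabilizer G ω).index = Nat.card Ω := index_stabilizer_of_transitive G ω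
        have e4 := (stabilizer G o).card_mul_index
        have e5 := (stabilizer G ω).card_mul_index
        rw [e2] at e4
        rw [e3] at e5
        have : Nonempty Ω := ⟨o⟩
        have e6 : 0 < Nat.card Ω := Nat.card_pos
        apply le_of_eq
        apply Nat.eq_of_mul_eq_mul_right e6
        rw [e4, e5]
      intro g hg
      have h3 : α g ∈ (stabilizer G o).map α.toMonoidHom := by rw [h2]; exact hg
      obtain ⟨g', hg', e⟩ := h3
      have e' : α g' = α g := e
      rw [α.injective e'] at hg'
      exact hg'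
    -- define σ (g o) = α(g) ω
    choose t ht using fun a : Ω => exists_smul_eq G o a
    let f : Ω → Ω := fun a => α (t a) • ω
    have hf : ∀ g : G, f (g • o) = α g • ω := by
      intro g
      show α (t (g • o)) • ω = α g • ω
      have h1 : (g⁻¹ * t (g • o)) • o = o := by
        rw [mul_smul, ht, inv_smul_smul]
      have h2 := hω' _ h1
      rw [map_mul, map_inv, mul_smul, inv_smul_eq_iff] at h2
      exact h2
    have hinj : Function.Injective f := by
      intro a b hab
      have h1 : α (t a) • ω = α (t b) • ω := hab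
      have h2 : α ((t b)⁻¹ * t a) • ω = ω := by
        rw [map_mul, map_inv, mul_smul, h1, inv_smul_smul]
      have h3 := hcard _ h2
      rw [mul_smul, inv_smul_eq_iff, ht, ht] at h3
      exact h3
    let σ : Equiv.Perm Ω := Equiv.ofBijective f (Finite.injective_iff_bijective.mp hinj)
    have hσ : ∀ g : G, ((α g : G) : Equiv.Perm Ω) = σ * (g : Equiv.Perm Ω) * σ⁻¹ := by
      intro g
      rw [eq_mul_inv_iff_mul_eq]
      ext a
      rw [Equiv.Perm.mul_apply, Equiv.Perm.mul_apply]
      have h1 : (g : Equiv.Perm Ω) a = (g * t a) • o := by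
        rw [mul_smul, ht]; rfl
      rw [h1]
      show ((α g : G) : Equiv.Perm Ω) (f a) = f ((g * t a) • o)
      rw [hf, map_mul, mul_smul]
      rfl
    refine ⟨σ, ?_, hσ⟩
    rw [Subgroup.mem_normalizer_iff]
    intro g
    constructor
    · intro hg
      rw [← hσ ⟨g, hg⟩]
      exact (α ⟨g, hg⟩).2
    · intro hg
      have h1 := hσ (α.symm ⟨_, hg⟩)
      rw [MulEquiv.apply_symm_apply] at h1
      have h2 : g = ((α.symm ⟨_, hg⟩ : G) : Equiv.Perm Ω) := by
        have h3 : σ * g * σ⁻¹ = σ * ((α.symm ⟨_, hg⟩ : G) : Equiv.Perm Ω) * σ⁻¹ := h1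
        exact mul_left_cancel (mul_right_cancel h3)
      rw [h2]
      exact (α.symm ⟨_, hg⟩).2

end Cfsg.Agent.S4275
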