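import Cfsg.Statements.S4277
import Cfsg.Agent.Lib.H74.OddAut3
import Cfsg.Agent.S0675

set_option autoImplicit false
open Cfsg

namespace Cfsg.Agent.S4277

open Subgroup in
open scoped Pointwise in
theorem aux_solv {G : Type*} [Group G] [Finite G] {p : ℕ} (hp : p.Prime) {Ω : Type*} [Finite Ω]
    (φ : G →* Equiv.Perm Ω) (hφ : Function.Injective φ) (o : Ω)
    (P : Sylow p G) (hP : Nat.card P = p) (htr : ∀ w : Ω, ∃ x ∈ P, φ x o = w)
    (hodd : ∀ α : MulAut G, Odd (orderOf α) → ∃ σ : Equiv.Perm Ω, ∀ g, φ (α g) = σ * φ g * σ⁻¹) :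
    Group.IsSolvable (Cfsg.Out G) := by
  classical
  have hpf : Fact p.Prime := ⟨hp⟩
  let B : Subgroup (MulAut G) :=
    { carrier := {α | ∃ σ : Equiv.Perm Ω, ∀ g, φ (α g) = σ * φ g * σ⁻¹}
      one_mem' := ⟨1, fun g => by simp⟩
      mul_mem' := by
        rintro α β ⟨σ, hσ⟩ ⟨τ, hτ⟩
        refine ⟨σ * τ, fun g => ?_⟩
        rw [MulAut.mul_apply, hσ, hτ]; group
      inv_mem' := by
        rintro α ⟨σ, hσ⟩
        refine ⟨σ⁻¹, fun g => ?_⟩
        have := hσ (α⁻¹ g)
        rw [MulAut.apply_inv_self] at this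
        rw [this]; group }
  have hBmem : ∀ α, α ∈ B ↔ ∃ σ : Equiv.Perm Ω, ∀ g, φ (α g) = σ * φ g * σ⁻¹ := fun α => Iff.rfl
  have hIB : Inn G ≤ B := by
    rintro _ ⟨x, rfl⟩
    refine ⟨φ x, fun g => ?_⟩
    rw [MulAut.conj_apply, map_mul, map_mul, map_inv]
  have hPc : IsCyclic P := isCyclic_of_prime_card hP
  have hPcomm : ∀ x ∈ P, ∀ y ∈ P, x * y = y * x := by
    intro x hx y hy
    have hPc' : IsMulCommutative P := inferInstance
    exact congrArg Subtype.val (hPc'.1.comm ⟨x, hx⟩ ⟨y, hy⟩)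
  -- elements of `B` centralising `P` are inner
  have hinner : ∀ α ∈ B, (∀ x ∈ P, α x = x) → α ∈ Inn G := by
    rintro α ⟨σ, hσ⟩ hα
    obtain ⟨x, hx, hxo⟩ := htr (σ o)
    have h1 : ∀ y ∈ P, σ * φ y = φ y * σ := by
      intro y hy
      have h2 := hσ y
      rw [hα y hy, eq_mul_inv_iff_mul_eq] at h2
      exact h2.symm
    have h3 : σ = φ x := by
      ext w
      obtain ⟨y, hy, rfl⟩ := htr w
      have h4 : σ (φ y o) = φ y (σ o) := congrArg (fun f : Equiv.Perm Ω => f o) (h1 y hy)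
      rw [h4, ← hxo, ← Equiv.Perm.mul_apply, ← Equiv.Perm.mul_apply, ← map_mul, ← map_mul, hPcomm x hx y hy]
    refine ⟨x, ?_⟩
    ext g
    apply hφ
    rw [hσ, h3, MulAut.conj_apply, map_mul, map_mul, map_inv]
  -- Frattini
  have hfrat : ∀ α ∈ B, ∃ α0 ∈ B, (∀ x ∈ P, α0 x ∈ P) ∧ (QuotientGroup.mk α : Cfsg.Out G) = QuotientGroup.mk α0 := by
    intro α hα
    obtain ⟨x, hx⟩ := MulAction.exists_smul_eq G (α • P) P
    refine ⟨MulAut.conj x * α, B.mul_mem (hIB ⟨x, rfl⟩) hα, ?_, ?_⟩
    · intro y hy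
      have h1 : (MulAut.conj x * α) y ∈ x • (α • P) := by
        change (MulAut.conj x * α) y ∈ ((x • (α • P) : Sylow p G) : Subgroup G)
        have : ((x • (α • P) : Sylow p G) : Subgroup G) = MulAut.conj x • (α • (P : Subgroup G)) := rfl
        rw [this, ← mul_smul]
        exact Subgroup.smul_mem_pointwise_smul y _ _ hy
      rwa [hx] at h1
    · rw [eq_comm, QuotientGroup.eq]
      have h1 : (MulAut.conj x * α)⁻¹ * α = MulAut.conj (α⁻¹ x⁻¹) := by
        ext g
        rw [mul_inv_rev, MulAut.mul_apply, MulAut.mul_apply, MulAut.conj_apply, ← map_inv, MulAut.conj_apply]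
        simp
      rw [h1]
      exact ⟨_, rfl⟩
  have hgen : ∀ α0 β0 : MulAut G, (∀ x ∈ P, α0 x ∈ P) → (∀ x ∈ P, β0 x ∈ P) → ∀ x ∈ P, α0 (β0 x) = β0 (α0 x) := by
    intro α0 β0 hα hβ x hx
    obtain ⟨c, hc⟩ := hPc.exists_generator
    have hpow : ∀ y ∈ P, ∃ i : ℤ, y = (c : G) ^ i := by
      intro y hy
      obtain ⟨i, hi⟩ := Subgroup.mem_zpowers_iff.1 (hc ⟨y, hy⟩)
      exact ⟨i, (congrArg Subtype.val hi).symm⟩
    obtain ⟨i, hi⟩ := hpow _ (hα c c.2)
    obtain ⟨j, hj⟩ := hpow _ (hβ c c.2)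
    obtain ⟨k, rfl⟩ := hpow x hx
    rw [map_zpow, map_zpow, hj, map_zpow, hi, map_zpow, map_zpow, hi, map_zpow, hj, ← zpow_mul, ← zpow_mul, ← zpow_mul,
      ← zpow_mul]
    congr 1
    ring
  have hBcomm : ∀ α ∈ B, ∀ β ∈ B, (QuotientGroup.mk α : Cfsg.Out G) * QuotientGroup.mk β =
      QuotientGroup.mk β * QuotientGroup.mk α := by
    intro α hα β hβ
    obtain ⟨α0, hα0, h1, h2⟩ := hfrat α hα
    obtain ⟨β0, hβ0, h3, h4⟩ := hfrat β hβ
    rw [h2, h4, ← QuotientGroup.mk_mul, ← QuotientGroup.mk_mul, QuotientGroup.eq]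
    apply hinner
    · exact B.mul_mem (B.inv_mem (B.mul_mem hα0 hβ0)) (B.mul_mem hβ0 hα0)
    · intro x hx
      rw [MulAut.mul_apply, MulAut.mul_apply, ← hgen α0 β0 h1 h3 x hx]
      exact MulAut.inv_apply_self _ (α0 * β0) x
  set C := B.normalCore with hC
  have hIC : Inn G ≤ C := by
    rw [hC, Subgroup.normal_le_normalCore]
    exact hIB
  have hoddC : ∀ α : MulAut G, Odd (orderOf α) → α ∈ C := by
    intro α hα γ
    apply hodd
    rw [← MulAut.conj_apply, MulEquiv.orderOf_eq]
    exact hα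
  have hfin : Finite (MulAut G) := inferInstance
  have hCbar : Group.IsSolvable (C.map (QuotientGroup.mk' (Inn G))) := by
    apply Group.isSolvable_of_comm
    rintro ⟨_, α, hα, rfl⟩ ⟨_, β, hβ, rfl⟩
    exact Subtype.ext (hBcomm α (B.normalCore_le hα) β (B.normalCore_le hβ))
  have hCn : (C.map (QuotientGroup.mk' (Inn G))).Normal := (inferInstance : C.Normal).map _ (QuotientGroup.mk'_surjective _)
  have h2 : IsPGroup 2 (Cfsg.Out G ⧸ C.map (QuotientGroup.mk' (Inn G))) := by
    intro z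
    obtain ⟨z, rfl⟩ := QuotientGroup.mk_surjective z
    obtain ⟨α, rfl⟩ := QuotientGroup.mk_surjective z
    obtain ⟨k, m, hm, hkm⟩ := Nat.exists_eq_two_pow_mul_odd (orderOf_pos α).ne'
    refine ⟨k, ?_⟩
    rw [← QuotientGroup.mk_pow, ← QuotientGroup.mk_pow, QuotientGroup.eq_one_iff]
    refine ⟨α ^ 2 ^ k, hoddC _ ?_, rfl⟩
    rw [orderOf_pow' α (pow_ne_zero k (by norm_num)), hkm, Nat.gcd_eq_right (dvd_mul_right _ _),
      Nat.mul_div_cancel_left _ (pow_pos (by norm_num) k)]
    exact hm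
  have : Fact (Nat.Prime 2) := ⟨Nat.prime_two⟩
  have h3 : Group.IsSolvable (Cfsg.Out G ⧸ C.map (QuotientGroup.mk' (Inn G))) := by
    have := h2.isNilpotent
    infer_instance
  exact (Group.isSolvable_iff_subgroup_quotient (C.map (QuotientGroup.mk' (Inn G)))).2 ⟨hCbar, h3⟩

/-- A case of the Schreier conjecture: if a finite simple group G has a subgroup of prime index, then the outer automorphism group of G is solvable. -/
theorem result {G : Type*} [Group G] [Finite G] [IsSimpleGroup G] (H : Subgroup G) (hH : H.index.Prime) : Group.IsSolvable (Cfsg.Out G) := by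
  classical
  by_cases hsol : Group.IsSolvable G
  · -- cyclic of prime order
    have hc : ∀ a b : G, a * b = b * a := IsSimpleGroup.comm_iff_isSolvable.2 hsol
    have hcyc : IsCyclic G := by
      let i : CommGroup G := { (inferInstance : Group G) with mul_comm := hc }
      exact IsSimpleGroup.isCyclic
    apply Group.isSolvable_of_comm
    intro a b
    obtain ⟨a, rfl⟩ := QuotientGroup.mk_surjective a
    obtain ⟨b, rfl⟩ := QuotientGroup.mk_surjective b
    rw [← QuotientGroup.mk_mul, ← QuotientGroup.mk_mul]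
    congr 1
    apply (IsCyclic.mulAutMulEquiv G).injective
    rw [map_mul, map_mul, mul_comm]
  obtain ⟨p, hp⟩ : ∃ p, p = H.index := ⟨_, rfl⟩
  have hpp : p.Prime := by rw [hp]; exact hH
  have hpf : Fact p.Prime := ⟨hpp⟩
  have := Fintype.ofFinite (G ⧸ H)
  set φ := MulAction.toPermHom G (G ⧸ H) with hφd
  have hφ : Function.Injective φ := by
    rw [← MonoidHom.ker_eq_bot_iff]
    have h1 : φ.ker = H.normalCore := (Subgroup.normalCore_eq_ker H).symm
    rcases IsSimpleGroup.eq_bot_or_eq_top_of_normal φ.ker inferInstance with h2 | h2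
    · exact h2
    · exfalso
      rw [h1] at h2
      have h3 : H = ⊤ := top_le_iff.1 (h2 ▸ H.normalCore_le)
      rw [h3, Subgroup.index_top] at hp
      exact hpp.one_lt.ne' hp
  have hcardΩ : Nat.card (G ⧸ H) = p := hp.symm
  have hcardG : Nat.card G ∣ p.factorial := by
    have h1 := Subgroup.card_dvd_of_injective φ hφ
    rwa [Nat.card_perm, hcardΩ] at h1
  have hpsq : ¬ p ^ 2 ∣ Nat.card G := by
    intro h
    have h1 := h.trans hcardG
    have h2 : p.factorial = p * (p - 1).factorial := (Nat.mul_factorial_pred hpp.ne_zero).symm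
    rw [h2, pow_two] at h1
    have h3 := Nat.dvd_of_mul_dvd_mul_left hpp.pos h1
    rw [hpp.dvd_factorial] at h3
    have := hpp.one_lt
    omega
  have hcardH : Nat.card H * p = Nat.card G := by rw [hp]; exact H.card_mul_index
  have hpH : ¬ p ∣ Nat.card H := by
    rintro ⟨c, hc⟩
    apply hpsq
    rw [← hcardH, hc]
    exact ⟨c, by ring⟩
  obtain ⟨P⟩ : Nonempty (Sylow p G) := inferInstance
  have hP : Nat.card P = p := by
    obtain ⟨k, hk⟩ := IsPGroup.iff_card.1 P.2
    have h1 : p ∣ Nat.card (P : Subgroup G) := P.dvd_card_of_dvd_card ⟨Nat.card H, by rw [← hcardH, mul_comm]⟩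
    have h2 : k ≠ 0 := by
      rintro rfl
      rw [hk, pow_zero] at h1
      exact hpp.one_lt.ne' (Nat.dvd_one.1 h1)
    have h3 : k < 2 := by
      by_contra h4
      apply hpsq
      have h5 : p ^ 2 ∣ Nat.card (P : Subgroup G) := by rw [hk]; exact pow_dvd_pow p (by omega)
      exact h5.trans (Subgroup.card_subgroup_dvd_card _)
    have h4 : k = 1 := by omega
    rw [h4, pow_one] at hk
    exact hk
  obtain ⟨o, ho⟩ : ∃ o : G ⧸ H, o = QuotientGroup.mk 1 := ⟨_, rfl⟩
  have htr : ∀ w : G ⧸ H, ∃ x ∈ P, φ x o = w := by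
    have h1 : (MulAction.orbit P o).ncard = p := by
      have h2 := MulAction.index_stabilizer P o
      have h3 := (MulAction.stabilizer P o).index_dvd_card
      rw [h2, hP] at h3
      rcases (Nat.dvd_prime hpp).1 h3 with h4 | h4
      · exfalso
        rw [Set.ncard_eq_one] at h4
        obtain ⟨w, hw⟩ := h4
        have h5 : (P : Subgroup G) ≤ H := by
          intro x hx
          have h6 : (⟨x, hx⟩ : P) • o ∈ MulAction.orbit P o := ⟨_, rfl⟩
          have h7 : o ∈ MulAction.orbit P o := MulAction.mem_orbit_self o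
          rw [hw] at h6 h7
          have h8 : (⟨x, hx⟩ : P) • o = o := by
            rw [Set.mem_singleton_iff] at h6 h7
            exact h6.trans h7.symm
          have h9 : x • (QuotientGroup.mk 1 : G ⧸ H) = QuotientGroup.mk 1 := by rw [← ho]; exact h8
          rw [MulAction.Quotient.smul_mk, smul_eq_mul, mul_one, eq_comm, QuotientGroup.eq, inv_one, one_mul] at h9
          exact h9
        apply hpH
        have h6 := Subgroup.card_dvd_of_le h5
        rwa [hP] at h6
      · exact h4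
    have h2 : MulAction.orbit P o = Set.univ := by
      apply Set.eq_of_subset_of_ncard_le (Set.subset_univ _) _ (Set.toFinite _)
      rw [h1, Set.ncard_univ, hcardΩ]
    intro w
    have h3 : w ∈ MulAction.orbit P o := by rw [h2]; trivial
    obtain ⟨x, hx⟩ := h3
    exact ⟨x, x.2, hx⟩
  apply aux_solv hpp φ hφ o P hP htr
  intro α hα
  -- two-transitive
  let E : G ≃* φ.range := MonoidHom.ofInjective hφ
  have hEφ : ∀ g, ((E g : φ.range) : Equiv.Perm (G ⧸ H)) = φ g := fun _ => rfl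
  have htr' : MulAction.IsPretransitive φ.range (G ⧸ H) := by
    constructor
    intro a b
    obtain ⟨g, hg⟩ := MulAction.exists_smul_eq G a b
    exact ⟨E g, hg⟩
  have h2 : MulAction.IsMultiplyPretransitive φ.range (G ⧸ H) 2 := by
    rcases Cfsg.Agent.S0675.result (by rw [← Nat.card_eq_fintype_card, hcardΩ]; exact hpp) φ.range with h3 | h3
    · exfalso
      apply hsol
      exact Group.isSolvable_of_surjective (f := E.symm.toMonoidHom) E.symm.surjective
    · exact h3
  have hidx : (MulAction.stabilizer φ.range o).index = p := by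
    rw [MulAction.index_stabilizer_of_transitive, hcardΩ]
  have hst : Nat.card (MulAction.stabilizer φ.range o) = Nat.card H := by
    have h3 := (MulAction.stabilizer φ.range o).card_mul_index
    rw [hidx, ← Nat.card_congr E.toEquiv, ← hcardH] at h3
    exact Nat.eq_of_mul_eq_mul_right hpp.pos h3
  obtain ⟨σ, -, hσ⟩ := H74.OddAut.main_hall h2 o (by
    rw [hidx, hst]
    exact (Nat.Coprime.symm ((Nat.Prime.coprime_iff_not_dvd hpp).2 hpH))) (MulAut.congr E α) (by
    rw [MulEquiv.orderOf_eq]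
    exact hα)
  refine ⟨σ, fun g => ?_⟩
  have h3 := hσ (E g)
  have h4 : MulAut.congr E α (E g) = E (α g) := by
    change E (α (E.symm (E g))) = E (α g)
    rw [E.symm_apply_apply]
  rw [h4, hEφ, hEφ] at h3
  exact h3

end Cfsg.Agent.S4277
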