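import Cfsg.Statements.S4278
import Cfsg.Agent.Lib.H42.InvCls
import Cfsg.Agent.Lib.H42.InvG2

set_option autoImplicit false
open Cfsg

namespace Cfsg.Agent.S4278

section
open H22.RGD H22.RCComb H42.InvOrb H42.InvFin H42.InvCls

theorem hsgn {F : Type*} [Field F] (R : H22.ChevRel.Rel Cfsg.Lie.chevG2 F) :
    Sgn R H22.PoinG2.rcxG2 (tv R 2) 1 :=
  sgn_tv R H22.PoinG2.rcxG2 H22.RCSmall.matG2 rfl H42.InvG2.vm_a

theorem horb : ∀ b ∈ H42.InvG2.orb_a, ∃ w ∈ (comb H22.PoinG2.rcxG2).W,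
    sg (coord H22.PoinG2.rcxG2) (fb Cfsg.Lie.chevG2.rank 1) w = b := by
  refine run_spec (coord H22.PoinG2.rcxG2) H42.InvG2.rmOk rfl (fb Cfsg.Lie.chevG2.rank 1)
    H42.InvG2.cert_a [1] ?_
  intro b' hb'
  rw [List.mem_singleton] at hb'
  subst hb'
  exact ⟨1, one_mem _, sg_one _ (by rw [show Cfsg.Lie.chevG2.rank = 2 from rfl]; norm_num)⟩

theorem hcov : ∀ b < 2 ^ 2, b ≠ 0 → b ∈ H42.InvG2.orb_a := by decide +kernel

theorem conj_std {F : Type*} [Field F] [Fintype F] (hF : Odd (Fintype.card F)) :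
    ∃ s₀ : ↥(Cfsg.Lie.chevG2.group F), ∀ u, orderOf u = 2 → IsConj u s₀ := by
  have R : H22.ChevRel.Rel Cfsg.Lie.chevG2 F := H22.ChevAll.rel Cfsg.Lie.chevG2 (by simp) F
  obtain ⟨E⟩ := H42.InvH.exists_SLH R (H23.ChevAll.core Cfsg.Lie.chevG2 (by simp))
    H22.PoinG2.rcxG2.rc
  have h2F := two_ne hF
  refine ⟨tvg R H22.PoinG2.rcxG2 2, fun u hu => ?_⟩
  obtain ⟨b, hb0, hb, t', ht', hs', g, hg, e⟩ :=
    exists_torus (X := H22.PoinG2.rcxG2) H22.ChevLex.lexG2 h2F H42.InvCK.ckG2 E u hu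
  exact conj_cls (X := H22.PoinG2.rcxG2) (tvg R H22.PoinG2.rcxG2 2) (tv_mem R 2) (hsgn R) u ht' hs' hg e
    (horb b (hcov b hb hb0))

end

/-- In the Chevalley group of type G₂ over a finite field of odd order, any two involutions are conjugate. -/
theorem result {F : Type*} [Field F] [Fintype F] (hF : Odd (Fintype.card F)) (s t : ↥(Cfsg.Lie.chevG2.group F)) (hs : orderOf s = 2) (ht : orderOf t = 2) : IsConj s t := by
  obtain ⟨s₀, h⟩ := conj_std hF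
  exact (h s hs).trans (h t ht).symm

end Cfsg.Agent.S4278
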