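import Cfsg.Statements.S4279
import Cfsg.Agent.Lib.H42.InvG2c

set_option autoImplicit false
open Cfsg

namespace Cfsg.Agent.S4279

/-- In the Chevalley group G of type G₂ over a finite field F of odd order q, the centralizer of an involution t has order q²(q² − 1)² and contains two elementwise commuting subgroups, each isomorphic to SL(2, F), which meet exactly in the subgroup generated by t and whose join has index 2 in the centralizer. -/
theorem result {F : Type*} [Field F] [Fintype F] (hF : Odd (Fintype.card F)) (t : ↥(Cfsg.Lie.chevG2.group F)) (ht : orderOf t = 2) : Nat.card (Subgroup.centralizer ({t} : Set ↥(Cfsg.Lie.chevG2.group F))) = Fintype.card F ^ 2 * (Fintype.card F ^ 2 - 1) ^ 2 ∧ ∃ L₁ L₂ : Subgroup ↥(Cfsg.Lie.chevG2.group F), Nonempty (L₁ ≃* Matrix.SpecialLinearGroup (Fin 2) F) ∧ Nonempty (L₂ ≃* Matrix.SpecialLinearGroup (Fin 2) F) ∧ (∀ x ∈ L₁, ∀ y ∈ L₂, x * y = y * x) ∧ L₁ ⊓ L₂ = Subgroup.zpowers t ∧ L₁ ⊔ L₂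 ≤ Subgroup.centralizer ({t} : Set ↥(Cfsg.Lie.chevG2.group F)) ∧ (L₁ ⊔ L₂).relIndex (Subgroup.centralizer ({t} : Set ↥(Cfsg.Lie.chevG2.group F))) = 2 := by
  have R : H22.ChevRel.Rel Cfsg.Lie.chevG2 F := H22.ChevAll.rel Cfsg.Lie.chevG2 (by simp) F
  have h2F := H42.InvCls.two_ne hF
  obtain ⟨c, hc⟩ := isConj_iff.1 (H42.InvG2c.conj_std R h2F t ht)
  obtain ⟨φ, ψ, hφ, hψ, hcomm, h1, h2, hm1, hm2⟩ := H42.InvG2c.exists_homs R h2F
  have hcard := H42.InvG2c.card_std R h2F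
  set s₀ := H42.InvCls.tvg R H22.PoinG2.rcxG2 2 with hs₀
  have hcard' : Nat.card (Subgroup.centralizer ({t} : Set ↥(Cfsg.Lie.chevG2.group F))) =
      Fintype.card F ^ 2 * (Fintype.card F ^ 2 - 1) ^ 2 := by
    rw [← hcard]
    refine Nat.card_congr ⟨fun x => ⟨c * x.1 * c⁻¹, ?_⟩, fun x => ⟨c⁻¹ * x.1 * c, ?_⟩, fun x => ?_, fun x => ?_⟩
    · have h1 := Subgroup.mem_centralizer_singleton_iff.1 x.2
      rw [Subgroup.mem_centralizer_singleton_iff, ← hc]
      calc c * x.1 * c⁻¹ * (c * t * c⁻¹) = c * (x.1 * t) * c⁻¹ := by group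
        _ = c * (t * x.1) * c⁻¹ := by rw [h1]
        _ = _ := by group
    · have h1 := Subgroup.mem_centralizer_singleton_iff.1 x.2
      rw [Subgroup.mem_centralizer_singleton_iff]
      have h2 : t = c⁻¹ * s₀ * c := by rw [← hc]; group
      rw [h2]
      calc c⁻¹ * x.1 * c * (c⁻¹ * s₀ * c) = c⁻¹ * (x.1 * s₀) * c := by group
        _ = c⁻¹ * (s₀ * x.1) * c := by rw [h1]
        _ = _ := by group
    · apply Subtype.ext; simp only; group
    · apply Subtype.ext; simp only; group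
  refine ⟨hcard', ?_⟩
  let φg : Matrix.SpecialLinearGroup (Fin 2) F →* ↥(Cfsg.Lie.chevG2.group F) := φ.codRestrict _ hm1
  let ψg : Matrix.SpecialLinearGroup (Fin 2) F →* ↥(Cfsg.Lie.chevG2.group F) := ψ.codRestrict _ hm2
  have ht1 : t ≠ 1 := by
    rintro rfl
    rw [orderOf_one] at ht
    norm_num at ht
  have hfin : Finite ↥(Cfsg.Lie.chevG2.group F) := inferInstance
  have hconj : c⁻¹ * s₀ * c = t := by rw [← hc]; group
  refine H42.InvG2c.abs ht1 ((MulAut.conj c⁻¹).toMonoidHom.comp φg) ((MulAut.conj c⁻¹).toMonoidHom.comp ψg)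
    ?_ ?_ ?_ ?_ ?_ hcard'
  · intro A B h
    apply hφ
    have h3 : φg A = φg B := (MulAut.conj c⁻¹).injective h
    exact congrArg Subtype.val h3
  · intro A B h
    apply hψ
    have h3 : ψg A = ψg B := (MulAut.conj c⁻¹).injective h
    exact congrArg Subtype.val h3
  · intro A B
    have h3 : Commute (φg A) (ψg B) := Subtype.ext (hcomm A B)
    exact h3.map (MulAut.conj c⁻¹).toMonoidHom
  · have h3 : φg H42.InvG2c.m1 = s₀ := Subtype.ext h1
    show c⁻¹ * φg H42.InvG2c.m1 * c⁻¹⁻¹ = t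
    rw [h3, inv_inv, hconj]
  · have h3 : ψg H42.InvG2c.m1 = s₀ := Subtype.ext h2
    show c⁻¹ * ψg H42.InvG2c.m1 * c⁻¹⁻¹ = t
    rw [h3, inv_inv, hconj]

end Cfsg.Agent.S4279
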