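import Cfsg.Statements.S4280
import Cfsg.Agent.Lib.H42.InvCls
import Cfsg.Agent.Lib.H42.InvF4

set_option autoImplicit false
open Cfsg

namespace Cfsg.Agent.S4280

section
open H22.RGD H22.RCComb H42.InvOrb H42.InvFin H42.InvCls H22.Poincare

theorem card_cent_conj {G : Type*} [Group G] {s t : G} (h : IsConj s t) :
    Nat.card (Subgroup.centralizer ({s} : Set G)) = Nat.card (Subgroup.centralizer ({t} : Set G)) := by
  obtain ⟨c, hc⟩ := isConj_iff.1 h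
  refine Nat.card_congr ⟨fun x => ⟨c * x.1 * c⁻¹, ?_⟩, fun x => ⟨c⁻¹ * x.1 * c, ?_⟩, fun x => ?_, fun x => ?_⟩
  · have h1 := Subgroup.mem_centralizer_singleton_iff.1 x.2
    rw [Subgroup.mem_centralizer_singleton_iff, ← hc]
    calc c * x.1 * c⁻¹ * (c * s * c⁻¹) = c * (x.1 * s) * c⁻¹ := by group
      _ = c * (s * x.1) * c⁻¹ := by rw [h1]
      _ = _ := by group
  · have h1 := Subgroup.mem_centralizer_singleton_iff.1 x.2
    rw [Subgroup.mem_centralizer_singleton_iff]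
    have h2 : s = c⁻¹ * t * c := by rw [← hc]; group
    rw [h2]
    calc c⁻¹ * x.1 * c * (c⁻¹ * t * c) = c⁻¹ * (x.1 * t) * c := by group
      _ = c⁻¹ * (t * x.1) * c := by rw [h1]
      _ = _ := by group
  · apply Subtype.ext; simp only; group
  · apply Subtype.ext; simp only; group

theorem cop {q k : ℕ} (hq : 1 < q) (hk : k ≠ 0) : Nat.Coprime q (q ^ k - 1) := by
  have h1 : Nat.Coprime (q ^ k) (q ^ k - 1) :=
    (Nat.coprime_self_sub_right (Nat.one_le_pow _ _ (by omega))).2 (Nat.coprime_one_right _)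
  exact Nat.Coprime.coprime_dvd_left (dvd_pow_self q hk) h1

theorem hsgn_a {F : Type*} [Field F] (R : H22.ChevRel.Rel Cfsg.Lie.chevF4 F) :
    Sgn R H22.PoinF4.rcxF4 (tv R 2) 1 :=
  sgn_tv R H22.PoinF4.rcxF4 H22.RCSmall.matF4 rfl H42.InvF4.vm_a

theorem hsgn_b {F : Type*} [Field F] (R : H22.ChevRel.Rel Cfsg.Lie.chevF4 F) :
    Sgn R H22.PoinF4.rcxF4 (tv R 5) 8 :=
  sgn_tv R H22.PoinF4.rcxF4 H22.RCSmall.matF4 rfl H42.InvF4.vm_b

theorem horb_a : ∀ b ∈ H42.InvF4.orb_a, ∃ w ∈ (comb H22.PoinF4.rcxF4).W,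
    sg (coord H22.PoinF4.rcxF4) (fb Cfsg.Lie.chevF4.rank 1) w = b := by
  refine run_spec (coord H22.PoinF4.rcxF4) H42.InvF4.rmOk rfl (fb Cfsg.Lie.chevF4.rank 1)
    H42.InvF4.cert_a [1] ?_
  intro b' hb'
  rw [List.mem_singleton] at hb'
  subst hb'
  exact ⟨1, one_mem _, sg_one _ (by rw [show Cfsg.Lie.chevF4.rank = 4 from rfl]; norm_num)⟩

theorem horb_b : ∀ b ∈ H42.InvF4.orb_b, ∃ w ∈ (comb H22.PoinF4.rcxF4).W,
    sg (coord H22.PoinF4.rcxF4) (fb Cfsg.Lie.chevF4.rank 8) w = b := by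
  refine run_spec (coord H22.PoinF4.rcxF4) H42.InvF4.rmOk rfl (fb Cfsg.Lie.chevF4.rank 8)
    H42.InvF4.cert_b [8] ?_
  intro b' hb'
  rw [List.mem_singleton] at hb'
  subst hb'
  exact ⟨1, one_mem _, sg_one _ (by rw [show Cfsg.Lie.chevF4.rank = 4 from rfl]; norm_num)⟩

theorem hcov : ∀ b < 2 ^ 4, b ≠ 0 → b ∈ H42.InvF4.orb_a ∨ b ∈ H42.InvF4.orb_b := by decide +kernel

theorem hcard_a : P (comb H22.PoinF4.rcxF4) 4 1 =
    H42.InvF4.orb_a.length * P H42.InvF4.sub_a.comb 4 1 := by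
  rw [H22.PoinF4.poincare, H42.InvF4.poin_a, H42.InvF4.orb_len_a]
  decide

theorem hcard_b : P (comb H22.PoinF4.rcxF4) 4 1 =
    H42.InvF4.orb_b.length * P H42.InvF4.sub_b.comb 4 1 := by
  rw [H22.PoinF4.poincare, H42.InvF4.poin_b, H42.InvF4.orb_len_b]
  decide

set_option maxRecDepth 10000 in
theorem hSt_a : H42.InvF4.sub_a.WS = H42.InvF4.sub_a.St :=
  WS_eq_of (l := 4) (C := comb H22.PoinF4.rcxF4) H42.InvF4.sub_a H42.InvF4.orb_a H42.InvF4.orb_nodup_a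
    (by rw [H42.InvF4.orb_len_a]; norm_num) horb_a hcard_a

set_option maxRecDepth 10000 in
theorem hSt_b : H42.InvF4.sub_b.WS = H42.InvF4.sub_b.St :=
  WS_eq_of (l := 4) (C := comb H22.PoinF4.rcxF4) H42.InvF4.sub_b H42.InvF4.orb_b H42.InvF4.orb_nodup_b
    (by rw [H42.InvF4.orb_len_b]; norm_num) horb_b hcard_b

theorem poly_a {q : ℕ} (hq : 1 ≤ q) : (q - 1) ^ 4 * P H42.InvF4.sub_a.comb 4 q =
    (q ^ 2 - 1) * (q ^ 4 - 1) * (q ^ 6 - 1) * (q ^ 8 - 1) := by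
  rw [H42.InvF4.poin_a]
  apply Nat.cast_injective (R := ℤ)
  push_cast [H22.ChevOrder.cast_pow_sub hq, H22.ChevOrder.cast_sub_one hq, evalP]
  ring

theorem poly_b {q : ℕ} (hq : 1 ≤ q) : (q - 1) ^ 4 * P H42.InvF4.sub_b.comb 4 q =
    (q ^ 2 - 1) ^ 2 * (q ^ 4 - 1) * (q ^ 6 - 1) := by
  rw [H42.InvF4.poin_b]
  apply Nat.cast_injective (R := ℤ)
  push_cast [H22.ChevOrder.cast_pow_sub hq, H22.ChevOrder.cast_sub_one hq, evalP]
  ring

theorem main {F : Type*} [Field F] [Fintype F] (hF : Odd (Fintype.card F)) :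
    ∃ s t : ↥(Cfsg.Lie.chevF4.group F), orderOf s = 2 ∧ orderOf t = 2 ∧
      (∀ u : ↥(Cfsg.Lie.chevF4.group F), orderOf u = 2 → IsConj u s ∨ IsConj u t) ∧
      Nat.card (Subgroup.centralizer ({s} : Set ↥(Cfsg.Lie.chevF4.group F))) =
        Fintype.card F ^ 16 * ((Fintype.card F - 1) ^ 4 * P H42.InvF4.sub_a.comb 4 (Fintype.card F)) ∧
      Nat.card (Subgroup.centralizer ({t} : Set ↥(Cfsg.Lie.chevF4.group F))) =
        Fintype.card F ^ 10 * ((Fintype.card F - 1) ^ 4 * P H42.InvF4.sub_b.comb 4 (Fintype.card F)) := by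
  have R : H22.ChevRel.Rel Cfsg.Lie.chevF4 F := H22.ChevAll.rel Cfsg.Lie.chevF4 (by simp) F
  obtain ⟨E⟩ := H42.InvH.exists_SLH R (H23.ChevAll.core Cfsg.Lie.chevF4 (by simp))
    H22.PoinF4.rcxF4.rc
  have h2F := two_ne hF
  refine ⟨tvg R H22.PoinF4.rcxF4 2, tvg R H22.PoinF4.rcxF4 5,
    order_tvg h2F (hsgn_a R) (by norm_num) (by rw [show Cfsg.Lie.chevF4.rank = 4 from rfl]; norm_num),
    order_tvg h2F (hsgn_b R) (by norm_num) (by rw [show Cfsg.Lie.chevF4.rank = 4 from rfl]; norm_num),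
    fun u hu => ?_, ?_, ?_⟩
  · obtain ⟨b, hb0, hb, t', ht', hs', g, hg, e⟩ :=
      exists_torus (X := H22.PoinF4.rcxF4) H22.ChevLex.lexF4 h2F H42.InvCK.ckF4 E u hu
    rcases hcov b hb hb0 with h | h
    · exact Or.inl (conj_cls (X := H22.PoinF4.rcxF4) (tvg R H22.PoinF4.rcxF4 2) (tv_mem R 2) (hsgn_a R) u ht' hs' hg e
        (horb_a b h))
    · exact Or.inr (conj_cls (X := H22.PoinF4.rcxF4) (tvg R H22.PoinF4.rcxF4 5) (tv_mem R 5) (hsgn_b R) u ht' hs' hg e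
        (horb_b b h))
  · exact card_eq (X := H22.PoinF4.rcxF4) rfl H22.ChevLex.lexF4 h2F (H22.ChevTorusCard.kerF4 rfl)
      (T := H22.RCSmall.tabF4) (h := 24) (l' := 4) (b := 1) H42.InvF4.sub_a rfl rfl rfl
      H42.InvF4.npos_a hSt_a (hsgn_a R)
  · exact card_eq (X := H22.PoinF4.rcxF4) rfl H22.ChevLex.lexF4 h2F (H22.ChevTorusCard.kerF4 rfl)
      (T := H22.RCSmall.tabF4) (h := 24) (l' := 4) (b := 8) H42.InvF4.sub_b rfl rfl rfl
      H42.InvF4.npos_b hSt_b (hsgn_b R)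

end

/-- In the Chevalley group of type F₄ over a finite field of odd order q there are exactly two conjugacy classes of involutions; the centralizer of an involution in one class has order q¹⁶(q² − 1)(q⁴ − 1)(q⁶ − 1)(q⁸ − 1), and in the other class q¹⁰(q² − 1)²(q⁴ − 1)(q⁶ − 1). -/
theorem result {F : Type*} [Field F] [Fintype F] (hF : Odd (Fintype.card F)) : ∃ s t : ↥(Cfsg.Lie.chevF4.group F), orderOf s = 2 ∧ orderOf t = 2 ∧ ¬ IsConj s t ∧ (∀ u : ↥(Cfsg.Lie.chevF4.group F), orderOf u = 2 → IsConj u s ∨ IsConj u t) ∧ Nat.card (Subgroup.centralizer ({s} : Set ↥(Cfsg.Lie.chevF4.group F))) = Fintype.card F ^ 16 * (Fintype.card F ^ 2 - 1) * (Fintype.card F ^ 4 - 1) * (Fintype.card F ^ 6 - 1) * (Fintype.card F ^ 8 - 1) ∧ Nat.card (Subgroup.centralizer ({t} : Set ↥(Cfsg.Lie.chevF4.group F))) = Fintype.card F ^ 10 * (Fintype.card F ^ 2 - 1) ^ 2 * (Fintype.card F ^ 4 - 1) * (Fintype.card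 F ^ 6 - 1) := by
  obtain ⟨s, t, hs, ht, hcl, hcs, hct⟩ := main hF
  have hq : 1 < Fintype.card F := Fintype.one_lt_card
  rw [poly_a hq.le] at hcs
  rw [poly_b hq.le] at hct
  refine ⟨s, t, hs, ht, fun h => ?_, hcl, by rw [hcs]; ring, by rw [hct]; ring⟩
  have h1 := card_cent_conj h
  rw [hcs, hct] at h1
  set q := Fintype.card F with hqdef
  have h2 : q ^ 6 * ((q ^ 2 - 1) * (q ^ 4 - 1) * (q ^ 6 - 1) * (q ^ 8 - 1)) =
      (q ^ 2 - 1) ^ 2 * (q ^ 4 - 1) * (q ^ 6 - 1) := by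
    have h3 : 0 < q ^ 10 := by positivity
    apply Nat.eq_of_mul_eq_mul_left h3
    rw [← h1]; ring
  have h3 : Nat.Coprime q ((q ^ 2 - 1) ^ 2 * (q ^ 4 - 1) * (q ^ 6 - 1)) :=
    (((cop hq (by norm_num)).pow_right 2).mul_right (cop hq (by norm_num))).mul_right (cop hq (by norm_num))
  have h4 : q ∣ (q ^ 2 - 1) ^ 2 * (q ^ 4 - 1) * (q ^ 6 - 1) := by
    rw [← h2]
    exact Dvd.dvd.mul_right (dvd_pow_self q (by norm_num)) _
  have h5 : q = 1 := Nat.Coprime.eq_one_of_dvd h3 h4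
  omega

end Cfsg.Agent.S4280
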