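import Cfsg.Statements.S4281
import Cfsg.Agent.Lib.H42.InvCls
import Cfsg.Agent.Lib.H42.InvE8

set_option autoImplicit false
open scoped BigOperators
open Cfsg

namespace Cfsg.Agent.S4281

section
open H22.RGD H22.RCComb H42.InvOrb H42.InvFin H42.InvCls H22.Poincare

theorem card_cent_conj {G : Type*} [Group G] {s t : G} (h : IsConj s t) :
    Nat.card (Subgroup.centralizer ({s} : Set G)) = Nat.card (Subgroup.centralizer ({t} : Set G)) := by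
  obtain ⟨c, hc⟩ := isConj_iff.1 h
  refine Nat.card_congr ⟨fun x => ⟨c * x.1 * c⁻¹, ?_⟩, fun x => ⟨c⁻¹ * x.1 * c, ?_⟩, fun x => ?_, fun x => ?_⟩
  · have h1 := Subgroup.mem_centralizer_singleton_iff.1 x.2
    rw [Subgroup.mem_centralizer_singleton_iff, ← hc]
    calc c * x.1 * c⁻¹ * (c * s * c⁻¹) = c * (x.1 * s) * c⁻¹ := by group
      _ = c * (s * x.1) * c⁻¹ := by rw [h1]
      _ = _ := by group
  · have h1 := Subgroup.mem_centralizer_singleton_iff.1 x.2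
    rw [Subgroup.mem_centralizer_singleton_iff]
    have h2 : s = c⁻¹ * t * c := by rw [← hc]; group
    rw [h2]
    calc c⁻¹ * x.1 * c * (c⁻¹ * t * c) = c⁻¹ * (x.1 * t) * c := by group
      _ = c⁻¹ * (t * x.1) * c := by rw [h1]
      _ = _ := by group
  · apply Subtype.ext; simp only; group
  · apply Subtype.ext; simp only; group

theorem cop {q k : ℕ} (hq : 1 < q) (hk : k ≠ 0) : Nat.Coprime q (q ^ k - 1) := by
  have h1 : Nat.Coprime (q ^ k) (q ^ k - 1) :=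
    (Nat.coprime_self_sub_right (Nat.one_le_pow _ _ (by omega))).2 (Nat.coprime_one_right _)
  exact Nat.Coprime.coprime_dvd_left (dvd_pow_self q hk) h1

theorem hsgn_a {F : Type*} [Field F] (R : H22.ChevRel.Rel Cfsg.Lie.chevE8 F) :
    Sgn R H22.PoinE8.rcxE8 (tv R 6) 1 :=
  sgn_tv R H22.PoinE8.rcxE8 H22.RCE8.matE8 rfl H42.InvE8.vm_a

theorem hsgn_b {F : Type*} [Field F] (R : H22.ChevRel.Rel Cfsg.Lie.chevE8 F) :
    Sgn R H22.PoinE8.rcxE8 (tv R 82) 128 :=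
  sgn_tv R H22.PoinE8.rcxE8 H22.RCE8.matE8 rfl H42.InvE8.vm_b

theorem horb_a : ∀ b ∈ H42.InvE8.orb_a, ∃ w ∈ (comb H22.PoinE8.rcxE8).W,
    sg (coord H22.PoinE8.rcxE8) (fb Cfsg.Lie.chevE8.rank 1) w = b := by
  refine run_spec (coord H22.PoinE8.rcxE8) H42.InvE8.rmOk rfl (fb Cfsg.Lie.chevE8.rank 1)
    H42.InvE8.cert_a [1] ?_
  intro b' hb'
  rw [List.mem_singleton] at hb'
  subst hb'
  exact ⟨1, one_mem _, sg_one _ (by rw [show Cfsg.Lie.chevE8.rank = 8 from rfl]; norm_num)⟩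

theorem horb_b : ∀ b ∈ H42.InvE8.orb_b, ∃ w ∈ (comb H22.PoinE8.rcxE8).W,
    sg (coord H22.PoinE8.rcxE8) (fb Cfsg.Lie.chevE8.rank 128) w = b := by
  refine run_spec (coord H22.PoinE8.rcxE8) H42.InvE8.rmOk rfl (fb Cfsg.Lie.chevE8.rank 128)
    H42.InvE8.cert_b [128] ?_
  intro b' hb'
  rw [List.mem_singleton] at hb'
  subst hb'
  exact ⟨1, one_mem _, sg_one _ (by rw [show Cfsg.Lie.chevE8.rank = 8 from rfl]; norm_num)⟩

theorem hcov : ∀ b < 2 ^ 8, b ≠ 0 → b ∈ H42.InvE8.orb_a ∨ b ∈ H42.InvE8.orb_b := by decide +kernel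

theorem hcard_a : P (comb H22.PoinE8.rcxE8) 8 1 =
    H42.InvE8.orb_a.length * P H42.InvE8.sub_a.comb 8 1 := by
  rw [H22.PoinE8.poincare, H42.InvE8.poin_a, H42.InvE8.orb_len_a]
  decide

theorem hcard_b : P (comb H22.PoinE8.rcxE8) 8 1 =
    H42.InvE8.orb_b.length * P H42.InvE8.sub_b.comb 8 1 := by
  rw [H22.PoinE8.poincare, H42.InvE8.poin_b, H42.InvE8.orb_len_b]
  decide

set_option maxRecDepth 10000 in
theorem hSt_a : H42.InvE8.sub_a.WS = H42.InvE8.sub_a.St :=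
  WS_eq_of (l := 8) (C := comb H22.PoinE8.rcxE8) H42.InvE8.sub_a H42.InvE8.orb_a H42.InvE8.orb_nodup_a
    (by rw [H42.InvE8.orb_len_a]; norm_num) horb_a hcard_a

set_option maxRecDepth 10000 in
theorem hSt_b : H42.InvE8.sub_b.WS = H42.InvE8.sub_b.St :=
  WS_eq_of (l := 8) (C := comb H22.PoinE8.rcxE8) H42.InvE8.sub_b H42.InvE8.orb_b H42.InvE8.orb_nodup_b
    (by rw [H42.InvE8.orb_len_b]; norm_num) horb_b hcard_b

theorem chainD {a e0 e1 e2 e3 e4 e5 e6 e7 f2 f3 f4 f5 f6 f7 f8 f10 f12 f14 : ℤ}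
    (h0 : a * e0 = f2) (h1 : a * e1 = f3) (h2 : a * e2 = f4) (h3 : a * f3 * e3 = f4 * f6)
    (h4 : a * f4 * e4 = f5 * f8) (h5 : a * f5 * e5 = f6 * f10) (h6 : a * f6 * e6 = f7 * f12)
    (h7 : a * f7 * e7 = f8 * f14) :
    a ^ 8 * (e7 * e6 * e5 * e4 * e3 * e2 * e1 * e0) = f8 * (f2 * f4 * f6 * f8 * f10 * f12 * f14) := by
  have p2 : a ^ 2 * (e1 * e0) = f2 * f3 := by rw [← h0, ← h1]; ring
  have p3 : a ^ 3 * (e2 * e1 * e0) = f2 * f3 * f4 := by rw [← p2, ← h2]; ring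
  have p4 : a ^ 4 * (e3 * e2 * e1 * e0) = f2 * f4 * (f4 * f6) := by
    rw [← h3]; linear_combination (a * e3) * p3
  have p5 : a ^ 5 * (e4 * e3 * e2 * e1 * e0) = f2 * f4 * f6 * (f5 * f8) := by
    rw [← h4]; linear_combination (a * e4) * p4
  have p6 : a ^ 6 * (e5 * e4 * e3 * e2 * e1 * e0) = f2 * f4 * f6 * f8 * (f6 * f10) := by
    rw [← h5]; linear_combination (a * e5) * p5
  have p7 : a ^ 7 * (e6 * e5 * e4 * e3 * e2 * e1 * e0) = f2 * f4 * f6 * f8 * f10 * (f7 * f12) := by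
    rw [← h6]; linear_combination (a * e6) * p6
  linear_combination (a * e7) * p7 + f2 * f4 * f6 * f8 * f10 * f12 * h7

theorem poly_a {q : ℕ} (hq : 1 ≤ q) : (q - 1) ^ 8 * P H42.InvE8.sub_a.comb 8 q =
    (q ^ 8 - 1) * ((q ^ 2 - 1) * (q ^ 4 - 1) * (q ^ 6 - 1) * (q ^ 8 - 1) * (q ^ 10 - 1) *
      (q ^ 12 - 1) * (q ^ 14 - 1)) := by
  rw [H42.InvE8.poin_a]
  apply Nat.cast_injective (R := ℤ)
  simp only [Nat.cast_mul, Nat.cast_pow, H22.ChevOrder.cast_pow_sub hq, H22.ChevOrder.cast_sub_one hq]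
  refine chainD (f3 := (q : ℤ) ^ 3 - 1) (f5 := (q : ℤ) ^ 5 - 1) (f7 := (q : ℤ) ^ 7 - 1)
    ?_ ?_ ?_ ?_ ?_ ?_ ?_ ?_ <;> (push_cast [evalP]; ring)

theorem poly_b {q : ℕ} (hq : 1 ≤ q) : (q - 1) ^ 8 * P H42.InvE8.sub_b.comb 8 q =
    (q ^ 2 - 1) * ((q ^ 2 - 1) * (q ^ 6 - 1) * (q ^ 8 - 1) * (q ^ 10 - 1) *
      (q ^ 12 - 1) * (q ^ 14 - 1) * (q ^ 18 - 1)) := by
  rw [H42.InvE8.poin_b]
  apply Nat.cast_injective (R := ℤ)
  simp only [Nat.cast_mul, Nat.cast_pow, H22.ChevOrder.cast_pow_sub hq, H22.ChevOrder.cast_sub_one hq,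
    mul_assoc]
  have h := H22.ChevOrder.chain7 (H22.ChevOrder.chain6 (H22.ChevOrder.lv0 q) (H22.ChevOrder.lv0 q)
    (H22.ChevOrder.lv2 q) (H22.ChevOrder.lv3 q) (H22.ChevOrder.lv4 q) (H22.ChevOrder.lv5 q))
    (H22.ChevOrder.lv6 q)
  have h0 := H22.ChevOrder.lv0 q
  simp only [mul_assoc] at h
  rw [← h, ← h0]
  ring

theorem main {F : Type*} [Field F] [Fintype F] (hF : Odd (Fintype.card F)) :
    ∃ s t : ↥(Cfsg.Lie.chevE8.group F), orderOf s = 2 ∧ orderOf t = 2 ∧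
      (∀ u : ↥(Cfsg.Lie.chevE8.group F), orderOf u = 2 → IsConj u s ∨ IsConj u t) ∧
      Nat.card (Subgroup.centralizer ({s} : Set ↥(Cfsg.Lie.chevE8.group F))) =
        Fintype.card F ^ 56 * ((Fintype.card F - 1) ^ 8 * P H42.InvE8.sub_a.comb 8 (Fintype.card F)) ∧
      Nat.card (Subgroup.centralizer ({t} : Set ↥(Cfsg.Lie.chevE8.group F))) =
        Fintype.card F ^ 64 * ((Fintype.card F - 1) ^ 8 * P H42.InvE8.sub_b.comb 8 (Fintype.card F)) := by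
  have R : H22.ChevRel.Rel Cfsg.Lie.chevE8 F := H22.ChevAll.rel Cfsg.Lie.chevE8 (by simp) F
  obtain ⟨E⟩ := H42.InvH.exists_SLH R (H23.ChevAll.core Cfsg.Lie.chevE8 (by simp))
    H22.PoinE8.rcxE8.rc
  have h2F := two_ne hF
  refine ⟨tvg R H22.PoinE8.rcxE8 6, tvg R H22.PoinE8.rcxE8 82,
    order_tvg h2F (hsgn_a R) (by norm_num) (by rw [show Cfsg.Lie.chevE8.rank = 8 from rfl]; norm_num),
    order_tvg h2F (hsgn_b R) (by norm_num) (by rw [show Cfsg.Lie.chevE8.rank = 8 from rfl]; norm_num),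
    fun u hu => ?_, ?_, ?_⟩
  · obtain ⟨b, hb0, hb, t', ht', hs', g, hg, e⟩ :=
      exists_torus (X := H22.PoinE8.rcxE8) H22.ChevLex.lexE8 h2F H42.InvCK.ckE8 E u hu
    rcases hcov b hb hb0 with h | h
    · exact Or.inl (conj_cls (X := H22.PoinE8.rcxE8) (tvg R H22.PoinE8.rcxE8 6) (tv_mem R 6) (hsgn_a R) u ht' hs' hg e
        (horb_a b h))
    · exact Or.inr (conj_cls (X := H22.PoinE8.rcxE8) (tvg R H22.PoinE8.rcxE8 82) (tv_mem R 82) (hsgn_b R) u ht' hs' hg e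
        (horb_b b h))
  · exact card_eq (X := H22.PoinE8.rcxE8) rfl H22.ChevLex.lexE8 h2F (H22.ChevTorusCard.kerE8 rfl)
      (T := H22.RCE8.tabE8) (h := 120) (l' := 8) (b := 1) H42.InvE8.sub_a rfl rfl rfl
      H42.InvE8.npos_a hSt_a (hsgn_a R)
  · exact card_eq (X := H22.PoinE8.rcxE8) rfl H22.ChevLex.lexE8 h2F (H22.ChevTorusCard.kerE8 rfl)
      (T := H22.RCE8.tabE8) (h := 120) (l' := 8) (b := 128) H42.InvE8.sub_b rfl rfl rfl
      H42.InvE8.npos_b hSt_b (hsgn_b R)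

end

/-- In the Chevalley group of type E₈ over a finite field of odd order q there are exactly two conjugacy classes of involutions; the centralizer of an involution in one class has order q⁵⁶(q⁸ − 1)·∏_{i=1}^{7}(q^{2i} − 1), and in the other class q⁶⁴(q² − 1)²(q⁶ − 1)(q⁸ − 1)(q¹⁰ − 1)(q¹² − 1)(q¹⁴ − 1)(q¹⁸ − 1). -/
theorem result {F : Type*} [Field F] [Fintype F] (hF : Odd (Fintype.card F)) : ∃ s t : ↥(Cfsg.Lie.chevE8.group F), orderOf s = 2 ∧ orderOf t = 2 ∧ ¬ IsConj s t ∧ (∀ u : ↥(Cfsg.Lie.chevE8.group F), orderOf u = 2 → IsConj u s ∨ IsConj u t) ∧ Nat.card (Subgroup.centralizer ({s} : Set ↥(Cfsg.Lie.chevE8.group F))) = Fintype.card F ^ 56 * (Fintype.card F ^ 8 - 1) * ∏ i ∈ Finset.Icc 1 7, (Fintype.card F ^ (2 * i) - 1) ∧ Nat.card (Subgroup.centralizer ({t} : Set ↥(Cfsg.Lie.chevE8.group F))) = Fintype.card F ^ 64 * (Fintype.card F ^ 2 - 1) ^ 2 * (Fintype.card F ^ 6 - 1) *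 (Fintype.card F ^ 8 - 1) * (Fintype.card F ^ 10 - 1) * (Fintype.card F ^ 12 - 1) * (Fintype.card F ^ 14 - 1) * (Fintype.card F ^ 18 - 1) := by
  obtain ⟨s, t, hs, ht, hcl, hcs, hct⟩ := main hF
  have hq : 1 < Fintype.card F := Fintype.one_lt_card
  rw [poly_a hq.le] at hcs
  rw [poly_b hq.le] at hct
  refine ⟨s, t, hs, ht, fun h => ?_, hcl, ?_, by rw [hct]; ring⟩
  · have h1 := card_cent_conj h
    rw [hcs, hct] at h1
    set q := Fintype.card F with hqdef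
    have h2 : q ^ 8 * ((q ^ 2 - 1) * ((q ^ 2 - 1) * (q ^ 6 - 1) * (q ^ 8 - 1) * (q ^ 10 - 1) *
        (q ^ 12 - 1) * (q ^ 14 - 1) * (q ^ 18 - 1))) =
        (q ^ 8 - 1) * ((q ^ 2 - 1) * (q ^ 4 - 1) * (q ^ 6 - 1) * (q ^ 8 - 1) * (q ^ 10 - 1) *
      (q ^ 12 - 1) * (q ^ 14 - 1)) := by
      have h3 : 0 < q ^ 56 := by positivity
      apply Nat.eq_of_mul_eq_mul_left h3
      rw [h1, ← mul_assoc, ← pow_add]
    have h3 : Nat.Coprime q ((q ^ 8 - 1) * ((q ^ 2 - 1) * (q ^ 4 - 1) * (q ^ 6 - 1) * (q ^ 8 - 1) * (q ^ 10 - 1) *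
        (q ^ 12 - 1) * (q ^ 14 - 1))) :=
      (cop hq (by norm_num)).mul_right (((((((cop hq (by norm_num)).mul_right (cop hq (by norm_num))).mul_right
        (cop hq (by norm_num))).mul_right (cop hq (by norm_num))).mul_right (cop hq (by norm_num))).mul_right
        (cop hq (by norm_num))).mul_right (cop hq (by norm_num)))
    have h4 : q ∣ (q ^ 8 - 1) * ((q ^ 2 - 1) * (q ^ 4 - 1) * (q ^ 6 - 1) * (q ^ 8 - 1) * (q ^ 10 - 1) *
        (q ^ 12 - 1) * (q ^ 14 - 1)) := by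
      rw [← h2]
      exact Dvd.dvd.mul_right (dvd_pow_self q (by norm_num)) _
    have h5 : q = 1 := Nat.Coprime.eq_one_of_dvd h3 h4
    omega
  · rw [hcs]
    rw [Finset.prod_Icc_succ_top (by norm_num), Finset.prod_Icc_succ_top (by norm_num),
      Finset.prod_Icc_succ_top (by norm_num), Finset.prod_Icc_succ_top (by norm_num),
      Finset.prod_Icc_succ_top (by norm_num), Finset.prod_Icc_succ_top (by norm_num), Finset.Icc_self,
      Finset.prod_singleton]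
    norm_num only [Nat.reduceMul, Nat.reduceAdd]
    ring

end Cfsg.Agent.S4281
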