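import Cfsg.Statements.S4282
import Cfsg.Agent.Lib.H1.CritDim

set_option autoImplicit false
open Cfsg

namespace Cfsg.Agent.S4282

/-- A critical case behind the Hall–Higman theorem. Let p ≠ q be primes and G a finite group generated by a normal q-subgroup Q and a cyclic p-subgroup generated by x, such that the centralizer of every non-identity element of that cyclic subgroup is its product with the centre of G. Let K be an algebraically closed field of characteristic p and ρ a faithful representation of G on a nonzero finite-dimensional K-space whose restriction to Q is irreducible. If s is the least exponent with (ρ(x) − 1)^s = 0, then |⟨x⟩| − 1 ≤ s ≤ |⟨x⟩|; and if s = |⟨x⟩| − 1 then |⟨x⟩| − 1 is a power of q and Q is non-abelian. -/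
theorem result {G : Type*} [Group G] [Finite G] (p q : ℕ) [Fact p.Prime] [Fact q.Prime] (hpq : p ≠ q) (Q : Subgroup G) [Q.Normal] (hQ : IsPGroup q Q) (x : G) (hx : IsPGroup p (Subgroup.zpowers x)) (hgen : Q ⊔ Subgroup.zpowers x = ⊤) (hC : ∀ y ∈ Subgroup.zpowers x, y ≠ 1 → Subgroup.centralizer ({y} : Set G) = Subgroup.zpowers x ⊔ Subgroup.center G) {K : Type*} [Field K] [IsAlgClosed K] [CharP K p] {V : Type*} [AddCommGroup V] [Module K V] [FiniteDimensional K V] [Nontrivial V] (ρ : Representation K G V) (hfaith : Function.Injective ρ) (hirr : ∀ W : Submodule K V, (∀ g ∈ Q, Submodule.map (ρ g) W ≤ W) → W = ⊥ ∨ W = ⊤) (s : ℕ) (hs : (ρ x - 1) ^ s = 0) (hmin : ∀ k < s, (ρ x - 1) ^ k ≠ 0) : Nat.card (Subgroup.zpowers x) - 1 ≤ s ∧ s ≤ Nat.card (Subgroup.zpowers x) ∧ (s = Nat.card (Subgroup.zpowers x) - 1 → (∃ b : ℕ, Nat.card (Subgroup.zpowers x) - 1 = q ^ b) ∧ ¬ IsMulCommutative Q) := by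
  classical
  obtain ⟨b, hb⟩ := IsPGroup.iff_card.1 hx
  rw [Nat.card_zpowers] at hb ⊢
  rw [hb]
  have hpp : p.Prime := Fact.out
  have hPpos : 0 < p ^ b := pow_pos hpp.pos b
  let ρ' : G →* Module.End K V := ρ
  have hxP : x ^ (p ^ b) = 1 := by rw [← hb]; exact pow_orderOf_eq_one x
  have hsP : (ρ' x - 1) ^ (p ^ b) = 0 := by
    rw [H1.Crit.sub_one_pow' p b, ← map_pow, hxP, map_one]
    exact sub_self (1 : Module.End K V)
  have hle : s ≤ p ^ b := by
    by_contra hcon
    push Not at hcon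
    exact hmin _ hcon hsP
  by_cases hsc : s = p ^ b
  · exact ⟨by omega, hle, fun h => by omega⟩
  have hlt : s ≤ p ^ b - 1 := by omega
  have hN : (ρ' x - 1) ^ (p ^ b - 1) = 0 := by
    obtain ⟨d, hd⟩ := Nat.exists_eq_add_of_le hlt
    rw [hd, pow_add]
    have : (ρ' x - 1) ^ s = 0 := hs
    rw [this, zero_mul]
  have hinjρ : Function.Injective ρ' := hfaith
  -- scalars of p-power order are trivial
  have hsc1 : ∀ r ∈ Subgroup.zpowers x, ∀ c : K, ρ' r = c • (1 : Module.End K V) → r = 1 := by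
    intro r hr c hc
    have h1 : r ^ (p ^ b) = 1 := by
      obtain ⟨k, rfl⟩ := hr
      show (x ^ k) ^ (p ^ b) = 1
      rw [← zpow_natCast, ← zpow_mul, mul_comm, zpow_mul, zpow_natCast, hxP, one_zpow]
    have h2 : (ρ' r - 1) ^ (p ^ b) = 0 := by
      rw [H1.Crit.sub_one_pow' p b, ← map_pow, h1, map_one]
      exact sub_self (1 : Module.End K V)
    have h3 : ρ' r - 1 = (c - 1) • (1 : Module.End K V) := by rw [hc, sub_smul, one_smul]
    rw [h3, smul_pow, one_pow] at h2
    have h4 : (c - 1) ^ (p ^ b) = 0 := by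
      rcases smul_eq_zero.1 h2 with h | h
      · exact h
      · exact absurd h one_ne_zero
    have h5 : c - 1 = 0 := pow_eq_zero_iff (by omega) |>.1 h4
    apply hinjρ
    rw [map_one, hc, sub_eq_zero.1 h5, one_smul]
  have hcard : (Nat.card Q : K) ≠ 0 := by
    obtain ⟨a, ha⟩ := IsPGroup.iff_card.1 hQ
    rw [ha, Nat.cast_pow]
    apply pow_ne_zero
    intro h
    rw [CharP.cast_eq_zero_iff K p] at h
    exact hpq ((Nat.prime_dvd_prime_iff_eq hpp Fact.out).1 h)
  have hirr' : ∀ W : Submodule K V, (∀ g : Q, ∀ w ∈ W, (ρ'.comp Q.subtype) g w ∈ W) → W = ⊥ ∨ W = ⊤ := by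
    intro W hW
    apply hirr
    rintro g hg _ ⟨w, hw, rfl⟩
    exact hW ⟨g, hg⟩ w hw
  have hSch : ∀ T : Module.End K V, (∀ g ∈ Q, ρ' g * T = T * ρ' g) → ∃ c : K, T = c • (1 : Module.End K V) := by
    intro T hT
    exact H30.EndRep.schur (ρ'.comp Q.subtype) hirr' T (fun g => hT g g.2)
  have hZ : ∀ c ∈ Subgroup.center G, ∃ a : K, ρ' c = a • (1 : Module.End K V) := by
    intro c hc
    apply hSch
    intro g _
    rw [← map_mul, ← map_mul, Subgroup.mem_center_iff.1 hc g]
  have hRC : Subgroup.zpowers x ⊓ Subgroup.center G = ⊥ := by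
    rw [eq_bot_iff]
    rintro r ⟨hr, hr'⟩
    obtain ⟨c, hc⟩ := hZ r hr'
    exact Subgroup.mem_bot.2 (hsc1 r hr c hc)
  have hQpow : ∀ g ∈ Q, ∃ a, g ^ (q ^ a) = 1 := by
    intro g hg
    obtain ⟨a, ha⟩ := hQ ⟨g, hg⟩
    exact ⟨a, congrArg Subtype.val ha⟩
  have hRpow : ∀ r ∈ Subgroup.zpowers x, r ^ (p ^ b) = 1 := by
    intro r hr
    obtain ⟨k, rfl⟩ := hr
    show (x ^ k) ^ (p ^ b) = 1
    rw [← zpow_natCast, ← zpow_mul, mul_comm, zpow_mul, zpow_natCast, hxP, one_zpow]
  have hcopow : ∀ (g : G) (a : ℕ), g ^ (q ^ a) = 1 → g ^ (p ^ b) = 1 → g = 1 := by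
    intro g a h1 h2
    have h3 : (q ^ a).Coprime (p ^ b) := Nat.Coprime.pow _ _ ((Nat.coprime_primes Fact.out hpp).2 (Ne.symm hpq))
    have h4 := Nat.dvd_gcd (orderOf_dvd_of_pow_eq_one h1) (orderOf_dvd_of_pow_eq_one h2)
    rw [h3.gcd_eq_one] at h4
    exact orderOf_eq_one_iff.1 (Nat.dvd_one.1 h4)
  have hfp : ∀ r ∈ Subgroup.zpowers x, r ≠ 1 → ∀ g ∈ Q, r * g * r⁻¹ * g⁻¹ ∈ Subgroup.center G → g ∈ Subgroup.center G := by
    intro r hr hr1 g hg hz
    set z := r * g * r⁻¹ * g⁻¹ with hzdef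
    have hzQ : z ∈ Q := Q.mul_mem (Subgroup.Normal.conj_mem inferInstance g hg r) (Q.inv_mem hg)
    have hzc : ∀ y, y * z = z * y := Subgroup.mem_center_iff.1 hz
    have h1 : ∀ n : ℕ, r ^ n * g = z ^ n * g * r ^ n := by
      intro n
      induction n with
      | zero => simp
      | succ n ih =>
        have h2 : r * g = z * g * r := by rw [hzdef]; group
        calc r ^ (n + 1) * g = r ^ n * (r * g) := by rw [pow_succ, mul_assoc]
          _ = r ^ n * (z * g * r) := by rw [h2]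
          _ = z * (r ^ n * g) * r := by
            rw [← mul_assoc, ← mul_assoc, hzc (r ^ n), mul_assoc z (r ^ n) g]
          _ = z * (z ^ n * g * r ^ n) * r := by rw [ih]
          _ = z ^ (n + 1) * g * r ^ (n + 1) := by rw [pow_succ' z, pow_succ r]; group
    have h3 := h1 (p ^ b)
    rw [hRpow r hr, one_mul, mul_one] at h3
    have h4 : z ^ (p ^ b) = 1 := mul_eq_right.1 h3.symm
    obtain ⟨a, ha⟩ := hQpow z hzQ
    have hz1 : z = 1 := hcopow z a ha h4
    have h5 : g ∈ Subgroup.centralizer ({r} : Set G) := by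
      rw [Subgroup.mem_centralizer_singleton_iff]
      have h6 := h1 1
      rw [hz1] at h6
      simp only [pow_one, one_mul] at h6
      exact h6.symm
    rw [hC r hr hr1] at h5
    rw [Subgroup.mem_sup_of_normal_right] at h5
    obtain ⟨r', hr', z', hz', hrz⟩ := h5
    obtain ⟨a', ha'⟩ := hQpow g hg
    have h7 : r' ^ (q ^ a') ∈ Subgroup.zpowers x ⊓ Subgroup.center G := by
      refine ⟨Subgroup.pow_mem _ hr' _, ?_⟩
      have h8 : (r' * z') ^ (q ^ a') = r' ^ (q ^ a') * z' ^ (q ^ a') := by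
        apply Commute.mul_pow
        exact Subgroup.mem_center_iff.1 hz' r'
      rw [hrz, ha'] at h8
      have h9 : r' ^ (q ^ a') = (z' ^ (q ^ a'))⁻¹ := eq_inv_of_mul_eq_one_left h8.symm
      rw [h9]
      exact Subgroup.inv_mem _ (Subgroup.pow_mem _ hz' _)
    rw [hRC, Subgroup.mem_bot] at h7
    have h8 : r' = 1 := hcopow r' a' h7 (hRpow r' hr')
    rw [← hrz, h8, one_mul]
    exact hz'
  have hQs : Group.IsSolvable Q := by
    haveI := hQ.isNilpotent
    infer_instance
  obtain ⟨h1, t, ht, ht1, ht2⟩ := H1.Crit.modular ρ' Q (Subgroup.center G) p b x hb hQs hcard hZ hRC hfp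
    (fun T hT _ => hSch T hT) hN
  have hst : s = t + 1 := by
    apply le_antisymm
    · by_contra hcon
      push Not at hcon
      exact hmin _ hcon ht2
    · by_contra hcon
      push Not at hcon
      apply ht1
      obtain ⟨d, hd⟩ := Nat.exists_eq_add_of_le (show s ≤ t by omega)
      rw [hd, pow_add]
      have : (ρ' x - 1) ^ s = 0 := hs
      rw [this, zero_mul]
  have hdim1 : Module.finrank K V ≠ 1 := by
    intro h
    obtain ⟨c, hc⟩ : ∃ c : K, ρ' x = c • (1 : Module.End K V) := by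
      obtain ⟨v, hv⟩ := exists_ne (0 : V)
      obtain ⟨c, hc⟩ := (finrank_eq_one_iff_of_nonzero' v hv).1 h (ρ' x v)
      refine ⟨c, LinearMap.ext fun w => ?_⟩
      obtain ⟨d, rfl⟩ := (finrank_eq_one_iff_of_nonzero' v hv).1 h w
      show ρ' x (d • v) = c • (d • v)
      rw [map_smul, ← hc, smul_comm]
    have h2 := hsc1 x (Subgroup.mem_zpowers x) c hc
    rw [h2, orderOf_one] at hb
    rw [← hb, Nat.sub_self, pow_zero] at hN
    exact one_ne_zero hN
  obtain ⟨h2, -⟩ := h1.resolve_left hdim1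
  refine ⟨by omega, hle, fun _ => ⟨?_, ?_⟩⟩
  · obtain ⟨a, ha⟩ := H1.CritDim.irr_dim_pow q (F := K) (Nat.card Q) Q hQ rfl V (ρ'.comp Q.subtype) hirr'
    exact ⟨a, by rw [← h2, ha]⟩
  · intro hcomm
    apply hdim1
    obtain ⟨v, hv⟩ := exists_ne (0 : V)
    rcases hirr' (Submodule.span K {v}) (by
      intro g w hw
      obtain ⟨c, hc⟩ := hSch (ρ' g) (by
        intro g' hg'
        rw [← map_mul, ← map_mul]
        congr 1
        have := hcomm.is_comm.comm (⟨g', hg'⟩ : Q) g
        exact congrArg Subtype.val this)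
      show ρ' g w ∈ _
      rw [hc]
      exact Submodule.smul_mem _ _ hw) with h | h
    · exact absurd (Submodule.span_singleton_eq_bot.1 h) hv
    · rw [← finrank_top, ← h, finrank_span_singleton hv]

end Cfsg.Agent.S4282
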