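import Cfsg.Statements.S4283
import Cfsg.Agent.Lib.H1.FrobConj

set_option autoImplicit false
open Cfsg

namespace Cfsg.Agent.S4283

open scoped Pointwise in
open Subgroup in
/-- Let G be a finite group with centre Z and let K, H be abelian subgroups of G containing Z such that G/Z is a Frobenius group with complement H/Z and kernel K/Z. Then the conjugacy class sizes of G are exactly 1, [G : K] and [G : H], and these two indices are coprime. (This is the converse half of the characterization of finite groups whose conjugacy class sizes are exactly 1, m and n with m and n coprime.) -/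
theorem result {G : Type*} [Group G] [Finite G] (K H : Subgroup G) (hZK : Subgroup.center G ≤ K) (hZH : Subgroup.center G ≤ H) (hK : IsMulCommutative K) (hH : IsMulCommutative H) (hFrob : Cfsg.IsFrobeniusComplement (H.map (QuotientGroup.mk' (Subgroup.center G)))) (hker : Cfsg.frobeniusKernel (H.map (QuotientGroup.mk' (Subgroup.center G))) = (K.map (QuotientGroup.mk' (Subgroup.center G)) : Set (G ⧸ Subgroup.center G))) : Set.range (fun x : G => (Subgroup.centralizer ({x} : Set G)).index) = ({1, K.index, H.index} : Set ℕ) ∧ K.index.Coprime H.index := by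
  obtain ⟨π, hπ⟩ : ∃ π, π = QuotientGroup.mk' (center G) := ⟨_, rfl⟩
  rw [← hπ] at hFrob hker
  have hπs : Function.Surjective π := by rw [hπ]; exact QuotientGroup.mk'_surjective _
  have hπk : π.ker = center G := by rw [hπ]; exact QuotientGroup.ker_mk' _
  have hTI : H1.Frob.IsTIself (H.map π) := hFrob.2.2
  have hfpf := H1.FrobConj.fpf_of_TI hTI hker.symm
  have hmem : ∀ L : Subgroup G, center G ≤ L → ∀ x, π x ∈ L.map π ↔ x ∈ L := by
    intro L hL x
    constructor
    · rintro ⟨y, hy, e⟩
      have : y⁻¹ * x ∈ center G := by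
        rw [← hπk, MonoidHom.mem_ker, map_mul, map_inv, e, inv_mul_cancel]
      have h2 := L.mul_mem hy (hL this)
      rwa [mul_inv_cancel_left] at h2
    · exact fun hx => mem_map_of_mem _ hx
  have hne1 : ∀ x, x ∉ center G → π x ≠ 1 := by
    intro x hx h
    exact hx (by rw [← hπk]; exact h)
  have hout : ∀ y : G ⧸ center G, y ∉ K.map π → ∃ g, g⁻¹ * y * g ∈ H.map π := by
    intro y hy
    have h1 : y ∉ Cfsg.frobeniusKernel (H.map π) := by rw [hker]; exact hy
    have h2 : ¬ (y = 1 ∨ ∀ g, y ∉ MulAut.conj g • (H.map π)) := h1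
    push Not at h2
    obtain ⟨-, g, hg⟩ := h2
    exact ⟨g, H1.SZ.mem_conj_smul.1 hg⟩
  -- centralizers in K
  have hcK : ∀ x ∈ K, x ∉ center G → centralizer ({x} : Set G) = K := by
    intro x hx hxZ
    apply le_antisymm
    · intro g hg
      rw [mem_centralizer_singleton_iff] at hg
      rw [← hmem K hZK]
      by_contra hgK
      obtain ⟨u, hu⟩ := hout _ hgK
      obtain ⟨u, rfl⟩ := hπs u
      have h1 : π (u⁻¹ * x * u) ∈ K.map π ⊓ centralizer {(π u)⁻¹ * π g * π u} := by
        refine mem_inf.2 ⟨?_, ?_⟩
        · have h2 : π x ∈ Cfsg.frobeniusKernel (H.map π) := by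
            rw [hker]; exact mem_map_of_mem _ hx
          have h3 := H1.Frob.conj_mem_frobeniusKernel h2 (π u)⁻¹
          rw [hker] at h3
          rw [map_mul, map_mul, map_inv]
          simpa using h3
        · rw [mem_centralizer_singleton_iff, ← map_inv, ← map_mul, ← map_mul, ← map_mul, ← map_mul]
          congr 1
          calc u⁻¹ * x * u * (u⁻¹ * g * u) = u⁻¹ * (x * g) * u := by group
            _ = u⁻¹ * (g * x) * u := by rw [hg]
            _ = _ := by group
      rw [hfpf _ hu ?_, mem_bot] at h1
      · apply hne1 x hxZ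
        have h2 : π x = π u * π (u⁻¹ * x * u) * (π u)⁻¹ := by
          rw [← map_mul, ← map_inv, ← map_mul]; congr 1; group
        rw [h2, h1]; group
      · intro h2
        have h3 : π g = 1 := by
          have : π g = π u * ((π u)⁻¹ * π g * π u) * (π u)⁻¹ := by group
          rw [this, h2]; group
        exact hgK (by rw [h3]; exact one_mem _)
    · intro g hg
      rw [mem_centralizer_singleton_iff]
      exact congrArg Subtype.val (hK.is_comm.comm (⟨g, hg⟩ : K) ⟨x, hx⟩)
  have hcH : ∀ x ∈ H, x ∉ center G → centralizer ({x} : Set G) = H := by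
    intro x hx hxZ
    apply le_antisymm
    · intro g hg
      rw [← hmem H hZH]
      apply hTI.centralizer_le (mem_map_of_mem π hx) (hne1 x hxZ)
      rw [mem_centralizer_singleton_iff] at hg ⊢
      rw [← map_mul, hg, map_mul]
    · intro g hg
      rw [mem_centralizer_singleton_iff]
      exact congrArg Subtype.val (hH.is_comm.comm (⟨g, hg⟩ : H) ⟨x, hx⟩)
  have hcO : ∀ x, x ∉ K → (centralizer ({x} : Set G)).index = H.index := by
    intro x hx
    obtain ⟨u, hu⟩ := hout (π x) (fun h => hx ((hmem K hZK x).1 h))
    obtain ⟨u, rfl⟩ := hπs u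
    rw [← map_inv, ← map_mul, ← map_mul, hmem H hZH] at hu
    have hxZ : u⁻¹ * x * u ∉ center G := by
      intro h
      apply hx
      apply hZK
      have h2 := (inferInstance : (center G).Normal).conj_mem _ h u
      have e : u * (u⁻¹ * x * u) * u⁻¹ = x := by group
      rwa [e] at h2
    rw [← hcH _ hu hxZ]
    have h3 : centralizer ({u⁻¹ * x * u} : Set G) = (centralizer ({x} : Set G)).map (MulAut.conj u⁻¹).toMonoidHom := by
      ext g
      rw [mem_centralizer_singleton_iff, mem_map]
      constructor
      · intro hg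
        refine ⟨u * g * u⁻¹, ?_, ?_⟩
        · rw [mem_centralizer_singleton_iff]
          calc u * g * u⁻¹ * x = u * (g * (u⁻¹ * x * u)) * u⁻¹ := by group
            _ = u * ((u⁻¹ * x * u) * g) * u⁻¹ := by rw [hg]
            _ = _ := by group
        · change u⁻¹ * (u * g * u⁻¹) * u⁻¹⁻¹ = g
          group
      · rintro ⟨y, hy, rfl⟩
        rw [mem_centralizer_singleton_iff] at hy
        change (u⁻¹ * y * u⁻¹⁻¹) * (u⁻¹ * x * u) = (u⁻¹ * x * u) * (u⁻¹ * y * u⁻¹⁻¹)
        calc (u⁻¹ * y * u⁻¹⁻¹) * (u⁻¹ * x * u) = u⁻¹ * (y * x) * u := by group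
          _ = u⁻¹ * (x * y) * u := by rw [hy]
          _ = _ := by group
    rw [h3]
    exact (Subgroup.index_map_equiv (centralizer ({x} : Set G)) (MulAut.conj u⁻¹)).symm
  have hcardK : Nat.card (K.map π) = (H.map π).index := H1.FrobConj.card_kernel hTI hker.symm
  have hiK : K.index = (K.map π).index := (index_map_eq _ hπs (by rw [hπk]; exact hZK)).symm
  have hiH : H.index = (H.map π).index := (index_map_eq _ hπs (by rw [hπk]; exact hZH)).symm
  constructor
  · ext n
    simp only [Set.mem_range, Set.mem_insert_iff, Set.mem_singleton_iff]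
    constructor
    · rintro ⟨x, rfl⟩
      by_cases hxZ : x ∈ center G
      · left
        rw [index_eq_one, eq_top_iff]
        intro g _
        rw [mem_centralizer_singleton_iff]
        exact mem_center_iff.1 hxZ g
      · by_cases hxK : x ∈ K
        · right; left; rw [hcK x hxK hxZ]
        · right; right; exact hcO x hxK
    · rintro (rfl | rfl | rfl)
      · refine ⟨1, ?_⟩
        rw [index_eq_one, eq_top_iff]
        intro g _
        rw [mem_centralizer_singleton_iff]
        group
      · obtain ⟨x, hx, hxZ⟩ : ∃ x ∈ K, x ∉ center G := by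
          by_contra hcon
          push Not at hcon
          have h1 : K.map π = ⊥ := by
            rw [Subgroup.map_eq_bot_iff, hπk]; exact hcon
          rw [h1, card_bot] at hcardK
          exact hFrob.2.1 (index_eq_one.1 hcardK.symm)
        exact ⟨x, by rw [hcK x hx hxZ]⟩
      · obtain ⟨x, hx, hxZ⟩ : ∃ x ∈ H, x ∉ center G := by
          by_contra hcon
          push Not at hcon
          have h1 : H.map π = ⊥ := by
            rw [Subgroup.map_eq_bot_iff, hπk]; exact hcon
          exact hFrob.1 h1
        exact ⟨x, by rw [hcH x hx hxZ]⟩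
  · have h1 := H1.Frob.coprime_card_index hTI
    have h2 : (K.map π).index = Nat.card (H.map π) := by
      have h3 := (K.map π).card_mul_index
      rw [hcardK, ← (H.map π).card_mul_index, mul_comm] at h3
      exact Nat.eq_of_mul_eq_mul_right (Nat.pos_of_ne_zero index_ne_zero_of_finite) h3
    rw [hiK, hiH, h2]
    exact h1

end Cfsg.Agent.S4283
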