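import Cfsg.Statements.S4291
import Cfsg.Agent.Lib.H74.Six4

set_option autoImplicit false
open Cfsg

namespace Cfsg.Agent.S4291

open H74.FrobC H74.FC H74.Six

theorem exists_N {G : Type*} [Group G] [Finite G] (h : IsFC G) : ∃ N : Subgroup G, N.Normal ∧ IsZGroup N ∧
    (N = ⊤ ∨ (∃ f : G →* DihedralGroup 2, Function.Surjective f ∧ f.ker = N) ∨ Big N) := by
  have hp2 : Fact (Nat.Prime 2) := ⟨Nat.prime_two⟩
  let P : Sylow 2 G := default
  by_cases hP : IsCyclic P
  · have hz := zgroup_of_sylow h P hP
    exact ⟨⊤, inferInstance, inferInstance, Or.inl rfl⟩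
  by_cases hs : Group.IsSolvable G
  · obtain ⟨N, hN, hz, hc⟩ := exists_solvable h hs P hP
    exact ⟨N, hN, hz, Or.inr hc⟩
  · obtain ⟨e⟩ := H74.NonSolv3.closure_iso h hs
    have hn := H74.NonSolv3.closure_normal G 3
    obtain ⟨π, hk, hm⟩ := H74.NonSolv.exists_pi _ e
    refine ⟨π.ker, inferInstance, ?_, Or.inr (Or.inr (Or.inr (Or.inr ?_)))⟩
    · apply H74.NonSolv2.zgroup_of_no_four h
      intro y hy
      rw [hk] at hy
      exact H74.NonSolv.centralizer_order h _ e hy (by norm_num)
    · have hle : alternatingGroup (Fin 5) ≤ π.range := by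
        rw [← hm]; exact Subgroup.map_le_range _ _
      have hidx : π.range.index ∣ 2 := by
        have h1 : (alternatingGroup (Fin 5)).index = 2 := alternatingGroup.index_eq_two
        rw [← h1]
        exact Subgroup.index_dvd_of_le hle
      rcases (Nat.dvd_prime Nat.prime_two).mp hidx with hi | hi
      · right
        exact ⟨π, MonoidHom.range_eq_top.mp (Subgroup.index_eq_one.mp hi), rfl⟩
      · left
        have hA : π.range = alternatingGroup (Fin 5) := Equiv.Perm.eq_alternatingGroup_of_index_eq_two hi
        have hmem : ∀ g, π g ∈ alternatingGroup (Fin 5) := by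
          intro g
          rw [← hA]; exact ⟨g, rfl⟩
        refine ⟨π.codRestrict _ hmem, ?_, ?_⟩
        · rintro ⟨σ, hσ⟩
          rw [← hA] at hσ
          obtain ⟨g, hg⟩ := hσ
          exact ⟨g, Subtype.ext hg⟩
        · rw [MonoidHom.ker_codRestrict]

/-- Let G be a finite group that occurs as a Frobenius complement. Then G has exactly one normal subgroup N such that every Sylow subgroup of N is cyclic and the quotient of G by N is trivial or isomorphic to one of the following five groups: the Klein four-group, the alternating group of degree 4, the symmetric group of degree 4, the alternating group of degree 5, the symmetric group of degree 5. (The quotient is described by a surjective homomorphism with kernel N; the Klein four-group is written as the dihedral group of order 4.) -/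
theorem result {G : Type*} [Group G] [Finite G]
    (hFC : (∃ (L : Type) (_ : Group L) (_ : Finite L) (H : Subgroup L), Cfsg.IsFrobeniusComplement H ∧ Nonempty (G ≃* H))) :
    ∃! N : Subgroup G, N.Normal ∧ (∀ (p : ℕ) [Fact p.Prime] (P : Sylow p N), IsCyclic P) ∧
      (N = ⊤ ∨
        (∃ f : G →* DihedralGroup 2, Function.Surjective f ∧ f.ker = N) ∨
        (∃ f : G →* alternatingGroup (Fin 4), Function.Surjective f ∧ f.ker = N) ∨
        (∃ f : G →* Equiv.Perm (Fin 4), Function.Surjective f ∧ f.ker = N) ∨
        (∃ f : G →* alternatingGroup (Fin 5), Function.Surjective f ∧ f.ker = N) ∨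
        (∃ f : G →* Equiv.Perm (Fin 5), Function.Surjective f ∧ f.ker = N)) := by
  obtain ⟨N, hn, hz, hc⟩ := exists_N hFC
  refine ⟨N, ⟨hn, fun p hp P => hz.isZGroup p hp.out P, hc⟩, ?_⟩
  rintro N' ⟨hn', hz', hc'⟩
  exact unique_of_conds hFC N' N hn' hn ⟨fun p hp P => @hz' p ⟨hp⟩ P⟩ hz hc' hc

end Cfsg.Agent.S4291
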