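import Cfsg.Statements.S4292
import Cfsg.Agent.Lib.H74.FC

set_option autoImplicit false
open Cfsg

namespace Cfsg.Agent.S4292

open H74.FrobC H74.FC

theorem coprime_of_prod {A B : Type*} [Group A] [Finite A] [Group B] [Finite B] (h : IsFC (A × B)) :
    (Nat.card A).Coprime (Nat.card B) := by
  by_contra hc
  obtain ⟨p, hp, hpA, hpB⟩ := Nat.Prime.not_coprime_iff_dvd.mp hc
  have : Fact p.Prime := ⟨hp⟩
  obtain ⟨a, ha⟩ := exists_prime_orderOf_dvd_card' (G := A) p hpA
  obtain ⟨b, hb⟩ := exists_prime_orderOf_dvd_card' (G := B) p hpB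
  have h1 : orderOf ((a, 1) : A × B) = p := by rw [Prod.orderOf_mk, orderOf_one, ha, Nat.lcm_one_right]
  have h2 : orderOf ((1, b) : A × B) = p := by rw [Prod.orderOf_mk, orderOf_one, hb, Nat.lcm_one_left]
  have h3 := mem_zpowers_of_comm h (x := ((a, 1) : A × B)) (y := ((1, b) : A × B)) (by simp) (by rw [h1, h2])
  obtain ⟨k, hk⟩ := Subgroup.mem_zpowers_iff.mp h3
  have h4 : (1 : A) = a := by
    have := congrArg Prod.fst hk
    simpa using this
  rw [← h4, orderOf_one] at ha
  exact hp.one_lt.ne ha

theorem prod {A B : Type*} [Group A] [Finite A] [Group B] [Finite B] (hA : IsFC A) (hB : IsFC B)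
    (hc : (Nat.card A).Coprime (Nat.card B)) : IsFC (A × B) := by
  obtain ⟨m, ρ, hm, hρ⟩ := exists_int_of_FC hA
  obtain ⟨n, τ, hn, hτ⟩ := exists_int_of_FC hB
  have hAn := hA.nontrivial
  obtain ⟨p, hp, hpr⟩ := Nat.exists_infinite_primes (Nat.card A + Nat.card B + 1)
  have : Fact p.Prime := ⟨hpr⟩
  have : NeZero m := ⟨hm.ne'⟩
  have : NeZero n := ⟨hn.ne'⟩
  have hfA : ∀ a : A, a ≠ 1 → ∀ v : Fin m → ZMod p, (H74.FpfRep.ex ρ (ZMod p) a).mulVec v = v → v = 0 := by
    intro a ha
    apply H74.FpfRep.ex_fpf ρ (ZMod p) hρ a ha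
    rw [Ne, ZMod.natCast_eq_zero_iff]
    intro hdvd
    have h1 := Nat.le_of_dvd Nat.card_pos (hdvd.trans (orderOf_dvd_natCard a))
    omega
  have hfB : ∀ b : B, b ≠ 1 → ∀ v : Fin n → ZMod p, (H74.FpfRep.ex τ (ZMod p) b).mulVec v = v → v = 0 := by
    intro b hb
    apply H74.FpfRep.ex_fpf τ (ZMod p) hτ b hb
    rw [Ne, ZMod.natCast_eq_zero_iff]
    intro hdvd
    have h1 := Nat.le_of_dvd Nat.card_pos (hdvd.trans (orderOf_dvd_natCard b))
    omega
  generalize H74.FpfRep.ex ρ (ZMod p) = r at hfA
  generalize H74.FpfRep.ex τ (ZMod p) = s at hfB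
  let V := Multiplicative (Matrix (Fin m) (Fin n) (ZMod p))
  have : Nontrivial V := by
    refine ⟨Multiplicative.ofAdd 0, Multiplicative.ofAdd (fun _ _ => 1), ?_⟩
    intro h
    exact zero_ne_one (α := ZMod p) (congrFun (congrFun (congrArg Multiplicative.toAdd h) ⟨0, hm⟩) ⟨0, hn⟩)
  have : Finite V := inferInstanceAs (Finite (Fin m → Fin n → ZMod p))
  let _ : MulDistribMulAction (A × B) V :=
    { smul := fun g X => Multiplicative.ofAdd (r g.1 * X.toAdd * (s g.2).transpose)
      one_smul := fun X => by
        change Multiplicative.ofAdd (r 1 * X.toAdd * (s 1).transpose) = X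
        rw [map_one, map_one, Matrix.transpose_one, Matrix.one_mul, Matrix.mul_one]; rfl
      mul_smul := fun g g' X => by
        change Multiplicative.ofAdd (r (g.1 * g'.1) * X.toAdd * (s (g.2 * g'.2)).transpose) =
          Multiplicative.ofAdd (r g.1 * (r g'.1 * X.toAdd * (s g'.2).transpose) * (s g.2).transpose)
        rw [map_mul, map_mul, Matrix.transpose_mul]
        congr 1
        simp only [Matrix.mul_assoc]
      smul_one := fun g => by
        change Multiplicative.ofAdd (r g.1 * (0 : Matrix (Fin m) (Fin n) (ZMod p)) * (s g.2).transpose) = 1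
        rw [Matrix.mul_zero, Matrix.zero_mul]; rfl
      smul_mul := fun g X Y => by
        change Multiplicative.ofAdd (r g.1 * (X.toAdd + Y.toAdd) * (s g.2).transpose) =
          Multiplicative.ofAdd (r g.1 * X.toAdd * (s g.2).transpose + r g.1 * Y.toAdd * (s g.2).transpose)
        rw [Matrix.mul_add, Matrix.add_mul] }
  have hsm : ∀ (g : A × B) (X : V), (g • X).toAdd = r g.1 * X.toAdd * (s g.2).transpose := fun _ _ => rfl
  -- the two types of elements
  have h1 : ∀ a : A, a ≠ 1 → ∀ X : V, ((a, 1) : A × B) • X = X → X = 1 := by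
    intro a ha X hX
    have h2 : r a * X.toAdd = X.toAdd := by
      have := congrArg Multiplicative.toAdd hX
      rw [hsm, map_one, Matrix.transpose_one, Matrix.mul_one] at this
      exact this
    have h3 : X.toAdd = 0 := by
      ext i j
      have h4 := hfA a ha (fun i => X.toAdd i j) (by
        ext i
        have := congrFun (congrFun h2 i) j
        rw [Matrix.mul_apply] at this
        exact this)
      exact congrFun h4 i
    exact h3
  have h2 : ∀ b : B, b ≠ 1 → ∀ X : V, ((1, b) : A × B) • X = X → X = 1 := by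
    intro b hb X hX
    have h2 : X.toAdd * (s b).transpose = X.toAdd := by
      have := congrArg Multiplicative.toAdd hX
      rw [hsm, map_one, Matrix.one_mul] at this
      exact this
    have h3 : X.toAdd = 0 := by
      ext i j
      have h4 := hfB b hb (fun j => X.toAdd i j) (by
        ext j
        have := congrFun (congrFun h2 i) j
        rw [Matrix.mul_apply] at this
        rw [Matrix.mulVec, dotProduct]
        rw [← this]
        apply Finset.sum_congr rfl
        intro k _
        rw [Matrix.transpose_apply, mul_comm])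
      exact congrFun h4 j
    exact h3
  have hpow : ∀ (g : A × B) (X : V), g • X = X → ∀ k : ℕ, g ^ k • X = X := by
    intro g X hX k
    induction k with
    | zero => rw [pow_zero, one_smul]
    | succ k ih => rw [pow_succ, mul_smul, hX, ih]
  apply FC_of_fpf (MulDistribMulAction.toMulAut (A × B) V)
  rintro ⟨a, b⟩ hg X hX
  have hX' : ((a, b) : A × B) • X = X := hX
  by_cases hb : b = 1
  · subst hb
    exact h1 a (fun h => hg (by rw [h]; rfl)) X hX'
  · have h3 := hpow _ X hX' (Nat.card A)
    have h4 : ((a, b) : A × B) ^ (Nat.card A) = (1, b ^ (Nat.card A)) := by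
      rw [Prod.pow_mk, pow_card_eq_one']
    rw [h4] at h3
    apply h2 _ _ X h3
    intro h5
    apply hb
    have h6 : orderOf b ∣ Nat.card A := orderOf_dvd_of_pow_eq_one h5
    have h7 : orderOf b ∣ Nat.card B := orderOf_dvd_natCard b
    have h8 := Nat.dvd_gcd h6 h7
    rw [hc, Nat.dvd_one] at h8
    exact orderOf_eq_one_iff.mp h8

/-- Let A and B be nontrivial finite groups. Then the direct product A × B occurs as a Frobenius complement if and only if A and B both occur as Frobenius complements and the orders of A and B are coprime. -/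
theorem result {A B : Type*} [Group A] [Finite A] [Nontrivial A] [Group B] [Finite B] [Nontrivial B] :
    (∃ (L : Type) (_ : Group L) (_ : Finite L) (H : Subgroup L), Cfsg.IsFrobeniusComplement H ∧ Nonempty ((A × B) ≃* H)) ↔
    ((∃ (L : Type) (_ : Group L) (_ : Finite L) (H : Subgroup L), Cfsg.IsFrobeniusComplement H ∧ Nonempty (A ≃* H)) ∧
     (∃ (L : Type) (_ : Group L) (_ : Finite L) (H : Subgroup L), Cfsg.IsFrobeniusComplement H ∧ Nonempty (B ≃* H)) ∧
     (Nat.card A).Coprime (Nat.card B)) := by
  constructor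
  · intro h
    have h' : IsFC (A × B) := h
    exact ⟨h'.of_injective (MonoidHom.inl A B) (fun x y h => congrArg Prod.fst h),
      h'.of_injective (MonoidHom.inr A B) (fun x y h => congrArg Prod.snd h), coprime_of_prod h'⟩
  · rintro ⟨h1, h2, h3⟩
    exact prod h1 h2 h3

end Cfsg.Agent.S4292
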