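import Cfsg.Statements.S4293
import Cfsg.Agent.Lib.H74.FrobC

set_option autoImplicit false
open Cfsg

namespace Cfsg.Agent.S4293

open H74.FrobC

theorem norm_zero {D : Type*} [DivisionRing D] (g : Dˣ) (hg : g ≠ 1) : ∑ i ∈ Finset.range (orderOf g), (g : D) ^ i = 0 := by
  have h1 : ((g : D) - 1) * ∑ i ∈ Finset.range (orderOf g), (g : D) ^ i = 0 := by
    rw [mul_geom_sum]
    have : (g : D) ^ (orderOf g) = 1 := by rw [← Units.val_pow_eq_pow_val, pow_orderOf_eq_one, Units.val_one]
    rw [this, sub_self]
  rcases mul_eq_zero.mp h1 with h2 | h2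
  · exact absurd (Units.ext (sub_eq_zero.mp h2)) hg
  · exact h2

theorem charZero {D : Type*} [DivisionRing D] [CharZero D] (H : Subgroup Dˣ) [Finite H] (hH : H ≠ ⊥) : IsFC H := by
  classical
  have hnt : Nontrivial H := (Subgroup.nontrivial_iff_ne_bot H).mpr hH
  let T : Set D := Set.range (fun h : H => ((h : Dˣ) : D))
  have hT : T.Finite := Set.finite_range _
  let S : Submodule ℤ D := Submodule.span ℤ T
  have hfin : Module.Finite ℤ S := Module.Finite.span_of_finite ℤ hT
  have htf : Module.IsTorsionFree ℤ D := inferInstance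
  have hfree : Module.Free ℤ S := inferInstance
  let m := Module.finrank ℤ S
  let b : Module.Basis (Fin m) ℤ S := Module.finBasis ℤ S
  have hmul : ∀ (h : H) (s : D), s ∈ S → ((h : Dˣ) : D) * s ∈ S := by
    intro h s hs
    induction hs using Submodule.span_induction with
    | mem x hx =>
      obtain ⟨k, rfl⟩ := hx
      exact Submodule.subset_span ⟨h * k, rfl⟩
    | zero => rw [mul_zero]; exact S.zero_mem
    | add x y _ _ h1 h2 => rw [mul_add]; exact S.add_mem h1 h2
    | smul c x _ h1 => rw [mul_smul_comm]; exact S.smul_mem c h1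
  let L : H → Module.End ℤ S := fun h => (LinearMap.mulLeft ℤ ((h : Dˣ) : D)).restrict (hmul h)
  have hL : ∀ h (s : S), ((L h s : S) : D) = ((h : Dˣ) : D) * s := fun _ _ => rfl
  let ρ₀ : H →* Module.End ℤ S :=
    { toFun := L
      map_one' := by
        ext s : 1
        apply Subtype.ext
        rw [hL]
        change (1 : D) * s = s
        rw [one_mul]
      map_mul' := by
        intro x y
        ext s : 1
        apply Subtype.ext
        rw [hL]
        change ((x : Dˣ) : D) * ((y : Dˣ) : D) * s = ((x : Dˣ) : D) * (((y : Dˣ) : D) * s)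
        rw [mul_assoc] }
  have hm : 0 < m := by
    have : Nontrivial S := by
      refine ⟨⟨⟨1, Submodule.subset_span ⟨1, rfl⟩⟩, 0, ?_⟩⟩
      intro h
      exact one_ne_zero (α := D) (congrArg Subtype.val h)
    exact Module.finrank_pos
  apply FC_of_int hm (((LinearMap.toMatrixAlgEquiv b : Module.End ℤ S ≃ₐ[ℤ] Matrix (Fin m) (Fin m) ℤ) :
    Module.End ℤ S →* Matrix (Fin m) (Fin m) ℤ).comp ρ₀)
  intro g hg
  have h1 : ∑ i ∈ Finset.range (orderOf g), (ρ₀ g) ^ i = 0 := by
    ext s : 1
    apply Subtype.ext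
    rw [LinearMap.sum_apply]
    have h2 : ∀ i : ℕ, ((((ρ₀ g) ^ i) s : S) : D) = ((g : Dˣ) : D) ^ i * s := by
      intro i
      rw [← map_pow]
      change (((g ^ i : H) : Dˣ) : D) * s = _
      rw [Subgroup.coe_pow, Units.val_pow_eq_pow_val]
    rw [AddSubmonoidClass.coe_finsetSum, Finset.sum_congr rfl (fun i _ => h2 i), ← Finset.sum_mul]
    have h3 := norm_zero (g : Dˣ) (fun h => hg (Subtype.ext h))
    rw [Subgroup.orderOf_coe] at h3
    rw [h3, zero_mul]; rfl
  have h2 := congrArg (LinearMap.toMatrixAlgEquiv b : Module.End ℤ S ≃ₐ[ℤ] Matrix (Fin m) (Fin m) ℤ) h1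
  rw [map_sum, map_zero] at h2
  rw [← h2]
  apply Finset.sum_congr rfl
  intro i _
  rw [map_pow]; rfl

theorem charP {D : Type*} [DivisionRing D] (p : ℕ) [Fact p.Prime] [CharP D p] (H : Subgroup Dˣ) [Finite H] (hH : H ≠ ⊥) : IsFC H := by
  classical
  have hnt : Nontrivial H := (Subgroup.nontrivial_iff_ne_bot H).mpr hH
  let T : Set D := Set.range (fun h : H => ((h : Dˣ) : D))
  have hT : T.Finite := Set.finite_range _
  let _ : Algebra (ZMod p) D := ZMod.algebra D p
  let S : Submodule (ZMod p) D := Submodule.span (ZMod p) T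
  have hfin : Module.Finite (ZMod p) S := Module.Finite.span_of_finite (ZMod p) hT
  have hfin' : Finite S := Module.finite_of_finite (ZMod p)
  have hmul : ∀ (h : H) (s : D), s ∈ S → ((h : Dˣ) : D) * s ∈ S := by
    intro h s hs
    induction hs using Submodule.span_induction with
    | mem x hx =>
      obtain ⟨k, rfl⟩ := hx
      exact Submodule.subset_span ⟨h * k, rfl⟩
    | zero => rw [mul_zero]; exact S.zero_mem
    | add x y _ _ h1 h2 => rw [mul_add]; exact S.add_mem h1 h2
    | smul c x _ h1 => rw [mul_smul_comm]; exact S.smul_mem c h1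
  let V := Multiplicative S
  have : Nontrivial V := by
    refine ⟨⟨Multiplicative.ofAdd ⟨1, Submodule.subset_span ⟨1, rfl⟩⟩, 1, ?_⟩⟩
    intro h
    exact one_ne_zero (α := D) (congrArg Subtype.val (congrArg Multiplicative.toAdd h))
  let _ : MulDistribMulAction H V :=
    { smul := fun h v => Multiplicative.ofAdd ⟨((h : Dˣ) : D) * (v.toAdd : S), hmul h _ v.toAdd.2⟩
      one_smul := fun v => congrArg Multiplicative.ofAdd (Subtype.ext (one_mul _))
      mul_smul := fun x y v => congrArg Multiplicative.ofAdd (Subtype.ext (mul_assoc _ _ _))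
      smul_one := fun h => congrArg Multiplicative.ofAdd (Subtype.ext (mul_zero _))
      smul_mul := fun h v w => congrArg Multiplicative.ofAdd (Subtype.ext (mul_add _ _ _)) }
  have hfV : Finite V := hfin'
  apply FC_of_fpf (MulDistribMulAction.toMulAut H V)
  intro g hg v hv
  have h1 : ((g : Dˣ) : D) * (v.toAdd : S) = (v.toAdd : S) :=
    congrArg Subtype.val (congrArg Multiplicative.toAdd hv)
  have h2 : ((v.toAdd : S) : D) = 0 := by
    by_contra hne
    apply hg
    apply Subtype.ext
    apply Units.ext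
    exact mul_right_cancel₀ hne (by rw [h1]; change _ = 1 * _; rw [one_mul])
  exact congrArg Multiplicative.ofAdd (Subtype.ext h2)

/-- A nontrivial finite subgroup of the multiplicative group of a division ring occurs as a Frobenius complement of some finite Frobenius group. -/
theorem result {D : Type*} [DivisionRing D] (H : Subgroup Dˣ) [Finite H] (hH : H ≠ ⊥) :
    ∃ (L : Type) (_ : Group L) (_ : Finite L) (C : Subgroup L), Cfsg.IsFrobeniusComplement C ∧ Nonempty (H ≃* C) := by
  obtain ⟨p, hp⟩ := CharP.exists D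
  rcases CharP.char_is_prime_or_zero D p with h | h
  · have : Fact p.Prime := ⟨h⟩
    exact charP p H hH
  · subst h
    have : CharZero D := CharP.charP_to_charZero D
    exact charZero H hH

end Cfsg.Agent.S4293
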