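import Cfsg.Statements.S4294
import Cfsg.Agent.Lib.H74.DivRing3

set_option autoImplicit false
open Cfsg

namespace Cfsg.Agent.S4294

/-- A finite non-solvable subgroup of the multiplicative group of a division ring is isomorphic to the binary icosahedral group SL(2,5). -/
theorem result {D : Type*} [DivisionRing D] (H : Subgroup Dˣ) [Finite H] (hH : ¬ Group.IsSolvable H) :
    Nonempty (H ≃* Matrix.SpecialLinearGroup (Fin 2) (ZMod 5)) := by
  classical
  rcases CharP.exists' D with h0 | ⟨p, hp, hc⟩
  · have hnt : Nontrivial H := by
      by_contra hcon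
      rw [not_nontrivial_iff_subsingleton] at hcon
      exact hH (Group.isSolvable_of_comm (fun a b => Subsingleton.elim _ _))
    have hFC := H74.DivRing.isFC H
    let L : Subgroup H := Subgroup.closure {x : H | orderOf x = 3}
    have hLn : L.Normal := H74.NonSolv3.closure_normal H 3
    obtain ⟨e⟩ := H74.NonSolv3.closure_iso hFC hH
    let ι : H →* D := (Units.coeHom D).comp H.subtype
    have hι : Function.Injective ι := fun a b hab => Subtype.ext (Units.ext hab)
    obtain ⟨M, hM1, hM2, hM3, hM4, hM5⟩ := H74.NonSolv2.main hFC L e
    have hMbot : M = ⊥ := by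
      by_contra hne
      have hcard : Nat.card M ≠ 1 := fun h => hne (Subgroup.card_eq_one.1 h)
      obtain ⟨p, hp, hpM⟩ := Nat.exists_prime_and_dvd hcard
      have : Fact p.Prime := ⟨hp⟩
      obtain ⟨m, hm⟩ := exists_prime_orderOf_dvd_card' p hpM
      have hp30 : ¬ p ∣ 30 := fun hd => hp.one_lt.ne' (Nat.eq_one_of_dvd_coprimes hM5 hpM hd)
      have h7 : 7 ≤ p := by
        by_contra hcon
        have hlt : p < 7 := by omega
        have h2 := hp.two_le
        interval_cases p
        · exact hp30 (by norm_num)
        · exact hp30 (by norm_num)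
        · revert hp; norm_num
        · exact hp30 (by norm_num)
        · revert hp; norm_num
      refine H74.DivRing2.no_cent ι hι L e (m := (m : H)) (hM3 m.2) hp h7 ?_ ?_
      · have := pow_orderOf_eq_one m
        rw [hm] at this
        exact congrArg Subtype.val this
      · intro h
        have h1 : m = 1 := Subtype.ext h
        rw [h1, orderOf_one] at hm
        exact hp.one_lt.ne hm
    have hC : Subgroup.centralizer (L : Set H) ≤ L := by
      rw [hMbot, sup_bot_eq] at hM1
      calc Subgroup.centralizer (L : Set H) ≤ L ⊔ Subgroup.centralizer (L : Set H) := le_sup_right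
        _ = L := hM1.symm
    by_cases hL : L = ⊤
    · exact ⟨(Subgroup.topEquiv.symm.trans (MulEquiv.subgroupCongr hL.symm)).trans e⟩
    · exact (H74.DivRing3.no_index_two ι hι L e hC hL).elim
  · exfalso
    apply hH
    exact Group.isSolvable_of_comm (fun a b => H74.DivRing.comm_of_charP p H a b)

end Cfsg.Agent.S4294
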