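import Cfsg.Statements.S4296
import Cfsg.Agent.Lib.H74.FC
import Cfsg.Agent.Lib.H74.QMod

set_option autoImplicit false
open Cfsg

namespace Cfsg.Agent.S4296

open H74.FrobC H74.FC H74.QMod

/-- a quaternion group of order eight inside a generalized quaternion group -/
theorem quat_elts (n : ℕ) (hn : n ≠ 0) : ∃ i j z : QuaternionGroup (2 ^ n), z ≠ 1 ∧ z * z = 1 ∧ i * i = z ∧ j * j = z ∧ i * j = z * (j * i) := by
  obtain ⟨k, rfl⟩ : ∃ k, n = k + 1 := ⟨n - 1, by omega⟩
  let m : ZMod (2 * 2 ^ (k + 1)) := ((2 ^ k : ℕ) : ZMod (2 * 2 ^ (k + 1)))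
  have h2 : m + m = ((2 ^ (k + 1) : ℕ) : ZMod (2 * 2 ^ (k + 1))) := by
    rw [← Nat.cast_add]; congr 1; ring
  have h4 : m + m + (m + m) = 0 := by
    rw [h2, ← Nat.cast_add, ZMod.natCast_eq_zero_iff]
    exact Dvd.intro 1 (by ring)
  refine ⟨QuaternionGroup.a m, QuaternionGroup.xa 0, QuaternionGroup.a (m + m), ?_, ?_, ?_, ?_, ?_⟩
  · intro h
    have h5 : m + m = 0 := by
      injection h
    rw [h2, ZMod.natCast_eq_zero_iff] at h5
    have := Nat.le_of_dvd (by positivity) h5
    have h6 : 0 < 2 ^ (k + 1) := by positivity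
    omega
  · rw [QuaternionGroup.a_mul_a, h4]; rfl
  · rw [QuaternionGroup.a_mul_a]
  · rw [QuaternionGroup.xa_mul_xa, h2]; simp
  · rw [QuaternionGroup.a_mul_xa, QuaternionGroup.xa_mul_a, QuaternionGroup.a_mul_xa]
    congr 1
    ring

theorem main {H N : Type*} [Group H] [Finite H] [Group N] [Finite N] [Nontrivial N] (φ : H →* MulAut N)
    (hφ : ∀ h : H, h ≠ 1 → ∀ n : N, φ h n = n → n = 1)
    (hZ : ∃ (p : ℕ) (_ : Fact p.Prime) (P : Sylow p H), ¬ IsCyclic P) :
    Odd (Nat.card N) ∧ IsSquare (Nat.card N) := by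
  obtain ⟨p, hp, P, hP⟩ := hZ
  have hnt : Nontrivial H := by
    by_contra h
    rw [not_nontrivial_iff_subsingleton] at h
    apply hP
    have : Subsingleton P := inferInstance
    infer_instance
  have hFC : IsFC H := FC_of_fpf φ hφ
  rcases pgroup hFC p P P.isPGroup' with hc | ⟨rfl, n, ⟨e⟩⟩
  · exact absurd hc hP
  have hn : n ≠ 0 := by
    rintro rfl
    apply hP
    have : IsCyclic (QuaternionGroup (2 ^ 0)) := by
      rw [pow_zero]
      exact QuaternionGroup.quaternionGroup_one_isCyclic
    exact isCyclic_of_surjective e.symm e.symm.surjective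
  obtain ⟨i', j', z', hz1, hzz, hii, hjj, hij⟩ := quat_elts n hn
  let g : QuaternionGroup (2 ^ n) →* H := (P : Subgroup H).subtype.comp e.symm.toMonoidHom
  have hg : Function.Injective g := (P : Subgroup H).subtype_injective.comp e.symm.injective
  let ψ : QuaternionGroup (2 ^ n) →* MulAut N := φ.comp g
  -- the involution inverts
  have hzne : g z' ≠ 1 := fun h => hz1 (hg (by rw [h, map_one]))
  have hinvol : Function.Involutive (ψ z') := by
    intro x
    change (ψ z' * ψ z') x = x
    rw [← map_mul, hzz, map_one]; rfl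
  have hfpf : MonoidHom.FixedPointFree (ψ z').toMonoidHom := fun x hx => hφ _ hzne x hx
  have hinv : ∀ x, ψ z' x = x⁻¹ := fun x => congrFun (MonoidHom.FixedPointFree.coe_eq_inv_of_involutive hfpf hinvol) x
  have hcomm : ∀ x y : N, x * y = y * x := MonoidHom.FixedPointFree.commute_all_of_involutive hfpf hinvol
  have hodd : Odd (Nat.card N) := MonoidHom.FixedPointFree.odd_card_of_involutive hfpf hinvol
  refine ⟨hodd, ?_⟩
  let _ : CommGroup N := { (inferInstance : Group N) with mul_comm := hcomm }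
  have hc : Nat.card (Additive N) = Nat.card N := Nat.card_congr Additive.toMul
  have hmul : ∀ a b x, ψ a (ψ b x) = ψ (a * b) x := by
    intro a b x
    rw [map_mul]; rfl
  rw [← hc]
  refine isSquare_card (Nat.card (Additive N)) (Additive N) rfl (by rw [hc]; exact hodd)
    (MonoidHom.toAdditive (ψ i').toMonoidHom) (MonoidHom.toAdditive (ψ j').toMonoidHom) ⟨?_, ?_, ?_⟩
  · intro x
    change Additive.ofMul (ψ i' (ψ i' x.toMul)) = - x
    rw [hmul, hii, hinv]; rfl
  · intro x
    change Additive.ofMul (ψ j' (ψ j' x.toMul)) = - x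
    rw [hmul, hjj, hinv]; rfl
  · intro x
    change Additive.ofMul (ψ i' (ψ j' x.toMul)) = - Additive.ofMul (ψ j' (ψ i' x.toMul))
    rw [hmul, hmul, hij, ← hmul z', hinv]; rfl

/-- Let H be a Frobenius complement in a finite group, and suppose some Sylow subgroup of H is not cyclic. Then the number of elements of the Frobenius kernel (the identity together with the elements lying in no conjugate of H) is an odd perfect square. -/
theorem result {L : Type*} [Group L] [Finite L] (H : Subgroup L) (hF : Cfsg.IsFrobeniusComplement H)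
    (hZ : ∃ (p : ℕ) (_ : Fact p.Prime) (P : Sylow p H), ¬ IsCyclic P) :
    Odd (Nat.card (Cfsg.frobeniusKernel H)) ∧ IsSquare (Nat.card (Cfsg.frobeniusKernel H)) := by
  obtain ⟨N, hN, hNn, hc⟩ := Cfsg.Agent.S0035.result H hF
  have hNbot : N ≠ ⊥ := by
    rintro rfl
    apply hF.2.1
    have := hc.symm
    rw [Subgroup.isComplement'_bot_right] at this
    exact this
  have hNnt : Nontrivial N := (Subgroup.nontrivial_iff_ne_bot N).mpr hNbot
  have h1 := (H1.Frob.isFrobeniusComplement_iff N H hc hNbot hF.1).mp hF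
  have hcard : Nat.card (Cfsg.frobeniusKernel H) = Nat.card N := by rw [← hN]; rfl
  rw [hcard]
  apply main (MulAut.conjNormal.comp H.subtype) _ hZ
  intro g hg k hk
  have h2 := h1 g g.2 (by
    intro h3
    apply hg
    exact Subtype.ext h3)
  have h3 : (k : L) ∈ N ⊓ Subgroup.centralizer {(g : L)} := by
    refine Subgroup.mem_inf.mpr ⟨k.2, ?_⟩
    rw [Subgroup.mem_centralizer_singleton_iff]
    have := congrArg Subtype.val hk
    simp only [MonoidHom.comp_apply, Subgroup.subtype_apply, MulAut.conjNormal_apply] at this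
    rw [mul_inv_eq_iff_eq_mul] at this
    exact this.symm
  rw [h2] at h3
  exact Subtype.ext h3

end Cfsg.Agent.S4296
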