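import Cfsg.Statements.S4295
import Cfsg.Agent.S4296
import Cfsg.Agent.Lib.H25.DQ

set_option autoImplicit false
open Cfsg

namespace Cfsg.Agent.S4295

open H74.FrobC H74.FC H74.QMod

/-- orders of abelian groups with a quaternion structure -/
def Real (m : ℕ) : Prop := ∃ (A : Type) (_ : AddCommGroup A) (_ : Finite A) (I J : A →+ A), Rel I J ∧ Nat.card A = m

theorem real_one : Real 1 := ⟨PUnit, inferInstance, inferInstance, 0, 0, ⟨fun _ => rfl, fun _ => rfl, fun _ => rfl⟩, by simp⟩

theorem real_mul {m n : ℕ} (hm : Real m) (hn : Real n) : Real (m * n) := by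
  obtain ⟨A, _, _, I, J, h, hc⟩ := hm
  obtain ⟨B, _, _, I', J', h', hc'⟩ := hn
  refine ⟨A × B, inferInstance, inferInstance, I.prodMap I', J.prodMap J', ⟨?_, ?_, ?_⟩, by rw [Nat.card_prod, hc, hc']⟩
  · rintro ⟨x, y⟩; exact Prod.ext (h.ii x) (h'.ii y)
  · rintro ⟨x, y⟩; exact Prod.ext (h.jj x) (h'.jj y)
  · rintro ⟨x, y⟩; exact Prod.ext (h.ij x) (h'.ij y)

theorem real_prime (p : ℕ) [Fact p.Prime] : Real (p ^ 2) := by
  obtain ⟨a, b, hab⟩ := ZMod.sq_add_sq p (-1)
  refine ⟨ZMod p × ZMod p, inferInstance, inferInstance,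
    { toFun := fun v => (-v.2, v.1)
      map_zero' := by simp
      map_add' := fun v w => by ext <;> simp [add_comm] },
    { toFun := fun v => (a * v.1 + b * v.2, b * v.1 - a * v.2)
      map_zero' := by simp
      map_add' := fun v w => by ext <;> simp <;> ring }, ⟨?_, ?_, ?_⟩, ?_⟩
  · rintro ⟨x, y⟩; rfl
  · rintro ⟨x, y⟩
    apply Prod.ext
    · change a * (a * x + b * y) + b * (b * x - a * y) = -x
      linear_combination x * hab
    · change b * (a * x + b * y) - a * (b * x - a * y) = -y
      linear_combination y * hab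
  · rintro ⟨x, y⟩
    apply Prod.ext
    · change -(b * x - a * y) = -(a * (-y) + b * x)
      ring
    · change a * x + b * y = -(b * (-y) - a * x)
      ring
  · rw [Nat.card_prod, Nat.card_zmod, sq]

theorem real_sq (k : ℕ) (hk : k ≠ 0) : Real (k ^ 2) := by
  induction k using Nat.recOnMul with
  | zero => exact absurd rfl hk
  | one => rw [one_pow]; exact real_one
  | prime p hp =>
    have : Fact p.Prime := ⟨hp⟩
    exact real_prime p
  | mul a b ha hb =>
    rw [mul_pow]
    exact real_mul (ha (left_ne_zero_of_mul hk)) (hb (right_ne_zero_of_mul hk))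

theorem semidirect {V Q : Type} [Group V] [Finite V] [Nontrivial V] [Group Q] [Finite Q] [Nontrivial Q] (φ : Q →* MulAut V)
    (hφ : ∀ g : Q, g ≠ 1 → ∀ v : V, φ g v = v → v = 1) :
    ∃ (L : Type) (_ : Group L) (_ : Finite L) (H : Subgroup L), Cfsg.IsFrobeniusComplement H ∧
        Nonempty (H ≃* Q) ∧ Nat.card (Cfsg.frobeniusKernel H) = Nat.card V := by
  let L := V ⋊[φ] Q
  have hfinL : Finite L := Finite.of_equiv _ SemidirectProduct.equivProd.symm
  let N : Subgroup L := (SemidirectProduct.inl : V →* L).range
  let H : Subgroup L := (SemidirectProduct.inr : Q →* L).range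
  have hNn : N.Normal := by
    have : N = (SemidirectProduct.rightHom : L →* Q).ker := SemidirectProduct.range_inl_eq_ker_rightHom
    rw [this]; infer_instance
  have hNmem : ∀ x : L, x ∈ N ↔ x.right = 1 := by
    intro x
    have : N = (SemidirectProduct.rightHom : L →* Q).ker := SemidirectProduct.range_inl_eq_ker_rightHom
    rw [this]; rfl
  have hHmem : ∀ x : L, x ∈ H ↔ x.left = 1 := by
    intro x
    constructor
    · rintro ⟨q, rfl⟩; rfl
    · intro h
      exact ⟨x.right, SemidirectProduct.ext h.symm rfl⟩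
  have hc : Subgroup.IsComplement' N H := by
    apply Subgroup.isComplement'_of_disjoint_and_mul_eq_univ
    · rw [Subgroup.disjoint_def]
      intro x hx hx'
      exact SemidirectProduct.ext ((hHmem x).mp hx') ((hNmem x).mp hx)
    · rw [Set.eq_univ_iff_forall]
      intro x
      exact ⟨SemidirectProduct.inl x.left, ⟨_, rfl⟩, SemidirectProduct.inr x.right, ⟨_, rfl⟩,
        SemidirectProduct.inl_left_mul_inr_right x⟩
  have hNcard : Nat.card N = Nat.card V :=
    (Nat.card_congr (MonoidHom.ofInjective SemidirectProduct.inl_injective).toEquiv).symm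
  have hNbot : N ≠ ⊥ := by
    intro h
    rw [h, Subgroup.card_bot] at hNcard
    have := Finite.one_lt_card (α := V)
    omega
  have hHcard : Nat.card H = Nat.card Q :=
    (Nat.card_congr (MonoidHom.ofInjective SemidirectProduct.inr_injective).toEquiv).symm
  have hHbot : H ≠ ⊥ := by
    intro h
    rw [h, Subgroup.card_bot] at hHcard
    have := Finite.one_lt_card (α := Q)
    omega
  have hFC : Cfsg.IsFrobeniusComplement H := by
    rw [H1.Frob.isFrobeniusComplement_iff N H hc hNbot hHbot]
    intro h hh hh1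
    rw [eq_bot_iff]
    intro x hx
    obtain ⟨hx1, hx2⟩ := Subgroup.mem_inf.mp hx
    rw [Subgroup.mem_centralizer_singleton_iff] at hx2
    have hr := (hNmem x).mp hx1
    have hl := (hHmem h).mp hh
    have h2 : x.left = φ h.right x.left := by
      have := congrArg SemidirectProduct.left hx2
      rw [SemidirectProduct.mul_left, SemidirectProduct.mul_left, hl, hr, map_one, one_mul] at this
      simpa using this
    have h3 := hφ h.right (fun h4 => hh1 (SemidirectProduct.ext hl h4)) x.left h2.symm
    rw [Subgroup.mem_bot]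
    exact SemidirectProduct.ext h3 hr
  refine ⟨L, inferInstance, hfinL, H, hFC, ⟨(MonoidHom.ofInjective SemidirectProduct.inr_injective).symm⟩, ?_⟩
  rw [H1.Frob.card_frobeniusKernel hFC.2.2, ← hNcard]
  exact hc.index_eq_card

theorem of_real {m : ℕ} (hm1 : 1 < m) (hodd : Odd m) (hr : Real m) :
    ∃ (L : Type) (_ : Group L) (_ : Finite L) (H : Subgroup L), Cfsg.IsFrobeniusComplement H ∧
        Nonempty (H ≃* QuaternionGroup 2) ∧ Nat.card (Cfsg.frobeniusKernel H) = m := by
  obtain ⟨A, _, _, I, J, h, hc⟩ := hr
  have hoddA : Odd (Nat.card A) := by rw [hc]; exact hodd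
  have hnt : Nontrivial A := by
    rw [← Finite.one_lt_card_iff_nontrivial, hc]; exact hm1
  let V := Multiplicative A
  let i : MulAut V :=
    { toFun := fun v => Multiplicative.ofAdd (I v.toAdd)
      invFun := fun v => Multiplicative.ofAdd (-I v.toAdd)
      left_inv := fun v => congrArg Multiplicative.ofAdd (by
        change -I (I v.toAdd) = v.toAdd
        rw [h.ii, neg_neg])
      right_inv := fun v => congrArg Multiplicative.ofAdd (by
        change I (-I v.toAdd) = v.toAdd
        rw [map_neg, h.ii, neg_neg])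
      map_mul' := fun v w => congrArg Multiplicative.ofAdd (map_add I v.toAdd w.toAdd) }
  let j : MulAut V :=
    { toFun := fun v => Multiplicative.ofAdd (J v.toAdd)
      invFun := fun v => Multiplicative.ofAdd (-J v.toAdd)
      left_inv := fun v => congrArg Multiplicative.ofAdd (by
        change -J (J v.toAdd) = v.toAdd
        rw [h.jj, neg_neg])
      right_inv := fun v => congrArg Multiplicative.ofAdd (by
        change J (-J v.toAdd) = v.toAdd
        rw [map_neg, h.jj, neg_neg])
      map_mul' := fun v w => congrArg Multiplicative.ofAdd (map_add J v.toAdd w.toAdd) }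
  have hi : ∀ v : V, i v = Multiplicative.ofAdd (I v.toAdd) := fun _ => rfl
  have hj : ∀ v : V, j v = Multiplicative.ofAdd (J v.toAdd) := fun _ => rfl
  have hi2 : ∀ v : V, (i * i) v = Multiplicative.ofAdd (-v.toAdd) := fun v => congrArg Multiplicative.ofAdd (h.ii v.toAdd)
  have hj2 : ∀ v : V, (j * j) v = Multiplicative.ofAdd (-v.toAdd) := fun v => congrArg Multiplicative.ofAdd (h.jj v.toAdd)
  have e2 : j * j = i ^ 2 := by
    apply MulEquiv.ext
    intro v
    rw [sq, hi2, hj2]
  have e4 : i ^ (2 * 2) = 1 := by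
    rw [pow_mul, sq, sq]
    apply MulEquiv.ext
    intro v
    rw [MulAut.mul_apply, hi2, hi2]
    change Multiplicative.ofAdd (- -v.toAdd) = v
    rw [neg_neg]; rfl
  have e3 : j * i * j⁻¹ = i⁻¹ := by
    rw [mul_inv_eq_iff_eq_mul, eq_inv_mul_iff_mul_eq]
    apply MulEquiv.ext
    intro v
    exact congrArg Multiplicative.ofAdd (by
      change I (J (I v.toAdd)) = J v.toAdd
      rw [h.ij, h.ii, map_neg, neg_neg])
  let φ : QuaternionGroup 2 →* MulAut V := H25.DQ.quatHom 2 i j e4 e2 e3
  have hφ2 : ∀ v : V, φ (QuaternionGroup.a 2) v = Multiplicative.ofAdd (-v.toAdd) := by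
    intro v
    have h1 : φ (QuaternionGroup.a 2) = i ^ (2 : ℤ) := H25.DQ.ex_int (2 * 2) i e4 2
    rw [h1, zpow_ofNat, sq, hi2]
  have hc2 : Nat.card V = m := hc
  have hVnt : Nontrivial V := hnt
  have hVf : Finite V := ‹Finite A›
  obtain ⟨L, a, b, H, hH, e, hk⟩ := semidirect φ (by
    intro g hg v hv
    have h2 : φ (QuaternionGroup.a 2) v = v := by
      have h3 : ∀ g : QuaternionGroup 2, g ≠ 1 → g = QuaternionGroup.a 2 ∨ g * g = QuaternionGroup.a 2 := by decide
      rcases h3 g hg with h3 | h3
      · rw [← h3]; exact hv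
      · rw [← h3, map_mul, MulAut.mul_apply, hv, hv]
    rw [hφ2] at h2
    have h3 : -v.toAdd = v.toAdd := h2
    have h4 := two_tor hoddA h3.symm
    exact h4)
  exact ⟨L, a, b, H, hH, e, by rw [hk, hc2]⟩

/-- For a natural number m the following are equivalent: (a) some finite group has a Frobenius complement isomorphic to the quaternion group of order 8 whose Frobenius kernel (the identity together with the elements lying in no conjugate of the complement) has exactly m elements; (b) m is an odd perfect square greater than 1. -/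
theorem result (m : ℕ) :
    (∃ (L : Type) (_ : Group L) (_ : Finite L) (H : Subgroup L), Cfsg.IsFrobeniusComplement H ∧
        Nonempty (H ≃* QuaternionGroup 2) ∧ Nat.card (Cfsg.frobeniusKernel H) = m) ↔
    (Odd m ∧ IsSquare m ∧ 1 < m) := by
  constructor
  · rintro ⟨L, _, _, H, hH, ⟨e⟩, hm⟩
    have h1 := Cfsg.Agent.S4296.result H hH ⟨2, ⟨Nat.prime_two⟩, by
      have hp2 : Fact (Nat.Prime 2) := ⟨Nat.prime_two⟩
      let P : Sylow 2 H := default
      refine ⟨P, ?_⟩
      intro hc
      have hP : (P : Subgroup H) = ⊤ := by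
        apply Subgroup.eq_top_of_card_eq
        have h8 : Nat.card H = 2 ^ 3 := by
          rw [Nat.card_congr e.toEquiv, Nat.card_eq_fintype_card]; rfl
        rw [P.card_eq_multiplicity, h8, Nat.Prime.factorization_pow Nat.prime_two, Finsupp.single_eq_same]
      have h2 : IsCyclic H := by
        rw [hP] at hc
        exact isCyclic_of_surjective Subgroup.topEquiv Subgroup.topEquiv.surjective
      have h3 : IsCyclic (QuaternionGroup 2) := isCyclic_of_surjective e e.surjective
      have h4 : ∀ x y : QuaternionGroup 2, x * y = y * x := by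
        let _ := h3.commGroup
        intro x y
        exact mul_comm x y
      exact absurd (h4 (QuaternionGroup.a 1) (QuaternionGroup.xa 0)) (by decide)⟩
    rw [hm] at h1
    refine ⟨h1.1, h1.2, ?_⟩
    obtain ⟨N, hN, hNn, hcp⟩ := Cfsg.Agent.S0035.result H hH
    have hcard : Nat.card (Cfsg.frobeniusKernel H) = Nat.card N := by rw [← hN]; rfl
    rw [← hm, hcard]
    have hNbot : N ≠ ⊥ := by
      rintro rfl
      apply hH.2.1
      have := hcp.symm
      rw [Subgroup.isComplement'_bot_right] at this
      exact this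
    have hNnt : Nontrivial N := (Subgroup.nontrivial_iff_ne_bot N).mpr hNbot
    exact Finite.one_lt_card
  · rintro ⟨h1, ⟨k, rfl⟩, h3⟩
    apply of_real h3 h1
    rw [← sq]
    apply real_sq
    rintro rfl
    norm_num at h3

end Cfsg.Agent.S4295
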