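import Cfsg.Statements.S4297
import Cfsg.Agent.Lib.H74.FrobC

set_option autoImplicit false
open Cfsg

namespace Cfsg.Agent.S4297

open H74.FrobC Matrix

variable {F : Type} [Field F]

def rep (n : ℕ) (χ : ZMod (2 * n) → F) : QuaternionGroup n → Matrix (Fin 2) (Fin 2) F
  | QuaternionGroup.a i => !![χ i, 0; 0, χ (-i)]
  | QuaternionGroup.xa i => !![0, - χ (-i); χ i, 0]

theorem fc [Finite F] (n : ℕ) [NeZero n] (χ : ZMod (2 * n) → F) (h1 : ∀ i j, χ (i + j) = χ i * χ j) (h0 : ∀ i, χ i = 1 ↔ i = 0)
    (h2 : (2 : F) ≠ 0) : IsFC (QuaternionGroup n) := by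
  have hone : χ 0 = 1 := (h0 0).mpr rfl
  have hn : χ (n : ZMod (2 * n)) = -1 := by
    have h3 : χ (n : ZMod (2 * n)) * χ (n : ZMod (2 * n)) = 1 := by
      rw [← h1, h0]
      have : ((2 * n : ℕ) : ZMod (2 * n)) = 0 := ZMod.natCast_self _
      rw [← this]; push_cast; ring
    rcases mul_self_eq_one_iff.mp h3 with h4 | h4
    · exfalso
      rw [h0, ZMod.natCast_eq_zero_iff] at h4
      have := Nat.le_of_dvd (Nat.pos_of_ne_zero (NeZero.ne n)) h4
      have := Nat.pos_of_ne_zero (NeZero.ne n)
      omega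
    · exact h4
  have hnn : ∀ i, χ i * χ (-i) = 1 := fun i => by rw [← h1, add_neg_cancel, hone]
  let ρ : QuaternionGroup n →* Matrix (Fin 2) (Fin 2) F :=
    { toFun := rep n χ
      map_one' := by
        change rep n χ (QuaternionGroup.a 0) = 1
        simp only [rep, neg_zero, hone]
        ext i j; fin_cases i <;> fin_cases j <;> rfl
      map_mul' := by
        rintro (i | i) (j | j)
        · rw [QuaternionGroup.a_mul_a]
          simp only [rep, Matrix.mul_fin_two]
          congr <;> simp [h1, neg_add, mul_comm]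
        · rw [QuaternionGroup.a_mul_xa]
          simp only [rep, Matrix.mul_fin_two]
          congr <;> simp [h1, sub_eq_add_neg, mul_comm]
        · rw [QuaternionGroup.xa_mul_a]
          simp only [rep, Matrix.mul_fin_two]
          congr <;> simp [h1, neg_add, mul_comm]
        · rw [QuaternionGroup.xa_mul_xa]
          simp only [rep, Matrix.mul_fin_two]
          have hn' : χ (-(n : ZMod (2 * n))) = -1 := by
            have := hnn (n : ZMod (2 * n))
            rw [hn] at this
            linear_combination -this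
          congr <;> simp [h1, sub_eq_add_neg, hn, hn', mul_comm] }
  have : Nontrivial (QuaternionGroup n) := ⟨⟨QuaternionGroup.a 0, QuaternionGroup.xa 0, fun h => by cases h⟩⟩
  have : Finite (QuaternionGroup n) := inferInstance
  apply FC_of_matrix (n := 2) two_pos ρ
  rintro (i | i) hg v hv
  · have hi : i ≠ 0 := fun h => hg (by rw [h]; rfl)
    have e0 := congrFun hv 0
    have e1 := congrFun hv 1
    change (!![χ i, 0; 0, χ (-i)] *ᵥ v) 0 = v 0 at e0
    change (!![χ i, 0; 0, χ (-i)] *ᵥ v) 1 = v 1 at e1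
    simp [Matrix.mulVec, dotProduct, Fin.sum_univ_two] at e0 e1
    have hi' : -i ≠ 0 := neg_ne_zero.mpr hi
    have f0 : (χ i - 1) * v 0 = 0 := by linear_combination e0
    have f1 : (χ (-i) - 1) * v 1 = 0 := by linear_combination e1
    ext j
    fin_cases j
    · exact (mul_eq_zero.mp f0).resolve_left (fun h => hi ((h0 i).mp (sub_eq_zero.mp h)))
    · exact (mul_eq_zero.mp f1).resolve_left (fun h => hi' ((h0 (-i)).mp (sub_eq_zero.mp h)))
  · have e0 := congrFun hv 0
    have e1 := congrFun hv 1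
    change (!![0, - χ (-i); χ i, 0] *ᵥ v) 0 = v 0 at e0
    change (!![0, - χ (-i); χ i, 0] *ᵥ v) 1 = v 1 at e1
    simp [Matrix.mulVec, dotProduct, Fin.sum_univ_two] at e0 e1
    have e2 : (2 : F) * v 0 = 0 := by
      linear_combination -e0 + χ (-i) * e1 - v 0 * hnn i
    have e3 : v 0 = 0 := (mul_eq_zero.mp e2).resolve_left h2
    ext j
    fin_cases j
    · exact e3
    · rw [e3, mul_zero] at e1
      exact e1.symm

/-- For every n ≥ 2 the dicyclic group of order 4n (generated by an element a of order 2n and an element x with x² = aⁿ and x a x⁻¹ = a⁻¹) occurs as a Frobenius complement of some finite Frobenius group. -/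
theorem result (n : ℕ) (hn : 2 ≤ n) :
    ∃ (L : Type) (_ : Group L) (_ : Finite L) (H : Subgroup L), Cfsg.IsFrobeniusComplement H ∧ Nonempty (H ≃* QuaternionGroup n) := by
  have : NeZero n := ⟨by omega⟩
  obtain ⟨p, hp, hp1, hp2⟩ := Nat.exists_prime_gt_modEq_one (k := 2 * n) 2 (by omega)
  have : Fact p.Prime := ⟨hp⟩
  have hdvd : 2 * n ∣ p - 1 := (Nat.modEq_iff_dvd' hp.one_lt.le).mp hp2.symm
  have hcard : Nat.card (ZMod p)ˣ = p - 1 := by
    rw [Nat.card_eq_fintype_card, ZMod.card_units]
  obtain ⟨g, hg⟩ := IsCyclic.exists_ofOrder_eq_natCard (α := (ZMod p)ˣ)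
  rw [hcard] at hg
  obtain ⟨k, hk⟩ := hdvd
  have hp0 : p - 1 ≠ 0 := by omega
  have hk0 : k ≠ 0 := by rintro rfl; omega
  have hord : orderOf (g ^ k) = 2 * n := by
    rw [orderOf_pow' _ hk0, hg, hk, Nat.gcd_mul_left_left, Nat.mul_div_cancel _ (Nat.pos_of_ne_zero hk0)]
  have hprim : IsPrimitiveRoot (g ^ k) (2 * n) := by rw [← hord]; exact IsPrimitiveRoot.orderOf _
  let e := hprim.zmodEquivZPowers
  have h := fc (F := ZMod p) n (fun i => (((e i).toMul : Subgroup.zpowers (g ^ k)) : (ZMod p)ˣ)) (by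
    intro i j
    rw [map_add]; rfl) (by
    intro i
    constructor
    · intro h
      have h1 : (e i).toMul = 1 := Subtype.ext (Units.ext h)
      have h2 : e i = 0 := h1
      exact (map_eq_zero_iff e e.injective).mp h2
    · rintro rfl
      rw [map_zero]; rfl) (by
    have : ((2 : ℕ) : ZMod p) ≠ 0 := by
      rw [Ne, ZMod.natCast_eq_zero_iff]
      intro h
      have := Nat.le_of_dvd (by norm_num) h
      omega
    exact_mod_cast this)
  obtain ⟨L, a, b, H, hH, ⟨f⟩⟩ := h
  exact ⟨L, a, b, H, hH, ⟨f.symm⟩⟩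

end Cfsg.Agent.S4297
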