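import Cfsg.Statements.S4298
import Cfsg.Agent.Lib.H74.FrobC

set_option autoImplicit false
open Cfsg

namespace Cfsg.Agent.S4298

open H74.FrobC Matrix

/-- encoded table of an embedding of `SL(2,3)` into `SL(2,5)` -/
def tab : List ℕ := [0, 0, 0, 0, 0, 0, 0, 0, 0, 0, 0, 0, 0, 0, 0, 105, 369, 431, 0, 0, 0, 45, 349, 411, 0, 0, 0, 0, 126, 0, 0, 183, 0, 0, 471, 0, 0, 163, 0, 0, 0, 60, 557, 0, 0, 0, 491, 0, 537, 0, 0, 0, 0, 377, 0, 0, 504, 0, 0, 309, 0, 0, 597, 0, 0, 289, 0, 253, 0, 243, 0, 0, 0, 0, 617, 223, 0, 0, 0, 90, 0]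

def code (a b c d : ZMod 3) : ℕ := tab.getD (((a.val * 3 + b.val) * 3 + c.val) * 3 + d.val) 0

def A (a b c d : ZMod 3) : ZMod 5 := ((code a b c d / 125 : ℕ) : ZMod 5)
def B (a b c d : ZMod 3) : ZMod 5 := ((code a b c d / 25 : ℕ) : ZMod 5)
def C (a b c d : ZMod 3) : ZMod 5 := ((code a b c d / 5 : ℕ) : ZMod 5)
def D (a b c d : ZMod 3) : ZMod 5 := ((code a b c d : ℕ) : ZMod 5)

theorem mul_check : ∀ a b c d : ZMod 3, a * d - b * c = 1 → ∀ a' b' c' d' : ZMod 3, a' * d' - b' * c' = 1 →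
    A (a * a' + b * c') (a * b' + b * d') (c * a' + d * c') (c * b' + d * d') =
      A a b c d * A a' b' c' d' + B a b c d * C a' b' c' d' ∧
    B (a * a' + b * c') (a * b' + b * d') (c * a' + d * c') (c * b' + d * d') =
      A a b c d * B a' b' c' d' + B a b c d * D a' b' c' d' ∧
    C (a * a' + b * c') (a * b' + b * d') (c * a' + d * c') (c * b' + d * d') =
      C a b c d * A a' b' c' d' + D a b c d * C a' b' c' d' ∧
    D (a * a' + b * c') (a * b' + b * d') (c * a' + d * c') (c * b' + d * d') =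
      C a b c d * B a' b' c' d' + D a b c d * D a' b' c' d' := by
  decide +kernel

theorem tr_check : ∀ a b c d : ZMod 3, a * d - b * c = 1 → ¬ (a = 1 ∧ b = 0 ∧ c = 0 ∧ d = 1) →
    A a b c d * D a b c d - B a b c d * C a b c d = 1 ∧ A a b c d + D a b c d ≠ 2 := by
  decide +kernel

/-- The group SL(2,3) of order 24 (the binary tetrahedral group) occurs as a Frobenius complement of some finite Frobenius group. -/
theorem result :
    ∃ (L : Type) (_ : Group L) (_ : Finite L) (H : Subgroup L), Cfsg.IsFrobeniusComplement H ∧ Nonempty (H ≃* Matrix.SpecialLinearGroup (Fin 2) (ZMod 3)) := by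
  have hdet : ∀ g : Matrix.SpecialLinearGroup (Fin 2) (ZMod 3), g.1 0 0 * g.1 1 1 - g.1 0 1 * g.1 1 0 = 1 := by
    intro g
    have := g.2
    rwa [Matrix.det_fin_two] at this
  obtain ⟨ρ, hρ⟩ : ∃ ρ : Matrix.SpecialLinearGroup (Fin 2) (ZMod 3) →* Matrix (Fin 2) (Fin 2) (ZMod 5),
      ∀ g, ρ g = !![A (g.1 0 0) (g.1 0 1) (g.1 1 0) (g.1 1 1), B (g.1 0 0) (g.1 0 1) (g.1 1 0) (g.1 1 1);
        C (g.1 0 0) (g.1 0 1) (g.1 1 0) (g.1 1 1), D (g.1 0 0) (g.1 0 1) (g.1 1 0) (g.1 1 1)] := by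
    refine ⟨⟨⟨fun g => !![A (g.1 0 0) (g.1 0 1) (g.1 1 0) (g.1 1 1), B (g.1 0 0) (g.1 0 1) (g.1 1 0) (g.1 1 1);
        C (g.1 0 0) (g.1 0 1) (g.1 1 0) (g.1 1 1), D (g.1 0 0) (g.1 0 1) (g.1 1 0) (g.1 1 1)], by decide +kernel⟩, by
        intro g h
        obtain ⟨h1, h2, h3, h4⟩ := mul_check _ _ _ _ (hdet g) _ _ _ _ (hdet h)
        have e : ∀ i j, (g * h).1 i j = g.1 i 0 * h.1 0 j + g.1 i 1 * h.1 1 j := by
          intro i j
          rw [Matrix.SpecialLinearGroup.coe_mul, Matrix.mul_apply, Fin.sum_univ_two]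
        simp only [e, h1, h2, h3, h4, Matrix.mul_fin_two]⟩, fun g => rfl⟩
  have hnt : Nontrivial (Matrix.SpecialLinearGroup (Fin 2) (ZMod 3)) := by
    refine ⟨⟨1, ⟨!![1, 1; 0, 1], by decide⟩, ?_⟩⟩
    intro h
    have := congrFun (congrFun (congrArg Subtype.val h) 0) 1
    exact absurd this (by decide)
  have hfc : IsFC (Matrix.SpecialLinearGroup (Fin 2) (ZMod 3)) := by
    have h5 : Fact (Nat.Prime 5) := ⟨by norm_num⟩
    apply FC_of_matrix (F := ZMod 5) (n := 2) two_pos ρ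
    intro g hg v hv
    have hne : ¬ (g.1 0 0 = 1 ∧ g.1 0 1 = 0 ∧ g.1 1 0 = 0 ∧ g.1 1 1 = 1) := by
      rintro ⟨h1, h2, h3, h4⟩
      apply hg
      ext i j
      fin_cases i <;> fin_cases j
      · exact h1
      · exact h2
      · exact h3
      · exact h4
    obtain ⟨hd, ht⟩ := tr_check _ _ _ _ (hdet g) hne
    rw [hρ] at hv
    generalize A (g.1 0 0) (g.1 0 1) (g.1 1 0) (g.1 1 1) = p at *
    generalize B (g.1 0 0) (g.1 0 1) (g.1 1 0) (g.1 1 1) = q at *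
    generalize C (g.1 0 0) (g.1 0 1) (g.1 1 0) (g.1 1 1) = r at *
    generalize D (g.1 0 0) (g.1 0 1) (g.1 1 0) (g.1 1 1) = s at *
    have e0 := congrFun hv 0
    have e1 := congrFun hv 1
    simp only [Matrix.mulVec, dotProduct, Fin.sum_univ_two, Matrix.of_apply, Matrix.cons_val_zero, Matrix.cons_val_one,
      Matrix.cons_val', Matrix.cons_val_fin_one] at e0 e1
    have ht' : (2 - (p + s)) ≠ 0 := fun h => ht (sub_eq_zero.mp h).symm
    have f0 : (2 - (p + s)) * v 0 = 0 := by linear_combination (s - 1) * e0 - q * e1 - v 0 * hd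
    have f1 : (2 - (p + s)) * v 1 = 0 := by linear_combination (p - 1) * e1 - r * e0 - v 1 * hd
    ext j
    fin_cases j
    · exact (mul_eq_zero.mp f0).resolve_left ht'
    · exact (mul_eq_zero.mp f1).resolve_left ht'
  obtain ⟨L, a, b, H, hH, ⟨f⟩⟩ := hfc
  exact ⟨L, a, b, H, hH, ⟨f.symm⟩⟩

end Cfsg.Agent.S4298
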