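import Cfsg.Statements.S4299
import Cfsg.Agent.S4293

set_option autoImplicit false
open Cfsg

namespace Cfsg.Agent.S4299

/-- Every nontrivial finite cyclic group occurs as a Frobenius complement of some finite Frobenius group. -/
theorem result {C : Type*} [Group C] [Finite C] [IsCyclic C] [Nontrivial C] :
    ∃ (L : Type) (_ : Group L) (_ : Finite L) (H : Subgroup L), Cfsg.IsFrobeniusComplement H ∧ Nonempty (C ≃* H) := by
  have hn : NeZero (Nat.card C) := ⟨Nat.card_pos.ne'⟩
  have hcard : Nat.card (rootsOfUnity (Nat.card C) ℂ) = Nat.card C := Complex.card_rootsOfUnity _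
  have e : C ≃* rootsOfUnity (Nat.card C) ℂ := mulEquivOfCyclicCardEq hcard.symm
  have hne : rootsOfUnity (Nat.card C) ℂ ≠ ⊥ := by
    rw [← Subgroup.nontrivial_iff_ne_bot]
    exact e.symm.toEquiv.nontrivial
  obtain ⟨L, a, b, H, hH, ⟨f⟩⟩ := Cfsg.Agent.S4293.result (rootsOfUnity (Nat.card C) ℂ) hne
  exact ⟨L, a, b, H, hH, ⟨e.trans f⟩⟩

end Cfsg.Agent.S4299
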