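import Cfsg.Statements.S4300

set_option autoImplicit false
open Cfsg

namespace Cfsg.Agent.S4300

/-- Let G act faithfully and primitively on a set X, and suppose the stabilizer of some point is a simple group. Then either G is simple, or G has a normal subgroup, neither trivial nor the whole group, that acts regularly on X (transitively with trivial point stabilizers). -/
theorem result {G : Type*} [Group G] {X : Type*} [MulAction G X] [FaithfulSMul G X]
    (hprim : MulAction.IsPreprimitive G X) (x : X) (hsimple : IsSimpleGroup (MulAction.stabilizer G x)) :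
    IsSimpleGroup G ∨ ∃ N : Subgroup G, N.Normal ∧ N ≠ ⊥ ∧ N ≠ ⊤ ∧
      MulAction.IsPretransitive N X ∧ ∀ y : X, MulAction.stabilizer N y = ⊥ := by
  by_cases hG : IsSimpleGroup G
  · exact Or.inl hG
  right
  have hnt : Nontrivial G := by
    obtain ⟨a, b, hab⟩ := hsimple.toNontrivial
    exact ⟨a, b, fun h => hab (Subtype.ext h)⟩
  obtain ⟨N, hN, hNb, hNt⟩ : ∃ N : Subgroup G, N.Normal ∧ N ≠ ⊥ ∧ N ≠ ⊤ := by
    by_contra hcon
    push Not at hcon
    apply hG
    refine ⟨fun H hH => ?_⟩
    by_cases h : H = ⊥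
    · exact Or.inl h
    · exact Or.inr (hcon H hH h)
  have hNX : MulAction.IsPretransitive N X := by
    have hq : MulAction.IsQuasiPreprimitive G X := inferInstance
    apply hq.isPretransitive_of_normal
    intro h
    apply hNb
    rw [Subgroup.eq_bot_iff_forall]
    intro n hn
    apply FaithfulSMul.eq_of_smul_eq_smul (M := G) (α := X)
    intro y
    have h1 : y ∈ MulAction.fixedPoints N X := h ▸ Set.mem_univ y
    have h2 := h1 ⟨n, hn⟩
    rw [one_smul]
    exact h2
  refine ⟨N, hN, hNb, hNt, hNX, ?_⟩
  have h1 : (N.subgroupOf (MulAction.stabilizer G x)).Normal := inferInstance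
  rcases h1.eq_bot_or_eq_top with h2 | h2
  · intro y
    obtain ⟨⟨n, hn⟩, hny⟩ := MulAction.exists_smul_eq N x y
    have hny' : n • x = y := hny
    rw [Subgroup.eq_bot_iff_forall]
    rintro ⟨m, hm⟩ hmy
    have hmy' : m • y = y := hmy
    have h3 : n⁻¹ * m * n ∈ MulAction.stabilizer G x := by
      rw [MulAction.mem_stabilizer_iff, mul_smul, mul_smul, hny', hmy', ← hny', inv_smul_smul]
    have h4 : (⟨n⁻¹ * m * n, h3⟩ : MulAction.stabilizer G x) ∈ N.subgroupOf (MulAction.stabilizer G x) := by
      rw [Subgroup.mem_subgroupOf]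
      exact N.mul_mem (N.mul_mem (N.inv_mem hn) hm) hn
    rw [h2, Subgroup.mem_bot] at h4
    have h5 : n⁻¹ * m * n = 1 := congrArg Subtype.val h4
    apply Subtype.ext
    show m = 1
    have h6 : m = n * (n⁻¹ * m * n) * n⁻¹ := by group
    rw [h6, h5]
    group
  · exfalso
    apply hNt
    rw [Subgroup.subgroupOf_eq_top] at h2
    rw [eq_top_iff]
    intro g _
    obtain ⟨⟨n, hn⟩, hny⟩ := MulAction.exists_smul_eq N x (g • x)
    have hny' : n • x = g • x := hny
    have h3 : n⁻¹ * g ∈ N := by
      apply h2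
      rw [MulAction.mem_stabilizer_iff, mul_smul, ← hny', inv_smul_smul]
    have h4 : g = n * (n⁻¹ * g) := by group
    rw [h4]
    exact N.mul_mem hn h3

end Cfsg.Agent.S4300
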