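import Cfsg.Statements.S4301

set_option autoImplicit false
open Cfsg

namespace Cfsg.Agent.S4301

theorem exists_emb {X : Type*} {k : ℕ} (e : Fin k ↪ X) (i j : Fin k) (hij : i ≠ j) (p q : X)
    (hpq : p ≠ q) : ∃ a : Fin k ↪ X, a i = p ∧ a j = q := by
  classical
  let e' : Fin k ↪ X := e.trans (Equiv.swap (e i) p).toEmbedding
  have h1 : e' i = p := by simp [e']
  have h2 : e' j ≠ p := by
    intro h
    exact hij (e'.injective (h1.trans h.symm))
  refine ⟨e'.trans (Equiv.swap (e' j) q).toEmbedding, ?_, ?_⟩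
  · simp only [Function.Embedding.trans_apply, Equiv.coe_toEmbedding, h1]
    exact Equiv.swap_apply_of_ne_of_ne h2.symm hpq
  · simp

/-- One-point extension of a multiply transitive group. Let X be a set and G a group of permutations of Option X (the set X with one extra point ∗ = none) all of whose elements fix ∗, such that G is k-transitive on the points of X for some k ≥ 2, X having at least k points. Suppose a permutation h of Option X and an element g of G satisfy: h interchanges ∗ with a point x of X and fixes a point y of X; g interchanges x and y; (g h)³ and h² lie in G; and for every f in G fixing x, the product h f h lies in G and fixes x. Then an element of the group generated by G and h fixes ∗ exactly when it lies in G, and that group acts (k+1)-transitively on Option X. -/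
theorem result {X : Type*} (G : Subgroup (Equiv.Perm (Option X))) (hfix : ∀ f ∈ G, f none = none)
    (k : ℕ) (hk : 2 ≤ k) (hkX : Nonempty (Fin k ↪ X))
    (htrans : ∀ a b : Fin k ↪ X, ∃ f ∈ G, ∀ i, f (some (a i)) = some (b i))
    (h g : Equiv.Perm (Option X)) (hg : g ∈ G) (x y : X)
    (h1 : h none = some x) (h2 : h (some x) = none) (h3 : h (some y) = some y)
    (h4 : g (some x) = some y) (h5 : g (some y) = some x)
    (h6 : (g * h) ^ 3 ∈ G) (h7 : h ^ 2 ∈ G)
    (h8 : ∀ f ∈ G, f (some x) = some x → h * f * h ∈ G ∧ (h * f * h) (some x) = some x) :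
    (∀ f ∈ Subgroup.closure ((G : Set (Equiv.Perm (Option X))) ∪ {h}), f none = none ↔ f ∈ G) ∧
      MulAction.IsMultiplyPretransitive (Subgroup.closure ((G : Set (Equiv.Perm (Option X))) ∪ {h})) (Option X) (k + 1) := by
  obtain ⟨e⟩ := hkX
  have hxy : x ≠ y := by
    rintro rfl
    rw [h2] at h3
    cases h3
  obtain ⟨C, hC⟩ : ∃ C, C = Subgroup.closure ((G : Set (Equiv.Perm (Option X))) ∪ {h}) := ⟨_, rfl⟩
  rw [← hC]
  have hGC : G ≤ C := by
    rw [hC]
    intro f hf
    exact Subgroup.subset_closure (Or.inl hf)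
  have hhC : h ∈ C := by rw [hC]; exact Subgroup.subset_closure (Or.inr rfl)
  -- two-transitivity
  have htwo : ∀ z : X, z ≠ x → ∃ u ∈ G, u (some x) = some x ∧ u (some y) = some z := by
    intro z hz
    obtain ⟨a, ha0, ha1⟩ := exists_emb e ⟨0, by omega⟩ ⟨1, by omega⟩ (by simp) x y hxy
    obtain ⟨b, hb0, hb1⟩ := exists_emb e ⟨0, by omega⟩ ⟨1, by omega⟩ (by simp) x z hz.symm
    obtain ⟨f, hf, hfab⟩ := htrans a b
    refine ⟨f, hf, ?_, ?_⟩
    · have := hfab ⟨0, by omega⟩
      rwa [ha0, hb0] at this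
    · have := hfab ⟨1, by omega⟩
      rwa [ha1, hb1] at this
  -- one-transitivity
  have hone : ∀ z : X, ∃ u ∈ G, u (some z) = some x := by
    intro z
    by_cases hz : z = x
    · exact ⟨1, one_mem _, by rw [hz]; rfl⟩
    · obtain ⟨u, hu, -, hu2⟩ := htwo z hz
      refine ⟨g * u⁻¹, mul_mem hg (inv_mem hu), ?_⟩
      have : u⁻¹ (some z) = some y := by rw [← hu2]; exact u.symm_apply_apply _
      rw [Equiv.Perm.mul_apply, this, h5]
  -- double coset lemma
  have hcl : ∀ a ∈ G, h * a * h ∈ G ∨ ∃ c ∈ G, ∃ d ∈ G, h * a * h = c * h * d := by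
    intro a ha
    obtain ⟨z, hz⟩ : ∃ z, a (some x) = some z := by
      rcases hax : a (some x) with _ | z
      · exfalso
        have : a (some x) = a none := by rw [hax, hfix a ha]
        cases a.injective this
      · exact ⟨z, rfl⟩
    by_cases hzx : z = x
    · left
      rw [hzx] at hz
      exact (h8 a ha hz).1
    · right
      obtain ⟨u, hu, hux, huy⟩ := htwo z hzx
      have hw : g⁻¹ * u⁻¹ * a ∈ G := mul_mem (mul_mem (inv_mem hg) (inv_mem hu)) ha
      have hwx : (g⁻¹ * u⁻¹ * a) (some x) = some x := by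
        have e1 : u⁻¹ (some z) = some y := by rw [← huy]; exact u.symm_apply_apply _
        have e2 : g⁻¹ (some y) = some x := by rw [← h4]; exact g.symm_apply_apply _
        rw [Equiv.Perm.mul_apply, hz, Equiv.Perm.mul_apply, e1, e2]
      have hA := (h8 u hu hux).1
      have hB := (h8 _ hw hwx).1
      have hh2 := inv_mem h7
      refine ⟨(h * u * h) * (h ^ 2)⁻¹ * g⁻¹ * (g * h) ^ 3 * (h ^ 2)⁻¹,
        mul_mem (mul_mem (mul_mem (mul_mem hA hh2) (inv_mem hg)) h6) hh2,
        g⁻¹ * (h ^ 2)⁻¹ * (h * (g⁻¹ * u⁻¹ * a) * h),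
        mul_mem (mul_mem (inv_mem hg) hh2) hB, ?_⟩
      have e3 : (g * h) ^ 3 = g * h * g * h * g * h := by
        rw [pow_succ, pow_two]; group
      rw [e3]
      group
  -- the set G ∪ G h G is closed
  have hP : ∀ f ∈ C, f ∈ G ∨ ∃ a ∈ G, ∃ b ∈ G, f = a * h * b := by
    have hleft : ∀ f, (f ∈ G ∨ ∃ a ∈ G, ∃ b ∈ G, f = a * h * b) →
        (h * f ∈ G ∨ ∃ a ∈ G, ∃ b ∈ G, h * f = a * h * b) := by
      rintro f (hf | ⟨a, ha, b, hb, rfl⟩)
      · exact Or.inr ⟨1, one_mem _, f, hf, by rw [one_mul]⟩
      · rcases hcl a ha with h9 | ⟨c, hc, d, hd, h9⟩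
        · left
          have : h * (a * h * b) = (h * a * h) * b := by group
          rw [this]
          exact mul_mem h9 hb
        · right
          refine ⟨c, hc, d * b, mul_mem hd hb, ?_⟩
          calc h * (a * h * b) = (h * a * h) * b := by group
            _ = c * h * d * b := by rw [h9]
            _ = _ := by group
    have hleftG : ∀ g' ∈ G, ∀ f, (f ∈ G ∨ ∃ a ∈ G, ∃ b ∈ G, f = a * h * b) →
        (g' * f ∈ G ∨ ∃ a ∈ G, ∃ b ∈ G, g' * f = a * h * b) := by
      rintro g' hg' f (hf | ⟨a, ha, b, hb, rfl⟩)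
      · exact Or.inl (mul_mem hg' hf)
      · exact Or.inr ⟨g' * a, mul_mem hg' ha, b, hb, by group⟩
    intro f hf
    rw [hC] at hf
    induction hf using Subgroup.closure_induction_left with
    | one => exact Or.inl (one_mem _)
    | mul_left s hs f _ ih =>
      rcases hs with hs | hs
      · exact hleftG s hs f ih
      · rw [Set.mem_singleton_iff.1 hs]; exact hleft f ih
    | inv_mul_cancel s hs f _ ih =>
      rcases hs with hs | hs
      · exact hleftG s⁻¹ (inv_mem hs) f ih
      · rw [Set.mem_singleton_iff.1 hs]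
        have h9 := hleftG _ (inv_mem h7) _ (hleft f ih)
        have e9 : (h ^ 2)⁻¹ * (h * f) = h⁻¹ * f := by group
        rwa [e9] at h9
  refine ⟨fun f hf => ⟨fun hfn => ?_, hfix f⟩, ?_⟩
  · rcases hP f hf with h9 | ⟨a, ha, b, hb, rfl⟩
    · exact h9
    · exfalso
      rw [Equiv.Perm.mul_apply, hfix b hb, Equiv.Perm.mul_apply, h1] at hfn
      have : a (some x) = a none := by rw [hfn, hfix a ha]
      cases a.injective this
  · -- transitivity
    have hstd : ∀ u : Fin (k + 1) ↪ Option X, ∃ c : C, (c • u) 0 = none := by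
      intro u
      rcases hu0 : u 0 with _ | z
      · exact ⟨1, hu0⟩
      · obtain ⟨f, hf, hfz⟩ := hone z
        refine ⟨⟨h * f, mul_mem hhC (hGC hf)⟩, ?_⟩
        change (h * f) (u 0) = none
        rw [hu0, Equiv.Perm.mul_apply, hfz, h2]
    have hmap : ∀ u : Fin (k + 1) ↪ Option X, u 0 = none → ∃ a : Fin k ↪ X,
        ∀ i, u i.succ = some (a i) := by
      intro u hu
      have h9 : ∀ i : Fin k, ∃ z, u i.succ = some z := by
        intro i
        rcases hui : u i.succ with _ | z
        · exfalso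
          have := u.injective (hui.trans hu.symm)
          exact Fin.succ_ne_zero i this
        · exact ⟨z, rfl⟩
      choose a ha using h9
      refine ⟨⟨a, fun i j hij => ?_⟩, ha⟩
      have h10 : u i.succ = u j.succ := by rw [ha, ha, hij]
      exact Fin.succ_injective _ (u.injective h10)
    refine ⟨fun u v => ?_⟩
    obtain ⟨c, hc⟩ := hstd u
    obtain ⟨d, hd⟩ := hstd v
    obtain ⟨a, ha⟩ := hmap _ hc
    obtain ⟨b, hb⟩ := hmap _ hd
    obtain ⟨f, hf, hfab⟩ := htrans a b
    refine ⟨d⁻¹ * ⟨f, hGC hf⟩ * c, ?_⟩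
    have key : ∀ i, f ((c • u) i) = (d • v) i := by
      intro i
      refine Fin.cases ?_ (fun j => ?_) i
      · rw [hc, hd, hfix f hf]
      · rw [ha, hb, hfab]
    ext1 i
    change (d : Equiv.Perm (Option X))⁻¹ (f ((c • u) i)) = v i
    rw [key i]
    exact (d : Equiv.Perm (Option X)).symm_apply_apply _

end Cfsg.Agent.S4301
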