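import Cfsg.Statements.S4303
import Cfsg.Agent.Lib.H74.SylNum2
-- import your own Cfsg.Agent.* helpers here

set_option autoImplicit false
universe u
open Cfsg

namespace Cfsg.Agent.S4303

/-- the property of the statement -/
def Good (p : ℕ) (n : ℕ) : Prop := ∃ l : List ℕ, l.prod = n ∧
      ∀ m ∈ l, (IsPrimePow m ∧ m % p = 1) ∨
        ∃ (S : Type u) (_ : Group S) (_ : Finite S), IsSimpleGroup S ∧ m = Nat.card (Sylow p S)

theorem Good.mul {p a b : ℕ} (ha : Good.{u} p a) (hb : Good.{u} p b) : Good.{u} p (a * b) := by
  obtain ⟨l, hl, h1⟩ := ha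
  obtain ⟨l', hl', h2⟩ := hb
  refine ⟨l ++ l', by rw [List.prod_append, hl, hl'], ?_⟩
  intro m hm
  rcases List.mem_append.1 hm with h | h
  · exact h1 m h
  · exact h2 m h

theorem good_of_primes {p c : ℕ} (hc : c ≠ 0) (h : ∀ q : ℕ, q.Prime → q ^ c.factorization q % p = 1) : Good.{u} p c := by
  refine ⟨c.primeFactors.toList.map (fun q => q ^ c.factorization q), ?_, ?_⟩
  · rw [Finset.prod_map_toList]
    exact Nat.prod_factorization_pow_eq_self hc
  · intro m hm
    rw [List.mem_map] at hm
    obtain ⟨q, hq, rfl⟩ := hm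
    rw [Finset.mem_toList, Nat.mem_primeFactors] at hq
    left
    refine ⟨?_, h q hq.1⟩
    rw [isPrimePow_nat_iff]
    exact ⟨q, c.factorization q, hq.1, hq.1.factorization_pos_of_dvd hc hq.2.1, rfl⟩

theorem main (n : ℕ) : ∀ (G : Type u) [Group G] [Finite G] (p : ℕ) [Fact p.Prime], Nat.card G ≤ n →
    Good.{u} p (Nat.card (Sylow p G)) := by
  induction n with
  | zero =>
    intro G _ _ p _ h
    have : 0 < Nat.card G := Nat.card_pos
    omega
  | succ n ih =>
    intro G _ _ p hp hcard
    by_cases hs : IsSimpleGroup G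
    · exact ⟨[Nat.card (Sylow p G)], by simp, fun m hm => by
        rw [List.mem_singleton] at hm
        exact Or.inr ⟨G, inferInstance, inferInstance, hs, hm⟩⟩
    by_cases ht : Subsingleton G
    · refine ⟨[], ?_, by simp⟩
      have h1 : Nat.card (Sylow p G) = 1 := by
        obtain ⟨P⟩ : Nonempty (Sylow p G) := inferInstance
        rw [P.card_eq_index_normalizer, Subgroup.index_eq_one]
        exact Subgroup.eq_top_of_card_eq _ (by
          rw [Nat.card_unique]
          have : Nat.card G = 1 := by rw [Nat.card_eq_one_iff_unique]; exact ⟨ht, ⟨1⟩⟩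
          exact this.symm)
      rw [h1]; rfl
    have hnt : Nontrivial G := not_subsingleton_iff_nontrivial.1 ht
    obtain ⟨N, hN, hNb, hNt⟩ : ∃ N : Subgroup G, N.Normal ∧ N ≠ ⊥ ∧ N ≠ ⊤ := by
      by_contra hcon
      push Not at hcon
      apply hs
      have h1 : ∀ N : Subgroup G, N.Normal → N = ⊥ ∨ N = ⊤ := by
        intro N hN
        by_cases h : N = ⊥
        · exact Or.inl h
        · exact Or.inr (hcon N hN h)
      exact { exists_pair_ne := hnt.exists_pair_ne, eq_bot_or_eq_top_of_normal := h1 }
    obtain ⟨P⟩ : Nonempty (Sylow p G) := inferInstance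
    rw [H74.SylNum.card_step_one N P, H74.SylNum.card_step_two N P]
    have hNcard : Nat.card N < Nat.card G := by
      have h1 : Nat.card N ≤ Nat.card G := Subgroup.card_le_card_group N
      rcases Nat.lt_or_ge (Nat.card N) (Nat.card G) with h2 | h2
      · exact h2
      · exact absurd (Subgroup.eq_top_of_card_eq N (le_antisymm h1 h2)) hNt
    have hQcard : Nat.card (G ⧸ N) < Nat.card G := by
      have h1 := N.card_mul_index
      have h2 : 1 < Nat.card N := (Subgroup.one_lt_card_iff_ne_bot N).2 hNb
      have h3 : 0 < N.index := Nat.pos_of_ne_zero N.index_ne_zero_of_finite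
      change N.index < Nat.card G
      rw [← h1]
      nlinarith
    apply Good.mul (ih (G ⧸ N) p (by omega))
    apply Good.mul (ih N p (by omega))
    apply good_of_primes
    · exact Subgroup.index_ne_zero_of_finite
    · intro q hq
      exact H74.SylNum.card_step_three N P q hq

/-- For a finite group `G` and a prime `p`, the number of Sylow `p`-subgroups of `G` is a product of natural numbers each of which is either a prime power congruent to 1 modulo `p` or the number of Sylow `p`-subgroups of some finite simple group. -/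
theorem result {G : Type u} [Group G] [Finite G]
    (p : ℕ) [Fact p.Prime] :
    ∃ l : List ℕ, l.prod = Nat.card (Sylow p G) ∧
      ∀ m ∈ l, (IsPrimePow m ∧ m % p = 1) ∨
        ∃ (S : Type u) (_ : Group S) (_ : Finite S), IsSimpleGroup S ∧ m = Nat.card (Sylow p S) := by
  exact main (Nat.card G) G p le_rfl

end Cfsg.Agent.S4303
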