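import Cfsg.Statements.S4304
import Cfsg.Agent.Lib.H74.SylowCount

set_option autoImplicit false
open Cfsg
open scoped Pointwise

namespace Cfsg.Agent.S4304

open Subgroup MulAction

instance fact7 : Fact (Nat.Prime 7) := ⟨by norm_num⟩

section setup

variable {G : Type*} [Group G] [Finite G]

omit [Finite G] in
/-- the only Sylow subgroup fixed by `P` is `P` -/
theorem fixed_iff (P Q : Sylow 7 G) : (∀ x ∈ P, x • Q = Q) ↔ Q = P := by
  constructor
  · intro h
    have h1 : (P : Subgroup G) ≤ normalizer (Q : Set G) := by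
      intro x hx
      exact Sylow.smul_eq_iff_mem_normalizer.mp (h x hx)
    have h2 := IsPGroup.inf_normalizer_sylow P.isPGroup' Q
    rw [inf_eq_left.mpr h1] at h2
    apply Sylow.ext
    exact P.is_maximal' Q.isPGroup' (inf_eq_left.mp h2.symm)
  · rintro rfl x hx
    exact Sylow.smul_eq_iff_mem_normalizer.mpr (le_normalizer hx)

omit [Finite G] in
theorem fixedPoints_eq (P : Sylow 7 G) : fixedPoints P (Sylow 7 G) = {P} := by
  ext Q
  rw [mem_fixedPoints, Set.mem_singleton_iff, ← fixed_iff P Q]
  exact ⟨fun h x hx => h ⟨x, hx⟩, fun h x => h x x.2⟩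

/-- the action on 15 Sylow 7-subgroups is primitive -/
theorem preprimitive (hcard : Nat.card (Sylow 7 G) = 15) : IsPreprimitive G (Sylow 7 G) := by
  have P : Sylow 7 G := Classical.arbitrary _
  apply IsPreprimitive.of_isTrivialBlock_base P
  intro B hPB hB
  have hdvd : B.ncard ∣ 15 := by
    rw [← hcard]
    exact hB.ncard_dvd_card ⟨P, hPB⟩
  -- P acts on B
  have hPB' : ∀ x ∈ P, x • B = B := by
    intro x hx
    apply (isBlock_iff_smul_eq_of_mem.mp hB) hPB
    rw [(fixed_iff P P).mpr rfl x hx]
    exact hPB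
  let C : SubMulAction P (Sylow 7 G) := {
    carrier := B
    smul_mem' := by
      intro c x hx
      have := hPB' c c.2
      rw [← this]
      exact Set.smul_mem_smul_set hx }
  have h1 : Nat.card C ≡ Nat.card (fixedPoints P C) [MOD 7] :=
    P.isPGroup'.card_modEq_card_fixedPoints C
  have h2 : Nat.card (fixedPoints P C) = 1 := by
    rw [Nat.card_eq_one_iff_unique]
    constructor
    · constructor
      rintro ⟨⟨Q, hQ⟩, hQ'⟩ ⟨⟨R, hR⟩, hR'⟩
      have e1 : Q = P := by
        rw [← fixed_iff P Q]
        intro x hx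
        exact congrArg Subtype.val (hQ' ⟨x, hx⟩)
      have e2 : R = P := by
        rw [← fixed_iff P R]
        intro x hx
        exact congrArg Subtype.val (hR' ⟨x, hx⟩)
      subst e1
      subst e2
      rfl
    · refine ⟨⟨⟨P, hPB⟩, ?_⟩⟩
      intro x
      apply Subtype.ext
      exact (fixed_iff P P).mpr rfl x x.2
  have h3 : Nat.card C = B.ncard := Nat.card_coe_set_eq B
  rw [h2, h3] at h1
  have h4 : B.ncard ∈ Nat.divisors 15 := by
    rw [Nat.mem_divisors]; exact ⟨hdvd, by norm_num⟩
  have h5 : Nat.divisors 15 = {1, 3, 5, 15} := by decide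
  rw [h5] at h4
  simp only [Finset.mem_insert, Finset.mem_singleton] at h4
  rcases h4 with h4 | h4 | h4 | h4
  · left
    rw [Set.ncard_eq_one] at h4
    obtain ⟨a, rfl⟩ := h4
    exact Set.subsingleton_singleton
  · rw [h4] at h1
    exact absurd h1 (by decide)
  · rw [h4] at h1
    exact absurd h1 (by decide)
  · right
    apply Set.eq_of_subset_of_ncard_le (Set.subset_univ _) _ (Set.toFinite _)
    rw [Set.ncard_univ, hcard, h4]


/-- the `P`-orbit of another point has length 7 -/
theorem card_orbit_eq (hcard : Nat.card (Sylow 7 G) = 15) (P β : Sylow 7 G) (hβ : β ≠ P) :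
    Nat.card (orbit P β) = 7 := by
  obtain ⟨k, hk⟩ := P.isPGroup'.card_orbit β
  have hle : Nat.card (orbit P β) ≤ 15 := by
    rw [← hcard]
    exact Nat.card_le_card_of_injective _ Subtype.val_injective
  rcases Nat.lt_or_ge k 2 with h | h
  · interval_cases k
    · exfalso
      apply hβ
      rw [pow_zero] at hk
      have h1 := (Nat.card_eq_one_iff_unique.mp hk).1
      rw [← fixed_iff P β]
      intro x hx
      have h2 : (⟨(⟨x, hx⟩ : P) • β, mem_orbit β _⟩ : orbit P β) = ⟨β, mem_orbit_self β⟩ := Subsingleton.elim _ _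
      exact congrArg Subtype.val h2
    · rw [hk, pow_one]
  · exfalso
    rw [hk] at hle
    have : 7 ^ 2 ≤ 7 ^ k := Nat.pow_le_pow_right (by norm_num) h
    omega

/-- a 7-element of `P` fixing `β` fixes the orbit of `β` pointwise -/
theorem fixes_orbit (hcard : Nat.card (Sylow 7 G) = 15) (P β γ : Sylow 7 G) (hβ : β ≠ P) {x : G} (hx : x ∈ P)
    (hxβ : x • β = β) (hγ : γ ∈ orbit P β) : x • γ = γ := by
  have hz : IsPGroup 7 (zpowers x) := P.isPGroup'.to_le (zpowers_le.mpr hx)
  obtain ⟨k, hk⟩ := hz.card_orbit γ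
  have hsub : orbit (zpowers x) γ ⊆ orbit P β := by
    rintro _ ⟨⟨y, hy⟩, rfl⟩
    obtain ⟨⟨z, hz⟩, rfl⟩ := hγ
    refine ⟨⟨y * z, P.mul_mem (zpowers_le.mpr hx hy) hz⟩, ?_⟩
    exact mul_smul y z β
  have hO := card_orbit_eq hcard P β hβ
  rcases Nat.eq_zero_or_pos k with rfl | hkpos
  · rw [pow_zero] at hk
    have h1 := (Nat.card_eq_one_iff_unique.mp hk).1
    have h2 : (⟨(⟨x, mem_zpowers x⟩ : zpowers x) • γ, mem_orbit γ _⟩ : orbit (zpowers x) γ) = ⟨γ, mem_orbit_self γ⟩ :=
      Subsingleton.elim _ _
    exact congrArg Subtype.val h2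
  · exfalso
    have h3 : orbit (zpowers x) γ = orbit P β := by
      apply Set.eq_of_subset_of_ncard_le hsub _ (Set.toFinite _)
      rw [← Nat.card_coe_set_eq, ← Nat.card_coe_set_eq, hO, hk]
      calc 7 = 7 ^ 1 := by norm_num
        _ ≤ 7 ^ k := Nat.pow_le_pow_right (by norm_num) hkpos
    have h4 : β ∈ orbit (zpowers x) γ := h3 ▸ mem_orbit_self β
    have h5 : orbit (zpowers x) γ = orbit (zpowers x) β := (orbit_eq_iff.mpr h4).symm
    have h6 : orbit (zpowers x) β = {β} := by
      ext δ
      rw [Set.mem_singleton_iff]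
      constructor
      · rintro ⟨⟨y, hy⟩, rfl⟩
        obtain ⟨n, rfl⟩ := mem_zpowers_iff.mp hy
        have : x ∈ stabilizer G β := hxβ
        exact (stabilizer G β).zpow_mem this n
      · rintro rfl
        exact mem_orbit_self _
    rw [← h3, h5, h6] at hO
    simp at hO


theorem exists_ne (hcard : Nat.card (Sylow 7 G) = 15) (P : Sylow 7 G) : ∃ β : Sylow 7 G, β ≠ P := by
  have : Nontrivial (Sylow 7 G) := by
    rw [← Finite.one_lt_card_iff_nontrivial, hcard]
    norm_num
  exact _root_.exists_ne P

/-- the points outside the orbit of β -/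
theorem exists_other (hcard : Nat.card (Sylow 7 G) = 15) (P β : Sylow 7 G) (hβ : β ≠ P) :
    ∃ γ : Sylow 7 G, γ ≠ P ∧ γ ∉ orbit P β := by
  by_contra hcon
  push Not at hcon
  have h1 : (Set.univ : Set (Sylow 7 G)) ⊆ {P} ∪ orbit P β := by
    intro γ _
    by_cases h : γ = P
    · exact Or.inl h
    · exact Or.inr (hcon γ h)
  have h2 := Set.ncard_le_ncard h1 (Set.toFinite _)
  have h3 := Set.ncard_union_le {P} (orbit P β)
  have h4 : (orbit P β).ncard = 7 := by
    rw [← Nat.card_coe_set_eq, card_orbit_eq hcard P β hβ]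
  rw [Set.ncard_univ, hcard] at h2
  rw [Set.ncard_singleton, h4] at h3
  omega

theorem not_three_transitive (hcard : Nat.card (Sylow 7 G) = 15)
    (h3 : IsMultiplyPretransitive G (Sylow 7 G) 3) : False := by
  have P : Sylow 7 G := Classical.arbitrary _
  obtain ⟨β, hβ⟩ := exists_ne hcard P
  obtain ⟨γ, hγP, hγ⟩ := exists_other hcard P β hβ
  -- another point of the orbit
  obtain ⟨β', hβ'O, hβ'⟩ : ∃ β' ∈ orbit P β, β' ≠ β := by
    by_contra hcon
    push Not at hcon
    have h1 : orbit P β ⊆ {β} := fun δ hδ => hcon δ hδ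
    have h2 := Set.ncard_le_ncard h1 (Set.toFinite _)
    rw [Set.ncard_singleton, ← Nat.card_coe_set_eq, card_orbit_eq hcard P β hβ] at h2
    omega
  have hPO : P ∉ orbit P β := by
    rintro ⟨x, hx⟩
    have h1 : x⁻¹ • (x • β) = x⁻¹ • P := by
      have : x • β = P := hx
      rw [this]
    rw [inv_smul_smul] at h1
    apply hβ
    rw [h1]
    exact (fixed_iff P P).mpr rfl _ (x⁻¹).2
  have hβ'P : β' ≠ P := fun h => hPO (h ▸ hβ'O)
  have hγβ : γ ≠ β := by
    rintro rfl
    exact hγ (mem_orbit_self _)
  let f1 : Fin 3 ↪ Sylow 7 G := ⟨![P, β, β'], by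
    intro i j hij
    fin_cases i <;> fin_cases j <;> simp_all [eq_comm]⟩
  let f2 : Fin 3 ↪ Sylow 7 G := ⟨![P, β, γ], by
    intro i j hij
    fin_cases i <;> fin_cases j <;> simp_all [eq_comm]⟩
  obtain ⟨g, hg⟩ := (isMultiplyPretransitive_iff.mp h3) f1 f2
  have e0 : g • P = P := DFunLike.congr_fun hg 0
  have e1 : g • β = β := DFunLike.congr_fun hg 1
  have e2 : g • β' = γ := DFunLike.congr_fun hg 2
  apply hγ
  obtain ⟨⟨x, hx⟩, hxβ⟩ := hβ'O
  have hxβ' : x • β = β' := hxβ
  have hgn : g ∈ normalizer (P : Set G) := Sylow.smul_eq_iff_mem_normalizer.mp e0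
  have hgx : g * x * g⁻¹ ∈ P := (mem_normalizer_iff.mp hgn x).mp hx
  refine ⟨⟨g * x * g⁻¹, hgx⟩, ?_⟩
  show (g * x * g⁻¹) • β = γ
  rw [mul_smul, mul_smul, inv_smul_eq_iff.mpr e1.symm, hxβ', e2]

theorem card_sylow_eq_seven (hcard : Nat.card (Sylow 7 G) = 15)
    (hfaith : ∀ g : G, (∀ Q : Sylow 7 G, g • Q = Q) → g = 1) (P : Sylow 7 G) : Nat.card P = 7 := by
  obtain ⟨β, hβ⟩ := exists_ne hcard P
  have hO := card_orbit_eq hcard P β hβ
  have hst : Nat.card (orbit P β) * Nat.card (stabilizer P β) = Nat.card P := by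
    have h1 : (stabilizer P β).index = (orbit P β).ncard := index_stabilizer P β
    rw [Nat.card_coe_set_eq, ← h1, mul_comm]
    exact card_mul_index _
  rw [hO] at hst
  by_contra hne
  have hstab : Nat.card (stabilizer P β) ≠ 1 := by
    intro h
    rw [h] at hst
    omega
  have hnb : stabilizer P β ≠ ⊥ := fun h => hstab (by rw [h]; exact card_bot)
  obtain ⟨x, hxs, hx1⟩ := (stabilizer P β).bot_or_exists_ne_one.resolve_left hnb
  have hxβ : (x : G) • β = β := hxs
  have hx1' : (x : G) ≠ 1 := fun h => hx1 (Subtype.ext h)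
  have hxP : (x : G) • P = P := (fixed_iff P P).mpr rfl x x.2
  set O : Set (Sylow 7 G) := orbit P β with hOdef
  have hPO : P ∉ O := by
    rintro ⟨y, hy⟩
    have h1 : y⁻¹ • (y • β) = y⁻¹ • P := by
      have : y • β = P := hy
      rw [this]
    rw [inv_smul_smul] at h1
    apply hβ
    rw [h1]
    exact (fixed_iff P P).mpr rfl _ (y⁻¹).2
  set s : Set (Sylow 7 G) := insert P O with hs
  have hsn : s.ncard = 7 + 1 := by
    rw [hs, Set.ncard_insert_of_notMem hPO, ← Nat.card_coe_set_eq, hO]
  have hxs' : ∀ γ ∈ s, (x : G) • γ = γ := by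
    rintro γ (rfl | hγ)
    · exact hxP
    · exact fixes_orbit hcard P β γ hβ x.2 hxβ hγ
  have hcompl : sᶜ.ncard = 7 := by
    have := Set.ncard_add_ncard_compl s
    rw [hcard, hsn] at this
    omega
  -- x moves a point
  obtain ⟨γ, hγ⟩ : ∃ γ : Sylow 7 G, (x : G) • γ ≠ γ := by
    by_contra hcon
    push Not at hcon
    exact hx1' (hfaith x hcon)
  have hz : IsPGroup 7 (zpowers (x : G)) := P.isPGroup'.to_le (zpowers_le.mpr x.2)
  have hzfix : ∀ y ∈ zpowers (x : G), ∀ δ ∈ s, y • δ = δ := by
    intro y hy δ hδ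
    obtain ⟨n, rfl⟩ := mem_zpowers_iff.mp hy
    have : (x : G) ∈ stabilizer G δ := hxs' δ hδ
    exact (stabilizer G δ).zpow_mem this n
  have hsub : orbit (zpowers (x : G)) γ ⊆ sᶜ := by
    rintro _ ⟨⟨y, hy⟩, rfl⟩ hmem
    have h1 := hzfix y⁻¹ ((zpowers (x : G)).inv_mem hy) _ hmem
    have h2 : γ = y • γ := by
      have h3 : y⁻¹ • (y • γ) = y • γ := h1
      rw [inv_smul_smul] at h3
      exact h3
    apply hγ
    apply hxs'
    rw [h2]
    exact hmem
  have horb : orbit (zpowers (x : G)) γ = sᶜ := by
    apply Set.eq_of_subset_of_ncard_le hsub _ (Set.toFinite _)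
    rw [hcompl, ← Nat.card_coe_set_eq]
    obtain ⟨k, hk⟩ := hz.card_orbit γ
    rw [hk]
    rcases Nat.eq_zero_or_pos k with rfl | hkpos
    · exfalso
      rw [pow_zero] at hk
      have h1 := (Nat.card_eq_one_iff_unique.mp hk).1
      have h2 : (⟨(⟨x, mem_zpowers (x : G)⟩ : zpowers (x : G)) • γ, mem_orbit γ _⟩ : orbit (zpowers (x : G)) γ) = ⟨γ, mem_orbit_self γ⟩ :=
        Subsingleton.elim _ _
      exact hγ (congrArg Subtype.val h2)
    · calc 7 = 7 ^ 1 := by norm_num
        _ ≤ 7 ^ k := Nat.pow_le_pow_right (by norm_num) hkpos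
  have hzle : zpowers (x : G) ≤ fixingSubgroup G s := by
    intro y hy
    rw [mem_fixingSubgroup_iff]
    exact fun δ hδ => hzfix y hy δ hδ
  have htr : IsPretransitive (fixingSubgroup G s) (SubMulAction.ofFixingSubgroup G s) := by
    rw [isPretransitive_iff]
    have key : ∀ δ : SubMulAction.ofFixingSubgroup G s, ∃ y ∈ zpowers (x : G), y • γ = δ := by
      rintro ⟨δ, hδ⟩
      have hδ' : δ ∈ sᶜ := hδ
      rw [← horb] at hδ'
      obtain ⟨⟨y, hy⟩, hyδ⟩ := hδ'
      exact ⟨y, hy, hyδ⟩
    intro a b
    obtain ⟨y, hy, hya⟩ := key a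
    obtain ⟨z, hz', hzb⟩ := key b
    refine ⟨⟨z * y⁻¹, (fixingSubgroup G s).mul_mem (hzle hz') ((fixingSubgroup G s).inv_mem (hzle hy))⟩, ?_⟩
    apply Subtype.ext
    show (z * y⁻¹) • (a : Sylow 7 G) = b
    rw [← hya, ← hzb, mul_smul, inv_smul_smul]
  have hcardT : Nat.card (SubMulAction.ofFixingSubgroup G s) = 7 := by
    refine Eq.trans ?_ hcompl
    exact Nat.card_coe_set_eq sᶜ
  have hpre : IsPreprimitive (fixingSubgroup G s) (SubMulAction.ofFixingSubgroup G s) := by
    apply IsPreprimitive.of_prime_card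
    rw [hcardT]
    norm_num
  have h9 := (preprimitive hcard).isMultiplyPreprimitive (s := s) (n := 7) hsn (by rw [hcard]; norm_num) hpre
  have h9' : IsMultiplyPretransitive G (Sylow 7 G) 9 := h9.isMultiplyPretransitive
  apply not_three_transitive hcard
  apply isMultiplyPretransitive_of_le' (n := 9) (by norm_num)
  rw [ENat.card_eq_coe_natCard, hcard]
  norm_num


theorem stab_trivial (hcard : Nat.card (Sylow 7 G) = 15)
    (hfaith : ∀ g : G, (∀ Q : Sylow 7 G, g • Q = Q) → g = 1) (P β : Sylow 7 G) (hβ : β ≠ P) {x : G}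
    (hx : x ∈ P) (hxβ : x • β = β) : x = 1 := by
  have hst : Nat.card (orbit P β) * Nat.card (stabilizer P β) = Nat.card P := by
    have h1 : (stabilizer P β).index = (orbit P β).ncard := index_stabilizer P β
    rw [Nat.card_coe_set_eq, ← h1, mul_comm]
    exact card_mul_index _
  rw [card_orbit_eq hcard P β hβ, card_sylow_eq_seven hcard hfaith P] at hst
  have h1 : Nat.card (stabilizer P β) = 1 := by omega
  have h2 : stabilizer P β = ⊥ := card_eq_one.mp h1
  have h3 : (⟨x, hx⟩ : P) ∈ stabilizer P β := hxβ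
  rw [h2, mem_bot] at h3
  exact congrArg Subtype.val h3

theorem centralizer_stab (hcard : Nat.card (Sylow 7 G) = 15)
    (hfaith : ∀ g : G, (∀ Q : Sylow 7 G, g • Q = Q) → g = 1) (P β : Sylow 7 G) (hβ : β ≠ P) {c : G}
    (hc : c ∈ centralizer (P : Set G)) (hcβ : c • β = β) : c = 1 := by
  have hcomm : ∀ x ∈ P, x * c = c * x := mem_centralizer_iff.mp hc
  have hcP : c • P = P := Sylow.smul_eq_iff_mem_normalizer.mpr (centralizer_le_normalizer _ hc)
  have hO1 : ∀ δ ∈ orbit P β, c • δ = δ := by
    rintro _ ⟨⟨x, hx⟩, rfl⟩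
    show c • x • β = x • β
    rw [← mul_smul, ← hcomm x hx, mul_smul, hcβ]
  obtain ⟨γ, hγP, hγ⟩ := exists_other hcard P β hβ
  have huniv : ∀ δ : Sylow 7 G, δ = P ∨ δ ∈ orbit P β ∨ δ ∈ orbit P γ := by
    by_contra hcon
    push Not at hcon
    obtain ⟨δ, hδP, hδβ, hδγ⟩ := hcon
    have hd1 : Disjoint (orbit P β) (orbit P γ) := by
      rw [Set.disjoint_left]
      intro ε h1 h2
      apply hγ
      rw [← orbit_eq_iff.mpr h1, orbit_eq_iff.mpr h2]
      exact mem_orbit_self γ
    have hPmem : ∀ ε : Sylow 7 G, ε ≠ P → P ∉ orbit P ε := by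
      rintro ε hε ⟨y, hy⟩
      have h1 : y⁻¹ • (y • ε) = y⁻¹ • P := by
        have : y • ε = P := hy
        rw [this]
      rw [inv_smul_smul] at h1
      apply hε
      rw [h1]
      exact (fixed_iff P P).mpr rfl _ (y⁻¹).2
    have h3 : (insert P (insert δ (orbit P β ∪ orbit P γ))).ncard = 16 := by
      rw [Set.ncard_insert_of_notMem, Set.ncard_insert_of_notMem, Set.ncard_union_eq hd1,
        ← Nat.card_coe_set_eq, ← Nat.card_coe_set_eq, card_orbit_eq hcard P β hβ, card_orbit_eq hcard P γ hγP]
      · rintro (h | h)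
        · exact hδβ h
        · exact hδγ h
      · rintro (h | h | h)
        · exact hδP h.symm
        · exact hPmem β hβ h
        · exact hPmem γ hγP h
    have h4 := Set.ncard_le_ncard (Set.subset_univ (insert P (insert δ (orbit P β ∪ orbit P γ)))) (Set.toFinite _)
    rw [h3, Set.ncard_univ, hcard] at h4
    omega
  have hcγ : c • γ ∈ orbit P γ := by
    rcases huniv (c • γ) with h | h | h
    · exfalso
      apply hγP
      have : c • γ = c • P := by rw [h, hcP]
      exact MulAction.injective c this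
    · exfalso
      apply hγ
      have h1 := hO1 _ h
      have h2 := MulAction.injective c h1
      rw [← h2]
      exact h
    · exact h
  obtain ⟨⟨y, hy⟩, hyγ⟩ := hcγ
  have hyγ' : y • γ = c • γ := hyγ
  have hpow : ∀ n : ℕ, c ^ n • γ = y ^ n • γ := by
    intro n
    induction n with
    | zero => simp
    | succ n ih =>
      have hcomm' : c * y ^ n = y ^ n * c := (((show Commute y c from hcomm y hy).pow_left n).eq).symm
      rw [pow_succ', mul_smul, ih, ← mul_smul, hcomm', mul_smul, ← hyγ', ← mul_smul, ← pow_succ]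
  have hy7 : y ^ 7 = 1 := by
    have h1 : (⟨y, hy⟩ : P) ^ Nat.card P = 1 := pow_card_eq_one'
    rw [card_sylow_eq_seven hcard hfaith P] at h1
    exact congrArg Subtype.val h1
  have hc7 : c ^ 7 = 1 := by
    apply hfaith
    intro δ
    rcases huniv δ with rfl | h | h
    · have : c ∈ stabilizer G δ := hcP
      exact (stabilizer G δ).pow_mem this 7
    · have : c ∈ stabilizer G δ := hO1 δ h
      exact (stabilizer G δ).pow_mem this 7
    · obtain ⟨⟨x, hx⟩, rfl⟩ := h
      show c ^ 7 • x • γ = x • γ
      have hcomm' : c ^ 7 * x = x * c ^ 7 := (((show Commute x c from hcomm x hx).pow_right 7).eq).symm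
      rw [← mul_smul, hcomm', mul_smul, hpow, hy7, one_smul]
  have hz : IsPGroup 7 (zpowers c) := by
    apply IsPGroup.of_card_dvd_pow (n := 1)
    rw [Nat.card_zpowers, pow_one]
    exact orderOf_dvd_of_pow_eq_one hc7
  have hcP' : c ∈ P := by
    have h1 := IsPGroup.inf_normalizer_sylow hz P
    have h2 : c ∈ zpowers c ⊓ normalizer (P : Set G) :=
      ⟨mem_zpowers c, centralizer_le_normalizer _ hc⟩
    rw [h1] at h2
    exact h2.2
  exact stab_trivial hcard hfaith P β hβ hcP' hcβ


theorem card_centralizer_eq_orbit (hcard : Nat.card (Sylow 7 G) = 15)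
    (hfaith : ∀ g : G, (∀ Q : Sylow 7 G, g • Q = Q) → g = 1) (P : Sylow 7 G) :
    Nat.card (centralizer (P : Set G)) = 7 ∨ Nat.card (centralizer (P : Set G)) = 14 := by
  obtain ⟨β, hβ⟩ := exists_ne hcard P
  set C := centralizer (P : Set G) with hC
  have hst : Nat.card (orbit C β) * Nat.card (stabilizer C β) = Nat.card C := by
    have h1 : (stabilizer C β).index = (orbit C β).ncard := index_stabilizer C β
    rw [Nat.card_coe_set_eq, ← h1, mul_comm]
    exact card_mul_index _
  have hst1 : stabilizer C β = ⊥ := by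
    rw [eq_bot_iff]
    rintro ⟨c, hc⟩ hcβ
    rw [mem_bot]
    apply Subtype.ext
    exact centralizer_stab hcard hfaith P β hβ hc hcβ
  rw [hst1, card_bot, mul_one] at hst
  have hle : Nat.card (orbit C β) ≤ 14 := by
    have h1 : orbit C β ⊆ {P}ᶜ := by
      rintro _ ⟨⟨c, hc⟩, rfl⟩ h
      have hcP : c • P = P := Sylow.smul_eq_iff_mem_normalizer.mpr (centralizer_le_normalizer _ hc)
      have h2 : c • β = P := h
      apply hβ
      rw [← hcP] at h2
      exact MulAction.injective c h2
    have h2 := Set.ncard_le_ncard h1 (Set.toFinite _)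
    have h3 := Set.ncard_add_ncard_compl ({P} : Set (Sylow 7 G))
    rw [Set.ncard_singleton, hcard] at h3
    rw [Nat.card_coe_set_eq]
    omega
  have hPC : (P : Subgroup G) ≤ C := by
    have hPc : IsMulCommutative (P : Subgroup G) := by
      have hcyc : IsCyclic P := isCyclic_of_prime_card (card_sylow_eq_seven hcard hfaith P)
      infer_instance
    exact le_centralizer (P : Subgroup G)
  have hdvd : 7 ∣ Nat.card C := by
    have := card_dvd_of_le hPC
    rwa [card_sylow_eq_seven hcard hfaith P] at this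
  have hpos : 0 < Nat.card C := Nat.card_pos
  omega

theorem card_centralizer (hcard : Nat.card (Sylow 7 G) = 15)
    (hfaith : ∀ g : G, (∀ Q : Sylow 7 G, g • Q = Q) → g = 1)
    (hnorm : ∀ N : Subgroup G, N.Normal → ¬ 7 ∣ N.index → N = ⊤) (P : Sylow 7 G) :
    Nat.card (centralizer (P : Set G)) = 7 := by
  classical
  rcases card_centralizer_eq_orbit hcard hfaith P with h | h
  · exact h
  · exfalso
    have : Fact (Nat.Prime 2) := ⟨Nat.prime_two⟩
    obtain ⟨⟨t, htC⟩, ht⟩ := exists_prime_orderOf_dvd_card' (G := centralizer (P : Set G)) 2 (by rw [h]; norm_num)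
    have ht2 : orderOf t = 2 := by rw [← ht]; exact (orderOf_mk t htC).symm ▸ rfl
    have ht1 : t ≠ 1 := by
      rintro rfl
      rw [orderOf_one] at ht2
      omega
    have := Fintype.ofFinite (Sylow 7 G)
    let σ : Equiv.Perm (Sylow 7 G) := MulAction.toPerm t
    have hσ2 : σ ^ 2 = 1 := by
      ext1 δ
      rw [pow_two, Equiv.Perm.mul_apply, Equiv.Perm.one_apply]
      show t • t • δ = δ
      rw [← mul_smul, ← pow_two, ← ht2, pow_orderOf_eq_one, one_smul]
    have hsupp : σ.support.card = 14 := by
      have h1 : σ.support = {P}ᶜ := by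
        ext δ
        rw [Equiv.Perm.mem_support, Finset.mem_compl, Finset.mem_singleton]
        constructor
        · rintro h2 rfl
          exact h2 (Sylow.smul_eq_iff_mem_normalizer.mpr (centralizer_le_normalizer _ htC))
        · intro h2 h3
          exact ht1 (centralizer_stab hcard hfaith P δ h2 htC h3)
      rw [h1, Finset.card_compl, Finset.card_singleton, ← Nat.card_eq_fintype_card, hcard]
    have hsign : Equiv.Perm.sign σ = -1 := by
      rw [Equiv.Perm.sign_of_pow_two_eq_one hσ2, Equiv.Perm.card_fixedPoints, Equiv.Perm.sum_cycleType, hsupp,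
        ← Nat.card_eq_fintype_card, hcard]
      decide
    let φ : G →* ℤˣ := Equiv.Perm.sign.comp (MulAction.toPermHom G (Sylow 7 G))
    have hφt : φ t = -1 := hsign
    have hker : φ.ker = ⊤ := by
      apply hnorm _ inferInstance
      rw [index_ker]
      intro h7
      have h8 : Nat.card φ.range ∣ Nat.card ℤˣ := card_subgroup_dvd_card _
      have h9 : Nat.card ℤˣ = 2 := by rw [Nat.card_eq_fintype_card]; rfl
      rw [h9] at h8
      have := h7.trans h8
      omega
    have h10 : t ∈ φ.ker := hker ▸ mem_top t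
    rw [MonoidHom.mem_ker, hφt] at h10
    exact absurd h10 (by decide)

/-- order of the automizer -/
theorem relIndex_centralizer_dvd {p : ℕ} [Fact p.Prime] (H : Subgroup G) (hH : Nat.card H = p) :
    (centralizer (H : Set G)).relIndex (normalizer (H : Set G)) ∣ p - 1 := by
  have key := card_dvd_of_injective _ (QuotientGroup.kerLift_injective H.normalizerMonoidHom)
  rw [normalizerMonoidHom_ker, ← index, ← relIndex] at key
  have hcyc : IsCyclic H := isCyclic_of_prime_card hH
  rw [IsCyclic.card_mulAut, hH, Nat.totient_prime Fact.out] at key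
  exact key


theorem no_burnside {p : ℕ} [Fact p.Prime] (hp7 : p ≠ 7)
    (hnorm : ∀ N : Subgroup G, N.Normal → ¬ 7 ∣ N.index → N = ⊤) (S : Sylow p G) (hS : Nat.card S = p)
    (h : normalizer (S : Set G) ≤ centralizer (S : Set G)) : False := by
  have h1 := MonoidHom.ker_transferSylow_isComplement' S h
  have h2 : (MonoidHom.transferSylow S h).ker.index = p := by
    rw [h1.symm.index_eq_card]
    exact hS
  have h3 : (MonoidHom.transferSylow S h).ker = ⊤ := by
    apply hnorm _ inferInstance
    rw [h2]
    intro h7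
    rcases (Nat.dvd_prime Fact.out).mp h7 with h4 | h4
    · omega
    · exact hp7 h4.symm
  rw [h3, index_top] at h2
  exact (Fact.out : p.Prime).one_lt.ne h2

theorem final (hcard : Nat.card (Sylow 7 G) = 15)
    (hfaith : ∀ g : G, (∀ Q : Sylow 7 G, g • Q = Q) → g = 1)
    (hnorm : ∀ N : Subgroup G, N.Normal → ¬ 7 ∣ N.index → N = ⊤) : False := by
  have P : Sylow 7 G := Classical.arbitrary _
  have hP7 := card_sylow_eq_seven hcard hfaith P
  have hC := card_centralizer hcard hfaith hnorm P
  have hCN : centralizer (P : Set G) ≤ normalizer (P : Set G) := centralizer_le_normalizer _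
  have he : (centralizer (P : Set G)).relIndex (normalizer (P : Set G)) ∣ 7 - 1 :=
    relIndex_centralizer_dvd (P : Subgroup G) hP7
  set e := (centralizer (P : Set G)).relIndex (normalizer (P : Set G)) with hedef
  have h1 : e * (normalizer (P : Set G)).index = (centralizer (P : Set G)).index := relIndex_mul_index hCN
  have h2 : (normalizer (P : Set G)).index = 15 := by rw [← P.card_eq_index_normalizer, hcard]
  have h3 : Nat.card (centralizer (P : Set G)) * (centralizer (P : Set G)).index = Nat.card G := card_mul_index _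
  have hG : Nat.card G = 105 * e := by
    rw [← h3, hC, ← h1, h2]; ring
  have he' : e ∈ Nat.divisors 6 := by
    rw [Nat.mem_divisors]; exact ⟨he, by norm_num⟩
  have h6 : Nat.divisors 6 = {1, 2, 3, 6} := by decide
  rw [h6] at he'
  simp only [Finset.mem_insert, Finset.mem_singleton] at he'
  have : Fact (Nat.Prime 2) := ⟨Nat.prime_two⟩
  have : Fact (Nat.Prime 5) := ⟨by norm_num⟩
  -- even case
  have heven : ∀ m : ℕ, Nat.card G = 2 * m → ¬ 2 ∣ m → False := by
    intro m hm hm2
    have S : Sylow 2 G := Classical.arbitrary _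
    have hS : Nat.card S = 2 := by
      rw [S.card_eq_multiplicity, hm]
      have hm0 : m ≠ 0 := by rintro rfl; exact hm2 (dvd_zero _)
      rw [Nat.factorization_mul (by norm_num) hm0, Finsupp.add_apply,
        Nat.factorization_eq_zero_of_not_dvd hm2, Nat.Prime.factorization_self Nat.prime_two]
      rfl
    have hmf : (Nat.card G).minFac = 2 := by
      rw [Nat.minFac_eq_two_iff, hm]
      exact dvd_mul_right _ _
    have hcyc : IsCyclic S := isCyclic_of_prime_card hS
    exact no_burnside (by norm_num) hnorm S hS (hcyc.normalizer_le_centralizer hmf)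
  -- odd case
  have hodd : ∀ m : ℕ, Nat.card G = 5 * m → (m = 21 ∨ m = 63) → False := by
    intro m hm hm2
    have Q : Sylow 5 G := Classical.arbitrary _
    have hQ : Nat.card Q = 5 := by
      rw [Q.card_eq_multiplicity, hm]
      have hm0 : m ≠ 0 := by omega
      have hm5 : ¬ 5 ∣ m := by omega
      rw [Nat.factorization_mul (by norm_num) hm0, Finsupp.add_apply,
        Nat.factorization_eq_zero_of_not_dvd hm5, Nat.Prime.factorization_self (by norm_num)]
      rfl
    have hn5 : Nat.card (Sylow 5 G) = (normalizer (Q : Set G)).index := Q.card_eq_index_normalizer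
    have hn5' : Nat.card (Sylow 5 G) ∣ m := by
      have h4 := Q.card_dvd_index
      have h5 : Nat.card Q * (Q : Subgroup G).index = Nat.card G := card_mul_index _
      rw [hQ, hm] at h5
      have h6 : (Q : Subgroup G).index = m := by omega
      rwa [h6] at h4
    have hmod : Nat.card (Sylow 5 G) % 5 = 1 := card_sylow_modEq_one 5 G
    have h63 : Nat.card (Sylow 5 G) ∈ Nat.divisors 63 := by
      rw [Nat.mem_divisors]
      refine ⟨hn5'.trans ?_, by norm_num⟩
      rcases hm2 with rfl | rfl <;> norm_num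
    have h63' : Nat.divisors 63 = {1, 3, 7, 9, 21, 63} := by decide
    rw [h63'] at h63
    simp only [Finset.mem_insert, Finset.mem_singleton] at h63
    have hn : Nat.card (Sylow 5 G) = 1 ∨ Nat.card (Sylow 5 G) = 21 := by
      rcases h63 with h | h | h | h | h | h <;> rw [h] at hmod <;> first | (left; exact h) | (right; exact h) | omega
    have hCN5 : centralizer (Q : Set G) ≤ normalizer (Q : Set G) := centralizer_le_normalizer _
    have hr : (centralizer (Q : Set G)).relIndex (normalizer (Q : Set G)) ∣ 5 - 1 :=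
      relIndex_centralizer_dvd (Q : Subgroup G) hQ
    rcases hn with hn | hn
    · -- Q is normal, so P centralizes Q
      have h4 : (normalizer (Q : Set G)) = ⊤ := by
        rw [← index_eq_one, ← hn5, hn]
      have h5 : (P : Subgroup G) ≤ centralizer (Q : Set G) := by
        rw [← relIndex_eq_one]
        have hCn : (centralizer (Q : Set G)).Normal := by
          have hQn : (Q : Subgroup G).Normal := normalizer_eq_top_iff.mp h4
          show (centralizer ((Q : Subgroup G) : Set G)).Normal
          infer_instance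
        have h6 : (centralizer (Q : Set G)).relIndex (P : Subgroup G) ∣ (centralizer (Q : Set G)).index :=
          relIndex_dvd_index_of_normal _ _
        have h7 : (centralizer (Q : Set G)).relIndex (P : Subgroup G) ∣ Nat.card P := relIndex_dvd_card _ _
        rw [h4, relIndex_top_right] at hr
        have h8 := h6.trans hr
        rw [hP7] at h7
        exact Nat.Coprime.eq_one_of_dvd (by norm_num) (Nat.dvd_gcd h7 h8) |> fun h => by
          simpa using h
      have h6 : (Q : Subgroup G) ≤ centralizer (P : Set G) := by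
        intro q hq
        rw [mem_centralizer_iff]
        intro x hx
        exact (mem_centralizer_iff.mp (h5 hx) q hq).symm
      have h7 := card_dvd_of_le h6
      rw [hQ, hC] at h7
      omega
    · -- N(Q) has order 5 or 15
      have h4 : Nat.card (normalizer (Q : Set G)) * 21 = 5 * m := by
        rw [← hn, hn5, card_mul_index, hm]
      apply no_burnside (by norm_num) hnorm Q hQ
      rw [← relIndex_eq_one]
      have h5 : (centralizer (Q : Set G)).relIndex (normalizer (Q : Set G)) ∣ Nat.card (normalizer (Q : Set G)) :=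
        relIndex_dvd_card _ _
      have h6 : Nat.card (normalizer (Q : Set G)) = 5 ∨ Nat.card (normalizer (Q : Set G)) = 15 := by omega
      have h7 : Nat.Coprime (Nat.card (normalizer (Q : Set G))) (5 - 1) := by
        rcases h6 with h6 | h6 <;> rw [h6] <;> norm_num
      exact Nat.Coprime.eq_one_of_dvd (by exact Nat.Coprime.coprime_dvd_left h5 h7) hr
  rcases he' with he' | he' | he' | he'
  · exact hodd 21 (by rw [hG, he']) (Or.inl rfl)
  · exact heven 105 (by rw [hG, he']) (by norm_num)
  · exact hodd 63 (by rw [hG, he']) (Or.inr rfl)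
  · exact heven 315 (by rw [hG, he']) (by norm_num)

end setup

theorem main (n : ℕ) : ∀ {G : Type*} [Group G] [Finite G], Nat.card G = n → Nat.card (Sylow 7 G) ≠ 15 := by
  induction n using Nat.strong_induction_on with
  | _ n ih =>
    intro G _ _ hn hcard
    apply final hcard
    · -- faithful
      intro g hg
      by_contra hg1
      let K := (MulAction.toPermHom G (Sylow 7 G)).ker
      have hmem : ∀ x : G, x ∈ K ↔ ∀ Q : Sylow 7 G, x • Q = Q := by
        intro x
        rw [MonoidHom.mem_ker, Equiv.ext_iff]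
        rfl
      have hK : ∀ P : Sylow 7 G, K ≤ normalizer (P : Set G) := by
        intro P x hx
        exact Sylow.smul_eq_iff_mem_normalizer.mp ((hmem x).mp hx P)
      have h1 := H74.SylowCount.card_sylow_quotient K hK
      have h2 : Nat.card (G ⧸ K) < n := by
        rw [← hn, ← card_mul_index K, ← index_eq_card]
        have h3 : 1 < Nat.card K := by
          rw [one_lt_card_iff_ne_bot]
          intro h
          have : g ∈ K := (hmem g).mpr hg
          rw [h, mem_bot] at this
          exact hg1 this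
        have h4 : 0 < K.index := Nat.pos_of_ne_zero index_ne_zero_of_finite
        nlinarith
      exact ih _ h2 rfl (h1.trans hcard)
    · intro N hN h7
      by_contra hne
      have h1 := H74.SylowCount.card_sylow_of_not_dvd_index N h7
      have h2 : Nat.card N < n := by
        rw [← hn, ← card_mul_index N]
        have h3 : 1 < N.index := by
          have h4 : N.index ≠ 0 := index_ne_zero_of_finite
          have h5 : N.index ≠ 1 := fun h => hne (index_eq_one.mp h)
          omega
        have h4 : 0 < Nat.card N := Nat.card_pos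
        nlinarith
      exact ih _ h2 rfl (h1.trans hcard)

/-- No finite group has exactly 15 Sylow 7-subgroups. -/
theorem result {G : Type*} [Group G] [Finite G] : Nat.card (Sylow 7 G) ≠ 15 :=
  main (Nat.card G) rfl

end Cfsg.Agent.S4304
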