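import Cfsg.Statements.S4305
import Cfsg.Agent.Lib.H1.S3e

set_option autoImplicit false
open Cfsg

namespace Cfsg.Agent.S4305

/-- Let the symmetric group of degree 3 act by automorphisms on a finite solvable group `G` of order prime to 6, so that only the identity of `G` is fixed by all of it. Then the derived subgroup of `G` is nilpotent. -/
theorem result {G : Type*} [Group G] [Finite G] [Group.IsSolvable G]
    [MulDistribMulAction (Equiv.Perm (Fin 3)) G] (hcop : (Nat.card G).Coprime 6)
    (hfpf : ∀ g : G, (∀ a : Equiv.Perm (Fin 3), a • g = g) → g = 1) :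
    Group.IsNilpotent ↥(commutator G) := by
  classical
  let A := Equiv.Perm (Fin 3)
  obtain ⟨C, hC⟩ := H1.PQ.exists_pqgrp (A := A) Nat.prime_three Nat.prime_two (by norm_num) (by
    rw [Nat.card_eq_fintype_card, Fintype.card_perm]; rfl)
    ⟨Equiv.swap 0 1, Equiv.swap 1 2, by decide⟩
  let φ : A →* MulAut G := MulDistribMulAction.toMulAut A G
  let Γ := G ⋊[φ] A
  haveI : Finite Γ := Finite.of_equiv _ SemidirectProduct.equivProd.symm
  set i : G →* Γ := SemidirectProduct.inl with hi
  set j : A →* Γ := SemidirectProduct.inr with hj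
  have hii : Function.Injective i := SemidirectProduct.inl_injective
  have hji : Function.Injective j := SemidirectProduct.inr_injective
  set X : Subgroup Γ := i.range with hX
  haveI hXn : X.Normal := by
    rw [hX, hi, SemidirectProduct.range_inl_eq_ker_rightHom]; infer_instance
  have eX : G ≃* X := MonoidHom.ofInjective hii
  have hcX : Nat.card X = Nat.card G := (Nat.card_congr eX.toEquiv).symm
  haveI hs' : Group.IsSolvable X := Group.isSolvable_of_surjective (f := (eX : G →* X)) eX.surjective
  have hG : H1.PQ.PQGrp ((⊤ : Subgroup A).map j) (C.map j) 3 2 := hC.map j (fun a _ h => hji (by rw [h, map_one]))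
  have hle : commutator X ≤ H1.Fts.Ft X 1 := by
    refine H1.PQ.commutator_le_Ft hG hs' ?_ ?_
    · rw [hG.hA, hcX]; exact hcop.symm
    · rw [eq_bot_iff]
      rintro _ ⟨⟨g, rfl⟩, hx⟩
      rw [Subgroup.mem_bot]
      have h1 : g = 1 := by
        apply hfpf
        intro a
        have h2 := Subgroup.mem_centralizer_iff.mp hx (j a) ⟨a, Subgroup.mem_top _, rfl⟩
        apply hii
        have h3 : i (φ a g) = j a * i g * (j a)⁻¹ := by
          rw [hi, SemidirectProduct.inl_aut, map_inv]
        have h4 : i (a • g) = i (φ a g) := rfl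
        rw [h4, h3, h2, mul_inv_cancel_right]
      rw [h1, map_one]
  -- nilpotency of `Ft X 1`
  have hnil : Group.IsNilpotent (H1.Fts.Ft X 1) := by
    have h1 : Group.IsNilpotent ((H1.Fts.Ft X 1).map (QuotientGroup.mk' (H1.Fts.Ft X 0))) := by
      have h2 : ((H1.Fts.Ft X 1).map (QuotientGroup.mk' (H1.Fts.Ft X 0))) = Cfsg.fittingSubgroup (X ⧸ H1.Fts.Ft X 0) := by
        rw [H1.Fts.Ft_succ, Subgroup.map_comap_eq_self_of_surjective (QuotientGroup.mk'_surjective _)]
      rw [h2]; exact H1.Cores.isNilpotent_fittingSubgroup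
    obtain ⟨k, hk⟩ := (Subgroup.isNilpotent_iff_lowerCentralSeries _).mp h1
    rw [← Subgroup.map_lowerCentralSeries, Subgroup.map_eq_bot_iff, QuotientGroup.ker_mk', H1.Fts.Ft_zero] at hk
    exact (Subgroup.isNilpotent_iff_lowerCentralSeries _).mpr ⟨k, le_bot_iff.mp hk⟩
  have h1 : Group.IsNilpotent (commutator X) := by
    have h2 : Group.IsNilpotent ((commutator X).subgroupOf (H1.Fts.Ft X 1)) := inferInstance
    exact Group.nilpotent_of_mulEquiv (Subgroup.subgroupOfEquivOfLe hle)
  have h2 : (commutator G).map (eX : G →* X) = commutator X := by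
    rw [commutator_def, commutator_def, Subgroup.map_commutator, Subgroup.map_top_of_surjective _ eX.surjective]
  have e := (commutator G).equivMapOfInjective (eX : G →* X) eX.injective
  rw [h2] at e
  exact Group.nilpotent_of_mulEquiv e.symm

end Cfsg.Agent.S4305
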