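import Cfsg.Statements.S4306
import Cfsg.Agent.Lib.H1.PQtow
import Cfsg.Agent.Lib.H1.RankFit

set_option autoImplicit false
open Cfsg

namespace Cfsg.Agent.S4306

open Subgroup in
/-- a nonabelian group of order `p q` -/
theorem exists_pqgrp {A : Type*} [Group A] [Finite A] {p q : ℕ} (hp : p.Prime) (hq : q.Prime) (hpq : p ≠ q)
    (hA : Nat.card A = p * q) (hAna : ¬ IsMulCommutative A) :
    ∃ r t : ℕ, ∃ C : Subgroup A, H1.PQ.PQGrp (⊤ : Subgroup A) C r t ∧ (r * t = p * q) := by
  have key : ∀ r t : ℕ, r.Prime → t.Prime → t < r → Nat.card A = r * t → ∃ C : Subgroup A, H1.PQ.PQGrp (⊤ : Subgroup A) C r t := by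
    intro r t hr ht htr hc
    haveI := Fact.mk hr
    obtain ⟨b, hb⟩ := exists_prime_orderOf_dvd_card' (G := A) r (by rw [hc]; exact dvd_mul_right _ _)
    have hCc : Nat.card (zpowers b) = r := by rw [Nat.card_zpowers, hb]
    have hidx : (zpowers b).index = t := by
      have h1 := (zpowers b).card_mul_index
      rw [hCc, hc] at h1
      exact Nat.eq_of_mul_eq_mul_left hr.pos h1
    have hmf : (Nat.card A).minFac = t := by
      rw [hc]
      apply le_antisymm (Nat.minFac_le_of_dvd ht.two_le (dvd_mul_left _ _))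
      have h1 : (r * t).minFac.Prime := Nat.minFac_prime (by
        intro h2
        have := Nat.eq_one_of_mul_eq_one_right h2
        exact hr.one_lt.ne' this)
      rcases (Nat.Prime.dvd_mul h1).mp (Nat.minFac_dvd _) with h2 | h2
      · rw [(Nat.prime_dvd_prime_iff_eq h1 hr).mp h2]; exact htr.le
      · rw [(Nat.prime_dvd_prime_iff_eq h1 ht).mp h2]
    haveI : (zpowers b).Normal := Subgroup.normal_of_index_eq_minFac_card (by rw [hidx, hmf])
    refine ⟨zpowers b, hr, ht, htr.ne', by rw [Subgroup.card_top, hc], le_top, hCc, ?_, ?_⟩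
    · rw [normalizer_eq_top]
    · by_contra hcon
      push Not at hcon
      exact hAna ⟨⟨fun a b => hcon a (mem_top _) b (mem_top _)⟩⟩
  rcases lt_or_gt_of_ne hpq with h | h
  · obtain ⟨C, hC⟩ := key q p hq hp h (by rw [hA, mul_comm])
    exact ⟨q, p, C, hC, mul_comm _ _⟩
  · obtain ⟨C, hC⟩ := key p q hp hq h hA
    exact ⟨p, q, C, hC, rfl⟩

/-- Let `A` be a non-abelian group of order `pq` with `p, q` distinct primes, acting by automorphisms on a finite solvable group `G` of order prime to `pq`, so that only the identity of `G` is fixed by all of `A`. Then `G` has Fitting height at most 2: there is a normal nilpotent subgroup `F` of `G` with `G/F` nilpotent. -/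
theorem result {G A : Type*} [Group G] [Finite G]
    [Group.IsSolvable G] [Group A] [Finite A] [MulDistribMulAction A G] (p q : ℕ) (hp : p.Prime) (hq : q.Prime) (hpq : p ≠ q)
    (hA : Nat.card A = p * q) (hAna : ¬ IsMulCommutative A) (hcop : (Nat.card G).Coprime (p * q))
    (hfpf : ∀ g : G, (∀ a : A, a • g = g) → g = 1) :
    ∃ F : Subgroup G, ∃ hF : F.Normal, Group.IsNilpotent ↥F ∧ Group.IsNilpotent (G ⧸ F) := by
  classical
  obtain ⟨r, t, C, hC, hrt⟩ := exists_pqgrp hp hq hpq hA hAna
  let φ : A →* MulAut G := MulDistribMulAction.toMulAut A G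
  let Γ := G ⋊[φ] A
  haveI : Finite Γ := Finite.of_equiv _ SemidirectProduct.equivProd.symm
  set i : G →* Γ := SemidirectProduct.inl with hi
  set j : A →* Γ := SemidirectProduct.inr with hj
  have hii : Function.Injective i := SemidirectProduct.inl_injective
  have hji : Function.Injective j := SemidirectProduct.inr_injective
  set X : Subgroup Γ := i.range with hX
  haveI hXn : X.Normal := by
    rw [hX, hi, SemidirectProduct.range_inl_eq_ker_rightHom]; infer_instance
  have eX : G ≃* X := MonoidHom.ofInjective hii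
  have hcX : Nat.card X = Nat.card G := (Nat.card_congr eX.toEquiv).symm
  haveI hs' : Group.IsSolvable X := Group.isSolvable_of_surjective (f := (eX : G →* X)) eX.surjective
  have hG : H1.PQ.PQGrp ((⊤ : Subgroup A).map j) (C.map j) r t := hC.map j (fun a _ h => hji (by rw [h, map_one]))
  have hFt : H1.Fts.Ft X 2 = ⊤ := by
    refine H1.PQ.height hG hs' ?_ ?_
    · rw [hG.hA, hcX, hrt]; exact hcop.symm
    · rw [eq_bot_iff]
      rintro _ ⟨⟨g, rfl⟩, hx⟩
      rw [Subgroup.mem_bot]
      have h1 : g = 1 := by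
        apply hfpf
        intro a
        have h2 := Subgroup.mem_centralizer_iff.mp hx (j a) ⟨a, Subgroup.mem_top _, rfl⟩
        apply hii
        have h3 : i (φ a g) = j a * i g * (j a)⁻¹ := by
          rw [hi, SemidirectProduct.inl_aut, map_inv]
        have h4 : i (a • g) = i (φ a g) := rfl
        rw [h4, h3, h2, mul_inv_cancel_right]
      rw [h1, map_one]
  obtain ⟨F, h0, hl, hm, hN, hk⟩ := (H1.RankFit.chain_of_Ft 2 hFt).congr eX.symm
  haveI := hN 1
  refine ⟨F 1, hN 1, ?_, ?_⟩
  · obtain ⟨k, hk⟩ := hk 0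
    have h1 : F (Fin.castSucc (0 : Fin 2)) = ⊥ := h0
    have h2 : F (Fin.succ (0 : Fin 2)) = F 1 := rfl
    rw [h1, h2] at hk
    exact (Subgroup.isNilpotent_iff_lowerCentralSeries _).mpr ⟨k, le_bot_iff.mp hk⟩
  · obtain ⟨k, hk⟩ := hk 1
    have h1 : F (Fin.castSucc (1 : Fin 2)) = F 1 := rfl
    have h2 : F (Fin.succ (1 : Fin 2)) = ⊤ := hl
    rw [h1, h2] at hk
    have h3 : ((⊤ : Subgroup G).map (QuotientGroup.mk' (F 1))) = ⊤ :=
      Subgroup.map_top_of_surjective _ (QuotientGroup.mk'_surjective _)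
    have h4 : (⊤ : Subgroup (G ⧸ F 1)).lowerCentralSeries k = ⊥ := by
      rw [← h3, ← Subgroup.map_lowerCentralSeries, Subgroup.map_eq_bot_iff, QuotientGroup.ker_mk']
      exact hk
    have h5 := (Subgroup.isNilpotent_iff_lowerCentralSeries (⊤ : Subgroup (G ⧸ F 1))).mpr ⟨k, h4⟩
    exact Group.nilpotent_of_mulEquiv Subgroup.topEquiv

end Cfsg.Agent.S4306
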