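import Cfsg.Statements.S4309

set_option autoImplicit false
open Cfsg

namespace Cfsg.Agent.S4309

/-- Let `π` be a set of primes, `G` a finite group with a Hall `π`-subgroup `H` (every prime divisor of the order of `H` lies in `π` and no prime of `π` divides its index), and `A` a normal subgroup of `G`. Then `H ∩ A` is a Hall `π`-subgroup of `A` and the image of `H` in `G/A` is a Hall `π`-subgroup of `G/A`. -/
theorem result {G : Type*} [Group G] [Finite G] (π : Set ℕ)
    (H A : Subgroup G) [A.Normal] (hH : Cfsg.IsPiHall π H) :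
    Cfsg.IsPiHall π ((H ⊓ A).subgroupOf A) ∧ Cfsg.IsPiHall π (H.map (QuotientGroup.mk' A)) := by
  have hrel : H.relIndex A ∣ H.index := by
    have h1 : A.relIndex (H ⊔ A) = A.relIndex H := Subgroup.relIndex_sup_right _ _
    have h2 : (H ⊓ A).relIndex H * H.relIndex (H ⊔ A) = (H ⊓ A).relIndex (H ⊔ A) :=
      Subgroup.relIndex_mul_relIndex _ _ _ inf_le_left le_sup_left
    have h3 : (H ⊓ A).relIndex A * A.relIndex (H ⊔ A) = (H ⊓ A).relIndex (H ⊔ A) :=
      Subgroup.relIndex_mul_relIndex _ _ _ inf_le_right le_sup_right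
    rw [Subgroup.inf_relIndex_left] at h2
    rw [Subgroup.inf_relIndex_right, h1, ← h2, mul_comm] at h3
    have h4 : A.relIndex H ≠ 0 := Subgroup.index_ne_zero_of_finite
    have h5 := Nat.eq_of_mul_eq_mul_left (Nat.pos_of_ne_zero h4) h3
    rw [h5]
    exact Subgroup.relIndex_dvd_index_of_le le_sup_left
  refine ⟨⟨?_, ?_⟩, ⟨?_, ?_⟩⟩
  · intro p hp hpd
    apply hH.1 p hp
    have h1 : Nat.card ((H ⊓ A).subgroupOf A) = Nat.card (H ⊓ A : Subgroup G) := by
      apply Nat.card_congr
      exact (Subgroup.subgroupOfEquivOfLe inf_le_right).toEquiv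
    rw [h1] at hpd
    exact hpd.trans (Subgroup.card_dvd_of_le inf_le_left)
  · intro p hp hpπ hpd
    apply hH.2 p hp hpπ
    have h1 : ((H ⊓ A).subgroupOf A).index = H.relIndex A := Subgroup.inf_relIndex_right H A
    rw [h1] at hpd
    exact hpd.trans hrel
  · intro p hp hpd
    apply hH.1 p hp
    exact hpd.trans (Subgroup.card_map_dvd _ _)
  · intro p hp hpπ hpd
    apply hH.2 p hp hpπ
    exact hpd.trans (Subgroup.index_map_dvd _ (QuotientGroup.mk'_surjective A))

end Cfsg.Agent.S4309
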