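import Cfsg.Statements.S4314
import Mathlib
import Cfsg.Agent.Lib.H75.UnionConj
import Cfsg.Agent.Lib.H75.ClassIndex
import Cfsg.Agent.Lib.H75.Brodkey
import Cfsg.Agent.Lib.H75.SylowNumber

set_option autoImplicit false
set_option linter.all false
open Cfsg

namespace Cfsg.Agent.S4314

open Subgroup

variable {G : Type*} [Group G]

theorem mem_cent (x y : G) : y ∈ centralizer ({x} : Set G) ↔ y * x = x * y :=
  mem_centralizer_singleton_iff

/-- coprime indices: `G = K H`. -/
theorem exists_mul_of_coprime [Finite G] (H K : Subgroup G) (hc : Nat.Coprime H.index K.index) (g : G) :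
    ∃ b ∈ K, b⁻¹ * g ∈ H := by
  let f : G ⧸ (H ⊓ K) → (G ⧸ H) × (G ⧸ K) := fun q =>
    (Subgroup.quotientMapOfLE (inf_le_left : H ⊓ K ≤ H) q, Subgroup.quotientMapOfLE (inf_le_right : H ⊓ K ≤ K) q)
  have hinj : Function.Injective f := by
    intro a b hab
    induction a using QuotientGroup.induction_on with | H a => ?_
    induction b using QuotientGroup.induction_on with | H b => ?_
    have h1 : (QuotientGroup.mk a : G ⧸ H) = QuotientGroup.mk b := congrArg Prod.fst hab
    have h2 : (QuotientGroup.mk a : G ⧸ K) = QuotientGroup.mk b := congrArg Prod.snd hab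
    exact QuotientGroup.eq.2 ⟨QuotientGroup.eq.1 h1, QuotientGroup.eq.1 h2⟩
  have hdvd : H.index * K.index ∣ (H ⊓ K).index :=
    hc.mul_dvd_of_dvd_of_dvd (index_dvd_of_le inf_le_left) (index_dvd_of_le inf_le_right)
  have hpos : 0 < (H ⊓ K).index := Nat.pos_of_ne_zero index_ne_zero_of_finite
  have hcard : Nat.card (G ⧸ (H ⊓ K)) = Nat.card ((G ⧸ H) × (G ⧸ K)) := by
    apply le_antisymm (Nat.card_le_card_of_injective f hinj)
    rw [Nat.card_prod]
    exact Nat.le_of_dvd hpos hdvd
  have hbij := (Nat.bijective_iff_injective_and_card f).2 ⟨hinj, hcard⟩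
  obtain ⟨q, hq⟩ := hbij.2 (QuotientGroup.mk g, QuotientGroup.mk 1)
  induction q using QuotientGroup.induction_on with | H b => ?_
  have h1 : (QuotientGroup.mk b : G ⧸ H) = QuotientGroup.mk g := congrArg Prod.fst hq
  have h2 : (QuotientGroup.mk b : G ⧸ K) = QuotientGroup.mk 1 := congrArg Prod.snd hq
  refine ⟨b, ?_, QuotientGroup.eq.1 h1⟩
  have := K.inv_mem (QuotientGroup.eq.1 h2)
  simpa using this

/-- the conjugacy class as a set -/
def cl (y : G) : Set G := {w | ∃ g : G, g * y * g⁻¹ = w}

theorem self_mem_cl (y : G) : y ∈ cl y := ⟨1, by simp⟩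

theorem conj_mem_cl {y w : G} (h : w ∈ cl y) (g : G) : g * w * g⁻¹ ∈ cl y := by
  obtain ⟨k, rfl⟩ := h
  exact ⟨g * k, by group⟩

theorem card_cl (y : G) : Nat.card (cl y) = (centralizer ({y} : Set G)).index :=
  (H75.ClassIndex.index_centralizer_eq y).symm

/-- left stabilizer of the class of `y` -/
def St (y : G) : Subgroup G where
  carrier := {s | ∀ w, w ∈ cl y ↔ s * w ∈ cl y}
  one_mem' := by intro w; rw [one_mul]
  mul_mem' := by
    intro a b ha hb w
    rw [hb w, ha (b * w), mul_assoc]
  inv_mem' := by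
    intro a ha w
    rw [ha (a⁻¹ * w), mul_inv_cancel_left]

theorem St_normal (y : G) : (St y).Normal := by
  refine ⟨fun s hs g => ?_⟩
  intro w
  have h1 : w ∈ cl y ↔ g⁻¹ * w * g ∈ cl y := by
    constructor
    · intro h
      have := conj_mem_cl h g⁻¹
      rwa [inv_inv] at this
    · intro h
      have := conj_mem_cl h g
      have e : g * (g⁻¹ * w * g) * g⁻¹ = w := by group
      rwa [e] at this
  rw [h1, hs]
  constructor
  · intro h
    have := conj_mem_cl h g
    have e : g * (s * (g⁻¹ * w * g)) * g⁻¹ = g * s * g⁻¹ * w := by group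
    rwa [e] at this
  · intro h
    have := conj_mem_cl h g⁻¹
    have e : g⁻¹ * (g * s * g⁻¹ * w) * g⁻¹⁻¹ = s * (g⁻¹ * w * g) := by group
    rwa [e] at this

theorem card_St [Finite G] (y : G) (hq : ((centralizer ({y} : Set G)).index).Prime) (hne : St y ≠ ⊥) :
    Nat.card (St y) = (centralizer ({y} : Set G)).index := by
  set q := (centralizer ({y} : Set G)).index with hqdef
  have hle : Nat.card (St y) ≤ q := by
    rw [hqdef, ← card_cl]
    refine Nat.card_le_card_of_injective (fun s : St y => (⟨(s : G) * y, (s.2 y).1 (self_mem_cl y)⟩ : cl y)) ?_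
    intro a b hab
    have := congrArg Subtype.val hab
    exact Subtype.ext (mul_right_cancel this)
  -- an element of prime order
  have hcard : 1 < Nat.card (St y) := by
    have h1 : Nat.card (St y) ≠ 1 := fun h => hne (Subgroup.card_eq_one.1 h)
    have := Nat.card_pos (α := St y)
    omega
  obtain ⟨r, hr, hrd⟩ := Nat.exists_prime_and_dvd hcard.ne'
  haveI : Fact r.Prime := ⟨hr⟩
  obtain ⟨s, hs⟩ := exists_prime_orderOf_dvd_card' r hrd
  -- zpowers s acts on cl y
  letI : MulAction (zpowers s) (cl y) :=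
    { smul := fun t w => ⟨((t : St y) : G) * w, ((t : St y).2 w).1 w.2⟩
      one_smul := by
        intro w
        apply Subtype.ext
        show ((1 : G)) * (w : G) = w
        rw [one_mul]
      mul_smul := by
        intro a b w
        apply Subtype.ext
        show (((a : St y) : G) * ((b : St y) : G)) * (w : G) = ((a : St y) : G) * (((b : St y) : G) * w)
        rw [mul_assoc] }
  have hp : IsPGroup r (zpowers s) := IsPGroup.of_card (n := 1) (by rw [Nat.card_zpowers, hs, pow_one])
  have hmod := hp.card_modEq_card_fixedPoints (cl y)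
  have hfix : Nat.card (MulAction.fixedPoints (zpowers s) (cl y)) = 0 := by
    rw [Nat.card_eq_zero]
    left
    refine ⟨fun ⟨w, hw⟩ => ?_⟩
    have h1 := hw ⟨s, mem_zpowers s⟩
    have h2 : (s : G) * (w : G) = w := congrArg Subtype.val h1
    have h3 : (s : G) = 1 := by
      have : (s : G) * (w : G) = 1 * w := by rw [h2, one_mul]
      exact mul_right_cancel this
    have h4 : s = 1 := Subtype.ext h3
    rw [h4, orderOf_one] at hs
    exact hr.one_lt.ne hs
  rw [hfix, card_cl, ← hqdef] at hmod
  have hrq : r ∣ q := (Nat.modEq_zero_iff_dvd).1 hmod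
  have hrq' : r = q := (Nat.prime_dvd_prime_iff_eq hr hq).1 hrq
  have hge : r ≤ Nat.card (St y) := Nat.le_of_dvd Nat.card_pos hrd
  omega

/-- The main pair lemma. -/
theorem pair [Finite G]
    (h : ∀ x : G, (Subgroup.centralizer ({x} : Set G)).index = 1 ∨ ((Subgroup.centralizer ({x} : Set G)).index).Prime)
    (x y : G) (hx : ((centralizer ({x} : Set G)).index).Prime) (hy : ((centralizer ({y} : Set G)).index).Prime)
    (hlt : (centralizer ({x} : Set G)).index < (centralizer ({y} : Set G)).index) :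
    ∀ g : G, x⁻¹ * (g * x * g⁻¹) ∈ St y := by
  set p := (centralizer ({x} : Set G)).index with hp
  set q := (centralizer ({y} : Set G)).index with hq
  have hcop : Nat.Coprime p q := (Nat.coprime_primes hx hy).2 hlt.ne
  have htrans : ∀ g : G, ∀ w ∈ cl y, (g * x * g⁻¹) * w ∈ cl (x * y) := by
    rintro g w ⟨k, rfl⟩
    -- (g x g⁻¹)(k y k⁻¹)
    obtain ⟨b, hb, ha⟩ := exists_mul_of_coprime (centralizer ({x} : Set G)) (centralizer ({y} : Set G)) hcop (k⁻¹ * g)
    rw [mem_cent] at hb ha
    refine ⟨k * b, ?_⟩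
    have e1 : b * x * b⁻¹ = (k⁻¹ * g) * x * (k⁻¹ * g)⁻¹ := by
      have e2 : (b⁻¹ * (k⁻¹ * g)) * x * (b⁻¹ * (k⁻¹ * g))⁻¹ = x := by rw [ha, mul_inv_cancel_right]
      calc b * x * b⁻¹ = b * ((b⁻¹ * (k⁻¹ * g)) * x * (b⁻¹ * (k⁻¹ * g))⁻¹) * b⁻¹ := by rw [e2]
        _ = _ := by group
    have e3 : b * y * b⁻¹ = y := by rw [hb, mul_inv_cancel_right]
    calc (k * b) * (x * y) * (k * b)⁻¹ = k * ((b * x * b⁻¹) * (b * y * b⁻¹)) * k⁻¹ := by group
      _ = k * (((k⁻¹ * g) * x * (k⁻¹ * g)⁻¹) * y) * k⁻¹ := by rw [e1, e3]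
      _ = g * x * g⁻¹ * (k * y * k⁻¹) := by group
  -- sizes
  have hcl : Nat.card (cl (x * y)) = q := by
    have h1 : q ≤ Nat.card (cl (x * y)) := by
      rw [hq, ← card_cl]
      refine Nat.card_le_card_of_injective (fun w : cl y => (⟨x * w, by
        have := htrans 1 w w.2
        simpa using this⟩ : cl (x * y))) ?_
      intro a b hab
      exact Subtype.ext (mul_left_cancel (congrArg Subtype.val hab))
    have h2 : (centralizer ({x * y} : Set G)).index ∣ p * q := by
      have h3 : centralizer ({x} : Set G) ⊓ centralizer ({y} : Set G) ≤ centralizer ({x * y} : Set G) := by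
        rintro g ⟨h4, h5⟩
        have h4' : g * x = x * g := (mem_cent x g).1 h4
        have h5' : g * y = y * g := (mem_cent y g).1 h5
        rw [mem_cent]
        calc g * (x * y) = (g * x) * y := by group
          _ = x * (g * y) := by rw [h4']; group
          _ = x * y * g := by rw [h5']; group
      have h6 : (centralizer ({x} : Set G) ⊓ centralizer ({y} : Set G)).index = p * q := by
        apply le_antisymm index_inf_le
        exact Nat.le_of_dvd (Nat.pos_of_ne_zero index_ne_zero_of_finite)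
          (hcop.mul_dvd_of_dvd_of_dvd (index_dvd_of_le inf_le_left) (index_dvd_of_le inf_le_right))
      rw [← h6]
      exact index_dvd_of_le h3
    rw [card_cl] at h1 ⊢
    rcases h (x * y) with h7 | h7
    · rw [h7] at h1
      exact absurd h1 (by have := hy.one_lt; omega)
    · rcases h7.dvd_mul.1 h2 with h8 | h8
      · have := (Nat.prime_dvd_prime_iff_eq h7 hx).1 h8
        omega
      · exact (Nat.prime_dvd_prime_iff_eq h7 hy).1 h8
  have hset : ∀ g : G, ∀ w, w ∈ cl y ↔ (g * x * g⁻¹) * w ∈ cl (x * y) := by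
    intro g w
    constructor
    · exact htrans g w
    · intro hw
      let f : cl y → cl (x * y) := fun w => ⟨(g * x * g⁻¹) * w, htrans g w w.2⟩
      have hinj : Function.Injective f := by
        intro a b hab
        exact Subtype.ext (mul_left_cancel (congrArg Subtype.val hab))
      have hbij := (Nat.bijective_iff_injective_and_card f).2 ⟨hinj, by rw [hcl, card_cl]⟩
      obtain ⟨v, hv⟩ := hbij.2 ⟨_, hw⟩
      have : (g * x * g⁻¹) * (v : G) = (g * x * g⁻¹) * w := congrArg Subtype.val hv
      rw [← mul_left_cancel this]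
      exact v.2
  intro g w
  rw [hset g w]
  have h1 := hset 1 (x⁻¹ * (g * x * g⁻¹) * w)
  rw [h1]
  have e : 1 * x * 1⁻¹ * (x⁻¹ * (g * x * g⁻¹) * w) = g * x * g⁻¹ * w := by group
  rw [e]

theorem caseA [Finite G] (p : ℕ) (hp : p.Prime)
    (h : ∀ x : G, (centralizer ({x} : Set G)).index = 1 ∨ (centralizer ({x} : Set G)).index = p) :
    ∀ x y : G, x * y * x⁻¹ * y⁻¹ ∈ center G := by
  haveI : Fact p.Prime := ⟨hp⟩
  have hidx : ∃ k, (center G).index = p ^ k := by
    refine ⟨_, Nat.eq_prime_pow_of_unique_prime_dvd index_ne_zero_of_finite ?_⟩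
    intro q hq hqd
    by_contra hne
    haveI : Fact q.Prime := ⟨hq⟩
    obtain ⟨Q⟩ : Nonempty (Sylow q G) := inferInstance
    have h1 := H75.UnionConj.sylow_le_center q (by
      intro x hx
      rcases h x with h1 | h1
      · rw [h1] at hx; exact hq.one_lt.ne' (Nat.dvd_one.1 hx)
      · rw [h1] at hx; exact hne ((Nat.prime_dvd_prime_iff_eq hq hp).1 hx)) Q
    exact Q.not_dvd_index (hqd.trans (index_dvd_of_le h1))
  obtain ⟨k, hk⟩ := hidx
  have hpg : IsPGroup p (⊤ : Subgroup (G ⧸ center G)) := by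
    have : IsPGroup p (G ⧸ center G) := IsPGroup.of_card (n := k) hk
    exact this.to_subgroup ⊤
  intro x y
  rw [mem_center_iff]
  intro z
  rcases h z with h1 | h1
  · have : x * y * x⁻¹ * y⁻¹ ∈ centralizer ({z} : Set G) := by
      rw [index_eq_one] at h1; rw [h1]; trivial
    exact ((mem_cent z _).1 this).symm
  · set D := (centralizer ({z} : Set G)).map (QuotientGroup.mk' (center G)) with hD
    have hle : center G ≤ centralizer ({z} : Set G) := center_le_centralizer _
    have hDi : D.relIndex ⊤ = p := by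
      rw [relIndex_top_right, hD, index_map_eq _ (QuotientGroup.mk'_surjective _) (by rw [QuotientGroup.ker_mk']; exact hle), h1]
    have := H75.Brodkey.commutator_mem_of_index (⊤ : Subgroup (G ⧸ center G)) D hpg hDi
      (QuotientGroup.mk' _ x) trivial (QuotientGroup.mk' _ y) trivial
    obtain ⟨c, hc, hc2⟩ := this
    have h2 : QuotientGroup.mk' (center G) c = QuotientGroup.mk' (center G) (x * y * x⁻¹ * y⁻¹) := by
      rw [hc2, map_mul, map_mul, map_mul, map_inv, map_inv]
    have h3 : c⁻¹ * (x * y * x⁻¹ * y⁻¹) ∈ center G := QuotientGroup.eq.1 h2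
    have h4 : x * y * x⁻¹ * y⁻¹ ∈ centralizer ({z} : Set G) := by
      have := (centralizer ({z} : Set G)).mul_mem hc (hle h3)
      rwa [mul_inv_cancel_left] at this
    exact ((mem_cent z _).1 h4).symm

theorem upper_two (h : ∀ x y : G, x * y * x⁻¹ * y⁻¹ ∈ center G) : Subgroup.upperCentralSeries G 2 = ⊤ := by
  rw [eq_top_iff]
  intro x _
  rw [Subgroup.mem_upperCentralSeries_succ_iff]
  intro y
  rw [Subgroup.upperCentralSeries_one]
  exact h x y

theorem index_ne_one_of_not_mem_center {x : G} (hx : x ∉ center G) : (centralizer ({x} : Set G)).index ≠ 1 := by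
  intro h
  apply hx
  rw [index_eq_one] at h
  rw [mem_center_iff]
  intro g
  have : g ∈ centralizer ({x} : Set G) := by rw [h]; trivial
  exact (mem_cent x g).1 this

theorem caseB [Finite G]
    (h : ∀ x : G, (Subgroup.centralizer ({x} : Set G)).index = 1 ∨ ((Subgroup.centralizer ({x} : Set G)).index).Prime)
    (x y : G) (hx : ((centralizer ({x} : Set G)).index).Prime) (hy : ((centralizer ({y} : Set G)).index).Prime)
    (hlt : (centralizer ({x} : Set G)).index < (centralizer ({y} : Set G)).index)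
    (hmin : ∀ z : G, ((centralizer ({z} : Set G)).index).Prime → (centralizer ({x} : Set G)).index ≤ (centralizer ({z} : Set G)).index) :
    ∃ p q : ℕ, p.Prime ∧ q.Prime ∧ p ≠ q ∧ Nat.card (G ⧸ Subgroup.center G) = p * q ∧ ¬ IsMulCommutative (G ⧸ Subgroup.center G) := by
  set p := (centralizer ({x} : Set G)).index with hp
  set q := (centralizer ({y} : Set G)).index with hq
  -- some nontrivial x⁻¹ g x g⁻¹
  obtain ⟨g0, hg0⟩ : ∃ g0 : G, x⁻¹ * (g0 * x * g0⁻¹) ≠ 1 := by
    by_contra hcon
    push Not at hcon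
    apply hx.one_lt.ne'
    rw [hp, index_eq_one, eq_top_iff]
    intro g _
    rw [mem_cent]
    have := hcon g
    rw [inv_mul_eq_one] at this
    exact (mul_inv_eq_iff_eq_mul.1 this.symm)
  set t := x⁻¹ * (g0 * x * g0⁻¹) with ht
  have hSt : ∀ z : G, ((centralizer ({z} : Set G)).index).Prime → p < (centralizer ({z} : Set G)).index →
      t ∈ St z ∧ Nat.card (St z) = (centralizer ({z} : Set G)).index ∧ St z = zpowers t ∧
      orderOf t = (centralizer ({z} : Set G)).index := by
    intro z hz hpz
    have h1 : t ∈ St z := pair h x z hx hz hpz g0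
    have hne : St z ≠ ⊥ := by
      intro h2
      rw [h2, mem_bot] at h1
      exact hg0 h1
    have h2 := card_St z hz hne
    have h3 : orderOf t = (centralizer ({z} : Set G)).index := by
      have h4 : orderOf t ∣ Nat.card (St z) := by
        have := orderOf_dvd_natCard (⟨t, h1⟩ : St z)
        rwa [← Subgroup.orderOf_coe] at this
      rw [h2] at h4
      rcases (Nat.dvd_prime hz).1 h4 with h5 | h5
      · exact absurd (orderOf_eq_one_iff.1 h5) hg0
      · exact h5
    refine ⟨h1, h2, ?_, h3⟩
    symm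
    apply Subgroup.eq_of_le_of_card_ge (zpowers_le.2 h1)
    rw [Nat.card_zpowers, h3, h2]
  obtain ⟨hty, hcy, hSy, hot⟩ := hSt y hy hlt
  set S : Subgroup G := zpowers t with hS
  have hSn : S.Normal := by rw [← hSy]; exact St_normal y
  have hcardS : Nat.card S = q := by rw [← hSy, hcy]
  -- all class sizes
  have hsizes : ∀ z : G, (centralizer ({z} : Set G)).index = 1 ∨ (centralizer ({z} : Set G)).index = p ∨
      (centralizer ({z} : Set G)).index = q := by
    intro z
    rcases h z with h1 | h1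
    · exact Or.inl h1
    · rcases (hmin z h1).eq_or_lt with h2 | h2
      · exact Or.inr (Or.inl h2.symm)
      · right; right
        have := (hSt z h1 h2).2.2.2
        rw [← this, hot]
  -- every commutator in S
  have hcomm : ∀ z g : G, z⁻¹ * (g * z * g⁻¹) ∈ S := by
    intro z g
    rcases hsizes z with h1 | h1 | h1
    · rw [index_eq_one] at h1
      have : g ∈ centralizer ({z} : Set G) := by rw [h1]; trivial
      rw [mem_cent] at this
      rw [this, mul_inv_cancel_right, inv_mul_cancel]
      exact S.one_mem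
    · have h2 := pair h z y (by rw [h1]; exact hx) hy (by rw [h1]; exact hlt) g
      rw [hSy] at h2
      exact h2
    · -- class of z is S z
      have hz : ((centralizer ({z} : Set G)).index).Prime := by rw [h1]; exact hy
      obtain ⟨h2, h3, h4, h5⟩ := hSt z hz (by rw [h1]; exact hlt)
      let f : St z → cl z := fun s => ⟨(s : G) * z, (s.2 z).1 (self_mem_cl z)⟩
      have hinj : Function.Injective f := by
        intro a b hab
        exact Subtype.ext (mul_right_cancel (congrArg Subtype.val hab))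
      have hbij := (Nat.bijective_iff_injective_and_card f).2 ⟨hinj, by rw [card_cl, h3]⟩
      obtain ⟨s, hs⟩ := hbij.2 ⟨g * z * g⁻¹, ⟨g, rfl⟩⟩
      have hs' : (s : G) * z = g * z * g⁻¹ := congrArg Subtype.val hs
      rw [← hs', ← mul_assoc]
      have h6 : (s : G) ∈ S := by rw [← h4]; exact s.2
      have := hSn.conj_mem _ h6 z⁻¹
      rwa [inv_inv] at this
  have hcomm' : ∀ a b : G, a * b * a⁻¹ * b⁻¹ ∈ S := by
    intro a b
    -- = b (b⁻¹ (a b a⁻¹)) b⁻¹
    have := hSn.conj_mem _ (hcomm b a) b
    have e : b * (b⁻¹ * (a * b * a⁻¹)) * b⁻¹ = a * b * a⁻¹ * b⁻¹ := by group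
    rwa [e] at this
  -- prime order facts
  have hgen : ∀ s ∈ S, s ≠ 1 → S ≤ zpowers s := by
    intro s hs hs1
    have h1 : zpowers s ≤ S := zpowers_le.2 hs
    have h2 : zpowers s = S := by
      apply Subgroup.eq_of_le_of_card_ge h1
      rw [hcardS, Nat.card_zpowers]
      have h3 : orderOf s ∣ q := by
        rw [← hcardS]
        have := orderOf_dvd_natCard (⟨s, hs⟩ : S)
        rwa [← Subgroup.orderOf_coe] at this
      rcases (Nat.dvd_prime hy).1 h3 with h4 | h4
      · exact absurd (orderOf_eq_one_iff.1 h4) hs1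
      · exact h4.ge
    exact h2.ge
  have htS : t ∈ S := mem_zpowers t
  have ht1 : t ≠ 1 := hg0
  -- t is not central
  have htZ : t ∉ center G := by
    intro htc
    have hSc : S ≤ center G := by rw [hS, zpowers_le]; exact htc
    let f : G →* S := MonoidHom.mk' (fun g => ⟨x⁻¹ * (g * x * g⁻¹), hcomm x g⟩) (by
      intro a b
      apply Subtype.ext
      show x⁻¹ * (a * b * x * (a * b)⁻¹) = (x⁻¹ * (a * x * a⁻¹)) * (x⁻¹ * (b * x * b⁻¹))
      have h1 := mem_center_iff.1 (hSc (hcomm x b)) a
      have e1 : x⁻¹ * (a * b * x * (a * b)⁻¹) = x⁻¹ * (a * x * (x⁻¹ * (b * x * b⁻¹)) * a⁻¹) := by group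
      have h2 : a * x * (x⁻¹ * (b * x * b⁻¹)) * a⁻¹ = a * x * a⁻¹ * (x⁻¹ * (b * x * b⁻¹)) := by
        have h3 := mem_center_iff.1 (hSc (hcomm x b)) a⁻¹
        rw [mul_assoc, ← h3, ← mul_assoc]
      rw [e1, h2]; group)
    have hker : f.ker = centralizer ({x} : Set G) := by
      ext g
      rw [MonoidHom.mem_ker, mem_cent]
      constructor
      · intro hg
        have h1 : x⁻¹ * (g * x * g⁻¹) = 1 := congrArg Subtype.val hg
        rw [inv_mul_eq_one] at h1
        exact mul_inv_eq_iff_eq_mul.1 h1.symm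
      · intro hg
        apply Subtype.ext
        show x⁻¹ * (g * x * g⁻¹) = 1
        rw [hg, mul_inv_cancel_right, inv_mul_cancel]
    have h1 : p ∣ q := by
      rw [hp, ← hker, index_ker, ← hcardS]
      exact Subgroup.card_subgroup_dvd_card _
    have := (Nat.prime_dvd_prime_iff_eq hx hy).1 h1
    omega
  -- class size of t is p
  have htp : (centralizer ({t} : Set G)).index = p := by
    rcases hsizes t with h1 | h1 | h1
    · exact absurd h1 (index_ne_one_of_not_mem_center htZ)
    · exact h1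
    · exfalso
      have h2 := H75.ClassIndex.index_centralizer_le t ((S : Set G) \ {1}) (Set.toFinite _) (by
        intro g
        refine ⟨hSn.conj_mem _ htS g, ?_⟩
        intro h3
        apply ht1
        have h4 : g * t * g⁻¹ = 1 := h3
        exact (conj_eq_one_iff).1 h4)
      have h3 : Nat.card ((S : Set G) \ {1} : Set G) + 1 = Nat.card S := by
        rw [Nat.card_coe_set_eq, Set.ncard_diff_singleton_add_one S.one_mem (Set.toFinite _)]
        rfl
      omega
  set K : Subgroup G := centralizer ({t} : Set G) with hK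
  have hKS : ∀ k ∈ K, ∀ s ∈ S, k * s = s * k := by
    intro k hk s hs
    obtain ⟨n, rfl⟩ := mem_zpowers_iff.1 hs
    have : Commute k t := (mem_cent t k).1 hk
    exact this.zpow_right n
  have hSK : S ≤ K := by
    rw [hS, zpowers_le, hK, mem_cent]
  obtain ⟨u, hu⟩ : ∃ u : G, u ∉ K := by
    by_contra hcon
    push Not at hcon
    apply htZ
    rw [mem_center_iff]
    intro g
    exact (mem_cent t g).1 (hcon g)
  have hfix : ∀ s ∈ S, u * s = s * u → s = 1 := by
    intro s hs hus
    by_contra hs1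
    apply hu
    have h1 := hgen s hs hs1 htS
    obtain ⟨n, hn⟩ := mem_zpowers_iff.1 h1
    rw [hK, mem_cent, ← hn]
    have : Commute u s := hus
    exact this.zpow_right n
  have hKSZ : K ≤ S ⊔ center G := by
    intro k hk
    -- bijection on S
    let φ : S → S := fun s => ⟨(s : G) * u * (s : G)⁻¹ * u⁻¹, hcomm' s u⟩
    have hφ : Function.Injective φ := by
      intro a b hab
      have h1 : (a : G) * u * (a : G)⁻¹ * u⁻¹ = (b : G) * u * (b : G)⁻¹ * u⁻¹ := congrArg Subtype.val hab
      have h2 : (a : G) * u * (a : G)⁻¹ = (b : G) * u * (b : G)⁻¹ := mul_right_cancel h1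
      have h3 : u * ((b : G)⁻¹ * a) = ((b : G)⁻¹ * a) * u := by
        calc u * ((b : G)⁻¹ * a) = (b : G)⁻¹ * ((b : G) * u * (b : G)⁻¹) * a := by group
          _ = (b : G)⁻¹ * ((a : G) * u * (a : G)⁻¹) * a := by rw [h2]
          _ = ((b : G)⁻¹ * a) * u := by group
      have h4 := hfix _ (S.mul_mem (S.inv_mem b.2) a.2) h3
      apply Subtype.ext
      exact (inv_mul_eq_one.1 h4).symm
    obtain ⟨s, hs⟩ := (Finite.injective_iff_surjective.1 hφ) ⟨k * u * k⁻¹ * u⁻¹, hcomm' k u⟩
    have h1 : (s : G) * u * (s : G)⁻¹ * u⁻¹ = k * u * k⁻¹ * u⁻¹ := congrArg Subtype.val hs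
    have h2 : (s : G) * u * (s : G)⁻¹ = k * u * k⁻¹ := mul_right_cancel h1
    set k0 : G := (s : G)⁻¹ * k with hk0
    have hk0u : k0 * u = u * k0 := by
      calc k0 * u = (s : G)⁻¹ * (k * u * k⁻¹) * k := by rw [hk0]; group
        _ = (s : G)⁻¹ * ((s : G) * u * (s : G)⁻¹) * k := by rw [h2]
        _ = u * k0 := by rw [hk0]; group
    have hk0K : k0 ∈ K := K.mul_mem (K.inv_mem (hSK s.2)) hk
    have hk0g : ∀ g ∈ K, k0 * g = g * k0 := by
      intro g hg
      set c := k0 * g * k0⁻¹ * g⁻¹ with hc
      have hcS : c ∈ S := hcomm' k0 g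
      -- s' = u g u⁻¹ g⁻¹
      set s' := u * g * u⁻¹ * g⁻¹ with hs'
      have hs'S : s' ∈ S := hcomm' u g
      have h5 : u * c * u⁻¹ = c := by
        have e1 : u * c * u⁻¹ = k0 * (u * g * u⁻¹) * k0⁻¹ * (u * g * u⁻¹)⁻¹ := by
          have e2 : u * k0 * u⁻¹ = k0 := by rw [← hk0u, mul_inv_cancel_right]
          calc u * c * u⁻¹ = (u * k0 * u⁻¹) * (u * g * u⁻¹) * (u * k0 * u⁻¹)⁻¹ * (u * g * u⁻¹)⁻¹ := by rw [hc]; group
            _ = _ := by rw [e2]
        have e3 : u * g * u⁻¹ = s' * g := by rw [hs']; group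
        have e4 : k0 * s' = s' * k0 := hKS k0 hk0K s' hs'S
        have e5 : c * s' = s' * c := hKS c (hSK hcS) s' hs'S
        rw [e1, e3]
        calc k0 * (s' * g) * k0⁻¹ * (s' * g)⁻¹ = (k0 * s') * g * k0⁻¹ * g⁻¹ * s'⁻¹ := by group
          _ = (s' * k0) * g * k0⁻¹ * g⁻¹ * s'⁻¹ := by rw [e4]
          _ = (s' * c) * s'⁻¹ := by rw [hc]; group
          _ = c := by rw [← e5, mul_inv_cancel_right]
      have h6 := hfix c hcS (mul_inv_eq_iff_eq_mul.1 h5)
      rw [hc] at h6
      exact mul_inv_eq_iff_eq_mul.1 (mul_inv_eq_one.1 h6)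
    have hk0Z : k0 ∈ center G := by
      by_contra hnz
      have h7 : K ≤ centralizer ({k0} : Set G) := fun g hg => (mem_cent k0 g).2 (hk0g g hg).symm
      have h8 : (centralizer ({k0} : Set G)).index ∣ p := by rw [← htp]; exact index_dvd_of_le h7
      rcases (Nat.dvd_prime hx).1 h8 with h9 | h9
      · exact index_ne_one_of_not_mem_center hnz h9
      · apply hu
        have h10 : K = centralizer ({k0} : Set G) := by
          apply Subgroup.eq_of_le_of_card_ge h7
          have h11 := K.index_mul_card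
          have h12 := (centralizer ({k0} : Set G)).index_mul_card
          rw [htp] at h11
          rw [h9] at h12
          exact le_of_eq (Nat.eq_of_mul_eq_mul_left hx.pos (h12.trans h11.symm))
        rw [h10, mem_cent, hk0u]
    have : k = (s : G) * k0 := by rw [hk0]; group
    rw [this]
    exact mul_mem_sup s.2 hk0Z
  have hSZ : S ⊓ center G = ⊥ := by
    rw [eq_bot_iff]
    rintro s ⟨hs1, hs2⟩
    rw [mem_bot]
    by_contra hne
    apply htZ
    have h1 := hgen s hs1 hne htS
    exact (zpowers_le.2 hs2) h1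
  have hKeq : K = S ⊔ center G := by
    apply le_antisymm hKSZ
    exact sup_le hSK (center_le_centralizer _)
  have hcardK : Nat.card K = q * Nat.card (center G) := by
    have h1 := H75.SylowNumber.card_sup_mul_card_inf S (center G)
    rw [hSZ, ← hKeq, Subgroup.card_bot, mul_one, hcardS] at h1
    exact h1
  refine ⟨p, q, hx, hy, hlt.ne, ?_, ?_⟩
  · have h1 := K.index_mul_card
    rw [htp, hcardK] at h1
    have h2 := (center G).card_eq_card_quotient_mul_card_subgroup
    rw [h2, ← mul_assoc] at h1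
    exact (Nat.eq_of_mul_eq_mul_right Nat.card_pos h1).symm
  · intro hcom
    apply htZ
    rw [mem_center_iff]
    intro g
    have h1 := isMulCommutative_iff.1 hcom (QuotientGroup.mk g) (QuotientGroup.mk t)
    have h2 : (QuotientGroup.mk (t * g) : G ⧸ center G) = QuotientGroup.mk (g * t) := h1.symm
    have h3 := QuotientGroup.eq.1 h2
    -- (t g)⁻¹ (g t) ∈ Z, and in S
    have h4 : (t * g)⁻¹ * (g * t) ∈ S := by
      have := hcomm' g⁻¹ t⁻¹
      have e : g⁻¹ * t⁻¹ * g⁻¹⁻¹ * t⁻¹⁻¹ = (t * g)⁻¹ * (g * t) := by group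
      rwa [e] at this
    have h5 : (t * g)⁻¹ * (g * t) ∈ S ⊓ center G := ⟨h4, h3⟩
    rw [hSZ, mem_bot, inv_mul_eq_one] at h5
    exact h5.symm

theorem result {G : Type*} [Group G] [Finite G]
    (h : ∀ x : G, (Subgroup.centralizer ({x} : Set G)).index = 1 ∨ ((Subgroup.centralizer ({x} : Set G)).index).Prime) :
    Subgroup.upperCentralSeries G 2 = ⊤ ∨
      ∃ p q : ℕ, p.Prime ∧ q.Prime ∧ p ≠ q ∧ Nat.card (G ⧸ Subgroup.center G) = p * q ∧ ¬ IsMulCommutative (G ⧸ Subgroup.center G) := by
  classical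
  by_cases hall : ∀ x : G, (Subgroup.centralizer ({x} : Set G)).index = 1
  · left
    exact upper_two (caseA 2 Nat.prime_two (fun x => Or.inl (hall x)))
  · push Not at hall
    -- minimal class size
    obtain ⟨x0, hx0⟩ := hall
    obtain ⟨x, hxs, hxmin⟩ := Set.exists_min_image {z : G | ((centralizer ({z} : Set G)).index).Prime}
      (fun z => (centralizer ({z} : Set G)).index) (Set.toFinite _) ⟨x0, (h x0).resolve_left hx0⟩
    by_cases hA : ∀ z : G, (centralizer ({z} : Set G)).index = 1 ∨
        (centralizer ({z} : Set G)).index = (centralizer ({x} : Set G)).index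
    · left
      exact upper_two (caseA _ hxs hA)
    · right
      push Not at hA
      obtain ⟨y, hy1, hy2⟩ := hA
      have hyp := (h y).resolve_left hy1
      have hle := hxmin y hyp
      exact caseB h x y hxs hyp (lt_of_le_of_ne hle hy2.symm) (fun z hz => hxmin z hz)

end Cfsg.Agent.S4314
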