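import Cfsg.Statements.S4316
import Cfsg.Agent.Lib.H48.Dr6

set_option autoImplicit false
universe u
open Cfsg

namespace Cfsg.Agent.S4316

/-- There is a function `f` of two natural-number arguments with the following property. Let `q` be a prime and `A` an elementary abelian group of order `q³` acting by automorphisms on a finite group `G` of order prime to `q`, and suppose that for every non-identity `a ∈ A` the derived subgroup of the fixed-point subgroup `C_G(a)` has order at most `m`. Then the derived subgroup of `G` has order at most `f(q, m)`. -/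
theorem result :
    ∃ f : ℕ → ℕ → ℕ, ∀ (q m : ℕ) (A G : Type u) [Group A] [Finite A] [Group G] [Finite G] [MulDistribMulAction A G],
      q.Prime → Nat.card A = q ^ 3 → (∀ a b : A, a * b = b * a) → (∀ a : A, a ^ q = 1) → ¬ q ∣ Nat.card G →
      (∀ a : A, a ≠ 1 → Nat.card ↥(commutator ↥(FixedPoints.subgroup (Subgroup.zpowers a) G)) ≤ m) →
      Nat.card ↥(commutator G) ≤ f q m := by
  classical
  refine ⟨fun q m => H48.Dr.bb (2 ^ q ^ 3) (H48.Dr.MM q m) m.factorial, ?_⟩
  intro q m A G _ _ _ _ _ hq hA hcomm hexp hcop h
  haveI : Fact q.Prime := ⟨hq⟩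
  let φ : A →* MulAut G := MulDistribMulAction.toMulAut A G
  let Γ := G ⋊[φ] A
  haveI : Finite Γ := Finite.of_equiv _ (SemidirectProduct.equivProd (φ := φ)).symm
  let i : G →* Γ := SemidirectProduct.inl
  let j : A →* Γ := SemidirectProduct.inr
  have hi : Function.Injective i := SemidirectProduct.inl_injective
  have hj : Function.Injective j := SemidirectProduct.inr_injective
  have hij : ∀ (a : A) (g : G), j a * i g * (j a)⁻¹ = i (a • g) := by
    intro a g
    rw [← map_inv]
    exact (SemidirectProduct.inl_aut (φ := φ) a g).symm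
  have hcardG : Nat.card i.range = Nat.card G := Nat.card_congr (MonoidHom.ofInjective hi).symm.toEquiv
  have hmain := H48.Dr.main (q := q) (m := m) (A := j.range) (G := i.range) (X := Γ) ?_ ?_ ?_ ?_ ?_
  · refine le_trans (le_of_eq ?_) hmain
    have e : G ≃* i.range := MonoidHom.ofInjective hi
    have h1 : (commutator G).map e.toMonoidHom = commutator i.range := by
      have hr : (⊤ : Subgroup G).map e.toMonoidHom = ⊤ := by
        rw [eq_top_iff]
        intro x _
        obtain ⟨g, rfl⟩ := e.surjective x
        exact ⟨g, trivial, rfl⟩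
      rw [_root_.commutator_def, Subgroup.map_commutator, hr, _root_.commutator_def]
    rw [← h1]
    exact (Subgroup.card_map_of_injective e.injective).symm
  · refine ⟨⟨⟨?_⟩⟩, ?_⟩
    · rintro ⟨_, ⟨a, rfl⟩⟩ ⟨_, ⟨b, rfl⟩⟩
      apply Subtype.ext
      change j a * j b = j b * j a
      rw [← map_mul, hcomm, map_mul]
    · rintro _ ⟨a, rfl⟩
      rw [← map_pow, hexp, map_one]
  · rw [← hA]
    exact Nat.card_congr (MonoidHom.ofInjective hj).symm.toEquiv
  · apply H1.Coprime.le_normalizer_of_conj_mem
    rintro _ ⟨a, rfl⟩ _ ⟨g, rfl⟩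
    exact ⟨a • g, (hij a g).symm⟩
  · rw [hcardG]; exact hcop
  · rintro _ ⟨a, rfl⟩ ha1
    have ha1' : a ≠ 1 := by rintro rfl; exact ha1 (map_one j)
    have h2 := h a ha1'
    refine le_trans (le_of_eq ?_) h2
    have h3 : i.range ⊓ Subgroup.centralizer {j a} = (FixedPoints.subgroup (Subgroup.zpowers a) G).map i := by
      ext x
      constructor
      · intro hx
        obtain ⟨⟨g, rfl⟩, hg⟩ := Subgroup.mem_inf.mp hx
        rw [Subgroup.mem_centralizer_singleton_iff] at hg
        refine ⟨g, ?_, rfl⟩
        have h1 : a • g = g := by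
          apply hi
          rw [← hij, ← hg, mul_inv_cancel_right]
        rintro ⟨_, n, rfl⟩
        have h2 : a ∈ MulAction.stabilizer A g := h1
        exact (Subgroup.zpow_mem _ h2 n : a ^ n ∈ MulAction.stabilizer A g)
      · rintro ⟨g, hg, rfl⟩
        refine Subgroup.mem_inf.mpr ⟨⟨g, rfl⟩, ?_⟩
        rw [Subgroup.mem_centralizer_singleton_iff]
        have h1 : a • g = g := hg ⟨a, Subgroup.mem_zpowers a⟩
        have h4 := hij a g
        rw [h1, mul_inv_eq_iff_eq_mul] at h4
        exact h4.symm
    rw [h3, ← Subgroup.map_commutator, Subgroup.card_map_of_injective hi, ← Subgroup.map_subtype_commutator,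
      Subgroup.card_map_of_injective (Subgroup.subtype_injective _)]

end Cfsg.Agent.S4316
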