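import Cfsg.Statements.S4321
import Cfsg.Agent.Lib.H75.ClassGraph
import Cfsg.Agent.Lib.H71.Basic

set_option autoImplicit false
set_option linter.all false
open Cfsg

namespace Cfsg.Agent.S4321

open H75.ClassGraph in
theorem aux_pel {G : Type*} [Group G] [Finite G] {p : ℕ} (hp : p.Prime) (x0 : G) (h : p ∣ orderOf x0) :
    ∃ x : G, H75.ClassGraph.Pel p x ∧ x ≠ 1 ∧ H75.ClassGraph.cs x ∣ H75.ClassGraph.cs x0 := by
  obtain ⟨x, y, hx, hy, hxy, hcomm, hxp, hyp, -, -⟩ :=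
    H71.Basic.exists_pPart x0 (isOfFinOrder_of_finite x0) p hp
  refine ⟨x, hxp, ?_, ?_⟩
  · rintro rfl
    rw [one_mul] at hxy
    rw [hxy] at hyp
    exact hyp h
  · unfold H75.ClassGraph.cs
    apply Subgroup.index_dvd_of_le
    intro c hc
    rw [H75.ClassGraph.mem_cent] at hc ⊢
    obtain ⟨n, hn⟩ := Subgroup.mem_zpowers_iff.1 hx
    rw [← hn]
    exact hc.zpow_right n

/-- Let `G` be a finite group and `p` a prime not dividing the order of the centre of `G`. Consider the primes dividing the size of some conjugacy class of a `p`-singular element (an element of order divisible by `p`), two of them adjacent when their product divides such a class size. Then any two distinct such primes are joined by a path with at most 3 edges (the graph is connected of diameter at most 3). -/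
theorem result {G : Type*} [Group G] [Finite G] (p : ℕ) [Fact p.Prime]
    (hZ : ¬ p ∣ Nat.card ↥(Subgroup.center G)) (r s : ℕ) (hr : (r.Prime ∧ ∃ x : G, p ∣ orderOf x ∧ r ∣ (Subgroup.centralizer ({x} : Set G)).index)) (hs : (s.Prime ∧ ∃ x : G, p ∣ orderOf x ∧ s ∣ (Subgroup.centralizer ({x} : Set G)).index)) (hrs : r ≠ s) :
    (∃ x : G, p ∣ orderOf x ∧ r * s ∣ (Subgroup.centralizer ({x} : Set G)).index) ∨ (∃ t : ℕ, (t.Prime ∧ ∃ x : G, p ∣ orderOf x ∧ t ∣ (Subgroup.centralizer ({x} : Set G)).index) ∧ t ≠ r ∧ t ≠ s ∧ (∃ x : G, p ∣ orderOf x ∧ r * t ∣ (Subgroup.centralizer ({x} : Set G)).index) ∧ (∃ x : G, p ∣ orderOf x ∧ t * s ∣ (Subgroup.centralizer ({x} : Set G)).index)) ∨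
      (∃ t u : ℕ, (t.Prime ∧ ∃ x : G, p ∣ orderOf x ∧ t ∣ (Subgroup.centralizer ({x} : Set G)).index) ∧ (u.Prime ∧ ∃ x : G, p ∣ orderOf x ∧ u ∣ (Subgroup.centralizer ({x} : Set G)).index) ∧ t ≠ r ∧ u ≠ s ∧ t ≠ u ∧ (∃ x : G, p ∣ orderOf x ∧ r * t ∣ (Subgroup.centralizer ({x} : Set G)).index) ∧ (∃ x : G, p ∣ orderOf x ∧ t * u ∣ (Subgroup.centralizer ({x} : Set G)).index) ∧ (∃ x : G, p ∣ orderOf x ∧ u * s ∣ (Subgroup.centralizer ({x} : Set G)).index)) := by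
  have hp : p.Prime := Fact.out
  obtain ⟨hrp, x0, hx0, hrx⟩ := hr
  obtain ⟨hsp, y0, hy0, hsy⟩ := hs
  obtain ⟨x, hx, hx1, hxx⟩ := aux_pel hp x0 hx0
  obtain ⟨y, hy, hy1, hyy⟩ := aux_pel hp y0 hy0
  obtain ⟨w, hw, hwx, hwy⟩ := H75.ClassGraph.main hZ hx hx1 hy hy1
  obtain ⟨t, ht, htw, htx⟩ := Nat.Prime.not_coprime_iff_dvd.1 hwx
  obtain ⟨u, hu, huw, huy⟩ := Nat.Prime.not_coprime_iff_dvd.1 hwy
  have htx0 : t ∣ (Subgroup.centralizer ({x0} : Set G)).index := htx.trans hxx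
  have huy0 : u ∣ (Subgroup.centralizer ({y0} : Set G)).index := huy.trans hyy
  have htw' : t ∣ (Subgroup.centralizer ({w} : Set G)).index := htw
  have huw' : u ∣ (Subgroup.centralizer ({w} : Set G)).index := huw
  have mk : ∀ {a b n : ℕ}, a.Prime → b.Prime → a ≠ b → a ∣ n → b ∣ n → a * b ∣ n := by
    intro a b n ha hb hab h1 h2
    exact Nat.Coprime.mul_dvd_of_dvd_of_dvd ((Nat.coprime_primes ha hb).2 hab) h1 h2
  by_cases htu : t = u
  · subst htu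
    by_cases htr : t = r
    · subst htr
      exact Or.inl ⟨y0, hy0, mk ht hsp hrs huy0 hsy⟩
    by_cases hts : t = s
    · subst hts
      exact Or.inl ⟨x0, hx0, mk hrp ht hrs hrx htx0⟩
    exact Or.inr (Or.inl ⟨t, ⟨ht, x0, hx0, htx0⟩, htr, hts, ⟨x0, hx0, mk hrp ht (Ne.symm htr) hrx htx0⟩,
      ⟨y0, hy0, mk ht hsp hts huy0 hsy⟩⟩)
  by_cases htr : t = r
  · subst htr
    by_cases hus : u = s
    · subst hus
      exact Or.inl ⟨w, hw, mk ht hu htu htw' huw'⟩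
    exact Or.inr (Or.inl ⟨u, ⟨hu, w, hw, huw'⟩, Ne.symm htu, hus, ⟨w, hw, mk ht hu htu htw' huw'⟩,
      ⟨y0, hy0, mk hu hsp hus huy0 hsy⟩⟩)
  by_cases hus : u = s
  · subst hus
    exact Or.inr (Or.inl ⟨t, ⟨ht, x0, hx0, htx0⟩, htr, htu, ⟨x0, hx0, mk hrp ht (Ne.symm htr) hrx htx0⟩,
      ⟨w, hw, mk ht hu htu htw' huw'⟩⟩)
  exact Or.inr (Or.inr ⟨t, u, ⟨ht, x0, hx0, htx0⟩, ⟨hu, w, hw, huw'⟩, htr, hus, htu,
    ⟨x0, hx0, mk hrp ht (Ne.symm htr) hrx htx0⟩, ⟨w, hw, mk ht hu htu htw' huw'⟩,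
    ⟨y0, hy0, mk hu hsp hus huy0 hsy⟩⟩)

end Cfsg.Agent.S4321
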