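import Cfsg.Statements.S4421
import Mathlib

set_option autoImplicit false
open Cfsg

namespace Cfsg.Agent.S4421

/-- A factorization of a normalizer from two-step control of fusion. Let `G` be a finite group and `A ≤ S ≤ H` subgroups of `G` such that: (i) `S` controls the `G`-fusion of `A` in the sense that every `G`-conjugate of `A` lying in `S` is an `S`-conjugate of `A`; (ii) `H` controls the `G`-fusion of `S` in the same sense; (iii) every conjugate of `S` by an element of the normalizer of `A` lies in `H`. Then `N_G(A) = N_H(A) · (N_G(S) ∩ N_G(A))`: every element of the normalizer of `A` is a product of an element of `H` normalizing `A` and an element normalizing both `S` and `A`. -/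
theorem result {G : Type*} [Group G] [Finite G] (A S H : Subgroup G)
    (hAS : A ≤ S) (hSH : S ≤ H)
    (h1 : ∀ g : G, A.map (MulAut.conj g).toMonoidHom ≤ S → ∃ s ∈ S, A.map (MulAut.conj g).toMonoidHom = A.map (MulAut.conj s).toMonoidHom)
    (h2 : ∀ g : G, S.map (MulAut.conj g).toMonoidHom ≤ H → ∃ y ∈ H, S.map (MulAut.conj g).toMonoidHom = S.map (MulAut.conj y).toMonoidHom)
    (h3 : ∀ x ∈ Subgroup.normalizer (A : Set G), S.map (MulAut.conj x).toMonoidHom ≤ H) :
    ∀ x ∈ Subgroup.normalizer (A : Set G), ∃ y ∈ H ⊓ Subgroup.normalizer (A : Set G),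
      ∃ z ∈ Subgroup.normalizer (S : Set G) ⊓ Subgroup.normalizer (A : Set G), x = y * z := by
  intro x hx
  have h3x := h3 x hx
  obtain ⟨y, hy, hxy⟩ := h2 x h3x
  -- y⁻¹ x normalizes S
  have map_mul : ∀ (K : Subgroup G) (a b : G),
      K.map (MulAut.conj (a * b)).toMonoidHom = (K.map (MulAut.conj b).toMonoidHom).map (MulAut.conj a).toMonoidHom := by
    intro K a b
    rw [Subgroup.map_map]
    congr 1
    ext z
    simp [mul_assoc]
  have map_one : ∀ (K : Subgroup G), K.map (MulAut.conj (1 : G)).toMonoidHom = K := by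
    intro K
    ext z
    simp
  have norm_iff : ∀ (K : Subgroup G) (a : G), a ∈ Subgroup.normalizer (K : Set G) ↔ K.map (MulAut.conj a).toMonoidHom = K := by
    intro K a
    constructor
    · intro h
      ext z
      simp only [Subgroup.mem_map, MulEquiv.coe_toMonoidHom, MulAut.conj_apply]
      rw [Subgroup.mem_normalizer_iff] at h
      constructor
      · rintro ⟨w, hw, rfl⟩
        exact (h w).1 hw
      · intro hz
        refine ⟨a⁻¹ * z * a, ?_, by group⟩
        refine (h _).2 ?_
        have : a * (a⁻¹ * z * a) * a⁻¹ = z := by group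
        rw [this]; exact hz
    · intro h
      rw [Subgroup.mem_normalizer_iff]
      intro w
      constructor
      · intro hw
        have : (MulAut.conj a).toMonoidHom w ∈ K.map (MulAut.conj a).toMonoidHom := Subgroup.mem_map_of_mem _ hw
        rw [h] at this
        simpa using this
      · intro hw
        have hw' : a * w * a⁻¹ ∈ K.map (MulAut.conj a).toMonoidHom := by rw [h]; exact hw
        obtain ⟨v, hv, hv2⟩ := hw'
        have : v = w := by
          simpa using hv2
        rw [← this]; exact hv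
  have hS : S.map (MulAut.conj (y⁻¹ * x)).toMonoidHom = S := by
    rw [map_mul, hxy, ← map_mul, inv_mul_cancel, map_one]
  have hA : A.map (MulAut.conj x).toMonoidHom = A := (norm_iff A x).1 hx
  have hA1 : A.map (MulAut.conj (y⁻¹ * x)).toMonoidHom ≤ S := by
    calc A.map (MulAut.conj (y⁻¹ * x)).toMonoidHom ≤ S.map (MulAut.conj (y⁻¹ * x)).toMonoidHom := Subgroup.map_mono hAS
      _ = S := hS
  obtain ⟨s, hs, hs2⟩ := h1 _ hA1
  have hsS : S.map (MulAut.conj s).toMonoidHom = S := (norm_iff S s).1 (Subgroup.le_normalizer hs)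
  have hsS' : S.map (MulAut.conj s⁻¹).toMonoidHom = S := (norm_iff S s⁻¹).1 (Subgroup.le_normalizer (S.inv_mem hs))
  have hzS : s⁻¹ * (y⁻¹ * x) ∈ Subgroup.normalizer (S : Set G) := by
    rw [norm_iff, map_mul, hS, hsS']
  have hzA : s⁻¹ * (y⁻¹ * x) ∈ Subgroup.normalizer (A : Set G) := by
    rw [norm_iff, map_mul, hs2, ← map_mul, inv_mul_cancel, map_one]
  refine ⟨y * s, ⟨H.mul_mem hy (hSH hs), ?_⟩, s⁻¹ * (y⁻¹ * x), ⟨hzS, hzA⟩, by group⟩
  have : y * s = x * (s⁻¹ * (y⁻¹ * x))⁻¹ := by group
  rw [this]
  exact Subgroup.mul_mem _ hx (Subgroup.inv_mem _ hzA)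

end Cfsg.Agent.S4421
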