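import Cfsg.Statements.S4422
import Mathlib

set_option autoImplicit false
open Cfsg

namespace Cfsg.Agent.S4422

/-- Primitive divisors of `q^e - 1` are congruent to 1 modulo `e`. Let `q ≥ 2` and `e ≥ 1` be natural numbers and let `m` be a divisor of `q^e - 1` that is coprime to `q^i - 1` for every `1 ≤ i < e` (so `m` divides the primitive part of `q^e - 1`, the largest such divisor). Then `m ≡ 1 (mod e)`. -/
theorem result (q e m : ℕ) (hq : 2 ≤ q) (he : 1 ≤ e)
    (hm : m ∣ q ^ e - 1) (hcop : ∀ i : ℕ, 1 ≤ i → i < e → Nat.Coprime m (q ^ i - 1)) :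
    m % e = 1 % e := by
  have hqe : 0 < q ^ e - 1 := by
    have : 2 ^ 1 ≤ q ^ e := le_trans (Nat.pow_le_pow_left hq 1) (Nat.pow_le_pow_right (by omega) he)
    omega
  have hm0 : 0 < m := Nat.pos_of_dvd_of_pos hm hqe
  have key : ∀ r : ℕ, r.Prime → r ∣ m → r ≡ 1 [MOD e] := by
    intro r hr hrm
    haveI : Fact r.Prime := ⟨hr⟩
    have h1 : r ∣ q ^ e - 1 := hrm.trans hm
    have cast_pow : ∀ k : ℕ, r ∣ q ^ k - 1 ↔ (q : ZMod r) ^ k = 1 := by
      intro k
      have hk : 1 ≤ q ^ k := Nat.one_le_pow _ _ (by omega)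
      rw [← ZMod.natCast_eq_zero_iff, Nat.cast_sub hk, sub_eq_zero]
      push_cast
      rfl
    have h2 : (q : ZMod r) ^ e = 1 := (cast_pow e).1 h1
    have hq0 : (q : ZMod r) ≠ 0 := by
      intro h
      rw [h, zero_pow (by omega)] at h2
      exact zero_ne_one h2
    have hde : orderOf (q : ZMod r) ∣ e := orderOf_dvd_of_pow_eq_one h2
    have hdpos : 0 < orderOf (q : ZMod r) := Nat.pos_of_dvd_of_pos hde he
    have hdeq : orderOf (q : ZMod r) = e := by
      by_contra hne
      have hlt : orderOf (q : ZMod r) < e := lt_of_le_of_ne (Nat.le_of_dvd he hde) hne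
      have h3 := hcop _ hdpos hlt
      have h4 : r ∣ q ^ orderOf (q : ZMod r) - 1 := (cast_pow _).2 (pow_orderOf_eq_one _)
      have h5 : r ∣ Nat.gcd m (q ^ orderOf (q : ZMod r) - 1) := Nat.dvd_gcd hrm h4
      rw [Nat.Coprime] at h3
      rw [h3] at h5
      exact hr.one_lt.ne' (Nat.dvd_one.1 h5)
    have h6 : e ∣ r - 1 := by
      rw [← hdeq]
      exact ZMod.orderOf_dvd_card_sub_one hq0
    exact ((Nat.modEq_iff_dvd' hr.one_lt.le).2 h6).symm
  have main : ∀ n : ℕ, 0 < n → (∀ r : ℕ, r.Prime → r ∣ n → r ≡ 1 [MOD e]) → n ≡ 1 [MOD e] := by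
    intro n
    induction n using Nat.strong_induction_on with
    | _ n ih =>
      intro hn hr
      by_cases h1 : n = 1
      · rw [h1]
      · have hp := Nat.minFac_prime h1
        obtain ⟨k, hk⟩ := Nat.minFac_dvd n
        have hk0 : 0 < k := by
          rcases Nat.eq_zero_or_pos k with h | h
          · rw [h, mul_zero] at hk; omega
          · exact h
        have hkn : k < n := by
          have h2 := hp.two_le
          calc k < 2 * k := by omega
            _ ≤ n.minFac * k := Nat.mul_le_mul_right _ h2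
            _ = n := hk.symm
        have hkm := ih k hkn hk0 (fun r hr1 hr2 => hr r hr1 (hr2.trans ⟨n.minFac, by rw [mul_comm]; exact hk⟩))
        have := (hr _ hp (Nat.minFac_dvd n)).mul hkm
        rw [← hk] at this
        simpa using this
  exact main m hm0 key

end Cfsg.Agent.S4422
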