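import Cfsg.Statements.S4424
import Mathlib
import Cfsg.Agent.Lib.H76.BlkInt

set_option autoImplicit false
open Cfsg

namespace Cfsg.Agent.S4424

/-- Let χ be an irreducible character of the finite group G lying in the p-block B (relative to a maximal ideal M of the algebraic integers containing p), and let p^a be the p-part of the order of G. Then the class function that equals p^a · χ on the p-regular elements and vanishes on the p-singular elements is an integer combination of the irreducible characters in B: there are integers a_ψ, zero for ψ outside B, with that function equal to Σ a_ψ ψ. -/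
theorem result {G : Type*} [Group G] [Finite G] (p : ℕ) [Fact p.Prime] (M : Ideal Cfsg.AlgInt) (hM : Cfsg.IsPModular p M) (B : Set (Cfsg.IrrCharacter G)) (hB : Cfsg.IsPBlock M B) (χ : Cfsg.IrrCharacter G) (hχ : χ ∈ B) : ∃ a : Cfsg.IrrCharacter G → ℤ, (∀ ψ, ψ ∉ B → a ψ = 0) ∧ (fun x : G => if p ∣ orderOf x then (0 : ℂ) else ((p ^ (Nat.card G).factorization p : ℕ) : ℂ) * (χ : G → ℂ) x) = fun x => ∑ᶠ ψ : Cfsg.IrrCharacter G, (a ψ : ℂ) * (ψ : G → ℂ) x := by
  classical
  letI := Fintype.ofFinite G
  letI := Fintype.ofFinite (IrrCharacter G)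
  have hM1 := H20.Loc.pm_isPrime hM
  have hp := H20.Loc.pm_prime hM
  choose a ha using fun ψ : IrrCharacter G => H77.RegGen.inner_reg_int (G := G) hp
    (H18.CharBasic.isCharacter_of_isIrr χ.2) (H18.CharBasic.isCharacter_of_isIrr ψ.2)
  refine ⟨a, ?_, ?_⟩
  · intro ψ hψ
    have h1 := ha ψ
    rw [H20.Orth.inner_reg_eq_zero hM
      (fun h => hψ ((H20.Blk.isPBlock_mem_iff hB hχ ψ).2 h)), mul_zero] at h1
    exact_mod_cast h1.symm
  · rw [H76.BlkInt.ite_eq_smul_reg]
    have h1 := H18.CharOrtho.mem_classFun_expand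
      (H20.Orth.reg_class (p := p) (H18.CharBasic.isClassFunction_of_isIrr χ.2))
    funext x
    rw [finsum_eq_sum_of_fintype, Pi.smul_apply, smul_eq_mul]
    conv_lhs => rw [h1]
    rw [Finset.sum_apply, Finset.mul_sum]
    refine Finset.sum_congr rfl fun ψ _ => ?_
    rw [Pi.smul_apply, smul_eq_mul, ← ha ψ]
    push_cast
    ring

end Cfsg.Agent.S4424
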