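import Cfsg.Statements.S4425
import Mathlib
import Cfsg.Agent.Lib.H76.BlkInt

set_option autoImplicit false
open Cfsg

namespace Cfsg.Agent.S4425

/-- Let χ be an irreducible character of the finite group G, p a prime, p^a the p-part of the order of G and p^b the p-part of the degree χ(1). Let χ̃ be the class function equal to p^a · χ on p-regular elements and zero on p-singular elements. Then p^(−b) · χ̃ is a generalized character of G, while p^(−(b+1)) · χ̃ is not. -/
theorem result {G : Type*} [Group G] [Finite G] (p : ℕ) [Fact p.Prime] (χ : Cfsg.IrrCharacter G) : Cfsg.IsGeneralizedCharacter G (fun x : G => if p ∣ orderOf x then (0 : ℂ) else ((p ^ ((Nat.card G).factorization p - (Cfsg.charDegree (χ : G → ℂ)).factorization p) : ℕ) : ℂ) * (χ : G → ℂ) x) ∧ ¬ Cfsg.IsGeneralizedCharacter G (fun x : G => if p ∣ orderOf x then (0 : ℂ) else ((p ^ (Nat.card G).factorization p : ℕ) : ℂ) / ((p ^ ((Cfsg.charDegree (χ : G → ℂ)).factorization p + 1) : ℕ) : ℂ) * (χ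 : G → ℂ) x) := by
  classical
  letI := Fintype.ofFinite G
  have hp : p.Prime := Fact.out
  have hp0 : (p : ℂ) ≠ 0 := by exact_mod_cast hp.ne_zero
  obtain ⟨M, hM⟩ := H78.Cong.exists_isPModular hp
  have hM1 := H20.Loc.pm_isPrime hM
  have hB := H20.Blk.isPBlock_blockOf (M := M) χ
  have hχ := H20.Blk.mem_blockOf_self (M := M) χ
  have hle := H76.BlkInt.fact_le (p := p) χ
  rw [H76.BlkInt.ite_eq_smul_reg, H76.BlkInt.ite_eq_smul_reg]
  refine ⟨?_, ?_⟩
  · rw [H18.CharOrtho.isGen_iff]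
    refine ⟨H18.CharOrtho.isClassFunction_smul _
      (H20.Orth.reg_class (H18.CharBasic.isClassFunction_of_isIrr χ.2)), fun ψ hψ => ?_⟩
    obtain ⟨n, hn, -⟩ := H76.BlkInt.exists_n' hM hB hχ ⟨ψ, hψ⟩
    refine ⟨n, ?_⟩
    rw [H18.CharOrtho.inner_smul_left]
    apply mul_left_cancel₀ (pow_ne_zero ((charDegree (χ : G → ℂ)).factorization p) hp0)
    rw [← hn, ← mul_assoc]
    congr 1
    push_cast
    rw [← pow_add, Nat.add_sub_cancel' hle]
  · rw [H18.CharOrtho.isGen_iff]
    rintro ⟨-, h2⟩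
    obtain ⟨ψ, hψ, hψ0⟩ := H20.Defect.exists_height_zero hM hB
    obtain ⟨n, hn, hn2⟩ := H76.BlkInt.exists_n' hM hB hχ ψ
    obtain ⟨m, hm⟩ := h2 ψ ψ.2
    apply hn2.2 ⟨hψ, hψ0⟩
    refine ⟨m, ?_⟩
    rw [H18.CharOrtho.inner_smul_left] at hm
    have h3 : (p : ℂ) ^ (charDegree (χ : G → ℂ)).factorization p * n =
        (p : ℂ) ^ (charDegree (χ : G → ℂ)).factorization p * ((p : ℂ) * m) := by
      rw [← hn, ← hm]
      push_cast
      rw [pow_succ]
      field_simp
    have h4 := mul_left_cancel₀ (pow_ne_zero _ hp0) h3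
    exact_mod_cast h4

end Cfsg.Agent.S4425
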