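import Cfsg.Statements.S4426
import Mathlib
import Cfsg.Agent.Lib.H76.BlkInt

set_option autoImplicit false
open Cfsg

namespace Cfsg.Agent.S4426

/-- Let χ be an irreducible character in the p-block B of the finite group G (relative to a maximal ideal M of the algebraic integers containing p), let p^a be the p-part of the order of G, and let χ̃ be the class function equal to p^a · χ on p-regular elements and zero elsewhere. For ξ ∈ B the inner product [χ̃, ξ] is an integer. The following are equivalent: (a) χ has height zero in B; (b) for some ξ ∈ B the integer [χ̃, ξ] is nonzero and the exact power of p dividing it equals the exact power of p dividing ξ(1); (c) the same holds for every ξ ∈ B. -/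
theorem result {G : Type*} [Group G] [Fintype G] (p : ℕ) [Fact p.Prime] (M : Ideal Cfsg.AlgInt) (hM : Cfsg.IsPModular p M) (B : Set (Cfsg.IrrCharacter G)) (hB : Cfsg.IsPBlock M B) (χ : Cfsg.IrrCharacter G) (hχ : χ ∈ B) : (Cfsg.blockHeight p B (χ : G → ℂ) = 0 ↔ ∃ ξ ∈ B, ∃ n : ℤ, Cfsg.classInner (fun x : G => if p ∣ orderOf x then (0 : ℂ) else ((p ^ (Nat.card G).factorization p : ℕ) : ℂ) * (χ : G → ℂ) x) (ξ : G → ℂ) = (n : ℂ) ∧ n ≠ 0 ∧ padicValInt p n = (Cfsg.charDegree (ξ : G → ℂ)).factorization p) ∧ (Cfsg.blockHeight p B (χ : G → ℂ) = 0 ↔ ∀ ξ ∈ B, ∃ n : ℤ, Cfsg.classInner (fun x : G => if p ∣ orderOf x then (0 : ℂ) else ((p ^ (Nat.card G).factorization p : ℕ) : ℂ) * (χ : G → ℂ) x) (ξ : G → ℂ) = (n : ℂ) ∧ n ≠ 0 ∧ padicValInt p n = (Cfsg.charDegree (ξ : G → ℂ)).factorization p) := by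
  classical
  have hp : p.Prime := Fact.out
  have hM1 := H20.Loc.pm_isPrime hM
  have key : ∀ ξ ∈ B, ((∃ n : ℤ, Cfsg.classInner (fun x : G => if p ∣ orderOf x then (0 : ℂ) else
      ((p ^ (Nat.card G).factorization p : ℕ) : ℂ) * (χ : G → ℂ) x) (ξ : G → ℂ) = (n : ℂ) ∧ n ≠ 0 ∧
      padicValInt p n = (Cfsg.charDegree (ξ : G → ℂ)).factorization p) ↔
      Cfsg.blockHeight p B (χ : G → ℂ) = 0) := by
    intro ξ hξ
    obtain ⟨m, hm, hm2⟩ := H76.BlkInt.exists_n_swap hM hB χ hξ
    have h1 : Cfsg.classInner (fun x : G => if p ∣ orderOf x then (0 : ℂ) else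
      ((p ^ (Nat.card G).factorization p : ℕ) : ℂ) * (χ : G → ℂ) x) (ξ : G → ℂ) =
      (((p : ℤ) ^ (charDegree (ξ : G → ℂ)).factorization p * m : ℤ) : ℂ) := by
      rw [H76.BlkInt.ite_eq_smul_reg, H18.CharOrtho.inner_smul_left]
      push_cast
      rw [hm]
    rw [h1]
    have hpz : (p : ℤ) ^ (charDegree (ξ : G → ℂ)).factorization p ≠ 0 :=
      pow_ne_zero _ (by exact_mod_cast hp.ne_zero)
    have hv : m ≠ 0 → padicValInt p ((p : ℤ) ^ (charDegree (ξ : G → ℂ)).factorization p * m) =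
        (charDegree (ξ : G → ℂ)).factorization p + padicValInt p m := by
      intro hm0
      rw [padicValInt.mul hpz hm0]
      congr 1
      rw [padicValInt, Int.natAbs_pow, Int.natAbs_natCast, padicValNat.prime_pow]
    constructor
    · rintro ⟨n, hn, hn0, hn1⟩
      have hn' : (p : ℤ) ^ (charDegree (ξ : G → ℂ)).factorization p * m = n := by exact_mod_cast hn
      have hm0 : m ≠ 0 := by rintro rfl; exact hn0 (by rw [← hn', mul_zero])
      rw [← hn', hv hm0] at hn1
      have h2 : padicValInt p m = 0 := by omega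
      refine (hm2.1 ?_).2
      intro hd
      rw [padicValInt.eq_zero_iff] at h2
      rcases h2 with h2 | h2 | h2
      · exact hp.ne_one h2
      · exact hm0 h2
      · exact h2 hd
    · intro h0
      have h2 := hm2.2 ⟨hχ, h0⟩
      have hm0 : m ≠ 0 := by rintro rfl; exact h2 (dvd_zero _)
      refine ⟨_, rfl, mul_ne_zero hpz hm0, ?_⟩
      rw [hv hm0, padicValInt.eq_zero_of_not_dvd h2, add_zero]
  refine ⟨⟨fun h => ?_, ?_⟩, ⟨fun h ξ hξ => (key ξ hξ).2 h, fun h => (key χ hχ).1 (h χ hχ)⟩⟩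
  · exact ⟨χ, hχ, (key χ hχ).2 h⟩
  · rintro ⟨ξ, hξ, h⟩
    exact (key ξ hξ).1 h

end Cfsg.Agent.S4426
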