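import Cfsg.Statements.S4428
import Mathlib
import Cfsg.Agent.Lib.H76.BlkInd

set_option autoImplicit false
open Cfsg

namespace Cfsg.Agent.S4428

/-- Let χ be an irreducible character of height zero in the p-block B of the finite group G (relative to a maximal ideal M of the algebraic integers containing p). Let x be a p-element of G with centralizer C, and let b be a block of C that induces B. Form the class function ϑ(c) = χ(x c) on C and its b-part (the sum over ψ ∈ b of the inner product of ϑ with ψ, times ψ). Then the b-part of ϑ does not vanish identically on the p-regular elements of C. (Compare the second main Theorem, which gives vanishing when b does not induce B.) -/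
theorem result {G : Type*} [Group G] [Finite G] (p : ℕ) [Fact p.Prime] (M : Ideal Cfsg.AlgInt) (hM : Cfsg.IsPModular p M) (B : Set (Cfsg.IrrCharacter G)) (hB : Cfsg.IsPBlock M B) (χ : Cfsg.IrrCharacter G) (hχ : χ ∈ B) (h0 : Cfsg.blockHeight p B (χ : G → ℂ) = 0) (x : G) (hx : ∃ k : ℕ, orderOf x = p ^ k) (b : Set (Cfsg.IrrCharacter (Subgroup.centralizer ({x} : Set G)))) (hb : Cfsg.IsInducedBlock M (Subgroup.centralizer ({x} : Set G)) b B) : ∃ y : Subgroup.centralizer ({x} : Set G), ¬ p ∣ orderOf y ∧ Cfsg.blockPart b (fun c : Subgroup.centralizer ({x} : Set G) => (χ : G → ℂ) (x * (c : G))) y ≠ 0 := by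
  classical
  letI := Fintype.ofFinite G
  letI iC : Fintype (Subgroup.centralizer ({x} : Set G)) := Fintype.ofFinite _
  letI := Fintype.ofFinite (IrrCharacter (Subgroup.centralizer ({x} : Set G)))
  have hM1 := H20.Loc.pm_isPrime hM
  have hp := H20.Loc.pm_prime hM
  by_contra hcon
  push Not at hcon
  obtain ⟨ψ, hψ⟩ := H20.Blk.isPBlock_nonempty hb.1
  set ϑ : Subgroup.centralizer ({x} : Set G) → ℂ := fun c => (χ : G → ℂ) (x * (c : G)) with hϑ
  have hχc := H20.Height.irr_class χ
  have hcls : IsClassFunction (Subgroup.centralizer ({x} : Set G)) ϑ := by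
    intro c d
    have h1 : x * (d : G) = (d : G) * x :=
      ((Subgroup.mem_centralizer_singleton_iff.1 d.2)).symm
    have h2 : x * ((d * c * d⁻¹ : Subgroup.centralizer ({x} : Set G)) : G) =
        (d : G) * (x * (c : G)) * (d : G)⁻¹ := by
      push_cast
      rw [← mul_assoc, ← mul_assoc, h1]
      group
    rw [hϑ]
    simp only
    rw [h2, hχc]
  have hbp : blockPart b ϑ = H20.Orth.proj b ϑ := by
    funext g
    rw [blockPart, H20.Orth.proj]
  have h1 : H20.Orth.reg p (H20.Orth.proj b ϑ) = 0 := by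
    funext y
    by_cases hy : p ∣ orderOf y
    · rw [H20.Orth.reg_not hy]; rfl
    · rw [H20.Orth.reg_of hy, ← hbp, hcon y hy]; rfl
  rw [← H20.Orth.proj_reg hM (H20.Blk.isUnion_of_isPBlock hb.1) hcls] at h1
  have h2 := H20.Orth.inner_proj b (H20.Orth.reg p ϑ) ψ
  rw [if_pos hψ, h1] at h2
  have h3 : classInner (0 : Subgroup.centralizer ({x} : Set G) → ℂ) (ψ : _ → ℂ) = 0 := by
    rw [classInner]
    simp
  rw [h3] at h2
  have h4 : H20.Height.Q p ψ ϑ hcls = 0 := by
    rw [H20.Height.Q_eq, H76.BlkInt.inner_reg_swap, ← h2, map_zero, mul_zero]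
  -- compare with the restriction
  have hres := H76.BlkInd.res_class (Subgroup.centralizer ({x} : Set G)) hχc
  have h5 : MemLocalIdeal M (H20.Height.Q p ψ
      (fun h : Subgroup.centralizer ({x} : Set G) => (χ : G → ℂ) (h : G)) hres -
      H20.Height.Q p ψ ϑ hcls) := by
    rw [H20.Height.Q, H20.Height.Q, ← map_sub]
    apply H20.Blk.omega_memI
    intro c
    rw [sub_eq_add_neg, H20.GA.zc_add, ← neg_one_smul ℂ, H20.GA.zc_smul]
    by_cases hc : p ∣ orderOf c
    · rw [H20.Height.zc_zreg_not _ hc, H20.Height.zc_zreg_not _ hc, mul_zero, add_zero]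
      exact H20.Loc.locI_zero
    · rw [H20.Height.zc_zreg_of _ hc, H20.Height.zc_zreg_of _ hc, neg_one_mul, ← sub_eq_add_neg]
      have hcc : (c : G) * x = x * (c : G) := Subgroup.mem_centralizer_singleton_iff.1 c.2
      have hcc' : Commute x⁻¹ (c : G)⁻¹ := (show Commute x (c : G) from hcc.symm).inv_inv
      obtain ⟨k, hk⟩ := hx
      have hpk : x⁻¹ ^ p ^ k = 1 := by
        rw [inv_pow, ← hk, pow_orderOf_eq_one, inv_one]
      have hco : Nat.Coprime (orderOf (c : G)) (orderOf x) := by
        rw [hk, Subgroup.orderOf_coe]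
        exact (Nat.Coprime.pow_left k ((Nat.Prime.coprime_iff_not_dvd hp).2 hc)).symm
      have hg1 : x⁻¹ ∈ Subgroup.zpowers (x⁻¹ * (c : G)⁻¹) := by
        obtain ⟨m, hm⟩ := exists_pow_eq_self_of_coprime (x := x⁻¹) (n := orderOf (c : G))
          (by rwa [orderOf_inv])
        have h6 : (x⁻¹ * (c : G)⁻¹) ^ (orderOf (c : G) * m) = x⁻¹ := by
          rw [pow_mul, hcc'.mul_pow, inv_pow (c : G), pow_orderOf_eq_one, inv_one, mul_one, hm]
        exact ⟨((orderOf (c : G) * m : ℕ) : ℤ), by simpa only [zpow_natCast] using h6⟩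
      have hg2 : (c : G)⁻¹ ∈ Subgroup.zpowers (x⁻¹ * (c : G)⁻¹) := by
        have h7 : (x⁻¹)⁻¹ * (x⁻¹ * (c : G)⁻¹) ∈ Subgroup.zpowers (x⁻¹ * (c : G)⁻¹) :=
          (Subgroup.zpowers (x⁻¹ * (c : G)⁻¹)).mul_mem
          ((Subgroup.zpowers (x⁻¹ * (c : G)⁻¹)).inv_mem hg1) (Subgroup.mem_zpowers _)
        simpa using h7
      have h8 := H78.Cong.char_congr hM (H20.Height.irr_char χ) hg1 hg2 hpk
      rw [hϑ]
      simp only
      have hc1 := H18.CharBasic.char_inv (H20.Height.irr_char χ) (c : G)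
      have hc2 := H18.CharBasic.char_inv (H20.Height.irr_char χ) (x * (c : G))
      rw [← hc1, ← hc2, mul_inv_rev, hcc'.symm.eq]
      exact H20.Loc.locI_sub_comm.1 h8
  rw [h4, sub_zero] at h5
  exact H76.BlkInd.Q_res_unit hM hb hψ hχ h0 h5

end Cfsg.Agent.S4428
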