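import Cfsg.Statements.S4429
import Cfsg.Agent.Lib.H94.M11Char

set_option autoImplicit false
open Cfsg

namespace Cfsg.Agent.S4429

/-- Let G be a simple group of order 7920. Then G has exactly ten irreducible complex characters, and their degrees, listed with multiplicity, are 1, 10, 10, 10, 11, 16, 16, 44, 45, 55: for every natural number n, the number of irreducible characters of degree n is 1 if n ∈ {1, 11, 44, 45, 55}, 3 if n = 10, 2 if n = 16, and 0 otherwise. -/
theorem result {G : Type*} [Group G] [Finite G] [IsSimpleGroup G] (hG : Nat.card G = 7920) : Nat.card (Cfsg.IrrCharacter G) = 10 ∧ ∀ n : ℕ, Nat.card {χ : Cfsg.IrrCharacter G // Cfsg.charDegree (χ : G → ℂ) = n} = (if n = 1 ∨ n = 11 ∨ n = 44 ∨ n = 45 ∨ n = 55 then 1 else if n = 10 then 3 else if n = 16 then 2 else 0) := by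
  classical
  letI := Fintype.ofFinite (Cfsg.IrrCharacter G)
  obtain ⟨x, y, m, n, w, g, -, -, -, -, hT, -, -, -⟩ := H94.M11.exists_ten hG
  let e : Fin 10 ≃ Cfsg.IrrCharacter G := Equiv.ofBijective g hT.bij
  let D : Fin 10 → ℕ := ![1, 10, 10, 10, 45, 16, 16, 11, 44, 55]
  have hD : ∀ i, Cfsg.charDegree (g i : G → ℂ) = D i := by
    intro i
    have h := hT.gd i
    have key : ∀ i, (![1, 10, 10, 10, 45, 16, 16, 11, 44, 55] : Fin 10 → ℤ) i = ((D i : ℕ) : ℤ) := by
      intro i; fin_cases i <;> rfl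
    rw [key i] at h
    exact_mod_cast h
  refine ⟨by rw [← Nat.card_congr e]; simp, fun k => ?_⟩
  have h1 : Nat.card {χ : Cfsg.IrrCharacter G // Cfsg.charDegree (χ : G → ℂ) = k} =
      (Finset.univ.filter fun i : Fin 10 => D i = k).card := by
    rw [← Nat.card_congr (e.subtypeEquiv (p := fun i => D i = k) fun i => by rw [← hD]; rfl)]
    rw [Nat.card_eq_fintype_card, Fintype.card_subtype]
  rw [h1]
  split_ifs with h2 h3 h4
  · rcases h2 with rfl | rfl | rfl | rfl | rfl <;> rfl
  · subst h3; rfl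
  · subst h4; rfl
  · rw [Finset.card_eq_zero, Finset.filter_eq_empty_iff]
    intro i _
    push Not at h2
    have key : ∀ i, D i = 1 ∨ D i = 11 ∨ D i = 44 ∨ D i = 45 ∨ D i = 55 ∨ D i = 10 ∨ D i = 16 := by decide
    have := key i
    omega

end Cfsg.Agent.S4429
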