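import Cfsg.Statements.S4430
import Mathlib
import Cfsg.Agent.Lib.H76.BlkInd

set_option autoImplicit false
open Cfsg

namespace Cfsg.Agent.S4430

/-- Let H be a subgroup of the finite group G, b a block of H whose induced block B₀ in G is defined (relative to a maximal ideal M of the algebraic integers containing p), and ξ ∈ b. For a block B of G let n_B be the value at 1 of the B-part of the induced character ξ^G (a natural number: the sum over χ ∈ B of the multiplicity of χ in ξ^G times χ(1)). Then for B = B₀ the exact power of p dividing n_B equals the exact power of p dividing ξ^G(1), while for every other block B either n_B = 0 or n_B is divisible by a strictly higher power of p than ξ^G(1). -/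
theorem result {G : Type*} [Group G] [Fintype G] (p : ℕ) [Fact p.Prime] (M : Ideal Cfsg.AlgInt) (hM : Cfsg.IsPModular p M) (H : Subgroup G) [Fintype H] (b : Set (Cfsg.IrrCharacter H)) (B₀ : Set (Cfsg.IrrCharacter G)) (hind : Cfsg.IsInducedBlock M H b B₀) (ξ : Cfsg.IrrCharacter H) (hξ : ξ ∈ b) : (∃ n : ℕ, Cfsg.blockPart B₀ (Cfsg.indFun H (ξ : H → ℂ)) 1 = (n : ℂ) ∧ n ≠ 0 ∧ n.factorization p = (Cfsg.charDegree (Cfsg.indFun H (ξ : H → ℂ))).factorization p) ∧ ∀ B : Set (Cfsg.IrrCharacter G), Cfsg.IsPBlock M B → B ≠ B₀ → ∃ n : ℕ, Cfsg.blockPart B (Cfsg.indFun H (ξ : H → ℂ)) 1 = (n : ℂ) ∧ (n = 0 ∨ (Cfsg.charDegree (Cfsg.indFun H (ξ : H → ℂ))).factorization p < n.factorization p) := by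
  classical
  have hM1 := H20.Loc.pm_isPrime hM
  have hd : Cfsg.charDegree (Cfsg.indFun H (ξ : H → ℂ)) ≠ 0 := by
    intro h
    have h1 := H76.BlkInd.char_one_nat
      (H18.CharInd.isCharacter_ind H (H18.CharBasic.isCharacter_of_isIrr ξ.2))
    rw [h, H18.CharInd.indFun_one, Nat.cast_zero] at h1
    have h2 : (H.index : ℂ) ≠ 0 := by exact_mod_cast Subgroup.index_ne_zero_of_finite
    exact mul_ne_zero h2 (H18.CharBasic.irr_one_ne_zero ξ.2) h1.symm
  obtain ⟨χ₀, hχ₀⟩ := H20.Blk.isPBlock_nonempty hind.2.1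
  refine ⟨?_, fun B hB hne => ?_⟩
  · obtain ⟨n, hn⟩ := H76.BlkInd.blockPart_nat H B₀ ξ
    have h1 := H20.Ind.isInducedBlock_omega hind hξ hχ₀ (H20.Blk.eB_mem hind.2.1)
    rw [H76.BlkInd.omega_ratio H B₀ ξ hn, H20.Blk.omega_eB_mem hχ₀] at h1
    obtain ⟨h2, h3⟩ := H76.BlkInd.eq_of_unit hM hd h1
    exact ⟨n, hn, h2, h3⟩
  · obtain ⟨n, hn⟩ := H76.BlkInd.blockPart_nat H B ξ
    have h1 := H20.Ind.isInducedBlock_omega hind hξ hχ₀ (H20.Blk.eB_mem hB)
    rw [H76.BlkInd.omega_ratio H B ξ hn, H20.Blk.omega_eB_notMem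
      (fun h => hne (H20.Blk.isPBlock_eq_of_mem hB hind.2.1 h hχ₀)), sub_zero] at h1
    refine ⟨n, hn, ?_⟩
    by_cases h0 : n = 0
    · exact Or.inl h0
    · exact Or.inr (H76.BlkInd.lt_of_locI hM hd h1 h0)

end Cfsg.Agent.S4430
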