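import Cfsg.Statements.S4437
import Cfsg.Agent.Lib.H80.BR10
import Cfsg.Agent.Lib.H80.GX

set_option autoImplicit false
open Cfsg

namespace Cfsg.Agent.S4437

/-- Let P be a p-subgroup of the finite group G, H = P·C_G(P), and b a block of H (relative to a maximal ideal M of the algebraic integers containing p) having P as a defect group; let B be the block of G induced by b. Let T be the stabilizer of b in N_G(P): the elements g of N_G(P) such that the g-conjugate of every member of b is again a member of b. Then B has defect group P if and only if p does not divide the index of H in T. -/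
theorem result {G : Type*} [Group G] [Fintype G] (p : ℕ) [Fact p.Prime] (M : Ideal Cfsg.AlgInt) (hM : Cfsg.IsPModular p M) (P : Subgroup G) (hP : IsPGroup p P) (H : Subgroup G) [Fintype H] (hH : H = P ⊔ Subgroup.centralizer (P : Set G)) (b : Set (Cfsg.IrrCharacter H)) (hb : Cfsg.IsPBlock M b) (hbP : Cfsg.IsDefectGroup p M b (P.subgroupOf H)) (B : Set (Cfsg.IrrCharacter G)) (hind : Cfsg.IsInducedBlock M H b B) (T : Subgroup G) (hT : ∀ g : G, g ∈ T ↔ (g ∈ Subgroup.normalizer (P : Set G) ∧ ∀ θ ∈ b, ∀ θ' : Cfsg.IrrCharacter H, (∀ h h' : H, (h' : G) = g * h * g⁻¹ → (θ' : H → ℂ) h' = (θ : H → ℂ) h) → θ' ∈ b)) : Cfsg.IsDefectGroup p M B P ↔ ¬ p ∣ H.relIndex T := by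
  have : M.IsMaximal := hM.2.1
  have : CharP (H20.Loc.ResF M) p := H20.Loc.charP_resF hM
  let _ : Algebra (ZMod p) (H20.Loc.ResF M) := ZMod.algebra (H20.Loc.ResF M) p
  have : Algebra.IsAlgebraic (ZMod p) (H20.Loc.ResF M) := H80.BR1.isAlgebraic_resF hM
  have : IsAlgClosed (H20.Loc.ResF M) := H20.Loc.isAlgClosed_resF
  have hPH : P ≤ H := by rw [hH]; exact le_sup_left
  have hCH : Subgroup.centralizer (P : Set G) ≤ H := by rw [hH]; exact le_sup_right
  have hHN : H ≤ Subgroup.normalizer (P : Set G) := by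
    rw [hH]; exact sup_le Subgroup.le_normalizer (H80.GH.centralizer_le_normalizer' P)
  have he := H80.BR2.isBlk_bl hb
  have hdef := (H80.BR2.isDefectGroup_iff_isDef' hM hb).1 hbP
  rw [Subgroup.subgroupOf_map_subtype, inf_eq_left.2 hPH] at hdef
  have hBe := H80.BR7.induced_br_mp hM hP hPH hCH hHN hind
  have hH' : H = P ⊔ H80.GB.CH ⊤ P := by rw [H80.BR3.CH_top]; exact hH
  have hn : ∀ g ∈ Subgroup.normalizer (P : Set G), g ∈ Subgroup.normalizer (H : Set G) := by
    intro g hg
    have h1 : H80.GA.cs g (P ⊔ Subgroup.centralizer (P : Set G)) =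
        H80.GA.cs g P ⊔ H80.GA.cs g (Subgroup.centralizer (P : Set G)) := Subgroup.map_sup _ _ _
    rw [H80.GA.mem_normalizer, hH, h1, H80.GA.cs_centralizer, H80.GA.mem_normalizer.1 hg]
  have hTe : T = H80.GH.ST ⊤ P (H80.BR2.bl M H b) := by
    ext g
    rw [hT, H80.GH.mem_ST]
    constructor
    · rintro ⟨h1, h2⟩
      refine ⟨Subgroup.mem_top g, h1, ?_⟩
      exact (H80.BR10.stab'_iff hb (hn g h1)).1 h2
    · rintro ⟨-, h1, h2⟩
      refine ⟨h1, ?_⟩
      exact (H80.BR10.stab'_iff hb (hn g h1)).2 h2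
  rw [H80.BR2.isDefectGroup_iff_isDef hM hind.2.1, hTe]
  exact H80.GX.ext_first hH' he hdef (H80.BR1.isBlk_ebar hind.2.1) hBe

end Cfsg.Agent.S4437
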