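import Cfsg.Statements.S4438
import Cfsg.Agent.Lib.H77.Knorr2
import Cfsg.Agent.Lib.H77.CovFR2
import Cfsg.Agent.S4435
import Cfsg.Agent.S4436
-- import your own Cfsg.Agent.* helpers here

set_option autoImplicit false
open Cfsg

namespace Cfsg.Agent.S4438

open H18 H20.Loc H20.GA H20.Blk H20.Ind H31.Clifford H18.CharQuot H77.Cov1 H77.BlkEquiv H77.CovFR H77.CovFR2 H77.Knorr2


/-- Let N be a normal subgroup of the finite group G, b a block of N with defect group Q, and B a block of G covering b (some member of B has a constituent in b on restriction to N), all relative to a maximal ideal M of the algebraic integers containing p. Then B has a defect group P with P ⊓ N = Q. -/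
theorem result {G : Type*} [Group G] [Fintype G] (p : ℕ) [Fact p.Prime] (M : Ideal Cfsg.AlgInt) (hM : Cfsg.IsPModular p M) (N : Subgroup G) [hN : N.Normal] [Fintype N] (b : Set (Cfsg.IrrCharacter N)) (hb : Cfsg.IsPBlock M b) (Q : Subgroup G) (hQN : Q ≤ N) (hQ : Cfsg.IsDefectGroup p M b (Q.subgroupOf N)) (B : Set (Cfsg.IrrCharacter G)) (hB : Cfsg.IsPBlock M B) (hcov : (∃ χ ∈ B, ∃ θ ∈ b, Cfsg.classInner (fun n : N => (χ : G → ℂ) n) (θ : N → ℂ) ≠ 0)) : ∃ P : Subgroup G, Cfsg.IsDefectGroup p M B P ∧ P ⊓ N = Q := by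
  classical
  haveI := pm_isPrime hM
  -- the stabilizer
  have hblock : ∀ (g : G) (θ θ' : Cfsg.IrrCharacter N), θ ∈ b → θ' ∈ b → cI N g θ ∈ b → cI N g θ' ∈ b := by
    intro g θ θ' h1 h2 h3
    rw [isPBlock_mem_iff hb h3]
    exact sameBlock_cI N g (isPBlock_sameBlock hb h1 h2)
  have hinv' : ∀ (g : G) (θ : Cfsg.IrrCharacter N), θ ∈ b → cI N g θ ∈ b → cI N g⁻¹ θ ∈ b := by
    intro g θ h1 h2
    rw [isPBlock_mem_iff hb h1]
    have h3 := sameBlock_cI N g⁻¹ (isPBlock_sameBlock hb h2 h1)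
    rw [cI_mul, mul_inv_cancel, cI_one] at h3
    exact h3
  let T : Subgroup G :=
    { carrier := {g | ∀ θ ∈ b, cI N g θ ∈ b}
      mul_mem' := by
        intro x y hx hy θ hθ
        rw [← cI_mul]
        exact hy _ (hx θ hθ)
      one_mem' := by
        intro θ hθ
        rwa [cI_one]
      inv_mem' := by
        intro x hx θ hθ
        exact hinv' x θ hθ (hx θ hθ) }
  have hTmem : ∀ g : G, g ∈ T ↔ ∀ θ ∈ b, cI N g θ ∈ b := fun g => Iff.rfl
  letI : Fintype T := Fintype.ofFinite _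
  have hNT : N ≤ T := by
    intro n hn θ hθ
    have h1 : cI N n θ = θ := Subtype.ext (cj_mem N (H18.CharBasic.isClassFunction_of_isIrr θ.2) hn)
    rwa [h1]
  have hT : ∀ g : G, g ∈ T ↔ ∀ θ ∈ b, ∀ θ' : Cfsg.IrrCharacter N,
      (∀ n : N, (θ' : N → ℂ) n = (θ : N → ℂ) ⟨g * n * g⁻¹, hN.conj_mem n n.2 g⟩) → θ' ∈ b := by
    intro g
    rw [hTmem]
    constructor
    · intro h θ hθ θ' hθ'
      have h1 : θ' = cI N g θ := Subtype.ext (by funext n; exact hθ' n)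
      rw [h1]; exact h θ hθ
    · intro h θ hθ
      exact h θ hθ (cI N g θ) (fun n => rfl)
  obtain ⟨B', hB', hcov', hind⟩ :=
    (Cfsg.Agent.S4435.result p M hM N b hb T hT hNT).2.2 B hB hcov
  have hdef := (Cfsg.Agent.S4436.result p M hM N b hb T hT hNT B' hB' hcov' B hind).1
  have hst := stab_of N hb hT
  obtain ⟨ψ0, hψ0, θ0, hθ0, hne⟩ := hcov'
  -- transport to `T`
  letI : Fintype (N.subgroupOf T) := Fintype.ofFinite _
  let e : N ≃* N.subgroupOf T := (Subgroup.subgroupOfEquivOfLe hNT).symm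
  have hin : ∀ (ξ : T → ℂ) (ρ : Cfsg.IrrCharacter N),
      Cfsg.classInner (fun x : N.subgroupOf T => ξ x) (irrE e ρ : N.subgroupOf T → ℂ) =
        Cfsg.classInner (resH hNT ξ) (ρ : N → ℂ) := fun ξ ρ =>
    inner_irrE e (fun x : N.subgroupOf T => ξ x) ρ
  have hb' := isPBlock_image e hb
  have hQ' := isDefectGroup_image e hQ
  have hst' : ∀ θ ∈ irrE e '' b, ∀ t : T, cI (N.subgroupOf T) t θ ∈ irrE e '' b := by
    rintro _ ⟨θ, hθ, rfl⟩ t
    refine ⟨cI N (t : G) θ, t.2 θ hθ, ?_⟩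
    apply Subtype.ext
    funext x
    obtain ⟨n, rfl⟩ := e.surjective x
    rw [irrE_apply']
    have h1 : (cI (N.subgroupOf T) t (irrE e θ) : N.subgroupOf T → ℂ) (e n) =
        (irrE e θ : N.subgroupOf T → ℂ) (e ⟨(t : G) * n * (t : G)⁻¹, hN.conj_mem n n.2 t⟩) := rfl
    rw [h1, irrE_apply']
    rfl
  have hover : ∀ ψ ∈ B', ∃ θ' ∈ irrE e '' b,
      Cfsg.classInner (fun x : N.subgroupOf T => (ψ : T → ℂ) x) (θ' : N.subgroupOf T → ℂ) ≠ 0 := by
    intro ψ hψ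
    have ho := only_of_cover N hNT M hM hst.1 hb hB' hψ0 hθ0 hne hψ
    obtain ⟨θ, hθ, h⟩ := exists_in_b N hNT ψ.2 ho
    exact ⟨irrE e θ, ⟨θ, hθ, rfl⟩, by rw [hin]; exact h⟩
  obtain ⟨P', hP', hPN⟩ := knorr_stable hM hb' hst' hQ' hB' hover
  refine ⟨P'.map T.subtype, hdef P' hP', ?_⟩
  ext x
  rw [Subgroup.mem_inf]
  constructor
  · rintro ⟨⟨t, ht, rfl⟩, hx⟩
    have h1 : t ∈ P' ⊓ N.subgroupOf T := ⟨ht, hx⟩
    rw [hPN] at h1
    obtain ⟨_, ⟨q, hq, rfl⟩, hqt⟩ := h1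
    have h2 : (q : G) = t := congrArg (fun z : T => (z : G)) hqt
    have h3 : (q : G) ∈ Q := hq
    rw [h2] at h3
    exact h3
  · intro hx
    have hxN := hQN hx
    have h1 : (⟨x, hNT hxN⟩ : T) ∈ P' ⊓ N.subgroupOf T := by
      rw [hPN]
      exact ⟨e ⟨x, hxN⟩, ⟨⟨x, hxN⟩, hx, rfl⟩, rfl⟩
    exact ⟨⟨_, h1.1, rfl⟩, hxN⟩

end Cfsg.Agent.S4438
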