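import Cfsg.Statements.S4442
import Mathlib
import Cfsg.Agent.Lib.H67.BlkOne5

set_option autoImplicit false
open Cfsg

namespace Cfsg.Agent.S4442

open Finset Cfsg H18.CharBasic H18.CharOrtho H18.CharInd H67.Lat H67.DefOne H67.BlkOne in
theorem key {G : Type*} [Group G] [Finite G] (p : ℕ) [Fact p.Prime] (M : Ideal Cfsg.AlgInt) (hM : Cfsg.IsPModular p M) (P : Sylow p G) (D : Dat p G) (hp2 : ¬ p ^ 2 ∣ Nat.card G) (Q : Subgroup G) (hPQ : (P : Subgroup G) = Q) (hQ : Subgroup.zpowers D.σ = Q) (B : Set (Cfsg.IrrCharacter G)) (b : Set (Cfsg.IrrCharacter (Subgroup.centralizer (Q : Set G)))) (hind : Cfsg.IsInducedBlock M (Subgroup.centralizer (Q : Set G)) b B) (θ : Cfsg.IrrCharacter (Subgroup.centralizer (Q : Set G))) (hθ : θ ∈ b) (hθP : ∀ x : Subgroup.centralizer (Q : Set G), (x : G) ∈ Q → (θ : Subgroup.centralizer (Q : Set G) → ℂ) x = (θ : Subgroup.centralizer (Q : Set G) → ℂ) 1) (T : Subgroup G) (hT : ∀ g : G, g ∈ T ↔ (g ∈ Subgroup.normalizer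 (Q : Set G) ∧ ∀ c c' : Subgroup.centralizer (Q : Set G), (c' : G) = g * c * g⁻¹ → (θ : Subgroup.centralizer (Q : Set G) → ℂ) c' = (θ : Subgroup.centralizer (Q : Set G) → ℂ) c)) (e f : ℕ) (he : (Subgroup.centralizer (Q : Set G)).relIndex T = e) (hf : (Subgroup.centralizer (Q : Set G)).relIndex (Subgroup.normalizer (Q : Set G)) = f) : e ∣ p - 1 ∧ Nat.card B = e + (p - 1) / e ∧ ∃ X Y : Set (Cfsg.IrrCharacter G), B = X ∪ Y ∧ Disjoint X Y ∧ Nat.card X = e ∧ Nat.card Y = (p - 1) / e ∧ (∀ χ ∈ X, (Cfsg.charDegree (χ : G → ℂ) : ℤ) ≡ ((f / e * Cfsg.charDegree (θ : Subgroup.centralizer (Q : Set G) → ℂ) : ℕ) : ℤ) [ZMOD p] ∨ (Cfsg.charDegree (χ : G → ℂ) : ℤ) ≡ -((f / e * Cfsg.charDegree (θ : Subgroup.centralizer (Q : Set G) → ℂ) : ℕ) : ℤ) [ZMOD p]) ∧ (∃ ε : ℤ, (ε = 1 ∨ ε = -1) ∧ ∀ ψ ∈ Y, (Cfsg.charDegree (ψ : G → ℂ) : ℤ) ≡ ε * ((f * Cfsg.charDegree (θ : Subgroup.centralizer (Q : Set G) → ℂ) : ℕ) : ℤ) [ZMOD p]) ∧ ∀ ψ ∈ Y, ∀ ψ' ∈ Y, ∀ g :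 G, ¬ p ∣ orderOf g → (ψ : G → ℂ) g = (ψ' : G → ℂ) g := by
  classical
  subst hQ
  let _ : Fintype G := Fintype.ofFinite G
  let _ : Fintype D.W := Fintype.ofFinite D.W
  have hp : p.Prime := Fact.out
  have hker : KerP D (θ : CC D → ℂ) := hθP
  have hθW := hker.irr θ.2
  have hcore := core hM P hPQ hp2 hker hθ hind
  have hC : Nat.card (CC D) = p * Nat.card D.W := card_CC D
  have hσC : Subgroup.zpowers D.σ ≤ CC D := by
    rw [Subgroup.zpowers_le]
    exact (mem_CC D).2 rfl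
  have hCT : CC D ≤ T := by
    intro g hg
    rw [hT]
    refine ⟨CC_le D hg, ?_⟩
    intro c c' hc
    have h1 : c' = (⟨g, hg⟩ : CC D) * c * (⟨g, hg⟩ : CC D)⁻¹ := Subtype.ext hc
    rw [h1]
    exact isClassFunction_of_isIrr θ.2 c ⟨g, hg⟩
  have hTN : T ≤ Subgroup.normalizer (Subgroup.zpowers D.σ : Set G) := fun g hg => ((hT g).1 hg).1
  have hTmem : ∀ n : D.N₀, (n : G) ∈ T ↔ n ∈ T₀ D (resW D θ) := by
    intro n
    rw [hT, mem_T₀]
    constructor
    · rintro ⟨_, h⟩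
      funext u
      rw [cjW_apply]
      exact h ⟨u, W_le_CC D u.2⟩ ⟨n * u * (n : G)⁻¹, W_le_CC D (conj_mem_W D n u)⟩ rfl
    · intro h
      refine ⟨D.hN₀ n.2, ?_⟩
      intro c c' hc
      obtain ⟨i, u, rfl⟩ := cmk_surj D c
      have h1 := cmk_conj n 0 i u
      rw [ZMod.val_zero, pow_zero, mul_one] at h1
      have h2 : c' = cmk D ((KK D n : ZMod p) * i) ⟨n * u * (n : G)⁻¹, conj_mem_W D n u⟩ :=
        Subtype.ext (hc.trans h1)
      rw [h2, hker.apply_cmk (isCharacter_of_isIrr θ.2), hker.apply_cmk (isCharacter_of_isIrr θ.2)]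
      exact congrFun h u
  have hcT : Nat.card T = p * Nat.card (T₀ D (resW D θ)) := by
    rw [card_between T (hσC.trans hCT) hTN]
    congr 1
    exact Nat.card_congr (Equiv.subtypeEquivRight hTmem)
  have hcN : Nat.card (Subgroup.normalizer (Subgroup.zpowers D.σ : Set G)) = p * Nat.card D.N₀ :=
    card_normalizer
  have hcT₀ := card_T₀ D (isClassFunction_of_isIrr hθW)
  have hpW : 0 < p * Nat.card D.W := Nat.mul_pos hp.pos Nat.card_pos
  have he' : e = Nat.card (HH D (resW D θ)) := by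
    have h1 := Subgroup.relIndex_mul_relIndex ⊥ (CC D) T bot_le hCT
    rw [Subgroup.relIndex_bot_left, Subgroup.relIndex_bot_left, hC, hcT, hcT₀, he] at h1
    have h2 : p * Nat.card D.W * e = p * Nat.card D.W * Nat.card (HH D (resW D θ)) := by
      rw [h1]; ring
    exact Nat.eq_of_mul_eq_mul_left hpW h2
  have hf' : f = e * (T₀ D (resW D θ)).index := by
    have h1 := Subgroup.relIndex_mul_relIndex ⊥ (CC D) (Subgroup.normalizer (Subgroup.zpowers D.σ : Set G))
      bot_le (CC_le D)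
    rw [Subgroup.relIndex_bot_left, Subgroup.relIndex_bot_left, hC, hcN,
      ← (T₀ D (resW D θ)).card_mul_index, hcT₀, hf, ← he'] at h1
    have h2 : p * Nat.card D.W * f = p * Nat.card D.W * (e * (T₀ D (resW D θ)).index) := by
      rw [h1]; ring
    exact Nat.eq_of_mul_eq_mul_left hpW h2
  have hepos : 0 < e := by rw [he']; exact Nat.card_pos
  have hfe : f / e = (T₀ D (resW D θ)).index := by
    rw [hf', Nat.mul_div_cancel_left _ hepos]
  rw [hfe, hf', he']
  exact hcore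


/-- Blocks of defect one. Let p be an odd prime and G a finite group whose Sylow p-subgroup P has order p; let C = C_G(P) and N = N_G(P), and fix a maximal ideal M of the algebraic integers containing p. Let B be a block of G with defect group P, b a block of C inducing B, and θ the member of b having P in its kernel (there is exactly one). Let T be the stabilizer of θ in N (the elements g ∈ N with θ(g c g⁻¹) = θ(c) for all c ∈ C) and e the index of C in T. Then e divides p − 1 and B contains exactly e + (p − 1)/e irreducible characters. Moreover B is the disjoint union of a set X of e characters and a set Y of (p − 1)/e characters such that, with f the index of C in N: every χ ∈ X has χ(1) ≡ ±(f/e)·θ(1) (mod p), there is one sign ε with ψ(1) ≡ ε f θ(1) (mod p) for all ψ ∈ Y, and all members of Y agree on the p-regular elements of G. -/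
theorem result {G : Type*} [Group G] [Finite G] (p : ℕ) [Fact p.Prime] (M : Ideal Cfsg.AlgInt) (hM : Cfsg.IsPModular p M) (hodd : p ≠ 2) (P : Sylow p G) (hP : Nat.card P = p) (B : Set (Cfsg.IrrCharacter G)) (hB : Cfsg.IsPBlock M B) (hBP : Cfsg.IsDefectGroup p M B P) (b : Set (Cfsg.IrrCharacter (Subgroup.centralizer ((P : Subgroup G) : Set G)))) (hind : Cfsg.IsInducedBlock M (Subgroup.centralizer ((P : Subgroup G) : Set G)) b B) (θ : Cfsg.IrrCharacter (Subgroup.centralizer ((P : Subgroup G) : Set G))) (hθ : θ ∈ b) (hθP : ∀ x : Subgroup.centralizer ((P : Subgroup G) : Set G), (x : G) ∈ (P : Subgroup G) → (θ : Subgroup.centralizer ((P : Subgroup G) : Set G) → ℂ) x = (θ : Subgroup.centralizer ((P : Subgroup G) : Set G) → ℂ) 1) (T : Subgroup G) (hT : ∀ g : G, g ∈ T ↔ (g ∈ Subgroup.normalizer ((P : Subgroup G) : Set G) ∧ ∀ c c' : Subgroup.centralizer ((P : Subgroup G) : Set G), (c' : G) = g * c * g⁻¹ → (θ : Subgroup.centralizer ((P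 : Subgroup G) : Set G) → ℂ) c' = (θ : Subgroup.centralizer ((P : Subgroup G) : Set G) → ℂ) c)) (e f : ℕ) (he : (Subgroup.centralizer ((P : Subgroup G) : Set G)).relIndex T = e) (hf : (Subgroup.centralizer ((P : Subgroup G) : Set G)).relIndex (Subgroup.normalizer ((P : Subgroup G) : Set G)) = f) : e ∣ p - 1 ∧ Nat.card B = e + (p - 1) / e ∧ ∃ X Y : Set (Cfsg.IrrCharacter G), B = X ∪ Y ∧ Disjoint X Y ∧ Nat.card X = e ∧ Nat.card Y = (p - 1) / e ∧ (∀ χ ∈ X, (Cfsg.charDegree (χ : G → ℂ) : ℤ) ≡ ((f / e * Cfsg.charDegree (θ : Subgroup.centralizer ((P : Subgroup G) : Set G) → ℂ) : ℕ) : ℤ) [ZMOD p] ∨ (Cfsg.charDegree (χ : G → ℂ) : ℤ) ≡ -((f / e * Cfsg.charDegree (θ : Subgroup.centralizer ((P : Subgroup G) : Set G) → ℂ) : ℕ) : ℤ) [ZMOD p]) ∧ (∃ ε : ℤ, (ε = 1 ∨ ε = -1) ∧ ∀ ψ ∈ Y, (Cfsg.charDegree (ψ : G → ℂ) : ℤ) ≡ ε * ((f * Cfsg.charDegree (θ : Subgroup.centralizer ((P : Subgroup G) : Set G) → ℂ) : ℕ) : ℤ) [ZMOD p]) ∧ ∀ ψ ∈ Y, ∀ ψ' ∈ Y,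 ∀ g : G, ¬ p ∣ orderOf g → (ψ : G → ℂ) g = (ψ' : G → ℂ) g := by
  classical
  have hp : p.Prime := Fact.out
  obtain ⟨σ, hσP, hσ⟩ : ∃ σ ∈ (P : Subgroup G), orderOf σ = p := by
    have : Fintype (P : Subgroup G) := Fintype.ofFinite _
    obtain ⟨g, hg⟩ := exists_prime_orderOf_dvd_card' (G := (P : Subgroup G)) p hP.symm.dvd
    exact ⟨g, g.2, by rw [Subgroup.orderOf_coe]; exact hg⟩
  have hzp : Subgroup.zpowers σ = (P : Subgroup G) := by
    apply Subgroup.eq_of_le_of_card_ge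
    · rw [Subgroup.zpowers_le]; exact hσP
    · rw [Nat.card_zpowers, hσ]
      exact hP.le
  have hp2 : ¬ p ^ 2 ∣ Nat.card G := by
    intro h
    have h1 := (P.card_eq_multiplicity).symm
    have h2 : Nat.card P = p ^ 1 := by rw [pow_one]; exact hP
    rw [h2] at h1
    have h3 := Nat.pow_right_injective hp.two_le h1
    have h4 := (hp.pow_dvd_iff_le_factorization Nat.card_pos.ne').1 h
    omega
  obtain ⟨D, hD⟩ := H67.Lat.exists_dat hp hp2 hσ
  subst hD
  exact key p M hM P D hp2 (P : Subgroup G) rfl hzp B b hind θ hθ hθP T hT e f he hf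

end Cfsg.Agent.S4442
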