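import Cfsg.Statements.S4445
import Mathlib
import Cfsg.Agent.Lib.H77.CopSub

set_option autoImplicit false
open Cfsg

namespace Cfsg.Agent.S4445

/-- Inside a finite group Γ let the solvable subgroup S normalise G with the orders of G and S coprime. Then the number of S-invariant irreducible characters of G (χ(s g s⁻¹) = χ(g) for all s ∈ S, g ∈ G) equals the number of conjugacy classes of G mapped to themselves by conjugation by every element of S. -/
theorem result {Γ : Type*} [Group Γ] [Fintype Γ] (G S : Subgroup Γ) [Fintype G] (hnorm : ∀ s ∈ S, ∀ g ∈ G, s * g * s⁻¹ ∈ G) (hcop : (Nat.card G).Coprime (Nat.card S)) (hsolv : Group.IsSolvable S) : Nat.card {χ : Cfsg.IrrCharacter G // (∀ s ∈ S, ∀ g g' : G, (g' : Γ) = s * g * s⁻¹ → (χ : G → ℂ) g' = (χ : G → ℂ) g)} = Nat.card {K : ConjClasses G // ∀ s ∈ S, ∀ g g' : G, (g' : Γ) = s * g * s⁻¹ → ConjClasses.mk g = K → ConjClasses.mk g' = K} := by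
  have h := H77.CopChain.card_inv_irr _ S rfl hsolv G hcop (H77.CopSub.conjHom G S hnorm)
    (G ⊓ Subgroup.centralizer (S : Set Γ) : Subgroup Γ)
    (Subgroup.inclusion inf_le_left) (Subgroup.inclusion_injective _)
    (H77.CopSub.hC_iff G S hnorm rfl _)
  have e1 : Nat.card {χ : Cfsg.IrrCharacter G // (∀ s ∈ S, ∀ g g' : G, (g' : Γ) = s * g * s⁻¹ →
      (χ : G → ℂ) g' = (χ : G → ℂ) g)}
      = Nat.card {χ : Cfsg.IrrCharacter G // H77.GlaubP.Inv (H77.CopSub.conjHom G S hnorm) χ.1} :=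
    Nat.card_congr (Equiv.subtypeEquivRight fun χ => H77.CopSub.inv_iff G S hnorm χ.1)
  have e2 : Nat.card {K : ConjClasses G // ∀ s ∈ S, ∀ g g' : G, (g' : Γ) = s * g * s⁻¹ →
      ConjClasses.mk g = K → ConjClasses.mk g' = K}
      = Nat.card {K : ConjClasses G // ∀ s, ConjClasses.map
          (H77.CopSub.conjHom G S hnorm s).toMonoidHom K = K} :=
    Nat.card_congr (Equiv.subtypeEquivRight fun K => H77.CopSub.class_iff G S hnorm K)
  have e3 : Nat.card (Cfsg.IrrCharacter (G ⊓ Subgroup.centralizer (S : Set Γ) : Subgroup Γ))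
      = Nat.card (ConjClasses (G ⊓ Subgroup.centralizer (S : Set Γ) : Subgroup Γ)) :=
    H18.CharOrtho.card_irr_eq_card_conjClasses _
  rw [e1, e2, h.1, h.2, e3]

end Cfsg.Agent.S4445
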