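import Cfsg.Statements.S4446
import Cfsg.Agent.Lib.H77.GlaubC
-- import your own Cfsg.Agent.* helpers here

set_option autoImplicit false
open Cfsg

namespace Cfsg.Agent.S4446

open H77.GlaubC


/-- Let the finite group Γ be generated by a normal subgroup G and a cyclic subgroup S of coprime orders, C = G ⊓ C(S), and let χ be an S-invariant irreducible character of G with canonical extension χ̂ to Γ (the extension whose determinantal order is coprime to the order of S). Then there are exactly one irreducible character β of C and one sign ε such that χ̂(c s) = ε β(c) for every c ∈ C and every generator s of S; this β is a constituent of the restriction of χ to C; distinct S-invariant χ give distinct β; and every irreducible character of C arises in this way. -/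
theorem result {Γ : Type*} [Group Γ] [Fintype Γ] (G S : Subgroup Γ) [Fintype G] (hnorm : ∀ s ∈ S, ∀ g ∈ G, s * g * s⁻¹ ∈ G) (hcop : (Nat.card G).Coprime (Nat.card S)) (htop : G ⊔ S = ⊤) (hcyc : IsCyclic S) (C : Subgroup Γ) [Fintype C] (hC : C = G ⊓ Subgroup.centralizer (S : Set Γ)) (hCG : C ≤ G) : (∀ (χ : Cfsg.IrrCharacter G) (χh : Cfsg.IrrCharacter Γ), (∀ s ∈ S, ∀ g g' : G, (g' : Γ) = s * g * s⁻¹ → (χ : G → ℂ) g' = (χ : G → ℂ) g) → (∀ g : G, (χh : Γ → ℂ) g = (χ : G → ℂ) g) → (Cfsg.detOrder (χh : Γ → ℂ)).Coprime (Nat.card S) → (∃! βε : Cfsg.IrrCharacter C × ℤ, (βε.2 = 1 ∨ βε.2 = -1) ∧ ∀ c : C, ∀ s : Γ, Subgroup.zpowers s = S → (χh : Γ → ℂ) ((c : Γ) * s) = (βε.2 : ℂ) * (βε.1 : C → ℂ) c) ∧ ∀ β : Cfsg.IrrCharacter C, ∀ ε : ℤ, (ε = 1 ∨ ε = -1) → (∀ c : C, ∀ s : Γ, Subgroup.zpowers s = S → (χh : Γ → ℂ) ((c : Γ) * s) = (ε : ℂ) * (β : C → ℂ) c) → Cfsg.classInner (fun c : C => (χ : G →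 ℂ) ⟨c, hCG c.2⟩) (β : C → ℂ) ≠ 0) ∧ (∀ (χ χ' : Cfsg.IrrCharacter G) (χh χh' : Cfsg.IrrCharacter Γ), (∀ s ∈ S, ∀ g g' : G, (g' : Γ) = s * g * s⁻¹ → (χ : G → ℂ) g' = (χ : G → ℂ) g) → (∀ s ∈ S, ∀ g g' : G, (g' : Γ) = s * g * s⁻¹ → (χ' : G → ℂ) g' = (χ' : G → ℂ) g) → (∀ g : G, (χh : Γ → ℂ) g = (χ : G → ℂ) g) → (∀ g : G, (χh' : Γ → ℂ) g = (χ' : G → ℂ) g) → (Cfsg.detOrder (χh : Γ → ℂ)).Coprime (Nat.card S) → (Cfsg.detOrder (χh' : Γ → ℂ)).Coprime (Nat.card S) → ∀ β : Cfsg.IrrCharacter C, ∀ ε ε' : ℤ, (ε = 1 ∨ ε = -1) → (ε' = 1 ∨ ε' = -1) → (∀ c : C, ∀ s : Γ, Subgroup.zpowers s = S → (χh : Γ → ℂ) ((c : Γ) * s) = (ε : ℂ) * (β : C → ℂ) c) → (∀ c : C, ∀ s : Γ, Subgroup.zpowers s = S → (χh' : Γ → ℂ) ((c : Γ) * s) = (ε' : ℂ) * (β : C → ℂ) c) → χ = χ') ∧ (∀ β : Cfsg.IrrCharacter C, ∃ (χ : Cfsg.IrrCharacter G) (χh : Cfsg.IrrCharacter Γ) (ε : ℤ), (∀ s ∈ S, ∀ g g' : G, (g' : Γ) = s * g * s⁻¹ → (χ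 : G → ℂ) g' = (χ : G → ℂ) g) ∧ (∀ g : G, (χh : Γ → ℂ) g = (χ : G → ℂ) g) ∧ (Cfsg.detOrder (χh : Γ → ℂ)).Coprime (Nat.card S) ∧ (ε = 1 ∨ ε = -1) ∧ ∀ c : C, ∀ s : Γ, Subgroup.zpowers s = S → (χh : Γ → ℂ) ((c : Γ) * s) = (ε : ℂ) * (β : C → ℂ) c) := by
  classical
  haveI hGn : G.Normal := normal_of G S hnorm htop
  obtain ⟨s₀, hs₀⟩ := exists_gen hcyc
  have hci := cop_index G S hcop htop
  have hidx := index_dvd G S htop
  -- basic correspondence data for a pair `χ`, `χh`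
  have key : ∀ (χ : Cfsg.IrrCharacter G) (χh : Cfsg.IrrCharacter Γ),
      (∀ g : G, (χh : Γ → ℂ) g = (χ : G → ℂ) g) →
      (Cfsg.detOrder (χh : Γ → ℂ)).Coprime (Nat.card S) →
      ∃ (β : Cfsg.IrrCharacter C) (ε : ℤ), (ε = 1 ∨ ε = -1) ∧
        ∀ c : C, ∀ s : Γ, Subgroup.zpowers s = S → (χh : Γ → ℂ) (c * s) = ε * (β : C → ℂ) c := by
    intro χ χh hext hdet
    have e1 : (fun g : G => (χh : Γ → ℂ) g) = (χ : G → ℂ) := funext hext
    obtain ⟨β, ε, hε, hβ⟩ := exists_corr hcop htop hC χh.2 (by rw [e1]; exact χ.2) hdet hs₀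
    refine ⟨β, ε, hε, fun c s hs => ?_⟩
    rw [gen_indep hcop htop hC χh.2 (by rw [e1]; exact χ.2) hdet hs₀ hs, hβ]
  refine ⟨?_, ?_, ?_⟩
  · intro χ χh hinv hext hdet
    obtain ⟨β, ε, hε, hβ⟩ := key χ χh hext hdet
    refine ⟨⟨(β, ε), ⟨hε, hβ⟩, ?_⟩, ?_⟩
    · rintro ⟨β', ε'⟩ ⟨h1, h2⟩
      obtain ⟨h3, h4⟩ := eps_eq h1 hε (fun c => (h2 c s₀ hs₀).symm.trans (hβ c s₀ hs₀))
      exact Prod.ext h4 h3
    · intro β' ε' h1 h2
      have h3 : Cfsg.classInner (fun c : C => (χh : Γ → ℂ) (c * s₀)) (β' : C → ℂ) ≠ 0 := by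
        have e3 : (fun c : C => (χh : Γ → ℂ) (c * s₀)) = (ε' : ℂ) • (β' : C → ℂ) :=
          funext fun c => h2 c s₀ hs₀
        rw [e3, H18.CharOrtho.inner_smul_left, H18.CharOrtho.inner_irr_self β'.2, mul_one]
        rcases h1 with rfl | rfl <;> norm_num
      have h4 := constituent hC χh.2 hs₀ β'.2 h3
      have e4 : (fun c : C => (χh : Γ → ℂ) c) = fun c : C => (χ : G → ℂ) ⟨c, hCG c.2⟩ :=
        funext fun c => hext ⟨c, hCG c.2⟩
      rw [← e4]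
      exact h4
  · intro χ χ' χh χh' hinv hinv' hext hext' hdet hdet' β ε ε' h1 h2 h3 h4
    exact corr_inj hcop hC hext hext' hs₀ h1 h2 (fun c => h3 c s₀ hs₀) (fun c => h4 c s₀ hs₀)
  · -- counting
    have hSsolv : Group.IsSolvable S := by
      have hcomm : ∀ a b : S, a * b = b * a := fun a b =>
        Subtype.ext (comm_of_zp hs₀ a a.2 b b.2)
      exact isSolvable_of_comm hcomm
    have hcount := (H77.CopChain.card_inv_irr (Nat.card S) S rfl hSsolv G hcop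
      (H77.CopSub.conjHom G S hnorm) C (Subgroup.inclusion hCG) (Subgroup.inclusion_injective hCG)
      (H77.CopSub.hC_iff G S hnorm hC hCG)).1
    have hex : ∀ χ : {χ : Cfsg.IrrCharacter G // H77.GlaubP.Inv (H77.CopSub.conjHom G S hnorm) χ.1},
        ∃ χh : Cfsg.IrrCharacter Γ, (∀ g : G, (χh : Γ → ℂ) g = (χ.1 : G → ℂ) g) ∧
          (Cfsg.detOrder (χh : Γ → ℂ)).Coprime (Nat.card S) := by
      intro χ
      obtain ⟨χh, h1, h2⟩ := H77.Canon.canon_exists G hci χ.1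
        (inv_top htop χ.1 ((H77.CopSub.inv_iff G S hnorm _).2 χ.2))
      exact ⟨χh, h1, Nat.Coprime.coprime_dvd_left h2 hcop⟩
    choose ext hext hdet using hex
    have hk := fun χ => key χ.1 (ext χ) (hext χ) (hdet χ)
    choose b e he hb using hk
    have hbinj : Function.Injective b := by
      intro χ χ' h
      apply Subtype.ext
      exact corr_inj hcop hC (hext χ) (hext χ') hs₀ (he χ) (he χ') (fun c => hb χ c s₀ hs₀)
        (fun c => by rw [h]; exact hb χ' c s₀ hs₀)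
    have hbij : Function.Bijective b := by
      rw [Nat.bijective_iff_injective_and_card]
      exact ⟨hbinj, hcount⟩
    intro β
    obtain ⟨χ, hχ⟩ := hbij.2 β
    refine ⟨χ.1, ext χ, e χ, (H77.CopSub.inv_iff G S hnorm _).2 χ.2, hext χ, hdet χ, he χ, ?_⟩
    rw [← hχ]
    exact hb χ

end Cfsg.Agent.S4446
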