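import Cfsg.Statements.S4447
import Cfsg.Agent.Lib.H77.OverInv
import Cfsg.Agent.Lib.H77.CopSub
-- import your own Cfsg.Agent.* helpers here

set_option autoImplicit false
open Cfsg

namespace Cfsg.Agent.S4447

open H77.GlaubP H77.CopChain H77.GlPerm H18.CharBasic H18.CharOrtho H18.CharQuot


/-- Inside a finite group Γ let S normalise G and also normalise a normal subgroup N of G, with the order of S coprime to the index of N in G and S or G/N solvable. Then for every S-invariant irreducible character χ of G, the restriction of χ to N has an S-invariant irreducible constituent. -/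
theorem result {Γ : Type*} [Group Γ] [Fintype Γ] (G S N : Subgroup Γ) [Fintype G] [Fintype N] (hnorm : ∀ s ∈ S, ∀ g ∈ G, s * g * s⁻¹ ∈ G) (hNG : N ≤ G) [hNn : (N.subgroupOf G).Normal] (hNS : ∀ s ∈ S, ∀ n ∈ N, s * n * s⁻¹ ∈ N) (hcop : (N.relIndex G).Coprime (Nat.card S)) (hsolv : Group.IsSolvable S ∨ Group.IsSolvable (G ⧸ N.subgroupOf G)) (χ : Cfsg.IrrCharacter G) (hinv : (∀ s ∈ S, ∀ g g' : G, (g' : Γ) = s * g * s⁻¹ → (χ : G → ℂ) g' = (χ : G → ℂ) g)) : ∃ θ : Cfsg.IrrCharacter N, Cfsg.classInner (fun n : N => (χ : G → ℂ) ⟨n, hNG n.2⟩) (θ : N → ℂ) ≠ 0 ∧ (∀ s ∈ S, ∀ g g' : N, (g' : Γ) = s * g * s⁻¹ → (θ : N → ℂ) g' = (θ : N → ℂ) g) := by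
  classical
  set N' := N.subgroupOf G with hN'
  letI := Fintype.ofFinite N'
  let e : N' ≃* N := Subgroup.subgroupOfEquivOfLe hNG
  have hnG : ∀ g ∈ G, ∀ n ∈ N, g * n * g⁻¹ ∈ N := by
    intro g hg n hn
    have := hNn.conj_mem ⟨n, hNG hn⟩ hn ⟨g, hg⟩
    exact this
  let φS := H77.CopSub.conjHom N S hNS
  let φG := H77.CopSub.conjHom N G hnG
  have hcN : Cfsg.IsCharacter N (fun n : N => (χ : G → ℂ) ⟨n, hNG n.2⟩) :=
    isCharacter_comp (Subgroup.inclusion hNG) (isCharacter_of_isIrr χ.2)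
  obtain ⟨θ, hθ, hne⟩ := exists_irr_inner_ne_zero (isClassFunction_of_isCharacter hcN)
    (fun h => irr_one_ne_zero χ.2 (congrFun h 1))
  let x : Cfsg.IrrCharacter N := ⟨θ, hθ⟩
  -- images of constituents
  have hSx : ∀ s : S, Cfsg.classInner (fun n : N => (χ : G → ℂ) ⟨n, hNG n.2⟩) (permS φS s x).1 ≠ 0 := by
    intro s
    have h1 := classInner_mulEquiv (φS s⁻¹) (fun n : N => (χ : G → ℂ) ⟨n, hNG n.2⟩) θ
    have h2 : (fun g : N => (fun n : N => (χ : G → ℂ) ⟨n, hNG n.2⟩) (φS s⁻¹ g)) =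
        fun n : N => (χ : G → ℂ) ⟨n, hNG n.2⟩ := by
      funext n
      exact hinv _ (s⁻¹ : S).2 ⟨n, hNG n.2⟩ _ rfl
    rw [h2] at h1
    have h3 : (permS φS s x).1 = fun g : N => θ (φS s⁻¹ g) := rfl
    rw [h3, h1]
    exact hne
  have hGx : ∀ g : G, Cfsg.classInner (fun n : N => (χ : G → ℂ) ⟨n, hNG n.2⟩) (permS φG g x).1 ≠ 0 := by
    intro s
    have h1 := classInner_mulEquiv (φG s⁻¹) (fun n : N => (χ : G → ℂ) ⟨n, hNG n.2⟩) θ
    have h2 : (fun g : N => (fun n : N => (χ : G → ℂ) ⟨n, hNG n.2⟩) (φG s⁻¹ g)) =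
        fun n : N => (χ : G → ℂ) ⟨n, hNG n.2⟩ := by
      funext n
      exact isClassFunction_of_isIrr χ.2 ⟨n, hNG n.2⟩ s⁻¹
    rw [h2] at h1
    have h3 : (permS φG s x).1 = fun g : N => θ (φG s⁻¹ g) := rfl
    rw [h3, h1]
    exact hne
  have hinner : ∀ η : Cfsg.IrrCharacter N, Cfsg.classInner (fun n : N => (χ : G → ℂ) ⟨n, hNG n.2⟩) η.1 ≠ 0 →
      Cfsg.classInner (fun n : N' => (χ : G → ℂ) n) (fun n : N' => η.1 (e n)) ≠ 0 := by
    intro η h
    rw [← classInner_mulEquiv e] at h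
    exact h
  obtain ⟨g, hg⟩ := glaub (permS φS) (permS φG) (by
      intro s g
      have hm : (s : Γ) * g * (s : Γ)⁻¹ ∈ G := hnorm s s.2 g g.2
      refine ⟨⟨_, hm⟩, ?_⟩
      rw [mul_inv_eq_iff_eq_mul]
      apply Equiv.ext
      intro η
      apply Subtype.ext
      funext n
      show η.1 (φG g⁻¹ (φS s⁻¹ n)) = η.1 (φS s⁻¹ (φG (⟨_, hm⟩ : G)⁻¹ n))
      refine congrArg η.1 (Subtype.ext ?_)
      simp only [φG, φS, H77.CopSub.conjHom_coe]
      push_cast
      group) (by
      have h1 : Nat.card (permS φS).range ∣ Nat.card S := by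
        have := card_range_dvd (permS φS) ⊥ bot_le
        rwa [Subgroup.index_bot] at this
      have h2 : Nat.card (permS φG).range ∣ N.relIndex G := card_range_dvd (permS φG) N' (by
        intro g hg
        rw [MonoidHom.mem_ker]
        apply Equiv.ext
        intro η
        apply Subtype.ext
        funext n
        show η.1 (φG g⁻¹ n) = η.1 n
        have hg' : (g : Γ) ∈ N := hg
        have h3 := isClassFunction_of_isIrr η.2 n (⟨g, hg'⟩⁻¹)
        rw [← h3]
        congr 1)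
      exact (Nat.Coprime.coprime_dvd_left h1 (hcop.symm.coprime_dvd_right h2))) (by
      rcases hsolv with h | h
      · left
        exact Group.isSolvable_of_surjective (permS φS).rangeRestrict_surjective
      · right
        exact solvable_range (permS φG) N' (by
          intro g hg
          rw [MonoidHom.mem_ker]
          apply Equiv.ext
          intro η
          apply Subtype.ext
          funext n
          show η.1 (φG g⁻¹ n) = η.1 n
          have hg' : (g : Γ) ∈ N := hg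
          have h3 := isClassFunction_of_isIrr η.2 n (⟨g, hg'⟩⁻¹)
          rw [← h3]
          congr 1) h) x (by
      intro s
      obtain ⟨g, hg⟩ := H31.Clifford.constituents_conj N' χ.2
        ((isIrrCharacter_mulEquiv e).1 x.2) ((isIrrCharacter_mulEquiv e).1 (permS φS s x).2)
        (hinner x hne) (hinner _ (hSx s))
      refine ⟨g⁻¹, ?_⟩
      apply Subtype.ext
      funext n
      have h1 := congrFun hg (e.symm n)
      have h2 : e (e.symm n) = n := e.apply_symm_apply n
      rw [h2] at h1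
      rw [h1]
      show x.1 (φG g⁻¹⁻¹ n) = x.1 (e _)
      refine congrArg x.1 (Subtype.ext ?_)
      rw [inv_inv]
      rfl)
  refine ⟨permS φG g x, hGx g, (H77.CopSub.inv_iff N S hNS _).2 ((fixed_iff φS _).1 hg)⟩

end Cfsg.Agent.S4447
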