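import Cfsg.Statements.S4448
import Cfsg.Agent.Lib.H77.OverInv
import Cfsg.Agent.Lib.H77.CopSub
-- import your own Cfsg.Agent.* helpers here

set_option autoImplicit false
open Cfsg

namespace Cfsg.Agent.S4448

open H77.GlaubP H77.CopChain


/-- Inside a finite group Γ let S normalise G and also normalise a normal subgroup N of G, with the order of S coprime to the index of N in G and G/N solvable. Then for every S-invariant irreducible character ϑ of N, the induced character ϑ^G has an S-invariant irreducible constituent. -/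
theorem result {Γ : Type*} [Group Γ] [Fintype Γ] (G S N : Subgroup Γ) [Fintype G] [Fintype N] (hnorm : ∀ s ∈ S, ∀ g ∈ G, s * g * s⁻¹ ∈ G) (hNG : N ≤ G) [hNn : (N.subgroupOf G).Normal] (hNS : ∀ s ∈ S, ∀ n ∈ N, s * n * s⁻¹ ∈ N) (hcop : (N.relIndex G).Coprime (Nat.card S)) (hsolv : Group.IsSolvable (G ⧸ N.subgroupOf G)) (θ : Cfsg.IrrCharacter N) (hinv : (∀ s ∈ S, ∀ g g' : N, (g' : Γ) = s * g * s⁻¹ → (θ : N → ℂ) g' = (θ : N → ℂ) g)) : ∃ χ : Cfsg.IrrCharacter G, Cfsg.classInner (fun n : N => (χ : G → ℂ) ⟨n, hNG n.2⟩) (θ : N → ℂ) ≠ 0 ∧ (∀ s ∈ S, ∀ g g' : G, (g' : Γ) = s * g * s⁻¹ → (χ : G → ℂ) g' = (χ : G → ℂ) g) := by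
  classical
  set N' := N.subgroupOf G with hN'
  letI := Fintype.ofFinite N'
  let e : N' ≃* N := Subgroup.subgroupOfEquivOfLe hNG
  let φ := H77.CopSub.conjHom G S hnorm
  have hNφ : ∀ s, ∀ k ∈ N', φ s k ∈ N' := by
    intro s k hk
    rw [Subgroup.mem_subgroupOf, H77.CopSub.conjHom_coe]
    exact hNS s s.2 _ hk
  obtain ⟨χ, hχ1, hχ2⟩ := H77.OverInv.exists_over (S := S) ⊥ (N.relIndex G) G φ N' hNφ (by
      intro s hs
      rw [Subgroup.mem_bot] at hs
      refine ⟨1, N'.one_mem, fun g => ?_⟩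
      rw [hs, map_one]
      simp) rfl (by rw [Subgroup.index_bot]; exact hcop.symm) hsolv
    ⟨fun x => θ.1 (e x), (H18.CharQuot.isIrrCharacter_mulEquiv e).1 θ.2⟩ (by
      intro s k
      exact hinv s s.2 (e k) _ rfl)
  refine ⟨χ, ?_, (H77.CopSub.inv_iff G S hnorm _).2 hχ1⟩
  rw [← H18.CharQuot.classInner_mulEquiv e]
  exact hχ2

end Cfsg.Agent.S4448
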