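import Cfsg.Statements.S4449
import Mathlib
import Cfsg.Agent.Lib.H77.CopOver

set_option autoImplicit false
open Cfsg

namespace Cfsg.Agent.S4449

/-- Inside a finite group Γ let the solvable subgroup S normalise G with the orders of G and S coprime, and let N be a normal subgroup of G normalised by S. Then for every S-invariant irreducible character ϑ of N, the induced character ϑ^G has an S-invariant irreducible constituent. -/
theorem result {Γ : Type*} [Group Γ] [Fintype Γ] (G S N : Subgroup Γ) [Fintype G] [Fintype N] (hnorm : ∀ s ∈ S, ∀ g ∈ G, s * g * s⁻¹ ∈ G) (hNG : N ≤ G) (hNnormal : ∀ g ∈ G, ∀ n ∈ N, g * n * g⁻¹ ∈ N) (hNS : ∀ s ∈ S, ∀ n ∈ N, s * n * s⁻¹ ∈ N) (hcop : (Nat.card G).Coprime (Nat.card S)) (hsolv : Group.IsSolvable S) (θ : Cfsg.IrrCharacter N) (hinv : (∀ s ∈ S, ∀ g g' : N, (g' : Γ) = s * g * s⁻¹ → (θ : N → ℂ) g' = (θ : N → ℂ) g)) : ∃ χ : Cfsg.IrrCharacter G, Cfsg.classInner (fun n : N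 => (χ : G → ℂ) ⟨n, hNG n.2⟩) (θ : N → ℂ) ≠ 0 ∧ (∀ s ∈ S, ∀ g g' : G, (g' : Γ) = s * g * s⁻¹ → (χ : G → ℂ) g' = (χ : G → ℂ) g) := by
  classical
  have hNn : (N.subgroupOf G).Normal := by
    refine ⟨fun n hn g => ?_⟩
    rw [Subgroup.mem_subgroupOf] at hn ⊢
    exact hNnormal g g.2 n hn
  have hfinN : Fintype (N.subgroupOf G) := Fintype.ofFinite _
  let e : N.subgroupOf G ≃* N := Subgroup.subgroupOfEquivOfLe hNG
  have he : ∀ x : N.subgroupOf G, ((e x : N) : Γ) = ((x : G) : Γ) := fun x => rfl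
  let θ' : Cfsg.IrrCharacter (N.subgroupOf G) :=
    ⟨fun x => θ.1 (e x), (H18.CharQuot.isIrrCharacter_mulEquiv e).mp θ.2⟩
  have hN' : ∀ s, ∀ k ∈ N.subgroupOf G, H77.CopSub.conjHom G S hnorm s k ∈ N.subgroupOf G := by
    intro s k hk
    rw [Subgroup.mem_subgroupOf] at hk ⊢
    exact hNS s s.2 k hk
  obtain ⟨χ, hχ, hne⟩ := H77.CopOver.exists_over_inv _ S rfl hsolv G hcop
    (H77.CopSub.conjHom G S hnorm) (N.subgroupOf G) hN' θ' (by
      intro s k
      refine hinv s s.2 (e k) (e _) ?_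
      rfl)
  refine ⟨χ, ?_, (H77.CopSub.inv_iff G S hnorm χ.1).mpr hχ⟩
  have h1 := H18.CharQuot.classInner_mulEquiv e (fun n : N => (χ : G → ℂ) ⟨n, hNG n.2⟩) θ.1
  rw [← h1]
  exact hne

end Cfsg.Agent.S4449
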