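import Cfsg.Statements.S4451
import Cfsg.Agent.Lib.H77.GlaubFpf
-- import your own Cfsg.Agent.* helpers here

set_option autoImplicit false
open Cfsg

namespace Cfsg.Agent.S4451

open H77.GlaubC


/-- Let the finite group Γ be generated by a normal subgroup G and a cyclic subgroup S of coprime orders such that every non-identity element of S has the same centraliser C = G ⊓ C(S) in G. Let χ be an S-invariant irreducible character of G, χ̂ its canonical extension to Γ (determinantal order coprime to the order of S), and β the irreducible character of C with χ̂(c s) = ε₀ β(c) for c ∈ C and generators s of S (ε₀ = ±1). Then there are a sign ε = ±1, which may differ from ε₀, and a linear character μ of S with μ² = 1, such that: (a) χ̂(c x) = ε β(c) μ(x) for all c ∈ C and all x ∈ S other than 1; (b) the restriction of χ to C equals |S|·ϑ + ε β for some character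 ϑ of C or ϑ = 0; (c) |S| divides χ(1) − ε β(1). -/
theorem result {Γ : Type*} [Group Γ] [Fintype Γ] (G S : Subgroup Γ) [Fintype G] (hnorm : ∀ s ∈ S, ∀ g ∈ G, s * g * s⁻¹ ∈ G) (hcop : (Nat.card G).Coprime (Nat.card S)) (htop : G ⊔ S = ⊤) (hcyc : IsCyclic S) (C : Subgroup Γ) [Fintype C] (hC : C = G ⊓ Subgroup.centralizer (S : Set Γ)) (hCG : C ≤ G) (hfpf : ∀ x ∈ S, x ≠ 1 → G ⊓ Subgroup.centralizer ({x} : Set Γ) = C) (χ : Cfsg.IrrCharacter G) (hinv : (∀ s ∈ S, ∀ g g' : G, (g' : Γ) = s * g * s⁻¹ → (χ : G → ℂ) g' = (χ : G → ℂ) g)) (χh : Cfsg.IrrCharacter Γ) (hext : (∀ g : G, (χh : Γ → ℂ) g = (χ : G → ℂ) g)) (hdet : (Cfsg.detOrder (χh : Γ → ℂ)).Coprime (Nat.card S)) (β : Cfsg.IrrCharacter C) (ε₀ : ℤ) (hε₀ : ε₀ = 1 ∨ ε₀ = -1) (hβ : ∀ c : C, ∀ s : Γ, Subgroup.zpowers s = S → (χh : Γ → ℂ) ((c : Γ) * s) = (ε₀ : ℂ) * (β : C → ℂ) c) : ∃ ε : ℤ, (ε = 1 ∨ ε = -1) ∧ (∃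 μ : S → ℂ, Cfsg.IsCharacter S μ ∧ μ 1 = 1 ∧ (∀ x : S, μ x * μ x = 1) ∧ ∀ c : C, ∀ x : S, x ≠ 1 → (χh : Γ → ℂ) ((c : Γ) * x) = (ε : ℂ) * (β : C → ℂ) c * μ x) ∧ (∃ ϑ : C → ℂ, Cfsg.IsCharacter C ϑ ∧ (fun c : C => (χ : G → ℂ) ⟨c, hCG c.2⟩) = fun c => (Nat.card S : ℂ) * ϑ c + (ε : ℂ) * (β : C → ℂ) c) ∧ (Nat.card S : ℤ) ∣ (Cfsg.charDegree (χ : G → ℂ) : ℤ) - ε * (Cfsg.charDegree (β : C → ℂ) : ℤ) := by
  classical
  haveI hGn : G.Normal := normal_of G S hnorm htop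
  obtain ⟨s₀, hs₀⟩ := exists_gen hcyc
  have e1 : (fun g : G => (χh : Γ → ℂ) g) = (χ : G → ℂ) := funext hext
  obtain ⟨ε, hε, hμ, ϑ, hϑ, hϑeq⟩ := H77.GlaubFpf.main hcop htop hC hfpf χh.2
    (by rw [e1]; exact χ.2) hdet hs₀ β ε₀ hε₀ (fun c => hβ c s₀ hs₀)
  have hϑeq' : (fun c : C => (χ : G → ℂ) ⟨c, hCG c.2⟩) =
      fun c => (Nat.card S : ℂ) * ϑ c + (ε : ℂ) * (β : C → ℂ) c := by
    rw [← hϑeq]
    exact funext fun c => (hext ⟨c, hCG c.2⟩).symm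
  refine ⟨ε, hε, hμ, ⟨ϑ, hϑ, hϑeq'⟩, ?_⟩
  obtain ⟨d, hd⟩ := H18.CharBasic.exists_degree hϑ
  have h1 := congrFun hϑeq' 1
  have h2 : (χ : G → ℂ) ⟨((1 : C) : Γ), hCG (1 : C).2⟩ = (χ : G → ℂ) 1 := rfl
  rw [h2, hd, ← H77.PQuot.cast_irr χ, ← H77.PQuot.cast_irr β] at h1
  refine ⟨(d : ℤ), ?_⟩
  have h3 : ((Cfsg.charDegree (χ : G → ℂ) : ℤ) : ℂ) =
      ((Nat.card S * d + ε * (Cfsg.charDegree (β : C → ℂ) : ℤ) : ℤ) : ℂ) := by
    push_cast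
    exact h1
  have h4 : (Cfsg.charDegree (χ : G → ℂ) : ℤ) =
      Nat.card S * d + ε * (Cfsg.charDegree (β : C → ℂ) : ℤ) := by exact_mod_cast h3
  rw [h4]; ring

end Cfsg.Agent.S4451
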