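import Cfsg.Statements.S4452
import Cfsg.Agent.Lib.H77.CopDeg
import Cfsg.Agent.Lib.H77.GlaubC
-- import your own Cfsg.Agent.* helpers here

set_option autoImplicit false
open Cfsg

namespace Cfsg.Agent.S4452

open H77.CopDeg


/-- Let the finite group G be the product of a normal subgroup K and a solvable subgroup H of coprime orders, and let N = N_G(H). Then the number of irreducible characters of G of degree coprime to the order of H equals the number of irreducible characters of N of degree coprime to the order of H. (The two sets are in fact in a canonical bijection; only the equality of their sizes is stated here.) -/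
theorem result {G : Type*} [Group G] [Finite G] (K H : Subgroup G) [K.Normal] (hKH : K ⊔ H = ⊤) (hcop : (Nat.card K).Coprime (Nat.card H)) (hsolv : Group.IsSolvable H) : Nat.card {χ : Cfsg.IrrCharacter G // (Cfsg.charDegree (χ : G → ℂ)).Coprime (Nat.card H)} = Nat.card {η : Cfsg.IrrCharacter (Subgroup.normalizer (H : Set G)) // (Cfsg.charDegree (η : Subgroup.normalizer (H : Set G) → ℂ)).Coprime (Nat.card H)} := by
  classical
  letI := Fintype.ofFinite G
  letI := Fintype.ofFinite K
  have hKn : K.Normal := inferInstance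
  set Nn := Subgroup.normalizer (H : Set G) with hNn
  have hHN : H ≤ Nn := Subgroup.le_normalizer
  have hKHbot : K ⊓ H = ⊥ := Subgroup.inf_eq_bot_of_coprime hcop
  -- complement facts
  have hcompl : K.IsComplement' H := by
    apply Subgroup.isComplement'_of_disjoint_and_mul_eq_univ (disjoint_iff.2 hKHbot)
    rw [← Subgroup.normal_mul, hKH, Subgroup.coe_top]
  have hidx : K.index = Nat.card H := hcompl.symm.index_eq_card
  set C' := K.subgroupOf Nn with hC'
  set H' := H.subgroupOf Nn with hH'
  have hmemC : ∀ k ∈ K, k ∈ Nn → ∀ h ∈ H, k * h = h * k := by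
    intro k hk hkN h hh
    have h1 : k * h * k⁻¹ ∈ H := (Subgroup.mem_normalizer_iff.1 hkN h).1 hh
    have h2 : k * h * k⁻¹ * h⁻¹ ∈ H := H.mul_mem h1 (H.inv_mem hh)
    have h3 : k * (h * k⁻¹ * h⁻¹) ∈ K := K.mul_mem hk (hKn.conj_mem _ (K.inv_mem hk) h)
    have h4 : k * h * k⁻¹ * h⁻¹ ∈ K ⊓ H := ⟨by
      have : k * h * k⁻¹ * h⁻¹ = k * (h * k⁻¹ * h⁻¹) := by group
      rw [this]; exact h3, h2⟩
    rw [hKHbot, Subgroup.mem_bot] at h4
    exact mul_inv_eq_iff_eq_mul.1 (mul_inv_eq_one.1 h4)
  have hcardH' : Nat.card H' = Nat.card H := Nat.card_congr (Subgroup.subgroupOfEquivOfLe hHN).toEquiv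
  have hcopC' : (Nat.card C').Coprime (Nat.card H') := by
    rw [hcardH']
    apply hcop.coprime_dvd_left
    exact Subgroup.card_comap_dvd_of_injective K Nn.subtype Nn.subtype_injective
  have hCH : C' ⊔ H' = ⊤ := by
    rw [eq_top_iff]
    intro x _
    have hx : (x : G) ∈ K ⊔ H := hKH ▸ Subgroup.mem_top (x : G)
    obtain ⟨k, hk, h, hh, hkh⟩ := Subgroup.mem_sup_of_normal_left.1 hx
    have hkN : k ∈ Nn := by
      have : k = x * h⁻¹ := by rw [← hkh]; group
      rw [this]
      exact Nn.mul_mem x.2 (Nn.inv_mem (hHN hh))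
    have h1 : (⟨k, hkN⟩ : Nn) ∈ C' := hk
    have h2 : (⟨h, hHN hh⟩ : Nn) ∈ H' := hh
    have h3 : x = ⟨k, hkN⟩ * ⟨h, hHN hh⟩ := Subtype.ext hkh.symm
    rw [h3]
    exact (C' ⊔ H').mul_mem (Subgroup.mem_sup_left h1) (Subgroup.mem_sup_right h2)
  have hcompl' : C'.IsComplement' H' := by
    apply Subgroup.isComplement'_of_disjoint_and_mul_eq_univ
      (disjoint_iff.2 (Subgroup.inf_eq_bot_of_coprime hcopC'))
    rw [← Subgroup.normal_mul, hCH, Subgroup.coe_top]
  have hidx' : C'.index = Nat.card H := by rw [hcompl'.symm.index_eq_card, hcardH']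
  have h1 := count K (by rw [hidx]; exact hcop)
  have h2 := count C' (by rw [hidx', ← hcardH']; exact hcopC')
  rw [hidx] at h1
  rw [hidx'] at h2
  rw [h1, h2]
  congr 1
  · -- invariants
    have hall : ∀ θ : Cfsg.IrrCharacter C', GInv C' θ := by
      intro θ x n
      have hcent : ∀ s ∈ H', ∀ g g' : C', (g' : Nn) = s * g * s⁻¹ → θ.1 g' = θ.1 g := by
        intro s hs g g' hg'
        refine congrArg θ.1 (Subtype.ext ?_)
        rw [hg']
        apply Subtype.ext
        push_cast
        have := hmemC (g : G) g.2 (g : Nn).2 (s : G) hs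
        rw [← this, mul_inv_cancel_right]
      exact H77.GlaubC.inv_top hCH θ hcent x n
    have e1 : Nat.card {θ : Cfsg.IrrCharacter C' // GInv C' θ} = Nat.card (Cfsg.IrrCharacter C') :=
      Nat.card_congr (Equiv.subtypeUnivEquiv hall)
    rw [e1]
    have hnorm : ∀ s ∈ H, ∀ g ∈ K, s * g * s⁻¹ ∈ K := fun s _ g hg => hKn.conj_mem g hg s
    let ι : C' →* K :=
      { toFun := fun c => ⟨((c : Nn) : G), c.2⟩
        map_one' := rfl
        map_mul' := fun _ _ => rfl }
    have hcount := (H77.CopChain.card_inv_irr (Nat.card H) H rfl hsolv K hcop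
      (H77.CopSub.conjHom K H hnorm) C' ι (by
        intro a b hab
        have h3 : ((ι a : K) : G) = (ι b : K) := by rw [hab]
        have h3 : ((a : Nn) : G) = b := h3
        exact Subtype.ext (Subtype.ext h3)) (by
        intro g
        rw [H77.CopSub.fixed_iff]
        constructor
        · rintro ⟨c, rfl⟩
          refine Subgroup.mem_inf.2 ⟨(ι c).2, ?_⟩
          rw [Subgroup.mem_centralizer_iff]
          intro h hh
          exact (hmemC _ c.2 (c : Nn).2 h hh).symm
        · intro hg
          have hgc := (Subgroup.mem_inf.1 hg).2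
          have hgN : (g : G) ∈ Nn := Subgroup.centralizer_le_normalizer _ hgc
          exact ⟨⟨⟨g, hgN⟩, g.2⟩, rfl⟩)).1
    rw [← hcount]
    refine Nat.card_congr (Equiv.subtypeEquivRight fun θ => ?_)
    rw [← H77.CopSub.inv_iff K H hnorm]
    constructor
    · intro h s hs g g' hg'
      have h3 := h s g
      rw [← h3]
      exact congrArg θ.1 (Subtype.ext hg')
    · intro h x n
      exact H77.GlaubC.inv_top hKH θ h x n
  · let e : G ⧸ K ≃* Nn ⧸ C' := (hcompl.symm.QuotientMulEquiv).trans
      ((Subgroup.subgroupOfEquivOfLe hHN).symm.trans (hcompl'.symm.QuotientMulEquiv).symm)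
    exact Nat.card_congr
      { toFun := fun f => f.comp e.symm.toMonoidHom
        invFun := fun f => f.comp e.toMonoidHom
        left_inv := fun f => by ext x; simp
        right_inv := fun f => by ext x; simp }

end Cfsg.Agent.S4452
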