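import Cfsg.Statements.S4453
import Cfsg.Agent.Lib.H77.OddQ
-- import your own Cfsg.Agent.* helpers here

set_option autoImplicit false
open Cfsg

namespace Cfsg.Agent.S4453

open H77.CopSub H77.CopChain H77.GlaubP


/-- Inside a finite group Γ let S normalise the solvable subgroup G of odd order with the orders of G and S coprime, let C = G ⊓ C(S), and let L ≤ K be S-invariant normal subgroups of G with K/L abelian, G = KC and H = LC (so C ≤ H ≤ G). Then for each S-invariant irreducible character χ of G there is exactly one S-invariant irreducible character ψ of H whose multiplicity in the restriction of χ to H is odd, and χ ↦ ψ is a bijection from the S-invariant irreducible characters of G onto those of H (distinct χ give distinct ψ, and every S-invariant ψ arises). -/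
theorem result {Γ : Type*} [Group Γ] [Fintype Γ] (G S : Subgroup Γ) [Fintype G] (hnorm : ∀ s ∈ S, ∀ g ∈ G, s * g * s⁻¹ ∈ G) (hcop : (Nat.card G).Coprime (Nat.card S)) (hGsolv : Group.IsSolvable G) (hodd : Odd (Nat.card G)) (C : Subgroup Γ) [Fintype C] (hC : C = G ⊓ Subgroup.centralizer (S : Set Γ)) (hCG : C ≤ G) (K L H : Subgroup Γ) [Fintype H] (hLK : L ≤ K) (hKG : K ≤ G) (hKn : ∀ g ∈ G, ∀ k ∈ K, g * k * g⁻¹ ∈ K) (hLn : ∀ g ∈ G, ∀ l ∈ L, g * l * g⁻¹ ∈ L) (hKS : ∀ s ∈ S, ∀ k ∈ K, s * k * s⁻¹ ∈ K) (hLS : ∀ s ∈ S, ∀ l ∈ L, s * l * s⁻¹ ∈ L) (hab : ∀ a ∈ K, ∀ b ∈ K, a * b * a⁻¹ * b⁻¹ ∈ L) (hGKC : K ⊔ C = G) (hH : H = L ⊔ C) (hHG : H ≤ G) : (∀ χ : Cfsg.IrrCharacter G, (∀ s ∈ S, ∀ g g' : G, (g' : Γ) = s * g * s⁻¹ → (χ : G → ℂ) g' = (χ : G → ℂ) g) → ∃! ψ : Cfsg.IrrCharacter H, (∀ s ∈ S, ∀ g g' : H, (g' : Γ) = s * g * s⁻¹ → (ψ : H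 → ℂ) g' = (ψ : H → ℂ) g) ∧ ∃ m : ℕ, Cfsg.classInner (fun h : H => (χ : G → ℂ) ⟨h, hHG h.2⟩) (ψ : H → ℂ) = (m : ℂ) ∧ Odd m) ∧ (∀ χ χ' : Cfsg.IrrCharacter G, (∀ s ∈ S, ∀ g g' : G, (g' : Γ) = s * g * s⁻¹ → (χ : G → ℂ) g' = (χ : G → ℂ) g) → (∀ s ∈ S, ∀ g g' : G, (g' : Γ) = s * g * s⁻¹ → (χ' : G → ℂ) g' = (χ' : G → ℂ) g) → ∀ ψ : Cfsg.IrrCharacter H, (∀ s ∈ S, ∀ g g' : H, (g' : Γ) = s * g * s⁻¹ → (ψ : H → ℂ) g' = (ψ : H → ℂ) g) → ∀ m m' : ℕ, Cfsg.classInner (fun h : H => (χ : G → ℂ) ⟨h, hHG h.2⟩) (ψ : H → ℂ) = (m : ℂ) → Odd m → Cfsg.classInner (fun h : H => (χ' : G → ℂ) ⟨h, hHG h.2⟩) (ψ : H → ℂ) = (m' : ℂ) → Odd m' → χ = χ') ∧ (∀ ψ : Cfsg.IrrCharacter H, (∀ s ∈ S, ∀ g g' : H, (g' : Γ) = s * g * s⁻¹ → (ψ : H → ℂ) g' = (ψ : H → ℂ) g) → ∃ χ : Cfsg.IrrCharacter G, (∀ s ∈ S, ∀ g g' : G, (g' : Γ) = s * g * s⁻¹ → (χ : G → ℂ) g' = (χ :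 G → ℂ) g) ∧ ∃ m : ℕ, Cfsg.classInner (fun h : H => (χ : G → ℂ) ⟨h, hHG h.2⟩) (ψ : H → ℂ) = (m : ℂ) ∧ Odd m) := by
  classical
  obtain ⟨K', nK, nL, U⟩ := H77.OddQ.exists_setup G S hnorm hcop hGsolv hodd C hC K L H hLK hKG hKn
    hLn hKS hLS hab hGKC hH
  letI : Fintype (L.subgroupOf G) := Fintype.ofFinite _
  letI : Fintype (H.subgroupOf G) := Fintype.ofFinite _
  obtain ⟨h1, h2, h3⟩ := H77.OddP.main U hGsolv
  let e : H.subgroupOf G ≃* H := Subgroup.subgroupOfEquivOfLe hHG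
  have hirr : ∀ ψ : Cfsg.IrrCharacter H, Cfsg.IsIrrCharacter (H.subgroupOf G) (fun x => ψ.1 (e x)) :=
    fun ψ => (H18.CharQuot.isIrrCharacter_mulEquiv e).1 ψ.2
  have hirr' : ∀ ψ : Cfsg.IrrCharacter (H.subgroupOf G),
      Cfsg.IsIrrCharacter H (fun x => ψ.1 (e.symm x)) :=
    fun ψ => (H18.CharQuot.isIrrCharacter_mulEquiv e.symm).1 ψ.2
  have hin : ∀ (χ : G → ℂ) (ψ : H → ℂ),
      Cfsg.classInner (fun h : H.subgroupOf G => χ h) (fun x => ψ (e x)) =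
        Cfsg.classInner (fun h : H => χ ⟨h, hHG h.2⟩) ψ := by
    intro χ ψ
    exact H18.CharQuot.classInner_mulEquiv e (fun h : H => χ ⟨h, hHG h.2⟩) ψ
  have hinv : ∀ ψ : Cfsg.IrrCharacter H,
      (∀ s ∈ S, ∀ g g' : H, (g' : Γ) = s * g * s⁻¹ → (ψ : H → ℂ) g' = (ψ : H → ℂ) g) →
      H77.OddK.InvH U (fun x => ψ.1 (e x)) := by
    intro ψ hψ s h hh
    exact hψ s s.2 (e ⟨h, hh⟩) _ rfl
  have hinv' : ∀ ψ : Cfsg.IrrCharacter (H.subgroupOf G), H77.OddK.InvH U ψ.1 →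
      (∀ s ∈ S, ∀ g g' : H, (g' : Γ) = s * g * s⁻¹ → ψ.1 (e.symm g') = ψ.1 (e.symm g)) := by
    intro ψ hψ s hs g g' hg
    have h4 := hψ ⟨s, hs⟩ (e.symm g : H.subgroupOf G) (e.symm g).2
    rw [← h4]
    exact congrArg ψ.1 (Subtype.ext (Subtype.ext hg))
  refine ⟨?_, ?_, ?_⟩
  · intro χ hχ
    obtain ⟨ψ, h4, ⟨m, hm, hm'⟩, h6⟩ := h1 χ ((inv_iff G S hnorm χ.1).1 hχ)
    have he : ψ.1 = fun x => (fun y => ψ.1 (e.symm y)) (e x) := by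
      funext x; simp
    refine ⟨⟨fun x => ψ.1 (e.symm x), hirr' ψ⟩, ⟨hinv' ψ h4, m, ?_, hm⟩, ?_⟩
    · have h7 := hin χ.1 (fun y => ψ.1 (e.symm y))
      rw [← he] at h7
      exact h7.symm.trans hm'
    · rintro ψ' ⟨h7, m', hm1, hm2⟩
      have h8 := h6 ⟨_, hirr ψ'⟩ (hinv ψ' h7) ⟨m', hm2, (hin χ.1 ψ'.1).trans hm1⟩
      apply Subtype.ext
      funext x
      have h9 := congrFun (congrArg Subtype.val h8) (e.symm x)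
      simp only [MulEquiv.apply_symm_apply] at h9
      exact h9
  · intro χ χ' hχ hχ' ψ hψ m m' hm hmo hm' hmo'
    exact h2 χ χ' ((inv_iff G S hnorm χ.1).1 hχ) ((inv_iff G S hnorm χ'.1).1 hχ') ⟨_, hirr ψ⟩
      (hinv ψ hψ) ⟨m, hmo, (hin χ.1 ψ.1).trans hm⟩ ⟨m', hmo', (hin χ'.1 ψ.1).trans hm'⟩
  · intro ψ hψ
    obtain ⟨χ, h4, m, hm, hm'⟩ := h3 ⟨_, hirr ψ⟩ (hinv ψ hψ)
    exact ⟨χ, (inv_iff G S hnorm χ.1).2 h4, m, (hin χ.1 ψ.1).symm.trans hm', hm⟩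

end Cfsg.Agent.S4453
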