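import Cfsg.Statements.S4460
import Cfsg.Agent.Lib.H77.ThreeF
-- import your own Cfsg.Agent.* helpers here

set_option autoImplicit false
open Cfsg

namespace Cfsg.Agent.S4460

open H77.PQuot H18.CharBasic


/-- A finite group with exactly three distinct irreducible character degrees is solvable of derived length at most 3: its third derived subgroup is trivial. -/
theorem result {G : Type*} [Group G] [Finite G] (hcd : Nat.card {n : ℕ // ∃ χ : Cfsg.IrrCharacter G, Cfsg.charDegree (χ : G → ℂ) = n} = 3) : derivedSeries G 3 = ⊥ := by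
  have h1 : Set.ncard {n : ℕ | ∃ χ : Cfsg.IrrCharacter G, Cfsg.charDegree (χ : G → ℂ) = n} = 3 := hcd
  obtain ⟨x, y, z, -, -, -, hD⟩ := Set.ncard_eq_three.1 h1
  have hmem : ∀ χ : Cfsg.IrrCharacter G, Cfsg.charDegree (χ : G → ℂ) = x ∨
      Cfsg.charDegree (χ : G → ℂ) = y ∨ Cfsg.charDegree (χ : G → ℂ) = z := by
    intro χ
    have h2 : Cfsg.charDegree (χ : G → ℂ) ∈
        {n : ℕ | ∃ χ : Cfsg.IrrCharacter G, Cfsg.charDegree (χ : G → ℂ) = n} := ⟨χ, rfl⟩
    rw [hD] at h2
    simpa using h2
  have h3 := hmem ⟨_, isIrrCharacter_one⟩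
  have h4 : Cfsg.charDegree (fun _ : G => (1 : ℂ)) = 1 := charDegree_eq_of (by simp)
  change Cfsg.charDegree (fun _ : G => (1 : ℂ)) = x ∨ Cfsg.charDegree (fun _ : G => (1 : ℂ)) = y ∨
    Cfsg.charDegree (fun _ : G => (1 : ℂ)) = z at h3
  rw [h4] at h3
  rcases h3 with h | h | h
  · subst h
    exact H77.ThreeF.main (Nat.card G) G rfl y z hmem
  · subst h
    exact H77.ThreeF.main (Nat.card G) G rfl x z (fun χ => by
      rcases hmem χ with h | h | h
      · exact Or.inr (Or.inl h)
      · exact Or.inl h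
      · exact Or.inr (Or.inr h))
  · subst h
    exact H77.ThreeF.main (Nat.card G) G rfl x y (fun χ => by
      rcases hmem χ with h | h | h
      · exact Or.inr (Or.inl h)
      · exact Or.inr (Or.inr h)
      · exact Or.inl h)

end Cfsg.Agent.S4460
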