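import Cfsg.Statements.S4470
import Mathlib
import Cfsg.Agent.Lib.H77.Blich12

set_option autoImplicit false
open Cfsg

namespace Cfsg.Agent.S4470

theorem exists_matrix_rep {G : Type*} [Group G] {χ : G → ℂ} (hχ : Cfsg.IsCharacter G χ)
    (hfaith : ∀ g : G, χ g = χ 1 → g = 1) {n : ℕ} (hn : Cfsg.charDegree χ = n) :
    ∃ R : G →* Matrix (Fin n) (Fin n) ℂ, Function.Injective R := by
  obtain ⟨m, ρ, rfl⟩ := hχ
  have hm : m = n := by
    rw [← hn]
    unfold Cfsg.charDegree Representation.character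
    simp
  subst hm
  let R : G →* Matrix (Fin m) (Fin m) ℂ :=
    (LinearMap.toMatrixAlgEquiv' (R := ℂ) (n := Fin m) : _ →* Matrix (Fin m) (Fin m) ℂ).comp ρ
  refine ⟨R, ?_⟩
  rw [injective_iff_map_eq_one]
  intro g hg
  apply hfaith
  have h1 : ρ g = 1 := by
    have : LinearMap.toMatrixAlgEquiv' (ρ g) = 1 := hg
    exact (map_eq_one_iff _ (AlgEquiv.injective _)).mp this
  unfold Representation.character
  rw [h1, ρ.map_one]

/-- Let the finite group G have a faithful character of degree n. Then G has an abelian normal subgroup A such that every abelian subgroup H of G satisfies [H : H ⊓ A] ≤ 12^n. -/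
theorem result {G : Type*} [Group G] [Finite G] (χ : G → ℂ) (hχ : Cfsg.IsCharacter G χ) (hfaith : ∀ g : G, χ g = χ 1 → g = 1) (n : ℕ) (hn : Cfsg.charDegree χ = n) : ∃ A : Subgroup G, A.Normal ∧ (∀ x ∈ A, ∀ y ∈ A, x * y = y * x) ∧ ∀ H : Subgroup G, (∀ x ∈ H, ∀ y ∈ H, x * y = y * x) → (A.subgroupOf H).index ≤ 12 ^ n := by
  obtain ⟨R, hR⟩ := exists_matrix_rep hχ hfaith hn
  exact H77.Blich12.exists_normal_abelian R hR

end Cfsg.Agent.S4470
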