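import Cfsg.Statements.S4469
import Cfsg.Agent.Lib.H82.Blich4
import Cfsg.Agent.Lib.H82.Blich5
import Cfsg.Agent.S4470

set_option autoImplicit false
open Cfsg

namespace Cfsg.Agent.S4469
open Subgroup

theorem pow_dvd_relIndex {G : Type*} [Group G] [Finite G] (A X : Subgroup G) {q : ℕ} (hq : q.Prime)
    (hX : ¬ q ∣ X.index) : q ^ A.index.factorization q ∣ A.relIndex X := by
  have h1 := A.card_mul_index
  have h2 := X.card_mul_index
  have h3 := H82.Blich.card_mul_relIndex' (A ⊓ X) X inf_le_right
  rw [inf_relIndex_right] at h3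
  have h4 := H82.Blich.card_mul_relIndex' (A ⊓ X) A inf_le_left
  have h5 : A.index ∣ A.relIndex X * X.index := by
    refine ⟨(A ⊓ X).relIndex A, ?_⟩
    apply Nat.eq_of_mul_eq_mul_left (Nat.card_pos (α := (A ⊓ X : Subgroup G)))
    calc Nat.card (A ⊓ X : Subgroup G) * (A.relIndex X * X.index) =
        (Nat.card (A ⊓ X : Subgroup G) * A.relIndex X) * X.index := by ring
      _ = Nat.card G := by rw [h3, h2]
      _ = (Nat.card (A ⊓ X : Subgroup G) * (A ⊓ X).relIndex A) * A.index := by rw [h4, h1]
      _ = _ := by ring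
  have h6 : q ^ A.index.factorization q ∣ A.relIndex X * X.index :=
    (Nat.ordProj_dvd A.index q).trans h5
  exact (Nat.Coprime.pow_left _ ((Nat.Prime.coprime_iff_not_dvd hq).2 hX)).dvd_of_dvd_mul_right h6

theorem prod_pow_dvd {S : Finset ℕ} (hS : ∀ q ∈ S, q.Prime) (f : ℕ → ℕ) (N : ℕ)
    (h : ∀ q ∈ S, q ^ f q ∣ N) : ∏ q ∈ S, q ^ f q ∣ N := by
  classical
  induction S using Finset.induction_on with
  | empty => simp
  | insert a S ha ih =>
    rw [Finset.prod_insert ha]
    apply Nat.Coprime.mul_dvd_of_dvd_of_dvd _ (h a (by simp))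
      (ih (fun q hq => hS q (by simp [hq])) fun q hq => h q (by simp [hq]))
    apply Nat.Coprime.prod_right
    intro q hq
    apply Nat.Coprime.pow
    exact (Nat.coprime_primes (hS a (by simp)) (hS q (by simp [hq]))).2 (fun h => ha (h ▸ hq))

/-- The classical bound for finite linear groups, in explicit form. Let the finite group G have a faithful character of degree n. Then G has an abelian normal subgroup whose index is at most n! · 12^(n·(π(n+1)+1)), π(k) denoting the number of primes not exceeding k. -/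
theorem result {G : Type*} [Group G] [Finite G] (χ : G → ℂ) (hχ : Cfsg.IsCharacter G χ) (hfaith : ∀ g : G, χ g = χ 1 → g = 1) (n : ℕ) (hn : Cfsg.charDegree χ = n) : ∃ A : Subgroup G, A.Normal ∧ (∀ x ∈ A, ∀ y ∈ A, x * y = y * x) ∧ A.index ≤ Nat.factorial n * 12 ^ (n * (Nat.primeCounting (n + 1) + 1)) := by
  classical
  have hn1 : χ 1 = n := by rw [← H82.Deg.coe_charDegree hχ, hn]
  have hsep : H82.Blich.Sep (n + 1) G := H82.Blich.sep_of_faithful hχ hn1 hfaith (Nat.lt_succ_self n)
  obtain ⟨H, hH1, hH2⟩ := H82.Blich.main (n + 1) _ G rfl hsep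
  obtain ⟨A, hAn, hAc, hA⟩ := Cfsg.Agent.S4470.result χ hχ hfaith n hn
  refine ⟨A, hAn, hAc, ?_⟩
  have hHle : A.relIndex H ≤ 12 ^ n :=
    hA H fun x hx y hy => congrArg Subtype.val ((hsep.subgroup H).comm hH1 ⟨x, hx⟩ ⟨y, hy⟩)
  have hidx0 : A.index ≠ 0 := index_ne_zero_of_finite
  set S1 := A.index.primeFactors.filter (· ≤ n + 1) with hS1
  set S2 := A.index.primeFactors.filter (fun q => ¬ q ≤ n + 1) with hS2
  have hprod : A.index = (∏ q ∈ S1, q ^ A.index.factorization q) * ∏ q ∈ S2, q ^ A.index.factorization q := by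
    rw [hS1, hS2, Finset.prod_filter_mul_prod_filter_not]
    exact (Nat.prod_factorization_pow_eq_self hidx0).symm
  have hp1 : ∀ q ∈ S1, q.Prime ∧ q ≤ n + 1 := by
    intro q hq
    rw [hS1, Finset.mem_filter] at hq
    exact ⟨Nat.prime_of_mem_primeFactors hq.1, hq.2⟩
  have hp2 : ∀ q ∈ S2, q.Prime ∧ n + 1 < q := by
    intro q hq
    rw [hS2, Finset.mem_filter] at hq
    exact ⟨Nat.prime_of_mem_primeFactors hq.1, not_le.1 hq.2⟩
  -- the large primes
  have hb2 : ∏ q ∈ S2, q ^ A.index.factorization q ≤ 12 ^ n := by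
    refine le_trans (Nat.le_of_dvd ?_ ?_) hHle
    · exact Nat.pos_of_ne_zero (index_ne_zero_of_finite)
    · apply prod_pow_dvd (fun q hq => (hp2 q hq).1)
      intro q hq
      apply pow_dvd_relIndex A H (hp2 q hq).1
      intro hd
      have := hH2 q (hp2 q hq).1 hd
      have := (hp2 q hq).2
      omega
  -- the small primes
  have hb1 : ∀ q ∈ S1, q ^ A.index.factorization q ≤ 12 ^ n * q ^ n.factorial.factorization q := by
    intro q hq
    obtain ⟨hqp, _⟩ := hp1 q hq
    haveI := Fact.mk hqp
    obtain ⟨P⟩ : Nonempty (Sylow q G) := inferInstance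
    letI := Fintype.ofFinite (P : Subgroup G)
    haveI : Group.IsNilpotent (P : Subgroup G) := P.isPGroup'.isNilpotent
    obtain ⟨P0, hP0, hP0c⟩ := H82.Blich.exists_abelian_of_nilpotent
      (H18.CharBasic.isCharacter_restrict (P : Subgroup G) hχ) (fun g hg => Subtype.ext (hfaith g hg)) hn1
    set X := P0.map (P : Subgroup G).subtype with hX
    have hXP : X ≤ P := map_subtype_le P0
    have hXidx : X.relIndex (P : Subgroup G) = P0.index := by
      rw [relIndex, subgroupOf, hX, comap_map_eq_self_of_injective (P : Subgroup G).subtype_injective]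
    have hAX : A.relIndex X ≤ 12 ^ n := by
      apply hA X
      rintro _ ⟨a, ha, rfl⟩ _ ⟨b, hb, rfl⟩
      exact congrArg Subtype.val (hP0c a ha b hb)
    have h1 := pow_dvd_relIndex A (P : Subgroup G) hqp P.not_dvd_index
    have h2 : A.relIndex (P : Subgroup G) ∣ (A ⊓ X).relIndex (P : Subgroup G) :=
      relIndex_dvd_of_le_left _ inf_le_left
    have h3 : (A ⊓ X).relIndex (P : Subgroup G) = A.relIndex X * X.relIndex (P : Subgroup G) := by
      rw [← relIndex_mul_relIndex (A ⊓ X) X (P : Subgroup G) inf_le_right hXP, inf_relIndex_right]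
    have h4 : A.relIndex (P : Subgroup G) ≤ A.relIndex X * P0.index := by
      rw [← hXidx, ← h3]
      exact Nat.le_of_dvd (Nat.pos_of_ne_zero index_ne_zero_of_finite) h2
    have h5 : P0.index ≤ q ^ n.factorial.factorization q := by
      obtain ⟨k, hk⟩ : ∃ k, P0.index = q ^ k := by
        obtain ⟨l, hl⟩ := IsPGroup.iff_card.1 P.isPGroup'
        obtain ⟨k, _, hk⟩ := (Nat.dvd_prime_pow hqp).1 (hl ▸ P0.index_dvd_card)
        exact ⟨k, hk⟩
      rw [hk] at hP0 ⊢
      exact Nat.pow_le_pow_right hqp.pos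
        ((hqp.pow_dvd_iff_le_factorization (Nat.factorial_ne_zero n)).1 hP0)
    calc q ^ A.index.factorization q ≤ A.relIndex (P : Subgroup G) :=
          Nat.le_of_dvd (Nat.pos_of_ne_zero index_ne_zero_of_finite) h1
      _ ≤ A.relIndex X * P0.index := h4
      _ ≤ 12 ^ n * q ^ n.factorial.factorization q := Nat.mul_le_mul hAX h5
  have hb1' : ∏ q ∈ S1, q ^ A.index.factorization q ≤ (12 ^ n) ^ Nat.primeCounting (n + 1) * n.factorial := by
    calc ∏ q ∈ S1, q ^ A.index.factorization q
        ≤ ∏ q ∈ S1, (12 ^ n * q ^ n.factorial.factorization q) := Finset.prod_le_prod' hb1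
      _ = (12 ^ n) ^ S1.card * ∏ q ∈ S1, q ^ n.factorial.factorization q := by
          rw [Finset.prod_mul_distrib, Finset.prod_const]
      _ ≤ (12 ^ n) ^ Nat.primeCounting (n + 1) * n.factorial := by
          apply Nat.mul_le_mul
          · apply Nat.pow_le_pow_right (by positivity)
            rw [Nat.primeCounting, Nat.primeCounting', Nat.count_eq_card_filter_range]
            apply Finset.card_le_card
            intro q hq
            rw [Finset.mem_filter, Finset.mem_range]
            exact ⟨Nat.lt_succ_of_le (hp1 q hq).2, (hp1 q hq).1⟩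
          · apply Nat.le_of_dvd (Nat.factorial_pos n)
            apply prod_pow_dvd (fun q hq => (hp1 q hq).1)
            intro q _
            exact Nat.ordProj_dvd _ q
  calc A.index = _ := hprod
    _ ≤ ((12 ^ n) ^ Nat.primeCounting (n + 1) * n.factorial) * 12 ^ n := Nat.mul_le_mul hb1' hb2
    _ = Nat.factorial n * 12 ^ (n * (Nat.primeCounting (n + 1) + 1)) := by
        rw [mul_add, pow_add, pow_mul, mul_one]; ring

end Cfsg.Agent.S4469
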