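import Cfsg.Statements.S4471
import Cfsg.Agent.Lib.H84.LG3
import Cfsg.Agent.Lib.H77.PQuot

set_option autoImplicit false
open Cfsg

namespace Cfsg.Agent.S4471

open H18.CharBasic H18.CharOrtho H18.CharQuot H84.LG1 H84.LG2 H84.LG3 H31.Clifford
open scoped commutatorElement

theorem norm_lt {p : ℕ} (h7 : 7 ≤ p) : ‖Complex.exp (2 * Real.pi * Complex.I / p) - 1‖ < 1 := by
  have hp0 : (0 : ℝ) < p := by exact_mod_cast (by omega : 0 < p)
  have h1 : Complex.exp (2 * Real.pi * Complex.I / p) = Complex.exp (Complex.I * ((2 * Real.pi / p : ℝ) : ℂ)) := by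
    congr 1
    push_cast
    ring
  rw [h1, Complex.norm_exp_I_mul_ofReal_sub_one]
  have h2 : 2 * Real.pi / p / 2 = Real.pi / p := by ring
  rw [h2]
  have hpi := Real.pi_pos
  have h3 : Real.pi / p < Real.pi / 6 := by
    apply div_lt_div_of_pos_left hpi (by norm_num)
    have : (7 : ℝ) ≤ p := by exact_mod_cast h7
    linarith
  have h4 : 0 < Real.pi / p := div_pos hpi hp0
  have h5 : Real.sin (Real.pi / p) < 1 / 2 := by
    rw [← Real.sin_pi_div_six]
    apply Real.sin_lt_sin_of_lt_of_le_pi_div_two <;> linarith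
  have h6 : 0 < Real.sin (Real.pi / p) := Real.sin_pos_of_pos_of_lt_pi h4 (by linarith)
  rw [Real.norm_eq_abs, abs_of_pos (by linarith)]
  linarith

theorem not_sq_dvd_factorial {p n : ℕ} (hp : p.Prime) (hn2 : n < 2 * p) : ¬ p ^ 2 ∣ Nat.factorial n := by
  intro h
  have h2 := hp.two_le
  have hlt : n < p ^ 2 := by nlinarith
  rw [hp.pow_dvd_factorial_iff (b := 2) (by
    rcases Nat.eq_zero_or_pos n with h0 | h0
    · subst h0; simp
    · exact Nat.log_lt_of_lt_pow (by omega) hlt)] at h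
  rw [show Finset.Ico 1 2 = {1} from rfl, Finset.sum_singleton, pow_one] at h
  have h3 : n / p < 2 := Nat.div_lt_of_lt_mul (by rw [mul_comm]; exact hn2)
  omega

theorem main {G : Type*} [Group G] [Finite G] (χ : Cfsg.IrrCharacter G) (hfaith : ∀ g : G, (χ : G → ℂ) g = (χ : G → ℂ) 1 → g = 1) (n : ℕ) (hn : (χ : G → ℂ) 1 = n) (p : ℕ) (hp : p.Prime) (h7 : 7 ≤ p) (hn2 : n < 2 * p) (hnp : n ≠ p) (P : Sylow p G) (hna : ∃ x ∈ (P : Subgroup G), ∃ y ∈ (P : Subgroup G), x * y ≠ y * x) : ¬ p ^ 2 ∣ (Cfsg.pCore p G).index := by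
  classical
  have := Fintype.ofFinite G
  have hpf : Fact p.Prime := ⟨hp⟩
  have hχ := χ.2
  obtain ⟨hle, z0, ω, hz01, hz0p, hωp, hω1, hval0⟩ := exists_elt (p := p) P.isPGroup'
    (χ := fun x : P => (χ : G → ℂ) x) (isCharacter_restrict (P : Subgroup G) (isCharacter_of_isIrr hχ))
    (fun x hx => Subtype.ext (hfaith x hx)) (by
      obtain ⟨x, hx, y, hy, hxy⟩ := hna
      exact ⟨⟨x, hx⟩, ⟨y, hy⟩, fun h => hxy (congrArg Subtype.val h)⟩) (n := n) hn hn2
  -- change the element
  set ε := Complex.exp (2 * Real.pi * Complex.I / p) with hε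
  have hεprim : IsPrimitiveRoot ε p := Complex.isPrimitiveRoot_exp p hp.ne_zero
  have hεp : ε ^ p = 1 := hεprim.pow_eq_one
  have hε1 : ε ≠ 1 := hεprim.ne_one hp.one_lt
  have hωprim : IsPrimitiveRoot ω p := by
    have h1 : orderOf ω = p := orderOf_eq_prime hωp hω1
    rw [← h1]
    exact IsPrimitiveRoot.orderOf ω
  have : NeZero p := ⟨hp.ne_zero⟩
  obtain ⟨j, -, hj⟩ := hωprim.eq_pow_of_pow_eq_one hεp
  set z : G := (z0 : G) ^ j with hz
  have hval : ∀ k : ℕ, (χ : G → ℂ) (z ^ k) = ((n - p : ℕ) : ℂ) + p * ε ^ k := by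
    intro k
    have h1 := hval0 (j * k)
    rw [Subgroup.coe_pow, pow_mul, pow_mul, hj] at h1
    exact h1
  have hzp : z ^ p = 1 := by
    have h1 : (z0 : G) ^ p = 1 := by rw [← Subgroup.coe_pow, hz0p, Subgroup.coe_one]
    rw [hz, ← pow_mul, mul_comm, pow_mul, h1, one_pow]
  have hεn : ‖ε - 1‖ < 1 := norm_lt h7
  -- conjugates of `z` commute with `z`
  have hcomm : ∀ s : G, Commute (s⁻¹ * z * s) z := by
    obtain ⟨m, ρ, hρ, hρχ⟩ := hχ
    let R : G →* Matrix (Fin m) (Fin m) ℂ :=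
      { toFun := H4.FrobSchur.M ρ
        map_one' := H4.FrobSchur.M_one ρ
        map_mul' := H4.FrobSchur.M_mul ρ }
    have hR : ∀ g, (R g).trace = (χ : G → ℂ) g := by
      intro g
      have h1 := H4.FrobSchur.char_eq_trace ρ g
      rw [← hρχ]
      exact h1.symm
    intro s
    have h1 := commute_conj_two R hp.ne_zero hzp hεp hε1 hεn (a := ((n - p : ℕ) : ℂ)) (b := p)
      (fun k => by rw [hR]; exact hval k) s
    have h2 : R ((s⁻¹ * z * s) * z * (s⁻¹ * z * s)⁻¹ * z⁻¹) = 1 := by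
      have h3 : R (s⁻¹ * z * s) * R z = R z * R (s⁻¹ * z * s) := h1
      have h4 : R (s⁻¹ * z * s) * R ((s⁻¹ * z * s)⁻¹) = 1 := by rw [← map_mul, mul_inv_cancel, map_one]
      have h5 : R z * R z⁻¹ = 1 := by rw [← map_mul, mul_inv_cancel, map_one]
      rw [map_mul, map_mul, map_mul, h3, mul_assoc (R z), h4, mul_one, h5]
    have h3 : (χ : G → ℂ) ((s⁻¹ * z * s) * z * (s⁻¹ * z * s)⁻¹ * z⁻¹) = (χ : G → ℂ) 1 := by
      rw [← hR, ← hR, h2, map_one]
    have h4 := hfaith _ h3
    have h5 := mul_inv_eq_one.1 h4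
    exact mul_inv_eq_iff_eq_mul.1 h5
  -- the normal closure
  set N : Subgroup G := Subgroup.normalClosure {z} with hN
  have hNab : ∀ a b : N, a * b = b * a := by
    have h1 : ∀ x ∈ Group.conjugatesOfSet ({z} : Set G), ∀ y ∈ Group.conjugatesOfSet ({z} : Set G), x * y = y * x := by
      intro x hx y hy
      obtain ⟨a, ha, hax⟩ := Group.mem_conjugatesOfSet_iff.mp hx
      obtain ⟨b, hb, hby⟩ := Group.mem_conjugatesOfSet_iff.mp hy
      rw [Set.mem_singleton_iff] at ha hb
      subst ha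
      rw [hb] at hby
      obtain ⟨c, hc⟩ := isConj_iff.mp hax
      obtain ⟨d, hd⟩ := isConj_iff.mp hby
      have h2 := hcomm (c⁻¹ * d)
      have h3 : Commute (MulAut.conj d ((c⁻¹ * d)⁻¹ * z * (c⁻¹ * d))) (MulAut.conj d z) := h2.map (MulAut.conj d)
      rw [MulAut.conj_apply, MulAut.conj_apply, hd] at h3
      have h4 : d * ((c⁻¹ * d)⁻¹ * z * (c⁻¹ * d)) * d⁻¹ = x := by
        rw [← hc]; group
      rw [h4] at h3
      exact h3
    have h2 : Subgroup.closure (Group.conjugatesOfSet ({z} : Set G)) ≤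
        Subgroup.centralizer (Subgroup.closure (Group.conjugatesOfSet ({z} : Set G)) : Set G) := by
      rw [Subgroup.centralizer_closure, Subgroup.closure_le]
      intro x hx
      rw [SetLike.mem_coe, Subgroup.mem_centralizer_iff]
      intro y hy
      exact h1 y hy x hx
    intro a b
    apply Subtype.ext
    have h3 := h2 b.2
    rw [Subgroup.mem_centralizer_iff] at h3
    exact h3 a a.2
  have : N.Normal := Subgroup.normalClosure_normal
  have := Fintype.ofFinite N
  have hzN : z ∈ N := Subgroup.subset_normalClosure rfl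
  obtain ⟨θ, hθ, hne⟩ := exists_constituent_restrict N hχ
  have hpn : 0 < n - p := by omega
  have hmf := mult_free (p := p) (m := n - p) hpn (by omega) hχ N hNab ⟨z, hzN⟩ (Subtype.ext hzp) hεp hε1 hval hθ hne
  have hidx := index_dvd hχ hfaith N hNab hθ hne
  have hcard : (orb N θ).card = n := by
    have h1 := degree_eq N hχ hθ hne
    rw [hmf, one_mul, degree_one_of_comm hNab hθ, mul_one, ← card_orb, hn] at h1
    exact_mod_cast h1.symm
  rw [hcard] at hidx
  set C := Subgroup.centralizer (N : Set G) with hC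
  have hCab := cent_comm hχ hfaith N hNab hθ hmf
  have hCn : C.Normal := inferInstance
  -- the Sylow subgroup of `C`
  have hS : ¬ p ∣ (Cfsg.pCore p G).relIndex C := by
    obtain ⟨S⟩ : Nonempty (Sylow p C) := inferInstance
    have hSn : (S : Subgroup C).Normal := by
      constructor
      intro x hx g
      have : g * x * g⁻¹ = x := by
        apply Subtype.ext
        have := hCab g g.2 x x.2
        change (g : G) * (x : G) * (g : G)⁻¹ = x
        rw [this, mul_inv_cancel_right]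
      rwa [this]
    have hSch : (S : Subgroup C).Characteristic := S.characteristic_of_normal hSn
    have hSG : ((S : Subgroup C).map C.subtype).Normal := inferInstance
    have hSp : IsPGroup p ((S : Subgroup C).map C.subtype) := S.isPGroup'.map _
    have h1 := H1.Cores.le_pCore hSG hSp
    have h2 : (Cfsg.pCore p G).relIndex C ∣ ((S : Subgroup C).map C.subtype).relIndex C :=
      Subgroup.relIndex_dvd_of_le_left _ h1
    have h3 : ((S : Subgroup C).map C.subtype).relIndex C = (S : Subgroup C).index := by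
      have h4 : ((S : Subgroup C).map C.subtype).subgroupOf C = (S : Subgroup C) :=
        Subgroup.comap_map_eq_self_of_injective (Subgroup.subtype_injective C) _
      rw [Subgroup.relIndex, h4]
    intro h4
    rw [h3] at h2
    exact S.not_dvd_index (h4.trans h2)
  intro hdvd
  have h1 : (Cfsg.pCore p G ⊓ C).index = (Cfsg.pCore p G).relIndex C * C.index := by
    rw [← Subgroup.inf_relIndex_right, Subgroup.relIndex_mul_index inf_le_right]
  have h2 : (Cfsg.pCore p G).index ∣ (Cfsg.pCore p G ⊓ C).index := Subgroup.index_dvd_of_le inf_le_left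
  have h3 := hdvd.trans h2
  rw [h1] at h3
  have h4 : (p ^ 2).Coprime ((Cfsg.pCore p G).relIndex C) := Nat.Coprime.pow_left 2 ((Nat.Prime.coprime_iff_not_dvd hp).2 hS)
  exact not_sq_dvd_factorial hp hn2 ((h4.dvd_of_dvd_mul_left h3).trans hidx)

/-- Let p ≥ 7 be a prime and let the finite group G have a faithful irreducible character of degree n with n < 2p and n ≠ p. If the Sylow p-subgroups of G are non-abelian then p² does not divide the index of O_p(G) in G; consequently, in every case G/O_p(G) has abelian Sylow p-subgroups. -/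
theorem result {G : Type*} [Group G] [Finite G] (χ : Cfsg.IrrCharacter G) (hfaith : ∀ g : G, (χ : G → ℂ) g = (χ : G → ℂ) 1 → g = 1) (n : ℕ) (hn : Cfsg.charDegree (χ : G → ℂ) = n) (p : ℕ) (hp : p.Prime) (h7 : 7 ≤ p) (hn2 : n < 2 * p) (hnp : n ≠ p) : ((∃ P : Sylow p G, ∃ x ∈ (P : Subgroup G), ∃ y ∈ (P : Subgroup G), x * y ≠ y * x) → ¬ p ^ 2 ∣ (Cfsg.pCore p G).index) ∧ ∀ Q : Sylow p (G ⧸ Cfsg.pCore p G), ∀ x ∈ (Q : Subgroup (G ⧸ Cfsg.pCore p G)), ∀ y ∈ (Q : Subgroup (G ⧸ Cfsg.pCore p G)), x * y = y * x := by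
  classical
  have := Fintype.ofFinite G
  have hpf : Fact p.Prime := ⟨hp⟩
  have hn' : (χ : G → ℂ) 1 = n := by
    rw [← hn]
    exact (H77.PQuot.cast_irr χ).symm
  have hfirst : (∃ P : Sylow p G, ∃ x ∈ (P : Subgroup G), ∃ y ∈ (P : Subgroup G), x * y ≠ y * x) →
      ¬ p ^ 2 ∣ (Cfsg.pCore p G).index := by
    rintro ⟨P, hP⟩
    exact main χ hfaith n hn' p hp h7 hn2 hnp P hP
  refine ⟨hfirst, fun Q x hx y hy => ?_⟩
  by_cases hna : ∃ P : Sylow p G, ∃ x ∈ (P : Subgroup G), ∃ y ∈ (P : Subgroup G), x * y ≠ y * x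
  · have h1 := hfirst hna
    have h2 : ¬ p ^ 2 ∣ Nat.card (Q : Subgroup (G ⧸ Cfsg.pCore p G)) := by
      intro h
      apply h1
      rw [Subgroup.index]
      exact h.trans (Subgroup.card_subgroup_dvd_card _)
    obtain ⟨k, hk⟩ := IsPGroup.iff_card.1 Q.isPGroup'
    have hk1 : k ≤ 1 := by
      by_contra h
      apply h2
      rw [hk]
      exact pow_dvd_pow p (by omega)
    have hcyc : IsCyclic (Q : Subgroup (G ⧸ Cfsg.pCore p G)) := by
      rcases Nat.le_one_iff_eq_zero_or_eq_one.1 hk1 with h | h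
      · rw [h, pow_zero] at hk
        have := (Nat.card_eq_one_iff_unique.1 hk).1
        exact isCyclic_of_subsingleton
      · rw [h, pow_one] at hk
        exact isCyclic_of_prime_card hk
    have h4 : (⟨x, hx⟩ : (Q : Subgroup (G ⧸ Cfsg.pCore p G))) * ⟨y, hy⟩ = ⟨y, hy⟩ * ⟨x, hx⟩ := by
      obtain ⟨g, hg⟩ := hcyc.exists_generator
      obtain ⟨i, hi⟩ := Subgroup.mem_zpowers_iff.1 (hg ⟨x, hx⟩)
      obtain ⟨j, hj⟩ := Subgroup.mem_zpowers_iff.1 (hg ⟨y, hy⟩)
      rw [← hi, ← hj, ← zpow_add, ← zpow_add, add_comm]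
    exact congrArg Subtype.val h4
  · push Not at hna
    obtain ⟨P, rfl⟩ := Sylow.mapSurjective_surjective (QuotientGroup.mk'_surjective (Cfsg.pCore p G)) p Q
    rw [Sylow.coe_mapSurjective] at hx hy
    obtain ⟨a, ha, rfl⟩ := Subgroup.mem_map.1 hx
    obtain ⟨b, hb, rfl⟩ := Subgroup.mem_map.1 hy
    rw [← map_mul, ← map_mul, hna P a ha b hb]

end Cfsg.Agent.S4471
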