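import Cfsg.Statements.S4473
import Cfsg.Agent.Lib.H70.Deg2
import Cfsg.Agent.Lib.H77.SubChar

set_option autoImplicit false
open Cfsg

namespace Cfsg.Agent.S4473

/-- Let the finite group G have a faithful irreducible character χ of degree 2 that is primitive: χ is not induced from a character of any proper subgroup. Then the centre of G has index 12, 24 or 60. -/
theorem result {G : Type*} [Group G] [Fintype G] (χ : Cfsg.IrrCharacter G) (hfaith : ∀ g : G, (χ : G → ℂ) g = (χ : G → ℂ) 1 → g = 1) (h2 : Cfsg.charDegree (χ : G → ℂ) = 2) (hprim : ∀ H : Subgroup G, H ≠ ⊤ → ∀ θ : H → ℂ, Cfsg.IsCharacter H θ → (χ : G → ℂ) ≠ Cfsg.indFun H θ) : (Subgroup.center G).index = 12 ∨ (Subgroup.center G).index = 24 ∨ (Subgroup.center G).index = 60 := by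
  obtain ⟨n, ρ, hρ, hχ⟩ := χ.2
  have hn1 : (χ : G → ℂ) 1 = n := by
    rw [← hχ, Representation.char_one]; simp
  have hn : n = 2 := by
    unfold Cfsg.charDegree at h2
    rw [hn1] at h2
    simpa using h2
  subst hn
  refine H70.Deg2.main_rep (ρ := ρ) ?_ (by simp) ?_ ?_
  · intro a b hab
    have h1 : ρ (a * b⁻¹) = 1 := by
      rw [map_mul, hab, ← map_mul, mul_inv_cancel, map_one]
    have h3 : a * b⁻¹ = 1 := by
      apply hfaith
      rw [← hχ]
      unfold Representation.character
      rw [h1, map_one ρ]
    exact mul_inv_eq_one.1 h3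
  · intro L hL
    haveI := hρ
    let S : Subrepresentation ρ := ⟨L, fun g x hx => hL g x hx⟩
    rcases eq_bot_or_eq_top S with h | h
    · left
      exact congrArg Subrepresentation.toSubmodule h
    · right
      exact congrArg Subrepresentation.toSubmodule h
  · intro K hK hcomm
    classical
    haveI : Fintype K := Fintype.ofFinite K
    obtain ⟨lam, hl, hne⟩ := H18.CharQuot.exists_constituent_restrict K χ.2
    have hl1 : lam 1 = 1 := H18.CharQuot.degree_one_of_comm (fun a b => Subtype.ext (hcomm a a.2 b b.2)) hl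
    have hKt : K ≠ ⊤ := by
      intro h
      rw [h, Subgroup.index_top] at hK
      exact absurd hK (by norm_num)
    apply hprim K hKt lam (H18.CharBasic.isCharacter_of_isIrr hl)
    symm
    apply H77.SubChar.eq_of_degree (H18.CharInd.isCharacter_ind K (H18.CharBasic.isCharacter_of_isIrr hl)) χ.2
    · rw [H18.CharInd.frobenius K lam (H18.CharBasic.isClassFunction_of_isIrr χ.2)]
      intro h0
      apply hne
      rw [← H18.CharOrtho.inner_conj_symm, h0, map_zero]
    · rw [H18.CharInd.indFun_one, hK, hl1, hn1]
      norm_num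

end Cfsg.Agent.S4473
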