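import Cfsg.Statements.S4475
import Cfsg.Agent.Lib.H83.FSMult
-- import your own Cfsg.Agent.* helpers here

set_option autoImplicit false
open Cfsg

namespace Cfsg.Agent.S4475

open H4.FrobSchur H83.FSMult Matrix
open H4.FrobSchur H4.CharOrth H83.FSMult in
theorem main {G : Type*} [Group G] [Fintype G] (n : ℕ) (ρ : Representation ℂ G (Fin n → ℂ))
    (hρ : ρ.IsIrreducible) (hreal : ∀ g : G, (ρ.character g).im = 0) :
    (∃ A, Inv ρ A ∧ A ≠ 0) ∧ ∀ A, Inv ρ A →
      A.transpose = ((Nat.card G : ℂ)⁻¹ * ∑ s : G, ρ.character (s * s)) • A := by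
  classical
  have hirr := H4.CharBasic.isIrrCharacter_character ρ hρ
  obtain ⟨ε, hε, h⟩ := exists_sign ρ hρ
  have hsum : ∑ g : G, ρ.character (g * g) = ε * ∑ g : G, ρ.character g ^ 2 := by
    rw [sum_char_sq_eq, sum_char_pow_eq, Finset.mul_sum]
    refine Finset.sum_congr rfl fun i _ => ?_
    rw [Finset.mul_sum]
    refine Finset.sum_congr rfl fun j _ => ?_
    have h1 := congrFun (congrFun (h _ (avg_inv ρ j i)) j) i
    rw [avg_transpose] at h1
    rw [h1]; simp
  have h1 := inv_card_mul_sum_sq ρ.character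
  rw [classInner_irr hirr (H4.FixedCount.isIrrCharacter_conj hirr),
    if_pos (conj_eq_iff_real.2 hreal)] at h1
  have hnu : (Nat.card G : ℂ)⁻¹ * ∑ s : G, ρ.character (s * s) = ε := by
    rw [hsum, mul_left_comm, h1, mul_one]
  constructor
  · by_contra hcon
    push Not at hcon
    have h2 := sum_char_pow_eq ρ
    have h3 : ∑ i, ∑ j, avg ρ j i j i = 0 := by
      refine Finset.sum_eq_zero fun i _ => Finset.sum_eq_zero fun j _ => ?_
      rw [hcon _ (avg_inv ρ j i)]
      rfl
    rw [h2, h3, mul_zero] at h1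
    exact zero_ne_one h1
  · intro A hA
    rw [hnu]
    exact h A hA



/-- Let ρ be an irreducible representation of the finite group G on the coordinate space Fin n → ℂ whose character χ is real-valued, and let ν be the Frobenius–Schur indicator of χ (the average of χ(s²)). Writing X(g) for the matrix of ρ(g), there is a nonzero matrix M with X(g)ᵀ M X(g) = M for all g ∈ G; and every such M (zero or not) satisfies Mᵀ = ν·M. -/
theorem result {G : Type*} [Group G] [Fintype G] (n : ℕ) (ρ : Representation ℂ G (Fin n → ℂ)) (hirr : ρ.IsIrreducible) (hreal : ∀ g : G, (ρ.character g).im = 0) : (∃ M : Matrix (Fin n) (Fin n) ℂ, M ≠ 0 ∧ ∀ g : G, (LinearMap.toMatrix' (ρ g)).transpose * M * LinearMap.toMatrix' (ρ g) = M) ∧ ∀ M : Matrix (Fin n) (Fin n) ℂ, (∀ g : G, (LinearMap.toMatrix' (ρ g)).transpose * M * LinearMap.toMatrix' (ρ g) = M) → M.transpose = ((Nat.card G : ℂ)⁻¹ * ∑ s : G, ρ.character (s * s)) • M := by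
  obtain ⟨⟨A, hA, hA0⟩, h⟩ := main n ρ hirr hreal
  exact ⟨⟨A, hA0, hA⟩, fun M hM => h M hM⟩

end Cfsg.Agent.S4475
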