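import Cfsg.Statements.S4476
import Cfsg.Agent.Lib.H77.FSCount
-- import your own Cfsg.Agent.* helpers here

set_option autoImplicit false
open Cfsg

namespace Cfsg.Agent.S4476

open H77.FSCount
open H77.FSCount H83.FSMult H4.CharCount in
theorem main_b {G : Type*} [Group G] [Finite G] (t : ℕ) (ht : Nat.card {x : G // orderOf x = 2} = t)
    (ht0 : 0 < t) : ∃ χ : Cfsg.IrrCharacter G, (χ : G → ℂ) ≠ (fun _ => 1) ∧
    (∀ g : G, ((χ : G → ℂ) g).im = 0) ∧
    (Cfsg.charDegree (χ : G → ℂ) : ℚ) ≤ ((Nat.card G : ℚ) - 1) / t := by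
  classical
  haveI : Finite (IrrCharacter G) := H18.CharOrtho.instFiniteIrr
  letI := Fintype.ofFinite (IrrCharacter G)
  by_contra hcon
  push Not at hcon
  have htq : (0 : ℚ) < t := by exact_mod_cast ht0
  have h1 := sum_nuZ_erase (G := G)
  rw [ht] at h1
  have h2 := sum_sq_erase (G := G)
  have h3 : ∀ χ ∈ Finset.univ.erase (triv G),
      ((Nat.card G : ℚ) - 1) / t * ((nuZ (χ : G → ℂ) : ℚ) * (charDegree (χ : G → ℂ) : ℚ)) ≤
        (charDegree (χ : G → ℂ) : ℚ) ^ 2 := by
    intro χ hχ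
    have hne : (χ : G → ℂ) ≠ (fun _ => 1) := fun h => (Finset.mem_erase.1 hχ).1 (Subtype.ext h)
    by_cases h0 : nuZ (χ : G → ℂ) = 0
    · rw [h0]; simp
    · have hr := (nuZ_ne_zero_iff χ.2).1 h0
      have h4 := hcon χ hne hr
      have h5 : (nuZ (χ : G → ℂ) : ℚ) ≤ 1 := by exact_mod_cast nuZ_le_one _
      have hd : (0 : ℚ) ≤ (charDegree (χ : G → ℂ) : ℚ) := by positivity
      have hg : (0 : ℚ) ≤ ((Nat.card G : ℚ) - 1) / t := by
        apply div_nonneg _ htq.le
        have : 1 ≤ Nat.card G := Nat.card_pos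
        have : (1 : ℚ) ≤ Nat.card G := by exact_mod_cast this
        linarith
      calc ((Nat.card G : ℚ) - 1) / t * ((nuZ (χ : G → ℂ) : ℚ) * (charDegree (χ : G → ℂ) : ℚ))
          ≤ ((Nat.card G : ℚ) - 1) / t * (1 * (charDegree (χ : G → ℂ) : ℚ)) := by
            apply mul_le_mul_of_nonneg_left _ hg
            apply mul_le_mul_of_nonneg_right h5 hd
        _ ≤ (charDegree (χ : G → ℂ) : ℚ) ^ 2 := by
            rw [one_mul, sq]
            exact mul_le_mul_of_nonneg_right h4.le hd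
  have h6 : ∑ χ ∈ Finset.univ.erase (triv G),
      ((Nat.card G : ℚ) - 1) / t * ((nuZ (χ : G → ℂ) : ℚ) * (charDegree (χ : G → ℂ) : ℚ)) =
      (Nat.card G : ℚ) - 1 := by
    rw [← Finset.mul_sum]
    have h7 : ∑ χ ∈ Finset.univ.erase (triv G), ((nuZ (χ : G → ℂ) : ℚ) * (charDegree (χ : G → ℂ) : ℚ)) = t := by
      have := congrArg (Int.cast : ℤ → ℚ) h1
      push_cast at this
      exact this
    rw [h7]
    field_simp
  -- strict somewhere
  obtain ⟨χ, hχ, hν⟩ : ∃ χ ∈ Finset.univ.erase (triv G), 0 < nuZ (χ : G → ℂ) * (charDegree (χ : G → ℂ) : ℤ) := by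
    by_contra hc
    push Not at hc
    have := Finset.sum_nonpos hc
    rw [h1] at this
    omega
  have hlt : ∑ χ ∈ Finset.univ.erase (triv G),
      ((Nat.card G : ℚ) - 1) / t * ((nuZ (χ : G → ℂ) : ℚ) * (charDegree (χ : G → ℂ) : ℚ)) <
      ∑ χ ∈ Finset.univ.erase (triv G), (charDegree (χ : G → ℂ) : ℚ) ^ 2 := by
    apply Finset.sum_lt_sum h3
    refine ⟨χ, hχ, ?_⟩
    have hd : 0 < charDegree (χ : G → ℂ) := degree_pos χ.2
    have hν1 : nuZ (χ : G → ℂ) = 1 := by
      rcases nuZ_cases (χ : G → ℂ) with h | h | h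
      · rw [h] at hν; simp at hν
      · exact h
      · rw [h] at hν
        have : (0 : ℤ) < charDegree (χ : G → ℂ) := by exact_mod_cast hd
        linarith
    have hne : (χ : G → ℂ) ≠ (fun _ => 1) := fun h => (Finset.mem_erase.1 hχ).1 (Subtype.ext h)
    have hr := (nuZ_ne_zero_iff χ.2).1 (by rw [hν1]; norm_num)
    have h4 := hcon χ hne hr
    rw [hν1]
    have hdq : (0 : ℚ) < (charDegree (χ : G → ℂ) : ℚ) := by exact_mod_cast hd
    push_cast
    rw [one_mul, sq]
    exact mul_lt_mul_of_pos_right h4 hdq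
  rw [h6, h2] at hlt
  exact lt_irrefl _ hlt

open H77.FSCount H83.FSMult H4.CharCount in
theorem sq_le {G : Type*} [Group G] [Finite G] (t : ℕ) (ht : Nat.card {x : G // orderOf x = 2} = t) :
    (t : ℚ) ^ 2 ≤ ((Nat.card (ConjClasses G) : ℚ) - 1) * ((Nat.card G : ℚ) - 1) := by
  classical
  haveI : Finite (IrrCharacter G) := H18.CharOrtho.instFiniteIrr
  letI := Fintype.ofFinite (IrrCharacter G)
  have h1 := sum_nuZ_erase (G := G)
  rw [ht] at h1
  have h2 := sum_sq_erase (G := G)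
  have h7 : ∑ χ ∈ Finset.univ.erase (triv G), ((nuZ (χ : G → ℂ) : ℚ) * (charDegree (χ : G → ℂ) : ℚ)) = t := by
    have := congrArg (Int.cast : ℤ → ℚ) h1
    push_cast at this
    exact this
  have h8 := Finset.sum_mul_sq_le_sq_mul_sq (Finset.univ.erase (triv G))
    (fun χ : IrrCharacter G => (nuZ (χ : G → ℂ) : ℚ)) (fun χ => (charDegree (χ : G → ℂ) : ℚ))
  rw [h7, h2] at h8
  refine h8.trans ?_
  apply mul_le_mul_of_nonneg_right
  · have h9 : ∀ χ ∈ Finset.univ.erase (triv G), (nuZ (χ : G → ℂ) : ℚ) ^ 2 ≤ 1 := by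
      intro χ _
      rcases nuZ_cases (χ : G → ℂ) with h | h | h <;> rw [h] <;> norm_num
    refine (Finset.sum_le_sum h9).trans ?_
    rw [Finset.sum_const, nsmul_eq_mul, mul_one, Finset.card_erase_of_mem (Finset.mem_univ _),
      Finset.card_univ, ← Nat.card_eq_fintype_card, card_irr]
    rw [Nat.cast_sub]
    · simp
    · exact Nat.card_pos
  · have : 1 ≤ Nat.card G := Nat.card_pos
    have : (1 : ℚ) ≤ Nat.card G := by exact_mod_cast this
    linarith

open H77.FSCount H83.FSMult H4.CharCount in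
theorem main_a {G : Type*} [Group G] [Finite G] (t : ℕ) (ht : Nat.card {x : G // orderOf x = 2} = t)
    (ht0 : 0 < t) : ∃ x : G, x ≠ 1 ∧
      ((Subgroup.centralizer ({x} : Set G)).index : ℚ) ≤ (((Nat.card G : ℚ) - 1) / t) ^ 2 := by
  classical
  letI := Fintype.ofFinite G
  by_contra hcon
  push Not at hcon
  have htq : (0 : ℚ) < t := by exact_mod_cast ht0
  have hg1 : 1 < Nat.card G := by
    by_contra h
    have h1 : Nat.card G = 1 := by have : 0 < Nat.card G := Nat.card_pos; omega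
    haveI : Subsingleton G := (Nat.card_eq_one_iff_unique.1 h1).1
    rw [← ht, Nat.card_eq_zero.2 (Or.inl ⟨fun x => by
      have := x.2; rw [Subsingleton.elim x.1 1, orderOf_one] at this; omega⟩)] at ht0
    omega
  have hgq : (1 : ℚ) < Nat.card G := by exact_mod_cast hg1
  have hG0 : (Nat.card G : ℂ) ≠ 0 := by exact_mod_cast Nat.card_pos.ne'
  have h1 := H4.FixedCount.card_classes_eq_sum (G := G) (fun _ => True) (fun _ _ _ => Iff.rfl)
  have h2 : (Nat.card {C : ConjClasses G // ∀ g : G, ConjClasses.mk g = C → True} : ℂ) =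
      (Nat.card (ConjClasses G) : ℂ) := by
    congr 1
    exact Nat.card_congr ⟨fun C => C.1, fun C => ⟨C, fun _ _ => trivial⟩, fun C => rfl, fun C => rfl⟩
  rw [h2] at h1
  simp only [if_true] at h1
  rw [eq_inv_mul_iff_mul_eq₀ hG0] at h1
  have h3 : (Nat.card G : ℚ) * Nat.card (ConjClasses G) =
      ∑ g : G, (Nat.card (Subgroup.centralizer ({g} : Set G)) : ℚ) := by exact_mod_cast h1
  rw [← Finset.add_sum_erase (Finset.univ : Finset G) _ (Finset.mem_univ (1 : G))] at h3
  have h4 : Nat.card (Subgroup.centralizer ({1} : Set G)) = Nat.card G := by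
    have : Subgroup.centralizer ({1} : Set G) = ⊤ := by
      ext x; simp [Subgroup.mem_centralizer_iff]
    rw [this]; exact Nat.card_congr Subgroup.topEquiv.toEquiv
  rw [h4] at h3
  have hαpos : (0 : ℚ) < (((Nat.card G : ℚ) - 1) / t) ^ 2 := by
    have : (0 : ℚ) < ((Nat.card G : ℚ) - 1) / t := div_pos (by linarith) htq
    positivity
  have h5 : ∀ g ∈ (Finset.univ : Finset G).erase 1,
      (Nat.card (Subgroup.centralizer ({g} : Set G)) : ℚ) < (Nat.card G : ℚ) / (((Nat.card G : ℚ) - 1) / t) ^ 2 := by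
    intro g hg
    have h6 := hcon g (Finset.mem_erase.1 hg).1
    rw [lt_div_iff₀ hαpos]
    have h7 : (Nat.card (Subgroup.centralizer ({g} : Set G)) : ℚ) *
        ((Subgroup.centralizer ({g} : Set G)).index : ℚ) = Nat.card G := by
      exact_mod_cast Subgroup.card_mul_index _
    refine lt_of_lt_of_eq (mul_lt_mul_of_pos_left h6 ?_) h7
    exact_mod_cast Nat.card_pos
  have hne : ((Finset.univ : Finset G).erase 1).Nonempty := by
    rw [← Finset.card_pos, Finset.card_erase_of_mem (Finset.mem_univ _), Finset.card_univ,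
      ← Nat.card_eq_fintype_card]
    omega
  have h8 := Finset.sum_lt_sum_of_nonempty hne h5
  rw [Finset.sum_const, Finset.card_erase_of_mem (Finset.mem_univ _), Finset.card_univ,
    ← Nat.card_eq_fintype_card, nsmul_eq_mul, Nat.cast_sub Nat.card_pos, Nat.cast_one] at h8
  have h9 := sq_le t ht
  have h10 : (Nat.card G : ℚ) * ((Nat.card (ConjClasses G) : ℚ) - 1) <
      ((Nat.card G : ℚ) - 1) * ((Nat.card G : ℚ) / (((Nat.card G : ℚ) - 1) / t) ^ 2) := by
    linarith
  have h11 : ((Nat.card G : ℚ) - 1) * ((Nat.card G : ℚ) / (((Nat.card G : ℚ) - 1) / t) ^ 2) =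
      (Nat.card G : ℚ) * (t ^ 2 / ((Nat.card G : ℚ) - 1)) := by
    have : ((Nat.card G : ℚ) - 1) ≠ 0 := by linarith
    field_simp
  rw [h11] at h10
  have h12 : ((Nat.card (ConjClasses G) : ℚ) - 1) < t ^ 2 / ((Nat.card G : ℚ) - 1) :=
    lt_of_mul_lt_mul_left h10 (by linarith)
  rw [lt_div_iff₀ (by linarith)] at h12
  linarith



/-- Let G be a finite group of even order g with exactly t involutions, and put α = (g − 1)/t (a rational number). Then (a) some non-identity element x of G has at most α² conjugates; and (b) some non-principal real-valued irreducible character of G has degree at most α. -/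
theorem result {G : Type*} [Group G] [Fintype G] (heven : Even (Nat.card G)) (t : ℕ) (ht : Nat.card {x : G // orderOf x = 2} = t) : (∃ x : G, x ≠ 1 ∧ ((Subgroup.centralizer ({x} : Set G)).index : ℚ) ≤ (((Nat.card G : ℚ) - 1) / t) ^ 2) ∧ ∃ χ : Cfsg.IrrCharacter G, (χ : G → ℂ) ≠ (fun _ => 1) ∧ (∀ g : G, ((χ : G → ℂ) g).im = 0) ∧ (Cfsg.charDegree (χ : G → ℂ) : ℚ) ≤ ((Nat.card G : ℚ) - 1) / t := by
  have ht0 : 0 < t := by
    rw [← ht]
    haveI := Fact.mk Nat.prime_two
    obtain ⟨x, hx⟩ := exists_prime_orderOf_dvd_card' (G := G) 2 heven.two_dvd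
    haveI : Nonempty {x : G // orderOf x = 2} := ⟨⟨x, hx⟩⟩
    exact Nat.card_pos
  exact ⟨main_a t ht ht0, main_b t ht ht0⟩

end Cfsg.Agent.S4476
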