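import Cfsg.Statements.S4487
import Cfsg.Agent.Lib.H77.BlkReg
-- import your own Cfsg.Agent.* helpers here

set_option autoImplicit false
open Cfsg

namespace Cfsg.Agent.S4487

/-- Let G be a finite group and p a prime such that G has no non-trivial normal subgroup of order prime to p and C_G(O_p(G)) ≤ O_p(G). Then G has a single p-block: any two irreducible characters lie in the same block relative to every maximal ideal M of the algebraic integers containing p. -/
theorem result {G : Type*} [Group G] [Finite G] (p : ℕ) [Fact p.Prime] (M : Ideal Cfsg.AlgInt) (hM : Cfsg.IsPModular p M) (hcore : Cfsg.pPrimeCore p G = ⊥) (hconstr : Subgroup.centralizer ((Cfsg.pCore p G) : Set G) ≤ Cfsg.pCore p G) (χ ψ : Cfsg.IrrCharacter G) : Cfsg.SameBlock M (χ : G → ℂ) (ψ : G → ℂ) := by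
  refine H77.BlkReg.single_block hM (Cfsg.pCore p G) (H1.Cores.isPGroup_pCore p) ?_ χ ψ
  intro g hg hr
  have h1 : g ∈ Cfsg.pCore p G := hconstr hg
  obtain ⟨k, hk⟩ := (H1.Cores.isPGroup_pCore p (G := G)) ⟨g, h1⟩
  have h2 : g ^ p ^ k = 1 := congrArg (fun x : Cfsg.pCore p G => (x : G)) hk
  have h3 : orderOf g ∣ p ^ k := orderOf_dvd_of_pow_eq_one h2
  rw [← orderOf_eq_one_iff]
  exact Nat.eq_one_of_dvd_coprimes
    (Nat.Coprime.pow_left k (((Fact.out : p.Prime).coprime_iff_not_dvd).2 hr)) h3 dvd_rfl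

end Cfsg.Agent.S4487
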