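import Cfsg.Statements.S4490
import Cfsg.Agent.Lib.H77.Real2b
-- import your own Cfsg.Agent.* helpers here

set_option autoImplicit false
open Cfsg

namespace Cfsg.Agent.S4490

open H20.Loc H20.Blk H20.Defect H77.Real2 H77.Real2b


/-- Let G be a finite group and M a maximal ideal of the algebraic integers containing 2. Every 2-block B of G whose defect groups are the Sylow 2-subgroups of G (a block of full defect) and which is not the principal block is different from its complex-conjugate block, the block formed by the complex conjugates of the members of B. -/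
theorem result {G : Type*} [Group G] [Finite G] (M : Ideal Cfsg.AlgInt) (hM : Cfsg.IsPModular 2 M) (B : Set (Cfsg.IrrCharacter G)) (hB : Cfsg.IsPBlock M B) (P : Sylow 2 G) (hfull : Cfsg.IsDefectGroup 2 M B (P : Subgroup G)) (hnp : B ≠ Cfsg.principalBlock M G) : {ψ : Cfsg.IrrCharacter G | ∃ χ ∈ B, (ψ : G → ℂ) = fun g => (starRingEnd ℂ) ((χ : G → ℂ) g)} ≠ B := by
  intro hEq
  haveI := pm_isPrime hM
  apply hnp
  obtain ⟨χ, hχ, h0⟩ := exists_height_zero hM hB
  have h1 := card_defectGroup hM hB hfull
  have h2 : Nat.card (P : Subgroup G) = 2 ^ (Nat.card G).factorization 2 := P.card_eq_multiplicity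
  have h3 : Cfsg.blockDefect 2 B = (Nat.card G).factorization 2 :=
    Nat.pow_right_injective le_rfl (h1.symm.trans h2)
  have h4 := (height_zero_iff hM hB hχ).1 h0
  have h5 : ¬ 2 ∣ Cfsg.charDegree (χ : G → ℂ) := by
    intro h
    have := (Nat.prime_two.dvd_iff_one_le_factorization (charDegree_ne_zero χ)).1 h
    omega
  refine eq_of_real hM hB (isPBlock_principal (M := M)) ?_
    (real_of_mem isPBlock_principal one_mem_principal cc_one) hχ h5
    (one_mem_principal (M := M)) (by rw [charDegree_one']; norm_num)
  intro ψ hψ
  rw [← hEq]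
  exact ⟨ψ, hψ, rfl⟩

end Cfsg.Agent.S4490
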