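import Cfsg.Statements.S4494
import Cfsg.Agent.Lib.H78.BF

set_option autoImplicit false
open Cfsg

namespace Cfsg.Agent.S4494


open H20.Loc H20.GA H20.Blk H20.Orth H20.Defect H20.Height H78.BF
open H18.CharBasic H18.CharOrtho


/-- The Brauer–Feit bound. Let B be a p-block of the finite group G (relative to a maximal ideal M of the algebraic integers containing p) and let d be its defect. Then the number k(B) of irreducible characters in B satisfies k(B) ≤ p^(2d)/4 + 1, stated here as 4·k(B) ≤ p^(2d) + 4. -/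
theorem result {G : Type*} [Group G] [Finite G] (p : ℕ) [Fact p.Prime] (M : Ideal Cfsg.AlgInt) (hM : Cfsg.IsPModular p M) (B : Set (Cfsg.IrrCharacter G)) (hB : Cfsg.IsPBlock M B) : 4 * Nat.card B ≤ p ^ (2 * Cfsg.blockDefect p B) + 4 := by

  classical
  have hp := pm_prime hM
  have hMp := pm_isPrime hM
  letI := Fintype.ofFinite G
  letI := Fintype.ofFinite (IrrCharacter G)
  obtain ⟨χ, hχ, h0⟩ := exists_height_zero hM hB
  obtain ⟨n, hn, hn2, hpos, hsum⟩ := exists_matrix hM hB hχ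
  rw [h0, pow_zero, one_mul] at hsum
  have hne : ∀ ψ ∈ B, n ψ ≠ 0 := by
    intro ψ hψ hz
    obtain ⟨m, hm, hm2⟩ := exists_n hM hB hψ χ
    have h1 := hn ψ
    rw [h0, pow_zero, one_mul, inner_reg_symm (irr_char χ) (irr_char ψ), hm, hz, Int.cast_zero] at h1
    have hp0 : (p : ℂ) ≠ 0 := by exact_mod_cast hp.ne_zero
    have h2 : (m : ℂ) = 0 := by
      rcases mul_eq_zero.1 h1 with h | h
      · exact absurd h (pow_ne_zero _ hp0)
      · exact h
    have h3 : m = 0 := by exact_mod_cast h2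
    exact (hm2.2 ⟨hχ, h0⟩) (h3 ▸ dvd_zero _)
  -- lower bound for the sum of squares
  set S : Finset (IrrCharacter G) := Finset.univ.filter (· ∈ B) with hS
  have hχS : χ ∈ S := Finset.mem_filter.2 ⟨Finset.mem_univ _, hχ⟩
  have hcard : Nat.card B = S.card := by
    rw [Nat.card_eq_fintype_card, Fintype.card_ofFinset S (fun x => by simp [hS])]
  have h1 : n χ ^ 2 + ((S.card : ℤ) - 1) ≤ ∑ ψ, n ψ ^ 2 := by
    have h2 : ∑ ψ ∈ S, n ψ ^ 2 ≤ ∑ ψ, n ψ ^ 2 :=
      Finset.sum_le_sum_of_subset_of_nonneg (Finset.subset_univ _) (fun _ _ _ => sq_nonneg _)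
    have h3 : ∑ ψ ∈ S, n ψ ^ 2 = n χ ^ 2 + ∑ ψ ∈ S.erase χ, n ψ ^ 2 :=
      (Finset.add_sum_erase S _ hχS).symm
    have h4 : ((S.card : ℤ) - 1) ≤ ∑ ψ ∈ S.erase χ, n ψ ^ 2 := by
      have h5 : ∑ ψ ∈ S.erase χ, (1 : ℤ) ≤ ∑ ψ ∈ S.erase χ, n ψ ^ 2 := by
        refine Finset.sum_le_sum fun ψ hψ => ?_
        have h6 : ψ ∈ B := (Finset.mem_filter.1 (Finset.mem_of_mem_erase hψ)).2
        have h7 := hne ψ h6
        have h8 : 0 < n ψ ^ 2 := by positivity
        omega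
      rw [Finset.sum_const, Finset.card_erase_of_mem hχS, nsmul_eq_mul, mul_one] at h5
      have h6 : 0 < S.card := Finset.card_pos.2 ⟨χ, hχS⟩
      have h7 : ((S.card - 1 : ℕ) : ℤ) = (S.card : ℤ) - 1 := by omega
      rwa [h7] at h5
    linarith
  rw [hsum] at h1
  rw [hcard]
  have h2 : (4 : ℤ) * S.card ≤ (p : ℤ) ^ (2 * blockDefect p B) + 4 := by
    have h3 : (p : ℤ) ^ (2 * blockDefect p B) = ((p : ℤ) ^ blockDefect p B) ^ 2 := by
      rw [mul_comm, pow_mul]
    rw [h3]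
    nlinarith [sq_nonneg ((p : ℤ) ^ blockDefect p B - 2 * n χ)]
  exact_mod_cast h2


end Cfsg.Agent.S4494
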