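import Cfsg.Statements.S4495
import Cfsg.Agent.Lib.H78.SelfCent2

set_option autoImplicit false
open Cfsg

namespace Cfsg.Agent.S4495

/-- Let the finite group G contain an element x of prime order p with C_G(x) = ⟨x⟩, and let t be the number of conjugacy classes of elements of order p. If t ≠ p − 1 then the commutator subgroup has index at most (p − 1)/t; if t = p − 1 it has index exactly p. -/
theorem result {G : Type*} [Group G] [Finite G] (p : ℕ) (hp : p.Prime) (x : G) (hx : orderOf x = p) (hC : Subgroup.centralizer ({x} : Set G) = Subgroup.zpowers x) (t : ℕ) (ht : Nat.card {C : ConjClasses G // ∃ g ∈ C.carrier, orderOf g = p} = t) : (t ≠ p - 1 → (commutator G).index * t ≤ p - 1) ∧ (t = p - 1 → (commutator G).index = p) := by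
  subst ht
  have hte := H78.SelfCent2.classes_mul_relIndex hp hx hC
  set t := Nat.card {C : ConjClasses G // ∃ g ∈ C.carrier, orderOf g = p} with ht
  set N := Subgroup.normalizer ((Subgroup.zpowers x : Subgroup G) : Set G) with hN
  have hppos : 0 < p - 1 := Nat.sub_pos_of_lt hp.one_lt
  constructor
  · intro h
    have he : (Subgroup.zpowers x).relIndex N ≠ 1 := by
      intro h1
      rw [h1, mul_one] at hte
      exact h hte
    have hxG := H78.SelfCent2.mem_commutator hp hx hC he
    have hf := Fact.mk hp
    obtain ⟨P, hP⟩ := H78.SelfCent.exists_sylow hp hx hC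
    have hPle : (P : Subgroup G) ≤ commutator G := by
      rw [hP]; exact Subgroup.zpowers_le.2 hxG
    have hfr := P.normalizer_sup_eq_top' hPle
    have hfr' : N ⊔ commutator G = ⊤ := by
      rw [hN, ← hP]; exact hfr
    have h1 : (commutator G).index = (commutator G).relIndex N := by
      rw [← Subgroup.relIndex_top_right, ← hfr', sup_comm, Subgroup.relIndex_sup_left]
    have h2 : (commutator G).index ∣ (Subgroup.zpowers x).relIndex N := by
      rw [h1]
      exact Subgroup.relIndex_dvd_of_le_left _ (Subgroup.zpowers_le.2 hxG)
    have hpos : 0 < (Subgroup.zpowers x).relIndex N := by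
      rcases Nat.eq_zero_or_pos ((Subgroup.zpowers x).relIndex N) with h0 | h0
      · rw [h0, mul_zero] at hte; omega
      · exact h0
    have h3 := Nat.le_of_dvd hpos h2
    rw [← hte, mul_comm]
    exact Nat.mul_le_mul_left t h3
  · intro h
    have he : (Subgroup.zpowers x).relIndex N = 1 := by
      rw [h] at hte
      exact Nat.eq_of_mul_eq_mul_left hppos (by rw [hte, mul_one])
    exact (H78.SelfCent2.exists_complement hp hx hC he).1

end Cfsg.Agent.S4495
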