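import Cfsg.Statements.S4497
import Cfsg.Agent.Lib.H78.SelfCent2
import Cfsg.Agent.Lib.H1.Cores

set_option autoImplicit false
open Cfsg

namespace Cfsg.Agent.S4497

/-- Let the finite group G contain an element x of prime order p with C_G(x) = ⟨x⟩, let t be the number of conjugacy classes of elements of order p, and let S* = O_{p′}(G) be the largest normal subgroup of order prime to p. Then S* ≤ G′; if t ≠ p − 1 the quotient G′/S* is simple (in particular non-trivial); if t = p − 1 then G′ = S*. -/
theorem result {G : Type*} [Group G] [Finite G] (p : ℕ) (hp : p.Prime) (x : G) (hx : orderOf x = p) (hC : Subgroup.centralizer ({x} : Set G) = Subgroup.zpowers x) (t : ℕ) (ht : Nat.card {C : ConjClasses G // ∃ g ∈ C.carrier, orderOf g = p} = t) : Cfsg.pPrimeCore p G ≤ commutator G ∧ (t ≠ p - 1 → ∀ h : ((Cfsg.pPrimeCore p G).subgroupOf (commutator G)).Normal, IsSimpleGroup (↥(commutator G) ⧸ (Cfsg.pPrimeCore p G).subgroupOf (commutator G))) ∧ (t = p - 1 → commutator G = Cfsg.pPrimeCore p G) := by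
  subst ht
  have hte := H78.SelfCent2.classes_mul_relIndex hp hx hC
  set t := Nat.card {C : ConjClasses G // ∃ g ∈ C.carrier, orderOf g = p} with ht
  set N := Subgroup.normalizer ((Subgroup.zpowers x : Subgroup G) : Set G) with hN
  have hppos : 0 < p - 1 := Nat.sub_pos_of_lt hp.one_lt
  have hKn : (Cfsg.pPrimeCore p G).Normal := H1.Cores.pPrimeCore_normal p
  have hKp : ¬ p ∣ Nat.card (Cfsg.pPrimeCore p G) := by
    have := H1.Cores.coprime_card_pPrimeCore (G := G) p
    exact (Nat.Prime.coprime_iff_not_dvd hp).1 this.symm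
  have hKle := H78.SelfCent.le_commutator_top hp hx hC (Cfsg.pPrimeCore p G) hKp
  refine ⟨hKle, ?_, ?_⟩
  · intro h hnorm
    have he : (Subgroup.zpowers x).relIndex N ≠ 1 := by
      intro h1
      rw [h1, mul_one] at hte
      exact h hte
    have hxG := H78.SelfCent2.mem_commutator hp hx hC he
    have hxK : x ∉ Cfsg.pPrimeCore p G := fun hxK => by
      have h3 := Subgroup.orderOf_dvd_natCard _ hxK
      rw [hx] at h3
      exact hKp h3
    set K := Cfsg.pPrimeCore p G with hK
    set D := commutator G with hD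
    have hcard : ¬ p ^ 2 ∣ Nat.card D := fun h2 =>
      H78.SelfCent.not_sq_dvd hp hx hC (h2.trans (Subgroup.card_subgroup_dvd_card D))
    have hnt : Nontrivial (↥D ⧸ K.subgroupOf D) := by
      refine ⟨(QuotientGroup.mk (⟨x, hxG⟩ : D)), 1, ?_⟩
      rw [Ne, QuotientGroup.eq_one_iff, Subgroup.mem_subgroupOf]
      exact hxK
    refine ⟨fun L hL => ?_⟩
    set M := L.comap (QuotientGroup.mk' (K.subgroupOf D)) with hM
    have hMn : M.Normal := hL.comap _
    have hLM : L = M.map (QuotientGroup.mk' (K.subgroupOf D)) := by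
      rw [hM, Subgroup.map_comap_eq_self_of_surjective (QuotientGroup.mk'_surjective _)]
    by_cases hpM : p ∣ Nat.card M
    · right
      have hall : ∀ g : G, ∀ (hg : g * x * g⁻¹ ∈ D), (⟨g * x * g⁻¹, hg⟩ : D) ∈ M := by
        intro g hg
        apply H78.SelfCent.mem_of_dvd hp hcard M hpM
        rw [← Subgroup.orderOf_coe]
        rw [← hx]
        exact orderOf_injective (MulAut.conj g).toMonoidHom (MulAut.conj g).injective x
      have hncl : Subgroup.normalClosure {x} ≤ M.map D.subtype := by
        rw [Subgroup.normalClosure, Subgroup.closure_le]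
        intro y hy
        obtain ⟨a, ha, hay⟩ := Group.mem_conjugatesOfSet_iff.1 hy
        rw [Set.mem_singleton_iff] at ha
        subst ha
        obtain ⟨c, rfl⟩ := isConj_iff.1 hay
        have hcD : c * a * c⁻¹ ∈ D := (inferInstance : D.Normal).conj_mem _ hxG c
        exact ⟨⟨_, hcD⟩, hall c hcD, rfl⟩
      have hpn : p ∣ Nat.card (Subgroup.normalClosure ({x} : Set G)) := by
        rw [← hx]
        exact Subgroup.orderOf_dvd_natCard _ (Subgroup.subset_normalClosure rfl)
      have hDle := H78.SelfCent.commutator_le hp hx hC (Subgroup.normalClosure {x}) hpn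
      have hMtop : M = ⊤ := by
        rw [eq_top_iff]
        rintro ⟨d, hd⟩ _
        obtain ⟨m, hm, hmd⟩ := hncl (hDle hd)
        have : m = ⟨d, hd⟩ := Subtype.ext hmd
        rwa [← this]
      rw [hLM, hMtop]
      exact Subgroup.map_top_of_surjective _ (QuotientGroup.mk'_surjective _)
    · left
      -- `M ≤ O_{p'}(D) ≤ O_{p'}(G)`
      have hMle : M ≤ Cfsg.pPrimeCore p D :=
        H1.Cores.le_pPrimeCore hMn ((Nat.Prime.coprime_iff_not_dvd hp).2 hpM).symm
      have hsub : K.subgroupOf D = Cfsg.pPrimeCore p D := by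
        rw [hK]; exact H1.Cores.subgroupOf_pPrimeCore p D
      rw [hLM, eq_bot_iff]
      rintro _ ⟨m, hm, rfl⟩
      rw [Subgroup.mem_bot, QuotientGroup.mk'_apply, QuotientGroup.eq_one_iff, hsub]
      exact hMle hm
  · intro h
    have he : (Subgroup.zpowers x).relIndex N = 1 := by
      rw [h] at hte
      exact Nat.eq_of_mul_eq_mul_left hppos (by rw [hte, mul_one])
    have hh := (H78.SelfCent2.exists_complement hp hx hC he).2
    exact le_antisymm (H1.Cores.le_pPrimeCore inferInstance
      ((Nat.Prime.coprime_iff_not_dvd hp).2 hh).symm) hKle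

end Cfsg.Agent.S4497
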