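import Cfsg.Statements.S4498
import Cfsg.Agent.Lib.H78.BlkRed
import Cfsg.Agent.Lib.H78.PrincReal

set_option autoImplicit false
open Cfsg

namespace Cfsg.Agent.S4498


open H20.Loc H20.GA H20.Blk H20.DefGrp H20.Orth H20.Defect H78.BlkRed H78.PrincReal
open scoped ComplexConjugate

theorem inner_comb {G : Type*} [Group G] [Fintype G] [Fintype (IrrCharacter G)] (a b : IrrCharacter G → ℂ) :
    classInner (∑ χ : IrrCharacter G, a χ • (χ : G → ℂ)) (∑ χ : IrrCharacter G, b χ • (χ : G → ℂ)) =
      ∑ χ : IrrCharacter G, a χ * conj (b χ) := by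
  rw [H18.CharOrtho.inner_sum_left]
  refine Finset.sum_congr rfl fun χ _ => ?_
  rw [H18.CharOrtho.inner_smul_left, H18.CharOrtho.inner_sum_right, Finset.sum_eq_single χ]
  · rw [H18.CharOrtho.inner_smul_right, H18.CharOrtho.inner_irr_self χ.2, mul_one]
  · intro ψ _ hψ
    rw [H18.CharOrtho.inner_smul_right,
      H18.CharOrtho.inner_irr_ne χ.2 ψ.2 (fun h => hψ (Subtype.ext h.symm)), mul_zero]
  · intro h; exact absurd (Finset.mem_univ _) h


/-- Let p and q be distinct primes dividing the order of the finite group G, and suppose G has no element of order p·q. Fix maximal ideals M_p over p and M_q over q of the algebraic integers. Then the principal p-block and the principal q-block of G have a non-principal irreducible character in common. -/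
theorem result {G : Type*} [Group G] [Finite G] (p q : ℕ) [Fact p.Prime] [Fact q.Prime] (hpq : p ≠ q) (hp : p ∣ Nat.card G) (hq : q ∣ Nat.card G) (hno : ∀ g : G, orderOf g ≠ p * q) (Mp Mq : Ideal Cfsg.AlgInt) (hMp : Cfsg.IsPModular p Mp) (hMq : Cfsg.IsPModular q Mq) : ∃ χ : Cfsg.IrrCharacter G, (χ : G → ℂ) ≠ (fun _ => 1) ∧ χ ∈ Cfsg.principalBlock Mp G ∧ χ ∈ Cfsg.principalBlock Mq G := by

  classical
  have hpp : p.Prime := Fact.out
  have hqq : q.Prime := Fact.out
  have hMp' := pm_isPrime hMp
  have hMq' := pm_isPrime hMq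
  letI := Fintype.ofFinite G
  letI := Fintype.ofFinite (IrrCharacter G)
  obtain ⟨x, hx⟩ := exists_prime_orderOf_dvd_card' p hp
  obtain ⟨y, hy⟩ := exists_prime_orderOf_dvd_card' q hq
  set P := principalBlock Mp G with hPdef
  set Q := principalBlock Mq G with hQdef
  by_contra hcon
  set a : IrrCharacter G → ℂ := fun χ => if χ ∈ P then conj ((χ : G → ℂ) x) else 0 with ha
  set b : IrrCharacter G → ℂ := fun χ => if χ ∈ Q then conj ((χ : G → ℂ) y) else 0 with hb
  have hA : ∀ g : G, ¬ p ∣ orderOf g → (∑ χ : IrrCharacter G, a χ • (χ : G → ℂ)) g = 0 := by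
    intro g hg
    rw [Finset.sum_apply]
    rw [← weak_orth hMp (S := P) (isUnion_of_isPBlock isPBlock_principal) hg (y := x) (by rw [hx])]
    refine Finset.sum_congr rfl fun χ _ => ?_
    simp only [ha, Pi.smul_apply, smul_eq_mul]
    split_ifs
    · ring
    · ring
  have hB : ∀ g : G, ¬ q ∣ orderOf g → (∑ χ : IrrCharacter G, b χ • (χ : G → ℂ)) g = 0 := by
    intro g hg
    rw [Finset.sum_apply]
    rw [← weak_orth hMq (S := Q) (isUnion_of_isPBlock isPBlock_principal) hg (y := y) (by rw [hy])]
    refine Finset.sum_congr rfl fun χ _ => ?_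
    simp only [hb, Pi.smul_apply, smul_eq_mul]
    split_ifs
    · ring
    · ring
  have h1 := inner_comb a b
  have h0 : classInner (∑ χ : IrrCharacter G, a χ • (χ : G → ℂ))
      (∑ χ : IrrCharacter G, b χ • (χ : G → ℂ)) = 0 := by
    rw [classInner]
    rw [Finset.sum_eq_zero, mul_zero]
    intro g _
    by_cases hgp : p ∣ orderOf g
    · by_cases hgq : q ∣ orderOf g
      · exfalso
        have hcop : Nat.Coprime p q := (Nat.coprime_primes hpp hqq).2 hpq
        have hd : p * q ∣ orderOf g := hcop.mul_dvd_of_dvd_of_dvd hgp hgq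
        obtain ⟨k, hk⟩ := hd
        have hg0 : 0 < orderOf g := orderOf_pos g
        have hk0 : k ≠ 0 := by
          rintro rfl
          omega
        apply hno (g ^ k)
        rw [orderOf_pow_of_dvd hk0 ⟨p * q, by rw [hk]; ring⟩, hk]
        exact Nat.mul_div_cancel _ (Nat.pos_of_ne_zero hk0)
      · rw [hB g hgq, map_zero, mul_zero]
    · rw [hA g hgp, zero_mul]
  rw [h0] at h1
  rw [Finset.sum_eq_single (triv G)] at h1
  · simp only [ha, hb] at h1
    rw [if_pos triv_mem, if_pos triv_mem] at h1
    simp [triv] at h1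
  · intro χ _ hχ
    simp only [ha, hb]
    by_cases hχP : χ ∈ P
    · by_cases hχQ : χ ∈ Q
      · exfalso
        apply hcon
        refine ⟨χ, ?_, hχP, hχQ⟩
        intro h
        exact hχ (Subtype.ext h)
      · rw [if_neg hχQ, map_zero, mul_zero]
    · rw [if_neg hχP, zero_mul]
  · intro h; exact absurd (Finset.mem_univ _) h


end Cfsg.Agent.S4498
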