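import Cfsg.Statements.S4502
import Cfsg.Agent.Lib.H78.DOne6

set_option autoImplicit false
open Cfsg

namespace Cfsg.Agent.S4502

open H78.DOne in
theorem aux {G : Type*} [Group G] [Finite G] (p : ℕ) [hp : Fact p.Prime] (hsq : ¬ p ^ 2 ∣ Nat.card G)
    (D : H67.Lat.Dat p G) (Q : Subgroup G) (hQ : Q = Subgroup.zpowers D.σ) :
    Nat.card {χ : Cfsg.IrrCharacter G // ¬ p ∣ Cfsg.charDegree (χ : G → ℂ)} =
      Nat.card (ConjClasses (Subgroup.normalizer (Q : Set G))) := by
  classical
  subst hQ
  let _ : Fintype G := Fintype.ofFinite G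
  let _ : Fintype (Subgroup.normalizer (Subgroup.zpowers D.σ : Set G)) := Fintype.ofFinite _
  rw [card_eq D hsq, ← H18.CharOrtho.card_irr_eq_card_conjClasses]
  refine Nat.card_congr (Equiv.subtypeUnivEquiv fun χ => ?_)
  have hσN : Subgroup.zpowers D.σ ≤ Subgroup.normalizer (Subgroup.zpowers D.σ : Set G) :=
    Subgroup.le_normalizer
  have hn : ((Subgroup.zpowers D.σ).subgroupOf
      (Subgroup.normalizer (Subgroup.zpowers D.σ : Set G))).Normal := Subgroup.normal_in_normalizer
  have h1 := H4.CenterIndex.ito χ.2 (H82.Deg.coe_charDegree' χ).symm ((Subgroup.zpowers D.σ).subgroupOf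
      (Subgroup.normalizer (Subgroup.zpowers D.σ : Set G))) (by
    intro a ha b hb
    apply Subtype.ext
    obtain ⟨m, hm⟩ := Subgroup.mem_zpowers_iff.1 ha
    obtain ⟨l, hl⟩ := Subgroup.mem_zpowers_iff.1 hb
    have hm' : D.σ ^ m = (a : G) := hm
    have hl' : D.σ ^ l = (b : G) := hl
    show (a : G) * b = b * a
    rw [← hm', ← hl']
    exact ((Commute.refl D.σ).zpow_zpow m l))
  intro hd
  apply hsq
  have h2 := hd.trans h1
  have h3 := ((Subgroup.zpowers D.σ).subgroupOf
      (Subgroup.normalizer (Subgroup.zpowers D.σ : Set G))).card_mul_index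
  have h4 : Nat.card ((Subgroup.zpowers D.σ).subgroupOf
      (Subgroup.normalizer (Subgroup.zpowers D.σ : Set G))) = p := by
    rw [Nat.card_congr (Subgroup.subgroupOfEquivOfLe hσN).toEquiv, Nat.card_zpowers, D.hσ]
  rw [h4] at h3
  refine dvd_trans ?_ (Subgroup.card_subgroup_dvd_card (Subgroup.normalizer (Subgroup.zpowers D.σ : Set G)))
  rw [← h3, pow_two]
  exact Nat.mul_dvd_mul_left p h2



/-- Let G be a finite group whose order is divisible by the prime p exactly once, and let P be a Sylow p-subgroup. Then the number of irreducible characters of G of degree not divisible by p equals the number of conjugacy classes of the normalizer of P. -/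
theorem result {G : Type*} [Group G] [Finite G] (p : ℕ) [Fact p.Prime] (hdiv : p ∣ Nat.card G) (hsq : ¬ p ^ 2 ∣ Nat.card G) (P : Sylow p G) : Nat.card {χ : Cfsg.IrrCharacter G // ¬ p ∣ Cfsg.charDegree (χ : G → ℂ)} = Nat.card (ConjClasses (Subgroup.normalizer ((P : Subgroup G) : Set G))) := by
  classical
  have hp : p.Prime := Fact.out
  have hfac : (Nat.card G).factorization p = 1 := by
    have h2 := (hp.dvd_iff_one_le_factorization Nat.card_pos.ne').1 hdiv
    by_contra hne
    apply hsq
    exact (hp.pow_dvd_iff_le_factorization Nat.card_pos.ne').2 (by omega)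
  have hP : Nat.card P = p := by
    rw [P.card_eq_multiplicity, hfac, pow_one]
  obtain ⟨σ₀, hσ₀P, hσ₀⟩ : ∃ σ ∈ (P : Subgroup G), orderOf σ = p := by
    obtain ⟨g, hg⟩ := exists_prime_orderOf_dvd_card' (G := (P : Subgroup G)) p hP.symm.dvd
    exact ⟨g, g.2, by rw [Subgroup.orderOf_coe]; exact hg⟩
  have hzp : (P : Subgroup G) = Subgroup.zpowers σ₀ := by
    symm
    apply Subgroup.eq_of_le_of_card_ge
    · rw [Subgroup.zpowers_le]; exact hσ₀P
    · rw [Nat.card_zpowers, hσ₀]
      exact hP.le
  obtain ⟨D, hD⟩ := H67.Lat.exists_dat hp hsq hσ₀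
  exact aux p hsq D _ (by rw [hzp, hD])


end Cfsg.Agent.S4502
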