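import Cfsg.Statements.S4505
import Cfsg.Agent.Lib.H78.BlkRed

set_option autoImplicit false
open Cfsg

namespace Cfsg.Agent.S4505


open H20.Loc H20.GA H20.Blk H20.DefGrp H20.Orth H20.Defect H78.BlkRed


/-- Let G be a finite group, p a prime and M a maximal ideal of the algebraic integers containing p. For every σ, the number of p-blocks of defect exactly σ is at most the number of conjugacy classes of p-regular elements whose centralizer has order divisible by p^σ but not by p^(σ+1). -/
theorem result {G : Type*} [Group G] [Finite G] (p : ℕ) [Fact p.Prime] (M : Ideal Cfsg.AlgInt) (hM : Cfsg.IsPModular p M) (σ : ℕ) : Nat.card {B : Set (Cfsg.IrrCharacter G) // Cfsg.IsPBlock M B ∧ Cfsg.blockDefect p B = σ} ≤ Nat.card {C : ConjClasses G // ∃ g : G, ConjClasses.mk g = C ∧ ¬ p ∣ orderOf g ∧ (Nat.card (Subgroup.centralizer ({g} : Set G))).factorization p = σ} := by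

  have hprime := pm_isPrime hM
  have hmax : M.IsMaximal := hM.2.1
  classical
  letI := Fintype.ofFinite (ConjClasses G)
  letI := Fintype.ofFinite (IrrCharacter G)
  set K := {B : Set (IrrCharacter G) // IsPBlock M B ∧ blockDefect p B = σ} with hK
  set m := {C : ConjClasses G // ∃ g : G, ConjClasses.mk g = C ∧ ¬ p ∣ orderOf g ∧
    (Nat.card (Subgroup.centralizer ({g} : Set G))).factorization p = σ} with hm
  letI : Fintype K := Fintype.ofFinite K
  letI : Fintype m := Fintype.ofFinite m
  have hχ : ∀ B : K, ∃ χ : IrrCharacter G, χ ∈ B.1 := fun B => isPBlock_nonempty B.2.1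
  choose X hX using hχ
  let W : Matrix K m (ResF M) := fun B C => redFun M (centralChar (X B : G → ℂ) C.1.out)
  let A : Matrix m K (ResF M) := fun C B => redFun M (blockCoeff B.1 C.1.out)
  have hWA : W * A = 1 := by
    ext B B'
    rw [Matrix.mul_apply, Matrix.one_apply]
    have h1 := omega_eB_cls B'.1 (X B)
    rw [omega_eB] at h1
    have hR : ∀ g, MemLocalRing M (centralChar (X B : G → ℂ) g) := by
      intro g
      rw [← omega_cls]
      exact omega_mem _ (cls_mem g)
    have hR' : ∀ g, MemLocalRing M (blockCoeff B'.1 g) := blockCoeff_memR B'.2.1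
    have h2 := congrArg (redFun M) h1
    rw [redFun_sum (s := Finset.univ) (f := fun C : ConjClasses G => blockCoeff B'.1 C.out *
      centralChar (X B : G → ℂ) C.out) (fun C _ => locR_mul (hR' _) (hR _))] at h2
    have h3 : (X B ∈ B'.1) ↔ B = B' := by
      constructor
      · intro h
        exact Subtype.ext (isPBlock_eq_of_mem B.2.1 B'.2.1 (hX B) h)
      · rintro rfl
        exact hX B
    have h4 : redFun M (if X B ∈ B'.1 then (1:ℂ) else 0) = if B = B' then 1 else 0 := by
      by_cases hBB : B = B'
      · rw [if_pos (h3.2 hBB), if_pos hBB, redFun_one]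
      · rw [if_neg (fun h => hBB (h3.1 h)), if_neg hBB, redFun_zero]
    rw [← h4, h2]
    have h5 : ∀ C : ConjClasses G, C ∉ {C : ConjClasses G | ∃ g : G, ConjClasses.mk g = C ∧
        ¬ p ∣ orderOf g ∧ (Nat.card (Subgroup.centralizer ({g} : Set G))).factorization p = σ} →
        redFun M (blockCoeff B'.1 C.out * centralChar (X B : G → ℂ) C.out) = 0 := by
      intro C hC
      rw [redFun_eq_zero_iff (locR_mul (hR' _) (hR _))]
      by_contra h6
      apply hC
      have h7 := defect_eq_of_unit hM B'.2.1 B.2.1 B'.2.2 B.2.2 (hX B) h6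
      exact ⟨C.out, Quotient.out_eq C, h7⟩
    symm
    rw [← Finset.sum_subset (Finset.subset_univ (Finset.univ.filter (fun C : ConjClasses G =>
      C ∈ {C : ConjClasses G | ∃ g : G, ConjClasses.mk g = C ∧
        ¬ p ∣ orderOf g ∧ (Nat.card (Subgroup.centralizer ({g} : Set G))).factorization p = σ})))]
    · rw [Finset.sum_subtype (p := fun C : ConjClasses G => ∃ g : G, ConjClasses.mk g = C ∧
        ¬ p ∣ orderOf g ∧ (Nat.card (Subgroup.centralizer ({g} : Set G))).factorization p = σ)]
      · refine Finset.sum_congr rfl fun C _ => ?_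
        rw [redFun_mul (hR' _) (hR _), mul_comm]
      · intro C
        simp
    · intro C _ hC
      apply h5
      intro h8
      exact hC (Finset.mem_filter.2 ⟨Finset.mem_univ _, h8⟩)
  have h1 : (W * A).rank = Fintype.card K := by rw [hWA, Matrix.rank_one]
  have h2 := Matrix.rank_mul_le_left W A
  have h3 := Matrix.rank_le_card_width W
  rw [Nat.card_eq_fintype_card, Nat.card_eq_fintype_card]
  omega


end Cfsg.Agent.S4505
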