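import Cfsg.Statements.S4507
import Cfsg.Agent.Lib.H78.DOne4

set_option autoImplicit false
open Cfsg

namespace Cfsg.Agent.S4507

/-- Let G be a finite group whose order g is divisible by the prime p exactly once, g′ = g/p, and fix a maximal ideal M of the algebraic integers containing p. Call two irreducible characters p-conjugate when a field automorphism of ℂ fixing the g′-th roots of unity carries one to the other. Let B be a p-block of positive defect (its defect group is a Sylow p-subgroup). Then B contains a subset Y (the exceptional family) such that: Y is a full p-conjugacy class (its members are pairwise p-conjugate and every p-conjugate of a member of Y lies in Y); every member of B outside Y is p-conjugate only to itself; the size t of Y divides p − 1 and B has exactly t + (p − 1)/t members; and there are signs δ_χ = ±1 (χ ∈ B) such that for every p-regular element x and every θ ∈ Y, Σ_{χ ∈ B ∖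 Y} δ_χ χ(x) + δ_θ θ(x) = 0. -/
theorem result {G : Type*} [Group G] [Finite G] (p : ℕ) [Fact p.Prime] (M : Ideal Cfsg.AlgInt) (hM : Cfsg.IsPModular p M) (hdiv : p ∣ Nat.card G) (hsq : ¬ p ^ 2 ∣ Nat.card G) (B : Set (Cfsg.IrrCharacter G)) (hB : Cfsg.IsPBlock M B) (hd : 0 < Cfsg.blockDefect p B) : ∃ Y : Set (Cfsg.IrrCharacter G), Y ⊆ B ∧ Y.Nonempty ∧ (∀ θ ∈ Y, ∀ ψ : Cfsg.IrrCharacter G, (∃ σ : ℂ ≃+* ℂ, σ (Complex.exp (2 * Real.pi * Complex.I / ((Nat.card G / p ^ (Nat.card G).factorization p) : ℕ))) = Complex.exp (2 * Real.pi * Complex.I / ((Nat.card G / p ^ (Nat.card G).factorization p) : ℕ)) ∧ (ψ : G → ℂ) = fun g => σ ((θ : G → ℂ) g)) ↔ ψ ∈ Y) ∧ (∀ χ ∈ B, χ ∉ Y → ∀ ψ : Cfsg.IrrCharacter G, (∃ σ : ℂ ≃+* ℂ, σ (Complex.exp (2 * Real.pi * Complex.I / ((Nat.card G / p ^ (Nat.card G).factorization p) : ℕ))) = Complex.exp (2 * Real.pi * Complex.I / ((Nat.card G / p ^ (Nat.card G).factorization p) : ℕ)) ∧ (ψ : G → ℂ)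 = fun g => σ ((χ : G → ℂ) g)) → ψ = χ) ∧ Nat.card Y ∣ p - 1 ∧ Nat.card B = Nat.card Y + (p - 1) / Nat.card Y ∧ ∃ δ : Cfsg.IrrCharacter G → ℤ, (∀ χ ∈ B, δ χ = 1 ∨ δ χ = -1) ∧ ∀ x : G, ¬ p ∣ orderOf x → ∀ θ ∈ Y, (∑ᶠ χ ∈ B \ Y, (δ χ : ℂ) * (χ : G → ℂ) x) + (δ θ : ℂ) * (θ : G → ℂ) x = 0 := by
  classical
  have hp : p.Prime := Fact.out
  let _ : Fintype G := Fintype.ofFinite G
  obtain ⟨σ₀, hσ₀⟩ := exists_prime_orderOf_dvd_card' (G := G) p hdiv
  obtain ⟨D, hD⟩ := H67.Lat.exists_dat hp hsq hσ₀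
  let _ : Fintype D.W := Fintype.ofFinite D.W
  obtain ⟨θ, hθ⟩ := H78.DOne.exists_theta (D := D) hM hsq hB hd
  obtain ⟨Y, hYB, hYne, hY1, hY2, hY3, hY4, hY5, -, hδ⟩ := H78.DOne.main hM hsq hθ
  have hfac : (Nat.card G).factorization p = 1 := by
    have h2 := (hp.dvd_iff_one_le_factorization Nat.card_pos.ne').1 hdiv
    by_contra hne
    apply hsq
    exact (hp.pow_dvd_iff_le_factorization Nat.card_pos.ne').2 (by omega)
  rw [hfac, pow_one]
  have hm0 : Nat.card G / p ≠ 0 := by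
    have h1 : p * (Nat.card G / p) = Nat.card G := Nat.mul_div_cancel' hdiv
    intro h0
    rw [h0, mul_zero] at h1
    exact Nat.card_pos.ne h1
  have : NeZero (Nat.card G / p) := ⟨hm0⟩
  have hfix : ∀ τ : ℂ ≃+* ℂ, τ (Complex.exp (2 * Real.pi * Complex.I / ((Nat.card G / p : ℕ) : ℂ))) =
      Complex.exp (2 * Real.pi * Complex.I / ((Nat.card G / p : ℕ) : ℂ)) →
      ∀ z : ℂ, z ^ (Nat.card G / p) = 1 → τ z = z := by
    intro τ hτ z hz
    obtain ⟨j, -, rfl⟩ := (Complex.isPrimitiveRoot_exp (Nat.card G / p) hm0).eq_pow_of_pow_eq_one hz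
    rw [map_pow]
    congr 1
  have hfix' : ∀ τ : ℂ ≃+* ℂ, (∀ z : ℂ, z ^ (Nat.card G / p) = 1 → τ z = z) →
      τ (Complex.exp (2 * Real.pi * Complex.I / ((Nat.card G / p : ℕ) : ℂ))) =
      Complex.exp (2 * Real.pi * Complex.I / ((Nat.card G / p : ℕ) : ℂ)) := fun τ hτ =>
    hτ _ (Complex.isPrimitiveRoot_exp (Nat.card G / p) hm0).pow_eq_one
  refine ⟨Y, hYB, hYne, ?_, ?_, hY4, hY5, hδ⟩
  · intro χ hχ ψ
    constructor
    · rintro ⟨τ, hτ, hψ⟩
      exact hY1 τ (hfix τ hτ) χ hχ ψ hψ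
    · intro hψ
      obtain ⟨τ, hτ, hψ'⟩ := hY2 χ hχ ψ hψ
      exact ⟨τ, hfix' τ hτ, hψ'⟩
  · rintro χ hχ hχY ψ ⟨τ, hτ, hψ⟩
    apply Subtype.ext
    rw [hψ]
    funext g
    exact hY3 τ (hfix τ hτ) χ hχ hχY g


end Cfsg.Agent.S4507
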