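import Cfsg.Statements.S4509
import Cfsg.Agent.Lib.H78.SelfCent2

set_option autoImplicit false
open Cfsg

namespace Cfsg.Agent.S4509

section aux

variable {G : Type*} [Group G] [Finite G] {p : ℕ} {x : G}

theorem caseA (hp : p.Prime) (hx : orderOf x = p)
    (hC : Subgroup.centralizer ({x} : Set G) = Subgroup.zpowers x)
    (he : (Subgroup.zpowers x).relIndex
        (Subgroup.normalizer ((Subgroup.zpowers x : Subgroup G) : Set G)) = 1) :
    Nat.card (commutator G) =
      (Subgroup.normalizer ((Subgroup.zpowers x : Subgroup G) : Set G)).index := by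
  have h1 := (H78.SelfCent2.exists_complement hp hx hC he).1
  have h2 := Subgroup.relIndex_mul_index (Subgroup.le_normalizer (H := Subgroup.zpowers x))
  rw [he, one_mul] at h2
  have h3 := Subgroup.card_mul_index (Subgroup.zpowers x)
  rw [Nat.card_zpowers, hx] at h3
  have h4 := Subgroup.card_mul_index (commutator G)
  rw [h1] at h4
  rw [h2]
  have h5 : p * Nat.card (commutator G) = p * (Subgroup.zpowers x).index := by
    rw [h3, ← h4, mul_comm]
  exact Nat.eq_of_mul_eq_mul_left hp.pos h5

theorem caseB (hp : p.Prime) (hx : orderOf x = p)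
    (hC : Subgroup.centralizer ({x} : Set G) = Subgroup.zpowers x)
    (he : (Subgroup.zpowers x).relIndex
        (Subgroup.normalizer ((Subgroup.zpowers x : Subgroup G) : Set G)) ≠ 1)
    (hne : ⁅commutator G, commutator G⁆ ≠ commutator G) :
    Nat.card (⁅commutator G, commutator G⁆ : Subgroup G) =
      (Subgroup.normalizer ((Subgroup.zpowers x : Subgroup G) : Set G)).index ∧
    Nat.card (commutator G) = p *
      (Subgroup.normalizer ((Subgroup.zpowers x : Subgroup G) : Set G)).index := by
  set D := commutator G with hD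
  set S : Subgroup G := ⁅D, D⁆ with hS
  set N := Subgroup.normalizer ((Subgroup.zpowers x : Subgroup G) : Set G) with hN
  have hSn : S.Normal := inferInstance
  have hSD : S ≤ D := Subgroup.commutator_le_left _ _
  have hpS : ¬ p ∣ Nat.card S := by
    intro h
    exact hne (le_antisymm hSD (H78.SelfCent.commutator_le hp hx hC S h))
  have hxD : x ∈ D := H78.SelfCent2.mem_commutator hp hx hC he
  have hf := Fact.mk hp
  obtain ⟨P, hP⟩ := H78.SelfCent.exists_sylow hp hx hC
  have hPle : (P : Subgroup G) ≤ D := by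
    rw [hP]; exact Subgroup.zpowers_le.2 hxD
  have hfr' : N ⊔ D = ⊤ := by
    rw [hN, ← hP]; exact P.normalizer_sup_eq_top' hPle
  have hDsup : D = S ⊔ Subgroup.zpowers x := by
    apply le_antisymm
    · intro d hd
      have h1 : d * x * d⁻¹ * x⁻¹ ∈ S := by
        rw [← commutatorElement_def]
        exact Subgroup.commutator_mem_commutator hd hxD
      obtain ⟨u, hu, hux⟩ := H78.SelfCent.exists_commutator hp hx hC S hpS h1
      have h2 : u * x * u⁻¹ = d * x * d⁻¹ := by
        have := congrArg (fun y => y * x) hux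
        simpa using this
      have h3 : u⁻¹ * d ∈ Subgroup.zpowers x := by
        rw [← hC, Subgroup.mem_centralizer_singleton_iff]
        calc u⁻¹ * d * x = u⁻¹ * (d * x * d⁻¹) * d := by group
          _ = u⁻¹ * (u * x * u⁻¹) * d := by rw [h2]
          _ = x * (u⁻¹ * d) := by group
      have h4 : d = u * (u⁻¹ * d) := by group
      rw [h4]
      exact Subgroup.mul_mem_sup hu h3
    · exact sup_le hSD (Subgroup.zpowers_le.2 hxD)
  have hSN : S ⊔ N = ⊤ := by
    rw [eq_top_iff, ← hfr', hDsup]
    refine sup_le le_sup_right (sup_le le_sup_left ?_)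
    exact le_sup_of_le_right (Subgroup.le_normalizer)
  have hcard : N.index = Nat.card S := by
    rw [← H78.SelfCent.card_mul_card_normalizer hp hx hC S hpS, ← hN, hSN,
      Subgroup.relIndex_top_right]
  refine ⟨hcard.symm, ?_⟩
  rw [hcard]
  have h1 : S ⊓ Subgroup.zpowers x = ⊥ := by
    rw [eq_bot_iff, ← H78.SelfCent.inf_normalizer hp hx hC S hpS]
    exact inf_le_inf_left _ Subgroup.le_normalizer
  have h2 : S.relIndex D = p := by
    rw [hDsup, Subgroup.relIndex_sup_left, ← Subgroup.inf_relIndex_right, h1,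
      Subgroup.relIndex_bot_left, Nat.card_zpowers, hx]
  have h3 : (⊥ : Subgroup G).relIndex S * S.relIndex D = (⊥ : Subgroup G).relIndex D :=
    Subgroup.relIndex_mul_relIndex _ _ _ bot_le hSD
  rw [Subgroup.relIndex_bot_left, Subgroup.relIndex_bot_left, h2] at h3
  rw [← h3, mul_comm]

theorem caseC (hp : p.Prime) (hx : orderOf x = p)
    (hC : Subgroup.centralizer ({x} : Set G) = Subgroup.zpowers x)
    (he : (Subgroup.zpowers x).relIndex
        (Subgroup.normalizer ((Subgroup.zpowers x : Subgroup G) : Set G)) ≠ 1)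
    (S : Subgroup G) [hSn : S.Normal] (hpS : ¬ p ∣ Nat.card S)
    (hSc : Nat.card S =
      (Subgroup.normalizer ((Subgroup.zpowers x : Subgroup G) : Set G)).index) :
    ⁅commutator G, commutator G⁆ ≠ commutator G := by
  set D := commutator G with hD
  set N := Subgroup.normalizer ((Subgroup.zpowers x : Subgroup G) : Set G) with hN
  have hxD : x ∈ D := H78.SelfCent2.mem_commutator hp hx hC he
  have hSN : S ⊔ N = ⊤ := by
    rw [← Subgroup.index_eq_one]
    have h1 := H78.SelfCent.card_mul_card_normalizer hp hx hC S hpS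
    have h2 := Subgroup.relIndex_mul_index (H := N) (K := S ⊔ N) le_sup_right
    rw [← hN] at h1
    rw [h1, ← hSc] at h2
    have : 0 < Nat.card S := Nat.card_pos
    exact Nat.eq_of_mul_eq_mul_left this (by rw [h2, mul_one])
  have hnormal : (S ⊔ Subgroup.zpowers x).Normal := by
    rw [← Subgroup.normalizer_eq_top_iff, eq_top_iff, ← hSN]
    refine sup_le (le_sup_left.trans Subgroup.le_normalizer) ?_
    intro n hn
    rw [Subgroup.mem_normalizer_iff_map_conj_eq, Subgroup.map_sup,
      Subgroup.mem_normalizer_iff_map_conj_eq.1 hn,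
      Subgroup.mem_normalizer_iff_map_conj_eq.1
        (show n ∈ Subgroup.normalizer (S : Set G) by
          rw [Subgroup.normalizer_eq_top_iff.2 hSn]; trivial)]
  have hpd : p ∣ Nat.card (S ⊔ Subgroup.zpowers x : Subgroup G) := by
    rw [← hx]
    exact Subgroup.orderOf_dvd_natCard _
      ((le_sup_right : Subgroup.zpowers x ≤ S ⊔ Subgroup.zpowers x) (Subgroup.mem_zpowers x))
  have hDle := H78.SelfCent.commutator_le hp hx hC (S ⊔ Subgroup.zpowers x) hpd
  have hmk : ∀ d ∈ D, (QuotientGroup.mk d : G ⧸ S) ∈ Subgroup.zpowers (QuotientGroup.mk x : G ⧸ S) := by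
    intro d hd
    have h1 := hDle hd
    rw [Subgroup.mem_sup_of_normal_left] at h1
    obtain ⟨s, hs, y, hy, rfl⟩ := h1
    obtain ⟨k, rfl⟩ := Subgroup.mem_zpowers_iff.1 hy
    rw [QuotientGroup.mk_mul, (QuotientGroup.eq_one_iff s).2 hs, one_mul, QuotientGroup.mk_zpow]
    exact Subgroup.zpow_mem _ (Subgroup.mem_zpowers _) k
  intro heq
  have hle : ⁅D, D⁆ ≤ S := by
    rw [Subgroup.commutator_le]
    intro g hg h hh
    obtain ⟨k, hk⟩ := Subgroup.mem_zpowers_iff.1 (hmk g hg)
    obtain ⟨l, hl⟩ := Subgroup.mem_zpowers_iff.1 (hmk h hh)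
    rw [← QuotientGroup.eq_one_iff, commutatorElement_def]
    simp only [QuotientGroup.mk_mul, QuotientGroup.mk_inv]
    rw [← hk, ← hl]
    group
  have hxS : x ∈ S := hle (by rw [heq]; exact hxD)
  have h3 := Subgroup.orderOf_dvd_natCard _ hxS
  rw [hx] at h3
  exact hpS h3

end aux


/-- Let the finite group G contain an element x of prime order p with C_G(x) = ⟨x⟩; let t be the number of conjugacy classes of elements of order p and 1 + n·p the number of subgroups of order p. Then G has a normal subgroup of order 1 + n·p if and only if either t = p − 1, or t < p − 1 and G″ ≠ G′. Moreover, if t = p − 1 then G′ has order 1 + n·p and G/G′ is cyclic of order p; and if t < p − 1 and G″ ≠ G′ then G″ has order 1 + n·p and G′ has order p·(1 + n·p). -/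
theorem result {G : Type*} [Group G] [Finite G] (p : ℕ) (hp : p.Prime) (x : G) (hx : orderOf x = p) (hC : Subgroup.centralizer ({x} : Set G) = Subgroup.zpowers x) (t : ℕ) (ht : Nat.card {C : ConjClasses G // ∃ g ∈ C.carrier, orderOf g = p} = t) (n : ℕ) (hn : Nat.card {H : Subgroup G // Nat.card H = p} = 1 + n * p) : ((∃ S : Subgroup G, S.Normal ∧ Nat.card S = 1 + n * p) ↔ (t = p - 1 ∨ (t < p - 1 ∧ derivedSeries G 2 ≠ derivedSeries G 1))) ∧ (t = p - 1 → Nat.card (commutator G) = 1 + n * p ∧ IsCyclic (G ⧸ commutator G) ∧ (commutator G).index = p) ∧ (t < p - 1 → derivedSeries G 2 ≠ derivedSeries G 1 → Nat.card (derivedSeries G 2) = 1 + n * p ∧ Nat.card (commutator G) = p * (1 + n * p)) := by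
  subst ht
  have hte := H78.SelfCent2.classes_mul_relIndex hp hx hC
  set t := Nat.card {C : ConjClasses G // ∃ g ∈ C.carrier, orderOf g = p} with ht
  set N := Subgroup.normalizer ((Subgroup.zpowers x : Subgroup G) : Set G) with hN
  have hppos : 0 < p - 1 := Nat.sub_pos_of_lt hp.one_lt
  have hNi : N.index = 1 + n * p := by
    rw [← hn, H78.SelfCent.card_eq_index hp hx hC]
  have hds2 : derivedSeries G 2 = ⁅commutator G, commutator G⁆ := by
    rw [derivedSeries_succ, derivedSeries_one]
  have hds1 : derivedSeries G 1 = commutator G := derivedSeries_one G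
  have hA : t = p - 1 → (Subgroup.zpowers x).relIndex N = 1 := by
    intro h
    rw [h] at hte
    exact Nat.eq_of_mul_eq_mul_left hppos (by rw [hte, mul_one])
  have hB : t < p - 1 → (Subgroup.zpowers x).relIndex N ≠ 1 := by
    intro h h1
    rw [h1, mul_one] at hte
    omega
  have htle : t ≤ p - 1 := by
    rw [← hte]
    apply Nat.le_mul_of_pos_right
    rcases Nat.eq_zero_or_pos ((Subgroup.zpowers x).relIndex N) with h0 | h0
    · rw [h0, mul_zero] at hte; omega
    · exact h0
  have hpart2 : t = p - 1 → Nat.card (commutator G) = 1 + n * p ∧ IsCyclic (G ⧸ commutator G) ∧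
      (commutator G).index = p := by
    intro h
    have he := hA h
    refine ⟨by rw [caseA hp hx hC he, hNi], ?_, (H78.SelfCent2.exists_complement hp hx hC he).1⟩
    have hprime : (Nat.card (G ⧸ commutator G)).Prime := by
      rw [← Subgroup.index_eq_card, (H78.SelfCent2.exists_complement hp hx hC he).1]; exact hp
    have := Fact.mk hprime
    exact isCyclic_of_prime_card rfl
  have hpart3 : t < p - 1 → derivedSeries G 2 ≠ derivedSeries G 1 →
      Nat.card (derivedSeries G 2) = 1 + n * p ∧ Nat.card (commutator G) = p * (1 + n * p) := by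
    intro h h2
    rw [hds1, hds2] at h2
    rw [hds2, ← hNi]
    exact caseB hp hx hC (hB h) h2
  refine ⟨⟨?_, ?_⟩, hpart2, hpart3⟩
  · rintro ⟨S, hSn, hSc⟩
    rcases htle.lt_or_eq with h | h
    · right
      refine ⟨h, ?_⟩
      rw [hds1, hds2]
      have hpS : ¬ p ∣ Nat.card S := by
        rw [hSc]
        intro hd
        have : p ∣ 1 := (Nat.dvd_add_left (Dvd.intro_left n rfl)).1 hd
        exact hp.one_lt.ne' (Nat.dvd_one.1 this)
      exact caseC hp hx hC (hB h) S hpS (by rw [hSc]; exact hNi.symm)
    · exact Or.inl h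
  · rintro (h | ⟨h, h2⟩)
    · exact ⟨commutator G, inferInstance, (hpart2 h).1⟩
    · exact ⟨derivedSeries G 2, inferInstance, (hpart3 h h2).1⟩

end Cfsg.Agent.S4509
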