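import Cfsg.Statements.S4510
import Cfsg.Agent.Lib.H78.BlkRed

set_option autoImplicit false
open Cfsg

namespace Cfsg.Agent.S4510


open H20.Loc H20.GA H20.Blk H20.DefGrp H20.Orth H20.Defect H78.BlkRed


/-- Let G be a finite group, p a prime, M a maximal ideal of the algebraic integers containing p, and call the defect of a conjugacy class the exponent of p in the order of the centralizer of its elements. Two irreducible characters lying in p-blocks of defect exactly d lie in the same block if and only if their central characters (class size times χ(x)/χ(1)) agree modulo the local ideal at M at every p-regular element x whose class has defect exactly d. -/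
theorem result {G : Type*} [Group G] [Finite G] (p : ℕ) [Fact p.Prime] (M : Ideal Cfsg.AlgInt) (hM : Cfsg.IsPModular p M) (d : ℕ) (χ ψ : Cfsg.IrrCharacter G) (hχ : Cfsg.blockDefect p (Cfsg.blockOf M (χ : G → ℂ)) = d) (hψ : Cfsg.blockDefect p (Cfsg.blockOf M (ψ : G → ℂ)) = d) : Cfsg.SameBlock M (χ : G → ℂ) (ψ : G → ℂ) ↔ ∀ x : G, ¬ p ∣ orderOf x → (Nat.card (Subgroup.centralizer ({x} : Set G))).factorization p = d → Cfsg.MemLocalIdeal M (Cfsg.centralChar (χ : G → ℂ) x - Cfsg.centralChar (ψ : G → ℂ) x) := by

  have hprime := pm_isPrime hM
  classical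
  constructor
  · intro h x _ _
    exact h x
  · intro h
    letI := Fintype.ofFinite (ConjClasses G)
    set B := blockOf M (χ : G → ℂ) with hB
    have hBb : IsPBlock M B := isPBlock_blockOf χ
    have hBb' : IsPBlock M (blockOf M (ψ : G → ℂ)) := isPBlock_blockOf ψ
    by_contra hne
    have hψ' : ψ ∉ B := hne
    have h1 := omega_eB_mem (show χ ∈ B from mem_blockOf_self χ)
    have h2 := omega_eB_notMem hψ'
    rw [omega_eB_cls] at h1 h2
    have h3 : MemLocalIdeal M ((∑ C : ConjClasses G, blockCoeff B C.out *
        centralChar (χ : G → ℂ) C.out) - ∑ C : ConjClasses G, blockCoeff B C.out *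
        centralChar (ψ : G → ℂ) C.out) := by
      rw [← Finset.sum_sub_distrib]
      refine locI_sum fun C _ => ?_
      by_cases hg : ¬ p ∣ orderOf C.out ∧
          (Nat.card (Subgroup.centralizer ({C.out} : Set G))).factorization p = d
      · rw [← mul_sub]
        exact locI_mul_left (blockCoeff_memR hBb _) (h _ hg.1 hg.2)
      · apply locI_sub
        · by_contra h4
          exact hg (defect_eq_of_unit hM hBb hBb hχ hχ (mem_blockOf_self χ) h4)
        · by_contra h4
          exact hg (defect_eq_of_unit hM hBb hBb' hχ hψ (mem_blockOf_self ψ) h4)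
    rw [h1, h2, sub_zero] at h3
    exact not_locI_one h3


end Cfsg.Agent.S4510
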