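import Cfsg.Statements.S4633
import Cfsg.Agent.Lib.H80.BR11

set_option autoImplicit false
open Cfsg

namespace Cfsg.Agent.S4633

/-- Let B be a block of the finite group G relative to a maximal ideal M of the algebraic integers containing the prime p, with a nontrivial cyclic defect group P. Let c be a block of C_G(P) inducing B and T the stabilizer of c in N_G(P) (the elements of N_G(P) conjugating c to itself); T contains C_G(P). Then T/C_G(P) is cyclic of order dividing p − 1, and it acts freely on the non-identity elements of P: an element of T fixing some non-identity element of P under conjugation lies in C_G(P). -/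
theorem result {G : Type*} [Group G] [Finite G] (p : ℕ) [Fact p.Prime] (M : Ideal Cfsg.AlgInt) (hM : Cfsg.IsPModular p M) (B : Set (Cfsg.IrrCharacter G)) (hB : Cfsg.IsPBlock M B) (P : Subgroup G) (hPD : Cfsg.IsDefectGroup p M B P) (hP1 : P ≠ ⊥) (hcyc : IsCyclic P) (c : Set (Cfsg.IrrCharacter (Subgroup.centralizer (P : Set G)))) (hc : Cfsg.IsInducedBlock M (Subgroup.centralizer (P : Set G)) c B) (T : Subgroup G) (hT : ∀ g : G, g ∈ T ↔ (g ∈ Subgroup.normalizer (P : Set G) ∧ Cfsg.StabilizesBlock (Subgroup.centralizer (P : Set G)) c g)) [hn : ((Subgroup.centralizer (P : Set G)).subgroupOf T).Normal] : IsCyclic (T ⧸ (Subgroup.centralizer (P : Set G)).subgroupOf T) ∧ (Subgroup.centralizer (P : Set G)).relIndex T ∣ p - 1 ∧ ∀ g ∈ T, ∀ x ∈ P, x ≠ 1 → g * x * g⁻¹ = x → g ∈ Subgroup.centralizer (P : Set G) := by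
  have : M.IsMaximal := hM.2.1
  have : CharP (H20.Loc.ResF M) p := H20.Loc.charP_resF hM
  let _ : Algebra (ZMod p) (H20.Loc.ResF M) := ZMod.algebra (H20.Loc.ResF M) p
  have : Algebra.IsAlgebraic (ZMod p) (H20.Loc.ResF M) := H80.BR1.isAlgebraic_resF hM
  have : IsAlgClosed (H20.Loc.ResF M) := H20.Loc.isAlgClosed_resF
  have hPab := H80.BR11.ab_of_cyclic hcyc
  obtain ⟨hmax, hTe, hTN, hCT, h1⟩ := H80.BR11.setup hM hB hPD hPab hc hT
  have hPp : IsPGroup p P := hmax.of.pair.pgr
  have hfree := H80.CY.cyc_free hcyc hPp hTN hCT h1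
  obtain ⟨h2, h3⟩ := H80.CY.cyc_quot hcyc hPp hP1 hTN hfree
  exact ⟨h2, h3, hfree⟩

end Cfsg.Agent.S4633
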