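import Cfsg.Statements.S4634
import Cfsg.Agent.Lib.H84.FL12
import Cfsg.Agent.Lib.H84.FF3

set_option autoImplicit false
open Cfsg

namespace Cfsg.Agent.S4634

attribute [local instance 2000] Fintype.ofFinite

open H84.FL H84.FR H84.FF in
/-- Let B be a block of the finite group G relative to a maximal ideal M of the algebraic integers containing the prime p, with a nontrivial cyclic defect group P, let c be a block of C_G(P) inducing B, T the stabilizer of c in N_G(P) and e the index of C_G(P) in T. Let F be any finite group of order #P · e having a cyclic subgroup Q of order #P that is its own centralizer (F is then the semidirect product of Q by a cyclic group of order e acting faithfully). Then there is a perfect isometry from the set of all irreducible characters of F onto B whose signs agree on all the characters of F that do not contain Q in their kernel. -/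
theorem result {G : Type*} [Group G] [Finite G] (p : ℕ) [Fact p.Prime] (M : Ideal Cfsg.AlgInt) (hM : Cfsg.IsPModular p M) (B : Set (Cfsg.IrrCharacter G)) (hB : Cfsg.IsPBlock M B) (P : Subgroup G) (hPD : Cfsg.IsDefectGroup p M B P) (hP1 : P ≠ ⊥) (hcyc : IsCyclic P) (c : Set (Cfsg.IrrCharacter (Subgroup.centralizer (P : Set G)))) (hc : Cfsg.IsInducedBlock M (Subgroup.centralizer (P : Set G)) c B) (T : Subgroup G) (hT : ∀ g : G, g ∈ T ↔ (g ∈ Subgroup.normalizer (P : Set G) ∧ Cfsg.StabilizesBlock (Subgroup.centralizer (P : Set G)) c g)) (e : ℕ) (he : (Subgroup.centralizer (P : Set G)).relIndex T = e) (F : Type*) [Group F] [Finite F] (hF : Nat.card F = Nat.card P * e) (Q : Subgroup F) (hQ : IsCyclic Q) (hQcard : Nat.card Q = Nat.card P) (hQC : Subgroup.centralizer (Q : Set F) = Q) : ∃ (I : Cfsg.IrrCharacter F → Cfsg.IrrCharacter G) (ε : Cfsg.IrrCharacter F → ℤ), Cfsg.IsPerfectIsometry p M (Set.univ : Set (Cfsg.IrrCharacter F)) B I ε ∧ ∀ η η' : Cfsg.IrrCharacter F, (∃ x ∈ Q, (η : F → ℂ) x ≠ (η : F →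 ℂ) 1) → (∃ x ∈ Q, (η' : F → ℂ) x ≠ (η' : F → ℂ) 1) → ε η = ε η' := by
  classical
  have hp : p.Prime := Fact.out
  have : M.IsMaximal := hM.2.1
  have : CharP (H20.Loc.ResF M) p := H20.Loc.charP_resF hM
  let _ : Algebra (ZMod p) (H20.Loc.ResF M) := ZMod.algebra (H20.Loc.ResF M) p
  have : Algebra.IsAlgebraic (ZMod p) (H20.Loc.ResF M) := H80.BR1.isAlgebraic_resF hM
  have : IsAlgClosed (H20.Loc.ResF M) := H20.Loc.isAlgClosed_resF
  have hab := H80.BR11.ab_of_cyclic hcyc
  obtain ⟨hmax, hTe, hTN, hCT, hidx⟩ := H80.BR11.setup hM hB hPD hab hc hT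
  obtain ⟨-, hfree, hcard, hcop⟩ := cyc_data hM hB hPD hcyc hc hT
  have hl := rank_eq_max_cyclic hM hmax hB hcyc hP1
  have hfp := WT_free hfree
  have hA := sub_comm hab
  -- `e` divides `p - 1`
  have hed : e ∣ p - 1 := by
    have hnorm : ((Subgroup.centralizer (P : Set G)).subgroupOf T).Normal := by
      have h1 : (Subgroup.centralizer (P : Set G)).subgroupOf T =
          ((Subgroup.centralizer (P : Set G)).subgroupOf (Subgroup.normalizer (P : Set G))).comap
            (Subgroup.inclusion hTN) := by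
        ext x; rfl
      have h2 : ((Subgroup.centralizer (P : Set G)).subgroupOf (Subgroup.normalizer (P : Set G))).Normal := by
        constructor
        intro x hx g
        rw [Subgroup.mem_subgroupOf] at hx ⊢
        rw [Subgroup.mem_centralizer_iff] at hx ⊢
        intro y hy
        have hg := (Subgroup.mem_normalizer_iff'' (H := P)).1 g.2
        have h4 : (g : G)⁻¹ * y * g ∈ P := (hg y).1 hy
        have h5 := hx _ h4
        simp only [Subgroup.coe_mul, Subgroup.coe_inv]
        calc y * ((g : G) * x * (g : G)⁻¹) = g * (((g : G)⁻¹ * y * g) * x) * (g : G)⁻¹ := by group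
          _ = g * (x * ((g : G)⁻¹ * y * g)) * (g : G)⁻¹ := by rw [h5]
          _ = (g : G) * x * (g : G)⁻¹ * y := by group
      rw [h1]
      exact h2.comap _
    have hfree' : ∀ g ∈ T, ∀ x ∈ P, x ≠ 1 → g * x * g⁻¹ = x → g ∈ Subgroup.centralizer (P : Set G) := by
      rw [hTe]; exact hfree
    rw [← he]
    exact (H80.CY.cyc_quot hcyc hmax.of.pair.pgr hP1 hTN hfree' (hn := hnorm)).2
  obtain ⟨a, ha⟩ := IsPGroup.iff_card.1 hmax.of.pair.pgr
  have hQa : Nat.card Q = p ^ a := hQcard.trans ha
  have he0 : 0 < e := Nat.pos_of_dvd_of_pos hed (by have := hp.two_le; omega)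
  have hQN : Q.Normal := normal_of_card hQa (by rw [hF, hQcard]) hed
  have hQab := H80.BR11.ab_of_cyclic hQ
  have hAQ := sub_comm hQab
  have hind : Q.index = e := by
    have h1 := Subgroup.card_mul_index Q
    rw [hF, hQcard] at h1
    exact Nat.eq_of_mul_eq_mul_left Nat.card_pos h1
  have hcopQ : ¬ p ∣ Q.index := by
    rw [hind]
    intro h
    have h1 := Nat.le_of_dvd he0 h
    have h2 := Nat.le_of_dvd (by have := hp.two_le; omega) hed
    have := hp.two_le
    omega
  have hcardF : Nat.card (WF Q) = e := by rw [card_WF hQC, hind]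
  -- free action of `F` on `Q`
  have hfpF : ∀ w ∈ WF Q, w ≠ 1 → ∀ x : Q, w x = x → x = 1 := by
    rintro w ⟨g, rfl⟩ hw x hx
    by_contra hx1
    have h1 := H80.CY.cyc_free (T := ⊤) hQ (IsPGroup.of_card hQa)
      (by rw [Subgroup.normalizer_eq_top]) le_top (by rw [hQC, Subgroup.relIndex_top_right]; exact hcopQ)
      g (Subgroup.mem_top _) x x.2 (fun h => hx1 (Subtype.ext h)) (by
        have := congrArg Subtype.val hx
        rwa [conj_coe] at this)
    rw [hQC] at h1
    apply hw
    have h2 : g ∈ (MulAut.conjNormal (H := Q)).ker := by rw [ker_eq hQC]; exact h1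
    exact h2
  let α : Q ≃* P := mulEquivOfCyclicCardEq hQcard
  have hWW : ∀ w : MulAut Q, w ∈ WF Q ↔ MulAut.congr α w ∈ WT P (H80.BR2.bl M _ c) :=
    match_cyclic hp ha α (by rw [hcardF, hcard, he]) (by rw [hcard, he]; exact hed)
  have hcomm : ∀ a b : F, a * b * a⁻¹ * b⁻¹ ∈ Q := by
    intro x y
    have h2 : x * y * x⁻¹ * y⁻¹ ∈ (MulAut.conjNormal (H := Q)).ker := by
      rw [MonoidHom.mem_ker, map_mul, map_mul, map_mul, map_inv, map_inv]
      have hcm : ∀ u v : MulAut Q, u * v = v * u := by
        intro u v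
        have e := IsCyclic.mulAutMulEquiv Q
        apply e.injective
        rw [map_mul, map_mul, mul_comm]
      rw [hcm (MulAut.conjNormal x) (MulAut.conjNormal y)]
      group
    rwa [ker_eq hQC] at h2
  obtain ⟨n, rep, hrep⟩ := exists_reps hA (WT P (H80.BR2.bl M _ c))
  have hrep' := hrep.transport α hWW
  obtain ⟨S, φ, R, hL⟩ := exists_loc_cyclic hM hmax hB hcyc hP1 hfree hcop
  obtain ⟨hD, μ, δ, c', hS⟩ := str_loc hM hmax hB hab hP1 hfree hL hl hrep
  obtain ⟨μ', hμ', hS'⟩ := exists_strF hAQ hQC hfpF hrep' hcomm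
  have hcardB := card_eq hM hmax hB hab hfree (hrep.card hA hfp)
  have hcardF' := card_irrF hAQ hQC hfpF hrep' hcomm hμ' hS'
  have h5 : Nat.card (Set.univ : Set (IrrCharacter F)) = Nat.card B := by
    rw [hcardF', hcardB, hl, hcard, hcardF, he]
  have hpr : M.IsPrime := hM.2.1.isPrime
  have hD' := dat0 (M := M) hM (IsPGroup.of_card hQa) hcopQ hAQ hQC hfpF
  obtain ⟨I, ε, hI, hε, hR, hμε⟩ := exists_match α hS hS' (fun i x => Th_transport α hWW (rep i) x) h5
  refine ⟨I, ε, perfect hM hD hD' α hI hε hR, ?_⟩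
  have key : ∀ η : IrrCharacter F, (∃ x ∈ Q, (η : F → ℂ) x ≠ (η : F → ℂ) 1) → ε η = δ * 1 := by
    rintro η ⟨x, hx, hne⟩
    by_cases h : ∃ i, μ' i = η
    · obtain ⟨i, rfl⟩ := h
      exact hμε i
    · exfalso
      push Not at h
      have h1 := lin_of_orth hAQ hrep' hcomm η.2 (fun i => H18.CharOrtho.inner_irr_ne η.2
        (ind_irr hAQ hQC hfpF (hrep'.ne i)) (fun h' => h i (Subtype.ext ((hμ' i).trans h'.symm))))
      apply hne
      have h2 := h1 ⟨x, hx⟩
      have h3 := h1 1
      exact h2.trans h3.symm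
  intro η η' h h'
  rw [key η h, key η' h']

end Cfsg.Agent.S4634
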