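import Cfsg.Statements.S4635
import Cfsg.Agent.Lib.H84.FL13

set_option autoImplicit false
open Cfsg

namespace Cfsg.Agent.S4635

open H84.FL in
/-- Let B be a block of the finite group G relative to a maximal ideal M of the algebraic integers containing the prime p, with a nontrivial cyclic defect group P; let Z be the subgroup of order p of P and H = N_G(Z), which contains N_G(P). Let c be the block of H with defect group P that induces B. Then B and c contain the same number of irreducible characters, have the same p-regular rank, and there is a perfect isometry from c onto B. -/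
theorem result {G : Type*} [Group G] [Finite G] (p : ℕ) [Fact p.Prime] (M : Ideal Cfsg.AlgInt) (hM : Cfsg.IsPModular p M) (B : Set (Cfsg.IrrCharacter G)) (hB : Cfsg.IsPBlock M B) (P : Subgroup G) (hPD : Cfsg.IsDefectGroup p M B P) (hP1 : P ≠ ⊥) (hcyc : IsCyclic P) (Z : Subgroup G) (hZ : Z ≤ P) (hZcard : Nat.card Z = p) (H : Subgroup G) (hH : H = Subgroup.normalizer (Z : Set G)) (c : Set (Cfsg.IrrCharacter H)) (hcD : Cfsg.IsDefectGroup p M c (P.subgroupOf H)) (hc : Cfsg.IsInducedBlock M H c B) : Nat.card c = Nat.card B ∧ Cfsg.blockRank p c = Cfsg.blockRank p B ∧ ∃ (I : Cfsg.IrrCharacter H → Cfsg.IrrCharacter G) (ε : Cfsg.IrrCharacter H → ℤ), Cfsg.IsPerfectIsometry p M c B I ε := by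
  have : M.IsMaximal := hM.2.1
  have : CharP (H20.Loc.ResF M) p := H20.Loc.charP_resF hM
  let _ : Algebra (ZMod p) (H20.Loc.ResF M) := ZMod.algebra (H20.Loc.ResF M) p
  have : Algebra.IsAlgebraic (ZMod p) (H20.Loc.ResF M) := H80.BR1.isAlgebraic_resF hM
  have : IsAlgClosed (H20.Loc.ResF M) := H20.Loc.isAlgClosed_resF
  have hab := H80.BR11.ab_of_cyclic hcyc
  have hZH : Z ≤ H := hH ▸ Subgroup.le_normalizer
  have hNPH : Subgroup.normalizer (P : Set G) ≤ H := by
    intro g hg
    rw [hH]
    exact H80.CD1.norm_sub hcyc hZ hg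
  have hPH : P ≤ H := Subgroup.le_normalizer.trans hNPH
  have hCH : Subgroup.centralizer (Z : Set G) ≤ H := by
    rw [hH]
    intro g hg
    rw [Subgroup.mem_normalizer_iff]
    rw [Subgroup.mem_centralizer_iff] at hg
    intro h
    constructor
    · intro hh
      have := hg h hh
      rw [← this]; simpa using hh
    · intro hh
      have h1 := hg _ hh
      have h2 : g * h * g⁻¹ = h := by
        have h3 : g * h * g⁻¹ * g = g * (g * h * g⁻¹) := h1
        have h4 : h = g⁻¹ * (g * h * g⁻¹ * g) := by group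
        calc g * h * g⁻¹ = g⁻¹ * (g * (g * h * g⁻¹)) := by group
          _ = g⁻¹ * (g * h * g⁻¹ * g) := by rw [h3]
          _ = h := by group
      rwa [h2] at hh
  obtain ⟨e', hmax', hmax⟩ := max_of_local hM hB hPD hZ hZH hCH hH.le hPH hcD hc
  have hcyc' : IsCyclic (P.subgroupOf H) :=
    isCyclic_of_surjective _ (Subgroup.subgroupOfEquivOfLe hPH).symm.surjective
  have hP1' : P.subgroupOf H ≠ ⊥ := by
    intro h
    apply hP1
    have h1 : (P.subgroupOf H).map H.subtype = P := by
      rw [Subgroup.subgroupOf_map_subtype]; exact inf_eq_left.2 hPH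
    rw [← h1, h, Subgroup.map_bot]
  have hST : H80.GH.ST ⊤ P (H80.GF.inc (H20.Loc.ResF M) H.subtype e') ≤ H := fun g hg => hNPH hg.2.1
  obtain ⟨S, φ, R, hL⟩ := exists_loc_cyclic hM hmax hB hcyc hP1 (free_cyclic hmax hcyc) (cop_WT hmax hab)
  obtain ⟨S', φ', R', hL'⟩ := exists_loc_cyclic hM hmax' hc.1 hcyc' hP1' (free_cyclic hmax' hcyc')
    (cop_WT hmax' (H80.BR11.ab_of_cyclic hcyc'))
  exact isometry_loc hM hmax hB hab hP1 (free_cyclic hmax hcyc) hL (rank_eq_max_cyclic hM hmax hB hcyc hP1)
    hmax' hc.1 (H80.BR11.ab_of_cyclic hcyc') hP1' (free_cyclic hmax' hcyc') hL'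
    (rank_eq_max_cyclic hM hmax' hc.1 hcyc' hP1') (Subgroup.subgroupOfEquivOfLe hPH) (WT_sub hPH hST)

end Cfsg.Agent.S4635
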