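import Cfsg.Statements.S4636

set_option autoImplicit false
open scoped Pointwise
open Cfsg

namespace Cfsg.Agent.S4636


/-- Let P be a nontrivial cyclic p-subgroup of the finite group G and Z its subgroup of order p. For every x outside N_G(Z), P meets its conjugate xPx⁻¹ trivially; consequently N_G(Q) ≤ N_G(Z) for every nontrivial subgroup Q of P. -/
theorem result {G : Type*} [Group G] [Finite G] (p : ℕ) [Fact p.Prime] (P : Subgroup G) (hP : IsPGroup p P) (hP1 : P ≠ ⊥) (hcyc : IsCyclic P) (Z : Subgroup G) (hZ : Z ≤ P) (hZcard : Nat.card Z = p) : (∀ x : G, x ∉ Subgroup.normalizer (Z : Set G) → P ⊓ MulAut.conj x • P = ⊥) ∧ ∀ Q : Subgroup G, Q ≤ P → Q ≠ ⊥ → Subgroup.normalizer (Q : Set G) ≤ Subgroup.normalizer (Z : Set G) := by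
  have hp : p.Prime := Fact.out
  have := hcyc
  classical
  -- every subgroup of order `p` of `P` equals `Z`
  have huniq : ∀ Y : Subgroup G, Y ≤ P → Nat.card Y = p → ∀ y ∈ P, y ^ p = 1 → y ∈ Y := by
    intro Y hY hYc y hy hyp
    have hfin : Fintype P := Fintype.ofFinite P
    have hle := IsCyclic.card_pow_eq_one_le (α := P) hp.pos
    have hsub : (Finset.univ.filter (fun a : P => (a : G) ∈ Y)) ⊆
        (Finset.univ.filter (fun a : P => a ^ p = 1)) := by
      intro a ha
      simp only [Finset.mem_filter, Finset.mem_univ, true_and] at ha ⊢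
      have h1 : (⟨(a : G), ha⟩ : Y) ^ Nat.card Y = 1 := pow_card_eq_one'
      rw [hYc] at h1
      apply Subtype.ext
      simpa using congrArg Subtype.val h1
    have hcardY : (Finset.univ.filter (fun a : P => (a : G) ∈ Y)).card = p := by
      rw [← hYc, ← Fintype.card_subtype, ← Nat.card_eq_fintype_card]
      apply Nat.card_congr
      exact ⟨fun a => ⟨((a : P) : G), a.2⟩, fun a => ⟨⟨(a : G), hY a.2⟩, a.2⟩, fun a => rfl, fun a => rfl⟩
    have heq := Finset.eq_of_subset_of_card_le hsub (by rw [hcardY]; exact hle)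
    have hmem : (⟨y, hy⟩ : P) ∈ (Finset.univ.filter (fun a : P => a ^ p = 1)) := by
      simp only [Finset.mem_filter, Finset.mem_univ, true_and]
      exact Subtype.ext (by simpa using hyp)
    rw [← heq] at hmem
    simpa using hmem
  -- every nontrivial subgroup of `P` contains `Z`
  have hZle : ∀ Q : Subgroup G, Q ≤ P → Q ≠ ⊥ → Z ≤ Q := by
    intro Q hQ hQ1
    have hQp : IsPGroup p Q := hP.to_le hQ
    have : Nontrivial Q := (Subgroup.nontrivial_iff_ne_bot Q).mpr hQ1
    have hdvd : p ∣ Nat.card Q := by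
      obtain ⟨n, hn⟩ := IsPGroup.iff_card.mp hQp
      have h1 : 1 < Nat.card Q := Finite.one_lt_card
      rw [hn] at h1 ⊢
      rcases n with _ | n
      · simp at h1
      · exact dvd_pow_self p (Nat.succ_ne_zero n)
    obtain ⟨x, hx⟩ := exists_prime_orderOf_dvd_card' (G := Q) p hdvd
    have hxQ : Subgroup.zpowers (x : G) ≤ Q := by
      rw [Subgroup.zpowers_le]; exact x.2
    have hxc : Nat.card (Subgroup.zpowers (x : G)) = p := by
      rw [Nat.card_zpowers, Subgroup.orderOf_coe, hx]
    intro z hz
    apply hxQ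
    refine huniq _ (hxQ.trans hQ) hxc z (hZ hz) ?_
    have h1 : (⟨z, hz⟩ : Z) ^ Nat.card Z = 1 := pow_card_eq_one'
    rw [hZcard] at h1
    simpa using congrArg Subtype.val h1
  have hconjcard : ∀ x : G, Nat.card (MulAut.conj x • Z : Subgroup G) = p := by
    intro x
    rw [← hZcard]
    exact (Nat.card_congr (Subgroup.equivSMul (MulAut.conj x) Z).toEquiv).symm
  have hnorm : ∀ x : G, MulAut.conj x • Z = Z → x ∈ Subgroup.normalizer (Z : Set G) := by
    intro x hx
    rw [Subgroup.mem_normalizer_iff]
    intro h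
    constructor
    · intro hh
      rw [← hx]
      have := Subgroup.smul_mem_pointwise_smul h (MulAut.conj x) _ hh
      simpa using this
    · intro hh
      rw [← hx, Subgroup.mem_pointwise_smul_iff_inv_smul_mem] at hh
      simpa [← map_inv, mul_assoc] using hh
  refine ⟨?_, ?_⟩
  · intro x hx
    by_contra hne
    apply hx
    apply hnorm
    have h1 : Z ≤ P ⊓ MulAut.conj x • P := hZle _ inf_le_left hne
    -- `conj x • Z ≤ conj x • P` ; inside `x P x⁻¹` the subgroup `Z` has order `p`
    have h2 : Z ≤ MulAut.conj x • P := h1.trans inf_le_right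
    have h3 : (MulAut.conj x)⁻¹ • Z ≤ P := by
      rw [← Subgroup.subset_pointwise_smul_iff]; exact h2
    have h4 : Nat.card ((MulAut.conj x)⁻¹ • Z : Subgroup G) = p := by
      rw [← map_inv]; exact hconjcard _
    have h5 : (MulAut.conj x)⁻¹ • Z = Z := by
      apply le_antisymm
      · intro z hz
        refine huniq Z hZ hZcard z (h3 hz) ?_
        have h1 : (⟨z, hz⟩ : ((MulAut.conj x)⁻¹ • Z : Subgroup G)) ^
          Nat.card ((MulAut.conj x)⁻¹ • Z : Subgroup G) = 1 := pow_card_eq_one'
        rw [h4] at h1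
        simpa using congrArg Subtype.val h1
      · intro z hz
        refine huniq _ h3 h4 z (hZ hz) ?_
        have h1 : (⟨z, hz⟩ : Z) ^ Nat.card Z = 1 := pow_card_eq_one'
        rw [hZcard] at h1
        simpa using congrArg Subtype.val h1
    calc MulAut.conj x • Z = MulAut.conj x • ((MulAut.conj x)⁻¹ • Z) := by rw [h5]
      _ = Z := smul_inv_smul _ _
  · intro Q hQ hQ1 g hg
    apply hnorm
    have hZQ := hZle Q hQ hQ1
    have h1 : MulAut.conj g • Z ≤ Q := by
      intro z hz
      rw [Subgroup.mem_pointwise_smul_iff_inv_smul_mem] at hz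
      rw [Subgroup.mem_normalizer_iff''] at hg
      have := hZQ hz
      simp only [← map_inv, MulAut.smul_def, MulAut.conj_apply, inv_inv] at this
      exact (hg z).mpr this
    apply le_antisymm
    · intro z hz
      refine huniq Z hZ hZcard z (hQ (h1 hz)) ?_
      have h1 : (⟨z, hz⟩ : (MulAut.conj g • Z : Subgroup G)) ^
          Nat.card (MulAut.conj g • Z : Subgroup G) = 1 := pow_card_eq_one'
      rw [hconjcard] at h1
      simpa using congrArg Subtype.val h1
    · intro z hz
      refine huniq _ (h1.trans hQ) (hconjcard g) z (hZ hz) ?_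
      have h1 : (⟨z, hz⟩ : Z) ^ Nat.card Z = 1 := pow_card_eq_one'
      rw [hZcard] at h1
      simpa using congrArg Subtype.val h1

end Cfsg.Agent.S4636
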