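import Cfsg.Statements.S4638
import Cfsg.Agent.Lib.H84.GL6

set_option autoImplicit false
open Cfsg

namespace Cfsg.Agent.S4638

open H84.FL in
/-- Let B be a block of the finite group G relative to a maximal ideal M of the algebraic integers containing 2, with a Klein four defect group P, and let c be its Brauer correspondent: the block of N_G(P) with defect group P that induces B. Then there is a perfect isometry from c onto B. -/
theorem result {G : Type*} [Group G] [Finite G] (M : Ideal Cfsg.AlgInt) (hM : Cfsg.IsPModular 2 M) (B : Set (Cfsg.IrrCharacter G)) (hB : Cfsg.IsPBlock M B) (P : Subgroup G) (hPD : Cfsg.IsDefectGroup 2 M B P) (hV : IsKleinFour P) (c : Set (Cfsg.IrrCharacter (Subgroup.normalizer (P : Set G)))) (hcD : Cfsg.IsDefectGroup 2 M c (P.subgroupOf (Subgroup.normalizer (P : Set G)))) (hc : Cfsg.IsInducedBlock M (Subgroup.normalizer (P : Set G)) c B) : ∃ (I : Cfsg.IrrCharacter (Subgroup.normalizer (P : Set G)) → Cfsg.IrrCharacter G) (ε : Cfsg.IrrCharacter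 (Subgroup.normalizer (P : Set G)) → ℤ), Cfsg.IsPerfectIsometry 2 M c B I ε := by
  have : Fact (Nat.Prime 2) := ⟨Nat.prime_two⟩
  have : M.IsMaximal := hM.2.1
  have : CharP (H20.Loc.ResF M) 2 := H20.Loc.charP_resF hM
  let _ : Algebra (ZMod 2) (H20.Loc.ResF M) := ZMod.algebra (H20.Loc.ResF M) 2
  have : Algebra.IsAlgebraic (ZMod 2) (H20.Loc.ResF M) := H80.BR1.isAlgebraic_resF hM
  have : IsAlgClosed (H20.Loc.ResF M) := H20.Loc.isAlgClosed_resF
  have hPab : ∀ x ∈ P, ∀ y ∈ P, x * y = y * x := by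
    intro x hx y hy
    have hc1 : ∀ a b : P, a * b = b * a := by
      intro a b
      have h1 : ∀ z : P, z⁻¹ = z := fun z => inv_eq_of_mul_eq_one_right (IsKleinFour.mul_self z)
      rw [← h1 (a * b), mul_inv_rev, h1, h1]
    exact congrArg Subtype.val (hc1 ⟨x, hx⟩ ⟨y, hy⟩)
  have hcP : Nat.card P = 4 := IsKleinFour.card_four
  have hP1 : P ≠ ⊥ := by
    rintro rfl
    rw [Subgroup.card_bot] at hcP
    omega
  set H := Subgroup.normalizer (P : Set G) with hH
  have hPH : P ≤ H := Subgroup.le_normalizer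
  have hCH : Subgroup.centralizer (P : Set G) ≤ H := by
    intro g hg
    rw [Subgroup.mem_centralizer_iff] at hg
    rw [hH, Subgroup.mem_normalizer_iff]
    intro h
    constructor
    · intro hh
      have h1 := hg h hh
      rw [← h1]; simpa using hh
    · intro hh
      have h1 := hg _ hh
      have h2 : g * h * g⁻¹ = h := by
        have h3 : g * h * g⁻¹ * g = g * (g * h * g⁻¹) := h1
        calc g * h * g⁻¹ = g⁻¹ * (g * (g * h * g⁻¹)) := by group
          _ = g⁻¹ * (g * h * g⁻¹ * g) := by rw [h3]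
          _ = h := by group
      rwa [h2] at hh
  obtain ⟨e', hmax', hmax⟩ := max_of_local hM hB hPD le_rfl hPH hCH le_rfl hPH hcD hc
  have hab' : ∀ x ∈ P.subgroupOf H, ∀ y ∈ P.subgroupOf H, x * y = y * x := fun x hx y hy =>
    Subtype.ext (hPab x (Subgroup.mem_subgroupOf.1 hx) y (Subgroup.mem_subgroupOf.1 hy))
  have hP1' : P.subgroupOf H ≠ ⊥ := by
    intro h
    apply hP1
    have h1 : (P.subgroupOf H).map H.subtype = P := by
      rw [Subgroup.subgroupOf_map_subtype]; exact inf_eq_left.2 hPH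
    rw [← h1, h, Subgroup.map_bot]
  have hV' : IsKleinFour (P.subgroupOf H) := by
    have α := Subgroup.subgroupOfEquivOfLe hPH
    exact ⟨by rw [Nat.card_congr α.toEquiv]; exact hcP, by rw [Monoid.exponent_eq_of_mulEquiv α]; exact hV.exponent_two⟩
  have hST : H80.GH.ST ⊤ P (H80.GF.inc (H20.Loc.ResF M) H.subtype e') ≤ H := fun g hg => hg.2.1
  have hfree := H84.GL.free_klein hV (cop_WT hmax hPab)
  have hfree' := H84.GL.free_klein hV' (cop_WT hmax' hab')
  obtain ⟨S, φ, R, hL⟩ := H84.GL.exists_loc hM hmax hB hPab hP1 hfree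
  obtain ⟨S', φ', R', hL'⟩ := H84.GL.exists_loc hM hmax' hc.1 hab' hP1' hfree'
  have h3 : Nat.card (WT P (H80.GF.inc (H20.Loc.ResF M) H.subtype e')) ≤ 3 := by
    obtain ⟨n, rep, hrep⟩ := H84.FR.exists_reps (sub_comm hPab) (WT P (H80.GF.inc (H20.Loc.ResF M) H.subtype e'))
    have hn := hrep.card (sub_comm hPab) (WT_free hfree)
    rw [hcP] at hn
    have h4 : n ≠ 0 := by rintro rfl; omega
    have h5 := Nat.le_mul_of_pos_left (Nat.card (WT P (H80.GF.inc (H20.Loc.ResF M) H.subtype e'))) (Nat.pos_of_ne_zero h4)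
    omega
  have h3' : Nat.card (WT (P.subgroupOf H) e') ≤ 3 := by
    rw [H84.FR.card_transport (Subgroup.subgroupOfEquivOfLe hPH) (WT_sub hPH hST)]
    exact h3
  exact (isometry_loc hM hmax hB hPab hP1 hfree hL (H84.GL.rank_eq_free hM hmax hB hPab hP1 hfree h3)
    hmax' hc.1 hab' hP1' hfree' hL' (H84.GL.rank_eq_free hM hmax' hc.1 hab' hP1' hfree' h3')
    (Subgroup.subgroupOfEquivOfLe hPH) (WT_sub hPH hST)).2.2

end Cfsg.Agent.S4638
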