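import Cfsg.Statements.S4639
import Cfsg.Agent.Lib.H84.GL6

set_option autoImplicit false
open Cfsg

namespace Cfsg.Agent.S4639

open H84.FL in
/-- Let B be a block of the finite group G relative to a maximal ideal M of the algebraic integers containing the prime p, with a nontrivial commutative defect group P. Let c be a block of C_G(P) inducing B, T the stabilizer of c in N_G(P) and e the index of C_G(P) in T. Suppose that T/C_G(P) is commutative (all commutators of elements of T lie in C_G(P)) and acts freely on the non-identity elements of P (an element of T fixing a non-identity element of P under conjugation lies in C_G(P)). Then B has at most e + (#P − 1)/e irreducible characters and p-regular rank at most e; equality holds in the first bound exactly when it holds in the second; and both equalities hold when e ≤ 3. -/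
theorem result {G : Type*} [Group G] [Finite G] (p : ℕ) [Fact p.Prime] (M : Ideal Cfsg.AlgInt) (hM : Cfsg.IsPModular p M) (B : Set (Cfsg.IrrCharacter G)) (hB : Cfsg.IsPBlock M B) (P : Subgroup G) (hPD : Cfsg.IsDefectGroup p M B P) (hP1 : P ≠ ⊥) (hPab : ∀ x ∈ P, ∀ y ∈ P, x * y = y * x) (c : Set (Cfsg.IrrCharacter (Subgroup.centralizer (P : Set G)))) (hc : Cfsg.IsInducedBlock M (Subgroup.centralizer (P : Set G)) c B) (T : Subgroup G) (hT : ∀ g : G, g ∈ T ↔ (g ∈ Subgroup.normalizer (P : Set G) ∧ Cfsg.StabilizesBlock (Subgroup.centralizer (P : Set G)) c g)) (e : ℕ) (he : (Subgroup.centralizer (P : Set G)).relIndex T = e) (hEab : ∀ g ∈ T, ∀ h ∈ T, g * h * g⁻¹ * h⁻¹ ∈ Subgroup.centralizer (P : Set G)) (hfree : ∀ g ∈ T, ∀ x ∈ P, x ≠ 1 → g * x * g⁻¹ = x → g ∈ Subgroup.centralizer (P : Set G)) : Nat.card B ≤ e + (Nat.card P - 1) / e ∧ Cfsg.blockRank p B ≤ e ∧ (Nat.card B = e + (Nat.card P - 1) / e ↔ Cfsg.blockRank p B = e) ∧ (e ≤ 3 → Nat.card B = e + (Nat.card P - 1) / e ∧ Cfsg.blockRank p B = e) := by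
  have : M.IsMaximal := hM.2.1
  have : CharP (H20.Loc.ResF M) p := H20.Loc.charP_resF hM
  let _ : Algebra (ZMod p) (H20.Loc.ResF M) := ZMod.algebra (H20.Loc.ResF M) p
  have : Algebra.IsAlgebraic (ZMod p) (H20.Loc.ResF M) := H80.BR1.isAlgebraic_resF hM
  have : IsAlgClosed (H20.Loc.ResF M) := H20.Loc.isAlgClosed_resF
  obtain ⟨hmax, hTe, hTN, hCT, hidx⟩ := H80.BR11.setup hM hB hPD hPab hc hT
  subst hTe
  have hcard := card_WT hCT
  rw [he] at hcard
  obtain ⟨n, rep, hrep⟩ := H84.FR.exists_reps (sub_comm hPab) (WT P (H80.BR2.bl M _ c))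
  have hn := hrep.card (sub_comm hPab) (WT_free hfree)
  have hk := card_eq hM hmax hB hPab hfree hn
  have hl := H84.GL.rank_le_free hM hmax hB hPab hP1 hfree
  rw [hcard] at hl hn
  have he0 : 0 < e := by rw [← hcard]; exact Nat.card_pos
  have hdiv : (Nat.card P - 1) / e = n := by
    rw [← hn, Nat.add_sub_cancel, Nat.mul_div_cancel _ he0]
  rw [hdiv, hk]
  refine ⟨by omega, hl, by omega, fun h3 => ?_⟩
  have h4 := H84.GL.rank_eq_free hM hmax hB hPab hP1 hfree (by rw [hcard]; exact h3)
  rw [hcard] at h4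
  exact ⟨by omega, h4⟩

end Cfsg.Agent.S4639
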