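import Cfsg.Statements.S4645
import Cfsg.Agent.Lib.H80.CD1
import Cfsg.Agent.Lib.H80.FS4
import Cfsg.Agent.Lib.H80.BR8
import Cfsg.Agent.Lib.H80.BR5
import Cfsg.Agent.S4689

set_option autoImplicit false
open Cfsg

namespace Cfsg.Agent.S4645

/-- Let B be a block of the finite group G relative to a maximal ideal M of the algebraic integers containing the prime p, with a nontrivial cyclic defect group P; let c be a block of C_G(P) inducing B and T the stabilizer of c in N_G(P). Let Q be a nontrivial subgroup of P (so C_G(P) ≤ C_G(Q)), f the block of C_G(Q) induced by c inside C_G(Q), and T' the stabilizer of f in N_G(Q). Then T' = T·C_G(Q), the index of C_G(Q) in T' equals the index of C_G(P) in T, f has p-regular rank 1, and f is a nilpotent block of C_G(Q). -/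
theorem result {G : Type*} [Group G] [Finite G] (p : ℕ) [Fact p.Prime] (M : Ideal Cfsg.AlgInt) (hM : Cfsg.IsPModular p M) (B : Set (Cfsg.IrrCharacter G)) (hB : Cfsg.IsPBlock M B) (P : Subgroup G) (hPD : Cfsg.IsDefectGroup p M B P) (hP1 : P ≠ ⊥) (hcyc : IsCyclic P) (c : Set (Cfsg.IrrCharacter (Subgroup.centralizer (P : Set G)))) (hc : Cfsg.IsInducedBlock M (Subgroup.centralizer (P : Set G)) c B) (T : Subgroup G) (hT : ∀ g : G, g ∈ T ↔ (g ∈ Subgroup.normalizer (P : Set G) ∧ Cfsg.StabilizesBlock (Subgroup.centralizer (P : Set G)) c g)) (Q : Subgroup G) (hQP : Q ≤ P) (hQ1 : Q ≠ ⊥) (f : Set (Cfsg.IrrCharacter (Subgroup.centralizer (Q : Set G)))) (hf : Cfsg.IsInducedBlockIn M (Subgroup.centralizer (Q : Set G)) (Subgroup.centralizer (P : Set G)) c f) (T' : Subgroup G) (hT' : ∀ g : G, g ∈ T' ↔ (g ∈ Subgroup.normalizer (Q : Set G) ∧ Cfsg.StabilizesBlock (Subgroup.centralizer (Q : Set G)) f g)) : T' = T ⊔ Subgroup.centralizer (Q : Set G) ∧ (Subgroup.centralizer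 (Q : Set G)).relIndex T' = (Subgroup.centralizer (P : Set G)).relIndex T ∧ Cfsg.blockRank p f = 1 ∧ Cfsg.IsNilpotentBlock p M f := by
  have : M.IsMaximal := hM.2.1
  have : CharP (H20.Loc.ResF M) p := H20.Loc.charP_resF hM
  let _ : Algebra (ZMod p) (H20.Loc.ResF M) := ZMod.algebra (H20.Loc.ResF M) p
  have : Algebra.IsAlgebraic (ZMod p) (H20.Loc.ResF M) := H80.BR1.isAlgebraic_resF hM
  have : IsAlgClosed (H20.Loc.ResF M) := H20.Loc.isAlgClosed_resF
  have hab := H80.BR11.ab_of_cyclic hcyc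
  obtain ⟨hmax, hTe, hTN, hCT, h1⟩ := H80.BR11.setup hM hB hPD hab hc hT
  have hPp : IsPGroup p P := hmax.of.pair.pgr
  have hfree := H80.CY.cyc_free hcyc hPp hTN hCT h1
  have hsle := (H80.BR8.sle_iff_induced hM hPp hQP hab hc.1 hf.2.1).1 hf
  have hnil := H80.CD1.nilp_sub hmax hab hQP hQ1 (by rw [← hTe]; exact hfree) hsle
  rw [H80.BR3.CH_top, ← H80.FS4.nilp_iff_sub hf.2.1] at hnil
  have hT'e : T' = T ⊔ Subgroup.centralizer (Q : Set G) := by
    rw [H80.BR5.stab_eq hf.2.1 hT', H80.CD1.st_eq hmax hcyc hsle, hTe, H80.BR3.CH_top]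
  refine ⟨hT'e, ?_, ?_, hnil⟩
  · rw [hT'e]
    exact H80.CD1.index_eq hQP hQ1 hCT (fun t ht => H80.CD1.norm_sub hcyc hQP (hTN ht)) hfree
  · have := Fintype.ofFinite (Subgroup.centralizer (Q : Set G))
    exact (Cfsg.Agent.S4689.result p M hM f hnil).1

end Cfsg.Agent.S4645
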