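import Cfsg.Statements.S4648
import Cfsg.Agent.Lib.H20.Cor6

set_option autoImplicit false
open Cfsg

namespace Cfsg.Agent.S4648

/-- Let B be a block of the finite group G relative to a maximal ideal M of the algebraic integers containing the prime p, with a nontrivial defect group D. If B has p-regular rank 1 and at most four irreducible characters, then B is nilpotent, D has exactly as many elements as B has irreducible characters, and p is 2 or 3. -/
theorem result {G : Type*} [Group G] [Finite G] (p : ℕ) [Fact p.Prime] (M : Ideal Cfsg.AlgInt) (hM : Cfsg.IsPModular p M) (B : Set (Cfsg.IrrCharacter G)) (hB : Cfsg.IsPBlock M B) (D : Subgroup G) (hD : Cfsg.IsDefectGroup p M B D) (hD1 : D ≠ ⊥) (hl : Cfsg.blockRank p B = 1) (hk : Nat.card B ≤ 4) : Cfsg.IsNilpotentBlock p M B ∧ Nat.card D = Nat.card B ∧ (p = 2 ∨ p = 3) := by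
  have : M.IsMaximal := hM.2.1
  obtain ⟨h1, h2⟩ := H20.Cor.small hM hB hl hk hD
  refine ⟨h1, h2, ?_⟩
  have hc := H20.Defect.card_defectGroup hM hB hD
  have hp : p.Prime := Fact.out
  have hd : Cfsg.blockDefect p B ≠ 0 := by
    intro h0
    rw [h0, pow_zero] at hc
    exact hD1 (Subgroup.eq_bot_of_card_eq D hc)
  have h3 : p ≤ 4 := by
    have h4 : p ^ 1 ≤ p ^ Cfsg.blockDefect p B := Nat.pow_le_pow_right hp.pos (Nat.one_le_iff_ne_zero.2 hd)
    rw [pow_one] at h4
    omega
  have h2' := hp.two_le
  interval_cases p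
  · exact Or.inl rfl
  · exact Or.inr rfl
  · exact absurd hp (by norm_num)

end Cfsg.Agent.S4648
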