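import Cfsg.Statements.S4649
import Cfsg.Agent.Lib.H84.FL12

set_option autoImplicit false
open Cfsg

namespace Cfsg.Agent.S4649

open H84.FL in
/-- A block with cyclic defect group, of a finite group relative to a maximal ideal M of the algebraic integers containing the prime p, is nilpotent if and only if its p-regular rank is 1 (it has a unique irreducible Brauer character). -/
theorem result {G : Type*} [Group G] [Finite G] (p : ℕ) [Fact p.Prime] (M : Ideal Cfsg.AlgInt) (hM : Cfsg.IsPModular p M) (B : Set (Cfsg.IrrCharacter G)) (hB : Cfsg.IsPBlock M B) (P : Subgroup G) (hPD : Cfsg.IsDefectGroup p M B P) (hcyc : IsCyclic P) : Cfsg.IsNilpotentBlock p M B ↔ Cfsg.blockRank p B = 1 := by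
  have : M.IsMaximal := hM.2.1
  have : CharP (H20.Loc.ResF M) p := H20.Loc.charP_resF hM
  let _ : Algebra (ZMod p) (H20.Loc.ResF M) := ZMod.algebra (H20.Loc.ResF M) p
  have : Algebra.IsAlgebraic (ZMod p) (H20.Loc.ResF M) := H80.BR1.isAlgebraic_resF hM
  have : IsAlgClosed (H20.Loc.ResF M) := H20.Loc.isAlgClosed_resF
  have := Fintype.ofFinite G
  refine ⟨fun h => (Cfsg.Agent.S4689.result p M hM B h).1, fun h => ?_⟩
  obtain ⟨e, hmax⟩ := H84.Star.exists_isMax_of_isDefectGroup hM hB hPD
  have hab := H80.BR11.ab_of_cyclic hcyc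
  rw [H80.FS4.nilp_iff_top hB, nilp_iff_card hmax hab]
  by_cases hP1 : P = ⊥
  · subst hP1
    have h1 := H84.FL.card_WT (cent_le_ST hmax)
    rw [h1, Subgroup.relIndex_eq_one]
    intro g _
    rw [Subgroup.mem_centralizer_iff]
    intro x hx
    have : x = 1 := by simpa using hx
    rw [this, one_mul, mul_one]
  · rw [← rank_eq_max_cyclic hM hmax hB hcyc hP1, h]

end Cfsg.Agent.S4649
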