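import Cfsg.Statements.S4650
import Cfsg.Agent.Lib.H80.BR8
import Cfsg.Agent.Lib.H19.BrMap2

set_option autoImplicit false
open Cfsg

namespace Cfsg.Agent.S4650

/-- Let B be a block of the finite group G relative to a maximal ideal M of the algebraic integers containing the prime p, with a nontrivial commutative defect group P; let c be a block of C_G(P) inducing B and T the stabilizer of c in N_G(P). Then T/C_G(P) acts freely on the non-identity elements of P (an element of T fixing a non-identity element of P under conjugation lies in C_G(P)) if and only if, for every nontrivial subgroup Q of P, the block of C_G(Q) induced by c inside C_G(Q) is a nilpotent block of C_G(Q). -/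
theorem result {G : Type*} [Group G] [Finite G] (p : ℕ) [Fact p.Prime] (M : Ideal Cfsg.AlgInt) (hM : Cfsg.IsPModular p M) (B : Set (Cfsg.IrrCharacter G)) (hB : Cfsg.IsPBlock M B) (P : Subgroup G) (hPD : Cfsg.IsDefectGroup p M B P) (hPab : ∀ x ∈ P, ∀ y ∈ P, x * y = y * x) (hP1 : P ≠ ⊥) (c : Set (Cfsg.IrrCharacter (Subgroup.centralizer (P : Set G)))) (hc : Cfsg.IsInducedBlock M (Subgroup.centralizer (P : Set G)) c B) (T : Subgroup G) (hT : ∀ g : G, g ∈ T ↔ (g ∈ Subgroup.normalizer (P : Set G) ∧ Cfsg.StabilizesBlock (Subgroup.centralizer (P : Set G)) c g)) : (∀ g ∈ T, ∀ x ∈ P, x ≠ 1 → g * x * g⁻¹ = x → g ∈ Subgroup.centralizer (P : Set G)) ↔ ∀ Q : Subgroup G, Q ≤ P → Q ≠ ⊥ → ∀ f : Set (Cfsg.IrrCharacter (Subgroup.centralizer (Q : Set G))), Cfsg.IsInducedBlockIn M (Subgroup.centralizer (Q : Set G)) (Subgroup.centralizer (P : Set G)) c f → Cfsg.IsNilpotentBlock p M f := by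
  have : M.IsMaximal := hM.2.1
  have : CharP (H20.Loc.ResF M) p := H20.Loc.charP_resF hM
  let _ : Algebra (ZMod p) (H20.Loc.ResF M) := ZMod.algebra (H20.Loc.ResF M) p
  have : Algebra.IsAlgebraic (ZMod p) (H20.Loc.ResF M) := H80.BR1.isAlgebraic_resF hM
  have : IsAlgClosed (H20.Loc.ResF M) := H20.Loc.isAlgClosed_resF
  have hmax := H80.BR8.max_of_induced hM hB hPD hPab hc
  have hP := hmax.of.pair
  have hnil : ∀ (Q : Subgroup G), Q ≤ P → ∀ f : Set (IrrCharacter (Subgroup.centralizer (Q : Set G))),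
      Cfsg.IsInducedBlockIn M (Subgroup.centralizer (Q : Set G))
        (Subgroup.centralizer (P : Set G)) c f → (Cfsg.IsNilpotentBlock p M f ↔
          ∀ x ∈ T, x ∈ Subgroup.centralizer (Q : Set G) → x ∈ Subgroup.centralizer (P : Set G)) := by
    intro Q hQP f hf
    have hle := (H80.BR8.sle_iff_induced hM hP.pgr hQP hPab hc.1 hf.2.1).1 hf
    have hm := H80.GV.cent_max hmax hPab hle
    rw [H80.BR3.CH_top] at hm
    rw [H80.FS4.nilp_iff_sub hf.2.1, H80.GV.nilp_abelian hm hPab]
    constructor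
    · intro h x hx hxQ
      have h1 := (hT x).1 hx
      exact h x ⟨hxQ, h1.1, ((H80.BR2.stabilizes_iff hc.1).1 h1.2).2⟩
    · intro h x hx
      exact h x ((hT x).2 ⟨hx.2.1, (H80.BR2.stabilizes_iff hc.1).2
        ⟨H80.BR5.normalizer_cent_le P hx.2.1, hx.2.2⟩⟩) hx.1
  constructor
  · intro h Q hQP hQ1 f hf
    rw [hnil Q hQP f hf]
    intro x hx hxQ
    obtain ⟨u, hu⟩ := Subgroup.ne_bot_iff_exists_ne_one.1 hQ1
    refine h x hx u.1 (hQP u.2) (fun h0 => hu (Subtype.ext h0)) ?_
    have := Subgroup.mem_centralizer_iff.1 hxQ u.1 u.2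
    rw [← this, mul_inv_cancel_right]
  · intro h g hg x hx hx1 hgx
    have hQP : Subgroup.zpowers x ≤ P := Subgroup.zpowers_le.2 hx
    obtain ⟨f', hf'⟩ := (H80.GD.exists_unique_sle hP hQP).exists
    have hf'b := (hf'.pair_left hP).blk
    rw [H80.BR3.CH_top] at hf'b
    obtain ⟨f, hf, rfl⟩ := H80.BR2.exists_bl hf'b
    have hind := (H80.BR8.sle_iff_induced hM hP.pgr hQP hPab hc.1 hf).2 hf'
    have h1 := h (Subgroup.zpowers x) hQP (by rwa [Ne, Subgroup.zpowers_eq_bot]) f hind
    rw [hnil _ hQP f hind] at h1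
    refine h1 g hg ?_
    rw [H19.BrMap2.centralizer_zpowers, Subgroup.mem_centralizer_singleton_iff]
    exact mul_inv_eq_iff_eq_mul.1 hgx

end Cfsg.Agent.S4650
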