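import Cfsg.Statements.S4651
import Cfsg.Agent.Lib.H84.KR2
import Cfsg.Agent.Lib.H84.KR4

set_option autoImplicit false
open Cfsg

namespace Cfsg.Agent.S4651

open H84.KR H84.Wat H80.BR2

universe u

open Classical in
theorem aux {G : Type u} [Group G] [Finite G] [Fintype G] [Fintype (Finset (Subgroup G))] {p : ℕ} [Fact p.Prime]
    {M : Ideal Cfsg.AlgInt} (hM : Cfsg.IsPModular p M) (b : Set (Cfsg.IrrCharacter G)) (hb : Cfsg.IsPBlock M b) :
    (Nat.card G : ℤ) * ((Nat.card b : ℤ) - (Cfsg.blockRank p b : ℤ)) =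
      ∑ s : Finset (Subgroup G), if s.Nonempty ∧ IsCh p s then (-1 : ℤ) ^ (s.card - 1) *
        ((Nat.card (Ns s) : ℤ) * ((Nat.card (Y M b (Ns s)) : ℤ) - (Cfsg.blockRank p (Y M b (Ns s)) : ℤ))) else 0 := by
  have hpr := H20.Loc.pm_isPrime hM
  have h1 : (Nat.card G : ℤ) * ((Nat.card b : ℤ) - (Cfsg.blockRank p b : ℤ)) =
      (Nat.card (⊤ : Subgroup G) : ℤ) * ((Nat.card (Y M b ⊤) : ℤ) - (Cfsg.blockRank p (Y M b ⊤) : ℤ)) := by
    rw [← Y_top hb, card_trI, blockRank_trI, Nat.card_congr (Subgroup.topEquiv (G := G)).toEquiv]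
  have hcd : ∀ N : Subgroup G, (Nat.card N : ℤ) * ((Nat.card (Y M b N) : ℤ) - (Cfsg.blockRank p (Y M b N) : ℤ)) =
      ∑ u : G, if u ≠ 1 ∧ (∃ k : ℕ, orderOf u = p ^ k) ∧ u ∈ N then
        gw p M b (N ⊓ Subgroup.centralizer ({u} : Set G)) else 0 := by
    intro N
    rw [count_diff hM hb N]
    apply Finset.sum_congr
    · ext; simp
    · intro u _
      congr
  rw [h1, hcd]
  have h2 : ∀ s : Finset (Subgroup G), (if s.Nonempty ∧ IsCh p s then (-1 : ℤ) ^ (s.card - 1) *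
        ((Nat.card (Ns s) : ℤ) * ((Nat.card (Y M b (Ns s)) : ℤ) - (Cfsg.blockRank p (Y M b (Ns s)) : ℤ))) else 0) =
      ∑ u : G, if (u ≠ 1 ∧ (∃ k : ℕ, orderOf u = p ^ k)) ∧ (s.Nonempty ∧ IsCh p s ∧ u ∈ Ns s) then
        (-1 : ℤ) ^ (s.card - 1) * gw p M b (Ns s ⊓ Subgroup.centralizer ({u} : Set G)) else 0 := by
    intro s
    by_cases hs : s.Nonempty ∧ IsCh p s
    · rw [if_pos hs, hcd, Finset.mul_sum]
      apply Finset.sum_congr rfl
      intro u _
      by_cases hu : u ≠ 1 ∧ (∃ k : ℕ, orderOf u = p ^ k) ∧ u ∈ Ns s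
      · rw [if_pos hu, if_pos ⟨⟨hu.1, hu.2.1⟩, hs.1, hs.2, hu.2.2⟩]
      · rw [if_neg hu, if_neg (fun h => hu ⟨h.1.1, h.1.2, h.2.2.2⟩), mul_zero]
    · rw [if_neg hs]
      symm
      apply Finset.sum_eq_zero
      intro u _
      rw [if_neg (fun h => hs ⟨h.2.1, h.2.2.1⟩)]
  rw [Finset.sum_congr rfl (fun s _ => h2 s), Finset.sum_comm]
  apply Finset.sum_congr rfl
  intro u _
  by_cases hu : u ≠ 1 ∧ (∃ k : ℕ, orderOf u = p ^ k)
  · rw [if_pos ⟨hu.1, hu.2, Subgroup.mem_top u⟩]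
    have h3 := sum_chains (p := p) hu.1 hu.2 (gw p M b)
    have hempty : IsCh p (∅ : Finset (Subgroup G)) := ⟨by simp, by simp, by simp, by simp⟩
    have hNs : Ns (∅ : Finset (Subgroup G)) = ⊤ := by
      rw [eq_top_iff]
      intro x _
      rw [mem_Ns]
      intro Q hQ
      exact absurd hQ (Finset.notMem_empty Q)
    rw [Finset.sum_filter, ← Finset.add_sum_erase _ _ (Finset.mem_univ (∅ : Finset (Subgroup G))),
      if_pos ⟨hempty, by rw [hNs]; exact Subgroup.mem_top u⟩, hNs, Finset.card_empty, pow_zero, one_mul] at h3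
    have h4 : gw p M b (⊤ ⊓ Subgroup.centralizer ({u} : Set G)) =
        -(∑ s ∈ Finset.univ.erase (∅ : Finset (Subgroup G)), if IsCh p s ∧ u ∈ Ns s then
          (-1 : ℤ) ^ s.card * gw p M b (Ns s ⊓ Subgroup.centralizer ({u} : Set G)) else 0) := by
      omega
    rw [h4, ← Finset.sum_neg_distrib, ← Finset.add_sum_erase Finset.univ (fun s : Finset (Subgroup G) =>
      if (u ≠ 1 ∧ (∃ k : ℕ, orderOf u = p ^ k)) ∧ (s.Nonempty ∧ IsCh p s ∧ u ∈ Ns s) then
        (-1 : ℤ) ^ (s.card - 1) * gw p M b (Ns s ⊓ Subgroup.centralizer ({u} : Set G)) else 0)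
      (Finset.mem_univ (∅ : Finset (Subgroup G))), if_neg (fun h => Finset.not_nonempty_empty h.2.1), zero_add]
    apply Finset.sum_congr rfl
    intro s hs
    have hne : s.Nonempty := Finset.nonempty_iff_ne_empty.2 (Finset.ne_of_mem_erase hs)
    by_cases h5 : IsCh p s ∧ u ∈ Ns s
    · rw [if_pos h5, if_pos ⟨hu, hne, h5.1, h5.2⟩]
      have h6 : 0 < s.card := Finset.card_pos.2 hne
      obtain ⟨n, hn⟩ := Nat.exists_eq_succ_of_ne_zero h6.ne'
      rw [hn, Nat.succ_sub_one, Nat.succ_eq_add_one, pow_succ]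
      ring
    · rw [if_neg h5, if_neg (fun h => h5 ⟨h.2.2.1, h.2.2.2⟩), neg_zero]
  · rw [if_neg (fun h => hu ⟨h.1, h.2.1⟩)]
    symm
    apply Finset.sum_eq_zero
    intro s _
    rw [if_neg (fun h => hu h.1)]

/-- An alternating-sum identity over chains of p-subgroups (the character-count form behind the chain reformulation of Alperin's weight conjecture, which holds unconditionally for the difference k − l). Let b be a block of the finite group G relative to a maximal ideal M of the algebraic integers containing the prime p. Consider the nonempty chains s = {Q_0 < Q_1 < ⋯ < Q_m} of nontrivial p-subgroups of G in which every member is normal in the largest member; let N_G(s) be the intersection of the normalizers of the members (the stabilizer of the chain), and let b_s be the set of irreducible characters of N_G(s) lying in blocks of N_G(s) that induce b. Then #G · (k(b) − l(b)) equals the sum over all such chains s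 of (−1)^m · #N_G(s) · (k(b_s) − l(b_s)), where k counts irreducible characters and l is the p-regular rank; equivalently, k(b) − l(b) is the alternating sum of k(b_s) − l(b_s) over representatives of the conjugacy classes of such chains. -/
theorem result {G : Type*} [Group G] [Finite G] (p : ℕ) [Fact p.Prime] (M : Ideal Cfsg.AlgInt) (hM : Cfsg.IsPModular p M) (b : Set (Cfsg.IrrCharacter G)) (hb : Cfsg.IsPBlock M b) : (Nat.card G : ℤ) * ((Nat.card b : ℤ) - (Cfsg.blockRank p b : ℤ)) = ∑ᶠ s ∈ {s : Finset (Subgroup G) | s.Nonempty ∧ (∀ Q ∈ s, ∀ R ∈ s, Q ≤ R ∨ R ≤ Q) ∧ (∀ Q ∈ s, Q ≠ ⊥ ∧ IsPGroup p Q) ∧ ∃ T ∈ s, ∀ Q ∈ s, Q ≤ T ∧ T ≤ Subgroup.normalizer ((Q : Subgroup G) : Set G)}, (-1 : ℤ) ^ (s.card - 1) * (Nat.card (((⨅ Q ∈ s, Subgroup.normalizer ((Q : Subgroup G) : Set G) : Subgroup G))) : ℤ) * ((Nat.card {ψ : Cfsg.IrrCharacter (((⨅ Q ∈ s, Subgroup.normalizer ((Q : Subgroup G) : Set G) : Subgroup G))) | ∃ β : Set (Cfsg.IrrCharacter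 (((⨅ Q ∈ s, Subgroup.normalizer ((Q : Subgroup G) : Set G) : Subgroup G)))), ψ ∈ β ∧ Cfsg.IsInducedBlock M (((⨅ Q ∈ s, Subgroup.normalizer ((Q : Subgroup G) : Set G) : Subgroup G))) β b} : ℤ) - (Cfsg.blockRank p {ψ : Cfsg.IrrCharacter (((⨅ Q ∈ s, Subgroup.normalizer ((Q : Subgroup G) : Set G) : Subgroup G))) | ∃ β : Set (Cfsg.IrrCharacter (((⨅ Q ∈ s, Subgroup.normalizer ((Q : Subgroup G) : Set G) : Subgroup G)))), ψ ∈ β ∧ Cfsg.IsInducedBlock M (((⨅ Q ∈ s, Subgroup.normalizer ((Q : Subgroup G) : Set G) : Subgroup G))) β b} : ℤ)) := by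
  classical
  let _ := Fintype.ofFinite G
  let _ := Fintype.ofFinite (Finset (Subgroup G))
  rw [aux hM b hb]
  change _ = ∑ᶠ s ∈ {s : Finset (Subgroup G) | s.Nonempty ∧ (∀ Q ∈ s, ∀ R ∈ s, Q ≤ R ∨ R ≤ Q) ∧ (∀ Q ∈ s, Q ≠ ⊥ ∧ IsPGroup p Q) ∧ ∃ T ∈ s, ∀ Q ∈ s, Q ≤ T ∧ T ≤ Subgroup.normalizer ((Q : Subgroup G) : Set G)},
    (-1 : ℤ) ^ (s.card - 1) * (Nat.card (Ns s) : ℤ) * ((Nat.card (Y M b (Ns s)) : ℤ) - (Cfsg.blockRank p (Y M b (Ns s)) : ℤ))
  rw [finsum_mem_eq_sum_filter _ _ (Set.toFinite _)]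
  rw [← Finset.sum_filter]
  symm
  apply Finset.sum_subset_zero_on_sdiff
  · intro s hs
    rw [Finset.mem_filter] at hs ⊢
    have h1 := hs.2
    rw [Set.mem_setOf_eq] at h1
    exact ⟨Finset.mem_univ _, h1.1, (isCh_iff h1.1).2 h1.2⟩
  · intro s hs
    rw [Finset.mem_sdiff, Finset.mem_filter, Finset.mem_filter] at hs
    obtain ⟨⟨-, h1, h2⟩, h3⟩ := hs
    by_contra hne
    apply h3
    refine ⟨?_, h1, (isCh_iff h1).1 h2⟩
    rw [Set.Finite.mem_toFinset, Function.mem_support]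
    rw [← mul_assoc] at hne
    exact hne
  · intro s _
    rw [mul_assoc]

end Cfsg.Agent.S4651
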