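import Cfsg.Statements.S4652
import Cfsg.Agent.Lib.H80.BR5

set_option autoImplicit false
open Cfsg

namespace Cfsg.Agent.S4652

/-- Fix a prime p and a maximal ideal M of the algebraic integers containing p. The defect groups of the principal p-block of a finite group G are exactly the Sylow p-subgroups of G: a subgroup D is a defect group of the principal block if and only if D is a Sylow p-subgroup. -/
theorem result {G : Type*} [Group G] [Fintype G] (p : ℕ) [Fact p.Prime] (M : Ideal Cfsg.AlgInt) (hM : Cfsg.IsPModular p M) (D : Subgroup G) : Cfsg.IsDefectGroup p M (Cfsg.principalBlock M G) D ↔ ∃ S : Sylow p G, (S : Subgroup G) = D := by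
  have : M.IsMaximal := hM.2.1
  have : CharP (H20.Loc.ResF M) p := H20.Loc.charP_resF hM
  let _ : Algebra (ZMod p) (H20.Loc.ResF M) := ZMod.algebra (H20.Loc.ResF M) p
  have : Algebra.IsAlgebraic (ZMod p) (H20.Loc.ResF M) := H80.BR1.isAlgebraic_resF hM
  have hB := H80.BR4.isPBlock_principal M G
  rw [H80.BR2.isDefectGroup_iff_isDef hM hB, H80.GI.princ_isDef H80.BR4.princ_ebar]
  constructor
  · rintro ⟨-, h1, h2⟩
    obtain ⟨S, hS⟩ := h1.exists_le_sylow
    exact ⟨S, h2 S le_top S.2 hS⟩
  · rintro ⟨S, rfl⟩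
    exact ⟨le_top, S.2, fun T _ hT hle => S.3 hT hle⟩

end Cfsg.Agent.S4652
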