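import Cfsg.Statements.S4654
import Cfsg.Agent.Lib.H80.BR5

set_option autoImplicit false
open Cfsg

namespace Cfsg.Agent.S4654

/-- Fix a prime p and a maximal ideal M of the algebraic integers containing p. Let P be a normal p-subgroup of the finite group G, B a p-block of G and e a p-block of C_G(P) such that (P, e) is a Brauer pair of B (as P is normal, this says that e occurs in the idempotent of B, which is supported on C_G(P)). Let T be the stabilizer of e in G under conjugation. Then the idempotent of e is a block idempotent of T: some block E of T has, at every element of T, the same idempotent coefficient as e (zero off C_G(P)); and the idempotent of B is the sum of the distinct G-conjugates of the idempotent of e: its coefficient at g is the sum over all x in G of the coefficient of e at x⁻¹ g x, divided by the order of T. -/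
theorem result {G : Type*} [Group G] [Fintype G] (p : ℕ) [Fact p.Prime] (M : Ideal Cfsg.AlgInt) (hM : Cfsg.IsPModular p M) (P : Subgroup G) [P.Normal] (hP : IsPGroup p P) (B : Set (Cfsg.IrrCharacter G)) (e : Set (Cfsg.IrrCharacter (Subgroup.centralizer (P : Set G)))) (hBe : Cfsg.IsBrauerPairOf p M B P e) (T : Subgroup G) (hT : ∀ x : G, x ∈ T ↔ Cfsg.StabilizesBlock (Subgroup.centralizer (P : Set G)) e x) : (∃ E : Set (Cfsg.IrrCharacter T), Cfsg.IsPBlock M E ∧ ∀ t : T, Cfsg.blockCoeff E t = Cfsg.subgroupBlockCoeff (Subgroup.centralizer (P : Set G)) e (t : G)) ∧ ∀ g : G, Cfsg.blockCoeff B g = (Nat.card T : ℂ)⁻¹ * ∑ x : G, Cfsg.subgroupBlockCoeff (Subgroup.centralizer (P : Set G)) e (x⁻¹ * g * x) := by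
  have : M.IsMaximal := hM.2.1
  have : CharP (H20.Loc.ResF M) p := H20.Loc.charP_resF hM
  let _ : Algebra (ZMod p) (H20.Loc.ResF M) := ZMod.algebra (H20.Loc.ResF M) p
  have : Algebra.IsAlgebraic (ZMod p) (H20.Loc.ResF M) := H80.BR1.isAlgebraic_resF hM
  classical
  obtain ⟨hB, he, hPe⟩ := H80.BR3.brauerPairOf_iff.1 hBe
  have h1 : H80.GB.IsBlk (⊤ : Subgroup G) (H80.BR1.ebar M B) := H80.BR1.isBlk_ebar hB
  have hN : (⊤ : Subgroup G) ≤ Subgroup.normalizer (P : Set G) := by
    rw [Subgroup.normalizer_eq_top_iff.2 inferInstance]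
  have hNC := hN.trans (H80.BR5.normalizer_cent_le P)
  have h2 := H80.GG.br_idem_eq hP le_top hN h1.mem h1.idem
  have hsp : H80.BR1.ebar M B ∈ H80.GA.Sp (H20.Loc.ResF M) (Subgroup.centralizer (P : Set G)) := by
    rw [← h2]; exact H80.GA.br_mem_Sp P _
  have hT' : T = H80.GH.ST ⊤ P (H80.BR2.bl M _ e) := by
    apply H80.BR5.stab_eq he
    intro y
    rw [hT]
    exact ⟨fun h => ⟨hN (Subgroup.mem_top _), h⟩, fun h => h.2⟩
  refine ⟨?_, ?_⟩
  · obtain ⟨F, hF, -, h3⟩ := H80.BR5.exists_stab_blk hP he hT'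
    exact ⟨F, hF, fun t => by rw [← h3, H80.BR4.sbc_coe]⟩
  · intro g
    rw [H80.BR4.lift_idem_top hNC hB hsp]
    have hK : ∀ x : G, Subgroup.centralizer (P : Set G) =
        H80.GA.cs x (Subgroup.centralizer (P : Set G)) := fun x =>
      (H80.GA.mem_normalizer.1 (hNC (Subgroup.mem_top x))).symm
    have h3 : ∀ x : G, Cfsg.subgroupBlockCoeff (Subgroup.centralizer (P : Set G)) e (x⁻¹ * g * x) =
        Cfsg.subgroupBlockCoeff _ (H80.BR2.conjSet x _ (Subgroup.centralizer (P : Set G)) e) g :=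
      fun x => (H80.BR4.sbc_conjSet (hK x) e g).symm
    rw [Finset.sum_congr rfl (fun x _ => h3 x)]
    have hbe : H80.BR1.ebar M B * H80.BR2.bl M _ e = H80.BR2.bl M _ e := by
      have := hPe.br
      rwa [h2] at this
    have hmem : ∀ x : G, H80.BR2.conjSet x _ (Subgroup.centralizer (P : Set G)) e ∈
        H80.BR4.TT M (Subgroup.centralizer (P : Set G)) (H80.BR1.ebar M B) := fun x =>
      H80.BR4.TT_conj hNC h1.mem.1 (H80.BR4.mem_TT.2 ⟨he, hbe⟩) (Subgroup.mem_top x)
    rw [← Finset.sum_fiberwise_of_maps_to (s := Finset.univ)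
      (t := H80.BR4.TT M (Subgroup.centralizer (P : Set G)) (H80.BR1.ebar M B))
      (g := fun x : G => H80.BR2.conjSet x _ (Subgroup.centralizer (P : Set G)) e)
      (fun x _ => hmem x)]
    have hfib : ∀ f ∈ H80.BR4.TT M (Subgroup.centralizer (P : Set G)) (H80.BR1.ebar M B),
        ∑ x ∈ Finset.univ with
          H80.BR2.conjSet x _ (Subgroup.centralizer (P : Set G)) e = f,
          Cfsg.subgroupBlockCoeff _
            (H80.BR2.conjSet x _ (Subgroup.centralizer (P : Set G)) e) g =
        (Nat.card T : ℂ) * Cfsg.subgroupBlockCoeff _ f g := by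
      intro f hf
      rw [Finset.sum_congr rfl (g := fun _ => Cfsg.subgroupBlockCoeff _ f g) (by
        intro x hx
        rw [(Finset.mem_filter.1 hx).2]), Finset.sum_const, nsmul_eq_mul]
      congr 2
      obtain ⟨y, -, hy⟩ := H80.GG.blk_conj_of_normal (K := ⊤) hP le_top hN h1
        (f := H80.BR2.bl M _ e) (f' := H80.BR2.bl M _ f)
        (by rw [H80.BR3.CH_top]; exact H80.BR2.isBlk_bl he)
        (by rw [H80.BR3.CH_top]; exact H80.BR2.isBlk_bl (H80.BR4.mem_TT.1 hf).1) hbe
        (H80.BR4.mem_TT.1 hf).2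
      rw [← Fintype.card_subtype, ← Nat.card_eq_fintype_card]
      apply Nat.card_congr
      refine ⟨fun x => ⟨y⁻¹ * x.1, ?_⟩, fun t => ⟨y * t.1, ?_⟩, ?_, ?_⟩
      · rw [hT', H80.GH.mem_ST]
        refine ⟨Subgroup.mem_top _, hN (Subgroup.mem_top _), ?_⟩
        have hx := congrArg (H80.BR2.bl M _) x.2
        rw [H80.BR2.bl_conjSet (hK x.1), hy] at hx
        rw [H80.GA.cj_mul, hx, H80.GA.cj_inv_cj]
      · have ht : (t : G) ∈ H80.GH.ST ⊤ P (H80.BR2.bl M _ e) := hT' ▸ t.2
        rw [H80.GH.mem_ST] at ht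
        apply H80.BR2.bl_inj (M := M) (H80.BR2.isPBlock_conjSet (hK _) he) (H80.BR4.mem_TT.1 hf).1
        rw [H80.BR2.bl_conjSet (hK _), hy, H80.GA.cj_mul, ht.2.2]
      · intro x; apply Subtype.ext; simp
      · intro x; apply Subtype.ext; simp
    rw [Finset.sum_congr rfl hfib, ← Finset.mul_sum, ← mul_assoc, inv_mul_cancel₀, one_mul]
    exact_mod_cast Nat.card_pos.ne'

end Cfsg.Agent.S4654
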