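import Cfsg.Statements.S4655
import Cfsg.Agent.Lib.H80.BR3

set_option autoImplicit false
open Cfsg

namespace Cfsg.Agent.S4655

/-- Fix a prime p and a maximal ideal M of the algebraic integers containing p. Let (P, e) be a Brauer pair of the finite group G (P a p-subgroup, e a p-block of C_G(P)) and Q a subgroup of P. Then there is exactly one p-block f of C_G(Q) such that the Brauer pair (Q, f) lies below (P, e). -/
theorem result {G : Type*} [Group G] [Fintype G] (p : ℕ) [Fact p.Prime] (M : Ideal Cfsg.AlgInt) (hM : Cfsg.IsPModular p M) (P Q : Subgroup G) (e : Set (Cfsg.IrrCharacter (Subgroup.centralizer (P : Set G)))) (hPe : Cfsg.IsBrauerPair p M P e) (hQP : Q ≤ P) : ∃! f : Set (Cfsg.IrrCharacter (Subgroup.centralizer (Q : Set G))), Cfsg.IsPBlock M f ∧ Cfsg.SubpairLE p M Q f P e := by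
  have : M.IsMaximal := hM.2.1
  have : CharP (H20.Loc.ResF M) p := H20.Loc.charP_resF hM
  let _ : Algebra (ZMod p) (H20.Loc.ResF M) := ZMod.algebra (H20.Loc.ResF M) p
  have : Algebra.IsAlgebraic (ZMod p) (H20.Loc.ResF M) := H80.BR1.isAlgebraic_resF hM
  have hP := (H80.BR3.isPair_iff hPe.2).2 hPe.1
  obtain ⟨f0, hf0, huniq⟩ := H80.GD.exists_unique_sle hP hQP
  have h1 := (H80.GD.SLE.pair_left hP hf0).blk
  rw [H80.BR3.CH_top] at h1
  obtain ⟨f, hf, hff⟩ := H80.BR2.exists_bl h1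
  refine ⟨f, ⟨hf, (H80.BR3.subpairLE_iff hf hPe.2).2 (hff ▸ hf0)⟩, ?_⟩
  rintro f' ⟨hf', hle⟩
  have h2 := huniq _ ((H80.BR3.subpairLE_iff hf' hPe.2).1 hle)
  exact H80.BR2.bl_inj hf' hf (h2.trans hff.symm)

end Cfsg.Agent.S4655
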