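import Cfsg.Statements.S4656
import Cfsg.Agent.Lib.H80.BR3

set_option autoImplicit false
open Cfsg

namespace Cfsg.Agent.S4656

/-- Fix a prime p and a maximal ideal M of the algebraic integers containing p. Let (P, e) be a Brauer pair of the finite group G and Q a normal subgroup of P. Then there is exactly one p-block f of C_G(Q) that is stable under conjugation by P and such that e occurs in the Brauer-map image at P of the idempotent of f; that is, exactly one f with (Q, f) normally below (P, e). -/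
theorem result {G : Type*} [Group G] [Fintype G] (p : ℕ) [Fact p.Prime] (M : Ideal Cfsg.AlgInt) (hM : Cfsg.IsPModular p M) (P Q : Subgroup G) (e : Set (Cfsg.IrrCharacter (Subgroup.centralizer (P : Set G)))) (hPe : Cfsg.IsBrauerPair p M P e) (hQP : Q ≤ P) (hPN : P ≤ Subgroup.normalizer (Q : Set G)) : ∃! f : Set (Cfsg.IrrCharacter (Subgroup.centralizer (Q : Set G))), Cfsg.IsNormalSubpair p M Q f P e := by
  have : M.IsMaximal := hM.2.1
  have : CharP (H20.Loc.ResF M) p := H20.Loc.charP_resF hM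
  let _ : Algebra (ZMod p) (H20.Loc.ResF M) := ZMod.algebra (H20.Loc.ResF M) p
  have : Algebra.IsAlgebraic (ZMod p) (H20.Loc.ResF M) := H80.BR1.isAlgebraic_resF hM
  have hP := (H80.BR3.isPair_iff hPe.2).2 hPe.1
  obtain ⟨f0, hf0⟩ := H80.GD.exists_nle hP hQP hPN
  have h1 := hf0.pairQ.blk
  rw [H80.BR3.CH_top] at h1
  obtain ⟨f, hf, hff⟩ := H80.BR2.exists_bl h1
  refine ⟨f, H80.BR3.normalSubpair_iff.2 ⟨hf, hPe.2, hff ▸ hf0⟩, ?_⟩
  rintro f' hf'
  obtain ⟨h2, -, h3⟩ := H80.BR3.normalSubpair_iff.1 hf'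
  exact H80.BR2.bl_inj h2 hf ((H80.GD.nle_unique h3 hf0).trans hff.symm)

end Cfsg.Agent.S4656
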