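import Cfsg.Statements.S4657
import Cfsg.Agent.Lib.H80.BR3

set_option autoImplicit false
open Cfsg

namespace Cfsg.Agent.S4657

/-- Fix a prime p and a maximal ideal M of the algebraic integers containing p. Every Brauer pair (P, e) of the finite group G is a Brauer pair of exactly one p-block B of G. -/
theorem result {G : Type*} [Group G] [Fintype G] (p : ℕ) [Fact p.Prime] (M : Ideal Cfsg.AlgInt) (hM : Cfsg.IsPModular p M) (P : Subgroup G) (e : Set (Cfsg.IrrCharacter (Subgroup.centralizer (P : Set G)))) (hPe : Cfsg.IsBrauerPair p M P e) : ∃! B : Set (Cfsg.IrrCharacter G), Cfsg.IsBrauerPairOf p M B P e := by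
  have : M.IsMaximal := hM.2.1
  have : CharP (H20.Loc.ResF M) p := H20.Loc.charP_resF hM
  let _ : Algebra (ZMod p) (H20.Loc.ResF M) := ZMod.algebra (H20.Loc.ResF M) p
  have : Algebra.IsAlgebraic (ZMod p) (H20.Loc.ResF M) := H80.BR1.isAlgebraic_resF hM
  have hP := (H80.BR3.isPair_iff hPe.2).2 hPe.1
  obtain ⟨b, hb⟩ := H80.GE.exists_pairOf hP
  obtain ⟨B, hB, rfl⟩ := H80.BR1.exists_ebar hb.blk
  refine ⟨B, H80.BR3.brauerPairOf_iff.2 ⟨hB, hPe.2, hb⟩, ?_⟩
  rintro B' hB'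
  obtain ⟨h2, -, h3⟩ := H80.BR3.brauerPairOf_iff.1 hB'
  exact H80.BR1.ebar_inj h2 hB (H80.GE.pairOf_unique h3 hb)

end Cfsg.Agent.S4657
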