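import Cfsg.Statements.S4658
import Cfsg.Agent.Lib.H80.BR3

set_option autoImplicit false
open Cfsg

namespace Cfsg.Agent.S4658

/-- Fix a prime p and a maximal ideal M of the algebraic integers containing p. Let (Q, f) ≤ (P, e) be Brauer pairs of the finite group G and B a p-block of G. Then (P, e) is a Brauer pair of B if and only if (Q, f) is. -/
theorem result {G : Type*} [Group G] [Fintype G] (p : ℕ) [Fact p.Prime] (M : Ideal Cfsg.AlgInt) (hM : Cfsg.IsPModular p M) (P Q : Subgroup G) (e : Set (Cfsg.IrrCharacter (Subgroup.centralizer (P : Set G)))) (f : Set (Cfsg.IrrCharacter (Subgroup.centralizer (Q : Set G)))) (hPe : Cfsg.IsBrauerPair p M P e) (hQf : Cfsg.IsBrauerPair p M Q f) (hle : Cfsg.SubpairLE p M Q f P e) (B : Set (Cfsg.IrrCharacter G)) (hB : Cfsg.IsPBlock M B) : Cfsg.IsBrauerPairOf p M B P e ↔ Cfsg.IsBrauerPairOf p M B Q f := by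
  have : M.IsMaximal := hM.2.1
  have : CharP (H20.Loc.ResF M) p := H20.Loc.charP_resF hM
  let _ : Algebra (ZMod p) (H20.Loc.ResF M) := ZMod.algebra (H20.Loc.ResF M) p
  have : Algebra.IsAlgebraic (ZMod p) (H20.Loc.ResF M) := H80.BR1.isAlgebraic_resF hM
  have hP := (H80.BR3.isPair_iff hPe.2).2 hPe.1
  rw [H80.BR3.brauerPairOf_iff, H80.BR3.brauerPairOf_iff]
  rw [H80.BR3.subpairLE_iff hQf.2 hPe.2] at hle
  have h := H80.GE.pairOf_of_sle (b := H80.BR1.ebar M B) hP hle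
  exact ⟨fun h1 => ⟨hB, hQf.2, h.1 h1.2.2⟩, fun h1 => ⟨hB, hPe.2, h.2 h1.2.2⟩⟩

end Cfsg.Agent.S4658
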