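import Cfsg.Statements.S4661
import Cfsg.Agent.Lib.H80.BR5

set_option autoImplicit false
open Cfsg

namespace Cfsg.Agent.S4661

/-- Fix a prime p and a maximal ideal M of the algebraic integers containing p. Let (P, e) be a maximal Brauer pair of the p-block B of the finite group G, Q ≤ P, and f the p-block of C_G(Q) with (Q, f) ≤ (P, e). Then C_P(Q) is contained in a defect group of f (as a block of the group C_G(Q)); and for some x in G the conjugate pair (x Q x⁻¹, conjugate of f) again lies below (P, e) and C_P(x Q x⁻¹) is a defect group of the conjugate of f in C_G(x Q x⁻¹). -/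
theorem result {G : Type*} [Group G] [Fintype G] (p : ℕ) [Fact p.Prime] (M : Ideal Cfsg.AlgInt) (hM : Cfsg.IsPModular p M) (B : Set (Cfsg.IrrCharacter G)) (P Q : Subgroup G) (e : Set (Cfsg.IrrCharacter (Subgroup.centralizer (P : Set G)))) (f : Set (Cfsg.IrrCharacter (Subgroup.centralizer (Q : Set G)))) (hmax : Cfsg.IsMaximalBrauerPair p M B P e) (hQP : Q ≤ P) (hf : Cfsg.IsPBlock M f) (hle : Cfsg.SubpairLE p M Q f P e) : (∃ D : Subgroup (Subgroup.centralizer (Q : Set G)), Cfsg.IsDefectGroup p M f D ∧ (P ⊓ Subgroup.centralizer (Q : Set G)).subgroupOf (Subgroup.centralizer (Q : Set G)) ≤ D) ∧ ∃ x : G, Cfsg.SubpairLE p M (Q.map (MulAut.conj x).toMonoidHom) (Cfsg.conjBlock Q x f) P e ∧ Cfsg.IsDefectGroup p M (Cfsg.conjBlock Q x f) ((P ⊓ Subgroup.centralizer ((Q.map (MulAut.conj x).toMonoidHom) : Set G)).subgroupOf (Subgroup.centralizer ((Q.map (MulAut.conj x).toMonoidHom) : Set G))) := by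
  have : M.IsMaximal := hM.2.1
  have : CharP (H20.Loc.ResF M) p := H20.Loc.charP_resF hM
  let _ : Algebra (ZMod p) (H20.Loc.ResF M) := ZMod.algebra (H20.Loc.ResF M) p
  have : Algebra.IsAlgebraic (ZMod p) (H20.Loc.ResF M) := H80.BR1.isAlgebraic_resF hM
  obtain ⟨hB, he, h⟩ := H80.BR3.maximal_iff.1 hmax
  have hle' := (H80.BR3.subpairLE_iff hf he).1 hle
  have hPair := h.of.pair
  refine ⟨?_, ?_⟩
  · obtain ⟨D, h1, h2⟩ := H80.GH.exists_def_ge_cp hPair hle'
    have hDC : D ≤ Subgroup.centralizer (Q : Set G) := h2.le.trans inf_le_left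
    refine ⟨D.subgroupOf _, ?_, ?_⟩
    · rw [H80.BR5.defect_sub hM hf, inf_eq_left.2 hDC]
      rw [H80.BR3.CH_top] at h2
      exact h2
    · apply Subgroup.comap_mono
      rw [inf_comm]; exact h1
  · obtain ⟨x, -, h1, h2⟩ := H80.GH.exists_conj_cp h
      ((H80.GE.pairOf_of_sle hPair hle').1 h.of)
    refine ⟨x, ?_, ?_⟩
    · rw [H80.BR3.subpairLE_iff (H80.BR5.conjBlock_blk hf) he, H80.BR5.bl_conjBlock]
      exact h1
    · rw [H80.BR5.defect_cent hM (H80.BR5.conjBlock_blk hf), H80.BR5.bl_conjBlock]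
      exact h2

end Cfsg.Agent.S4661
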