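import Cfsg.Statements.S4662
import Cfsg.Agent.Lib.H80.BR5

set_option autoImplicit false
open Cfsg

namespace Cfsg.Agent.S4662

/-- Fix a prime p and a maximal ideal M of the algebraic integers containing p. Let (P, e) be a maximal Brauer pair of the p-block B of the finite group G, Q ≤ P, and f the p-block of C_G(Q) with (Q, f) ≤ (P, e). Let T be the stabilizer of f in N_G(Q). Then the idempotent of f is a block idempotent of T, and N_P(Q) is contained in a defect group of that block of T; moreover for some x in G the conjugate pair (x Q x⁻¹, conjugate of f) again lies below (P, e) and, with T' the stabilizer of the conjugate of f in N_G(x Q x⁻¹), N_P(x Q x⁻¹) is a defect group of the block of T' whose idempotent is that of the conjugate of f. -/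
theorem result {G : Type*} [Group G] [Fintype G] (p : ℕ) [Fact p.Prime] (M : Ideal Cfsg.AlgInt) (hM : Cfsg.IsPModular p M) (B : Set (Cfsg.IrrCharacter G)) (P Q : Subgroup G) (e : Set (Cfsg.IrrCharacter (Subgroup.centralizer (P : Set G)))) (f : Set (Cfsg.IrrCharacter (Subgroup.centralizer (Q : Set G)))) (hmax : Cfsg.IsMaximalBrauerPair p M B P e) (hQP : Q ≤ P) (hf : Cfsg.IsPBlock M f) (hle : Cfsg.SubpairLE p M Q f P e) (T : Subgroup G) (hT : ∀ y : G, y ∈ T ↔ y ∈ Subgroup.normalizer (Q : Set G) ∧ Cfsg.StabilizesBlock (Subgroup.centralizer (Q : Set G)) f y) : (∃ F : Set (Cfsg.IrrCharacter T), Cfsg.IsPBlock M F ∧ (∀ t : T, Cfsg.blockCoeff F t = Cfsg.subgroupBlockCoeff (Subgroup.centralizer (Q : Set G)) f (t : G)) ∧ ∃ D : Subgroup T, Cfsg.IsDefectGroup p M F D ∧ (P ⊓ Subgroup.normalizer (Q : Set G)).subgroupOf T ≤ D) ∧ ∃ x : G, Cfsg.SubpairLE p M (Q.map (MulAut.conj x).toMonoidHom) (Cfsg.conjBlock Q x f) P e ∧ ∀ (T' : Subgroup G), (∀ y : G, y ∈ T' ↔ y ∈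 Subgroup.normalizer ((Q.map (MulAut.conj x).toMonoidHom) : Set G) ∧ Cfsg.StabilizesBlock (Subgroup.centralizer ((Q.map (MulAut.conj x).toMonoidHom) : Set G)) (Cfsg.conjBlock Q x f) y) → ∃ F' : Set (Cfsg.IrrCharacter T'), Cfsg.IsPBlock M F' ∧ (∀ t : T', Cfsg.blockCoeff F' t = Cfsg.subgroupBlockCoeff (Subgroup.centralizer ((Q.map (MulAut.conj x).toMonoidHom) : Set G)) (Cfsg.conjBlock Q x f) (t : G)) ∧ Cfsg.IsDefectGroup p M F' ((P ⊓ Subgroup.normalizer ((Q.map (MulAut.conj x).toMonoidHom) : Set G)).subgroupOf T') := by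
  have : M.IsMaximal := hM.2.1
  have : CharP (H20.Loc.ResF M) p := H20.Loc.charP_resF hM
  let _ : Algebra (ZMod p) (H20.Loc.ResF M) := ZMod.algebra (H20.Loc.ResF M) p
  have : Algebra.IsAlgebraic (ZMod p) (H20.Loc.ResF M) := H80.BR1.isAlgebraic_resF hM
  obtain ⟨hB, he, h⟩ := H80.BR3.maximal_iff.1 hmax
  have hle' := (H80.BR3.subpairLE_iff hf he).1 hle
  have hPair := h.of.pair
  have hQpair := hle'.pair_left hPair
  have hT1 := H80.BR5.stab_eq hf hT
  refine ⟨?_, ?_⟩
  · obtain ⟨F, hF, hbl, hco⟩ := H80.BR5.exists_stab_blk hQpair.pgr hf hT1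
    refine ⟨F, hF, fun t => by rw [← hco, H80.BR4.sbc_coe], ?_⟩
    obtain ⟨D, h1, h2⟩ := H80.GH.exists_def_ge_np hPair hle'
    have hDT : D ≤ T := by rw [hT1]; exact h2.le
    refine ⟨D.subgroupOf T, ?_, ?_⟩
    · rw [H80.BR5.defect_sub hM hF, inf_eq_left.2 hDT, hbl]
      convert h2 using 1
    · exact Subgroup.comap_mono h1
  · obtain ⟨x, -, h1, h2⟩ := H80.GH.exists_conj_np h
      ((H80.GE.pairOf_of_sle hPair hle').1 h.of)
    have hcb := H80.BR5.conjBlock_blk (M := M) (x := x) hf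
    refine ⟨x, ?_, ?_⟩
    · rw [H80.BR3.subpairLE_iff hcb he, H80.BR5.bl_conjBlock]
      exact h1
    · intro T' hT'
      have hT2 := H80.BR5.stab_eq hcb hT'
      have hQ' : IsPGroup p (Q.map (MulAut.conj x).toMonoidHom : Subgroup G) :=
        (h1.pair_left hPair).pgr
      obtain ⟨F, hF, hbl, hco⟩ := H80.BR5.exists_stab_blk
        (Q := (Q.map (MulAut.conj x).toMonoidHom : Subgroup G)) hQ' hcb hT2
      refine ⟨F, hF, fun t => by rw [← hco, H80.BR4.sbc_coe], ?_⟩
      rw [H80.BR5.defect_sub hM hF, hbl, H80.BR5.bl_conjBlock]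
      rw [H80.BR5.bl_conjBlock] at hT2
      have h3 : P ⊓ Subgroup.normalizer ((Q.map (MulAut.conj x).toMonoidHom : Subgroup G) : Set G) ≤ T' := by
        rw [hT2]; exact h2.le
      rw [inf_eq_left.2 h3]
      convert h2 using 1
      · exact hT2
      · rfl

end Cfsg.Agent.S4662
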