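import Cfsg.Statements.S4664
import Cfsg.Agent.Lib.H80.BR7
import Cfsg.Agent.Lib.H20.Defect

set_option autoImplicit false
open Cfsg

namespace Cfsg.Agent.S4664
open H18.CharBasic
open scoped ComplexConjugate

lemma root_mem {m : ℕ} (hm : m ≠ 0) {z : ℂ} (hz : z ^ m = 1) :
    z ∈ IntermediateField.adjoin ℚ ({Complex.exp (2 * Real.pi * Complex.I / (m : ℂ))} : Set ℂ) := by
  have h := Complex.isPrimitiveRoot_exp m hm
  have : NeZero m := ⟨hm⟩
  obtain ⟨i, -, hi⟩ := h.eq_pow_of_pow_eq_one hz
  rw [← hi]
  exact pow_mem (IntermediateField.subset_adjoin _ _ (Set.mem_singleton _)) i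

lemma conj_char_mem {G : Type*} [Group G] [Finite G] {m : ℕ} (hm : m ≠ 0) {χ : G → ℂ}
    (hχ : IsCharacter G χ) {g : G} (hg : orderOf g ∣ m) :
    conj (χ g) ∈ IntermediateField.adjoin ℚ
      ({Complex.exp (2 * Real.pi * Complex.I / (m : ℂ))} : Set ℂ) := by
  obtain ⟨s, hs⟩ := exists_eigen hχ g
  have h1 := hs ⟨g, Subgroup.mem_zpowers g⟩
  simp only at h1
  rw [h1]
  clear h1 hs
  induction s using Multiset.induction_on with
  | empty => simp
  | cons a t ih =>
    rw [Multiset.map_cons, Multiset.sum_cons, map_add]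
    refine add_mem ?_ ih
    apply root_mem hm
    rw [← map_pow]
    have h4 : (a ⟨g, Subgroup.mem_zpowers g⟩) ^ m = 1 := by
      rw [← map_pow]
      have : (⟨g, Subgroup.mem_zpowers g⟩ : Subgroup.zpowers g) ^ m = 1 := by
        apply Subtype.ext
        simpa using orderOf_dvd_iff_pow_eq_one.1 hg
      rw [this, map_one]
    rw [← Units.val_pow_eq_pow_val, h4, Units.val_one, map_one]


/-- Fix a prime p and a maximal ideal M of the algebraic integers containing p, and let B be a p-block of the finite group G. Let m be the p'-part of the order of G and η = exp(2πi/m). Then every coefficient of the idempotent of B lies in the cyclotomic field ℚ(η). -/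
theorem result {G : Type*} [Group G] [Fintype G] (p : ℕ) [Fact p.Prime] (M : Ideal Cfsg.AlgInt) (hM : Cfsg.IsPModular p M) (B : Set (Cfsg.IrrCharacter G)) (hB : Cfsg.IsPBlock M B) (g : G) : Cfsg.blockCoeff B g ∈ IntermediateField.adjoin ℚ ({Complex.exp (2 * Real.pi * Complex.I / ((Nat.card G / p ^ (Nat.card G).factorization p : ℕ) : ℂ))} : Set ℂ) := by

  classical
  have hprime : M.IsPrime := (hM.2.1).isPrime
  by_cases hg : p ∣ orderOf g
  · rw [H20.Orth.blockCoeff_eq_zero hM (H20.Blk.isUnion_of_isPBlock hB) hg]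
    exact zero_mem _
  · have hp : p.Prime := Fact.out
    have hcard : Nat.card G ≠ 0 := Nat.card_pos.ne'
    have hm : Nat.card G / p ^ (Nat.card G).factorization p ≠ 0 := (Nat.ordCompl_pos p hcard).ne'
    have hgm : orderOf g ∣ Nat.card G / p ^ (Nat.card G).factorization p := by
      have h1 : orderOf g ∣ p ^ (Nat.card G).factorization p *
          (Nat.card G / p ^ (Nat.card G).factorization p) := by
        rw [Nat.ordProj_mul_ordCompl_eq_self]; exact orderOf_dvd_natCard g
      have h2 : (orderOf g).Coprime (p ^ (Nat.card G).factorization p) :=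
        Nat.Coprime.pow_right _ (((Nat.Prime.coprime_iff_not_dvd hp).2 hg).symm)
      exact h2.dvd_of_dvd_mul_left h1
    let _ := Fintype.ofFinite (IrrCharacter G)
    unfold Cfsg.blockCoeff
    rw [H20.Orth.finsum_mem_eq_sum]
    refine mul_mem (inv_mem (natCast_mem _ _)) (sum_mem ?_)
    intro χ _
    split_ifs
    · refine mul_mem ?_ (conj_char_mem hm (isCharacter_of_isIrr χ.2) hgm)
      rw [← H20.Defect.charDegree_irr]
      exact natCast_mem _ _
    · exact zero_mem _

end Cfsg.Agent.S4664
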