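import Cfsg.Statements.S4665
import Cfsg.Agent.Lib.H80.RK

set_option autoImplicit false
open Cfsg

namespace Cfsg.Agent.S4665
open H20.Blk H20.Orth H20.Defect H80.RK H18.CharBasic


/-- Fix a prime p, a maximal ideal M of the algebraic integers containing p, and a p-block B of the finite group G, and let p^a be the p-part of the order of G. Let χ be an integer combination of the irreducible characters in B. If the function that agrees with χ on p-regular elements and vanishes on p-singular elements is again an integer combination of the irreducible characters in B, then p^a divides χ(1). -/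
theorem result {G : Type*} [Group G] [Fintype G] (p : ℕ) [Fact p.Prime] (M : Ideal Cfsg.AlgInt) (hM : Cfsg.IsPModular p M) (B : Set (Cfsg.IrrCharacter G)) (hB : Cfsg.IsPBlock M B) (χ : G → ℂ) (hχ : (∃ n : Cfsg.IrrCharacter G → ℤ, ∀ g : G, χ g = ∑ᶠ ψ ∈ B, (n ψ : ℂ) * (ψ : G → ℂ) g)) (h0 : (∃ n : Cfsg.IrrCharacter G → ℤ, ∀ g : G, Cfsg.pRegularPart p χ g = ∑ᶠ ψ ∈ B, (n ψ : ℂ) * (ψ : G → ℂ) g)) : ∃ k : ℤ, χ 1 = (p ^ (Nat.card G).factorization p : ℂ) * k := by

  classical
  have hp : p.Prime := Fact.out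
  obtain ⟨n, hn⟩ := h0
  obtain ⟨n', hn'⟩ := hχ
  obtain ⟨P⟩ : Nonempty (Sylow p G) := inferInstance
  let _ := Fintype.ofFinite (P : Subgroup G)
  -- the average over `P`
  have h1 : IsIntegral ℤ ((Nat.card (P : Subgroup G) : ℂ)⁻¹ *
      ∑ u : (P : Subgroup G), Cfsg.pRegularPart p χ ((u : G) * 1)) := by
    have h2 : (Nat.card (P : Subgroup G) : ℂ)⁻¹ *
      ∑ u : (P : Subgroup G), Cfsg.pRegularPart p χ ((u : G) * 1) =
        ∑ ψ : IrrCharacter G, if ψ ∈ B then (n ψ : ℂ) * ((Nat.card (P : Subgroup G) : ℂ)⁻¹ *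
          ∑ u : (P : Subgroup G), (ψ : G → ℂ) ((u : G) * 1)) else 0 := by
      have h3 : ∀ u : (P : Subgroup G), Cfsg.pRegularPart p χ ((u : G) * 1) =
          ∑ ψ : IrrCharacter G, if ψ ∈ B then (n ψ : ℂ) * (ψ : G → ℂ) ((u : G) * 1) else 0 := by
        intro u
        rw [hn, H20.Orth.finsum_mem_eq_sum]
      rw [Finset.sum_congr rfl (fun u _ => h3 u), Finset.sum_comm, Finset.mul_sum]
      apply Finset.sum_congr rfl
      intro ψ _
      by_cases hψ : ψ ∈ B
      · simp only [hψ, if_true]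
        rw [← Finset.mul_sum]; ring
      · simp [hψ]
    rw [h2]
    refine IsIntegral.sum _ (fun ψ _ => ?_)
    split_ifs
    · refine IsIntegral.mul (isIntegral_algebraMap (x := n ψ)) ?_
      refine isIntegral_avg (isCharacter_of_isIrr ψ.2) ?_
      intro x _
      rw [Subgroup.mem_centralizer_singleton_iff]
      simp
    · exact isIntegral_zero
  have h2 : ∑ u : (P : Subgroup G), Cfsg.pRegularPart p χ ((u : G) * 1) = χ 1 := by
    rw [Finset.sum_eq_single (1 : (P : Subgroup G))]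
    · rw [preg_eq, mul_one, Subgroup.coe_one, reg_of]
      rw [orderOf_one]; exact hp.one_lt.ne' ∘ Nat.dvd_one.1
    · intro u _ hu
      rw [mul_one, preg_eq, reg_not]
      obtain ⟨k, hk⟩ := IsPGroup.iff_orderOf.1 P.2 u
      rw [Subgroup.orderOf_coe, hk]
      have hk0 : k ≠ 0 := by
        rintro rfl
        rw [pow_zero, orderOf_eq_one_iff] at hk
        exact hu hk
      exact dvd_pow_self p hk0
    · intro hc; exact absurd (Finset.mem_univ _) hc
  have h3 : ∃ m : ℤ, χ 1 = m := by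
    refine ⟨∑ ψ : IrrCharacter G, if ψ ∈ B then n' ψ * (charDegree (ψ : G → ℂ) : ℤ) else 0, ?_⟩
    rw [hn', H20.Orth.finsum_mem_eq_sum]
    push_cast
    apply Finset.sum_congr rfl
    intro ψ _
    split_ifs
    · rw [charDegree_irr]
    · rfl
  obtain ⟨m, hm⟩ := h3
  rw [h2, hm, inv_mul_eq_div] at h1
  have hP0 : (Nat.card (P : Subgroup G) : ℂ) ≠ 0 := by exact_mod_cast Nat.card_pos.ne'
  -- rational integer
  have h4 : ∃ k : ℤ, (m : ℂ) / (Nat.card (P : Subgroup G) : ℂ) = k := by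
    have h5 : IsIntegral ℤ ((m : ℚ) / (Nat.card (P : Subgroup G) : ℚ)) := by
      have h6 : (m : ℂ) / (Nat.card (P : Subgroup G) : ℂ) =
          algebraMap ℚ ℂ ((m : ℚ) / (Nat.card (P : Subgroup G) : ℚ)) := by
        simp
      rw [h6] at h1
      exact (isIntegral_algebraMap_iff (algebraMap ℚ ℂ).injective).1 h1
    obtain ⟨k, hk⟩ := IsIntegrallyClosed.isIntegral_iff.1 h5
    refine ⟨k, ?_⟩
    have h7 := congrArg (algebraMap ℚ ℂ) hk
    simpa using h7.symm
  obtain ⟨k, hk⟩ := h4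
  refine ⟨k, ?_⟩
  rw [hm]
  rw [div_eq_iff hP0] at hk
  rw [hk, P.card_eq_multiplicity]
  push_cast; ring

end Cfsg.Agent.S4665
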