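import Cfsg.Statements.S4668
import Cfsg.Agent.Lib.H80.GU
import Cfsg.Agent.Lib.H80.BR6

set_option autoImplicit false
open Cfsg

namespace Cfsg.Agent.S4668

/-- Fix a prime p and a maximal ideal M of the algebraic integers containing p. Let Q₀ < Q₁ < ⋯ < Q_m be a strictly increasing chain of p-subgroups of the finite group G and N the intersection of their normalizers. Then every block idempotent of N is supported on C_G(Q_m): for every p-block E of N, the idempotent coefficient of E vanishes at every element of N outside C_G(Q_m). -/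
theorem result {G : Type*} [Group G] [Fintype G] (p : ℕ) [Fact p.Prime] (M : Ideal Cfsg.AlgInt) (hM : Cfsg.IsPModular p M) (m : ℕ) (Q : Fin (m + 1) → Subgroup G) (hQ : StrictMono Q) (hQp : ∀ i, IsPGroup p (Q i)) (N : Subgroup G) (hN : ∀ g : G, g ∈ N ↔ ∀ i, g ∈ Subgroup.normalizer (Q i : Set G)) (E : Set (Cfsg.IrrCharacter N)) (hE : Cfsg.IsPBlock M E) (n : N) (hn : (n : G) ∉ Subgroup.centralizer (Q (Fin.last m) : Set G)) : Cfsg.blockCoeff E n = 0 := by
  have : M.IsMaximal := hM.2.1
  have : CharP (H20.Loc.ResF M) p := H20.Loc.charP_resF hM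
  let _ : Algebra (ZMod p) (H20.Loc.ResF M) := ZMod.algebra (H20.Loc.ResF M) p
  have : Algebra.IsAlgebraic (ZMod p) (H20.Loc.ResF M) := H80.BR1.isAlgebraic_resF hM
  have : IsAlgClosed (H20.Loc.ResF M) := H20.Loc.isAlgClosed_resF
  have hos : H80.GP.Os p (H20.Loc.ResF M) G := fun K z hz hzz g hg => H80.BR6.osima hM hz hzz hg
  have hE' := H80.BR2.isBlk_bl (M := M) hE
  have hsp := H80.GU.chain_supp hos hQ hQp hN hE'.mem hE'.idem
  have hn' : N ≤ Subgroup.normalizer ((Subgroup.centralizer (Q (Fin.last m) : Set G) ⊓ N :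
      Subgroup G) : Set G) := by
    intro y hy
    rw [H80.GA.mem_normalizer, H80.GA.cs_inf, H80.GA.cs_of_mem hy, H80.GA.cs_centralizer,
      H80.GA.mem_normalizer.1 ((hN y).1 hy _)]
  rw [← H80.BR4.sbc_coe, H80.BR4.lift_idem inf_le_right hn' hE hsp]
  apply Finset.sum_eq_zero
  intro f _
  unfold Cfsg.subgroupBlockCoeff
  rw [dif_neg]
  exact fun h => hn h.1

end Cfsg.Agent.S4668
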