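import Cfsg.Statements.S4669
import Cfsg.Agent.Lib.H80.RK3
import Cfsg.Agent.Lib.H80.CQ2

set_option autoImplicit false
open Cfsg

namespace Cfsg.Agent.S4669
open H20.Blk H20.NormQ


/-- Fix a prime p and a maximal ideal M of the algebraic integers containing p. If the p-block B of the finite group G has a defect group P contained in the centre of G, then B has p-regular rank one (a single irreducible Brauer character). -/
theorem result {G : Type*} [Group G] [Fintype G] (p : ℕ) [Fact p.Prime] (M : Ideal Cfsg.AlgInt) (hM : Cfsg.IsPModular p M) (B : Set (Cfsg.IrrCharacter G)) (hB : Cfsg.IsPBlock M B) (P : Subgroup G) (hD : Cfsg.IsDefectGroup p M B P) (hPZ : P ≤ Subgroup.center G) : Cfsg.blockRank p B = 1 := by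

  have hPp : IsPGroup p P := H20.DefGrp.isPGroup_of_isDefectGroup hD
  have hPn : P.Normal := by
    constructor
    intro x hx g
    have h1 := Subgroup.mem_center_iff.1 (hPZ hx) g
    rw [h1, mul_inv_cancel_right]; exact hx
  have hC : ∀ x : G, ¬ p ∣ orderOf x → x ∈ Subgroup.centralizer (P : Set G) := by
    intro x _
    rw [Subgroup.mem_centralizer_iff]
    intro y hy
    exact (Subgroup.mem_center_iff.1 (hPZ hy) x).symm
  obtain ⟨ψ, hψ⟩ := H20.PC.exists_infl_mem P hM hPp hC hB
  have hcard := H20.Defect.card_defectGroup hM hB hD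
  have h1 := H20.Defect.defect_le_degree hM hB hψ
  have h2 : (charDegree (infl P ψ : G → ℂ)).factorization p + (Nat.card P).factorization p =
      (Nat.card G).factorization p := by
    have h3 : Nat.card G = Nat.card (G ⧸ P) * Nat.card P :=
      Subgroup.card_eq_card_quotient_mul_card_subgroup P
    have h4 : (Nat.card P).factorization p = Cfsg.blockDefect p B := by
      rw [hcard, Nat.Prime.factorization_pow Fact.out, Finsupp.single_eq_same]
    have h5 : (Nat.card G).factorization p = (Nat.card (G ⧸ P)).factorization p +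
        (Nat.card P).factorization p := by
      rw [h3, Nat.factorization_mul Nat.card_pos.ne' Nat.card_pos.ne', Finsupp.add_apply]
    have h6 : (charDegree (infl P ψ : G → ℂ)).factorization p ≤
        (Nat.card (G ⧸ P)).factorization p := by
      rw [H80.CQ.charDegree_infl]
      exact (Nat.factorization_le_iff_dvd (H20.Defect.charDegree_ne_zero ψ) Nat.card_pos.ne').2
        (H20.Defect.charDegree_dvd_card ψ) p
    omega
  have hψz := H80.CQ2.fact_quot P h2
  rw [H80.RK3.rank_one_iff hM hB hψ]
  intro χ hχ x hx
  obtain ⟨c, hc⟩ := H80.RK3.reg_prop hM P hPp hC ψ hψz hB hψ hχ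
  have h3 := congrFun hc 1
  have h4 := congrFun hc x
  rw [Pi.smul_apply, H80.RK3.reg_one Fact.out, H80.RK3.reg_one Fact.out, smul_eq_mul] at h3
  rw [Pi.smul_apply, H20.Orth.reg_of hx, H20.Orth.reg_of hx, smul_eq_mul] at h4
  rw [h3, h4, mul_div_assoc, div_self (H80.RK3.irr_one_ne (infl P ψ)), mul_one]

end Cfsg.Agent.S4669
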