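import Cfsg.Statements.S4671
import Cfsg.Agent.Lib.H80.GQ

set_option autoImplicit false
open Cfsg

namespace Cfsg.Agent.S4671

/-- Fix a prime p and a maximal ideal M of the algebraic integers containing p. Let N be a normal subgroup of the finite group G, B a p-block of G and P a defect group of B. Then there is a p-block c of N, stable under conjugation by P and covered by B (some member of B has a constituent in c on restriction to N), such that P ∩ N is a defect group of c. -/
theorem result {G : Type*} [Group G] [Fintype G] (p : ℕ) [Fact p.Prime] (M : Ideal Cfsg.AlgInt) (hM : Cfsg.IsPModular p M) (N : Subgroup G) [N.Normal] [Fintype N] (B : Set (Cfsg.IrrCharacter G)) (hB : Cfsg.IsPBlock M B) (P : Subgroup G) (hP : Cfsg.IsDefectGroup p M B P) : ∃ c : Set (Cfsg.IrrCharacter N), Cfsg.IsPBlock M c ∧ (∀ x ∈ P, Cfsg.StabilizesBlock N c x) ∧ (∃ χ ∈ B, ∃ θ ∈ c, Cfsg.classInner (fun n : N => (χ : G → ℂ) n) (θ : N → ℂ) ≠ 0) ∧ Cfsg.IsDefectGroup p M c ((P ⊓ N).subgroupOf N) :=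 by
  have : M.IsMaximal := hM.2.1
  have : CharP (H20.Loc.ResF M) p := H20.Loc.charP_resF hM
  let _ : Algebra (ZMod p) (H20.Loc.ResF M) := ZMod.algebra (H20.Loc.ResF M) p
  have : Algebra.IsAlgebraic (ZMod p) (H20.Loc.ResF M) := H80.BR1.isAlgebraic_resF hM
  have : IsAlgClosed (H20.Loc.ResF M) := H20.Loc.isAlgClosed_resF
  have hb := H80.BR1.isBlk_ebar hB
  have hdef := (H80.BR2.isDefectGroup_iff_isDef hM hB).1 hP
  have hNn : (⊤ : Subgroup G) ≤ Subgroup.normalizer (N : Set G) := by
    rw [Subgroup.normalizer_eq_top]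
  obtain ⟨c, hc, hcP, hne⟩ := H80.GO.exists_stable_cover (N := N) le_top hNn hb hdef.pgr le_top
    hdef.ne
  obtain ⟨c', hc', rfl⟩ := H80.BR2.exists_bl hc
  refine ⟨c', hc', ?_, ?_, ?_⟩
  · intro x hx
    rw [H80.BR2.stabilizes_iff hc']
    exact ⟨hNn (Subgroup.mem_top x), hcP x hx⟩
  · rw [H80.BR6.cov_iff hB hc']
    intro h0
    rw [h0, map_zero] at hne
    exact hne rfl
  · have h1 := H80.GO.def_inter le_top hNn hb hc hdef hcP hne
    rw [H80.BR2.isDefectGroup_iff_isDef' hM hc', Subgroup.map_subgroupOf_eq_of_le inf_le_right]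
    exact h1

end Cfsg.Agent.S4671
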