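import Cfsg.Statements.S4672
import Cfsg.Agent.Lib.H80.GQ

set_option autoImplicit false
open Cfsg

namespace Cfsg.Agent.S4672

/-- Fix a prime p and a maximal ideal M of the algebraic integers containing p. Let N be a normal subgroup of the finite group G of p-power index and c a p-block of N stable under conjugation by G. Then the idempotent of c is a block idempotent of G: there is a p-block B of G whose idempotent coefficients agree with those of c on N and vanish off N; and for every defect group P of such a block B, G = NP and P ∩ N is a defect group of c. -/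
theorem result {G : Type*} [Group G] [Fintype G] (p : ℕ) [Fact p.Prime] (M : Ideal Cfsg.AlgInt) (hM : Cfsg.IsPModular p M) (N : Subgroup G) [N.Normal] (hN : ∃ k : ℕ, N.index = p ^ k) (c : Set (Cfsg.IrrCharacter N)) (hc : Cfsg.IsPBlock M c) (hst : ∀ x : G, Cfsg.StabilizesBlock N c x) : (∃ B : Set (Cfsg.IrrCharacter G), Cfsg.IsPBlock M B ∧ ∀ g : G, Cfsg.blockCoeff B g = Cfsg.subgroupBlockCoeff N c g) ∧ ∀ B : Set (Cfsg.IrrCharacter G), Cfsg.IsPBlock M B → (∀ g : G, Cfsg.blockCoeff B g = Cfsg.subgroupBlockCoeff N c g) → ∀ P : Subgroup G, Cfsg.IsDefectGroup p M B P → N ⊔ P = ⊤ ∧ Cfsg.IsDefectGroup p M c ((P ⊓ N).subgroupOf N) := by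
  have : M.IsMaximal := hM.2.1
  have : CharP (H20.Loc.ResF M) p := H20.Loc.charP_resF hM
  let _ : Algebra (ZMod p) (H20.Loc.ResF M) := ZMod.algebra (H20.Loc.ResF M) p
  have : Algebra.IsAlgebraic (ZMod p) (H20.Loc.ResF M) := H80.BR1.isAlgebraic_resF hM
  have : IsAlgClosed (H20.Loc.ResF M) := H20.Loc.isAlgClosed_resF
  have hNn : (⊤ : Subgroup G) ≤ Subgroup.normalizer (N : Set G) := by
    rw [Subgroup.normalizer_eq_top]
  obtain ⟨n, hn⟩ := hN
  have hind : (N.subgroupOf ⊤).index = p ^ n := by
    rw [← hn]; exact Subgroup.relIndex_top_right N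
  have hcb := H80.BR2.isBlk_bl (M := M) hc
  have hfx : H80.BR2.bl M N c ∈ H80.GA.Fx (H20.Loc.ResF M) (⊤ : Subgroup G) := fun x _ =>
    ((H80.BR2.stabilizes_iff hc).1 (hst x)).2
  have hblk := H80.BR6.isBlk_pindex hM le_top hNn hind hcb hfx
  constructor
  · obtain ⟨B, hB, hBc⟩ := H80.BR1.exists_ebar hblk
    refine ⟨B, hB, fun g => ?_⟩
    rw [H80.BR4.lift_idem_top hNn hB (by rw [hBc]; exact hcb.mem.2) g, hBc, H80.BR4.TT_blk hc,
      Finset.sum_singleton]
  · intro B hB hBc P hP
    have heq : H80.BR1.ebar M B = H80.BR2.bl M N c := by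
      apply H80.GA.ext'
      intro g
      rw [H80.BR1.coeff_ebar, H80.BR2.coeff_bl, hBc g]
    have hdef := (H80.BR2.isDefectGroup_iff_isDef hM hB).1 hP
    rw [heq] at hdef
    constructor
    · have h1 := H80.GQ.sylow_pindex le_top hNn hind hcb hblk hdef
      rw [eq_top_iff]
      intro t _
      obtain ⟨d, hd, hdt⟩ := h1 t (Subgroup.mem_top t)
      have : t = d * (d⁻¹ * t) := by group
      rw [this]
      exact mul_mem (Subgroup.mem_sup_right hd) (Subgroup.mem_sup_left hdt)
    · have h1 := H80.GO.def_inter (N := N) le_top hNn hblk hcb hdef (fun x _ => hfx x (Subgroup.mem_top x))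
        (by rw [hcb.idem]; exact hdef.ne)
      rw [H80.BR2.isDefectGroup_iff_isDef' hM hc, Subgroup.map_subgroupOf_eq_of_le inf_le_right]
      exact h1

end Cfsg.Agent.S4672
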