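import Cfsg.Statements.S4673
import Cfsg.Agent.Lib.H80.GR

set_option autoImplicit false
open Cfsg

namespace Cfsg.Agent.S4673

/-- Fix a prime p and a maximal ideal M of the algebraic integers containing p. Let N ≤ L be normal subgroups of the finite group G with L/N a p-group, let B be a p-block of G covering the p-block c of N (some member of B has a constituent in c on restriction to N), and suppose that N contains a defect group of B. Then the stabilizer T of c in G satisfies T ∩ L = N. -/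
theorem result {G : Type*} [Group G] [Fintype G] (p : ℕ) [Fact p.Prime] (M : Ideal Cfsg.AlgInt) (hM : Cfsg.IsPModular p M) (N L : Subgroup G) [N.Normal] [L.Normal] [Fintype N] (hNL : N ≤ L) (hLN : ∃ k : ℕ, (N.subgroupOf L).index = p ^ k) (B : Set (Cfsg.IrrCharacter G)) (hB : Cfsg.IsPBlock M B) (c : Set (Cfsg.IrrCharacter N)) (hc : Cfsg.IsPBlock M c) (hcov : (∃ χ ∈ B, ∃ θ ∈ c, Cfsg.classInner (fun n : N => (χ : G → ℂ) n) (θ : N → ℂ) ≠ 0)) (hD : ∃ D : Subgroup G, Cfsg.IsDefectGroup p M B D ∧ D ≤ N) (T : Subgroup G) (hT : ∀ x : G, x ∈ T ↔ Cfsg.StabilizesBlock N c x) : T ⊓ L = N := by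
  have : M.IsMaximal := hM.2.1
  have : CharP (H20.Loc.ResF M) p := H20.Loc.charP_resF hM
  let _ : Algebra (ZMod p) (H20.Loc.ResF M) := ZMod.algebra (H20.Loc.ResF M) p
  have : Algebra.IsAlgebraic (ZMod p) (H20.Loc.ResF M) := H80.BR1.isAlgebraic_resF hM
  have : IsAlgClosed (H20.Loc.ResF M) := H20.Loc.isAlgClosed_resF
  have hNn : (⊤ : Subgroup G) ≤ Subgroup.normalizer (N : Set G) := by
    rw [Subgroup.normalizer_eq_top]
  have hLn : (⊤ : Subgroup G) ≤ Subgroup.normalizer (L : Set G) := by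
    rw [Subgroup.normalizer_eq_top]
  obtain ⟨n, hn⟩ := hLN
  obtain ⟨D, hD, hDN⟩ := hD
  have hos : H80.GP.Os p (H20.Loc.ResF M) G := fun K z hz hzz g hg => H80.BR6.osima hM hz hzz hg
  apply le_antisymm
  · intro x hx
    exact H80.GR.stab_inter hos hNL le_top hNn hLn hn (H80.BR1.isBlk_ebar hB)
      (H80.BR2.isBlk_bl hc) ((H80.BR6.cov_iff hB hc).1 hcov)
      ((H80.BR2.isDefectGroup_iff_isDef hM hB).1 hD) hDN hx.2
      ((H80.BR2.stabilizes_iff hc).1 ((hT x).1 hx.1)).2
  · intro x hx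
    refine ⟨(hT x).2 ((H80.BR2.stabilizes_iff hc).2 ⟨hNn (Subgroup.mem_top x), ?_⟩), hNL hx⟩
    exact (H80.BR2.isBlk_bl (M := M) hc).mem.1 x hx

end Cfsg.Agent.S4673
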