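import Cfsg.Statements.S4674
import Cfsg.Agent.Lib.H80.GS
import Cfsg.Agent.Lib.H80.BR7

set_option autoImplicit false
open Cfsg

namespace Cfsg.Agent.S4674

/-- Fix a prime p and a maximal ideal M of the algebraic integers containing p. Let N be a normal subgroup of the finite group G, Q a p-subgroup of N, H = N_G(Q) and L = H ∩ N = N_N(Q). Let d be a p-block of N with defect group Q and e the p-block of L with defect group Q that induces d inside N (its Brauer correspondent). Then block induction from H to G is a bijection from the p-blocks of H covering e onto the p-blocks of G covering d: every block of H covering e induces exactly one block of G, and that block covers d; and every block of G covering d is induced by exactly one block of H covering e. -/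
theorem result {G : Type*} [Group G] [Fintype G] (p : ℕ) [Fact p.Prime] (M : Ideal Cfsg.AlgInt) (hM : Cfsg.IsPModular p M) (N : Subgroup G) [N.Normal] [Fintype N] (Q : Subgroup G) (hQ : IsPGroup p Q) (hQN : Q ≤ N) [Fintype ↥(Subgroup.normalizer (Q : Set G) ⊓ N)] (d : Set (Cfsg.IrrCharacter N)) (hd : Cfsg.IsPBlock M d) (hdQ : Cfsg.IsDefectGroup p M d (Q.subgroupOf N)) (e : Set (Cfsg.IrrCharacter ↥(Subgroup.normalizer (Q : Set G) ⊓ N))) (he : Cfsg.IsPBlock M e) (heQ : Cfsg.IsDefectGroup p M e (Q.subgroupOf (Subgroup.normalizer (Q : Set G) ⊓ N))) (hed : Cfsg.IsInducedBlockIn M N (Subgroup.normalizer (Q : Set G) ⊓ N) e d) : (∀ c : Set (Cfsg.IrrCharacter ↥(Subgroup.normalizer (Q : Set G))), Cfsg.IsPBlock M c → (∃ ψ ∈ c, ∃ ξ ∈ e, Cfsg.classInner (fun l : ↥(Subgroup.normalizer (Q : Set G) ⊓ N) => (ψ : ↥(Subgroup.normalizer (Q : Set G)) → ℂ) (Subgroup.inclusion inf_le_left l)) (ξ : ↥(Subgroup.normalizer (Q : Set G) ⊓ N) →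 ℂ) ≠ 0) → ∃! B : Set (Cfsg.IrrCharacter G), Cfsg.IsInducedBlock M (Subgroup.normalizer (Q : Set G)) c B ∧ (∃ χ ∈ B, ∃ θ ∈ d, Cfsg.classInner (fun n : N => (χ : G → ℂ) n) (θ : N → ℂ) ≠ 0)) ∧ (∀ B : Set (Cfsg.IrrCharacter G), Cfsg.IsPBlock M B → (∃ χ ∈ B, ∃ θ ∈ d, Cfsg.classInner (fun n : N => (χ : G → ℂ) n) (θ : N → ℂ) ≠ 0) → ∃! c : Set (Cfsg.IrrCharacter ↥(Subgroup.normalizer (Q : Set G))), (Cfsg.IsPBlock M c ∧ ∃ ψ ∈ c, ∃ ξ ∈ e, Cfsg.classInner (fun l : ↥(Subgroup.normalizer (Q : Set G) ⊓ N) => (ψ : ↥(Subgroup.normalizer (Q : Set G)) → ℂ) (Subgroup.inclusion inf_le_left l)) (ξ : ↥(Subgroup.normalizer (Q : Set G) ⊓ N) → ℂ) ≠ 0) ∧ Cfsg.IsInducedBlock M (Subgroup.normalizer (Q : Set G)) c B) := by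
  have : M.IsMaximal := hM.2.1
  have : CharP (H20.Loc.ResF M) p := H20.Loc.charP_resF hM
  let _ : Algebra (ZMod p) (H20.Loc.ResF M) := ZMod.algebra (H20.Loc.ResF M) p
  have : Algebra.IsAlgebraic (ZMod p) (H20.Loc.ResF M) := H80.BR1.isAlgebraic_resF hM
  have : IsAlgClosed (H20.Loc.ResF M) := H20.Loc.isAlgClosed_resF
  have hdQ' := (H80.BR2.isDefectGroup_iff_isDef' hM hd).1 hdQ
  rw [Subgroup.map_subgroupOf_eq_of_le hQN] at hdQ'
  have hdb := H80.BR2.isBlk_bl (M := M) hd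
  have heb := H80.BR2.isBlk_bl (M := M) he
  have hQH : Q ≤ Subgroup.normalizer (Q : Set G) := Subgroup.le_normalizer
  have hQL : Q ≤ Subgroup.normalizer (Q : Set G) ⊓ N := le_inf hQH hQN
  have heQ' := (H80.BR2.isDefectGroup_iff_isDef' hM he).1 heQ
  rw [Subgroup.map_subgroupOf_eq_of_le hQL] at heQ'
  have hCH : H80.GB.CH N Q ≤ Subgroup.normalizer (Q : Set G) ⊓ N :=
    fun x hx => ⟨H80.GH.centralizer_le_normalizer' Q hx.1, hx.2⟩
  have hCle : Subgroup.centralizer (Q : Set G) ≤ Subgroup.normalizer (Q : Set G) :=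
    H80.GH.centralizer_le_normalizer' Q
  have hind := (H80.BR7.inducedIn_iff_br hM hQ hQL inf_le_right hCH inf_le_left he hd).1 hed
  have hbr := H80.GS.br_blk rfl hdb hdQ'
  have heq : H80.GA.br (H20.Loc.ResF M) Q (H80.BR2.bl M N d) =
      H80.BR2.bl M (Subgroup.normalizer (Q : Set G) ⊓ N) e := by
    refine H80.GB.blk_eq_of_mul_ne hbr.1 heb ?_
    rw [hind]; exact heb.ne
  have hnL : Subgroup.normalizer (Q : Set G) ≤
      Subgroup.normalizer ((Subgroup.normalizer (Q : Set G) ⊓ N : Subgroup G) : Set G) := by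
    intro y hy
    rw [H80.GA.mem_normalizer, H80.GA.cs_inf, H80.GA.cs_of_mem hy, H80.GA.mem_normalizer.1 (show y ∈
      Subgroup.normalizer (N : Set G) by rw [Subgroup.normalizer_eq_top]; exact Subgroup.mem_top y)]
  constructor
  · intro c hc hcov
    have hcov' := (H80.BR7.cov_iff_rel inf_le_left hnL hc he).1 hcov
    obtain ⟨B, hB⟩ := H19.BrMap.exists_induced hM hQ hQH hCle le_rfl hc
    have hBb := H80.BR1.isBlk_ebar (M := M) hB.2.1
    have h1 := (H80.BR7.induced_iff_br hM hQ hQH hCle le_rfl hc hB.2.1).1 hB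
    have h2 := H80.GS.hk_cover hdb hdQ' hBb (H80.BR2.isBlk_bl hc) (by rw [heq]; exact hcov') h1
    refine ⟨B, ⟨hB, (H80.BR6.cov_iff hB.2.1 hd).2 h2⟩, ?_⟩
    rintro B' ⟨hB', -⟩
    have : M.IsPrime := (hM.2.1).isPrime
    exact H19.BrMap.induced_unique hB' hB
  · intro B hB hcov
    have hBb := H80.BR1.isBlk_ebar (M := M) hB
    obtain ⟨c', hc', hbc, hne⟩ := H80.GS.hk_exists hdb hdQ' hBb ((H80.BR6.cov_iff hB hd).1 hcov)
    obtain ⟨c, hc, rfl⟩ := H80.BR2.exists_bl hc'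
    rw [heq] at hne
    refine ⟨c, ⟨⟨hc, (H80.BR7.cov_iff_rel inf_le_left hnL hc he).2 hne⟩,
      (H80.BR7.induced_iff_br hM hQ hQH hCle le_rfl hc hB).2 hbc⟩, ?_⟩
    rintro c₁ ⟨⟨hc₁, hcov₁⟩, hind₁⟩
    have hcov₁' := (H80.BR7.cov_iff_rel inf_le_left hnL hc₁ he).1 hcov₁
    have hind₁' := (H80.BR7.induced_iff_br hM hQ hQH hCle le_rfl hc₁ hB).1 hind₁
    exact H80.BR2.bl_inj hc₁ hc (H80.GS.hk_unique hQ hQN heb heQ' (H80.BR2.isBlk_bl hc₁)
      hcov₁' hc' hne hBb hind₁' hbc)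

end Cfsg.Agent.S4674
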