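import Cfsg.Statements.S4679
import Cfsg.Agent.Lib.H80.FS4

set_option autoImplicit false
open Cfsg

namespace Cfsg.Agent.S4679

/-- Fix a prime p and a maximal ideal M of the algebraic integers containing p, a p-block B of the finite group G with maximal Brauer pair (P, e), its fusion system F on P, a Brauer pair (Q, f) ≤ (P, e), and let T be the stabilizer of f in N_G(Q). Then Q is fully normalized in F if and only if N_P(Q) is a defect group of the block of T whose idempotent is that of f. -/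
theorem result {G : Type*} [Group G] [Fintype G] (p : ℕ) [Fact p.Prime] (M : Ideal Cfsg.AlgInt) (hM : Cfsg.IsPModular p M) (B : Set (Cfsg.IrrCharacter G)) (P : Subgroup G) (e : Set (Cfsg.IrrCharacter (Subgroup.centralizer (P : Set G)))) (hmax : Cfsg.IsMaximalBrauerPair p M B P e) (F : Cfsg.FusionSystem P) (hF : Cfsg.IsBlockFusionSystemOn p M B P e F) (Q : Subgroup G) (f : Set (Cfsg.IrrCharacter (Subgroup.centralizer (Q : Set G)))) (hQP : Q ≤ P) (hf : Cfsg.IsPBlock M f) (hle : Cfsg.SubpairLE p M Q f P e) (T : Subgroup G) (hT : ∀ y : G, y ∈ T ↔ y ∈ Subgroup.normalizer (Q : Set G) ∧ Cfsg.StabilizesBlock (Subgroup.centralizer (Q : Set G)) f y) : F.IsFullyNormalized Q ↔ ∃ F' : Set (Cfsg.IrrCharacter T), Cfsg.IsPBlock M F' ∧ (∀ t : T, Cfsg.blockCoeff F' t = Cfsg.subgroupBlockCoeff (Subgroup.centralizer (Q : Set G)) f (t : G)) ∧ Cfsg.IsDefectGroup p M F' ((P ⊓ Subgroup.normalizer (Q : Set G)).subgroupOf T) := by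
  have : M.IsMaximal := hM.2.1
  have : CharP (H20.Loc.ResF M) p := H20.Loc.charP_resF hM
  let _ : Algebra (ZMod p) (H20.Loc.ResF M) := ZMod.algebra (H20.Loc.ResF M) p
  have : Algebra.IsAlgebraic (ZMod p) (H20.Loc.ResF M) := H80.BR1.isAlgebraic_resF hM
  have : IsAlgClosed (H20.Loc.ResF M) := H20.Loc.isAlgClosed_resF
  obtain ⟨hB, he, h⟩ := H80.BR3.maximal_iff.1 hmax
  have hle' := (H80.BR3.subpairLE_iff hf he).1 hle
  have hQ := (hle'.pair_left h.of.pair).pgr
  have hT1 := H80.BR5.stab_eq hf hT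
  have h3 : P ⊓ Subgroup.normalizer (Q : Set G) ≤ T := by
    rw [hT1]; exact H80.GH.NH_le_ST h.of.pair hle'
  rw [H80.FS2.eq_fsys hF h.of.pair, H80.FS3.fn_iff h hle']
  constructor
  · intro h1
    obtain ⟨F', hF', h2, h2'⟩ := H80.BR5.exists_stab_blk hQ hf hT1
    refine ⟨F', hF', fun t => by rw [← h2', H80.BR4.sbc_coe], ?_⟩
    rw [H80.BR5.defect_sub hM hF', h2, inf_eq_left.2 h3]
    rw [← hT1] at h1
    exact h1
  · rintro ⟨F', hF', h1, h2⟩
    have h4 := H80.BR5.stab_blk_unique hQ hf hT1 h1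
    rw [H80.BR5.defect_sub hM hF', h4, inf_eq_left.2 h3] at h2
    rw [← hT1]
    exact h2

end Cfsg.Agent.S4679
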