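import Cfsg.Statements.S4681
import Cfsg.Agent.Lib.H80.FS4

set_option autoImplicit false
open Cfsg

namespace Cfsg.Agent.S4681

/-- Fix a prime p and a maximal ideal M of the algebraic integers containing p. Let B₀ be the principal p-block of the finite group G, P a Sylow p-subgroup and e₀ the principal p-block of C_G(P). Then (P, e₀) is a maximal Brauer pair of B₀, and the fusion system of B₀ on (P, e₀) is the fusion system of G on P: its maps from each subgroup of P are exactly the conjugation maps into P by elements of G. -/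
theorem result {G : Type*} [Group G] [Fintype G] (p : ℕ) [Fact p.Prime] (M : Ideal Cfsg.AlgInt) (hM : Cfsg.IsPModular p M) (S : Sylow p G) : Cfsg.IsMaximalBrauerPair p M (Cfsg.principalBlock M G) (S : Subgroup G) (Cfsg.principalBlock M (Subgroup.centralizer ((S : Subgroup G) : Set G))) ∧ ∀ F : Cfsg.FusionSystem (S : Subgroup G), Cfsg.IsBlockFusionSystemOn p M (Cfsg.principalBlock M G) (S : Subgroup G) (Cfsg.principalBlock M (Subgroup.centralizer ((S : Subgroup G) : Set G))) F → ∀ Q : Subgroup G, F.Hom Q = (Cfsg.groupFusionSystem (S : Subgroup G)).Hom Q := by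
  have : M.IsMaximal := hM.2.1
  have : CharP (H20.Loc.ResF M) p := H20.Loc.charP_resF hM
  let _ : Algebra (ZMod p) (H20.Loc.ResF M) := ZMod.algebra (H20.Loc.ResF M) p
  have : Algebra.IsAlgebraic (ZMod p) (H20.Loc.ResF M) := H80.BR1.isAlgebraic_resF hM
  have : IsAlgClosed (H20.Loc.ResF M) := H20.Loc.isAlgClosed_resF
  have he := H80.BR4.isPBlock_principal M (Subgroup.centralizer ((S : Subgroup G) : Set G))
  have hB := H80.BR4.isPBlock_principal M G
  have hep : H80.GI.IsPrinc (H80.GB.CH ⊤ (S : Subgroup G)) (H80.BR2.bl M _ (Cfsg.principalBlock M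
      (Subgroup.centralizer ((S : Subgroup G) : Set G)))) := by
    rw [H80.BR3.CH_top]; exact H80.BR4.princ_bl _
  have hpo : H80.GE.PairOf p ⊤ (H80.BR1.ebar M (Cfsg.principalBlock M G)) (S : Subgroup G)
      (H80.BR2.bl M _ (Cfsg.principalBlock M
      (Subgroup.centralizer ((S : Subgroup G) : Set G)))) :=
    H80.GI.princ_pairOf H80.BR4.princ_ebar S.2 le_top hep
  have h : H80.GE.IsMax p ⊤ (H80.BR1.ebar M (Cfsg.principalBlock M G)) (S : Subgroup G)
      (H80.BR2.bl M _ (Cfsg.principalBlock M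
      (Subgroup.centralizer ((S : Subgroup G) : Set G)))) := by
    rw [H80.GE.isMax_iff_isDef hpo, H80.GI.princ_isDef H80.BR4.princ_ebar]
    exact ⟨le_top, S.2, fun T _ hT hle => S.3 hT hle⟩
  have hmax := H80.BR3.maximal_iff.2 ⟨hB, he, h⟩
  refine ⟨hmax, ?_⟩
  intro F hF Q
  rw [H80.FS2.eq_fsys hF h.of.pair]
  ext φ
  rw [H80.FS.mem_fsys]
  change _ ↔ Q ≤ (S : Subgroup G) ∧ (∀ x : Q, φ x ∈ (S : Subgroup G)) ∧
    ∃ g : G, ∀ x : Q, φ x = g * (x : G) * g⁻¹
  constructor
  · rintro ⟨hQ, g, -, h1, h2⟩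
    refine ⟨hQ, fun x => ?_, g, h1⟩
    apply (H80.FS.fus_le h.of.pair h2).2
    rw [← H80.FS.range_eq h1]; exact ⟨x, rfl⟩
  · rintro ⟨hQ, h1, g, h2⟩
    refine ⟨hQ, g, Subgroup.mem_top _, h2, ?_⟩
    obtain ⟨f, hf⟩ := H80.GI.exists_princ (H20.Loc.ResF M) (H80.GB.CH (⊤ : Subgroup G) Q)
    refine ⟨f, H80.GI.princ_sle S.2 le_top hep hQ hf, ?_⟩
    have hgQ : H80.GA.cs g Q ≤ (S : Subgroup G) := by
      rw [← H80.FS.range_eq h2]
      rintro _ ⟨x, rfl⟩; exact h1 x
    apply H80.GI.princ_sle S.2 le_top hep hgQ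
    have := H80.GI.princ_cj hf g
    rwa [H80.GD.cs_CH, H80.GA.cs_of_mem (Subgroup.mem_top g)] at this

end Cfsg.Agent.S4681
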