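import Cfsg.Statements.S4682
import Cfsg.Agent.Lib.H80.FS4

set_option autoImplicit false
open Cfsg

namespace Cfsg.Agent.S4682

/-- Fix a prime p and a maximal ideal M of the algebraic integers containing p, a p-block B of the finite group G with maximal Brauer pair (P, e), P abelian, and a Brauer pair (Q, f) ≤ (P, e). Let T_Q be the stabilizer of f in N_G(Q) and T_P the stabilizer of e in N_G(P). Then every element of T_Q is a product of an element of T_P and an element of C_G(Q); and the index of C_G(Q) in T_Q equals the index of T_P ∩ C_G(Q) in T_P ∩ N_G(Q). -/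
theorem result {G : Type*} [Group G] [Fintype G] (p : ℕ) [Fact p.Prime] (M : Ideal Cfsg.AlgInt) (hM : Cfsg.IsPModular p M) (B : Set (Cfsg.IrrCharacter G)) (P : Subgroup G) (e : Set (Cfsg.IrrCharacter (Subgroup.centralizer (P : Set G)))) (hmax : Cfsg.IsMaximalBrauerPair p M B P e) (hab : ∀ x ∈ P, ∀ y ∈ P, x * y = y * x) (Q : Subgroup G) (f : Set (Cfsg.IrrCharacter (Subgroup.centralizer (Q : Set G)))) (hQP : Q ≤ P) (hf : Cfsg.IsPBlock M f) (hle : Cfsg.SubpairLE p M Q f P e) (TQ : Subgroup G) (hTQ : ∀ y : G, y ∈ TQ ↔ y ∈ Subgroup.normalizer (Q : Set G) ∧ Cfsg.StabilizesBlock (Subgroup.centralizer (Q : Set G)) f y) (TP : Subgroup G) (hTP : ∀ y : G, y ∈ TP ↔ y ∈ Subgroup.normalizer (P : Set G) ∧ Cfsg.StabilizesBlock (Subgroup.centralizer (P : Set G)) e y) : (∀ x ∈ TQ, ∃ y ∈ TP, ∃ c ∈ Subgroup.centralizer (Q : Set G), x = y * c) ∧ ((Subgroup.centralizer (Q : Set G)).subgroupOf TQ).index = ((TP ⊓ Subgroup.centralizer (Q : Set G)).subgroupOf (TP ⊓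 Subgroup.normalizer (Q : Set G))).index := by
  have : M.IsMaximal := hM.2.1
  have : CharP (H20.Loc.ResF M) p := H20.Loc.charP_resF hM
  let _ : Algebra (ZMod p) (H20.Loc.ResF M) := ZMod.algebra (H20.Loc.ResF M) p
  have : Algebra.IsAlgebraic (ZMod p) (H20.Loc.ResF M) := H80.BR1.isAlgebraic_resF hM
  have : IsAlgClosed (H20.Loc.ResF M) := H20.Loc.isAlgClosed_resF
  obtain ⟨hB, he, h⟩ := H80.BR3.maximal_iff.1 hmax
  have hP := h.of.pair
  have hle' := (H80.BR3.subpairLE_iff hf he).1 hle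
  have hQ := hle'.pair_left hP
  have hT1 := H80.BR5.stab_eq hf hTQ
  have hT2 := H80.BR5.stab_eq he hTP
  have h1 : ∀ x ∈ TQ, ∃ y ∈ TP, ∃ c ∈ Subgroup.centralizer (Q : Set G), x = y * c := by
    intro x hx
    rw [hT1] at hx
    obtain ⟨y, hy, c, hc, hxy⟩ := H80.FS4.abelian_factor h hab hle' hx
    exact ⟨y, by rw [hT2]; exact hy, c, hc.1, hxy⟩
  refine ⟨h1, ?_⟩
  -- `A = TP ⊓ N(Q) ≤ TQ`
  have hA : TP ⊓ Subgroup.normalizer (Q : Set G) ≤ TQ := by
    intro y hy
    have hy1 : y ∈ H80.GH.ST ⊤ P (H80.BR2.bl M _ e) := hT2 ▸ hy.1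
    rw [hT1, H80.GH.mem_ST]
    refine ⟨Subgroup.mem_top _, hy.2, ?_⟩
    have h3 := H80.GE.sle_cj hle' y
    rw [H80.GA.cs_of_mem (Subgroup.mem_top y), H80.GA.mem_normalizer.1 hy1.2.1, hy1.2.2,
      H80.GA.mem_normalizer.1 hy.2] at h3
    exact H80.GD.SLE.unique hP h3 hle'
  let φ : TQ →* MulAut Q := (Q.normalizerMonoidHom).comp
    (Subgroup.inclusion (fun x hx => ((hTQ x).1 hx).1))
  have hker : φ.ker = (Subgroup.centralizer (Q : Set G)).subgroupOf TQ := by
    have : φ.ker = (Q.normalizerMonoidHom.ker).comap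
      (Subgroup.inclusion (fun x hx => ((hTQ x).1 hx).1)) := rfl
    rw [this, Subgroup.normalizerMonoidHom_ker]
    rfl
  have hker2 : (φ.comp (Subgroup.inclusion hA)).ker =
      (TP ⊓ Subgroup.centralizer (Q : Set G)).subgroupOf
        (TP ⊓ Subgroup.normalizer (Q : Set G)) := by
    have : (φ.comp (Subgroup.inclusion hA)).ker = φ.ker.comap (Subgroup.inclusion hA) := rfl
    rw [this, hker]
    ext x
    constructor
    · intro hx; exact ⟨x.2.1, hx⟩
    · intro hx; exact hx.2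
  rw [← hker, ← hker2, Subgroup.index_ker, Subgroup.index_ker]
  have : φ.range = (φ.comp (Subgroup.inclusion hA)).range := by
    apply le_antisymm
    · rintro _ ⟨x, rfl⟩
      obtain ⟨y, hy, c, hc, hxy⟩ := h1 x x.2
      have hcN : c ∈ Subgroup.normalizer (Q : Set G) := H80.GH.centralizer_le_normalizer' Q hc
      have hxN : (x : G) ∈ Subgroup.normalizer (Q : Set G) := ((hTQ x).1 x.2).1
      have hyN : y ∈ Subgroup.normalizer (Q : Set G) := by
        have : y = x * c⁻¹ := by rw [hxy]; simp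
        rw [this]; exact mul_mem hxN (inv_mem hcN)
      refine ⟨⟨y, hy, hyN⟩, ?_⟩
      ext u
      change y * (u : G) * y⁻¹ = x * (u : G) * (x : G)⁻¹
      rw [hxy]
      have := Subgroup.mem_centralizer_iff.1 hc u u.2
      have h5 : y * c * (u : G) * (y * c)⁻¹ = y * (c * u * c⁻¹) * y⁻¹ := by simp [mul_assoc]
      rw [h5, ← this]; simp
    · rintro _ ⟨x, rfl⟩
      exact ⟨_, rfl⟩
  rw [this]

end Cfsg.Agent.S4682
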