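import Cfsg.Statements.S4683
import Cfsg.Agent.Lib.H84.Star8

set_option autoImplicit false
open Cfsg

namespace Cfsg.Agent.S4683

open H20.Loc H20.GA H80.GA H80.GB H80.GE H18.CharBasic H18.CharOrtho
open H20.Blk H20.Orth H80.BR1 H80.BR2 H81.Section H81.Contrib H84.Star
open scoped ComplexConjugate

attribute [local instance 2000] Fintype.ofFinite

universe u

theorem aux {G : Type u} [Group G] [Finite G] {p : ℕ} [Fact p.Prime] {M : Ideal Cfsg.AlgInt} [M.IsMaximal]
    [CharP (ResF M) p] [Algebra (ZMod p) (ResF M)] [Algebra.IsAlgebraic (ZMod p) (ResF M)]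
    (hM : Cfsg.IsPModular p M) {B : Set (Cfsg.IrrCharacter G)} (hB : IsPBlock M B) (u : G)
    (hu : ∃ k : ℕ, orderOf u = p ^ k) (K : Subgroup G) (hK : K = C u) (e : Set (IrrCharacter K))
    (he : IsPBlock M e) (hpair : PairOf p ⊤ (ebar M B) (Subgroup.zpowers u) (bl M K e)) :
    ∑ᶠ χ ∈ B, ∑ᶠ s : K, pRegularPart p (blockPart e (fun c : K => (χ : G → ℂ) (u * c))) s *
      blockPart e (fun c : K => (χ : G → ℂ) (u⁻¹ * c)) s⁻¹ = (Nat.card K : ℂ) * (blockRank p e : ℂ) := by
  classical
  subst hK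
  have hpr := (inferInstance : M.IsMaximal).isPrime
  have hinv : ∀ (χ : IrrCharacter G) (s : C u), blockPart e (fun c : C u => (χ : G → ℂ) (u⁻¹ * c)) s⁻¹ =
      conj (proj e (tw u (χ : G → ℂ)) s) := by
    intro χ s
    change proj e _ _ = _
    rw [proj_eq_sum, proj_eq_sum, map_sum]
    apply Finset.sum_congr rfl
    intro ξ _
    split_ifs with hξ
    · rw [map_mul, char_inv (isCharacter_of_isIrr ξ.2)]
      congr 1
      unfold classInner
      rw [map_mul, map_sum, map_inv₀, Complex.conj_natCast]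
      congr 1
      rw [← Equiv.sum_comp (Equiv.inv (C u))]
      apply Finset.sum_congr rfl
      intro c _
      rw [Equiv.inv_apply, char_inv (isCharacter_of_isIrr ξ.2), map_mul]
      congr 1
      rw [tw, ← char_inv (isCharacter_of_isIrr χ.2)]
      have h1 : (u * (c : G))⁻¹ = (c : G)⁻¹ * (u⁻¹ * (c⁻¹ : C u)) * ((c : G)⁻¹)⁻¹ := by
        push_cast; group
      rw [h1, isClassFunction_of_isIrr χ.2]
    · rw [map_zero]
  have hinner : ∀ χ : IrrCharacter G, (∑ᶠ s : C u, pRegularPart p (blockPart e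
      (fun c : C u => (χ : G → ℂ) (u * c))) s * blockPart e (fun c : C u => (χ : G → ℂ) (u⁻¹ * c)) s⁻¹) =
      (Nat.card (C u) : ℂ) * classInner (comp p u e (χ : G → ℂ)) (comp p u e (χ : G → ℂ)) := by
    intro χ
    rw [finsum_eq_sum_of_fintype, pRegularPart_eq]
    unfold classInner
    rw [← mul_assoc, mul_inv_cancel₀ (by exact_mod_cast (Nat.card_pos (α := C u)).ne'), one_mul]
    apply Finset.sum_congr rfl
    intro s _
    rw [hinv]
    change reg p (proj e (tw u (χ : G → ℂ))) s * _ = _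
    rw [comp]
    by_cases hs : p ∣ orderOf s
    · rw [reg_not hs, zero_mul, zero_mul]
    · rw [reg_of hs]
  have hzero : ∀ χ : IrrCharacter G, χ ∉ B → comp p u e (χ : G → ℂ) = 0 := by
    intro χ hχ
    have hind := (ind_iff hM hu he hB).2 hpair
    exact comp_eq_zero' hM hu hind hχ
  rw [H20.Orth.finsum_mem_eq_sum, ← sum_diag hM (isUnion_of_isPBlock he) hu, Finset.mul_sum]
  apply Finset.sum_congr rfl
  intro χ _
  rw [hinner]
  split_ifs with h
  · rfl
  · rw [hzero χ h, H18.CharOrtho.inner_zero_left, mul_zero]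

/-- Fix a prime p and a maximal ideal M of the algebraic integers containing p, a p-block B of the finite group G, a p-element u and a p-block e of C = C_G(u) such that (⟨u⟩, e) is a Brauer pair of B (a Brauer element of B). For χ ∈ B let χ_u be the e-part of the class function c ↦ χ(u c) on C and χ_u' the e-part of c ↦ χ(u⁻¹ c). Then the sum over χ ∈ B and over the p-regular elements s of C of χ_u(s)·χ_u'(s⁻¹) equals the order of C times the p-regular rank of e (the number of irreducible Brauer characters of e). -/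
theorem result {G : Type*} [Group G] [Fintype G] (p : ℕ) [Fact p.Prime] (M : Ideal Cfsg.AlgInt) (hM : Cfsg.IsPModular p M) (B : Set (Cfsg.IrrCharacter G)) (u : G) (hu : ∃ k : ℕ, orderOf u = p ^ k) (e : Set (Cfsg.IrrCharacter (Subgroup.centralizer (Subgroup.zpowers u : Set G)))) (hBe : Cfsg.IsBrauerPairOf p M B (Subgroup.zpowers u) e) : ∑ᶠ χ ∈ B, ∑ᶠ s : Subgroup.centralizer (Subgroup.zpowers u : Set G), Cfsg.pRegularPart p (Cfsg.blockPart e (fun c : Subgroup.centralizer (Subgroup.zpowers u : Set G) => (χ : G → ℂ) (u * c))) s * Cfsg.blockPart e (fun c : Subgroup.centralizer (Subgroup.zpowers u : Set G) => (χ : G → ℂ) (u⁻¹ * c)) s⁻¹ = (Nat.card (Subgroup.centralizer (Subgroup.zpowers u : Set G)) : ℂ) * (Cfsg.blockRank p e : ℂ) := by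
  have : M.IsMaximal := hM.2.1
  have : CharP (H20.Loc.ResF M) p := H20.Loc.charP_resF hM
  let _ : Algebra (ZMod p) (H20.Loc.ResF M) := ZMod.algebra (H20.Loc.ResF M) p
  have : Algebra.IsAlgebraic (ZMod p) (H20.Loc.ResF M) := H80.BR1.isAlgebraic_resF hM
  obtain ⟨hB, he, h⟩ := H80.BR3.brauerPairOf_iff.1 hBe
  exact aux hM hB u hu _ (CZ_eq u) e he h

end Cfsg.Agent.S4683
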