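import Cfsg.Statements.S4686
import Cfsg.Agent.Lib.H80.FS4

set_option autoImplicit false
open Cfsg

namespace Cfsg.Agent.S4686

/-- Fix a prime p and a maximal ideal M of the algebraic integers containing p, a p-block B of the finite group G with maximal Brauer pair (P, e) and fusion system F on P. Then B is nilpotent (for every Brauer pair (Q, f) of B the stabilizer of f in N_G(Q) is C_G(Q) extended by a p-group) if and only if F is the inner fusion system of P: its maps from each subgroup of P are exactly the conjugations by elements of P. -/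
theorem result {G : Type*} [Group G] [Fintype G] (p : ℕ) [Fact p.Prime] (M : Ideal Cfsg.AlgInt) (hM : Cfsg.IsPModular p M) (B : Set (Cfsg.IrrCharacter G)) (P : Subgroup G) (e : Set (Cfsg.IrrCharacter (Subgroup.centralizer (P : Set G)))) (hmax : Cfsg.IsMaximalBrauerPair p M B P e) (F : Cfsg.FusionSystem P) (hF : Cfsg.IsBlockFusionSystemOn p M B P e F) : Cfsg.IsNilpotentBlock p M B ↔ ∀ Q : Subgroup G, F.Hom Q = (Cfsg.innerFusionSystem P).Hom Q := by
  have : M.IsMaximal := hM.2.1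
  have : CharP (H20.Loc.ResF M) p := H20.Loc.charP_resF hM
  let _ : Algebra (ZMod p) (H20.Loc.ResF M) := ZMod.algebra (H20.Loc.ResF M) p
  have : Algebra.IsAlgebraic (ZMod p) (H20.Loc.ResF M) := H80.BR1.isAlgebraic_resF hM
  have : IsAlgClosed (H20.Loc.ResF M) := H20.Loc.isAlgClosed_resF
  obtain ⟨hB, he, h⟩ := H80.BR3.maximal_iff.1 hmax
  have hP := h.of.pair
  rw [H80.FS4.nilp_iff_top hB, H80.FS3.nilp_iff h, H80.FS2.eq_fsys hF hP]
  constructor
  · intro h1 Q
    ext φ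
    rw [H80.FS.mem_fsys]
    change _ ↔ Q ≤ P ∧ ∃ g ∈ P, ∀ x : Q, φ x = g * (x : G) * g⁻¹
    constructor
    · rintro ⟨hQ, g, hg, h2, h3⟩
      obtain ⟨y, hy, hyx⟩ := h1 Q g hg h3
      exact ⟨hQ, y, hy, fun x => by rw [h2, hyx x x.2]⟩
    · rintro ⟨hQ, g, hg, h2⟩
      exact ⟨hQ, g, Subgroup.mem_top _, h2, H80.FS.fus_mem hP hQ hg⟩
  · intro h1 Q g hg hfus
    have h2 : Cfsg.conjHom Q g ∈ (H80.FS.fsys hP).Hom Q :=
      ⟨(H80.FS.fus_le hP hfus).1, g, hg, fun u => rfl, hfus⟩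
    rw [h1 Q] at h2
    have h2' : Q ≤ P ∧ ∃ y ∈ P, ∀ x : Q, Cfsg.conjHom Q g x = y * (x : G) * y⁻¹ := h2
    obtain ⟨-, y, hy, h3⟩ := h2'
    exact ⟨y, hy, fun u hu => h3 ⟨u, hu⟩⟩

end Cfsg.Agent.S4686
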