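import Cfsg.Statements.S4692
import Cfsg.Agent.Lib.H80.GQ

set_option autoImplicit false
open Cfsg

namespace Cfsg.Agent.S4692

/-- Fix a prime p and a maximal ideal M of the algebraic integers containing p. Let N be a normal subgroup of p-power index in the finite group G and c a p-block of N stable under conjugation by G, and let B be the p-block of G whose idempotent is that of c (it exists and is unique). Then c is nilpotent as a block of N if and only if B is nilpotent as a block of G. -/
theorem result {G : Type*} [Group G] [Fintype G] (p : ℕ) [Fact p.Prime] (M : Ideal Cfsg.AlgInt) (hM : Cfsg.IsPModular p M) (N : Subgroup G) [N.Normal] (hN : ∃ k : ℕ, N.index = p ^ k) (c : Set (Cfsg.IrrCharacter N)) (hc : Cfsg.IsPBlock M c) (hst : ∀ x : G, Cfsg.StabilizesBlock N c x) (B : Set (Cfsg.IrrCharacter G)) (hB : Cfsg.IsPBlock M B) (hBc : ∀ g : G, Cfsg.blockCoeff B g = Cfsg.subgroupBlockCoeff N c g) : Cfsg.IsNilpotentBlock p M c ↔ Cfsg.IsNilpotentBlock p M B := by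
  have : M.IsMaximal := hM.2.1
  have : CharP (H20.Loc.ResF M) p := H20.Loc.charP_resF hM
  let _ : Algebra (ZMod p) (H20.Loc.ResF M) := ZMod.algebra (H20.Loc.ResF M) p
  have : Algebra.IsAlgebraic (ZMod p) (H20.Loc.ResF M) := H80.BR1.isAlgebraic_resF hM
  have : IsAlgClosed (H20.Loc.ResF M) := H20.Loc.isAlgClosed_resF
  have hNn : (⊤ : Subgroup G) ≤ Subgroup.normalizer (N : Set G) := by
    rw [Subgroup.normalizer_eq_top]
  obtain ⟨n, hn⟩ := hN
  have hind : (N.subgroupOf ⊤).index = p ^ n := by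
    rw [← hn]; exact Subgroup.relIndex_top_right N
  have hcb := H80.BR2.isBlk_bl (M := M) hc
  have heq : H80.BR1.ebar M B = H80.BR2.bl M N c := by
    apply H80.GA.ext'
    intro g
    rw [H80.BR1.coeff_ebar, H80.BR2.coeff_bl, hBc g]
  have hbb := H80.BR1.isBlk_ebar hB
  have hos : H80.GP.Os p (H20.Loc.ResF M) G := fun K z hz hzz g hg => H80.BR6.osima hM hz hzz hg
  rw [H80.FS4.nilp_iff_top hB, H80.FS4.nilp_iff_sub hc, heq]
  rw [heq] at hbb
  exact ⟨H80.GQ.nilp_pindex_mp hos le_top hNn hind hcb hbb,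
    H80.GQ.nilp_pindex_mpr hos le_top hNn hind hcb hbb⟩

end Cfsg.Agent.S4692
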