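import Cfsg.Statements.S4693
import Cfsg.Agent.Lib.H80.GT
import Cfsg.Agent.Lib.H80.BR7

set_option autoImplicit false
open Cfsg

namespace Cfsg.Agent.S4693

/-- Fix a prime p and a maximal ideal M of the algebraic integers containing p, a p-block B of the finite group G with maximal Brauer pair (P, e) and fusion system F on P, and a Brauer pair (Q, f) ≤ (P, e) with Q centric in F. Suppose every element of G normalizes Q and stabilizes f. Then the idempotent of B agrees with that of f modulo M at every element of G, and f is the idempotent of a nilpotent block of Q·C_G(Q): some p-block of Q·C_G(Q) has the idempotent coefficients of f and is nilpotent. -/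
theorem result {G : Type*} [Group G] [Fintype G] (p : ℕ) [Fact p.Prime] (M : Ideal Cfsg.AlgInt) (hM : Cfsg.IsPModular p M) (B : Set (Cfsg.IrrCharacter G)) (P : Subgroup G) (e : Set (Cfsg.IrrCharacter (Subgroup.centralizer (P : Set G)))) (hmax : Cfsg.IsMaximalBrauerPair p M B P e) (F : Cfsg.FusionSystem P) (hF : Cfsg.IsBlockFusionSystemOn p M B P e F) (Q : Subgroup G) (f : Set (Cfsg.IrrCharacter (Subgroup.centralizer (Q : Set G)))) (hQP : Q ≤ P) (hf : Cfsg.IsPBlock M f) (hle : Cfsg.SubpairLE p M Q f P e) (hcen : F.IsCentric Q) (hG : ∀ x : G, x ∈ Subgroup.normalizer (Q : Set G) ∧ Cfsg.StabilizesBlock (Subgroup.centralizer (Q : Set G)) f x) : (∀ g : G, Cfsg.MemLocalIdeal M (Cfsg.blockCoeff B g - Cfsg.subgroupBlockCoeff (Subgroup.centralizer (Q : Set G)) f g)) ∧ ∃ F' : Set (Cfsg.IrrCharacter ↥(Q ⊔ Subgroup.centralizer (Q : Set G))), Cfsg.IsPBlock M F' ∧ (∀ t : ↥(Q ⊔ Subgroup.centralizer (Q : Set G)), Cfsg.blockCoeff F' t = Cfsg.subgroupBlockCoeff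 (Subgroup.centralizer (Q : Set G)) f (t : G)) ∧ Cfsg.IsNilpotentBlock p M F' := by
  have : M.IsMaximal := hM.2.1
  have : CharP (H20.Loc.ResF M) p := H20.Loc.charP_resF hM
  let _ : Algebra (ZMod p) (H20.Loc.ResF M) := ZMod.algebra (H20.Loc.ResF M) p
  have : Algebra.IsAlgebraic (ZMod p) (H20.Loc.ResF M) := H80.BR1.isAlgebraic_resF hM
  have : IsAlgClosed (H20.Loc.ResF M) := H20.Loc.isAlgClosed_resF
  obtain ⟨hB, he, h⟩ := H80.BR3.maximal_iff.1 hmax
  have hle' := (H80.BR3.subpairLE_iff hf he).1 hle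
  rw [H80.FS2.eq_fsys hF h.of.pair, H80.FS3.centric_iff h hle'] at hcen
  have hpQ := H80.GD.SLE.pair_left h.of.pair hle'
  have hnorm : (⊤ : Subgroup G) ≤ Subgroup.normalizer (Q : Set G) := fun x _ => (hG x).1
  have hfx : H80.BR2.bl M _ f ∈ H80.GA.Fx (H20.Loc.ResF M) (⊤ : Subgroup G) := fun x _ =>
    ((H80.BR2.stabilizes_iff hf).1 (hG x).2).2
  have hblk := H80.GG.isBlk_of_stable hpQ.pgr le_top hnorm hpQ.blk hfx
  have hbb := H80.BR1.isBlk_ebar (M := M) hB
  have hbr := ((H80.GE.pairOf_of_sle h.of.pair hle').1 h.of).br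
  have heq : H80.BR1.ebar M B = H80.BR2.bl M _ f := by
    refine H80.GB.blk_eq_of_mul_ne hbb hblk ?_
    have h1 := H80.GG.br_idem_eq hpQ.pgr le_top hnorm hbb.mem hbb.idem
    rw [h1] at hbr
    rw [hbr]; exact hblk.ne
  constructor
  · intro g
    have h1 : (H80.BR1.ebar M B).coeff g = (H80.BR2.bl M _ f).coeff g := by rw [heq]
    rw [H80.BR1.coeff_ebar, H80.BR2.coeff_bl] at h1
    have hm1 := H20.Blk.blockCoeff_memR hB g
    have hm2 := H80.BR3.subgroupBlockCoeff_memR hf g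
    rw [← H20.Loc.redFun_eq_zero_iff (H20.Loc.locR_sub hm1 hm2), H20.Loc.redFun_sub hm1 hm2, h1,
      sub_self]
  · have hCK : Subgroup.centralizer (Q : Set G) ≤ Q ⊔ Subgroup.centralizer (Q : Set G) := le_sup_right
    have hQK : Q ≤ Q ⊔ Subgroup.centralizer (Q : Set G) := le_sup_left
    have hCHK : H80.GB.CH (Q ⊔ Subgroup.centralizer (Q : Set G)) Q = Subgroup.centralizer (Q : Set G) := inf_eq_left.2 hCK
    have hKN : Q ⊔ Subgroup.centralizer (Q : Set G) ≤ Subgroup.normalizer (Q : Set G) := le_top.trans hnorm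
    have hKC : Q ⊔ Subgroup.centralizer (Q : Set G) ≤ Subgroup.normalizer (Subgroup.centralizer (Q : Set G) : Set G) :=
      hKN.trans (H80.BR5.normalizer_cent_le Q)
    have hfC : H80.GB.IsBlk (Subgroup.centralizer (Q : Set G)) (H80.BR2.bl M (Subgroup.centralizer (Q : Set G)) f) := H80.BR2.isBlk_bl hf
    have hfxK : H80.BR2.bl M (Subgroup.centralizer (Q : Set G)) f ∈ H80.GA.Fx (H20.Loc.ResF M) (Q ⊔ Subgroup.centralizer (Q : Set G)) := H80.GA.Fx_mono le_top hfx
    have hbK : H80.GB.IsBlk (Q ⊔ Subgroup.centralizer (Q : Set G)) (H80.BR2.bl M (Subgroup.centralizer (Q : Set G)) f) :=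
      H80.GG.isBlk_of_stable hpQ.pgr hQK hKN (by rw [hCHK]; exact hfC) hfxK
    obtain ⟨F', hF', hFf, hco⟩ := H80.BR4.exists_lift_blk hCK hKC hf hbK
    refine ⟨F', hF', fun t => ?_, ?_⟩
    · rw [← H80.BR4.sbc_coe]; exact hco t
    · rw [H80.FS4.nilp_iff_sub hF', hFf]
      have hQn : Q.Normal := by
        rw [← Subgroup.normalizer_eq_top_iff, eq_top_iff]; exact hnorm
      have hmul : ∀ x ∈ Q ⊔ Subgroup.centralizer (Q : Set G), ∃ u ∈ Q, ∃ c ∈ H80.GB.CH (Q ⊔ Subgroup.centralizer (Q : Set G)) Q, x = u * c := by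
        intro x hx
        rw [← SetLike.mem_coe, Subgroup.normal_mul] at hx
        obtain ⟨u, hu, c, hc, rfl⟩ := hx
        exact ⟨u, hu, c, by rw [hCHK]; exact hc, rfl⟩
      have hpK : H80.GD.IsPair p (Q ⊔ Subgroup.centralizer (Q : Set G)) Q (H80.BR2.bl M (Subgroup.centralizer (Q : Set G)) f) :=
        ⟨hpQ.pgr, hQK, by rw [hCHK]; exact hfC⟩
      have hd : H80.GE.IsDef p (H80.GB.CH (Q ⊔ Subgroup.centralizer (Q : Set G)) Q) (H80.BR2.bl M (Subgroup.centralizer (Q : Set G)) f) (H80.GB.CH Q Q) := by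
        rw [hCHK]
        rwa [H80.BR3.CH_top] at hcen
      have hdQ := H80.GT.def_QC hQK hpK hbK (H80.GA.Fx_mono le_top hfx) hKN hmul hd
      refine H80.GT.nilp_QC hmul ((H80.GE.isMax_iff_isDef ⟨hpK, hbK, ?_⟩).2 hdQ)
      rw [H80.GA.br_of_mem_Sp hfC.mem.2, hbK.idem]

end Cfsg.Agent.S4693
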