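import Cfsg.Statements.S4694
import Cfsg.Agent.Lib.H80.CQ2

set_option autoImplicit false
open Cfsg

namespace Cfsg.Agent.S4694

/-- Fix a prime p and a maximal ideal M of the algebraic integers containing p, a p-block B of the finite group G and a Brauer pair (Q, e) of B. Let T be the stabilizer of e in N_G(Q) and suppose that (Q, e) carries a weight: the block of T whose idempotent is that of e contains an irreducible character χ that is constant on the cosets of Q and whose degree has p-part equal to the p-part of the index of Q in T. Then Z(Q) is a defect group of e as a block of C_G(Q), and Q is the largest normal p-subgroup of T: every p-subgroup of T normalized by T lies in Q. -/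
theorem result {G : Type*} [Group G] [Fintype G] (p : ℕ) [Fact p.Prime] (M : Ideal Cfsg.AlgInt) (hM : Cfsg.IsPModular p M) (B : Set (Cfsg.IrrCharacter G)) (Q : Subgroup G) (e : Set (Cfsg.IrrCharacter (Subgroup.centralizer (Q : Set G)))) (hQe : Cfsg.IsBrauerPairOf p M B Q e) (T : Subgroup G) (hT : ∀ y : G, y ∈ T ↔ y ∈ Subgroup.normalizer (Q : Set G) ∧ Cfsg.StabilizesBlock (Subgroup.centralizer (Q : Set G)) e y) (F' : Set (Cfsg.IrrCharacter T)) (hF' : Cfsg.IsPBlock M F') (hF'e : ∀ t : T, Cfsg.blockCoeff F' t = Cfsg.subgroupBlockCoeff (Subgroup.centralizer (Q : Set G)) e (t : G)) (χ : Cfsg.IrrCharacter T) (hχ : χ ∈ F') (hχQ : ∀ q : G, q ∈ Q → ∀ t : T, ∀ t' : T, (t' : G) = q * (t : G) → (χ : T → ℂ) t' = (χ : T → ℂ) t) (hdeg : (Cfsg.charDegree (χ : T → ℂ)).factorization p + (Nat.card Q).factorization p = (Nat.card T).factorization p) : Cfsg.IsDefectGroup p M e ((Q ⊓ Subgroup.centralizer (Q : Set G)).subgroupOf (Subgroup.centralizer (Q : Set G))) ∧ ∀ R : Subgroup G, R ≤ T → IsPGroup p R → (∀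 t ∈ T, t ∈ Subgroup.normalizer (R : Set G)) → R ≤ Q := by
  have : M.IsMaximal := hM.2.1
  have : CharP (H20.Loc.ResF M) p := H20.Loc.charP_resF hM
  let _ : Algebra (ZMod p) (H20.Loc.ResF M) := ZMod.algebra (H20.Loc.ResF M) p
  have : Algebra.IsAlgebraic (ZMod p) (H20.Loc.ResF M) := H80.BR1.isAlgebraic_resF hM
  have : IsAlgClosed (H20.Loc.ResF M) := H20.Loc.isAlgClosed_resF
  classical
  obtain ⟨hB, he, hpo⟩ := H80.BR3.brauerPairOf_iff.1 hQe
  have hQp : IsPGroup p Q := hpo.pair.pgr
  have hTe := H80.BR5.stab_eq he hT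
  have hbT := H80.BR5.stab_blk_unique hQp he hTe hF'e
  have hQT : Q ≤ T := by
    rw [hTe]
    exact (le_inf le_rfl Subgroup.le_normalizer).trans
      (H80.GH.NH_le_ST hpo.pair Relation.ReflTransGen.refl)
  have hCT : Subgroup.centralizer (Q : Set G) ≤ T := by
    have h1 := H80.GH.CH_le_ST hpo.pair.blk.mem.1
    rw [H80.BR3.CH_top] at h1
    rw [hTe]; exact h1
  have hQn : (Q.subgroupOf T).Normal := by
    constructor
    intro x hx y
    exact (H80.GA.mem_normalizer_iff'.1 ((hT y).1 y.2).1 (x : G)).1 hx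
  have hCn : ((Subgroup.centralizer (Q : Set G)).subgroupOf T).Normal := by
    constructor
    intro x hx y
    exact (H80.GA.mem_normalizer_iff'.1 (H80.BR5.normalizer_cent_le Q ((hT y).1 y.2).1)
      (x : G)).1 hx
  have hcardQ : Nat.card (Q.subgroupOf T) = Nat.card Q :=
    Nat.card_congr (Subgroup.subgroupOfEquivOfLe hQT).toEquiv
  obtain ⟨χ', hχ'⟩ := H20.NormQ.exists_infl (Q.subgroupOf T) (ψ := χ) (fun n hn =>
    hχQ n hn 1 n (by simp))
  have hz := H80.CQ2.fact_quot (p := p) (Q.subgroupOf T) (χ := χ') (by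
    rw [hχ', hcardQ]; exact hdeg)
  constructor
  · have := Fintype.ofFinite T
    have := Fintype.ofFinite ((Subgroup.centralizer (Q : Set G)).subgroupOf T)
    obtain ⟨ψ, hψ, hne⟩ := H80.CQ2.descend hM (Q.subgroupOf T)
      ((Subgroup.centralizer (Q : Set G)).subgroupOf T) hz
    rw [hχ'] at hne
    have hb' := H80.BR7.isPBlock_subT hCT he
    have heq : H80.BR1.ebar M F' = H80.BR2.bl M _ (H80.BR7.subT hCT e) := by
      apply H80.GF.inc_injective T.subtype_injective
      rw [H80.BR7.inc_bl_subT]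
      exact hbT
    set ψ' := H20.NormQ.infl ((Q.subgroupOf T).subgroupOf
      ((Subgroup.centralizer (Q : Set G)).subgroupOf T)) ψ with hψ'
    have hprime : M.IsPrime := (hM.2.1).isPrime
    have hcov := (H80.BR6.cov_iff hF' (H20.Blk.isPBlock_blockOf (M := M) ψ')).1
      ⟨χ, hχ, ψ', H20.Blk.mem_blockOf_self ψ', hne⟩
    rw [heq] at hcov
    have hmem : ψ' ∈ H80.BR7.subT hCT e := by
      have h1 := H80.BR2.bl_inj hb' (H20.Blk.isPBlock_blockOf (M := M) ψ')
        (H80.GB.blk_eq_of_mul_ne (H80.BR2.isBlk_bl hb') (H80.BR2.isBlk_bl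
          (H20.Blk.isPBlock_blockOf (M := M) ψ')) hcov)
      rw [h1]; exact H20.Blk.mem_blockOf_self ψ'
    obtain ⟨D, hD⟩ := H20.DefGrp.exists_isDefectGroup hM hb'
    have hZp : IsPGroup p ((Q.subgroupOf T).subgroupOf
      ((Subgroup.centralizer (Q : Set G)).subgroupOf T)) := by
      have h1 : IsPGroup p (Q.subgroupOf T) := hQp.comap_of_injective _ T.subtype_injective
      exact h1.comap_of_injective _ (Subgroup.subtype_injective _)
    have hcen : ∀ x : (Subgroup.centralizer (Q : Set G)).subgroupOf T,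
        x ∈ Subgroup.centralizer (((Q.subgroupOf T).subgroupOf
          ((Subgroup.centralizer (Q : Set G)).subgroupOf T) : Subgroup _) : Set _) := by
      intro x
      rw [Subgroup.mem_centralizer_iff]
      intro y hy
      apply Subtype.ext
      apply Subtype.ext
      exact Subgroup.mem_centralizer_iff.1 x.2 _ hy
    have hDle := H80.CQ.def_le hM _ hZp (fun x _ => hcen x) ψ hψ hb' hmem hD
    have hDeq : D = (Q.subgroupOf T).subgroupOf
        ((Subgroup.centralizer (Q : Set G)).subgroupOf T) := by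
      have h1 := (H80.BR2.isDefectGroup_iff_isDef hM hb').1 hD
      have h2 := H80.BR1.isBlk_ebar (M := M) hb'
      have h3 := H80.GG.br_idem_eq hZp le_top (by rw [Subgroup.normalizer_eq_top]) h2.mem h2.idem
      obtain ⟨x, -, hx⟩ := h1.max _ le_top hZp (by rw [h3]; exact h2.ne)
      refine Subgroup.eq_of_le_of_card_ge hDle ?_
      have := Subgroup.card_le_of_le hx
      rwa [H80.GA.card_cs] at this
    rw [hDeq, H80.BR2.isDefectGroup_iff_isDef' hM hb',
      ← H80.GF.inc_isDef T.subtype_injective, H80.BR7.inc_bl_subT] at hD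
    rw [H80.BR2.isDefectGroup_iff_isDef' hM he]
    rw [Subgroup.map_subgroupOf_eq_of_le hCT, Subgroup.subgroupOf_map_subtype] at hD
    rw [Subgroup.subgroupOf_map_subtype]
    have h4 : ((Q.subgroupOf T ⊓ (Subgroup.centralizer (Q : Set G)).subgroupOf T :
        Subgroup T).map T.subtype) = Q ⊓ Subgroup.centralizer (Q : Set G) := by
      rw [Subgroup.map_inf _ _ _ T.subtype_injective, Subgroup.map_subgroupOf_eq_of_le hCT,
        Subgroup.map_subgroupOf_eq_of_le hQT]
    rw [h4] at hD
    rw [inf_assoc, inf_idem]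
    exact hD
  · intro R hRT hR hRn
    have h1 : (R.subgroupOf T).Normal := by
      constructor
      intro x hx y
      exact (H80.GA.mem_normalizer_iff'.1 (hRn y y.2) (x : G)).1 hx
    have h2 : ((R.subgroupOf T).map (QuotientGroup.mk' (Q.subgroupOf T))).Normal :=
      Subgroup.Normal.map h1 _ (QuotientGroup.mk'_surjective _)
    have h3 : IsPGroup p (R.subgroupOf T) := hR.comap_of_injective _ T.subtype_injective
    have h4 := H80.CQ2.normal_bot hM hz (h3.map (QuotientGroup.mk' (Q.subgroupOf T)))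
    intro r hr
    have h5 : (QuotientGroup.mk' (Q.subgroupOf T)) ⟨r, hRT hr⟩ ∈
        (R.subgroupOf T).map (QuotientGroup.mk' (Q.subgroupOf T)) := ⟨⟨r, hRT hr⟩, hr, rfl⟩
    rw [h4, Subgroup.mem_bot] at h5
    exact (QuotientGroup.eq_one_iff (N := Q.subgroupOf T) (⟨r, hRT hr⟩ : T)).1 h5

end Cfsg.Agent.S4694
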