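import Cfsg.Statements.S4696
import Cfsg.Agent.Lib.H84.FL12

set_option autoImplicit false
open Cfsg

namespace Cfsg.Agent.S4696

attribute [local instance 2000] Fintype.ofFinite

open H84.FL H84.FR in
/-- Let p be a prime, M a maximal ideal of the algebraic integers containing p, and B a p-block of the finite group G whose defect group D is cyclic of order p^a with a ≥ 1. Let C = C_G(D), let b be a block of C inducing B, let T be the stabilizer of b in N_G(D) (the elements g of N_G(D) such that the g-conjugate of every member of b is again in b), and let e be the index of C in T (the inertial index of B). Then e divides p − 1, every irreducible character in B has height zero, and B is the disjoint union of a set X of e characters and a set Y of (p^a − 1)/e characters, the members of Y agreeing on p-regular elements, for which there are signs δ_χ = ±1 (χ ∈ X) and δ₀ = ±1 such that: for every ψ ∈ Y and every p-regular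 g, δ₀ ψ(g) + Σ_{χ ∈ X} δ_χ χ(g) = 0; for all χ, χ' ∈ X the integers δ_χ χ(1) and δ_χ' χ'(1) are congruent modulo p^a; and for ψ ∈ Y and χ ∈ X, ψ(1) ≡ −e δ₀ δ_χ χ(1) modulo p^a. -/
theorem result {G : Type*} [Group G] [Finite G] (p : ℕ) [Fact p.Prime] (M : Ideal Cfsg.AlgInt) (hM : Cfsg.IsPModular p M) (D : Subgroup G) (hD : IsCyclic D) (a : ℕ) (ha : 1 ≤ a) (hDa : Nat.card D = p ^ a) (B : Set (Cfsg.IrrCharacter G)) (hB : Cfsg.IsPBlock M B) (hBD : Cfsg.IsDefectGroup p M B D) (b : Set (Cfsg.IrrCharacter (Subgroup.centralizer (D : Set G)))) (hind : Cfsg.IsInducedBlock M (Subgroup.centralizer (D : Set G)) b B) (T : Subgroup G) (hT : ∀ g : G, g ∈ T ↔ (g ∈ Subgroup.normalizer (D : Set G) ∧ ∀ θ ∈ b, ∀ θ' : Cfsg.IrrCharacter (Subgroup.centralizer (D : Set G)), (∀ h h' : Subgroup.centralizer (D : Set G), (h' : G) = g * h * g⁻¹ → (θ' : Subgroup.centralizer (D : Set G) → ℂ) h' = (θ : Subgroup.centralizer (D : Set G) → ℂ) h) →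 θ' ∈ b)) (e : ℕ) (he : (Subgroup.centralizer (D : Set G)).relIndex T = e) : e ∣ p - 1 ∧ (∀ χ ∈ B, Cfsg.blockHeight p B (χ : G → ℂ) = 0) ∧ ∃ X Y : Set (Cfsg.IrrCharacter G), B = X ∪ Y ∧ Disjoint X Y ∧ Nat.card X = e ∧ Nat.card Y = (p ^ a - 1) / e ∧ (∀ ψ ∈ Y, ∀ ψ' ∈ Y, ∀ g : G, ¬ p ∣ orderOf g → (ψ : G → ℂ) g = (ψ' : G → ℂ) g) ∧ ∃ (δ : Cfsg.IrrCharacter G → ℤ) (δ₀ : ℤ), (∀ χ ∈ X, δ χ = 1 ∨ δ χ = -1) ∧ (δ₀ = 1 ∨ δ₀ = -1) ∧ (∀ ψ ∈ Y, ∀ g : G, ¬ p ∣ orderOf g → (δ₀ : ℂ) * (ψ : G → ℂ) g + ∑ᶠ χ ∈ X, (δ χ : ℂ) * (χ : G → ℂ) g = 0) ∧ (∀ χ ∈ X, ∀ χ' ∈ X, δ χ * (Cfsg.charDegree (χ : G → ℂ) : ℤ) ≡ δ χ' * (Cfsg.charDegree (χ' : G → ℂ) : ℤ) [ZMOD (p : ℤ) ^ a]) ∧ (∀ ψ ∈ Y, ∀ χ ∈ X, (Cfsg.charDegree (ψ : G → ℂ) : ℤ) ≡ -((e : ℤ) * δ₀ * δ χ * (Cfsg.charDegree (χ : G → ℂ) : ℤ)) [ZMOD (p : ℤ) ^ a]) := by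
  classical
  have hp : p.Prime := Fact.out
  have : M.IsMaximal := hM.2.1
  have : CharP (H20.Loc.ResF M) p := H20.Loc.charP_resF hM
  let _ : Algebra (ZMod p) (H20.Loc.ResF M) := ZMod.algebra (H20.Loc.ResF M) p
  have : Algebra.IsAlgebraic (ZMod p) (H20.Loc.ResF M) := H80.BR1.isAlgebraic_resF hM
  have : IsAlgClosed (H20.Loc.ResF M) := H20.Loc.isAlgClosed_resF
  have hab := H80.BR11.ab_of_cyclic hD
  have hP1 : D ≠ ⊥ := by
    rintro rfl
    rw [Subgroup.card_bot] at hDa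
    have := Nat.one_lt_pow (by omega : a ≠ 0) hp.one_lt
    omega
  have hT' := H80.BR11.setup' hM hB hBD hab hind hT
  obtain ⟨hmax, hTe, hTN, hCT, hidx⟩ := H80.BR11.setup hM hB hBD hab hind hT'
  obtain ⟨-, hfree, hcard, hcop⟩ := cyc_data hM hB hBD hD hind hT'
  have hl := rank_eq_max_cyclic hM hmax hB hD hP1
  obtain ⟨S, φ, R, hL⟩ := exists_loc_cyclic hM hmax hB hD hP1 hfree hcop
  obtain ⟨n, rep, hrep⟩ := exists_reps (sub_comm hab) (WT D (H80.BR2.bl M _ b))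
  obtain ⟨hDat, μ, δ, c, hS⟩ := str_loc hM hmax hB hab hP1 hfree hL hl hrep
  have hfp := WT_free hfree
  have hA := sub_comm hab
  have hn := hrep.card hA hfp
  have hcardB := card_eq hM hmax hB hab hfree hn
  rw [hcard, he, hDa] at hn
  rw [hl, hcard, he] at hcardB
  have hpn : ¬ p ∣ n := by
    intro h
    have h1 : p ∣ p ^ a := dvd_pow_self p (by omega)
    rw [← hn] at h1
    have h2 := (Nat.dvd_add_right (h.mul_right e)).1 h1
    exact hp.one_lt.ne' (Nat.dvd_one.1 h2)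
  have he0 : 0 < e := by
    rcases Nat.eq_zero_or_pos e with h | h
    · rw [h, mul_zero, zero_add] at hn
      have := Nat.one_lt_pow (by omega : a ≠ 0) hp.one_lt
      omega
    · exact h
  have haN : p ^ a ∣ p ^ (Nat.card G).factorization p := by
    have h1 : p ^ a ∣ Nat.card G := hDa ▸ Subgroup.card_subgroup_dvd_card D
    exact pow_dvd_pow p ((hp.pow_dvd_iff_le_factorization Nat.card_pos.ne').1 h1)
  have haN' : ((p : ℤ) ^ a) ∣ ((p ^ (Nat.card G).factorization p : ℕ) : ℤ) := by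
    have : ((p ^ a : ℕ) : ℤ) ∣ ((p ^ (Nat.card G).factorization p : ℕ) : ℤ) := Int.natCast_dvd_natCast.2 haN
    push_cast at this ⊢
    exact this
  have hnorm : ((Subgroup.centralizer (D : Set G)).subgroupOf T).Normal := by
    have h1 : (Subgroup.centralizer (D : Set G)).subgroupOf T =
        ((Subgroup.centralizer (D : Set G)).subgroupOf (Subgroup.normalizer (D : Set G))).comap
          (Subgroup.inclusion hTN) := by
      ext x; rfl
    have h2 : ((Subgroup.centralizer (D : Set G)).subgroupOf (Subgroup.normalizer (D : Set G))).Normal := by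
      constructor
      intro x hx g
      rw [Subgroup.mem_subgroupOf] at hx ⊢
      rw [Subgroup.mem_centralizer_iff] at hx ⊢
      intro y hy
      have hg := (Subgroup.mem_normalizer_iff'' (H := D)).1 g.2
      have h4 : (g : G)⁻¹ * y * g ∈ D := (hg y).1 hy
      have h5 := hx _ h4
      simp only [Subgroup.coe_mul, Subgroup.coe_inv]
      calc y * ((g : G) * x * (g : G)⁻¹) = g * (((g : G)⁻¹ * y * g) * x) * (g : G)⁻¹ := by group
        _ = g * (x * ((g : G)⁻¹ * y * g)) * (g : G)⁻¹ := by rw [h5]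
        _ = (g : G) * x * (g : G)⁻¹ * y := by group
    rw [h1]
    exact h2.comap _
  refine ⟨?_, fun χ hχ => ?_, {χ | χ ∈ B ∧ ∀ i, μ i ≠ χ}, Set.range μ, ?_, ?_, ?_, ?_, ?_, c, -δ, ?_, ?_, ?_, ?_, ?_⟩
  · have hfree' : ∀ g ∈ T, ∀ x ∈ D, x ≠ 1 → g * x * g⁻¹ = x → g ∈ Subgroup.centralizer (D : Set G) := by
      rw [hTe]; exact hfree
    rw [← he]
    exact (H80.CY.cyc_quot hD hmax.of.pair.pgr hP1 hTN hfree' (hn := hnorm)).2
  · exact hS.height hp hDat hA hfp hrep hpn (by omega) hχ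
  · ext χ
    constructor
    · intro hχ
      by_cases h : ∃ i, μ i = χ
      · exact Or.inr h
      · left; push Not at h; exact ⟨hχ, h⟩
    · rintro (h | ⟨i, rfl⟩)
      · exact h.1
      · exact hS.mem i
  · rw [Set.disjoint_left]
    rintro χ ⟨-, h⟩ ⟨i, hi⟩
    exact h i hi
  · have := hS.card_X
    have h2 : Nat.card {χ : IrrCharacter G // χ ∈ B ∧ ∀ i, μ i ≠ χ} = e := by omega
    exact h2
  · have h1 : Nat.card (Set.range μ) = n := by
      rw [Nat.card_congr (Equiv.ofInjective μ hS.inj).symm, Nat.card_eq_fintype_card]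
      have h3 := Nat.card_eq_fintype_card (α := Fin n)
      rw [← h3]; simp
    rw [h1, ← hn, Nat.add_sub_cancel, Nat.mul_div_cancel _ he0]
  · rintro ψ ⟨i, rfl⟩ ψ' ⟨j, rfl⟩ g hg
    exact hS.reg_eq hDat hA hfp hrep i j hg
  · intro χ hχ
    exact (hS.aX χ hχ.1 hχ.2).1
  · rcases hS.hδ with h | h <;> rw [h]
    · exact Or.inr rfl
    · exact Or.inl rfl
  · rintro ψ ⟨i, rfl⟩ g hg
    have h1 := hS.reg hDat hA hfp hrep i hg
    have h2 : ∑ᶠ χ ∈ {χ : IrrCharacter G | χ ∈ B ∧ ∀ i, μ i ≠ χ}, (c χ : ℂ) * (χ : G → ℂ) g =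
        δ * (μ i : G → ℂ) g := by
      rw [← h1, finsum_mem_def, finsum_eq_sum_of_fintype]
      exact Finset.sum_congr rfl fun χ _ => by rw [Set.indicator_apply]; exact if_congr Iff.rfl rfl rfl
    rw [h2]
    push_cast
    ring
  · intro χ hχ χ' hχ'
    exact (hS.congr_X hp hDat hA hfp hrep hχ.1 hχ.2 hχ'.1 hχ'.2).of_dvd haN'
  · rintro ψ ⟨i, rfl⟩ χ hχ
    have h1 := (hS.congr_Y hp hDat hA hfp hrep hχ.1 hχ.2 i).of_dvd haN'
    have h2 := h1.mul_left (e : ℤ)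
    have h3 : (e : ℤ) * (n * (charDegree (μ i : G → ℂ) : ℤ)) =
        ((p : ℤ) ^ a) * (charDegree (μ i : G → ℂ) : ℤ) - (charDegree (μ i : G → ℂ) : ℤ) := by
      have : ((n * e + 1 : ℕ) : ℤ) = ((p ^ a : ℕ) : ℤ) := by rw [hn]
      push_cast at this
      linear_combination (charDegree (μ i : G → ℂ) : ℤ) * this
    rw [h3] at h2
    rw [Int.modEq_iff_dvd] at h2 ⊢
    obtain ⟨k, hk⟩ := h2
    refine ⟨-k - (charDegree (μ i : G → ℂ) : ℤ), ?_⟩
    linear_combination -hk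

end Cfsg.Agent.S4696
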