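import Cfsg.Statements.S4702
import Cfsg.Agent.Lib.H15.SharpPGL
import Cfsg.Agent.Lib.H98.DicksonPGL
import Cfsg.Agent.Lib.H98.DicksonIdx
import Cfsg.Agent.S0727

set_option autoImplicit false
open Cfsg

namespace Cfsg.Agent.S4702

theorem sl_psl (F : Type) [Field F] [Fintype F] (h2 : CharP F 2) :
    Nonempty (Matrix.SpecialLinearGroup (Fin 2) F ≃* Matrix.ProjectiveSpecialLinearGroup (Fin 2) F) := by
  refine ⟨MulEquiv.ofBijective (QuotientGroup.mk' (Subgroup.center (Matrix.SpecialLinearGroup (Fin 2) F)))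
    ⟨?_, QuotientGroup.mk'_surjective _⟩⟩
  rw [injective_iff_map_eq_one]
  intro z hz
  have h1 : z ∈ Subgroup.center (Matrix.SpecialLinearGroup (Fin 2) F) := (QuotientGroup.eq_one_iff z).1 hz
  rw [Matrix.SpecialLinearGroup.mem_center_iff] at h1
  obtain ⟨r, hr, hrz⟩ := h1
  rw [Fintype.card_fin] at hr
  have h3 : (r - 1) * (r - 1) = 0 := by
    have h4 : (2 : F) = 0 := by exact_mod_cast CharP.cast_eq_zero F 2
    linear_combination hr + (1 - r) * h4
  have h4 : r = 1 := by
    have := mul_self_eq_zero.1 h3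
    exact sub_eq_zero.1 this
  apply Subtype.ext
  rw [← hrz, h4]
  simp

/-- Let G be a triply transitive permutation group on a finite set of odd size m ≥ 3 in which only the identity fixes three or more points. Then m = 2^a + 1 for some a ≥ 1 and G is isomorphic to SL(2, 2^a). -/
theorem result {α : Type*} [Fintype α] [DecidableEq α] (hm : 3 ≤ Fintype.card α) (hodd : Odd (Fintype.card α)) (G : Subgroup (Equiv.Perm α)) (h3 : MulAction.IsMultiplyPretransitive G α 3) (hfix : ∀ g : G, 3 ≤ Nat.card (MulAction.fixedBy α g) → g = 1) : ∃ a : ℕ, 1 ≤ a ∧ Fintype.card α = 2 ^ a + 1 ∧ ∃ (F : Type) (_ : Field F) (_ : Fintype F), Fintype.card F = 2 ^ a ∧ Nonempty (G ≃* Matrix.SpecialLinearGroup (Fin 2) F) := by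
  classical
  have hsharp : ∀ x : Fin 3 ↪ α, MulAction.stabilizer G x = ⊥ := by
    intro t
    rw [eq_bot_iff]
    intro g hg
    rw [Subgroup.mem_bot]
    apply hfix
    rw [MulAction.mem_stabilizer_iff] at hg
    have key : ∀ i, g • t i = t i := fun i => congrArg (fun f : Fin 3 ↪ α => f i) hg
    have h1 : Function.Injective (fun i : Fin 3 => (⟨t i, key i⟩ : MulAction.fixedBy α g)) := by
      intro i j hij
      exact t.injective (congrArg Subtype.val hij)
    have h2 := Nat.card_le_card_of_injective _ h1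
    rwa [Nat.card_fin] at h2
  have h := H15.Sharp3.sharp_of h3 hsharp
  obtain ⟨a⟩ : Nonempty α := Fintype.card_pos_iff.1 (by omega)
  obtain ⟨E, p, hp, -, -, -, hpow, hcard, -, -⟩ := H15.SharpPGL.exists_kernel h hm a
  have hpf : Fact p.Prime := ⟨hp⟩
  have hE : IsPGroup p E := by
    intro e
    exact ⟨1, Subtype.ext (by rw [pow_one]; exact hpow e e.2)⟩
  obtain ⟨k, hk⟩ := IsPGroup.iff_card.1 hE
  have heven : Even (p ^ k) := by
    rw [← hk]
    obtain ⟨m, hm'⟩ := hodd
    exact ⟨m, by omega⟩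
  have hk0 : k ≠ 0 := by
    rintro rfl
    rw [pow_zero] at heven
    exact absurd heven (by decide)
  have hp2 : p = 2 := by
    have h1 : Even p := (Nat.even_pow.1 heven).1
    exact (Nat.Prime.even_iff hp).1 h1
  subst hp2
  have hcα : Fintype.card α = 2 ^ k + 1 := by rw [← hcard, hk]
  refine ⟨k, Nat.one_le_iff_ne_zero.2 hk0, hcα, ?_⟩
  obtain ⟨F, iF, iFf, hF, ⟨e⟩⟩ := Cfsg.Agent.S0727.result (Nat.one_le_iff_ne_zero.2 hk0) hcα G h3 hsharp
  refine ⟨F, iF, iFf, hF, ?_⟩
  have hchar : CharP F 2 := charP_of_card_eq_prime_pow hF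
  obtain ⟨e1⟩ := sl_psl F hchar
  have hb : Function.Bijective (H98.DicksonPGL.pslHom (RingHom.id F)) := by
    have hfin : Finite (Matrix.ProjGenLinGroup (Fin 2) F) := Finite.of_equiv G e.toEquiv
    refine (Nat.bijective_iff_injective_and_card _).2 ⟨H98.DicksonPGL.pslHom_injective _, ?_⟩
    have h4 := H98.DicksonPGL.card_psl_eq F
    have h5 : Nat.gcd 2 (Nat.card F - 1) = 1 := by
      apply H98.DicksonIdx.gcd_even
      · rw [Nat.card_eq_fintype_card, hF]
        exact heven
      · exact Nat.card_pos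
    rw [h5, one_mul] at h4
    rw [h4, H98.DicksonPGL.card_pgl_eq]
  exact ⟨e.trans ((MulEquiv.ofBijective _ hb).symm.trans e1.symm)⟩

end Cfsg.Agent.S4702
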