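import Cfsg.Statements.S4707
import Cfsg.Agent.Lib.H59.PTwo4
import Cfsg.Agent.Lib.H59.PTwoPerm
import Cfsg.Agent.Lib.H59.PermNu
import Cfsg.Agent.Lib.H60.Ord60
-- import your own Cfsg.Agent.* helpers here

set_option autoImplicit false
open Cfsg

namespace Cfsg.Agent.S4707

open H18.CharBasic H18.CharOrtho H21.PLat H59.PSelf H59.PTwo H4.TwoTrans MulAction

theorem cent_sing {G : Type*} [Group G] [Finite G] {p : ℕ} [hp : Fact p.Prime] {x0 : G}
    (hp2 : 2 < p) (hx0 : orderOf x0 = p) (hidx : ¬ p ∣ (Subgroup.zpowers x0).index)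
    (hC : Nat.card (Subgroup.centralizer ({x0} : Set G)) = p) (y t : G) (hy : p ∣ orderOf y)
    (ht : orderOf t = 2) : t * y ≠ y * t := by
  intro hty
  obtain ⟨k, hk, hky⟩ := singular hx0 hidx hC hy
  obtain ⟨g, hg⟩ := isConj_iff.1 hky
  have h1 : g⁻¹ * t * g ∈ Subgroup.centralizer ({x0} : Set G) := by
    rw [← pw_one hx0, centralizer_pw hx0 one_ne_zero, ← centralizer_pw hx0 hk,
      Subgroup.mem_centralizer_singleton_iff]
    have h2 : pw x0 k = g⁻¹ * y * g := by rw [← hg]; group
    rw [h2]
    calc g⁻¹ * t * g * (g⁻¹ * y * g) = g⁻¹ * (t * y) * g := by group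
      _ = g⁻¹ * (y * t) * g := by rw [hty]
      _ = g⁻¹ * y * g * (g⁻¹ * t * g) := by group
  have h3 : orderOf (g⁻¹ * t * g) ∣ p := by
    rw [← hC]
    have h4 := orderOf_dvd_natCard (⟨g⁻¹ * t * g, h1⟩ : Subgroup.centralizer ({x0} : Set G))
    rwa [← Subgroup.orderOf_coe] at h4
  have h5 : orderOf (g⁻¹ * t * g) = 2 := by
    rw [← ht]
    exact SemiconjBy.orderOf_eq g (show SemiconjBy g (g⁻¹ * t * g) t by rw [SemiconjBy]; group)
  rw [h5] at h3
  have := (Nat.prime_dvd_prime_iff_eq Nat.prime_two hp.out).1 h3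
  omega


/-- Let p > 3 be a prime and G a primitive permutation group of degree 2p that is not doubly transitive. If a Sylow p-subgroup of G has normalizer of order 2p, then p = 5 and G is isomorphic to the alternating group of degree 5. -/
theorem result {α : Type*} [Fintype α] [DecidableEq α] {p : ℕ} [Fact p.Prime] (hp : 3 < p) (hα : Fintype.card α = 2 * p) (G : Subgroup (Equiv.Perm α)) (hprim : MulAction.IsPreprimitive G α) (hnot2 : ¬ MulAction.IsMultiplyPretransitive G α 2) (P : Sylow p G) (hN : Nat.card (Subgroup.normalizer ((P : Subgroup G) : Set G)) = 2 * p) : p = 5 ∧ Nonempty (G ≃* alternatingGroup (Fin 5)) := by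
  classical
  have : Fintype G := Fintype.ofFinite G
  have hpp : p.Prime := Fact.out
  have hp5 : 5 ≤ p := by
    rcases Nat.lt_or_ge p 5 with h | h
    · have h4 : p = 4 := by omega
      rw [h4] at hpp
      exact absurd hpp (by decide)
    · exact h
  have hNα : Nat.card α = 2 * p := by rw [Nat.card_eq_fintype_card, hα]
  have htr : IsPretransitive G α := inferInstance
  have hne : Nonempty α := by
    rw [← Finite.card_pos_iff, hNα]
    omega
  obtain ⟨a0⟩ := hne
  have hdG : 2 * p ∣ Nat.card G := by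
    rw [← hNα, ← index_stabilizer_of_transitive G a0]
    exact Subgroup.index_dvd_card _
  have hpG : p ∣ Nat.card G := (Dvd.intro_left 2 rfl).trans hdG
  have hcopr : Nat.Coprime p 2 := (Nat.coprime_primes hpp Nat.prime_two).2 (by omega)
  -- order of P
  have hPcard : Nat.card P = p := by
    have h1 : Nat.card P ∣ 2 * p := by
      rw [← hN]
      exact Subgroup.card_dvd_of_le (Subgroup.le_normalizer)
    obtain ⟨k, hk⟩ := IsPGroup.iff_card.1 P.2
    have h2 : p ∣ Nat.card P := P.dvd_card_of_dvd_card hpG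
    have h3 : k ≤ 1 := by
      by_contra hcon
      push Not at hcon
      have h4 : p ^ 2 ∣ 2 * p := by
        refine (pow_dvd_pow p hcon).trans ?_
        rw [← hk]
        exact h1
      have h5 : p ∣ 2 := by
        rw [pow_two, mul_comm 2 p] at h4
        exact Nat.dvd_of_mul_dvd_mul_left hpp.pos h4
      have := Nat.le_of_dvd (by norm_num) h5
      omega
    interval_cases k
    · rw [pow_zero] at hk
      rw [hk] at h2
      exact absurd (Nat.dvd_one.1 h2) hpp.one_lt.ne'
    · rw [hk, pow_one]
  -- normal subgroups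
  have htrN : ∀ N : Subgroup G, N.Normal → N ≠ ⊥ → 2 * p ∣ Nat.card N := by
    intro N hNn hNb
    have h1 : fixedPoints N α ≠ Set.univ := by
      intro h
      apply hNb
      rw [eq_bot_iff]
      intro n hn
      rw [Subgroup.mem_bot]
      apply Subtype.ext
      apply Equiv.Perm.ext
      intro a
      have h2 : a ∈ fixedPoints N α := by rw [h]; trivial
      exact h2 ⟨n, hn⟩
    have h2 : IsPretransitive N α := IsQuasiPreprimitive.isPretransitive_of_normal h1
    rw [← hNα, ← index_stabilizer_of_transitive N a0]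
    exact Subgroup.index_dvd_card _
  have hPne : (P : Subgroup G) ≠ ⊥ := by
    intro h
    have h1 : Nat.card (P : Subgroup G) = 1 := by rw [h]; simp
    rw [hPcard] at h1
    exact hpp.one_lt.ne' h1
  have hPnn : ¬ (P : Subgroup G).Normal := by
    intro h
    have h1 := htrN _ h hPne
    rw [hPcard] at h1
    have := Nat.le_of_dvd hpp.pos h1
    omega
  have hsimp : IsSimpleGroup G := by
    refine H8.SimpleCrit.simple_of_card_normalizer Nat.prime_two P hPcard ?_ ?_ hPnn
    · intro N h1 h2
      exact (Dvd.intro_left 2 rfl).trans (htrN N h1 h2)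
    · change Nat.card (Subgroup.normalizer ((P : Subgroup G) : Set G)) ∣ p * 2
      rw [hN, mul_comm]
  have hcomm : ¬ IsMulCommutative G := by
    intro h
    apply hPnn
    refine ⟨fun n hn g => ?_⟩
    rw [h.is_comm.comm g n]
    simpa using hn
  -- the element of order p
  obtain ⟨x1, hx1⟩ := exists_prime_orderOf_dvd_card' (G := P) p (by rw [hPcard])
  set x0 : G := (x1 : G) with hx0def
  have hx0 : orderOf x0 = p := by rw [hx0def, Subgroup.orderOf_coe]; exact hx1
  have hPz : (P : Subgroup G) = Subgroup.zpowers x0 := by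
    symm
    apply Subgroup.eq_of_le_of_card_ge
    · rw [Subgroup.zpowers_le]
      exact x1.2
    · rw [hPcard, Nat.card_zpowers, hx0]
  have hidx : ¬ p ∣ (Subgroup.zpowers x0).index := by
    rw [← hPz]
    exact P.not_dvd_index
  have hCle : (P : Subgroup G) ≤ Subgroup.centralizer ((P : Subgroup G) : Set G) := by
    rw [hPz]
    exact zp_le_CC hx0
  have hCN : Subgroup.centralizer ((P : Subgroup G) : Set G) ≤
      Subgroup.normalizer ((P : Subgroup G) : Set G) := Subgroup.centralizer_le_normalizer _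
  have hCcard : Nat.card (Subgroup.centralizer ((P : Subgroup G) : Set G)) = p := by
    have h1 := Subgroup.card_dvd_of_le hCN
    have h2 := Subgroup.card_dvd_of_le hCle
    rw [hPcard] at h2
    rw [hN] at h1
    obtain ⟨c, hc⟩ := h2
    rw [hc, mul_comm 2 p] at h1
    have h3 := Nat.dvd_of_mul_dvd_mul_left hpp.pos h1
    rcases (Nat.dvd_prime Nat.prime_two).1 h3 with h | h
    · rw [hc, h, mul_one]
    · exfalso
      apply H21.SylowTools.burnside_not_le hcomm hpG P
      apply le_of_eq
      symm
      apply Subgroup.eq_of_le_of_card_ge hCN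
      rw [hN, hc, h, mul_comm]
  have hC : Nat.card (Subgroup.centralizer ({x0} : Set G)) = p := by
    rw [← pw_one hx0, centralizer_pw hx0 one_ne_zero, ← hPz]
    exact hCcard
  have he : Nat.card (psi hx0).range = 2 := by
    have h1 := card_normalizer_eq hx0 hidx
    have h2 := (CC_mul hx0 hidx).2
    have h3 : Nat.card (CC x0) = p := by
      rw [CC, ← hPz]
      exact hCcard
    have h4 : Nat.card (Subgroup.normalizer (Subgroup.zpowers x0 : Set G)) = 2 * p := by
      rw [← hPz]
      exact hN
    rw [h3] at h2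
    rw [← h2, h4, mul_comm 2 p] at h1
    exact (Nat.eq_of_mul_eq_mul_left hpp.pos h1).symm
  obtain ⟨M, hM⟩ := H78.Cong.exists_isPModular hpp
  obtain ⟨χ, Y, δ, ε, D⟩ := exists_data hM hx0 hidx hC he
  have hχc := isCharacter_of_isIrr χ.2
  have hker : H18.CharQuot.kerSub (χ : G → ℂ) hχc = ⊥ := by
    rcases IsSimpleGroup.eq_bot_or_eq_top_of_normal (H18.CharQuot.kerSub (χ : G → ℂ) hχc)
      inferInstance with h | h
    · exact h
    · exfalso
      have h1 : ∀ g, (χ : G → ℂ) g = (χ : G → ℂ) 1 := by
        intro g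
        have : g ∈ H18.CharQuot.kerSub (χ : G → ℂ) hχc := by rw [h]; trivial
        exact this
      have h2 : classInner (χ : G → ℂ) (triv G : G → ℂ) = (χ : G → ℂ) 1 := by
        rw [classInner]
        have h3 : ∀ g : G, (χ : G → ℂ) g * (starRingEnd ℂ) ((triv G : G → ℂ) g) = (χ : G → ℂ) 1 := by
          intro g
          rw [triv_apply, map_one, mul_one, h1]
        rw [Finset.sum_congr rfl (fun g _ => h3 g), Finset.sum_const, Finset.card_univ,
          nsmul_eq_mul, ← mul_assoc, ← Nat.card_eq_fintype_card, inv_mul_cancel₀ card_ne_zero',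
          one_mul]
      rw [inner_irr_ne χ.2 (triv G).2 (fun h => D.χ_ne (Subtype.ext h))] at h2
      exact irr_one_ne_zero χ.2 h2.symm
  have hdeg : charDegree (χ : G → ℂ) ≠ 1 := by
    intro h
    have h1 : (χ : G → ℂ) 1 = 1 := by rw [← coe_charDegree, h, Nat.cast_one]
    obtain ⟨f, hf⟩ := H18.CharQuot.exists_hom_of_degree_one hχc h1
    apply hcomm
    refine ⟨⟨fun a b => ?_⟩⟩
    have h2 : (a * b * a⁻¹ * b⁻¹) ∈ H18.CharQuot.kerSub (χ : G → ℂ) hχc := by
      rw [H18.CharQuot.mem_kerSub, h1, hf]
      simp only [map_mul, map_inv]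
      have : f a * f b * (f a)⁻¹ * (f b)⁻¹ = 1 := by
        rw [mul_comm (f a) (f b)]
        group
      rw [this, Units.val_one]
    rw [hker, Subgroup.mem_bot] at h2
    rw [mul_inv_eq_one, mul_inv_eq_iff_eq_mul] at h2
    exact h2
  -- the permutation character
  have hπc : IsCharacter G (permChar G α) := isCharacter_permChar α
  have hπ1 : permChar G α 1 = (2 * p : ℕ) := by
    rw [permChar, ← hNα]
    congr 1
    exact Nat.card_congr (Equiv.subtypeUnivEquiv (fun x => one_smul G x))
  have hπt : classInner (permChar G α) (triv G : G → ℂ) = 1 := by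
    have h1 := inner_permChar_one (G := G) α
    have h2 : Nat.card (orbitRel.Quotient G α) = 1 := by
      rw [Nat.card_eq_one_iff_unique]
      refine ⟨(pretransitive_iff_subsingleton_quotient G α).1 htr, ⟨Quotient.mk'' a0⟩⟩
    rw [h2, Nat.cast_one] at h1
    exact h1
  have hfix0 : ∀ y : G, p ∣ orderOf y → Nat.card (fixedBy α y) = 0 := by
    intro y hy
    have h1 := H59.PTwoPerm.no_fixed hp hNα G hprim hnot2
      (orderOf_pow_orderOf_div (orderOf_pos y).ne' hy)
    have h2 : fixedBy α y ⊆ fixedBy α (y ^ (orderOf y / p)) := by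
      intro a ha
      have h3 : y ∈ stabilizer G a := ha
      exact pow_mem h3 _
    have h4 : Nat.card (fixedBy α y) ≤ Nat.card (fixedBy α (y ^ (orderOf y / p))) :=
      Nat.card_mono (Set.toFinite _) h2
    omega
  have hs : ∀ y : G, p ∣ orderOf y → permChar G α y = 0 := by
    intro y hy
    rw [permChar, hfix0 y hy, Nat.cast_zero]
  obtain ⟨hδ, hε, hcase⟩ := D.perm hp5 hdeg hπc hπ1 hπt hs
  have hχt : (χ : G → ℂ) ≠ (triv G : G → ℂ) := fun h => D.χ_ne (Subtype.ext h)
  rcases hcase with h2t | ⟨hdegp, ψ, hψ1, hψ2, -, hπψ⟩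
  · exfalso
    apply hnot2
    rw [two_trans_iff α (by rw [hNα]; omega)]
    have h1 := inner_permChar_self (G := G) α
    have h2 : permChar G α = (triv G : G → ℂ) + (χ : G → ℂ) := by
      funext g
      rw [h2t g, Pi.add_apply, triv_apply]
    rw [h2, H18.CharOrtho.inner_add_left, H18.CharOrtho.inner_add_right,
      H18.CharOrtho.inner_add_right, inner_irr_self (triv G).2, inner_irr_self χ.2,
      inner_irr_ne χ.2 (triv G).2 hχt, inner_irr_ne (triv G).2 χ.2 hχt.symm] at h1
    have h3 : ((Nat.card (orbitRel.Quotient G (α × α)) : ℕ) : ℂ) = ((2 : ℕ) : ℂ) := by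
      rw [← h1]
      norm_num
    exact_mod_cast h3
  · obtain ⟨f, hf⟩ := D.int_valued hpp.one_lt (y0 := x0) (by rw [hx0]) hδ hε hdeg
    have hreal : ∀ g, ((χ : G → ℂ) g).im = 0 := by
      intro g
      rw [hf, Complex.intCast_im]
    have hπχ : classInner (permChar G α) (χ : G → ℂ) = 1 := by
      have h2 : permChar G α = (triv G : G → ℂ) + (χ : G → ℂ) + (ψ : G → ℂ) := by
        funext g
        rw [hπψ g, Pi.add_apply, Pi.add_apply, triv_apply]
      rw [h2, H18.CharOrtho.inner_add_left, H18.CharOrtho.inner_add_left, inner_irr_self χ.2,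
        inner_irr_ne (triv G).2 χ.2 hχt.symm,
        inner_irr_ne ψ.2 χ.2 (fun h => hψ2 (Subtype.ext h))]
      norm_num
    have hν : H83.FSMult.nu (χ : G → ℂ) = 1 :=
      H59.PermNu.nu_eq_one (X := α) χ.2 hreal 1 odd_one (by rw [hπχ, Nat.cast_one])
    have C := D.count hpp hp5 hδ hε hdegp f hf hν
    have hχ1 : (χ : G → ℂ) 1 = ((p - 1 : ℕ) : ℂ) := by rw [← coe_charDegree, hdegp]
    have hle : ∀ g, f g ≤ p - 1 := by
      intro g
      have h1 := char_norm_le hχc g
      rw [hχ1, hf, Complex.norm_intCast, Complex.natCast_re] at h1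
      have h2 : |(f g : ℝ)| ≤ ((p - 1 : ℕ) : ℝ) := h1
      have h3 : (f g : ℝ) ≤ ((p - 1 : ℕ) : ℝ) := (le_abs_self _).trans h2
      have h4 : f g ≤ ((p - 1 : ℕ) : ℤ) := by exact_mod_cast h3
      omega
    have hfa : ∀ g, f g = p - 1 → g = 1 := by
      intro g hg
      have h1 : g ∈ H18.CharQuot.kerSub (χ : G → ℂ) hχc := by
        rw [H18.CharQuot.mem_kerSub, hf, hf, hg, C.one]
      rw [hker, Subgroup.mem_bot] at h1
      exact h1
    rcases Nat.lt_or_ge p 7 with h7 | h7
    · have hp5' : p = 5 := by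
        rcases (show p = 5 ∨ p = 6 by omega) with h | h
        · exact h
        · rw [h] at hpp
          exact absurd hpp (by decide)
      exact ⟨hp5', H60.Ord60.iso_alt5 (C.five hp5' hle hfa)⟩
    · exfalso
      have B : Big G p f := ⟨C, hpp, h7, hle, hfa,
        fun r hr g => H59.PowCong.pow_cong hχc hf hr g,
        cent_sing (by omega) hx0 hidx hC⟩
      refine B.false (X := α) hNα hfix0 ?_ ?_
      · have h1 := hπt
        rw [classInner, inv_mul_eq_iff_eq_mul₀ card_ne_zero', mul_one] at h1
        have h2 : ((∑ g : G, (Nat.card (fixedBy α g) : ℤ) : ℤ) : ℂ) = ((Nat.card G : ℤ) : ℂ) := by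
          push_cast
          rw [← h1]
          refine Finset.sum_congr rfl fun g _ => ?_
          rw [triv_apply, map_one, mul_one, permChar]
        exact_mod_cast h2
      · have h1 := inner_sum_eq f hf (permChar G α)
        rw [hπχ, mul_one] at h1
        have h2 : ((∑ g : G, (Nat.card (fixedBy α g) : ℤ) * f g : ℤ) : ℂ) =
            ((Nat.card G : ℤ) : ℂ) := by
          push_cast
          rw [h1]
          refine Finset.sum_congr rfl fun g _ => ?_
          rw [permChar]
        exact_mod_cast h2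

end Cfsg.Agent.S4707
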