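import Cfsg.Statements.S4709
import Cfsg.Agent.Lib.H5.PBg

set_option autoImplicit false
open Cfsg

namespace Cfsg.Agent.S4709

/-- Let p be a prime, M a maximal ideal of the algebraic integers containing p, and G a finite group with a nontrivial abelian Sylow p-subgroup P; put N = N_G(P), C = C_G(P). Suppose N/C is cyclic of order m with 1 < m < #P − 1 (C has index m in N and N is generated by C and one element), and C_G(y) ∩ N = C for every non-identity y ∈ P. Put r = (#P − 1)/m. Then there is s ≤ m such that the principal p-block is the disjoint union of a set X of s characters containing the principal character and a set Y of r characters, with integers a_χ ≠ 0 (χ ∈ X), d and a sign δ = ±1, such that: every χ ∈ X takes the value a_χ at every element whose p-part is a non-identity element of P; there is a map ζ from the non-principal linear characters ψ of P onto Y,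 constant on N-conjugacy classes, with ζ_ψ(z) = d + δ·Σ ψ'(y) for every z whose p-part y is a non-identity element of P, the sum running over the N-conjugates ψ' of ψ; (d − δ)^2 + (r − 1) d^2 + Σ_{χ ∈ X} a_χ^2 = m + 1; all members of Y agree on p-regular elements; and (r d − δ) η(g) + Σ_{χ ∈ X} a_χ χ(g) = 0 for every η ∈ Y and every p-regular g. -/
theorem result {G : Type*} [Group G] [Finite G] (p : ℕ) [Fact p.Prime] (M : Ideal Cfsg.AlgInt) (hM : Cfsg.IsPModular p M) (P : Sylow p G) (hab : IsMulCommutative P) (hP1 : Nat.card P ≠ 1) (m : ℕ) (hm1 : 1 < m) (hm2 : m + 1 < Nat.card P) (hCN : (Subgroup.centralizer ((P : Subgroup G) : Set G)).relIndex (Subgroup.normalizer ((P : Subgroup G) : Set G)) = m) (hcyc : ∃ g : G, g ∈ Subgroup.normalizer ((P : Subgroup G) : Set G) ∧ Subgroup.centralizer ((P : Subgroup G) : Set G) ⊔ Subgroup.zpowers g = Subgroup.normalizer ((P : Subgroup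 G) : Set G)) (hfrob : ∀ y : G, y ∈ (P : Subgroup G) → y ≠ 1 → Subgroup.centralizer ({y} : Set G) ⊓ Subgroup.normalizer ((P : Subgroup G) : Set G) = Subgroup.centralizer ((P : Subgroup G) : Set G)) : ∃ (s : ℕ) (X Y : Set (Cfsg.IrrCharacter G)), s ≤ m ∧ Cfsg.principalBlock M G = X ∪ Y ∧ Disjoint X Y ∧ Nat.card X = s ∧ Nat.card Y = (Nat.card P - 1) / m ∧ (∃ χ₁ ∈ X, (χ₁ : G → ℂ) = fun _ => 1) ∧ ∃ (a : Cfsg.IrrCharacter G → ℤ) (d δ : ℤ) (ζ : (↥(P : Subgroup G) →* ℂˣ) → Cfsg.IrrCharacter G), (δ = 1 ∨ δ = -1) ∧ (∀ χ ∈ X, a χ ≠ 0 ∧ ∀ z y : G, Cfsg.IsPPart p z y → y ∈ (P : Subgroup G) → y ≠ 1 → (χ : G → ℂ) z = (a χ : ℂ)) ∧ (∀ ψ : ↥(P : Subgroup G) →* ℂˣ, ψ ≠ 1 → ζ ψ ∈ Y) ∧ (∀ η ∈ Y, ∃ ψ : ↥(P : Subgroup G) →* ℂˣ, ψ ≠ 1 ∧ ζ ψ = η) ∧ (∀ ψ ψ' : ↥(P : Subgroup G) →* ℂˣ, ψ ≠ 1 → (∃ n : G, n ∈ Subgroup.normalizer ((P : Subgroup G) : Set G) ∧ ∀ w w' : ↥(P : Subgroup G), (w' : G) = n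 * w * n⁻¹ → ψ' w' = ψ w) → ζ ψ' = ζ ψ) ∧ (∀ ψ : ↥(P : Subgroup G) →* ℂˣ, ψ ≠ 1 → ∀ (z : G) (y : ↥(P : Subgroup G)), Cfsg.IsPPart p z (y : G) → (y : G) ≠ 1 → (ζ ψ : G → ℂ) z = (d : ℂ) + (δ : ℂ) * ∑ᶠ ψ' ∈ {ψ' : ↥(P : Subgroup G) →* ℂˣ | ∃ n : G, n ∈ Subgroup.normalizer ((P : Subgroup G) : Set G) ∧ ∀ w w' : ↥(P : Subgroup G), (w' : G) = n * w * n⁻¹ → ψ' w' = ψ w}, ((ψ' y : ℂˣ) : ℂ)) ∧ ((d - δ) ^ 2 + ((Nat.card P - 1) / m - 1 : ℤ) * d ^ 2 + ∑ᶠ χ ∈ X, a χ ^ 2 = (m : ℤ) + 1) ∧ (∀ η ∈ Y, ∀ η' ∈ Y, ∀ g : G, ¬ p ∣ orderOf g → (η : G → ℂ) g = (η' : G → ℂ) g) ∧ (∀ η ∈ Y, ∀ g : G, ¬ p ∣ orderOf g → ((((Nat.card P - 1) / m : ℕ) : ℂ) * d - δ) * (η : G → ℂ) g + ∑ᶠ χ ∈ X, (a χ : ℂ) * (χ : G → ℂ) g = 0) := by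
  classical
  letI := Fintype.ofFinite G
  letI := Fintype.ofFinite (P : Subgroup G)
  letI := Fintype.ofFinite (IrrCharacter G)
  letI := Fintype.ofFinite (H5.PBf.WP P)
  haveI := H20.Loc.pm_isPrime hM
  have hH : H5.PBf.Hyp P := by
    refine ⟨fun a ha b hb => congrArg Subtype.val (hab.is_comm.comm (⟨a, ha⟩ : P) ⟨b, hb⟩), ?_, hP1⟩
    intro y hy hy1 n hn hc
    rw [← hfrob y hy hy1]
    exact ⟨Subgroup.mem_centralizer_singleton_iff.2 hc, hn⟩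
  have hF := H5.PBf.frame hH
  have hfp := H5.PBf.fpf hH
  have hA := hF.comm
  have hW : Nat.card (H5.PBf.WP P) = m := by rw [H5.PBf.card_WP, hCN]
  obtain ⟨n, rep, hrep⟩ := H5.PBd.exists_reps hA (H5.PBf.WP P)
  have hcard := hrep.card hA hfp
  rw [hW] at hcard
  have hcard' : n * m + 1 = Nat.card P := hcard
  have hn : 2 ≤ n := by
    by_contra hlt
    have h1 : n ≤ 1 := by omega
    have h2 : n * m ≤ 1 * m := Nat.mul_le_mul_right m h1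
    omega
  have hdiv : (Nat.card P - 1) / m = n := by
    rw [← hcard', Nat.add_sub_cancel]
    exact Nat.mul_div_cancel _ (by omega)
  have hdivZ : ((Nat.card P : ℤ) - 1) / m = n := by
    rw [← hcard']
    push_cast
    rw [add_sub_cancel_right]
    exact Int.mul_ediv_cancel _ (by omega)
  obtain ⟨i₀⟩ : Nonempty (Fin n) := ⟨⟨0, by omega⟩⟩
  obtain ⟨μ, δ, d, a, hO⟩ := H5.PBe.exists_out hM hF hfp hrep hn i₀
  have hone := H20.Klein.one_mem (M := M) (G := G)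
  have hreg : ∀ g : G, ¬ p ∣ orderOf g → ∀ ψ φ, H5.PBc.D p (P : Subgroup G) (H5.PBf.WP P) ψ φ g = 0 :=
    fun g hg ψ φ => H5.PBc.D_regular hM ψ φ hg
  set X : Set (IrrCharacter G) := {χ | χ ∈ principalBlock M G ∧ ∀ i, μ i ≠ χ} with hX
  have hnorm := hO.norm hM hF hfp hrep
  rw [hW] at hnorm
  have hidx : ∀ ψ : (P : Subgroup G) →* ℂˣ, ∃ i, ψ ≠ 1 → ∃ w ∈ H5.PBf.WP P, H5.PBc.tw w (rep i) = ψ := by
    intro ψ
    by_cases h : ψ = 1
    · exact ⟨i₀, fun h' => absurd h h'⟩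
    · obtain ⟨i, hi⟩ := hrep.ex ψ h
      exact ⟨i, fun _ => hi⟩
  choose idx hidx using hidx
  have hset : ∀ ψ : (P : Subgroup G) →* ℂˣ,
      {ψ' : ↥(P : Subgroup G) →* ℂˣ | ∃ n : G, n ∈ Subgroup.normalizer ((P : Subgroup G) : Set G) ∧
        ∀ w w' : ↥(P : Subgroup G), (w' : G) = n * w * n⁻¹ → ψ' w' = ψ w} =
      {ψ' | ∃ w ∈ H5.PBf.WP P, H5.PBc.tw w ψ = ψ'} := by
    intro ψ
    ext ψ'
    constructor
    · rintro ⟨n, hn, h⟩
      refine ⟨Subgroup.normalizerMonoidHom (P : Subgroup G) ⟨n⁻¹, inv_mem hn⟩, ⟨_, rfl⟩, ?_⟩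
      ext x
      rw [H5.PBc.tw_apply]
      congr 1
      symm
      apply h
      rw [H5.PBf.act_val]
      group
    · rintro ⟨w, ⟨n, rfl⟩, rfl⟩
      refine ⟨(n : G)⁻¹, inv_mem n.2, ?_⟩
      intro x x' hx
      rw [H5.PBc.tw_apply]
      congr 1
      apply Subtype.ext
      rw [H5.PBf.act_val, hx]
      group
  refine ⟨Nat.card X, X, Set.range μ, ?_, ?_, ?_, rfl, ?_, ?_, a, d, δ, fun ψ => μ (idx ψ), hO.hδ, ?_, ?_, ?_, ?_,
    ?_, ?_, ?_, ?_⟩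
  · -- s ≤ m
    have h1 : (Nat.card X : ℤ) ≤ ∑ χ : IrrCharacter G, if χ ∈ principalBlock M G ∧ ∀ i, μ i ≠ χ then
        a χ ^ 2 else 0 := by
      rw [Nat.card_eq_fintype_card, Fintype.card_subtype, Finset.card_filter]
      push_cast
      refine Finset.sum_le_sum fun χ _ => ?_
      by_cases h : χ ∈ principalBlock M G ∧ ∀ i, μ i ≠ χ
      · rw [if_pos h, if_pos (show χ ∈ X from h)]
        have h2 := (hO.aX χ h.1 h.2).1
        have h3 : 0 < a χ ^ 2 := by positivity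
        omega
      · rw [if_neg h, if_neg (show ¬ χ ∈ X from h)]
    have h2 : (1 : ℤ) ≤ (d - δ) ^ 2 + ((n : ℤ) - 1) * d ^ 2 := by
      have h3 : (1 : ℤ) ≤ (n : ℤ) - 1 := by
        have : (2 : ℤ) ≤ n := by exact_mod_cast hn
        linarith
      by_cases hd : d = 0
      · rw [hd]
        rcases hO.hδ with h | h <;> rw [h] <;> norm_num
      · have h4 : 0 < d ^ 2 := by positivity
        nlinarith [sq_nonneg (d - δ)]
    have h4 : (Nat.card X : ℤ) ≤ m := by linarith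
    exact_mod_cast h4
  · ext χ
    constructor
    · intro h
      by_cases h1 : ∃ i, μ i = χ
      · exact Or.inr h1
      · exact Or.inl ⟨h, fun i hi => h1 ⟨i, hi⟩⟩
    · rintro (h | ⟨i, rfl⟩)
      · exact h.1
      · exact hO.mem i
  · rw [Set.disjoint_left]
    rintro χ ⟨_, h⟩ ⟨i, hi⟩
    exact h i hi
  · rw [hdiv, Nat.card_range_of_injective hO.inj, Nat.card_eq_fintype_card, Fintype.card_fin]
  · exact ⟨H20.NPC.one G, ⟨hone, fun i => hO.mu_ne_one hM hF hrep hn i⟩, rfl⟩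
  · intro χ hχ
    have h1 := hO.aX χ hχ.1 hχ.2
    refine ⟨h1.1, ?_⟩
    intro z y hz hy hy1
    have h2 := H5.PBa.val hM (H5.PBf.nx hH hy hy1) hχ.1 hz (IsConj.refl y)
    rw [h2]
    exact h1.2 ⟨y, hy⟩ (fun h => hy1 (congrArg Subtype.val h))
  · intro ψ hψ
    exact ⟨_, rfl⟩
  · rintro η ⟨i, rfl⟩
    refine ⟨rep i, hrep.ne i, ?_⟩
    obtain ⟨w, hw, h⟩ := hidx (rep i) (hrep.ne i)
    show μ (idx (rep i)) = μ i
    rw [hrep.uniq _ _ w hw h]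
  · intro ψ ψ' hψ hc
    have h1 : ψ' ∈ {ψ' | ∃ w ∈ H5.PBf.WP P, H5.PBc.tw w ψ = ψ'} := by
      rw [← hset ψ]; exact hc
    obtain ⟨v, hv, rfl⟩ := h1
    have hψ' : H5.PBc.tw v ψ ≠ 1 := fun h => hψ (H5.PBc.tw_eq_one h)
    obtain ⟨w, hw, h⟩ := hidx ψ hψ
    obtain ⟨w', hw', h'⟩ := hidx _ hψ'
    have h2 : H5.PBc.tw (w * v * w'⁻¹) (rep (idx ψ)) = rep (idx (H5.PBc.tw v ψ)) := by
      rw [H5.PBc.tw_mul, H5.PBc.tw_mul, h]
      conv_rhs => rw [← H5.PBc.tw_id (rep (idx (H5.PBc.tw v ψ))), ← mul_inv_cancel w', H5.PBc.tw_mul, h']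
    show μ (idx (H5.PBc.tw v ψ)) = μ (idx ψ)
    rw [hrep.uniq _ _ _ (Subgroup.mul_mem _ (Subgroup.mul_mem _ hw hv) (Subgroup.inv_mem _ hw')) h2]
  · intro ψ hψ z y hz hy
    obtain ⟨w, hw, h⟩ := hidx ψ hψ
    have hy1 : y ≠ 1 := fun h => hy (by rw [h]; rfl)
    have h2 := H5.PBa.val hM (H5.PBf.nx hH y.2 hy) (hO.mem (idx ψ)) hz (IsConj.refl _)
    show (μ (idx ψ) : G → ℂ) z = _
    rw [h2, hO.valY _ y hy1, hset ψ, ← H5.PBg.Th_eq_finsum hA hfp hψ]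
    have h5 : H5.PBc.Th (H5.PBf.WP P) ψ = H5.PBc.Th (H5.PBf.WP P) (rep (idx ψ)) := by
      conv_lhs => rw [← h, H5.PBd.Th_tw hw]
    rw [h5]
  · rw [hdivZ, H5.PBg.fm X (fun χ => χ ∈ principalBlock M G ∧ ∀ i, μ i ≠ χ) (fun _ => Iff.rfl)]
    exact hnorm
  · rintro _ ⟨i, rfl⟩ _ ⟨j, rfl⟩ g hg
    exact hO.regY (hreg g hg) i j
  · rintro _ ⟨i, rfl⟩ g hg
    rw [hdiv, H5.PBg.fm X (fun χ => χ ∈ principalBlock M G ∧ ∀ i, μ i ≠ χ) (fun _ => Iff.rfl)]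
    exact hO.relX hM hF (hreg g hg) i

end Cfsg.Agent.S4709
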