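import Cfsg.Statements.S4714
import Cfsg.Agent.Lib.H20.PCDef

set_option autoImplicit false
open Cfsg

namespace Cfsg.Agent.S4714

/-- Let p be a prime, M a maximal ideal of the algebraic integers containing p, D a p-subgroup of the finite group G with G = D·C_G(D), and B a p-block with defect group D. Let χ be a member of B having D in its kernel (there is exactly one, the canonical character of B). Then the irreducible characters in B are exactly the functions θ on G for which there is an irreducible character ζ of D such that θ(yx) = ζ(y)χ(x) whenever y ∈ D, x has order prime to p and x commutes with y, and θ(z) = 0 whenever the p-part of z does not lie in D. -/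
theorem result {G : Type*} [Group G] [Finite G] (p : ℕ) [Fact p.Prime] (M : Ideal Cfsg.AlgInt) (hM : Cfsg.IsPModular p M) (D : Subgroup G) (hD : IsPGroup p D) (hG : D ⊔ Subgroup.centralizer (D : Set G) = ⊤) (B : Set (Cfsg.IrrCharacter G)) (hB : Cfsg.IsPBlock M B) (hBD : Cfsg.IsDefectGroup p M B D) (χ : Cfsg.IrrCharacter G) (hχ : χ ∈ B) (hχD : ∀ y ∈ D, (χ : G → ℂ) y = (χ : G → ℂ) 1) : (∀ θ : Cfsg.IrrCharacter G, θ ∈ B ↔ ∃ ζ : Cfsg.IrrCharacter D, (∀ (y : D) (x : G), ¬ p ∣ orderOf x → Commute (y : G) x → (θ : G → ℂ) ((y : G) * x) = (ζ : D → ℂ) y * (χ : G → ℂ) x) ∧ (∀ z : G, (∀ y : G, Cfsg.IsPPart p z y → y ∉ D) → (θ : G → ℂ) z = 0)) ∧ ∀ ζ : Cfsg.IrrCharacter D, ∃ θ ∈ B, (∀ (y : D) (x : G), ¬ p ∣ orderOf x → Commute (y : G) x → (θ : G → ℂ) ((y : G) * x) = (ζ : D → ℂ) y * (χ : G → ℂ) x) ∧ (∀ z : G, (∀ y : G, Cfsg.IsPPart p z y → y ∉ D) → (θ : G → ℂ) z = 0) := by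
  haveI := Fintype.ofFinite G
  have hpp : p.Prime := Fact.out
  have hDn : D.Normal := H20.PCDef.normal_of_sup D hG
  obtain ⟨χ0, hχ0⟩ := H20.NormQ.exists_infl D (ψ := χ) (fun n hn => hχD n hn)
  have hχ0B : H20.NormQ.infl D χ0 ∈ B := by rw [hχ0]; exact hχ
  have h1ne : (χ : G → ℂ) 1 ≠ 0 := H18.CharBasic.irr_one_ne_zero χ.2
  have hv : ∀ θ ∈ B, ∀ z : G, (∀ y : G, Cfsg.IsPPart p z y → y ∉ D) → (θ : G → ℂ) z = 0 := by
    intro θ hθ z hz
    obtain ⟨y, hy⟩ := H19.Second.exists_isPPart hpp z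
    exact H20.First.vanish_of_normal hM hB hBD hθ hy (hz y hy)
  have hmp : ∀ θ ∈ B, ∃ ζ : Cfsg.IrrCharacter D, (∀ (y : D) (x : G), ¬ p ∣ orderOf x →
      Commute (y : G) x → (θ : G → ℂ) ((y : G) * x) = (ζ : D → ℂ) y * (χ : G → ℂ) x) := by
    intro θ hθ
    obtain ⟨ζ, hζ⟩ := H20.PCDef.exists_zeta D hM hG hB hBD hχ0B hθ
    refine ⟨ζ, fun y x hx _ => ?_⟩
    have h2 := H20.PCDef.value D hM hG hB hBD hχ0B hθ y.2 hx
    rw [hζ, hχ0] at h2
    apply mul_right_cancel₀ h1ne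
    rw [h2]; ring
  have hex : ∀ ζ : Cfsg.IrrCharacter D, ∃ θ ∈ B, (∀ (y : D) (x : G), ¬ p ∣ orderOf x →
      Commute (y : G) x → (θ : G → ℂ) ((y : G) * x) = (ζ : D → ℂ) y * (χ : G → ℂ) x) := by
    intro ζ
    obtain ⟨θ, hθ, h⟩ := H20.PCDef.exists_of_zeta D hM hG hB hBD hχ0B ζ
    refine ⟨θ, hθ, fun y x hx _ => ?_⟩
    rw [h y x hx, hχ0]
  refine ⟨fun θ => ⟨fun hθ => ?_, ?_⟩, fun ζ => ?_⟩
  · obtain ⟨ζ, hζ⟩ := hmp θ hθ
    exact ⟨ζ, hζ, hv θ hθ⟩
  · rintro ⟨ζ, hζ, h0⟩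
    obtain ⟨θ', hθ', h'⟩ := hex ζ
    have : θ = θ' := by
      apply Subtype.ext
      funext z
      obtain ⟨y, hy⟩ := H19.Second.exists_isPPart hpp z
      by_cases hyD : y ∈ D
      · obtain ⟨x, hyx, hc, _, hx⟩ := hy
        rw [← hyx]
        exact (hζ ⟨y, hyD⟩ x hx hc).trans (h' ⟨y, hyD⟩ x hx hc).symm
      · have hall : ∀ y' : G, Cfsg.IsPPart p z y' → y' ∉ D := by
          intro y' hy'
          rw [H19.Second.isPPart_unique hpp hy' hy]
          exact hyD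
        exact (h0 z hall).trans (hv θ' hθ' z hall).symm
    rw [this]; exact hθ'
  · obtain ⟨θ, hθ, h⟩ := hex ζ
    exact ⟨θ, hθ, h, hv θ hθ⟩

end Cfsg.Agent.S4714
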