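import Cfsg.Statements.S4721
import Cfsg.Agent.Lib.H5.PBk

set_option autoImplicit false
open Cfsg

namespace Cfsg.Agent.S4721

/-- Let p be a prime, M a maximal ideal of the algebraic integers containing p, and G a finite group with a nontrivial abelian Sylow p-subgroup P, N = N_G(P), C = C_G(P), such that N/C is cyclic of order 3, #P > 4, and C_G(y) ∩ N = C for every non-identity y ∈ P. Then the principal p-block is the disjoint union of a set X of exactly 3 characters containing the principal character and a set Y of (#P − 1)/3 characters, with signs a_χ = ±1 (χ ∈ X, a = 1 at the principal character) and δ = ±1 such that every χ ∈ X takes the value a_χ at every element whose p-part is a non-identity element of P, and there is a map ζ from the non-principal linear characters of P onto Y, constant on N-conjugacy classes, with ζ_ψ(z) = δ·Σ ψ'(y) over the N-orbit of ψ, for z with p-part y ≠ 1 in P. If moreover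 G has an involution lying in no proper normal subgroup of G, then exactly two of the three numbers −δ and a_χ (χ ∈ X non-principal) equal −1, and the product of the degrees of the two non-principal members of X and of any member of Y is a perfect square. -/
theorem result {G : Type*} [Group G] [Finite G] (p : ℕ) [Fact p.Prime] (M : Ideal Cfsg.AlgInt) (hM : Cfsg.IsPModular p M) (P : Sylow p G) (hab : IsMulCommutative P) (hP1 : Nat.card P ≠ 1) (hCN : (Subgroup.centralizer ((P : Subgroup G) : Set G)).relIndex (Subgroup.normalizer ((P : Subgroup G) : Set G)) = 3) (hcyc : ∃ g : G, g ∈ Subgroup.normalizer ((P : Subgroup G) : Set G) ∧ Subgroup.centralizer ((P : Subgroup G) : Set G) ⊔ Subgroup.zpowers g = Subgroup.normalizer ((P : Subgroup G) : Set G)) (hm2 : 3 + 1 < Nat.card P) (hfrob : ∀ y : G, y ∈ (P : Subgroup G) → y ≠ 1 → Subgroup.centralizer ({y} : Set G) ⊓ Subgroup.normalizer ((P : Subgroup G) : Set G)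 = Subgroup.centralizer ((P : Subgroup G) : Set G)) : ∃ (X Y : Set (Cfsg.IrrCharacter G)), Cfsg.principalBlock M G = X ∪ Y ∧ Disjoint X Y ∧ Nat.card X = 3 ∧ Nat.card Y = (Nat.card P - 1) / 3 ∧ (∃ χ₁ ∈ X, (χ₁ : G → ℂ) = fun _ => 1) ∧ ∃ (a : Cfsg.IrrCharacter G → ℤ) (δ : ℤ) (ζ : (↥(P : Subgroup G) →* ℂˣ) → Cfsg.IrrCharacter G), (δ = 1 ∨ δ = -1) ∧ (∀ χ ∈ X, (a χ = 1 ∨ a χ = -1) ∧ ∀ z y : G, Cfsg.IsPPart p z y → y ∈ (P : Subgroup G) → y ≠ 1 → (χ : G → ℂ) z = (a χ : ℂ)) ∧ (∀ ψ : ↥(P : Subgroup G) →* ℂˣ, ψ ≠ 1 → ζ ψ ∈ Y) ∧ (∀ η ∈ Y, ∃ ψ : ↥(P : Subgroup G) →* ℂˣ, ψ ≠ 1 ∧ ζ ψ = η) ∧ (∀ ψ ψ' : ↥(P : Subgroup G) →* ℂˣ, ψ ≠ 1 → (∃ n : G, n ∈ Subgroup.normalizer ((P : Subgroup G) : Set G) ∧ ∀ w w' : ↥(P : Subgroup G), (w' : G) = n * w * n⁻¹ → ψ' w' = ψ w) → ζ ψ' = ζ ψ) ∧ (∀ ψ : ↥(P : Subgroup G) →* ℂˣ, ψ ≠ 1 → ∀ (z : G) (y : ↥(P : Subgroup G)), Cfsg.IsPPart p z (y : G) → (y : G) ≠ 1 → (ζ ψ : G → ℂ) z = (δ : ℂ) *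 ∑ᶠ ψ' ∈ {ψ' : ↥(P : Subgroup G) →* ℂˣ | ∃ n : G, n ∈ Subgroup.normalizer ((P : Subgroup G) : Set G) ∧ ∀ w w' : ↥(P : Subgroup G), (w' : G) = n * w * n⁻¹ → ψ' w' = ψ w}, ((ψ' y : ℂˣ) : ℂ)) ∧ ((∃ t : G, orderOf t = 2 ∧ ∀ K : Subgroup G, K.Normal → t ∈ K → K = ⊤) → Nat.card {χ : Cfsg.IrrCharacter G // χ ∈ X ∧ (χ : G → ℂ) ≠ (fun _ => 1) ∧ a χ = -1} + (if δ = 1 then 1 else 0) = 2 ∧ ∀ η ∈ Y, IsSquare (Cfsg.charDegree (η : G → ℂ) * ∏ᶠ χ ∈ {χ : Cfsg.IrrCharacter G | χ ∈ X ∧ (χ : G → ℂ) ≠ fun _ => 1}, Cfsg.charDegree (χ : G → ℂ))) := by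
  classical
  let _ := Fintype.ofFinite G
  let _ := Fintype.ofFinite (P : Subgroup G)
  let _ := Fintype.ofFinite (IrrCharacter G)
  let _ := Fintype.ofFinite (H5.PBf.WP P)
  have := H20.Loc.pm_isPrime hM
  have hH : H5.PBf.Hyp P := by
    refine ⟨fun a ha b hb => congrArg Subtype.val (hab.is_comm.comm (⟨a, ha⟩ : P) ⟨b, hb⟩), ?_, hP1⟩
    intro y hy hy1 n hn hc
    rw [← hfrob y hy hy1]
    exact ⟨Subgroup.mem_centralizer_singleton_iff.2 hc, hn⟩
  have hF := H5.PBf.frame hH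
  have hfp := H5.PBf.fpf hH
  have hA := hF.comm
  have hW : Nat.card (H5.PBf.WP P) = 3 := by rw [H5.PBf.card_WP, hCN]
  obtain ⟨n, rep, hrep⟩ := H5.PBd.exists_reps hA (H5.PBf.WP P)
  have hcard := hrep.card hA hfp
  rw [hW] at hcard
  have hcard' : n * 3 + 1 = Nat.card P := hcard
  have hn : 2 ≤ n := by omega
  have hdiv : (Nat.card P - 1) / 3 = n := by omega
  obtain ⟨i₀⟩ : Nonempty (Fin n) := ⟨⟨0, by omega⟩⟩
  obtain ⟨μ, δ, a, hO⟩ := H5.PBh.exists_out_three hM hF hfp hrep hn i₀ hW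
    (IsPGroup.iff_card.1 P.2)
  have hone := H20.Klein.one_mem (M := M) (G := G)
  have hreg : ∀ g : G, ¬ p ∣ orderOf g → ∀ ψ φ, H5.PBc.D p (P : Subgroup G) (H5.PBf.WP P) ψ φ g = 0 :=
    fun g hg ψ φ => H5.PBc.D_regular hM ψ φ hg
  obtain ⟨χ2, χ3, h2, h3, h23, ha2, ha3, hX⟩ := H5.PBj.exists_three hM hF hfp hrep hn hW hO
  set X : Set (IrrCharacter G) := {χ | χ ∈ principalBlock M G ∧ ∀ i, μ i ≠ χ} with hXdef
  have hXeq : X = {H20.NPC.one G, χ2, χ3} := by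
    ext χ
    rw [hXdef, Set.mem_setOf_eq, hX χ]
    simp
  have haone := hO.a_one hM hF hrep
  have hidx : ∀ ψ : (P : Subgroup G) →* ℂˣ, ∃ i, ψ ≠ 1 → ∃ w ∈ H5.PBf.WP P, H5.PBc.tw w (rep i) = ψ := by
    intro ψ
    by_cases h : ψ = 1
    · exact ⟨i₀, fun h' => absurd h h'⟩
    · obtain ⟨i, hi⟩ := hrep.ex ψ h
      exact ⟨i, fun _ => hi⟩
  choose idx hidx using hidx
  have hset : ∀ ψ : (P : Subgroup G) →* ℂˣ,
      {ψ' : ↥(P : Subgroup G) →* ℂˣ | ∃ n : G, n ∈ Subgroup.normalizer ((P : Subgroup G) : Set G) ∧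
        ∀ w w' : ↥(P : Subgroup G), (w' : G) = n * w * n⁻¹ → ψ' w' = ψ w} =
      {ψ' | ∃ w ∈ H5.PBf.WP P, H5.PBc.tw w ψ = ψ'} := by
    intro ψ
    ext ψ'
    constructor
    · rintro ⟨n, hn, h⟩
      refine ⟨Subgroup.normalizerMonoidHom (P : Subgroup G) ⟨n⁻¹, inv_mem hn⟩, ⟨_, rfl⟩, ?_⟩
      ext x
      rw [H5.PBc.tw_apply]
      congr 1
      symm
      apply h
      rw [H5.PBf.act_val]
      group
    · rintro ⟨w, ⟨n, rfl⟩, rfl⟩
      refine ⟨(n : G)⁻¹, inv_mem n.2, ?_⟩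
      intro x x' hx
      rw [H5.PBc.tw_apply]
      congr 1
      apply Subtype.ext
      rw [H5.PBf.act_val, hx]
      group
  have hne1 : ∀ χ : IrrCharacter G, (χ : G → ℂ) ≠ (fun _ => 1) ↔ χ ≠ H20.NPC.one G := fun χ =>
    ⟨fun h h' => h (by rw [h']; rfl), fun h h' => h (Subtype.ext h')⟩
  refine ⟨X, Set.range μ, ?_, ?_, ?_, ?_, ?_, a, δ, fun ψ => μ (idx ψ), hO.hδ, ?_, ?_, ?_, ?_, ?_, ?_⟩
  · ext χ
    constructor
    · intro h
      by_cases h1 : ∃ i, μ i = χ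
      · exact Or.inr h1
      · exact Or.inl ⟨h, fun i hi => h1 ⟨i, hi⟩⟩
    · rintro (h | ⟨i, rfl⟩)
      · exact h.1
      · exact hO.mem i
  · rw [Set.disjoint_left]
    rintro χ ⟨_, h⟩ ⟨i, hi⟩
    exact h i hi
  · rw [hXeq]
    have e1 : ({H20.NPC.one G, χ2, χ3} : Set (IrrCharacter G)) =
        (({H20.NPC.one G, χ2, χ3} : Finset (IrrCharacter G)) : Set (IrrCharacter G)) := by
      ext χ; simp
    rw [e1]
    have e2 := Nat.card_eq_card_toFinset (((({H20.NPC.one G, χ2, χ3} : Finset (IrrCharacter G)) : Set (IrrCharacter G))))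
    rw [e2, Finset.toFinset_coe, Finset.card_insert_of_notMem, Finset.card_pair h23]
    simp only [Finset.mem_insert, Finset.mem_singleton, not_or]
    exact ⟨Ne.symm h2, Ne.symm h3⟩
  · rw [hdiv, Nat.card_range_of_injective hO.inj, Nat.card_eq_fintype_card, Fintype.card_fin]
  · exact ⟨H20.NPC.one G, ⟨hone, fun i => hO.mu_ne_one hM hF hrep hn i⟩, rfl⟩
  · intro χ hχ
    have h1 := hO.aX χ hχ.1 hχ.2
    refine ⟨?_, ?_⟩
    · rcases (hX χ).1 hχ with h | h | h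
      · rw [h, haone]; exact Or.inl rfl
      · rw [h]; exact ha2
      · rw [h]; exact ha3
    intro z y hz hy hy1
    have h2 := H5.PBa.val hM (H5.PBf.nx hH hy hy1) hχ.1 hz (IsConj.refl y)
    rw [h2]
    exact h1.2 ⟨y, hy⟩ (fun h => hy1 (congrArg Subtype.val h))
  · intro ψ hψ
    exact ⟨_, rfl⟩
  · rintro η ⟨i, rfl⟩
    refine ⟨rep i, hrep.ne i, ?_⟩
    obtain ⟨w, hw, h⟩ := hidx (rep i) (hrep.ne i)
    show μ (idx (rep i)) = μ i
    rw [hrep.uniq _ _ w hw h]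
  · intro ψ ψ' hψ hc
    have h1 : ψ' ∈ {ψ' | ∃ w ∈ H5.PBf.WP P, H5.PBc.tw w ψ = ψ'} := by
      rw [← hset ψ]; exact hc
    obtain ⟨v, hv, rfl⟩ := h1
    have hψ' : H5.PBc.tw v ψ ≠ 1 := fun h => hψ (H5.PBc.tw_eq_one h)
    obtain ⟨w, hw, h⟩ := hidx ψ hψ
    obtain ⟨w', hw', h'⟩ := hidx _ hψ'
    have h2 : H5.PBc.tw (w * v * w'⁻¹) (rep (idx ψ)) = rep (idx (H5.PBc.tw v ψ)) := by
      rw [H5.PBc.tw_mul, H5.PBc.tw_mul, h]
      conv_rhs => rw [← H5.PBc.tw_id (rep (idx (H5.PBc.tw v ψ))), ← mul_inv_cancel w', H5.PBc.tw_mul, h']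
    show μ (idx (H5.PBc.tw v ψ)) = μ (idx ψ)
    rw [hrep.uniq _ _ _ (Subgroup.mul_mem _ (Subgroup.mul_mem _ hw hv) (Subgroup.inv_mem _ hw')) h2]
  · intro ψ hψ z y hz hy
    obtain ⟨w, hw, h⟩ := hidx ψ hψ
    have hy1 : y ≠ 1 := fun h => hy (by rw [h]; rfl)
    have h2 := H5.PBa.val hM (H5.PBf.nx hH y.2 hy) (hO.mem (idx ψ)) hz (IsConj.refl _)
    show (μ (idx ψ) : G → ℂ) z = _
    rw [h2, hO.valY _ y hy1, hset ψ, ← H5.PBg.Th_eq_finsum hA hfp hψ]
    have h5 : H5.PBc.Th (H5.PBf.WP P) ψ = H5.PBc.Th (H5.PBf.WP P) (rep (idx ψ)) := by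
      conv_lhs => rw [← h, H5.PBd.Th_tw hw]
    rw [h5]
    push_cast
    ring
  · rintro ⟨t, ho, ht⟩
    have key : ∀ i, H5.PBk.Concl χ2 χ3 (μ i) a δ := by
      intro i
      by_cases hp2 : p = 2
      · have hpg : IsPGroup p (Subgroup.zpowers t) := by
          apply IsPGroup.of_card (n := 1)
          rw [Nat.card_zpowers, ho, hp2, pow_one]
        obtain ⟨Q, hQ⟩ := hpg.exists_le_sylow
        obtain ⟨g, hg⟩ := MulAction.exists_smul_eq G Q P
        have h4 : g * t * g⁻¹ ∈ P := by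
          rw [← hg]
          exact Subgroup.smul_mem_pointwise_smul _ _ _ (hQ (Subgroup.mem_zpowers t))
        refine H5.PBk.even_case hM hH hp2 hrep hn hW hO h2 h3 h23 ha2 ha3 hX (t := g * t * g⁻¹) ?_ ?_ h4 i
        · rw [H5.Dihedral.orderOf_conj, ho]
        · intro K hK htK
          apply ht K hK
          have h5 := hK.conj_mem _ htK g⁻¹
          have h6 : g⁻¹ * (g * t * g⁻¹) * g⁻¹⁻¹ = t := by group
          rwa [h6] at h5
      · exact H5.PBk.odd_case hM hH hp2 hrep hW hO h2 h3 h23 ha2 ha3 hX ho ht i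
    refine ⟨?_, ?_⟩
    · rw [← (key i₀).1]
      congr 1
      have e1 : Nat.card {χ : IrrCharacter G // χ ∈ X ∧ (χ : G → ℂ) ≠ (fun _ => 1) ∧ a χ = -1} =
          (({χ2, χ3} : Finset (IrrCharacter G)).filter fun χ => a χ = -1).card := by
        rw [← Nat.card_eq_finsetCard]
        refine Nat.card_congr (Equiv.subtypeEquivRight fun χ => ?_)
        rw [Finset.mem_filter, Finset.mem_insert, Finset.mem_singleton, hne1 χ]
        constructor
        · rintro ⟨h4, h5, h6⟩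
          rcases (hX χ).1 h4 with h | h | h
          · exact absurd h h5
          · exact ⟨Or.inl h, h6⟩
          · exact ⟨Or.inr h, h6⟩
        · rintro ⟨h4, h6⟩
          refine ⟨(hX χ).2 (Or.inr h4), ?_, h6⟩
          rcases h4 with h | h
          · rw [h]; exact h2
          · rw [h]; exact h3
      rw [e1, Finset.card_filter, Finset.sum_pair h23]
    · rintro _ ⟨i, rfl⟩
      have e1 : {χ : IrrCharacter G | χ ∈ X ∧ (χ : G → ℂ) ≠ fun _ => 1} = {χ2, χ3} := by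
        ext χ
        rw [Set.mem_setOf_eq, hne1 χ, Set.mem_insert_iff, Set.mem_singleton_iff]
        constructor
        · rintro ⟨h4, h5⟩
          rcases (hX χ).1 h4 with h | h | h
          · exact absurd h h5
          · exact Or.inl h
          · exact Or.inr h
        · intro h4
          refine ⟨(hX χ).2 (Or.inr h4), ?_⟩
          rcases h4 with h | h
          · rw [h]; exact h2
          · rw [h]; exact h3
      rw [e1, finprod_mem_pair h23]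
      exact (key i).2

end Cfsg.Agent.S4721
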