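import Cfsg.Statements.S4735
import Cfsg.Agent.Lib.H81.LamB0

set_option autoImplicit false
open Cfsg

namespace Cfsg.Agent.S4735

/-- Let p be a prime, M a maximal ideal of the algebraic integers containing p, G a finite group, H = O_p'(G) and Ḡ = G/H. For x ∈ G write λ(G, x) for the sum of |χ(x)|^2 over the irreducible characters χ in the principal p-block of G. Then λ(G, x) is a positive integer, λ(G, x) = λ(Ḡ, x̄) where x̄ is the image of x, and λ(G, x) ≤ #C_Ḡ(x̄). Moreover λ(G, 1) = [G : H] if and only if the principal block is the only p-block of Ḡ. -/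
theorem result {G : Type*} [Group G] [Finite G] (p : ℕ) [Fact p.Prime] (M : Ideal Cfsg.AlgInt) (hM : Cfsg.IsPModular p M) (x : G) : (∃ n : ℕ, 0 < n ∧ ∑ᶠ χ ∈ Cfsg.principalBlock M G, Complex.normSq ((χ : G → ℂ) x) = n) ∧ ∑ᶠ χ ∈ Cfsg.principalBlock M G, Complex.normSq ((χ : G → ℂ) x) = ∑ᶠ ψ ∈ Cfsg.principalBlock M (G ⧸ Cfsg.pPrimeCore p G), Complex.normSq ((ψ : G ⧸ Cfsg.pPrimeCore p G → ℂ) (QuotientGroup.mk x)) ∧ ∑ᶠ χ ∈ Cfsg.principalBlock M G, Complex.normSq ((χ : G → ℂ) x) ≤ (Nat.card ↥(Subgroup.centralizer ({(QuotientGroup.mk x : G ⧸ Cfsg.pPrimeCore p G)} : Set (G ⧸ Cfsg.pPrimeCore p G))) : ℝ) ∧ ((∑ᶠ χ ∈ Cfsg.principalBlock M G, Cfsg.charDegree (χ : G → ℂ) ^ 2) = (Cfsg.pPrimeCore p G).index ↔ ∀ B : Set (Cfsg.IrrCharacter (G ⧸ Cfsg.pPrimeCore p G)), Cfsg.IsPBlock M B → B = Cfsg.principalBlock M (G ⧸ Cfsg.pPrimeCore p G)) := by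
  classical
  have hMp := H20.Loc.pm_isPrime hM
  obtain ⟨inst⟩ : Nonempty (Fintype (IrrCharacter G)) := ⟨Fintype.ofFinite _⟩
  obtain ⟨inst'⟩ : Nonempty (Fintype (IrrCharacter (G ⧸ pPrimeCore p G))) :=
    ⟨Fintype.ofFinite _⟩
  refine ⟨H81.LamB0.exists_pos x, H81.LamB0.sum_eq hM x, ?_, ?_⟩
  · rw [H81.LamB0.sum_eq hM x]
    exact H81.LamB0.le_card _ _
  · rw [H81.LamB0.sum_deg_eq hM]
    have h1 : (Cfsg.pPrimeCore p G).index = Nat.card (G ⧸ pPrimeCore p G) := rfl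
    rw [h1, H81.LamB0.deg_sum_eq_card_iff]
    constructor
    · intro h B hB
      obtain ⟨χ, hχ⟩ := H20.Blk.isPBlock_nonempty hB
      have h2 : χ ∈ Cfsg.principalBlock M (G ⧸ pPrimeCore p G) := by
        rw [h]; exact Set.mem_univ χ
      exact H20.Blk.isPBlock_eq_of_mem hB
        ⟨H81.DegreeCount.oneIrr (G ⧸ pPrimeCore p G), rfl⟩ hχ h2
    · intro h
      apply Set.eq_univ_of_forall
      intro χ
      rw [← h _ (H20.Blk.isPBlock_blockOf χ)]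
      exact H20.Blk.mem_blockOf_self χ


end Cfsg.Agent.S4735
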