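import Cfsg.Agent.Lib.H84.CyclicNorm
import Cfsg.Agent.Lib.H84.CharMisc
import Cfsg.Agent.Lib.H78.Cong
import Cfsg.Agent.Lib.H4.CenterIndex
import Cfsg.Statements.S4955

set_option autoImplicit false
open Cfsg

namespace Cfsg.Agent.S4955

open H18.CharBasic H18.CharOrtho H18.CharInd H18.CharQuot H84.CharMisc Subgroup
open scoped ComplexConjugate

theorem col_norm {X : Type*} [Group X] [Finite X] [Fintype (IrrCharacter X)] (g : X) :
    ∑ χ : IrrCharacter X, ‖(χ : X → ℂ) g‖ ^ 2 = (Nat.card (centralizer ({g} : Set X)) : ℝ) := by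
  classical
  have h := column_orthogonality g g
  rw [if_pos (IsConj.refl g)] at h
  have h1 : ((∑ χ : IrrCharacter X, ‖(χ : X → ℂ) g‖ ^ 2 : ℝ) : ℂ) =
      ((Nat.card (centralizer ({g} : Set X)) : ℝ) : ℂ) := by
    push_cast
    rw [← h]
    refine Finset.sum_congr rfl fun χ _ => ?_
    rw [Complex.mul_conj, Complex.normSq_eq_norm_sq]
    push_cast; rfl
  exact_mod_cast h1

/-- Let X be a finite group with an abelian normal Sylow p-subgroup V (a normal p-subgroup of index prime to p in which any two elements commute), and let G be a complement to V in X. Then for every v in V, writing C for the centralizer of v in G, the number k(X) of conjugacy classes of X satisfies k(X) ≤ (order of C)·(order of V) − ((order of G) − k(G)); the statement is written with the subtracted term moved to the left. In particular, if some v in V is centralized by no nonidentity element of G, then k(X) is at most the order of V. -/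
theorem result {X : Type*} [Group X] [Finite X] (p : ℕ) [Fact p.Prime] (V : Subgroup X) [V.Normal] (hVp : IsPGroup p V) (hidx : ¬ p ∣ V.index) (hab : ∀ a ∈ V, ∀ b ∈ V, a * b = b * a) (G : Subgroup X) (hGV : Subgroup.IsComplement' V G) (v : X) (hv : v ∈ V) : Nat.card (ConjClasses X) + Nat.card G ≤ Nat.card ↥(G ⊓ Subgroup.centralizer ({v} : Set X)) * Nat.card V + Nat.card (ConjClasses G) := by
  classical
  have := Fintype.ofFinite X
  have := Fintype.ofFinite (IrrCharacter X)
  obtain ⟨M, hM⟩ := H78.Cong.exists_isPModular (Fact.out : p.Prime)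
  have hMprime : M.IsPrime := H20.Loc.pm_isPrime hM
  have hn : 0 < orderOf v := orderOf_pos v
  set n := orderOf v with hndef
  -- χ(v) ≠ 0
  have hne : ∀ χ : IrrCharacter X, (χ : X → ℂ) v ≠ 0 := by
    intro χ h0
    obtain ⟨d, hd⟩ := exists_degree (isCharacter_of_isIrr χ.2)
    have h1 : d ∣ V.index := H4.CenterIndex.ito χ.2 hd V hab
    obtain ⟨k, hk⟩ := hVp ⟨v, hv⟩
    have hk' : v ^ p ^ k = 1 := congrArg Subtype.val hk
    have h2 := H78.Cong.char_congr_one hM (isCharacter_of_isIrr χ.2) hk'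
    rw [h0, hd, zero_sub] at h2
    have h3 : MemLocalIdeal M ((d : ℂ)) := by
      have := H20.Loc.locI_neg h2
      rwa [neg_neg] at this
    have h4 : ¬ MemLocalIdeal M ((d : ℂ)) := by
      have hpd : ¬ p ∣ d := fun h => hidx (h.trans h1)
      exact fun h => hpd ((H20.Loc.locI_natCast_iff hM).1 h)
    exact h4 h3
  let S := (Finset.range n).filter (fun a => a.Coprime n)
  have hS : S.card = n.totient := by
    rw [Nat.totient_eq_card_coprime]
    congr 1
    ext a
    simp only [S, Finset.mem_filter]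
    rw [Nat.coprime_comm]
  have hcent : ∀ a ∈ S, centralizer ({v ^ a} : Set X) = centralizer ({v} : Set X) := by
    intro a ha
    have hac : a.Coprime n := (Finset.mem_filter.1 ha).2
    ext x
    rw [mem_centralizer_singleton_iff, mem_centralizer_singleton_iff]
    constructor
    · intro h
      obtain ⟨m, hm⟩ := exists_pow_eq_self_of_coprime hac
      have h1 : Commute x (v ^ a) := h
      have h2 := h1.pow_right m
      rw [hm] at h2
      exact h2
    · intro h
      have h1 : Commute x v := h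
      exact h1.pow_right a
  have hcol : ∀ a ∈ S, ∑ χ : IrrCharacter X, ‖(χ : X → ℂ) (v ^ a)‖ ^ 2 =
      (Nat.card (centralizer ({v} : Set X)) : ℝ) := by
    intro a ha
    rw [col_norm, hcent a ha]
  have htot : ∑ χ : IrrCharacter X, ∑ a ∈ S, ‖(χ : X → ℂ) (v ^ a)‖ ^ 2 =
      (n.totient : ℝ) * (Nat.card (centralizer ({v} : Set X)) : ℝ) := by
    rw [Finset.sum_comm, Finset.sum_congr rfl hcol, Finset.sum_const, hS, nsmul_eq_mul]
  -- the characters with V in the kernel
  let K : Finset (IrrCharacter X) := Finset.univ.filter (fun χ => ∀ y ∈ V, (χ : X → ℂ) y = (χ : X → ℂ) 1)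
  have := Fintype.ofFinite (IrrCharacter (X ⧸ V))
  have hKsum : ∑ χ ∈ K, ‖(χ : X → ℂ) 1‖ ^ 2 = (Nat.card (X ⧸ V) : ℝ) := by
    have h1 : ∑ χ ∈ K, ‖(χ : X → ℂ) 1‖ ^ 2 = ∑ χ : IrrCharacter (X ⧸ V), ‖(χ : X ⧸ V → ℂ) 1‖ ^ 2 := by
      symm
      refine Finset.sum_bij (fun χ _ => (irrQuotEquiv V χ).1) ?_ ?_ ?_ ?_
      · intro χ _
        exact Finset.mem_filter.2 ⟨Finset.mem_univ _, (irrQuotEquiv V χ).2⟩
      · intro χ _ ψ _ h
        exact (irrQuotEquiv V).injective (Subtype.ext h)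
      · intro χ hχ
        refine ⟨(irrQuotEquiv V).symm ⟨χ, (Finset.mem_filter.1 hχ).2⟩, Finset.mem_univ _, ?_⟩
        simp
      · intro χ _
        rw [irrQuotEquiv_apply]
        rfl
    rw [h1]
    have h2 := col_norm (1 : X ⧸ V)
    rw [h2]
    have h3 : centralizer ({1} : Set (X ⧸ V)) = ⊤ := by
      rw [eq_top_iff]
      intro x _
      rw [mem_centralizer_singleton_iff]
      simp
    rw [h3, card_top]
  have hKcard : K.card = Nat.card (ConjClasses (X ⧸ V)) := by
    rw [← card_irr_eq_card_conjClasses, Nat.card_congr (irrQuotEquiv V), Nat.card_eq_fintype_card,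
      Fintype.card_subtype]
  -- X ⧸ V ≃* G
  let φ : G →* X ⧸ V := (QuotientGroup.mk' V).comp G.subtype
  have hinj : Function.Injective φ := by
    rw [injective_iff_map_eq_one]
    intro a ha
    have h1 : (a : X) ∈ V := (QuotientGroup.eq_one_iff (a : X)).1 ha
    have h2 : (a : X) ∈ V ⊓ G := ⟨h1, a.2⟩
    rw [hGV.disjoint.eq_bot] at h2
    exact Subtype.ext (Subgroup.mem_bot.1 h2)
  have hsurj : Function.Surjective φ := by
    intro y
    obtain ⟨g, rfl⟩ := QuotientGroup.mk'_surjective V y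
    have h1 : g ∈ V ⊔ G := by rw [hGV.sup_eq_top]; trivial
    rw [Subgroup.mem_sup_of_normal_left] at h1
    obtain ⟨k, hk, n, hn, rfl⟩ := h1
    refine ⟨⟨n, hn⟩, ?_⟩
    change (QuotientGroup.mk' V) n = _
    rw [map_mul]
    have : (QuotientGroup.mk' V) k = 1 := (QuotientGroup.eq_one_iff k).2 hk
    rw [this, one_mul]
  let e : G ≃* X ⧸ V := MulEquiv.ofBijective φ ⟨hinj, hsurj⟩
  have hcardG : Nat.card (X ⧸ V) = Nat.card G := (Nat.card_congr e.toEquiv).symm
  have hkG : Nat.card (ConjClasses (X ⧸ V)) = Nat.card (ConjClasses G) := by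
    symm
    refine Nat.card_congr (Equiv.ofBijective (ConjClasses.map e.toMonoidHom) ⟨?_, ?_⟩)
    · rintro ⟨a⟩ ⟨b⟩ h
      have h1 : IsConj (e a) (e b) := ConjClasses.mk_eq_mk_iff_isConj.1 h
      have h2 := MonoidHom.map_isConj e.symm.toMonoidHom h1
      apply ConjClasses.mk_eq_mk_iff_isConj.2
      simpa using h2
    · rintro ⟨a⟩
      refine ⟨ConjClasses.mk (e.symm a), ?_⟩
      apply ConjClasses.mk_eq_mk_iff_isConj.2
      change IsConj (e (e.symm a)) a
      rw [e.apply_symm_apply]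
  -- the centralizer of v in X
  have hcardC : Nat.card (centralizer ({v} : Set X)) = Nat.card ↥(G ⊓ centralizer ({v} : Set X)) * Nat.card V := by
    rw [mul_comm, ← Nat.card_prod]
    symm
    have hVC : ∀ a ∈ V, a ∈ centralizer ({v} : Set X) := by
      intro a ha
      rw [mem_centralizer_singleton_iff]
      exact hab a ha v hv
    refine Nat.card_congr (Equiv.ofBijective (fun z : V × ↥(G ⊓ centralizer ({v} : Set X)) =>
      (⟨(z.1 : X) * (z.2 : X), mul_mem (hVC _ z.1.2) z.2.2.2⟩ : centralizer ({v} : Set X))) ⟨?_, ?_⟩)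
    · rintro ⟨a, b⟩ ⟨a', b'⟩ h
      have h1 : (a : X) * (b : X) = (a' : X) * (b' : X) := congrArg Subtype.val h
      have h2 := hGV.1 (a₁ := (⟨a, a.2⟩, ⟨b, b.2.1⟩)) (a₂ := (⟨a', a'.2⟩, ⟨b', b'.2.1⟩)) h1
      have h3 := congrArg Prod.fst h2
      have h4 := congrArg Prod.snd h2
      have h5 : (a : X) = a' := congrArg Subtype.val h3
      have h6 : (b : X) = b' := congrArg (Subtype.val : G → X) h4
      exact Prod.ext (Subtype.ext h5) (Subtype.ext h6)
    · rintro ⟨x, hx⟩
      obtain ⟨⟨a, g⟩, hag⟩ := hGV.2 x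
      have hag' : (a : X) * (g : X) = x := hag
      have hg : (g : X) ∈ centralizer ({v} : Set X) := by
        have : (g : X) = (a : X)⁻¹ * x := by rw [← hag']; group
        rw [this]
        exact mul_mem (inv_mem (hVC _ a.2)) hx
      exact ⟨(⟨a, a.2⟩, ⟨g, g.2, hg⟩), Subtype.ext hag'⟩
  -- lower bounds
  have hK1 : ∑ χ ∈ K, ∑ a ∈ S, ‖(χ : X → ℂ) (v ^ a)‖ ^ 2 = (n.totient : ℝ) * (Nat.card G : ℝ) := by
    have h1 : ∀ χ ∈ K, ∑ a ∈ S, ‖(χ : X → ℂ) (v ^ a)‖ ^ 2 = (n.totient : ℝ) * ‖(χ : X → ℂ) 1‖ ^ 2 := by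
      intro χ hχ
      rw [Finset.sum_congr rfl (fun a _ => by
        rw [(Finset.mem_filter.1 hχ).2 (v ^ a) (V.pow_mem hv a)]), Finset.sum_const, hS, nsmul_eq_mul]
    rw [Finset.sum_congr rfl h1, ← Finset.mul_sum, hKsum, hcardG]
  have hK2 : (n.totient : ℝ) * ((Finset.univ.filter (fun χ => χ ∉ K)).card : ℝ) ≤
      ∑ χ ∈ Finset.univ.filter (fun χ => χ ∉ K), ∑ a ∈ S, ‖(χ : X → ℂ) (v ^ a)‖ ^ 2 := by
    rw [mul_comm, ← nsmul_eq_mul, ← Finset.sum_const]
    refine Finset.sum_le_sum fun χ _ => ?_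
    exact H84.CyclicNorm.totient_le_sum_norm_sq (isGen_of_isIrr χ.2) v (hne χ) hn (pow_orderOf_eq_one v)
  have hsplit : ∑ χ ∈ K, ∑ a ∈ S, ‖(χ : X → ℂ) (v ^ a)‖ ^ 2 +
      ∑ χ ∈ Finset.univ.filter (fun χ => χ ∉ K), ∑ a ∈ S, ‖(χ : X → ℂ) (v ^ a)‖ ^ 2 =
      ∑ χ : IrrCharacter X, ∑ a ∈ S, ‖(χ : X → ℂ) (v ^ a)‖ ^ 2 := by
    have : K = Finset.univ.filter (fun χ => χ ∈ K) := by ext χ; simp
    conv_lhs => rw [this]
    rw [← Finset.sum_filter_add_sum_filter_not Finset.univ (fun χ => χ ∈ K)]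
    simp
  have hcards : K.card + (Finset.univ.filter (fun χ => χ ∉ K)).card = Nat.card (ConjClasses X) := by
    rw [← card_irr_eq_card_conjClasses, Nat.card_eq_fintype_card, ← Finset.card_univ,
      ← Finset.card_filter_add_card_filter_not (s := Finset.univ) (fun χ => χ ∈ K)]
    simp
  have htpos : 0 < (n.totient : ℝ) := by exact_mod_cast Nat.totient_pos.2 hn
  rw [hK1, htot] at hsplit
  have h1 : (n.totient : ℝ) * (Nat.card G : ℝ) + (n.totient : ℝ) * ((Finset.univ.filter (fun χ => χ ∉ K)).card : ℝ)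
      ≤ (n.totient : ℝ) * (Nat.card (centralizer ({v} : Set X)) : ℝ) := by
    rw [← hsplit]; gcongr
  rw [← mul_add] at h1
  have h2 := le_of_mul_le_mul_left h1 htpos
  have h3 : Nat.card G + (Finset.univ.filter (fun χ => χ ∉ K)).card ≤ Nat.card (centralizer ({v} : Set X)) := by
    exact_mod_cast h2
  rw [hcardC] at h3
  rw [← hcards, hKcard, hkG]
  omega

end Cfsg.Agent.S4955
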