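import Cfsg.Statements.S4956
import Mathlib.GroupTheory.GroupAction.Quotient
import Mathlib.GroupTheory.Complement
import Mathlib.GroupTheory.Index
import Mathlib.Tactic

set_option autoImplicit false
open Cfsg

namespace Cfsg.Agent.S4956

variable {X : Type*} [Group X]

lemma delta_one [Finite X] (V : Subgroup X) (G : Subgroup X)
    (hcop : (Nat.card V).Coprime (Nat.card G)) (g : X) (hg : g ∈ G) (u t : X)
    (htV : t ∈ V) (ht : t = u * (g * u⁻¹ * g⁻¹)) (hfix : g * t * g⁻¹ = t) : t = 1 := by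
  have h0 : g * u * g⁻¹ = t⁻¹ * u := by rw [ht]; group
  have hgt : g * t⁻¹ * g⁻¹ = t⁻¹ := by
    have := congrArg (fun x => x⁻¹) hfix
    simpa [mul_assoc] using this
  have hc : Commute g t⁻¹ := by
    rw [Commute, SemiconjBy]
    exact mul_inv_eq_iff_eq_mul.1 hgt
  have key : ∀ n : ℕ, g ^ n * u * (g ^ n)⁻¹ = (t⁻¹) ^ n * u := by
    intro n
    induction n with
    | zero => simp
    | succ n ih =>
      have : g ^ (n + 1) * u * (g ^ (n + 1))⁻¹ = g * (g ^ n * u * (g ^ n)⁻¹) * g⁻¹ := by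
        rw [pow_succ']; group
      rw [this, ih]
      have hcn : g * (t⁻¹) ^ n = (t⁻¹) ^ n * g := (hc.pow_right n)
      calc g * ((t⁻¹) ^ n * u) * g⁻¹ = (g * (t⁻¹) ^ n) * u * g⁻¹ := by group
        _ = (t⁻¹) ^ n * (g * u * g⁻¹) := by rw [hcn]; group
        _ = (t⁻¹) ^ (n + 1) * u := by rw [h0, pow_succ]; group
  have h1 := key (orderOf g)
  rw [pow_orderOf_eq_one] at h1
  have h2 : t⁻¹ ^ orderOf g = 1 := by
    simpa using h1.symm
  have h3 : t ^ orderOf g = 1 := by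
    rw [inv_pow] at h2
    exact inv_eq_one.1 h2
  have h4 : orderOf t ∣ orderOf g := orderOf_dvd_of_pow_eq_one h3
  have h5 : orderOf g ∣ Nat.card G := G.orderOf_dvd_natCard hg
  have h6 : orderOf t ∣ Nat.card V := V.orderOf_dvd_natCard htV
  have h7 : orderOf t ∣ Nat.gcd (Nat.card V) (Nat.card G) := Nat.dvd_gcd h6 (h4.trans h5)
  rw [hcop] at h7
  exact orderOf_eq_one_iff.1 (Nat.dvd_one.1 h7)

lemma aux_swap (V : Subgroup X) (hab : ∀ a ∈ V, ∀ b ∈ V, a * b = b * a) (u c d e : X)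
    (hu : u ∈ V) (hc : c ∈ V) (hd : d ∈ V) (h : u * c * d = e) : u * d = e * c⁻¹ := by
  rw [← h, mul_assoc u c d, hab c hc d hd]
  group

/-- fixed-point representative -/
lemma exists_fixed [Finite X] (V : Subgroup X) [V.Normal] (hab : ∀ a ∈ V, ∀ b ∈ V, a * b = b * a)
    (G : Subgroup X) (hcop : (Nat.card V).Coprime (Nat.card G)) (g : X) (hg : g ∈ G)
    (w : X) (hw : w ∈ V) :
    ∃ u ∈ V, g * (u * w * (g * u⁻¹ * g⁻¹)) * g⁻¹ = u * w * (g * u⁻¹ * g⁻¹) := by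
  classical
  -- δ : V → V
  have hconj : ∀ x ∈ V, g * x * g⁻¹ ∈ V := fun x hx => (inferInstance : V.Normal).conj_mem x hx g
  let δ : V → V := fun x => ⟨x * (g * (x : X)⁻¹ * g⁻¹), V.mul_mem x.2 (hconj _ (V.inv_mem x.2))⟩
  have hδmul : ∀ x y : V, δ (x * y) = δ x * δ y := by
    intro x y
    apply Subtype.ext
    simp only [δ, Subgroup.coe_mul]
    have e1 : (x : X) * y * (g * ((x : X) * y)⁻¹ * g⁻¹) = x * (y * (g * (y : X)⁻¹ * g⁻¹)) * (g * (x : X)⁻¹ * g⁻¹) := by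
      group
    rw [e1]
    have h2 := hab (y * (g * (y : X)⁻¹ * g⁻¹)) (V.mul_mem y.2 (hconj _ (V.inv_mem y.2))) (g * (x : X)⁻¹ * g⁻¹) (hconj _ (V.inv_mem x.2))
    rw [mul_assoc, h2, ← mul_assoc]
  let I : Set V := Set.range δ
  have hmaps : ∀ x : I, δ x.1 ∈ I := fun x => ⟨x.1, rfl⟩
  let δI : I → I := fun x => ⟨δ x.1, hmaps x⟩
  have hδI_inj : Function.Injective δI := by
    intro a b hab'
    have h1 : δ a.1 = δ b.1 := congrArg Subtype.val hab'
    obtain ⟨x, hx⟩ := a.2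
    obtain ⟨y, hy⟩ := b.2
    -- z = x * y⁻¹
    have h1inv : δ (b.1⁻¹) * δ b.1 = 1 := by
      rw [← hδmul]; simp only [inv_mul_cancel]
      apply Subtype.ext; simp [δ]
    have h2 : δ (b.1⁻¹ * a.1) = 1 := by
      rw [hδmul, h1, h1inv]
    have hyinv : δ (y⁻¹) = b.1⁻¹ := by
      have : δ y⁻¹ * δ y = 1 := by
        rw [← hδmul]; simp only [inv_mul_cancel]
        apply Subtype.ext; simp [δ]
      rw [hy] at this
      exact eq_inv_of_mul_eq_one_left this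
    have h3 : δ (y⁻¹ * x) = b.1⁻¹ * a.1 := by
      rw [hδmul, hyinv, hx]
    set t := b.1⁻¹ * a.1 with ht
    have h4 : (t : X) = 1 := by
      apply delta_one V G hcop g hg ((y⁻¹ * x : V) : X) (t : X) t.2
      · rw [← h3]
      · have := congrArg Subtype.val h2
        simp only [δ, Subgroup.coe_one] at this
        -- t * (g t⁻¹ g⁻¹) = 1
        have h5 : (t : X) = (g * (t : X)⁻¹ * g⁻¹)⁻¹ := eq_inv_of_mul_eq_one_left this
        conv_rhs => rw [h5]
        group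
    have h5 : t = 1 := Subtype.ext h4
    apply Subtype.ext
    exact (inv_mul_eq_one.1 h5).symm
  have hδI_surj : Function.Surjective δI := Finite.surjective_of_injective hδI_inj
  -- want δ(w) * δ(δ u) = 1
  obtain ⟨z, hz⟩ := hδI_surj ⟨δ (⟨w, hw⟩ : V)⁻¹, ⟨_, rfl⟩⟩
  obtain ⟨u, hu⟩ := z.2
  have h1 : δ z.1 = δ (⟨w, hw⟩ : V)⁻¹ := congrArg Subtype.val hz
  refine ⟨u, u.2, ?_⟩
  have hδ1 : δ 1 = 1 := by apply Subtype.ext; simp [δ]
  have h2 : δ (⟨w, hw⟩ * δ u) = 1 := by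
    rw [hδmul, hu, h1, ← hδmul, mul_inv_cancel, hδ1]
  have h3 : (u : X) * w * (g * (u : X)⁻¹ * g⁻¹) = ((⟨w, hw⟩ * δ u : V) : X) := by
    simp only [δ, Subgroup.coe_mul]
    rw [hab u u.2 w hw, mul_assoc]
  rw [h3]
  have h4 := congrArg Subtype.val h2
  simp only [δ] at h4
  simp only [Subgroup.coe_one] at h4
  set v := ((⟨w, hw⟩ * δ u : V) : X) with hv
  have h5 : v = (g * v⁻¹ * g⁻¹)⁻¹ := eq_inv_of_mul_eq_one_left h4
  conv_rhs => rw [h5]
  group

theorem result {X : Type*} [Group X] [Finite X] (V : Subgroup X) [V.Normal] (hab : ∀ a ∈ V, ∀ b ∈ V, a * b = b * a) (G : Subgroup X) (hGV : Subgroup.IsComplement' V G) (hcop : (Nat.card V).Coprime (Nat.card G)) (S : Finset X) (hSV : ∀ s ∈ S, s ∈ V) (hrep : ∀ v ∈ V, ∃! s, s ∈ S ∧ ∃ g ∈ G, g * v * g⁻¹ = s) : Nat.card (ConjClasses X) = ∑ s ∈ S, Nat.card (ConjClasses ↥(G ⊓ Subgroup.centralizer ({s} : Set X))) := by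
  classical
  have hdisj : ∀ x, x ∈ V → x ∈ G → x = 1 := by
    intro x h1 h2
    have := hGV.disjoint
    exact (Subgroup.disjoint_def.1 this) h1 h2
  have hconj : ∀ y x : X, x ∈ V → y * x * y⁻¹ ∈ V := fun y x hx => (inferInstance : V.Normal).conj_mem x hx y
  let F : (Σ s : S, ConjClasses ↥(G ⊓ Subgroup.centralizer ({(s : X)} : Set X))) → ConjClasses X :=
    fun p => Quotient.liftOn p.2 (fun h => ConjClasses.mk ((p.1 : X) * (h : X))) (by
      intro a b hab'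
      obtain ⟨c, hc⟩ := isConj_iff.1 (show IsConj a b from hab')
      apply ConjClasses.mk_eq_mk_iff_isConj.2
      refine isConj_iff.2 ⟨(c : X), ?_⟩
      have h1 : (c : X) * a * (c : X)⁻¹ = b := by
        rw [← hc]; simp
      have h2 : (c : X) * (p.1 : X) = (p.1 : X) * c := by
        have := (Subgroup.mem_inf.1 c.2).2
        rw [Subgroup.mem_centralizer_singleton_iff] at this
        exact this
      rw [← h1, ← mul_assoc, h2]; group)
  have hFmk : ∀ (s : S) (h : ↥(G ⊓ Subgroup.centralizer ({(s : X)} : Set X))), F ⟨s, ConjClasses.mk h⟩ = ConjClasses.mk ((s : X) * (h : X)) := fun s h => rfl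
  have hbij : Function.Bijective F := by
    constructor
    · rintro ⟨s, c⟩ ⟨s', c'⟩ heq
      induction c using Quotient.inductionOn with | _ h => ?_
      induction c' using Quotient.inductionOn with | _ h' => ?_
      have h1 : IsConj ((s : X) * (h : X)) ((s' : X) * (h' : X)) := ConjClasses.mk_eq_mk_iff_isConj.1 heq
      obtain ⟨y, hy⟩ := isConj_iff.1 h1
      obtain ⟨⟨⟨u, hu⟩, ⟨k, hk⟩⟩, huk⟩ := hGV.2 y
      simp only at huk
      have hsV := hSV s s.2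
      have hsV' := hSV s' s'.2
      have hhG := (Subgroup.mem_inf.1 h.2).1
      have hhG' := (Subgroup.mem_inf.1 h'.2).1
      have hsh : (h : X) * s = s * h := (Subgroup.mem_centralizer_singleton_iff.1 (Subgroup.mem_inf.1 h.2).2)
      have hsh' : (h' : X) * s' = s' * h' := (Subgroup.mem_centralizer_singleton_iff.1 (Subgroup.mem_inf.1 h'.2).2)
      -- k h k⁻¹ = h'
      have e1 : u * (k * s * k⁻¹) * ((k * h * k⁻¹) * u⁻¹ * (k * h * k⁻¹)⁻¹) * (k * h * k⁻¹) = s' * h' := by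
        rw [← hy, ← huk]; group
      have hmem1 : u * (k * s * k⁻¹) * ((k * h * k⁻¹) * u⁻¹ * (k * h * k⁻¹)⁻¹) ∈ V :=
        V.mul_mem (V.mul_mem hu (hconj _ _ hsV)) (hconj _ _ (V.inv_mem hu))
      have hkh : k * h * k⁻¹ ∈ G := G.mul_mem (G.mul_mem hk hhG) (G.inv_mem hk)
      have e2 : (s' : X)⁻¹ * (u * (k * s * k⁻¹) * ((k * h * k⁻¹) * u⁻¹ * (k * h * k⁻¹)⁻¹)) = h' * (k * h * k⁻¹)⁻¹ := by
        rw [eq_mul_inv_iff_mul_eq, mul_assoc, e1]; group
      have e3 : (h' : X) * (k * h * k⁻¹)⁻¹ = 1 := by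
        apply hdisj
        · rw [← e2]; exact V.mul_mem (V.inv_mem hsV') hmem1
        · exact G.mul_mem hhG' (G.inv_mem hkh)
      have e4 : k * h * k⁻¹ = h' := (mul_inv_eq_one.1 e3).symm
      rw [e4] at e1
      have e5 : u * (k * s * k⁻¹) * (h' * u⁻¹ * (h' : X)⁻¹) = s' := mul_right_cancel e1
      -- s'' = k s k⁻¹ is centralised by h'
      have e6 : (h' : X) * (k * s * k⁻¹) * (h' : X)⁻¹ = k * s * k⁻¹ := by
        rw [← e4]
        calc k * h * k⁻¹ * (k * s * k⁻¹) * (k * h * k⁻¹)⁻¹ = k * (h * s) * (h : X)⁻¹ * k⁻¹ := by group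
          _ = k * s * k⁻¹ := by rw [hsh]; group
      have e7 : u * (h' * u⁻¹ * (h' : X)⁻¹) = s' * (k * s * k⁻¹)⁻¹ :=
        aux_swap V hab u (k * s * k⁻¹) _ _ hu (hconj k s hsV) (hconj _ _ (V.inv_mem hu)) e5
      have e8 : s' * (k * s * k⁻¹)⁻¹ = 1 := by
        apply delta_one V G hcop (h' : X) hhG' u _ (V.mul_mem hsV' (V.inv_mem (hconj _ _ hsV))) e7.symm
        have e6' : (h' : X) * (k * s * k⁻¹)⁻¹ * (h' : X)⁻¹ = (k * s * k⁻¹)⁻¹ := by
          have := congrArg (fun x => x⁻¹) e6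
          simpa [mul_assoc] using this
        calc (h' : X) * (s' * (k * s * k⁻¹)⁻¹) * (h' : X)⁻¹ = (h' * s') * (h' : X)⁻¹ * ((h' : X) * (k * s * k⁻¹)⁻¹ * (h' : X)⁻¹) := by group
          _ = s' * (k * s * k⁻¹)⁻¹ := by rw [hsh', e6']; group
      have e9 : k * s * k⁻¹ = s' := (mul_inv_eq_one.1 e8).symm
      have hss : s = s' := by
        obtain ⟨r, hr, huniq⟩ := hrep s hsV
        have a1 := huniq s ⟨s.2, 1, G.one_mem, by simp⟩
        have a2 := huniq s' ⟨s'.2, k, hk, e9⟩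
        exact Subtype.ext (a1.trans a2.symm)
      subst hss
      have : IsConj h h' := by
        refine isConj_iff.2 ⟨⟨k, Subgroup.mem_inf.2 ⟨hk, ?_⟩⟩, ?_⟩
        · rw [Subgroup.mem_centralizer_singleton_iff]
          exact mul_inv_eq_iff_eq_mul.1 e9
        · apply Subtype.ext; simpa using e4
      have h2 : (ConjClasses.mk h) = ConjClasses.mk h' := ConjClasses.mk_eq_mk_iff_isConj.2 this
      change (⟨s, ConjClasses.mk h⟩ : Σ s : S, ConjClasses ↥(G ⊓ Subgroup.centralizer ({(s : X)} : Set X))) = ⟨s, ConjClasses.mk h'⟩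
      rw [h2]
    · intro c
      induction c using Quotient.inductionOn with | _ x => ?_
      obtain ⟨⟨⟨w, hw⟩, ⟨g, hg⟩⟩, hwg⟩ := hGV.2 x
      simp only at hwg
      obtain ⟨u, hu, hfix⟩ := exists_fixed V hab G hcop g hg w hw
      set v := u * w * (g * u⁻¹ * g⁻¹) with hv
      have hvV : v ∈ V := V.mul_mem (V.mul_mem hu hw) (hconj _ _ (V.inv_mem hu))
      obtain ⟨s, ⟨hsS, k, hk, hks⟩, -⟩ := hrep v hvV
      refine ⟨⟨⟨s, hsS⟩, ConjClasses.mk ⟨k * g * k⁻¹, Subgroup.mem_inf.2 ⟨G.mul_mem (G.mul_mem hk hg) (G.inv_mem hk), ?_⟩⟩⟩, ?_⟩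
      · rw [Subgroup.mem_centralizer_singleton_iff]
        simp only
        rw [← hks]
        calc k * g * k⁻¹ * (k * v * k⁻¹) = k * (g * v * g⁻¹) * g * k⁻¹ := by group
          _ = k * v * k⁻¹ * (k * g * k⁻¹) := by rw [hfix]; group
      · rw [hFmk]
        apply ConjClasses.mk_eq_mk_iff_isConj.2
        refine (isConj_iff.2 ⟨k * u, ?_⟩).symm
        simp only
        rw [← hwg, ← hks, hv]; group
  rw [← Nat.card_eq_of_bijective F hbij, Nat.card_sigma]
  exact Finset.sum_coe_sort S (fun s => Nat.card (ConjClasses ↥(G ⊓ Subgroup.centralizer ({s} : Set X))))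

end Cfsg.Agent.S4956
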