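import Cfsg.Agent.Lib.H84.GoodForm
import Cfsg.Agent.Lib.H84.Chain
import Cfsg.Agent.Lib.H84.CharMisc
import Cfsg.Agent.Lib.H20.Defect
import Cfsg.Agent.Lib.H78.Cong
import Cfsg.Agent.Lib.H4.CenterIndex
import Cfsg.Statements.S4958

set_option autoImplicit false
open Cfsg

namespace Cfsg.Agent.S4958

open H18.CharBasic H18.CharOrtho H18.CharInd H18.CharQuot H84.CharMisc H84.GoodForm Subgroup
open scoped ComplexConjugate

theorem col_norm {X : Type*} [Group X] [Finite X] [Fintype (IrrCharacter X)] (g : X) :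
    ∑ χ : IrrCharacter X, ‖(χ : X → ℂ) g‖ ^ 2 = (Nat.card (centralizer ({g} : Set X)) : ℝ) := by
  classical
  have h := column_orthogonality g g
  rw [if_pos (IsConj.refl g)] at h
  have h1 : ((∑ χ : IrrCharacter X, ‖(χ : X → ℂ) g‖ ^ 2 : ℝ) : ℂ) =
      ((Nat.card (centralizer ({g} : Set X)) : ℝ) : ℂ) := by
    push_cast
    rw [← h]
    refine Finset.sum_congr rfl fun χ _ => ?_
    rw [Complex.mul_conj, Complex.normSq_eq_norm_sq]
    push_cast; rfl
  exact_mod_cast h1

/-- The Fourier coefficients along `H` of a character restricted to `⟨v⟩ × H` form families. -/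
theorem fam_coeff {X : Type*} [Group X] [Finite X] {χ : X → ℂ} (hχ : IsCharacter X χ) (v : X)
    (H : Subgroup X) [Fintype H] (hv : ∀ h ∈ H, h * v = v * h) {ζ : ℂ}
    (hζ : IsPrimitiveRoot ζ (orderOf v)) (ξ : H →* ℂˣ) :
    Fam ζ (fun a => (Fintype.card H : ℂ)⁻¹ * ∑ h : H, χ (v ^ a * h) * conj (ξ h : ℂ)) := by
  let Z : Subgroup X := zpowers v
  have hcomm : ∀ h : H, ∀ z : Z, Commute (h : X) (z : X) := by
    intro h z
    obtain ⟨k, hk⟩ := Subgroup.mem_zpowers_iff.1 z.2
    rw [← hk]
    exact (show Commute (h : X) v from hv h h.2).zpow_right k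
  let m : H × Z →* X :=
    { toFun := fun x => (x.2 : X) * (x.1 : X)
      map_one' := by simp
      map_mul' := by
        rintro ⟨h, z⟩ ⟨h', z'⟩
        simp only [Prod.mk_mul_mk, Subgroup.coe_mul]
        have := hcomm h z'
        calc (z : X) * (z' : X) * ((h : X) * (h' : X)) = (z : X) * ((z' : X) * (h : X)) * (h' : X) := by group
          _ = (z : X) * ((h : X) * (z' : X)) * (h' : X) := by rw [this.eq]
          _ = (z : X) * (h : X) * ((z' : X) * (h' : X)) := by group }
  let ξb : H →* ℂˣ := ξ⁻¹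
  have h1 : IsCharacter (H × Z) (fun x => χ ((x.2 : X) * (x.1 : X))) := isCharacter_comp m hχ
  have h2 : IsCharacter (H × Z) (fun x => ((ξb.comp (MonoidHom.fst H Z)) x : ℂ) * χ ((x.2 : X) * (x.1 : X))) :=
    isCharacter_hom_mul (ξb.comp (MonoidHom.fst H Z)) h1
  have h3 := H20.Defect.isCharacter_avg h2
  have hord : orderOf (⟨v, Subgroup.mem_zpowers v⟩ : Z) = orderOf v := by
    rw [← Subgroup.orderOf_coe]
  have hpow : (⟨v, Subgroup.mem_zpowers v⟩ : Z) ^ orderOf v = 1 := by
    rw [← hord]; exact pow_orderOf_eq_one _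
  obtain ⟨P, hP⟩ := H84.CyclicNorm.exists_poly_of_isCharacter h3 (⟨v, Subgroup.mem_zpowers v⟩ : Z)
    (orderOf_pos v) hpow hζ
  refine ⟨P, fun a => ?_⟩
  rw [← hP a]
  simp only [MonoidHom.comp_apply, MonoidHom.coe_fst, Subgroup.coe_pow, Nat.card_eq_fintype_card]
  congr 1
  refine Finset.sum_congr rfl fun h _ => ?_
  have h4 : ((ξb h : ℂˣ) : ℂ) = conj (ξ h : ℂ) := by
    rw [← hom_inv_eq_conj, map_inv]; rfl
  rw [h4, mul_comm]

/-- Let X be a finite group and V a normal subgroup of X in which every element has order dividing the prime p, whose index in X is prime to p and which is its own centralizer in X; so V is an elementary abelian normal Sylow p-subgroup, and any complement G to V in X is a group of order prime to p acting faithfully on the vector space V by conjugation (the coprime linear setting of the k(GV) problem). Let G be a complement to V in X and suppose that for some v in V the centralizer of v in G is abelian. Then the number of conjugacy classes of X is at most the order of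 V (the abelian-stabilizer criterion for the k(GV) problem). -/
theorem result {X : Type*} [Group X] [Finite X] (p : ℕ) [Fact p.Prime] (V : Subgroup X) [V.Normal] (hVexp : ∀ v ∈ V, v ^ p = 1) (hidx : ¬ p ∣ V.index) (hself : Subgroup.centralizer (V : Set X) = V) (G : Subgroup X) (hGV : Subgroup.IsComplement' V G) (v : X) (hv : v ∈ V) (hab : ∀ a ∈ G ⊓ Subgroup.centralizer ({v} : Set X), ∀ b ∈ G ⊓ Subgroup.centralizer ({v} : Set X), a * b = b * a) : Nat.card (ConjClasses X) ≤ Nat.card V := by
  classical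
  have := Fintype.ofFinite X
  have := Fintype.ofFinite (IrrCharacter X)
  have hVab : ∀ a ∈ V, ∀ b ∈ V, a * b = b * a := by
    intro a ha b hb
    have h1 : b ∈ centralizer (V : Set X) := by rw [hself]; exact hb
    exact mem_centralizer_iff.1 h1 a ha
  have hVp : IsPGroup p V := by
    intro x
    refine ⟨1, Subtype.ext ?_⟩
    rw [pow_one]
    exact hVexp x x.2
  obtain ⟨M, hM⟩ := H78.Cong.exists_isPModular (Fact.out : p.Prime)
  have hMprime : M.IsPrime := H20.Loc.pm_isPrime hM
  have hn : 0 < orderOf v := orderOf_pos v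
  set n := orderOf v with hndef
  have hζ : IsPrimitiveRoot (Complex.exp (2 * Real.pi * Complex.I / n)) n :=
    Complex.isPrimitiveRoot_exp n hn.ne'
  set ζ := Complex.exp (2 * Real.pi * Complex.I / n) with hζdef
  -- χ(v) ≠ 0
  have hne : ∀ χ : IrrCharacter X, (χ : X → ℂ) v ≠ 0 := by
    intro χ h0
    obtain ⟨d, hd⟩ := exists_degree (isCharacter_of_isIrr χ.2)
    have h1 : d ∣ V.index := H4.CenterIndex.ito χ.2 hd V hVab
    obtain ⟨k, hk⟩ := hVp ⟨v, hv⟩
    have hk' : v ^ p ^ k = 1 := congrArg Subtype.val hk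
    have h2 := H78.Cong.char_congr_one hM (isCharacter_of_isIrr χ.2) hk'
    rw [h0, hd, zero_sub] at h2
    have h3 : MemLocalIdeal M ((d : ℂ)) := by
      have := H20.Loc.locI_neg h2
      rwa [neg_neg] at this
    have hpd : ¬ p ∣ d := fun h => hidx (h.trans h1)
    exact hpd ((H20.Loc.locI_natCast_iff hM).1 h3)
  set H : Subgroup X := G ⊓ centralizer ({v} : Set X) with hH
  have := Fintype.ofFinite H
  have hHv : ∀ h ∈ H, h * v = v * h := fun h hh => mem_centralizer_singleton_iff.1 hh.2
  have hcardG : Nat.card G = V.index := by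
    have h1 := hGV.card_mul_card
    have h2 := V.card_mul_index
    rw [← h2] at h1
    exact Nat.eq_of_mul_eq_mul_left Nat.card_pos h1
  have hcop : (Nat.card V).Coprime (Nat.card H) := by
    obtain ⟨k, hk⟩ := IsPGroup.iff_card.1 hVp
    rw [hk]
    apply Nat.Coprime.pow_left
    rw [Nat.Prime.coprime_iff_not_dvd Fact.out]
    intro h
    apply hidx
    rw [← hcardG]
    exact h.trans (Subgroup.card_dvd_of_le inf_le_left)
  obtain ⟨k, K, hK1, hK2⟩ := H84.Chain.exists_chain' V H hVab hab hcop
  have hdisj : ∀ x, x ∈ V → x ∈ G → x = 1 := by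
    intro x h1 h2
    have h3 : x ∈ V ⊓ G := ⟨h1, h2⟩
    rw [hGV.disjoint.eq_bot] at h3
    exact Subgroup.mem_bot.1 h3
  have hK3 : ∀ h : H, (∀ i, h ∈ K i) → h = 1 := by
    intro h hh
    have h1 := hK2 h hh
    rw [hself] at h1
    exact Subtype.ext (hdisj _ h1 h.2.1)
  let instC : CommGroup H := { (inferInstance : Group H) with
    mul_comm := fun a b => Subtype.ext (hab a a.2 b b.2) }
  let w : H → ℝ := fun h => ∏ i, if h ∈ K i then (1 : ℝ) else ((K i).index : ℝ) + 1
  have hgood : Good n ζ H w := good_subgroups hn hζ k K hK3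
  let Δ : H → ℝ := fun h => (Nat.card V : ℝ) / (Nat.card ↥(V ⊓ centralizer ({(h : X)} : Set X)) : ℝ)
  have hwΔ : ∀ h, w h ≤ Δ h := by
    intro h
    have h1 := hK1 h
    have h2 : (0 : ℝ) < (Nat.card ↥(V ⊓ centralizer ({(h : X)} : Set X)) : ℝ) := by exact_mod_cast Nat.card_pos
    rw [le_div_iff₀ h2]
    have h3 : w h = ((∏ i, if h ∈ K i then 1 else ((K i).index + 1) : ℕ) : ℝ) := by
      simp only [w]
      push_cast
      refine Finset.prod_congr rfl fun i _ => ?_
      split_ifs <;> simp
    rw [h3]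
    exact_mod_cast h1
  -- lower bound for each χ
  have hlow : ∀ χ : IrrCharacter X, (n.totient : ℝ) * (Fintype.card H : ℝ) ^ 2 ≤
      ∑ a ∈ cop n, ∑ h : H, ‖(χ : X → ℂ) (v ^ a * h)‖ ^ 2 * Δ h := by
    intro χ
    have h1 := (hgood.mono hwΔ) (fun a h => (χ : X → ℂ) (v ^ a * h))
      (fun ξ => fam_coeff (isCharacter_of_isIrr χ.2) v H hHv hζ ξ) (by
        have h1 : ∃ a ∈ cop n, (χ : X → ℂ) (v ^ a) ≠ 0 := by
          by_cases hn1 : n = 1
          · refine ⟨0, ?_, ?_⟩
            · rw [hn1]; simp [cop]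
            · have : v = 1 := orderOf_eq_one_iff.1 hn1
              rw [pow_zero, ← this]
              exact hne χ
          · refine ⟨1, ?_, ?_⟩
            · simp only [cop, Finset.mem_filter, Finset.mem_range, Nat.coprime_one_left_eq_true, and_true]
              omega
            · rw [pow_one]; exact hne χ
        obtain ⟨a, ha, ha2⟩ := h1
        exact ⟨a, ha, 1, by simpa using ha2⟩)
    exact h1
  -- centralizers
  have hcent : ∀ a ∈ cop n, ∀ h : H, Nat.card (centralizer ({v ^ a * (h : X)} : Set X)) =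
      Nat.card ↥(V ⊓ centralizer ({(h : X)} : Set X)) * Nat.card H := by
    intro a ha h
    have hac : a.Coprime n := (Finset.mem_filter.1 ha).2
    have hcvh : Commute (v ^ a) (h : X) := ((show Commute (h : X) v from hHv h h.2).pow_right a).symm
    have hC : ∀ x, x ∈ centralizer ({v ^ a * (h : X)} : Set X) ↔ x * v = v * x ∧ x * (h : X) = (h : X) * x := by
      intro x
      rw [mem_centralizer_singleton_iff]
      constructor
      · intro hx
        have hx1 : Commute x (v ^ a * (h : X)) := hx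
        have hx2 := hx1.pow_right (Nat.card H)
        rw [hcvh.mul_pow, ← pow_mul] at hx2
        have h1 : (h : X) ^ Nat.card H = 1 := by
          have : h ^ Nat.card H = 1 := pow_card_eq_one'
          exact congrArg Subtype.val this
        rw [h1, mul_one] at hx2
        have hcn : (a * Nat.card H).Coprime (orderOf v) := by
          apply Nat.Coprime.mul_left hac
          apply Nat.Coprime.symm
          apply Nat.Coprime.coprime_dvd_left _ hcop
          exact Subgroup.orderOf_dvd_natCard V hv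
        obtain ⟨m, hm⟩ := exists_pow_eq_self_of_coprime hcn
        have hx3 : Commute x v := by
          have := hx2.pow_right m
          rwa [hm] at this
        refine ⟨hx3, ?_⟩
        have hx4 : Commute x ((v ^ a)⁻¹ * (v ^ a * (h : X))) := (hx3.pow_right a).inv_right.mul_right hx1
        rw [inv_mul_cancel_left] at hx4
        exact hx4
      · rintro ⟨h1, h2⟩
        have h3 : Commute x v := h1
        have h4 : Commute x (h : X) := h2
        exact (h3.pow_right a).mul_right h4
    rw [← Nat.card_prod]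
    symm
    refine Nat.card_congr (Equiv.ofBijective (fun z : ↥(V ⊓ centralizer ({(h : X)} : Set X)) × H =>
      (⟨(z.1 : X) * (z.2 : X), ?_⟩ : centralizer ({v ^ a * (h : X)} : Set X))) ⟨?_, ?_⟩)
    · rw [hC]
      have h1 : Commute (z.1 : X) v := hVab _ z.1.2.1 v hv
      have h2 : Commute (z.2 : X) v := hHv _ z.2.2
      have h3 : Commute (z.1 : X) (h : X) := mem_centralizer_singleton_iff.1 z.1.2.2
      have h4 : Commute (z.2 : X) (h : X) := hab _ z.2.2 _ h.2
      exact ⟨h1.mul_left h2, h3.mul_left h4⟩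
    · rintro ⟨⟨a, ha⟩, ⟨b, hb⟩⟩ ⟨⟨a', ha'⟩, ⟨b', hb'⟩⟩ hh
      have h1 : a * b = a' * b' := congrArg Subtype.val hh
      have h2 := hGV.1 (a₁ := (⟨a, ha.1⟩, ⟨b, hb.1⟩)) (a₂ := (⟨a', ha'.1⟩, ⟨b', hb'.1⟩)) h1
      have h3 : a = a' := congrArg (Subtype.val : V → X) (congrArg Prod.fst h2)
      have h4 : b = b' := congrArg (Subtype.val : G → X) (congrArg Prod.snd h2)
      subst h3; subst h4; rfl
    · rintro ⟨x, hx⟩
      obtain ⟨⟨u, g⟩, hug⟩ := hGV.2 x
      have hug' : (u : X) * (g : X) = x := hug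
      obtain ⟨hxv, hxh⟩ := (hC x).1 hx
      have hu : Commute (u : X) v := hVab _ u.2 v hv
      have hg' : (g : X) = (u : X)⁻¹ * x := by rw [← hug']; group
      have hgv : Commute (g : X) v := by
        rw [hg']; exact hu.inv_left.mul_left hxv
      have hgH : (g : X) ∈ H := ⟨g.2, mem_centralizer_singleton_iff.2 hgv⟩
      have hgh : Commute (g : X) (h : X) := hab _ hgH _ h.2
      have huh : Commute (u : X) (h : X) := by
        have : (u : X) = x * (g : X)⁻¹ := by rw [← hug']; group
        rw [this]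
        exact (show Commute x (h : X) from hxh).mul_left hgh.inv_left
      exact ⟨(⟨u, u.2, mem_centralizer_singleton_iff.2 huh⟩, ⟨g, hgH⟩), Subtype.ext hug'⟩
  -- total
  have htot : ∑ χ : IrrCharacter X, ∑ a ∈ cop n, ∑ h : H, ‖(χ : X → ℂ) (v ^ a * h)‖ ^ 2 * Δ h =
      (n.totient : ℝ) * (Fintype.card H : ℝ) ^ 2 * (Nat.card V : ℝ) := by
    rw [Finset.sum_comm]
    have h1 : ∀ a ∈ cop n, ∑ χ : IrrCharacter X, ∑ h : H, ‖(χ : X → ℂ) (v ^ a * h)‖ ^ 2 * Δ h =
        (Fintype.card H : ℝ) ^ 2 * (Nat.card V : ℝ) := by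
      intro a ha
      rw [Finset.sum_comm]
      have h2 : ∀ h : H, ∑ χ : IrrCharacter X, ‖(χ : X → ℂ) (v ^ a * h)‖ ^ 2 * Δ h =
          (Fintype.card H : ℝ) * (Nat.card V : ℝ) := by
        intro h
        rw [← Finset.sum_mul, col_norm, hcent a ha h]
        have h3 : (Nat.card ↥(V ⊓ centralizer ({(h : X)} : Set X)) : ℝ) ≠ 0 := by
          exact_mod_cast (Nat.card_pos (α := ↥(V ⊓ centralizer ({(h : X)} : Set X)))).ne'
        simp only [Δ]
        rw [Nat.card_eq_fintype_card (α := H)]
        push_cast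
        field_simp
      rw [Finset.sum_congr rfl (fun h _ => h2 h), Finset.sum_const, Finset.card_univ, nsmul_eq_mul]
      ring
    rw [Finset.sum_congr rfl h1, Finset.sum_const, nsmul_eq_mul]
    have h3 : (cop n).card = n.totient := by
      rw [Nat.totient_eq_card_coprime]
      congr 1
      ext a
      simp only [cop, Finset.mem_filter]
      rw [Nat.coprime_comm]
    rw [h3]; ring
  have hfin : (Nat.card (IrrCharacter X) : ℝ) * ((n.totient : ℝ) * (Fintype.card H : ℝ) ^ 2) ≤
      (n.totient : ℝ) * (Fintype.card H : ℝ) ^ 2 * (Nat.card V : ℝ) := by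
    rw [← htot, Nat.card_eq_fintype_card, ← Finset.card_univ, ← nsmul_eq_mul, ← Finset.sum_const]
    exact Finset.sum_le_sum fun χ _ => hlow χ
  have hpos : (0 : ℝ) < (n.totient : ℝ) * (Fintype.card H : ℝ) ^ 2 := by
    have h1 : (0 : ℝ) < n.totient := by exact_mod_cast Nat.totient_pos.2 hn
    have h2 : (0 : ℝ) < Fintype.card H := by exact_mod_cast Fintype.card_pos
    positivity
  rw [mul_comm] at hfin
  have h1 := le_of_mul_le_mul_left hfin hpos
  rw [← card_irr_eq_card_conjClasses]
  exact_mod_cast h1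

end Cfsg.Agent.S4958
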