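import Cfsg.Statements.S4959
import Cfsg.Agent.Lib.H84.WL7
import Cfsg.Agent.Lib.H84.WL8

set_option autoImplicit false
open Cfsg

namespace Cfsg.Agent.S4959

open H84.WL1 H84.WL4 Subgroup
open scoped ComplexConjugate

/-- Let X be a finite group and V a normal subgroup of X in which every element has order dividing the prime p, whose index in X is prime to p and which is its own centralizer in X; so V is an elementary abelian normal Sylow p-subgroup, and any complement G to V in X is a group of order prime to p acting faithfully on the vector space V by conjugation (the coprime linear setting of the k(GV) problem). Let G be a complement to V in X, let v be in V and let H be the centralizer of v in G. Suppose there is a subgroup U of V normalized by H, on which H acts faithfully, and carrying an H-invariant bi-additive pairing β with values in the integers modulo p that is nondegenerate on U (equivalently: the restriction of the module V to H has a faithful self-dual submodule; such a v is called a real vector for G). Then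 the number of conjugacy classes of X is at most the order of V (the real-vector criterion for the k(GV) problem). The pairing is given as a function on X whose relevant values are those on pairs from U. -/
theorem result {X : Type*} [Group X] [Finite X] (p : ℕ) [Fact p.Prime] (V : Subgroup X) [V.Normal] (hVexp : ∀ v ∈ V, v ^ p = 1) (hidx : ¬ p ∣ V.index) (hself : Subgroup.centralizer (V : Set X) = V) (G : Subgroup X) (hGV : Subgroup.IsComplement' V G) (v : X) (hv : v ∈ V) (U : Subgroup X) (hUV : U ≤ V) (hUinv : ∀ h ∈ G, h * v * h⁻¹ = v → ∀ u ∈ U, h * u * h⁻¹ ∈ U) (hUfaith : ∀ h ∈ G, h * v * h⁻¹ = v → (∀ u ∈ U, h * u * h⁻¹ = u) → h = 1) (β : X → X → ZMod p) (hβl : ∀ u ∈ U, ∀ u' ∈ U, ∀ w ∈ U, β (u * u') w = β u w + β u' w) (hβr : ∀ u ∈ U, ∀ w ∈ U, ∀ w' ∈ U, β u (w * w') = β u w + β u w') (hβinv : ∀ h ∈ G, h * v * h⁻¹ = v → ∀ u ∈ U, ∀ w ∈ U, β (h * u * h⁻¹) (h * w * h⁻¹) = β u w) (hβnd : ∀ u ∈ U, (∀ w ∈ U, β u w = 0) → u = 1) : Nat.card (ConjClasses X) ≤ Nat.card V := by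
  classical
  have := Fintype.ofFinite X
  have hVab : ∀ a ∈ V, ∀ b ∈ V, a * b = b * a := by
    intro a ha b hb
    have h1 : b ∈ centralizer (V : Set X) := by rw [hself]; exact hb
    exact mem_centralizer_iff.1 h1 a ha
  set H : Subgroup X := G ⊓ centralizer ({v} : Set X) with hH
  have hHv : ∀ h ∈ H, h * v * h⁻¹ = v := fun h hh => by
    have := mem_centralizer_singleton_iff.1 hh.2
    rw [this, mul_inv_cancel_right]
  have hUH : ∀ h : H, ∀ u ∈ U, (h : X) * u * (h : X)⁻¹ ∈ U := fun h u hu => hUinv h h.2.1 (hHv h h.2) u hu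
  letI instU : CommGroup U := { (inferInstance : Group U) with
    mul_comm := fun a b => Subtype.ext (hVab a (hUV a.2) b (hUV b.2)) }
  let φ : H →* MulAut U := MonoidHom.mk' (fun h =>
    ({ toFun := fun u => ⟨(h : X) * (u : X) * (h : X)⁻¹, hUH h u u.2⟩
       invFun := fun u => ⟨((h⁻¹ : H) : X) * (u : X) * ((h⁻¹ : H) : X)⁻¹, hUH h⁻¹ u u.2⟩
       left_inv := fun u => Subtype.ext (by
        change ((h : X))⁻¹ * ((h : X) * (u : X) * (h : X)⁻¹) * ((h : X)⁻¹)⁻¹ = u
        group)
       right_inv := fun u => Subtype.ext (by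
        change (h : X) * ((h : X)⁻¹ * (u : X) * ((h : X)⁻¹)⁻¹) * (h : X)⁻¹ = u
        group)
       map_mul' := fun a b => Subtype.ext (by
        change (h : X) * ((a : X) * (b : X)) * (h : X)⁻¹ =
          ((h : X) * (a : X) * (h : X)⁻¹) * ((h : X) * (b : X) * (h : X)⁻¹)
        group) } : MulAut U)) (fun g h => by
      apply MulEquiv.ext
      intro u
      apply Subtype.ext
      change ((g : X) * (h : X)) * (u : X) * ((g : X) * (h : X))⁻¹ = (g : X) * ((h : X) * (u : X) * (h : X)⁻¹) * (g : X)⁻¹
      group)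
  have hφ : ∀ (h : H) (u : U), ((φ h u : U) : X) = (h : X) * (u : X) * (h : X)⁻¹ := fun _ _ => rfl
  have hcardG : Nat.card G = V.index := by
    have h1 := hGV.card_mul_card
    have h2 := V.card_mul_index
    rw [← h2] at h1
    exact Nat.eq_of_mul_eq_mul_left Nat.card_pos h1
  have hpH : ¬ p ∣ Nat.card H := by
    intro h
    apply hidx
    rw [← hcardG]
    exact h.trans (Subgroup.card_dvd_of_le inf_le_left)
  obtain ⟨N, ζ, hN, hζ, hXN, ψ, hψR, hψ1, hψM, hψn, K, hψK⟩ := H84.WL8.exists_psi (p := p) (U := U)
    (fun u => Subtype.ext (hVexp u (hUV u.2))) hpH φ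
    (by
      intro h hh
      apply Subtype.ext
      refine hUfaith h h.2.1 (hHv h h.2) fun u hu => ?_
      have h1 := congrArg Subtype.val (hh ⟨u, hu⟩)
      rw [hφ] at h1
      exact h1)
    (fun u w => β (u : X) (w : X)) (fun u u' w => hβl u u.2 u' u'.2 w w.2) (fun u w w' => hβr u u.2 w w.2 w' w'.2)
    (fun h u w => hβinv h h.2.1 (hHv h h.2) u u.2 w w.2)
    (fun u hu => Subtype.ext (hβnd u u.2 fun w hw => hu ⟨w, hw⟩))
    (Nat.card X) Nat.card_pos (Subgroup.card_subgroup_dvd_card H)
  -- the fixed points
  have hfix : ∀ y : H, Nat.card {a : U // φ y a = a} = Nat.card ↥(centralizer ({(y : X)} : Set X) ⊓ U) := by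
    intro y
    have hiff : ∀ a : U, φ y a = a ↔ (a : X) ∈ centralizer ({(y : X)} : Set X) := by
      intro a
      rw [mem_centralizer_singleton_iff]
      constructor
      · intro h
        have h1 := congrArg Subtype.val h
        rw [hφ] at h1
        exact (mul_inv_eq_iff_eq_mul.1 h1).symm
      · intro h
        apply Subtype.ext
        rw [hφ, ← h, mul_inv_cancel_right]
    exact Nat.card_congr
      { toFun := fun a => ⟨((a.1 : U) : X), (hiff _).1 a.2, (a.1 : U).2⟩
        invFun := fun u => ⟨⟨u.1, u.2.2⟩, (hiff _).2 u.2.1⟩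
        left_inv := fun a => rfl
        right_inv := fun u => rfl }
  -- indices
  have hidx1 : ∀ (y : X) (B : Subgroup X), Nat.card ↥(centralizer ({y} : Set X) ⊓ B) *
      (centralizer ({y} : Set X)).relIndex B = Nat.card B := by
    intro y B
    have h1 := card_mul_index ((centralizer ({y} : Set X)).subgroupOf B)
    have h2 : Nat.card ((centralizer ({y} : Set X)).subgroupOf B) = Nat.card ↥(centralizer ({y} : Set X) ⊓ B) := by
      rw [← Subgroup.inf_subgroupOf_right]
      exact Nat.card_congr (Subgroup.subgroupOfEquivOfLe inf_le_right).toEquiv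
    rw [h2] at h1
    exact h1
  let m : H → ℕ := fun y => (centralizer ({(y : X)} : Set X)).relIndex U
  have hm2 : ∀ y : H, ‖ψ y‖ ^ 2 = m y := by
    intro y
    have h1 := hψn y
    rw [hfix y, ← hidx1 (y : X) U] at h1
    push_cast at h1
    have h3 : (Nat.card ↥(centralizer ({(y : X)} : Set X) ⊓ U) : ℝ) ≠ 0 := by exact_mod_cast Nat.card_pos.ne'
    rw [mul_comm] at h1
    exact mul_left_cancel₀ h3 h1
  refine H84.WL7.bound p V hVexp hidx hself G hGV v hv hN hζ hXN H hH ψ hψR hψ1 hψM K hψK m hm2 fun y => ?_
  have h1 : m y ≤ (centralizer ({(y : X)} : Set X)).relIndex V :=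
    relIndex_le_of_le_right hUV (FiniteIndex.index_ne_zero)
  rw [← hidx1 (y : X) V, inf_comm]
  exact Nat.mul_le_mul_left _ h1

end Cfsg.Agent.S4959
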