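import Cfsg.Agent.Lib.H84.NilCls
import Cfsg.Agent.Lib.H84.AvgN
import Cfsg.Agent.Lib.H18.CharQuot
import Cfsg.Statements.S4964

set_option autoImplicit false
open Cfsg

namespace Cfsg.Agent.S4964

open H18.CharBasic H18.CharOrtho H18.CharInd H18.CharQuot H20.GA H20.Blk H20.Orth H20.Loc Subgroup
open scoped ComplexConjugate

variable {G : Type*} [Group G] [Finite G] {p : ℕ} [Fact p.Prime]

theorem isPGroup_comm (D : Subgroup G) (hD : IsPGroup p D) : IsPGroup p (⁅D, D⁆ : Subgroup G) :=
  hD.to_le (Subgroup.commutator_le_self D)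

/-- A `p`-regular element centralizing `D` modulo `D'` centralizes `D`. -/
theorem centralizes (D : Subgroup G) [D.Normal] (hD : IsPGroup p D) {y : G} (hy : ¬ p ∣ orderOf y)
    (h : (QuotientGroup.mk y : G ⧸ ⁅D, D⁆) ∈ centralizer ((D.map (QuotientGroup.mk' ⁅D, D⁆) : Subgroup (G ⧸ ⁅D, D⁆)) : Set (G ⧸ ⁅D, D⁆))) :
    y ∈ centralizer (D : Set G) := by
  classical
  set N : Subgroup G := ⁅D, D⁆ with hN
  have hNp : IsPGroup p N := isPGroup_comm D hD
  let π := QuotientGroup.mk' N
  have hcop : (Nat.card (zpowers y)).Coprime (Nat.card N) := by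
    rw [Nat.card_zpowers]
    obtain ⟨k, hk⟩ := IsPGroup.iff_card.1 hNp
    rw [hk]
    apply Nat.Coprime.pow_right
    exact ((Nat.Prime.coprime_iff_not_dvd Fact.out).2 hy).symm
  have hsolv : Group.IsSolvable (zpowers y) := inferInstance
  have hAD : zpowers y ≤ normalizer (N : Set G) := by
    rw [Subgroup.normalizer_eq_top]; exact le_top
  have hfix : ∀ x ∈ D, ∃ c ∈ centralizer (zpowers y : Set G), x⁻¹ * c ∈ N := by
    intro x hx
    apply H1.Coprime.exists_fixed_in_coset (zpowers y) N hAD hcop (Or.inl hsolv)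
    intro a ha
    obtain ⟨k, rfl⟩ := Subgroup.mem_zpowers_iff.1 ha
    have h1 : Commute (π x) (π y) := (mem_centralizer_iff.1 h (π x) ⟨x, hx, rfl⟩)
    have h2 : Commute (π x) (π (y ^ k)) := by
      rw [map_zpow]; exact h1.zpow_right k
    rw [← QuotientGroup.eq_one_iff]
    change π (x⁻¹ * y ^ k * x * (y ^ k)⁻¹) = 1
    rw [map_mul, map_mul, map_mul, map_inv, map_inv, mul_assoc (π x)⁻¹, ← h2.eq]
    group
  let K : Subgroup D := (centralizer ({y} : Set G)).subgroupOf D
  have hnil : Group.IsNilpotent D := hD.isNilpotent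
  have hfr : commutator D ≤ frattini D := H1.Frat.commutator_le_frattini
  have hK : K ⊔ frattini D = ⊤ := by
    rw [eq_top_iff]
    intro x _
    obtain ⟨c, hc, hxc⟩ := hfix x x.2
    have hcD : c ∈ D := by
      have h1 : (x : G)⁻¹ * c ∈ D := (Subgroup.commutator_le_self D) hxc
      have h2 := D.mul_mem x.2 h1
      rwa [mul_inv_cancel_left] at h2
    have hcK : (⟨c, hcD⟩ : D) ∈ K := by
      rw [Subgroup.mem_subgroupOf, mem_centralizer_singleton_iff]
      exact (mem_centralizer_iff.1 hc y (Subgroup.mem_zpowers y)).symm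
    have h3 : (x⁻¹ * ⟨c, hcD⟩ : D) ∈ commutator D := by
      have h4 : (commutator D).map D.subtype = N := by
        rw [commutator_def, Subgroup.map_commutator, ← MonoidHom.range_eq_map, Subgroup.range_subtype]
      have h5 : ((x⁻¹ * ⟨c, hcD⟩ : D) : G) ∈ (commutator D).map D.subtype := by
        rw [h4]; exact hxc
      obtain ⟨z, hz, hz2⟩ := h5
      have : z = x⁻¹ * ⟨c, hcD⟩ := Subtype.ext hz2
      rwa [← this]
    have h6 : x = (⟨c, hcD⟩ : D) * (x⁻¹ * ⟨c, hcD⟩ : D)⁻¹ := by group
    rw [h6]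
    exact Subgroup.mul_mem_sup hcK (Subgroup.inv_mem _ (hfr h3))
  have hKtop : K = ⊤ := frattini_nongenerating hK
  rw [mem_centralizer_iff]
  intro x hx
  have h1 : (⟨x, hx⟩ : D) ∈ K := by rw [hKtop]; trivial
  rw [Subgroup.mem_subgroupOf, mem_centralizer_singleton_iff] at h1
  exact h1

/-- The class of such an element lifts exactly. -/
theorem index_eq (D : Subgroup G) [D.Normal] (hD : IsPGroup p D) {y : G} (hy : ¬ p ∣ orderOf y)
    (h : y ∈ centralizer (D : Set G)) :
    (centralizer ({(QuotientGroup.mk y : G ⧸ ⁅D, D⁆)} : Set (G ⧸ ⁅D, D⁆))).index =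
      (centralizer ({y} : Set G)).index := by
  set N : Subgroup G := ⁅D, D⁆ with hN
  have hNp : IsPGroup p N := isPGroup_comm D hD
  have h1 : (centralizer ({(QuotientGroup.mk y : G ⧸ N)} : Set (G ⧸ N))).comap (QuotientGroup.mk' N) =
      centralizer ({y} : Set G) := by
    ext g
    rw [Subgroup.mem_comap, mem_centralizer_singleton_iff, mem_centralizer_singleton_iff]
    constructor
    · intro hg
      have h2 : y⁻¹ * (g * y * g⁻¹) ∈ N := by
        rw [← QuotientGroup.eq_one_iff]
        have h3 : (QuotientGroup.mk' N g) * QuotientGroup.mk' N y = QuotientGroup.mk' N y * (QuotientGroup.mk' N g) := hg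
        change QuotientGroup.mk' N (y⁻¹ * (g * y * g⁻¹)) = 1
        rw [map_mul, map_mul, map_mul, h3, map_inv, map_inv]
        group
      set n := y⁻¹ * (g * y * g⁻¹) with hn
      have hnD : n ∈ D := (Subgroup.commutator_le_self D) h2
      have hcomm : Commute y n := ((mem_centralizer_iff.1 h n hnD)).symm
      have h4 : y * n = g * y * g⁻¹ := by rw [hn]; group
      have h5 : (y * n) ^ orderOf y = 1 := by
        rw [h4, conj_pow, pow_orderOf_eq_one]; group
      rw [hcomm.mul_pow, pow_orderOf_eq_one, one_mul] at h5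
      obtain ⟨k, hk⟩ := hNp ⟨n, h2⟩
      have hk' : n ^ p ^ k = 1 := congrArg Subtype.val hk
      have h6 : orderOf n ∣ Nat.gcd (orderOf y) (p ^ k) :=
        Nat.dvd_gcd (orderOf_dvd_of_pow_eq_one h5) (orderOf_dvd_of_pow_eq_one hk')
      have h7 : Nat.gcd (orderOf y) (p ^ k) = 1 := by
        apply Nat.Coprime.pow_right
        exact ((Nat.Prime.coprime_iff_not_dvd Fact.out).2 hy).symm
      rw [h7] at h6
      have h8 : n = 1 := orderOf_eq_one_iff.1 (Nat.dvd_one.1 h6)
      rw [h8, mul_one] at h4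
      rw [eq_mul_inv_iff_mul_eq] at h4
      exact h4.symm
    · intro hg
      change (QuotientGroup.mk' N g) * QuotientGroup.mk' N y = QuotientGroup.mk' N y * (QuotientGroup.mk' N g)
      rw [← map_mul, hg, map_mul]
  rw [← h1, Subgroup.index_comap_of_surjective _ (QuotientGroup.mk'_surjective N)]

/-- Let D be a normal p-subgroup of the finite group G, let D′ be its commutator subgroup (normal in G), and fix a maximal ideal M of the algebraic integers containing p. Then (i) two irreducible characters of G ⧸ D′ lie in the same p-block if and only if their inflations to G do, and (ii) every p-block of G contains the inflation of some irreducible character of G ⧸ D′; so inflation induces a bijection between the p-blocks of G ⧸ D′ and the p-blocks of G. -/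
theorem result {G : Type*} [Group G] [Finite G] (p : ℕ) [Fact p.Prime] (M : Ideal Cfsg.AlgInt) (hM : Cfsg.IsPModular p M) (D : Subgroup G) [D.Normal] (hD : IsPGroup p D) : (∀ χ ψ : Cfsg.IrrCharacter (G ⧸ ⁅D, D⁆), Cfsg.SameBlock M (χ : G ⧸ ⁅D, D⁆ → ℂ) (ψ : G ⧸ ⁅D, D⁆ → ℂ) ↔ Cfsg.SameBlock M ((χ : G ⧸ ⁅D, D⁆ → ℂ) ∘ QuotientGroup.mk) ((ψ : G ⧸ ⁅D, D⁆ → ℂ) ∘ QuotientGroup.mk)) ∧ ∀ B : Set (Cfsg.IrrCharacter G), Cfsg.IsPBlock M B → ∃ χ : Cfsg.IrrCharacter (G ⧸ ⁅D, D⁆), ∃ θ ∈ B, (θ : G → ℂ) = (χ : G ⧸ ⁅D, D⁆ → ℂ) ∘ QuotientGroup.mk := by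
  classical
  have hMp : M.IsPrime := pm_isPrime hM
  have := Fintype.ofFinite G
  set N : Subgroup G := ⁅D, D⁆ with hN
  have hNp : IsPGroup p N := isPGroup_comm D hD
  have hND : N ≤ D := Subgroup.commutator_le_self D
  have hDbn : (D.map (QuotientGroup.mk' N)).Normal :=
    Subgroup.Normal.map inferInstance _ (QuotientGroup.mk'_surjective N)
  have hDbp : IsPGroup p (D.map (QuotientGroup.mk' N)) := hD.map _
  constructor
  · intro χ ψ
    constructor
    · intro h g
      have hdvd : (centralizer ({(QuotientGroup.mk g : G ⧸ N)} : Set (G ⧸ N))).index ∣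
          (centralizer ({g} : Set G)).index := by
        rw [← Subgroup.index_comap_of_surjective (f := QuotientGroup.mk' N) _ (QuotientGroup.mk'_surjective N)]
        apply Subgroup.index_dvd_of_le
        intro x hx
        rw [mem_centralizer_singleton_iff] at hx
        rw [Subgroup.mem_comap, mem_centralizer_singleton_iff]
        change (QuotientGroup.mk' N x) * QuotientGroup.mk' N g = QuotientGroup.mk' N g * (QuotientGroup.mk' N x)
        rw [← map_mul, hx, map_mul]
      obtain ⟨t, ht⟩ := hdvd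
      have h1 : ∀ ξ : IrrCharacter (G ⧸ N), centralChar ((ξ : G ⧸ N → ℂ) ∘ QuotientGroup.mk) g =
          (t : ℂ) * centralChar (ξ : G ⧸ N → ℂ) (QuotientGroup.mk g) := by
        intro ξ
        unfold centralChar
        rw [ht]
        simp only [Function.comp_apply, QuotientGroup.mk_one]
        push_cast
        ring
      rw [h1, h1, ← mul_sub]
      exact locI_mul_left (locR_natCast t) (h _)
    · intro h
      by_contra hcon
      obtain ⟨y, hyreg, hyC, hyd⟩ := H84.NilCls.exists_separating hM (D.map (QuotientGroup.mk' N)) hDbp hcon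
      obtain ⟨x, rfl, hx⟩ := H84.NilCls.exists_regular_lift N hNp hyreg
      have hxD := centralizes D hD hx hyC
      have hidx := index_eq D hD hx hxD
      apply hyd
      have h1 := h x
      have h2 : ∀ ξ : IrrCharacter (G ⧸ N), centralChar ((ξ : G ⧸ N → ℂ) ∘ QuotientGroup.mk) x =
          centralChar (ξ : G ⧸ N → ℂ) (QuotientGroup.mk x) := by
        intro ξ
        unfold centralChar
        rw [← hidx]
        rfl
      rw [h2, h2] at h1
      exact h1
  · intro B hB
    have := Fintype.ofFinite (IrrCharacter G)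
    have := Fintype.ofFinite D
    -- some η in B with D in the kernel
    have hex : ∃ η ∈ B, ∑ d : D, conj ((η : G → ℂ) d) ≠ 0 := by
      by_contra hcon
      push Not at hcon
      have h1 : ∑ d : D, ∑ χ : IrrCharacter G, (if χ ∈ B then (χ : G → ℂ) 1 * conj ((χ : G → ℂ) d) else 0) = 0 := by
        rw [Finset.sum_comm]
        refine Finset.sum_eq_zero fun χ _ => ?_
        by_cases hχ : χ ∈ B
        · simp only [if_pos hχ]
          rw [← Finset.mul_sum, hcon χ hχ, mul_zero]
        · simp only [if_neg hχ, Finset.sum_const_zero]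
      have h2 : ∀ d : D, d ≠ 1 → ∑ χ : IrrCharacter G, (if χ ∈ B then (χ : G → ℂ) 1 * conj ((χ : G → ℂ) d) else 0) = 0 := by
        intro d hd
        apply weak_orth hM (isUnion_of_isPBlock hB)
        · rw [orderOf_one]; exact hM.1.one_lt.ne' ∘ Nat.dvd_one.1
        · obtain ⟨k, hk⟩ := (IsPGroup.iff_orderOf.1 hD) d
          rw [Subgroup.orderOf_coe, hk]
          apply dvd_pow_self
          rintro rfl
          rw [pow_zero] at hk
          exact hd (orderOf_eq_one_iff.1 hk)
      rw [Finset.sum_eq_single (1 : D) (fun d _ hd => h2 d hd) (fun hh => absurd (Finset.mem_univ _) hh)] at h1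
      obtain ⟨χ0, hχ0⟩ := isPBlock_nonempty hB
      have h3 : ∀ χ : IrrCharacter G, (if χ ∈ B then (χ : G → ℂ) 1 * conj ((χ : G → ℂ) ((1 : D) : G)) else 0) =
          ((if χ ∈ B then ‖(χ : G → ℂ) 1‖ ^ 2 else 0 : ℝ) : ℂ) := by
        intro χ
        split_ifs
        · rw [Subgroup.coe_one, Complex.mul_conj, Complex.normSq_eq_norm_sq]
        · simp
      rw [Finset.sum_congr rfl (fun χ _ => h3 χ)] at h1
      have h4 : ∑ χ : IrrCharacter G, (if χ ∈ B then ‖(χ : G → ℂ) 1‖ ^ 2 else 0 : ℝ) = 0 := by exact_mod_cast h1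
      rw [Finset.sum_eq_zero_iff_of_nonneg (fun χ _ => by split_ifs <;> positivity)] at h4
      have h5 := h4 χ0 (Finset.mem_univ _)
      rw [if_pos hχ0] at h5
      have h6 : (χ0 : G → ℂ) 1 ≠ 0 := irr_one_ne_zero χ0.2
      have h7 : 0 < ‖(χ0 : G → ℂ) 1‖ ^ 2 := by positivity
      exact h7.ne' h5
    obtain ⟨η, hηB, hη⟩ := hex
    have hker : ∀ d ∈ D, (η : G → ℂ) d = (η : G → ℂ) 1 := by
      rcases H84.AvgN.avg_irr D η.2 with h | h
      · intro d hd
        have h1 := h d
        have h2 := h 1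
        have h3 : ∑ n : D, (η : G → ℂ) ((n : G) * d) = ∑ n : D, (η : G → ℂ) ((n : G) * 1) := by
          refine Fintype.sum_equiv (Equiv.mulRight (⟨d, hd⟩ : D)) _ _ fun n => ?_
          simp
        rw [h1, h2] at h3
        have h4 : (Nat.card D : ℂ) ≠ 0 := by exact_mod_cast (Nat.card_pos (α := D)).ne'
        exact mul_left_cancel₀ h4 h3
      · exfalso
        apply hη
        have h1 := h 1
        rw [← map_sum]
        have h2 : ∑ n : D, (η : G → ℂ) (n : G) = 0 := by simpa using h1
        rw [h2, map_zero]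
    refine ⟨(irrQuotEquiv N).symm ⟨η, fun n hn => hker n (hND hn)⟩, η, hηB, ?_⟩
    funext g
    have h1 := irrQuotEquiv_apply N ((irrQuotEquiv N).symm ⟨η, fun n hn => hker n (hND hn)⟩) g
    rw [Equiv.apply_symm_apply] at h1
    exact h1

end Cfsg.Agent.S4964
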