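import Cfsg.Statements.S4965
import Mathlib.GroupTheory.GroupAction.Quotient
import Mathlib.GroupTheory.CommutingProbability
import Mathlib.GroupTheory.SemidirectProduct
import Mathlib.GroupTheory.Index

set_option autoImplicit false
open Cfsg

namespace Cfsg.Agent.S4965

lemma aux_comm {X : Type*} [Group X] (V : Subgroup X) [V.Normal] (φ : X ⧸ V →* MulAut ↥V) (hφ : ∀ (x : X) (v : ↥V), ((φ (QuotientGroup.mk x) v : ↥V) : X) = x * v * x⁻¹)
    (x y x0 y0 : X) (hxy : Commute x y) (h1 : Commute x0 y0)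
    (hx : x * x0⁻¹ ∈ V) (hy : y * y0⁻¹ ∈ V) (h2 : (QuotientGroup.mk x0 : X ⧸ V) = QuotientGroup.mk x)
    (h3 : (QuotientGroup.mk y0 : X ⧸ V) = QuotientGroup.mk y) :
    Commute (⟨⟨x * x0⁻¹, hx⟩, QuotientGroup.mk x⟩ : SemidirectProduct ↥V (X ⧸ V) φ)
      ⟨⟨y * y0⁻¹, hy⟩, QuotientGroup.mk y⟩ := by
  have hxy' : x * y = y * x := hxy
  have h1' : x0 * y0 = y0 * x0 := h1
  refine SemidirectProduct.ext ?_ ?_
  · apply Subtype.ext
    simp only [SemidirectProduct.mul_left, Subgroup.coe_mul]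
    rw [← h2, ← h3, hφ, hφ]
    simp only
    have e1 : x * x0⁻¹ * (x0 * (y * y0⁻¹) * x0⁻¹) = (x * y) * (y0⁻¹ * x0⁻¹) := by group
    have e2 : y * y0⁻¹ * (y0 * (x * x0⁻¹) * y0⁻¹) = (y * x) * (x0⁻¹ * y0⁻¹) := by group
    rw [e1, e2, hxy', ← mul_inv_rev, ← mul_inv_rev, h1']
  · simp only [SemidirectProduct.mul_right]
    rw [← QuotientGroup.mk_mul, ← QuotientGroup.mk_mul, hxy']

theorem result {X : Type*} [Group X] [Finite X] (V : Subgroup X) [V.Normal] (hab : ∀ a ∈ V, ∀ b ∈ V, a * b = b * a) (φ : X ⧸ V →* MulAut ↥V) (hφ : ∀ (x : X) (v : ↥V), ((φ (QuotientGroup.mk x) v : ↥V) : X) = x * v * x⁻¹) : Nat.card (ConjClasses X) ≤ Nat.card (ConjClasses (SemidirectProduct ↥V (X ⧸ V) φ)) := by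
  classical
  let Y := SemidirectProduct ↥V (X ⧸ V) φ
  have eY : Y ≃ ↥V × (X ⧸ V) :=
    { toFun := fun y => (y.left, y.right)
      invFun := fun p => ⟨p.1, p.2⟩
      left_inv := fun y => by cases y; rfl
      right_inv := fun p => rfl }
  have : Finite Y := Finite.of_equiv _ eY.symm
  have hcard : Nat.card Y = Nat.card X := by
    rw [Nat.card_congr eY, Nat.card_prod, mul_comm]
    exact (Subgroup.card_eq_card_quotient_mul_card_subgroup V).symm
  -- injection on commuting pairs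
  let P : (X ⧸ V) → (X ⧸ V) → X × X → Prop := fun a b p =>
    Commute p.1 p.2 ∧ (QuotientGroup.mk p.1 : X ⧸ V) = a ∧ (QuotientGroup.mk p.2 : X ⧸ V) = b
  let base : (X ⧸ V) → (X ⧸ V) → X × X := fun a b =>
    if h : ∃ p, P a b p then Classical.choose h else (1, 1)
  have hbase : ∀ a b, (∃ p, P a b p) → P a b (base a b) := by
    intro a b h
    simp only [base, dif_pos h]
    exact Classical.choose_spec h
  have hmemV : ∀ x x0 : X, (QuotientGroup.mk x0 : X ⧸ V) = QuotientGroup.mk x → x * x0⁻¹ ∈ V := by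
    intro x x0 h
    have : (QuotientGroup.mk (x * x0⁻¹) : X ⧸ V) = 1 := by
      rw [QuotientGroup.mk_mul, QuotientGroup.mk_inv, h]; simp
    exact (QuotientGroup.eq_one_iff _).1 this
  have hex : ∀ p : {p : X × X // Commute p.1 p.2}, P (QuotientGroup.mk p.1.1) (QuotientGroup.mk p.1.2)
      (base (QuotientGroup.mk p.1.1) (QuotientGroup.mk p.1.2)) := fun p =>
    hbase _ _ ⟨p.1, p.2, rfl, rfl⟩
  let f : {p : X × X // Commute p.1 p.2} → {q : Y × Y // Commute q.1 q.2} := fun p =>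
    ⟨(⟨⟨p.1.1 * (base (QuotientGroup.mk p.1.1) (QuotientGroup.mk p.1.2)).1⁻¹,
        hmemV _ _ (hex p).2.1⟩, QuotientGroup.mk p.1.1⟩,
      ⟨⟨p.1.2 * (base (QuotientGroup.mk p.1.1) (QuotientGroup.mk p.1.2)).2⁻¹,
        hmemV _ _ (hex p).2.2⟩, QuotientGroup.mk p.1.2⟩),
        aux_comm V φ hφ _ _ _ _ p.2 (hex p).1 _ _ (hex p).2.1 (hex p).2.2⟩
  have hf : Function.Injective f := by
    intro p q hpq
    have h := congrArg Subtype.val hpq
    have ha1 : p.1.1 * (base (QuotientGroup.mk p.1.1) (QuotientGroup.mk p.1.2)).1⁻¹ =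
       q.1.1 * (base (QuotientGroup.mk q.1.1) (QuotientGroup.mk q.1.2)).1⁻¹ :=
      congrArg (fun z : Y × Y => (z.1.left : X)) h
    have ha2 : p.1.2 * (base (QuotientGroup.mk p.1.1) (QuotientGroup.mk p.1.2)).2⁻¹ =
       q.1.2 * (base (QuotientGroup.mk q.1.1) (QuotientGroup.mk q.1.2)).2⁻¹ :=
      congrArg (fun z : Y × Y => (z.2.left : X)) h
    have hb1 : (QuotientGroup.mk p.1.1 : X ⧸ V) = QuotientGroup.mk q.1.1 :=
      congrArg (fun z : Y × Y => z.1.right) h
    have hb2 : (QuotientGroup.mk p.1.2 : X ⧸ V) = QuotientGroup.mk q.1.2 :=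
      congrArg (fun z : Y × Y => z.2.right) h
    rw [hb1, hb2] at ha1 ha2
    apply Subtype.ext
    apply Prod.ext
    · exact mul_right_cancel ha1
    · exact mul_right_cancel ha2
  have h1 := card_comm_eq_card_conjClasses_mul_card X
  have h2 := card_comm_eq_card_conjClasses_mul_card Y
  have h3 : Nat.card {p : X × X // Commute p.1 p.2} ≤ Nat.card {q : Y × Y // Commute q.1 q.2} :=
    Nat.card_le_card_of_injective f hf
  rw [h1, h2, hcard] at h3
  exact Nat.le_of_mul_le_mul_right h3 Nat.card_pos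

end Cfsg.Agent.S4965
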