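import Cfsg.Statements.S4966
import Mathlib.LinearAlgebra.Matrix.BilinearForm
import Mathlib.LinearAlgebra.Projection
import Mathlib.RingTheory.Artinian.Module
import Mathlib.Tactic

set_option autoImplicit false
open Cfsg

namespace Cfsg.Agent.S4966

universe u v w

open LinearMap (BilinForm)

section general

variable {F : Type u} [Field F] {G : Type v} [Group G]

/-- invariant subspaces -/
def Inv {V : Type w} [AddCommGroup V] [Module F V] (ρ : Representation F G V)
    (U : Submodule F V) : Prop := ∀ g : G, ∀ u ∈ U, ρ g u ∈ U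

/-- the restricted representation -/
def resRep {V : Type w} [AddCommGroup V] [Module F V] (ρ : Representation F G V)
    (U : Submodule F V) (hU : Inv ρ U) : Representation F G U where
  toFun g := (ρ g).restrict (hU g)
  map_one' := by
    ext x; simp [LinearMap.restrict_apply]
  map_mul' g h := by
    ext x; simp [LinearMap.restrict_apply]

theorem resRep_apply {V : Type w} [AddCommGroup V] [Module F V] (ρ : Representation F G V)
    (U : Submodule F V) (hU : Inv ρ U) (g : G) (x : U) : (resRep ρ U hU g x : V) = ρ g x := rfl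

variable {V : Type w} [AddCommGroup V] [Module F V]

theorem proj_equiv (ρ : Representation F G V) {U W : Submodule F V} (h : IsCompl U W)
    (hU : Inv ρ U) (hW : Inv ρ W) (g : G) (x : V) :
    U.projection W h (ρ g x) = ρ g (U.projection W h x) := by
  have hx : x = U.projection W h x + W.projection U h.symm x :=
    (Submodule.projection_add_projection_eq_self h x).symm
  conv_lhs => rw [hx, map_add, map_add]
  rw [Submodule.projection_apply_of_mem_left h (hU g _ (Submodule.projection_apply_mem h x)),
    Submodule.projection_apply_of_mem_right h (hW g _ (Submodule.projection_apply_mem h.symm x)),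
    add_zero]

theorem projOnto_equiv (ρ : Representation F G V) {U W : Submodule F V} (h : IsCompl U W)
    (hU : Inv ρ U) (hW : Inv ρ W) (g : G) (x : V) :
    U.projectionOnto W h (ρ g x) = resRep ρ U hU g (U.projectionOnto W h x) := by
  apply Subtype.ext
  rw [resRep_apply]
  simp only [Submodule.coe_projectionOnto_apply]
  exact proj_equiv ρ h hU hW g x

/-- Maschke: an invariant complement. -/
theorem maschke [Finite G] (ρ : Representation F G V) (hG : (Nat.card G : F) ≠ 0)
    (U : Submodule F V) (hU : Inv ρ U) : ∃ W : Submodule F V, IsCompl U W ∧ Inv ρ W := by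
  classical
  have := Fintype.ofFinite G
  obtain ⟨W0, hW0⟩ := U.exists_isCompl
  let π : V →ₗ[F] V := U.projection W0 hW0
  let τ : V →ₗ[F] V := (Nat.card G : F)⁻¹ • ∑ g : G, (ρ g) ∘ₗ π ∘ₗ (ρ g⁻¹)
  have hτ : ∀ x, τ x = (Nat.card G : F)⁻¹ • ∑ g : G, ρ g (π (ρ g⁻¹ x)) := by
    intro x; simp [τ]
  have hmem : ∀ x, τ x ∈ U := by
    intro x
    rw [hτ]
    exact U.smul_mem _ (U.sum_mem fun g _ => hU g _ (Submodule.projection_apply_mem hW0 _))
  have hid : ∀ x ∈ U, τ x = x := by
    intro x hx
    rw [hτ]
    have : ∀ g : G, ρ g (π (ρ g⁻¹ x)) = x := by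
      intro g
      have h1 : π (ρ g⁻¹ x) = ρ g⁻¹ x := Submodule.projection_apply_of_mem_left hW0 (hU _ _ hx)
      rw [h1, ← Module.End.mul_apply, ← map_mul, mul_inv_cancel, map_one]; rfl
    simp only [this, Finset.sum_const, Finset.card_univ]
    rw [← Nat.card_eq_fintype_card, ← Nat.cast_smul_eq_nsmul F, smul_smul, inv_mul_cancel₀ hG, one_smul]
  have hcomm : ∀ g x, τ (ρ g x) = ρ g (τ x) := by
    intro g x
    rw [hτ, hτ, map_smul, map_sum]
    congr 1
    refine Fintype.sum_equiv (Equiv.mulLeft g⁻¹) _ _ fun h => ?_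
    simp only [Equiv.coe_mulLeft]
    have e1 : ρ h⁻¹ (ρ g x) = ρ (g⁻¹ * h)⁻¹ x := by
      rw [mul_inv_rev, inv_inv, map_mul]; rfl
    have e2 : ∀ z, ρ g (ρ (g⁻¹ * h) z) = ρ h z := by
      intro z
      rw [← Module.End.mul_apply, ← map_mul, mul_inv_cancel_left]
    rw [e1, e2]
  refine ⟨LinearMap.ker τ, ?_, ?_⟩
  · rw [isCompl_iff, Submodule.disjoint_def, Submodule.codisjoint_iff_exists_add_eq]
    refine ⟨fun x hx hk => ?_, fun z => ⟨τ z, z - τ z, hmem z, ?_, by abel⟩⟩
    · rw [← hid x hx]; exact hk
    · rw [LinearMap.mem_ker, map_sub, hid _ (hmem z), sub_self]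
  · intro g x hx
    rw [LinearMap.mem_ker] at hx ⊢
    rw [hcomm, hx, map_zero]

/-- Existence of a nondegenerate invariant alternating form. -/
def Good (ρ : Representation F G V) : Prop :=
  ∃ A : BilinForm F V, (∀ x, A x x = 0) ∧ (∀ g x y, A (ρ g x) (ρ g y) = A x y) ∧
    (∀ x, (∀ y, A x y = 0) → x = 0)

theorem good_of_isCompl (ρ : Representation F G V) {U W : Submodule F V} (h : IsCompl U W)
    (hU : Inv ρ U) (hW : Inv ρ W) (h1 : Good (resRep ρ U hU)) (h2 : Good (resRep ρ W hW)) :
    Good ρ := by
  obtain ⟨A1, a1, b1, c1⟩ := h1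
  obtain ⟨A2, a2, b2, c2⟩ := h2
  let P := U.projectionOnto W h
  let Q := W.projectionOnto U h.symm
  have hA : ∀ x y, (A1.compl₁₂ P P + A2.compl₁₂ Q Q : BilinForm F V) x y =
      A1 (P x) (P y) + A2 (Q x) (Q y) := fun x y => rfl
  refine ⟨A1.compl₁₂ P P + A2.compl₁₂ Q Q, ?_, ?_, ?_⟩
  · intro x
    rw [hA, a1, a2, add_zero]
  · intro g x y
    have hP : ∀ x, P (ρ g x) = resRep ρ U hU g (P x) := projOnto_equiv ρ h hU hW g
    have hQ : ∀ x, Q (ρ g x) = resRep ρ W hW g (Q x) := projOnto_equiv ρ h.symm hW hU g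
    rw [hA, hA, hP, hP, hQ, hQ, b1, b2]
  · intro x hx
    have hP0 : P x = 0 := by
      apply c1
      intro y
      have := hx y
      rw [hA] at this
      have e1 : P (y : V) = y := Submodule.projectionOnto_apply_left h y
      have e2 : Q (y : V) = 0 := (Submodule.projectionOnto_apply_eq_zero_iff h.symm).2 y.2
      rwa [e1, e2, map_zero, add_zero] at this
    have hQ0 : Q x = 0 := by
      apply c2
      intro y
      have := hx y
      rw [hA] at this
      have e1 : Q (y : V) = y := Submodule.projectionOnto_apply_left h.symm y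
      have e2 : P (y : V) = 0 := (Submodule.projectionOnto_apply_eq_zero_iff h).2 y.2
      rwa [e1, e2, map_zero, zero_add] at this
    have h3 : x ∈ W := (Submodule.projectionOnto_apply_eq_zero_iff h).1 hP0
    have h4 : x ∈ U := (Submodule.projectionOnto_apply_eq_zero_iff h.symm).1 hQ0
    exact (Submodule.disjoint_def.1 h.disjoint) x h4 h3

/-- right orthogonal complement -/
def orth (B : BilinForm F V) (D : Submodule F V) : Submodule F V where
  carrier := {y | ∀ d ∈ D, B d y = 0}
  zero_mem' := fun d _ => by simp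
  add_mem' := fun {a b} ha hb d hd => by simp [ha d hd, hb d hd]
  smul_mem' := fun c a ha d hd => by simp [ha d hd]

theorem mem_orth (B : BilinForm F V) (D : Submodule F V) (y : V) :
    y ∈ orth B D ↔ ∀ d ∈ D, B d y = 0 := Iff.rfl

theorem inv_orth (ρ : Representation F G V) (B : BilinForm F V)
    (hinv : ∀ g x y, B (ρ g x) (ρ g y) = B x y) (D : Submodule F V) (hD : Inv ρ D) :
    Inv ρ (orth B D) := by
  intro g y hy d hd
  have h1 := hinv g (ρ g⁻¹ d) y
  rw [← Module.End.mul_apply, ← map_mul, mul_inv_cancel, map_one, Module.End.one_apply] at h1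
  rw [h1]
  exact hy _ (hD _ _ hd)

theorem isCompl_orth [FiniteDimensional F V] (B : BilinForm F V) (D : Submodule F V)
    (hD : ∀ x ∈ D, (∀ y ∈ D, B x y = 0) → x = 0) : IsCompl D (orth B D) := by
  have hnd : (B.compl₁₂ D.subtype D.subtype : BilinForm F D).Nondegenerate := by
    apply LinearMap.BilinForm.Nondegenerate.ofSeparatingLeft
    intro x hx
    apply Subtype.ext
    exact hD x x.2 fun y hy => hx ⟨y, hy⟩
  rw [isCompl_iff, Submodule.disjoint_def, Submodule.codisjoint_iff_exists_add_eq]
  constructor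
  · intro x hx hx'
    have := hnd.2 ⟨x, hx⟩ (fun y => hx' y y.2)
    exact congrArg Subtype.val this
  · intro z
    -- the functional d ↦ B d z on D
    let φ : Module.Dual F D := (B.flip z) ∘ₗ D.subtype
    have hflip := LinearMap.BilinForm.Nondegenerate.flip hnd
    let d : D := (LinearMap.BilinForm.toDual _ hflip).symm φ
    have hd : ∀ d' : D, B (d' : V) (d : V) = B (d' : V) z := by
      intro d'
      have h1 : (LinearMap.BilinForm.toDual _ hflip) d d' = φ d' := by
        rw [LinearEquiv.apply_symm_apply]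
      rw [LinearMap.BilinForm.toDual_def] at h1
      exact h1
    refine ⟨d, z - d, d.2, ?_, by abel⟩
    intro d' hd'
    rw [map_sub, hd ⟨d', hd'⟩, sub_self]

theorem orth_nondeg (B : BilinForm F V) (D : Submodule F V)
    (hc : IsCompl D (orth B D)) (hB : ∀ x, (∀ y, B y x = 0) → x = 0) :
    ∀ x ∈ orth B D, (∀ y ∈ orth B D, B y x = 0) → x = 0 := by
  intro x hx hx'
  apply hB
  intro y
  obtain ⟨a, b, ha, hb, rfl⟩ := (Submodule.codisjoint_iff_exists_add_eq.1 hc.codisjoint) y
  rw [map_add, LinearMap.add_apply, hx a ha, hx' b hb, add_zero]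

/-- The key induction in characteristic two. -/
theorem good_two [Finite G] [CharP F 2] (hG : (Nat.card G : F) ≠ 0) : ∀ (n : ℕ) {V : Type w}
    [AddCommGroup V] [Module F V] [FiniteDimensional F V] (ρ : Representation F G V)
    (_ : Module.finrank F V = n)
    (_ : ∀ x, (∀ g, ρ g x = x) → x = 0) (B : BilinForm F V)
    (_ : B.Nondegenerate) (_ : ∀ g x y, B (ρ g x) (ρ g y) = B x y), Good ρ := by
  intro n
  induction n using Nat.strong_induction_on with
  | _ n ih =>
  intro V _ _ _ ρ hn hfix B hB hinv
  classical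
  -- the alternating form
  have h2 : ∀ a : F, a + a = 0 := fun a => CharTwo.add_self_eq_zero a
  let A0 : BilinForm F V := B + B.flip
  have hA0 : ∀ x y, A0 x y = B x y + B y x := fun x y => rfl
  -- its radical
  let R : Submodule F V :=
    { carrier := {x | ∀ y, A0 x y = 0}
      zero_mem' := fun y => by simp
      add_mem' := fun {a b} ha hb y => by rw [map_add, LinearMap.add_apply, ha, hb, add_zero]
      smul_mem' := fun c a ha y => by rw [map_smul, LinearMap.smul_apply, ha, smul_zero] }
  have hR : ∀ x ∈ R, ∀ y, B x y = B y x := by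
    intro x hx y
    have := hx y
    rw [hA0] at this
    have h3 := h2 (B y x)
    exact add_right_cancel (this.trans h3.symm)
  have hRinv : Inv ρ R := by
    intro g x hx y
    have h1 : A0 (ρ g x) (ρ g (ρ g⁻¹ y)) = A0 x (ρ g⁻¹ y) := by
      rw [hA0, hA0, hinv, hinv]
    rw [← Module.End.mul_apply, ← map_mul, mul_inv_cancel, map_one, Module.End.one_apply] at h1
    rw [h1]; exact hx _
  -- B is alternating on R
  have hRalt : ∀ x ∈ R, B x x = 0 := by
    -- averaging argument: q x = B x x is additive on R and G-invariant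
    have hadd : ∀ x ∈ R, ∀ y ∈ R, B (x + y) (x + y) = B x x + B y y := by
      intro x hx y hy
      rw [map_add, map_add, LinearMap.add_apply, LinearMap.add_apply, hR x hx y]
      have := h2 (B y x)
      linear_combination this
    have := Fintype.ofFinite G
    intro x hx
    -- sum over G of ρ g x is fixed hence zero
    have hsum : ∑ g : G, ρ g x = 0 := by
      apply hfix
      intro h
      rw [map_sum]
      refine Fintype.sum_equiv (Equiv.mulLeft h) _ _ fun g => ?_
      rw [← Module.End.mul_apply, ← map_mul]; rfl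
    have hs : ∀ s : Finset G, B (∑ g ∈ s, ρ g x) (∑ g ∈ s, ρ g x) = ∑ g ∈ s, B (ρ g x) (ρ g x) := by
      intro s
      induction s using Finset.induction_on with
      | empty => simp
      | insert a s has ih' =>
        rw [Finset.sum_insert has, Finset.sum_insert has, hadd _ (hRinv a x hx) _
          (R.sum_mem fun g _ => hRinv g x hx), ih']
    have h3 := hs Finset.univ
    rw [hsum] at h3
    simp only [hinv, Finset.sum_const, Finset.card_univ, map_zero] at h3
    rw [← Nat.card_eq_fintype_card, ← Nat.cast_smul_eq_nsmul F, smul_eq_mul] at h3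
    exact (mul_eq_zero.1 h3.symm).resolve_left hG
  by_cases hR0 : R = ⊥
  · refine ⟨A0, fun x => ?_, fun g x y => ?_, fun x hx => ?_⟩
    · rw [hA0]; exact h2 _
    · rw [hA0, hA0, hinv, hinv]
    · have : x ∈ R := hx
      rw [hR0] at this
      exact (Submodule.mem_bot F).1 this
  -- reduction to a nondegenerate subspace D with a good form
  have hred : ∀ D : Submodule F V, D ≠ ⊥ → ∀ hD : Inv ρ D,
      (∀ x ∈ D, (∀ y ∈ D, B x y = 0) → x = 0) → Good (resRep ρ D hD) → Good ρ := by
    intro D hD0 hD hDn hgood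
    have hc := isCompl_orth B D hDn
    have hOinv := inv_orth ρ B hinv D hD
    refine good_of_isCompl ρ hc hD hOinv hgood ?_
    have hrank : Module.finrank F (orth B D) < n := by
      have h5 := Submodule.finrank_add_eq_of_isCompl hc
      have h6 : 0 < Module.finrank F D := by
        rw [Module.finrank_pos_iff]
        exact Submodule.nontrivial_iff_ne_bot.2 hD0
      omega
    refine ih _ hrank (resRep ρ _ hOinv) rfl ?_ (B.compl₁₂ (orth B D).subtype (orth B D).subtype) ?_ ?_
    · intro x hx
      apply Subtype.ext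
      exact hfix x fun g => congrArg Subtype.val (hx g)
    · apply LinearMap.BilinForm.Nondegenerate.ofSeparatingRight
      intro x hx
      apply Subtype.ext
      exact orth_nondeg B D hc hB.2 x x.2 fun y hy => hx ⟨y, hy⟩
    · intro g x y
      exact hinv g x y
  -- the radical of B on R
  let M : Submodule F V :=
    { carrier := {x | x ∈ R ∧ ∀ y ∈ R, B x y = 0}
      zero_mem' := ⟨R.zero_mem, fun y _ => by simp⟩
      add_mem' := fun {a b} ha hb => ⟨R.add_mem ha.1 hb.1, fun y hy => by
        rw [map_add, LinearMap.add_apply, ha.2 y hy, hb.2 y hy, add_zero]⟩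
      smul_mem' := fun c a ha => ⟨R.smul_mem c ha.1, fun y hy => by
        rw [map_smul, LinearMap.smul_apply, ha.2 y hy, smul_zero]⟩ }
  have hMinv : Inv ρ M := by
    intro g x hx
    refine ⟨hRinv g x hx.1, fun y hy => ?_⟩
    have h1 := hinv g x (ρ g⁻¹ y)
    rw [← Module.End.mul_apply, ← map_mul, mul_inv_cancel, map_one, Module.End.one_apply] at h1
    rw [h1]; exact hx.2 _ (hRinv _ _ hy)
  by_cases hM0 : M = ⊥
  · apply hred R hR0 hRinv
    · intro x hx hx'
      have : x ∈ M := ⟨hx, hx'⟩
      rw [hM0] at this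
      exact (Submodule.mem_bot F).1 this
    · refine ⟨B.compl₁₂ R.subtype R.subtype, fun x => hRalt x x.2, fun g x y => hinv g x y, ?_⟩
      intro x hx
      have : (x : V) ∈ M := ⟨x.2, fun y hy => hx ⟨y, hy⟩⟩
      rw [hM0] at this
      exact Subtype.ext ((Submodule.mem_bot F).1 this)
  · have hMorth := inv_orth ρ B hinv M hMinv
    obtain ⟨N, hcN, hNinv⟩ := maschke ρ hG (orth B M) hMorth
    have hMle : M ≤ orth B M := fun x hx d hd => hd.2 x hx.1
    let P := N.projection (orth B M) hcN.symm
    have hPinv : ∀ g x, P (ρ g x) = ρ g (P x) := proj_equiv ρ hcN.symm hNinv hMorth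
    have hPM : ∀ m ∈ M, P m = 0 := fun m hm => (Submodule.projection_apply_eq_zero_iff hcN.symm).2 (hMle hm)
    have hPN : ∀ x ∈ N, P x = x := fun x hx => Submodule.projection_apply_of_mem_left hcN.symm hx
    -- M pairs trivially with the orthogonal complement on both sides
    have hMN : ∀ m ∈ M, (∀ x ∈ N, B m x = 0) → m = 0 := by
      intro m hm hx
      apply hB.1
      intro y
      obtain ⟨a, b, ha, hb, rfl⟩ := (Submodule.codisjoint_iff_exists_add_eq.1 hcN.codisjoint) y
      rw [map_add, ha m hm, hx b hb, add_zero]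
    have hNM : ∀ x ∈ N, (∀ m ∈ M, B m x = 0) → x = 0 := by
      intro x hx hm
      exact (Submodule.disjoint_def.1 hcN.disjoint) x hm hx
    let D := M ⊔ N
    have hDinv : Inv ρ D := by
      intro g x hx
      obtain ⟨m, hm, y, hy, rfl⟩ := Submodule.mem_sup.1 hx
      rw [map_add]
      exact Submodule.add_mem_sup (hMinv g m hm) (hNinv g y hy)
    have hD0 : D ≠ ⊥ := fun h => hM0 (le_bot_iff.1 (h ▸ le_sup_left))
    apply hred D hD0 hDinv
    · intro x hx hx'
      obtain ⟨m, hm, y, hy, rfl⟩ := Submodule.mem_sup.1 hx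
      have hy0 : y = 0 := by
        apply hNM y hy
        intro m' hm'
        have h5 := hx' m' (Submodule.mem_sup_left hm')
        rw [map_add, LinearMap.add_apply, hm.2 m' hm'.1, zero_add] at h5
        rw [hR m' hm'.1 y]; exact h5
      subst hy0
      rw [add_zero]
      apply hMN m hm
      intro z hz
      have h5 := hx' z (Submodule.mem_sup_right hz)
      rwa [add_zero] at h5
    · let A1 : BilinForm F V := (B.compl₁₂ (LinearMap.id - P) P) - (B.compl₁₂ (LinearMap.id - P) P).flip
      have hA1 : ∀ x y, A1 x y = B (x - P x) (P y) - B (y - P y) (P x) := fun x y => rfl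
      refine ⟨A1.compl₁₂ D.subtype D.subtype, ?_, ?_, ?_⟩
      · intro x
        change A1 (x : V) (x : V) = 0
        rw [hA1, sub_self]
      · intro g x y
        change A1 (ρ g (x : V)) (ρ g (y : V)) = A1 (x : V) (y : V)
        rw [hA1, hA1, hPinv, hPinv, ← map_sub, ← map_sub, hinv, hinv]
      · intro x hx
        apply Subtype.ext
        obtain ⟨m, hm, y, hy, hxe⟩ := Submodule.mem_sup.1 x.2
        have hx' : ∀ z ∈ D, A1 (x : V) z = 0 := fun z hz => hx ⟨z, hz⟩
        rw [← hxe] at hx' ⊢
        have hm0 : m = 0 := by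
          apply hMN m hm
          intro z hz
          have h5 := hx' z (Submodule.mem_sup_right hz)
          rw [hA1, map_add, hPM m hm, hPN y hy, hPN z hz] at h5
          simpa using h5
        have hy0 : y = 0 := by
          apply hNM y hy
          intro z hz
          have h5 := hx' z (Submodule.mem_sup_left hz)
          rw [hA1, map_add, hPM m hm, hPN y hy, hPM z hz] at h5
          simpa using h5
        rw [hm0, hy0]; simp

end general

section main

variable {F : Type u} [Field F] {G : Type v} [Group G] {V : Type w} [AddCommGroup V] [Module F V]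
  [FiniteDimensional F V]

/-- odd characteristic: the asymmetry of the form -/
theorem odd_case (ρ : Representation F G V) (h2 : (2 : F) ≠ 0) (B : BilinForm F V)
    (hB : B.Nondegenerate) (hinv : ∀ g x y, B (ρ g x) (ρ g y) = B x y) :
    ∃ U W : Submodule F V, IsCompl U W ∧ (∀ g : G, ∀ u ∈ U, ρ g u ∈ U) ∧ (∀ g : G, ∀ w ∈ W, ρ g w ∈ W) ∧ (∃ A : LinearMap.BilinForm F V, (∀ x : V, A x x = 0) ∧ (∀ g : G, ∀ x ∈ U, ∀ y ∈ U, A (ρ g x) (ρ g y) = A x y) ∧ (∀ x ∈ U, (∀ y ∈ U, A x y = 0) → x = 0)) ∧ (∃ S : LinearMap.BilinForm F V, (∀ x y : V, S x y = S y x) ∧ (∀ g : G, ∀ x ∈ W, ∀ y ∈ W, S (ρ g x) (ρ g y) = S x y) ∧ (∀ x ∈ W, (∀ y ∈ W, S x y = 0) → x = 0)) := by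
  classical
  -- asymmetry
  let e : V →ₗ[F] V := (B.toDual hB).symm.toLinearMap ∘ₗ B.flip
  have he : ∀ x y, B (e x) y = B y x := by
    intro x y
    have h1 : B.toDual hB (e x) y = B.flip x y := by
      have : B.toDual hB (e x) = B.flip x := by
        simp only [e, LinearMap.comp_apply, LinearEquiv.coe_coe, LinearEquiv.apply_symm_apply]
      rw [this]
    rwa [LinearMap.BilinForm.toDual_def] at h1
  have hiso : ∀ x y, B (e x) (e y) = B x y := fun x y => by rw [he, he]
  have hecomm : ∀ g x, e (ρ g x) = ρ g (e x) := by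
    intro g x
    have : ∀ y, B (e (ρ g x) - ρ g (e x)) y = 0 := by
      intro y
      have h1 := hinv g (e x) (ρ g⁻¹ y)
      have h1' := hinv g (ρ g⁻¹ y) x
      have h0 : ρ g (ρ g⁻¹ y) = y := by
        rw [← Module.End.mul_apply, ← map_mul, mul_inv_cancel, map_one, Module.End.one_apply]
      rw [h0] at h1 h1'
      rw [map_sub, LinearMap.sub_apply, he, h1, he, h1', sub_self]
    exact sub_eq_zero.1 (hB.1 _ this)
  let n : Module.End F V := 1 - e
  have hn : ∀ x, n x = x - e x := fun x => rfl
  have hncomm : ∀ g x, n (ρ g x) = ρ g (n x) := by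
    intro g x; rw [hn, hn, hecomm, map_sub]
  have hnpcomm : ∀ (k : ℕ) g x, (n ^ k) (ρ g x) = ρ g ((n ^ k) x) := by
    intro k
    induction k with
    | zero => intro g x; simp
    | succ k ih => intro g x; rw [pow_succ, Module.End.mul_apply, hncomm, ih, Module.End.mul_apply]
  obtain ⟨N0, hN⟩ := Filter.eventually_atTop.1 (LinearMap.eventually_isCompl_ker_pow_range_pow n)
  obtain ⟨N, hNe⟩ : ∃ N, N = N0 + 1 := ⟨_, rfl⟩
  have hc := hN N (by omega)
  let W := LinearMap.ker (n ^ N)
  let U := LinearMap.range (n ^ N)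
  have hcUW : IsCompl U W := hc.symm
  -- powers move across B
  have hmove1 : ∀ z w, B (n z) w = - B (e z) (n w) := by
    intro z w
    rw [hn, hn, map_sub, LinearMap.sub_apply, map_sub, hiso]; ring
  have hmove2 : ∀ z w, B w (n z) = - B (n w) (e z) := by
    intro z w
    rw [hn, hn, map_sub, map_sub, LinearMap.sub_apply, hiso]; ring
  have hen : ∀ x, e (n x) = n (e x) := by intro x; rw [hn, hn, map_sub]
  have hmoveN1 : ∀ (k : ℕ) z w, ∃ c : F, B ((n ^ k) z) w = c * B ((e ^ k) z) ((n ^ k) w) := by
    intro k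
    induction k with
    | zero => intro z w; exact ⟨1, by simp⟩
    | succ k ih =>
      intro z w
      obtain ⟨c, hcc⟩ := ih (n z) w
      have hcom : ∀ z, (e ^ k) (n z) = n ((e ^ k) z) := by
        intro z
        have : Commute (e ^ k) n := (Commute.pow_left (show Commute e n from by
          ext x; exact hen x) k)
        exact LinearMap.congr_fun this z
      have a1 : (n ^ (k + 1)) z = (n ^ k) (n z) := by rw [pow_succ, Module.End.mul_apply]
      have a2 : (n ^ (k + 1)) w = n ((n ^ k) w) := by rw [pow_succ', Module.End.mul_apply]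
      have a3 : (e ^ (k + 1)) z = e ((e ^ k) z) := by rw [pow_succ', Module.End.mul_apply]
      refine ⟨-c, ?_⟩
      rw [a1, a2, a3, hcc, hcom, hmove1]; ring
  have hmoveN2 : ∀ (k : ℕ) z w, ∃ c : F, B w ((n ^ k) z) = c * B ((n ^ k) w) ((e ^ k) z) := by
    intro k
    induction k with
    | zero => intro z w; exact ⟨1, by simp⟩
    | succ k ih =>
      intro z w
      obtain ⟨c, hcc⟩ := ih (n z) w
      have hcom : ∀ z, (e ^ k) (n z) = n ((e ^ k) z) := by
        intro z
        have : Commute (e ^ k) n := (Commute.pow_left (show Commute e n from by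
          ext x; exact hen x) k)
        exact LinearMap.congr_fun this z
      have a1 : (n ^ (k + 1)) z = (n ^ k) (n z) := by rw [pow_succ, Module.End.mul_apply]
      have a2 : (n ^ (k + 1)) w = n ((n ^ k) w) := by rw [pow_succ', Module.End.mul_apply]
      have a3 : (e ^ (k + 1)) z = e ((e ^ k) z) := by rw [pow_succ', Module.End.mul_apply]
      refine ⟨-c, ?_⟩
      rw [a1, a2, a3, hcc, hcom, hmove2]; ring
  have hUW : ∀ u ∈ U, ∀ w ∈ W, B u w = 0 := by
    rintro _ ⟨z, rfl⟩ w hw
    obtain ⟨c, hcc⟩ := hmoveN1 N z w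
    rw [hcc, LinearMap.mem_ker.1 hw, map_zero, mul_zero]
  have hWU : ∀ u ∈ U, ∀ w ∈ W, B w u = 0 := by
    rintro _ ⟨z, rfl⟩ w hw
    obtain ⟨c, hcc⟩ := hmoveN2 N z w
    rw [hcc, LinearMap.mem_ker.1 hw, map_zero, LinearMap.zero_apply, mul_zero]
  have hnU : ∀ u ∈ U, n u ∈ U := by
    rintro _ ⟨z, rfl⟩
    exact ⟨n z, by rw [← Module.End.mul_apply, ← Module.End.mul_apply, ← pow_succ, pow_succ']⟩
  have hnW : ∀ w ∈ W, n w ∈ W := by
    intro w hw
    rw [LinearMap.mem_ker] at hw ⊢
    rw [← Module.End.mul_apply, ← pow_succ, pow_succ', Module.End.mul_apply, hw, map_zero]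
  refine ⟨U, W, hcUW, ?_, ?_, ?_, ?_⟩
  · rintro g _ ⟨z, rfl⟩
    exact ⟨ρ g z, hnpcomm N g z⟩
  · intro g w hw
    rw [LinearMap.mem_ker] at hw ⊢
    rw [hnpcomm, hw, map_zero]
  · refine ⟨B - B.flip, fun x => ?_, fun g x _ y _ => ?_, fun x hx hx' => ?_⟩
    · change B x x - B x x = 0
      exact sub_self _
    · change B (ρ g x) (ρ g y) - B (ρ g y) (ρ g x) = B x y - B y x
      rw [hinv, hinv]
    · -- B (n x) y = 0 for all y
      have h3 : n x = 0 := by
        apply hB.1
        intro y
        obtain ⟨a, b, ha, hb, rfl⟩ := (Submodule.codisjoint_iff_exists_add_eq.1 hcUW.codisjoint) y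
        rw [map_add, hUW _ (hnU x hx) b hb, add_zero, hn, map_sub, LinearMap.sub_apply, he]
        exact hx' a ha
      have h4 : x ∈ W := by
        rw [LinearMap.mem_ker]
        rw [hNe, pow_succ, Module.End.mul_apply, h3, map_zero]
      exact (Submodule.disjoint_def.1 hcUW.disjoint) x hx h4
  · refine ⟨B + B.flip, fun x y => ?_, fun g x _ y _ => ?_, fun x hx hx' => ?_⟩
    · change B x y + B y x = B y x + B x y
      exact add_comm _ _
    · change B (ρ g x) (ρ g y) + B (ρ g y) (ρ g x) = B x y + B y x
      rw [hinv, hinv]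
    · have h3 : x + e x = 0 := by
        have hmem : x + e x ∈ W := by
          have h5 : e x = x - n x := by rw [hn]; abel
          rw [h5]
          exact W.add_mem hx (W.sub_mem hx (hnW x hx))
        apply hB.1
        intro y
        obtain ⟨a, b, ha, hb, rfl⟩ := (Submodule.codisjoint_iff_exists_add_eq.1 hcUW.codisjoint) y
        rw [map_add, hWU a ha _ hmem, zero_add, map_add, LinearMap.add_apply, he]
        exact hx' b hb
      have h5 : n x = (2 : F) • x := by
        rw [hn, two_smul, sub_eq_add_neg]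
        congr 1
        exact (eq_neg_of_add_eq_zero_left h3).symm
      have h6 : ∀ k : ℕ, (n ^ k) x = (2 : F) ^ k • x := by
        intro k
        induction k with
        | zero => simp
        | succ k ih => rw [pow_succ', Module.End.mul_apply, ih, map_smul, h5, smul_smul, ← pow_succ]
      have h7 : (2 : F) ^ N • x = 0 := by rw [← h6]; exact hx
      exact (smul_eq_zero.1 h7).resolve_left (pow_ne_zero N h2)

end main

theorem result {F : Type*} [Field F] [Fintype F] (p : ℕ) [Fact p.Prime] [CharP F p] {G : Type*} [Group G] [Finite G] (hcop : ¬ p ∣ Nat.card G) {V : Type*} [AddCommGroup V] [Module F V] [FiniteDimensional F V] (ρ : Representation F G V) (B : LinearMap.BilinForm F V) (hB : B.Nondegenerate) (hBinv : ∀ g : G, ∀ x y : V, B (ρ g x) (ρ g y) = B x y) : ∃ U W : Submodule F V, IsCompl U W ∧ (∀ g : G, ∀ u ∈ U, ρ g u ∈ U) ∧ (∀ g : G, ∀ w ∈ W, ρ g w ∈ W) ∧ (∃ A : LinearMap.BilinForm F V, (∀ x : V, A x x = 0) ∧ (∀ g : G, ∀ x ∈ U, ∀ y ∈ U, A (ρ g x) (ρ g y) = A x y) ∧ (∀ x ∈ U, (∀ y ∈ U, A x y = 0) → x = 0))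 ∧ (∃ S : LinearMap.BilinForm F V, (∀ x y : V, S x y = S y x) ∧ (∀ g : G, ∀ x ∈ W, ∀ y ∈ W, S (ρ g x) (ρ g y) = S x y) ∧ (∀ x ∈ W, (∀ y ∈ W, S x y = 0) → x = 0)) ∧ (p = 2 → ∀ g : G, ∀ w ∈ W, ρ g w = w) := by
  classical
  by_cases hp : p = 2
  · subst hp
    have hG : (Nat.card G : F) ≠ 0 := by
      rw [Ne, CharP.cast_eq_zero_iff F 2]; exact hcop
    -- fixed space and complement
    let W : Submodule F V :=
      { carrier := {x | ∀ g, ρ g x = x}
        zero_mem' := fun g => map_zero _
        add_mem' := fun {a b} ha hb g => by rw [map_add, ha, hb]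
        smul_mem' := fun c a ha g => by rw [map_smul, ha] }
    have hWinv : Inv ρ W := fun g x hx => by rw [hx g]; exact hx
    have := Fintype.ofFinite G
    -- orthogonal complement of W
    have hWnd : ∀ x ∈ W, (∀ y ∈ W, B x y = 0) → x = 0 := by
      intro x hx hx'
      apply hB.1
      intro y
      have h1 : (Nat.card G : F) * B x y = B x (∑ g : G, ρ g y) := by
        rw [map_sum]
        have : ∀ g : G, B x (ρ g y) = B x y := fun g => by
          conv_lhs => rw [← hx g]
          exact hBinv g x y
        simp only [this, Finset.sum_const, Finset.card_univ, nsmul_eq_mul, Nat.card_eq_fintype_card]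
      have h2 : ∑ g : G, ρ g y ∈ W := by
        intro h
        rw [map_sum]
        refine Fintype.sum_equiv (Equiv.mulLeft h) _ _ fun g => ?_
        rw [← Module.End.mul_apply, ← map_mul]; rfl
      rw [hx' _ h2] at h1
      exact (mul_eq_zero.1 h1).resolve_left hG
    have hc := isCompl_orth B W hWnd
    let U := orth B W
    have hUinv : Inv ρ U := inv_orth ρ B hBinv W hWinv
    have hgood : Good (resRep ρ U hUinv) := by
      refine good_two hG _ (resRep ρ U hUinv) rfl ?_ (B.compl₁₂ U.subtype U.subtype) ?_ ?_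
      · intro x hx
        apply Subtype.ext
        have h1 : (x : V) ∈ W := fun g => congrArg Subtype.val (hx g)
        exact (Submodule.disjoint_def.1 hc.disjoint) x h1 x.2
      · apply LinearMap.BilinForm.Nondegenerate.ofSeparatingRight
        intro x hx
        apply Subtype.ext
        exact orth_nondeg B W hc hB.2 x x.2 fun y hy => hx ⟨y, hy⟩
      · intro g x y
        exact hBinv g x y
    obtain ⟨A, hA1, hA2, hA3⟩ := hgood
    refine ⟨U, W, hc.symm, hUinv, hWinv, ?_, ?_, fun _ g w hw => hw g⟩
    · let P := U.projectionOnto W hc.symm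
      refine ⟨A.compl₁₂ P P, fun x => hA1 _, fun g x hx y hy => ?_, fun x hx hx' => ?_⟩
      · change A (P (ρ g x)) (P (ρ g y)) = A (P x) (P y)
        rw [projOnto_equiv ρ hc.symm hUinv hWinv, projOnto_equiv ρ hc.symm hUinv hWinv, hA2]
      · have h1 : P x = 0 := by
          apply hA3
          intro y
          have := hx' y y.2
          change A (P x) (P y) = 0 at this
          rwa [Submodule.projectionOnto_apply_left hc.symm y] at this
        have h2 : x ∈ W := (Submodule.projectionOnto_apply_eq_zero_iff hc.symm).1 h1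
        exact (Submodule.disjoint_def.1 hc.disjoint) x h2 hx
    · let Q := W.projectionOnto U hc
      let b := Module.finBasis F W
      refine ⟨∑ i, (LinearMap.mul F F).compl₁₂ (b.coord i ∘ₗ Q) (b.coord i ∘ₗ Q), ?_, ?_, ?_⟩
      · intro x y
        simp only [LinearMap.sum_apply, LinearMap.compl₁₂_apply, LinearMap.mul_apply']
        exact Finset.sum_congr rfl fun i _ => mul_comm _ _
      · intro g x hx y hy
        rw [hx g, hy g]
      · intro x hx hx'
        have h1 : Q x = 0 := by
          apply b.ext_elem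
          intro i
          have h2 := hx' (b i) (b i).2
          simp only [LinearMap.sum_apply, LinearMap.compl₁₂_apply, LinearMap.mul_apply',
            LinearMap.comp_apply] at h2
          rw [show Q ((b i : W) : V) = b i from Submodule.projectionOnto_apply_left hc (b i)] at h2
          simp only [Module.Basis.coord_apply, Module.Basis.repr_self] at h2
          rw [Finset.sum_eq_single i] at h2
          · simpa using h2
          · intro j _ hj
            rw [Finsupp.single_eq_of_ne hj, mul_zero]
          · intro h; exact absurd (Finset.mem_univ _) h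
        have h2 : x ∈ U := (Submodule.projectionOnto_apply_eq_zero_iff hc).1 h1
        exact (Submodule.disjoint_def.1 hc.disjoint) x hx h2
  · have h2 : (2 : F) ≠ 0 := by
      have : ((2 : ℕ) : F) ≠ 0 := by
        rw [Ne, CharP.cast_eq_zero_iff F p]
        intro h
        exact hp ((Nat.prime_dvd_prime_iff_eq Fact.out Nat.prime_two).1 h)
      exact_mod_cast this
    obtain ⟨U, W, h1, h3, h4, h5, h6⟩ := odd_case ρ h2 B hB hBinv
    exact ⟨U, W, h1, h3, h4, h5, h6, fun h => absurd h hp⟩

end Cfsg.Agent.S4966
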