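import Cfsg.Statements.S4967
import Mathlib.FieldTheory.Finite.Basic
import Mathlib.FieldTheory.Finite.Trace
import Mathlib.RingTheory.IntegralDomain
import Mathlib.RingTheory.Ideal.Quotient.Basic
import Mathlib.LinearAlgebra.Dimension.FreeAndStrongRankCondition
import Mathlib.LinearAlgebra.Matrix.BilinearForm
import Mathlib.Tactic

set_option autoImplicit false
open Cfsg

namespace Cfsg.Agent.S4967

open Module (finrank)

section core

variable {F : Type*} [Field F] [Fintype F] {K : Type*} [Field K] [Algebra F K] [Finite K]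
  {H : Type*} [CommGroup H] [Finite H] (i : H →* K)

theorem sq_eq_one_of_sigma_id (σ : K →ₐ[F] K) (hσ : ∀ h, σ (i h) * i h = 1)
    (hid : ∀ x, σ x = x) (h : H) : i h = 1 ∨ i h = -1 := by
  have := hσ h
  rw [hid] at this
  exact mul_self_eq_one_iff.1 this

theorem core_one (hi : Function.Injective i) (h1 : finrank F K = 1) (σ : K →ₐ[F] K)
    (hσ : ∀ h, σ (i h) * i h = 1) : Nat.card H ≤ 2 := by
  classical
  have hid : ∀ x, σ x = x := by
    intro x
    have hbot : (⊥ : Subalgebra F K) = ⊤ := Subalgebra.bot_eq_top_of_finrank_eq_one h1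
    have hx : x ∈ (⊥ : Subalgebra F K) := by rw [hbot]; trivial
    obtain ⟨a, rfl⟩ := Algebra.mem_bot.1 hx
    exact σ.commutes a
  have hval := sq_eq_one_of_sigma_id i σ hσ hid
  let f : H → Bool := fun h => decide (i h = 1)
  have hf : Function.Injective f := by
    intro a b hab
    simp only [f, decide_eq_decide] at hab
    apply hi
    rcases hval a with ha | ha
    · rw [ha, hab.1 ha]
    · rcases hval b with hb | hb
      · rw [hb]; exact hab.2 hb
      · rw [ha, hb]
  calc Nat.card H ≤ Nat.card Bool := Nat.card_le_card_of_injective f hf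
    _ = 2 := by simp

theorem core_fwd (hi : Function.Injective i) (hadj : Algebra.adjoin F (Set.range i) = ⊤)
    (h2 : 2 ≤ finrank F K) (σ : K →ₐ[F] K) (hσ : ∀ h, σ (i h) * i h = 1) :
    Even (finrank F K) ∧ Nat.card H ∣ Fintype.card F ^ (finrank F K / 2) + 1 := by
  classical
  have hcyc : IsCyclic H := isCyclic_of_injective_ringHom i hi
  obtain ⟨⟨j, hj⟩, hjσ⟩ := (FiniteField.bijective_frobeniusAlgHom_pow F K).2 σ
  simp only at hjσ
  have hpow : ∀ (k : ℕ) (x : K), (FiniteField.frobeniusAlgHom F K ^ k) x = x ^ (Fintype.card F ^ k) := by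
    intro k x
    rw [AlgHom.coe_pow, FiniteField.coe_frobeniusAlgHom, pow_iterate]
  have hext : ∀ τ τ' : K →ₐ[F] K, (∀ h, τ (i h) = τ' (i h)) → τ = τ' := by
    intro τ τ' hτ
    apply AlgHom.ext_of_adjoin_eq_top hadj
    rintro _ ⟨h, rfl⟩
    exact hτ h
  -- sigma squared is the identity
  have hinv : ∀ h, σ (i h) = i h⁻¹ := by
    intro h
    have h1 : i h⁻¹ * i h = 1 := by rw [← map_mul, inv_mul_cancel, map_one]
    have h0 : i h ≠ 0 := by intro h0; rw [h0, mul_zero] at h1; exact zero_ne_one h1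
    exact mul_right_cancel₀ h0 ((hσ h).trans h1.symm)
  have hsq : FiniteField.frobeniusAlgHom F K ^ (2 * j) = 1 := by
    rw [two_mul, pow_add]
    have : (FiniteField.frobeniusAlgHom F K ^ j) = σ := hjσ
    rw [this]
    apply hext
    intro h
    rw [AlgHom.mul_apply, hinv, hinv, inv_inv, AlgHom.one_apply]
  have hdvd := orderOf_dvd_of_pow_eq_one hsq
  rw [FiniteField.orderOf_frobeniusAlgHom] at hdvd
  -- j is not zero
  have hj0 : j ≠ 0 := by
    rintro rfl
    rw [pow_zero] at hjσ
    have hid : ∀ x, σ x = x := fun x => by rw [← hjσ, AlgHom.one_apply]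
    have hval := sq_eq_one_of_sigma_id i σ hσ hid
    have hle : Algebra.adjoin F (Set.range i) ≤ ⊥ := by
      rw [Algebra.adjoin_le_iff]
      rintro _ ⟨h, rfl⟩
      rcases hval h with h | h
      · rw [h]; exact one_mem _
      · rw [h]; exact neg_mem (one_mem _)
    rw [hadj, top_le_iff] at hle
    have := Subalgebra.bot_eq_top_iff_finrank_eq_one.1 hle
    omega
  obtain ⟨c, hc⟩ := hdvd
  have hc1 : c = 1 := by
    have hc0 : c ≠ 0 := by rintro rfl; omega
    have : c < 2 := by
      by_contra hcon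
      push Not at hcon
      have : finrank F K * 2 ≤ finrank F K * c := Nat.mul_le_mul_left _ hcon
      omega
    omega
  subst hc1
  rw [mul_one] at hc
  refine ⟨⟨j, by omega⟩, ?_⟩
  have hhalf : finrank F K / 2 = j := by omega
  rw [hhalf]
  obtain ⟨h0, hh0⟩ := IsCyclic.exists_generator (α := H)
  rw [← orderOf_eq_card_of_forall_mem_zpowers hh0]
  apply orderOf_dvd_of_pow_eq_one
  apply hi
  rw [map_pow, map_one, pow_succ, ← hpow, hjσ, hσ]

theorem core_bwd (hdvd : Nat.card H ∣ Fintype.card F ^ (finrank F K / 2) + 1) :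
    ∃ σ : K →ₐ[F] K, ∀ h, σ (i h) * i h = 1 := by
  refine ⟨FiniteField.frobeniusAlgHom F K ^ (finrank F K / 2), fun h => ?_⟩
  rw [AlgHom.coe_pow, FiniteField.coe_frobeniusAlgHom, pow_iterate]
  rw [← pow_succ, ← map_pow]
  obtain ⟨c, hc⟩ := hdvd
  rw [hc, pow_mul, pow_card_eq_one', one_pow, map_one]

end core

section model

variable {F : Type*} [Field F] {H : Type*} [CommGroup H]
  {V : Type*} [AddCommGroup V] [Module F V] (ρ : Representation F H V)

open MonoidAlgebra

/-- annihilator of a vector -/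
noncomputable def ann (v : V) : Ideal (MonoidAlgebra F H) where
  carrier := {a | ρ.asAlgebraHom a v = 0}
  zero_mem' := by simp
  add_mem' := fun {a b} ha hb => by
    simp only [Set.mem_ofPred_eq] at ha hb ⊢
    rw [map_add, LinearMap.add_apply, ha, hb, add_zero]
  smul_mem' := fun c a ha => by
    simp only [Set.mem_ofPred_eq, smul_eq_mul] at ha ⊢
    rw [map_mul, Module.End.mul_apply, ha, map_zero]

theorem mem_ann (v : V) (a : MonoidAlgebra F H) : a ∈ ann ρ v ↔ ρ.asAlgebraHom a v = 0 := Iff.rfl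

variable (hirr : ∀ U : Submodule F V, (∀ h : H, ∀ u ∈ U, ρ h u ∈ U) → U = ⊥ ∨ U = ⊤)

include hirr in
theorem exists_apply_eq {v : V} (hv : v ≠ 0) (w : V) : ∃ a, ρ.asAlgebraHom a v = w := by
  let U : Submodule F V :=
    { carrier := {w | ∃ a, ρ.asAlgebraHom a v = w}
      zero_mem' := ⟨0, by simp⟩
      add_mem' := by
        rintro _ _ ⟨a, rfl⟩ ⟨b, rfl⟩
        exact ⟨a + b, by simp⟩
      smul_mem' := by
        rintro c _ ⟨a, rfl⟩
        exact ⟨c • a, by simp⟩ }
  have hU : ∀ h : H, ∀ u ∈ U, ρ h u ∈ U := by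
    rintro h _ ⟨a, rfl⟩
    refine ⟨MonoidAlgebra.of F H h * a, ?_⟩
    rw [map_mul, Module.End.mul_apply, Representation.asAlgebraHom_of]
  rcases hirr U hU with h | h
  · exfalso
    apply hv
    have : v ∈ U := ⟨1, by simp⟩
    rw [h] at this
    exact (Submodule.mem_bot F).1 this
  · have : w ∈ U := by rw [h]; trivial
    exact this

include hirr in
theorem ann_isMaximal {v : V} (hv : v ≠ 0) : (ann ρ v).IsMaximal := by
  rw [Ideal.isMaximal_iff]
  refine ⟨fun h => hv (by simpa [mem_ann] using h), ?_⟩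
  intro J x hIJ hx hxJ
  rw [mem_ann] at hx
  obtain ⟨b, hb⟩ := exists_apply_eq ρ hirr hx v
  have h1 : 1 - b * x ∈ ann ρ v := by
    rw [mem_ann, map_sub, LinearMap.sub_apply, map_mul, Module.End.mul_apply, hb]
    simp
  have h2 : (1 : MonoidAlgebra F H) = (1 - b * x) + b * x := by ring
  rw [h2]
  exact J.add_mem (hIJ h1) (J.mul_mem_left b hxJ)

end model

theorem result {F : Type*} [Field F] [Fintype F] (p : ℕ) [Fact p.Prime] [CharP F p] {H : Type*} [CommGroup H] [Finite H] (hcop : ¬ p ∣ Nat.card H) {V : Type*} [AddCommGroup V] [Module F V] [FiniteDimensional F V] (ρ : Representation F H V) (hfaith : Function.Injective ρ) (hirr : ∀ U : Submodule F V, (∀ h : H, ∀ u ∈ U, ρ h u ∈ U) → U = ⊥ ∨ U = ⊤) : (Module.finrank F V = 1 → (∃ B : LinearMap.BilinForm F V, B.Nondegenerate ∧ ∀ h : H, ∀ x y : V, B (ρ h x) (ρ h y) = B x y) → Nat.card H ≤ 2) ∧ (2 ≤ Module.finrank F V → ((∃ B : LinearMap.BilinForm F V, B.Nondegenerate ∧ ∀ h : H, ∀ x y : V, B (ρ h x) (ρ h y) = B x y) ↔ (Even (Module.finrank F V)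 ∧ Nat.card H ∣ Fintype.card F ^ (Module.finrank F V / 2) + 1))) := by
  classical
  by_cases hV : finrank F V = 0
  · exact ⟨fun h => by omega, fun h => by omega⟩
  have hnt : Nontrivial V := Module.nontrivial_of_finrank_pos (R := F) (Nat.pos_of_ne_zero hV)
  obtain ⟨v, hv⟩ := exists_ne (0 : V)
  let R := MonoidAlgebra F H
  let I : Ideal R := ann ρ v
  have hImax : I.IsMaximal := ann_isMaximal ρ hirr hv
  let K := R ⧸ I
  letI : Field K := Ideal.Quotient.field I
  let φ : R → V := fun a => ρ.asAlgebraHom a v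
  have hφadd : ∀ a b, φ (a + b) = φ a + φ b := fun a b => by simp [φ]
  have hφsmul : ∀ (c : F) a, φ (c • a) = c • φ a := fun c a => by simp [φ]
  have hφsurj : ∀ w, ∃ a, φ a = w := exists_apply_eq ρ hirr hv
  have hφI : ∀ a, φ a = 0 ↔ a ∈ I := fun a => Iff.rfl
  let mk : R →ₐ[F] K := Ideal.Quotient.mkₐ F I
  have hmk0 : ∀ a, mk a = 0 ↔ a ∈ I := fun a => Ideal.Quotient.eq_zero_iff_mem
  have hmksurj : Function.Surjective mk := Ideal.Quotient.mkₐ_surjective F I
  have hwd : ∀ a b, φ a = φ b → mk a = mk b := by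
    intro a b hab
    have h1 : a - b ∈ I := by
      rw [← hφI]
      have : φ (a - b) = φ a - φ b := by simp [φ]
      rw [this, hab, sub_self]
    rw [← hmk0, map_sub, sub_eq_zero] at h1
    exact h1
  let E0 : V → K := fun w => mk (Classical.choose (hφsurj w))
  have hE0 : ∀ a, E0 (φ a) = mk a := fun a => hwd _ _ (Classical.choose_spec (hφsurj (φ a)))
  let E1 : V →ₗ[F] K :=
    { toFun := E0
      map_add' := by
        intro x y
        obtain ⟨a, rfl⟩ := hφsurj x
        obtain ⟨b, rfl⟩ := hφsurj y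
        rw [← hφadd, hE0, hE0, hE0, map_add]
      map_smul' := by
        intro c x
        obtain ⟨a, rfl⟩ := hφsurj x
        rw [← hφsmul, hE0, hE0, map_smul]; rfl }
  have hE1 : ∀ a, E1 (φ a) = mk a := hE0
  have hE1bij : Function.Bijective E1 := by
    constructor
    · rw [injective_iff_map_eq_zero]
      intro x hx
      obtain ⟨a, rfl⟩ := hφsurj x
      rw [hE1, hmk0] at hx
      exact hx
    · intro y
      obtain ⟨a, rfl⟩ := hmksurj y
      exact ⟨φ a, hE1 a⟩
  let E : V ≃ₗ[F] K := LinearEquiv.ofBijective E1 hE1bij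
  have hE : ∀ a, E (φ a) = mk a := hE0
  have hfin : Finite V := Module.finite_of_finite F
  have hfinK : Finite K := Finite.of_equiv V E.toEquiv
  have hrank : finrank F K = finrank F V := (LinearEquiv.finrank_eq E).symm
  let i : H →* K := (mk : R →* K).comp (MonoidAlgebra.of F H)
  have hi_apply : ∀ h, i h = mk (MonoidAlgebra.of F H h) := fun h => rfl
  have hEρ : ∀ h w, E (ρ h w) = i h * E w := by
    intro h w
    obtain ⟨a, rfl⟩ := hφsurj w
    have h1 : ρ h (φ a) = φ (MonoidAlgebra.of F H h * a) := by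
      simp only [φ]
      rw [map_mul, Module.End.mul_apply, Representation.asAlgebraHom_of]
    rw [h1, hE, hE, map_mul]
    rfl
  have hi : Function.Injective i := by
    intro a b hab
    apply hfaith
    apply LinearMap.ext
    intro w
    apply E.injective
    rw [hEρ, hEρ, hab]
  have hadj : Algebra.adjoin F (Set.range i) = ⊤ := by
    rw [eq_top_iff]
    rintro x -
    obtain ⟨a, rfl⟩ := hmksurj x
    induction a using MonoidAlgebra.induction_on with
    | of h => exact Algebra.subset_adjoin ⟨h, rfl⟩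
    | add a b ha hb => rw [map_add]; exact add_mem ha hb
    | smul c a ha => rw [map_smul]; exact Subalgebra.smul_mem _ ha c
  -- from a form to sigma
  have hfwd : (∃ B : LinearMap.BilinForm F V, B.Nondegenerate ∧ ∀ h : H, ∀ x y : V, B (ρ h x) (ρ h y) = B x y) →
      ∃ σ : K →ₐ[F] K, ∀ h, σ (i h) * i h = 1 := by
    rintro ⟨B, hB, hinv⟩
    let ι : R →ₐ[F] R := MonoidAlgebra.mapDomainAlgHom F F (invMonoidHom : H →* H)
    have hι : ∀ h, ι (MonoidAlgebra.of F H h) = MonoidAlgebra.of F H h⁻¹ := by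
      intro h
      simp only [ι, MonoidAlgebra.of_apply]
      exact MonoidAlgebra.mapDomain_single
    have hadjB : ∀ a x y, B (ρ.asAlgebraHom a x) y = B x (ρ.asAlgebraHom (ι a) y) := by
      intro a
      induction a using MonoidAlgebra.induction_on with
      | of h =>
        intro x y
        rw [hι, Representation.asAlgebraHom_of, Representation.asAlgebraHom_of]
        have := hinv h x (ρ h⁻¹ y)
        rw [← Module.End.mul_apply (ρ h) (ρ h⁻¹), ← map_mul, mul_inv_cancel, map_one, Module.End.one_apply] at this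
        exact this
      | add a b ha hb =>
        intro x y
        simp only [map_add, LinearMap.add_apply, ha, hb]
      | smul c a ha =>
        intro x y
        simp only [map_smul, LinearMap.smul_apply, ha]
    have hact : ∀ a ∈ I, ∀ w, ρ.asAlgebraHom a w = 0 := by
      intro a ha w
      obtain ⟨b, rfl⟩ := hφsurj w
      simp only [φ]
      rw [← Module.End.mul_apply, ← map_mul, mul_comm, map_mul, Module.End.mul_apply]
      have : ρ.asAlgebraHom a v = 0 := ha
      rw [this, map_zero]
    have hιI : I ≤ I.comap ι := by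
      intro a ha
      rw [Ideal.mem_comap]
      change ρ.asAlgebraHom (ι a) v = 0
      apply hB.2
      intro x
      rw [← hadjB, hact a ha, map_zero, LinearMap.zero_apply]
    refine ⟨Ideal.quotientMapₐ I ι hιI, fun h => ?_⟩
    have h1 : (Ideal.quotientMapₐ I ι hιI) (i h) = i h⁻¹ := by
      have : (Ideal.quotientMapₐ I ι hιI) (mk (MonoidAlgebra.of F H h)) = mk (ι (MonoidAlgebra.of F H h)) := rfl
      rw [hi_apply, this, hι]; rfl
    rw [h1, ← map_mul, inv_mul_cancel, map_one]
  have hbwd : (∃ σ : K →ₐ[F] K, ∀ h, σ (i h) * i h = 1) →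
      (∃ B : LinearMap.BilinForm F V, B.Nondegenerate ∧ ∀ h : H, ∀ x y : V, B (ρ h x) (ρ h y) = B x y) := by
    rintro ⟨σ, hσ⟩
    have hσinj : Function.Injective σ := σ.toRingHom.injective
    have hσsurj : Function.Surjective σ := Finite.surjective_of_injective hσinj
    refine ⟨(Algebra.traceForm F K).compl₁₂ E.toLinearMap (σ.toLinearMap ∘ₗ E.toLinearMap), ?_, ?_⟩
    · apply LinearMap.BilinForm.Nondegenerate.ofSeparatingLeft
      intro x hx
      have h1 : E x = 0 := by
        apply (traceForm_nondegenerate F K).1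
        intro z
        obtain ⟨z', rfl⟩ := hσsurj z
        obtain ⟨y, rfl⟩ := E.surjective z'
        exact hx y
      exact (LinearEquiv.map_eq_zero_iff E).1 h1
    · intro h x y
      simp only [LinearMap.compl₁₂_apply, LinearMap.comp_apply, LinearEquiv.coe_coe, AlgHom.toLinearMap_apply, Algebra.traceForm_apply]
      have h1 : E (ρ h x) * σ (E (ρ h y)) = E x * σ (E y) := by
        rw [hEρ, hEρ, map_mul σ]
        calc i h * E x * (σ (i h) * σ (E y)) = (σ (i h) * i h) * (E x * σ (E y)) := by ring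
          _ = E x * σ (E y) := by rw [hσ, one_mul]
      rw [h1]
  constructor
  · intro h1 hB
    obtain ⟨σ, hσ⟩ := hfwd hB
    exact core_one i hi (by rw [hrank]; exact h1) σ hσ
  · intro h2
    rw [← hrank]
    constructor
    · intro hB
      obtain ⟨σ, hσ⟩ := hfwd hB
      exact core_fwd i hi hadj (by rw [hrank]; exact h2) σ hσ
    · rintro ⟨_, hd⟩
      exact hbwd (core_bwd i hd)

end Cfsg.Agent.S4967
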