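import Cfsg.Statements.S5015
import Cfsg.Agent.Lib.H85.RankOne

set_option autoImplicit false
open Cfsg

namespace Cfsg.Agent.S5015

/-- the one-sided condition -/
theorem cond_aux {Y Ω : Type*} [Group Y] [MulAction Y Ω] {α β : Ω} {A : Subgroup Y}
    (hAn : ∀ y ∈ MulAction.stabilizer Y α, Cfsg.conjBy A y = A)
    (hA : A ≤ MulAction.stabilizer Y α)
    (hreg : ∀ β γ : Ω, β ≠ α → γ ≠ α → ∃! a : Y, a ∈ A ∧ a • β = γ)
    {y : Y} (hy : y • α = β) (hne : β ≠ α)
    (hregB : ∀ γ δ : Ω, γ ≠ β → δ ≠ β → ∃ b : Y, b ∈ Cfsg.conjBy A y ∧ b • γ = δ) :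
    Cfsg.RankOneCondition A (Cfsg.conjBy A y) := by
  intro a ha ha1
  have hfix : ∀ g h : Y, g • α = h • α → Cfsg.conjBy A g = Cfsg.conjBy A h := by
    intro g h e
    have h1 : h⁻¹ * g ∈ MulAction.stabilizer Y α := by
      rw [MulAction.mem_stabilizer_iff, mul_smul, e, inv_smul_smul]
    have h2 := hAn _ h1
    have h3 : g = h * (h⁻¹ * g) := by group
    rw [h3, H85.RankOne.conjBy_mul, h2]
  have ha' : a⁻¹ ∈ A := A.inv_mem ha
  have h1 : a⁻¹ • β ≠ β := by
    intro e
    obtain ⟨c, -, hc⟩ := hreg β β hne hne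
    have e1 := hc a⁻¹ ⟨ha', e⟩
    have e2 := hc 1 ⟨A.one_mem, one_smul _ _⟩
    exact ha1 (inv_eq_one.1 (e1.trans e2.symm))
  obtain ⟨b, hb, hbα⟩ := hregB α (a⁻¹ • β) hne.symm h1
  refine ⟨b⁻¹, Subgroup.inv_mem _ hb, ?_, ?_⟩
  · intro e
    rw [inv_eq_one] at e
    rw [e, one_smul] at hbα
    have h2 : a • α = α := hA ha
    apply hne
    calc β = a • a⁻¹ • β := (smul_inv_smul _ _).symm
      _ = a • α := by rw [← hbα]
      _ = α := h2
  · rw [inv_inv, ← H85.RankOne.conjBy_mul]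
    apply hfix
    rw [hbα, mul_smul, hy]

/-- Let a group Y act doubly transitively on a set Ω with at least three points, and suppose that the stabilizer of a point α contains a nilpotent subgroup A, normalized by that stabilizer, which acts regularly on the points other than α. Then for any y in Y moving α, the subgroups A and y A y⁻¹ are the unipotent subgroups of a rank one group, and the normal closure of A in Y (the subgroup generated by all conjugates of A) is generated by A and y A y⁻¹ alone. -/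
theorem result {Y Ω : Type*} [Group Y] [MulAction Y Ω]
    (h2 : MulAction.IsMultiplyPretransitive Y Ω 2) (hΩ : 3 ≤ ENat.card Ω) (α : Ω) (A : Subgroup Y)
    (hA : A ≤ MulAction.stabilizer Y α) (hAn : ∀ y ∈ MulAction.stabilizer Y α, Cfsg.conjBy A y = A)
    (hnil : Group.IsNilpotent A) (hreg : ∀ β γ : Ω, β ≠ α → γ ≠ α → ∃! a : Y, a ∈ A ∧ a • β = γ)
    (y : Y) (hy : y ∉ MulAction.stabilizer Y α) :
    Cfsg.IsRankOnePair A (Cfsg.conjBy A y) ∧ Subgroup.normalClosure (A : Set Y) = A ⊔ Cfsg.conjBy A y := by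

  have hfix : ∀ g h : Y, g • α = h • α → Cfsg.conjBy A g = Cfsg.conjBy A h := by
    intro g h e
    have h1 : h⁻¹ * g ∈ MulAction.stabilizer Y α := by
      rw [MulAction.mem_stabilizer_iff, mul_smul, e, inv_smul_smul]
    have h2 := hAn _ h1
    have h3 : g = h * (h⁻¹ * g) := by group
    rw [h3, H85.RankOne.conjBy_mul, h2]
  have hβ : y • α ≠ α := fun e => hy (MulAction.mem_stabilizer_iff.2 e)
  have hregB : ∀ γ δ : Ω, γ ≠ y • α → δ ≠ y • α → ∃! b : Y, b ∈ Cfsg.conjBy A y ∧ b • γ = δ := by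
    intro γ δ hγ hδ
    have h1 : y⁻¹ • γ ≠ α := fun e => hγ (by rw [← e, smul_inv_smul])
    have h2 : y⁻¹ • δ ≠ α := fun e => hδ (by rw [← e, smul_inv_smul])
    obtain ⟨a, ⟨ha, hae⟩, hu⟩ := hreg _ _ h1 h2
    refine ⟨y * a * y⁻¹, ⟨H85.RankOne.conj_mem_conjBy ha, ?_⟩, ?_⟩
    · rw [mul_smul, mul_smul, hae, smul_inv_smul]
    · rintro b ⟨hb, hbe⟩
      have h3 := hu (y⁻¹ * b * y) ⟨H85.RankOne.mem_conjBy.1 hb, by
        rw [mul_smul, mul_smul, smul_inv_smul, hbe]⟩
      rw [← h3]; group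
  have hBfix : Cfsg.conjBy A y ≤ MulAction.stabilizer Y (y • α) := by
    intro b hb
    have h1 : y⁻¹ * b * y ∈ MulAction.stabilizer Y α := hA (H85.RankOne.mem_conjBy.1 hb)
    rw [MulAction.mem_stabilizer_iff] at h1 ⊢
    calc b • y • α = y • ((y⁻¹ * b * y) • α) := by simp only [← mul_smul]; congr 1; group
      _ = y • α := by rw [h1]
  have hBn : ∀ z ∈ MulAction.stabilizer Y (y • α), Cfsg.conjBy (Cfsg.conjBy A y) z = Cfsg.conjBy A y := by
    intro z hz
    rw [MulAction.mem_stabilizer_iff] at hz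
    rw [← H85.RankOne.conjBy_mul]
    apply hfix
    rw [mul_smul, hz]
  have hthird : ∃ γ : Ω, γ ≠ α ∧ γ ≠ y • α := by
    by_contra hc
    push Not at hc
    have h1 : (Set.univ : Set Ω) ⊆ {α, y • α} := by
      intro γ _
      by_cases h : γ = α
      · left; exact h
      · right; exact hc γ h
    have h2 : Set.encard (Set.univ : Set Ω) ≤ 2 := (Set.encard_le_encard h1).trans ((Set.encard_insert_le _ _).trans (by rw [Set.encard_singleton]; rfl))
    rw [Set.encard_univ] at h2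
    have h3 := hΩ.trans h2
    exact absurd h3 (by decide)
  obtain ⟨γ, hγ1, hγ2⟩ := hthird
  have hne : A ≠ Cfsg.conjBy A y := by
    intro e
    obtain ⟨a, ⟨ha, hae⟩, -⟩ := hreg (y • α) γ hβ hγ1
    rw [e] at ha
    have := hBfix ha
    rw [MulAction.mem_stabilizer_iff, hae] at this
    exact hγ2 this
  refine ⟨⟨hne, hnil, H85.RankOne.conjBy_nilpotent y hnil, ?_, ?_⟩, ?_⟩
  · exact cond_aux hAn hA hreg rfl hβ (fun γ δ h1 h2 => (hregB γ δ h1 h2).exists)
  · have := cond_aux (α := y • α) (β := α) (A := Cfsg.conjBy A y) hBn hBfix hregB (y := y⁻¹) (inv_smul_smul _ _) hβ.symm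
      (fun γ δ h1 h2 => by
        rw [H85.RankOne.conjBy_inv_conjBy]
        exact (hreg γ δ h1 h2).exists)
    rwa [H85.RankOne.conjBy_inv_conjBy] at this
  · apply le_antisymm
    · rw [Subgroup.normalClosure, Subgroup.closure_le]
      intro x hx
      rw [Group.mem_conjugatesOfSet_iff] at hx
      obtain ⟨a, ha, hax⟩ := hx
      rw [isConj_iff] at hax
      obtain ⟨g, rfl⟩ := hax
      have h1 : g * a * g⁻¹ ∈ Cfsg.conjBy A g := H85.RankOne.conj_mem_conjBy ha
      by_cases hg : g • α = α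
      · rw [hfix g 1 (by rw [hg, one_smul]), H85.RankOne.conjBy_one] at h1
        exact Subgroup.mem_sup_left h1
      · obtain ⟨c, ⟨hc, hce⟩, -⟩ := hreg (y • α) (g • α) hβ hg
        rw [hfix g (c * y) (by rw [mul_smul, hce])] at h1
        rw [H85.RankOne.conjBy_mul] at h1
        exact H85.RankOne.conjBy_le_of_mem le_sup_right (Subgroup.mem_sup_left hc) h1
    · refine sup_le (show A ≤ _ from Subgroup.subset_normalClosure) ?_
      rw [← H85.RankOne.conjBy_normal (N := Subgroup.normalClosure (A : Set Y)) y, H85.RankOne.conjBy_le_conjBy]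
      exact Subgroup.subset_normalClosure

end Cfsg.Agent.S5015
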