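import Cfsg.Statements.S5023
import Cfsg.Agent.Lib.H85.SpecialPow
import Cfsg.Agent.Lib.H85.QuadModule

set_option autoImplicit false
open Cfsg

namespace Cfsg.Agent.S5023

/-- Let X be a rank one group with unipotent subgroups A and B that acts faithfully on an abelian group V (written additively) with A acting quadratically: a' • (a • v − v) = a • v − v for all a, a' in A and v in V. Then A is either torsion-free or an elementary abelian p-group for some prime p. -/
theorem result {X : Type*} [Group X] {A B : Subgroup X} (h : Cfsg.IsRankOneGroup X A B)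
    {V : Type*} [AddCommGroup V] [DistribMulAction X V] (hf : ∀ x : X, (∀ v : V, x • v = v) → x = 1)
    (hq : ∀ a ∈ A, ∀ a' ∈ A, ∀ v : V, a' • (a • v - v) = a • v - v) :
    (∀ a ∈ A, a ≠ 1 → ¬ IsOfFinOrder a) ∨ ∃ p : ℕ, p.Prime ∧ Cfsg.IsElementaryAbelian p A := by
  -- A is abelian as it acts quadratically and faithfully
  have hcomm : ∀ {C : Subgroup X}, (∀ a ∈ C, ∀ a' ∈ C, ∀ v : V, a' • (a • v - v) = a • v - v) → IsMulCommutative C := by
    intro C hC
    constructor; constructor
    rintro ⟨x, hx⟩ ⟨y, hy⟩
    apply Subtype.ext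
    show x * y = y * x
    have h1 : ∀ v : V, (x * y) • v = (y * x) • v := by
      intro v
      have e1 := hC x hx y hy v
      have e2 := hC y hy x hx v
      rw [smul_sub] at e1 e2
      rw [mul_smul, mul_smul]
      have e3 : y • x • v = x • v - v + y • v := by rw [← e1]; abel
      have e4 : x • y • v = y • v - v + x • v := by rw [← e2]; abel
      rw [e3, e4]; abel
    have h2 := hf ((y * x)⁻¹ * (x * y)) (fun v => by rw [mul_smul, h1, inv_smul_smul])
    have h3 := inv_mul_eq_one.1 h2
    exact h3.symm
  have hA : IsMulCommutative A := hcomm hq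
  have hqB : ∀ b ∈ B, ∀ b' ∈ B, ∀ n : V, b' • (b • n - n) = b • n - n := by
    obtain ⟨x, -, hx⟩ := H85.RankOneTrans.right_mem h.2
    intro b hb b' hb' n
    rw [hx, H85.RankOne.mem_conjBy] at hb hb'
    have h1 := hq _ hb _ hb' (x⁻¹ • n)
    have h2 : (x⁻¹ * b * x) • (x⁻¹ • n) = x⁻¹ • (b • n) := by
      simp only [← mul_smul]; congr 1; group
    rw [h2, ← smul_sub] at h1
    have h3 : (x⁻¹ * b' * x) • x⁻¹ • (b • n - n) = x⁻¹ • (b' • (b • n - n)) := by
      simp only [← mul_smul]; congr 1; group
    rw [h3] at h1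
    exact smul_left_cancel _ h1
  have hab : Cfsg.HasAbelianUnipotents A B := ⟨hA, hcomm hqB⟩
  have hsp : Cfsg.IsSpecialRankOnePair A B := by
    apply H85.QuadModule.special_of_quadratic h hq
    by_contra hc
    push Not at hc
    -- then X is abelian
    have hX : IsMulCommutative (⊤ : Subgroup X) := hcomm (fun a _ a' _ v => hc a a' v)
    apply H85.RankOneTrans.bracket_ne_bot h.2
    rw [H85.RankOneTrans.bracket_eq_bot_iff]
    intro a _ b _
    have := hX.is_comm.comm (⟨a, Subgroup.mem_top a⟩ : (⊤ : Subgroup X)) ⟨b, Subgroup.mem_top b⟩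
    exact congrArg Subtype.val this
  rcases H85.SpecialPow.structure_unipotent hsp hab with h1 | h1
  · exact Or.inr h1
  · exact Or.inl h1.1

end Cfsg.Agent.S5023
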