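import Cfsg.Statements.S5047
import Cfsg.Agent.Lib.H85.RootInv3

set_option autoImplicit false
open Cfsg

namespace Cfsg.Agent.S5047

/-- Let G be a finite group generated by a set D of root involutions whose odd-order-product graph is connected, a ∈ D, and b a member of D different from a, commuting with a, with ab ∈ D, but not having the same commuting members as a. Then some member x of D with bx of order 4 has ax of order 3. -/
theorem result {G : Type*} [Group G] [Finite G] {D : Set G} (hD : Cfsg.IsRootInvolutionSet D)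
    (hc : Cfsg.IsConnectedSet (Cfsg.OddAdj D) D) {a b : G} (ha : a ∈ D) (hb : b ∈ Cfsg.productPartners D a)
    (hbE : b ∉ Cfsg.sameCommutingClass D a) : ∃ x ∈ Cfsg.fourPartners D b, orderOf (a * x) = 3 := by
  obtain ⟨hbD, hab, habD⟩ := H85.RootInv.line_of_productPartners hb
  have hbaD : b * a ∈ D := by rw [← hab.eq]; exact habD
  have hA : Cfsg.oddPartners D a ≠ Cfsg.oddPartners D b := fun h =>
    hbE ⟨hbD, (H85.RootInv.comm_eq_iff hD hc ha hbD).2 h⟩
  obtain ⟨h, hh1, hh2⟩ : ∃ h ∈ Cfsg.oddPartners D a, h ∉ Cfsg.oddPartners D b := by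
    by_contra hcon
    push Not at hcon
    exact hA (H85.RootInv.oddP_eq_of_subset hD hc ha hbD hcon)
  have hah := H85.RootInv.oddP_symm hD ha hh1
  have hb4 : b ∈ Cfsg.fourPartners D h := by
    rcases H85.RootInv.tri hD hbD hh1.1 with h3 | h3 | h3
    · exact absurd h3 (H85.RootInv.line_not_comm hD hah hh1.1 hbD hab habD)
    · exact absurd h3 hh2
    · exact H85.RootInv.fourP_symm hD hbD h3
  obtain ⟨y, hy, hyb⟩ := H85.RootInv.NM_surj hD hh1.1 hah (b := b) ⟨hb4, hab, habD⟩
  have hyD : y ∈ D := hy.1.1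
  have hyb1 : Commute y b := by rw [← hyb]; exact H85.RootInv.four_comm_right hD ha hy.1
  have hAy : Cfsg.oddPartners D b ≠ Cfsg.oddPartners D y := by
    intro h3
    have h4 := (H85.RootInv.comm_eq_iff hD hc hbD hyD).2 h3
    have h5 : a ∈ Cfsg.commutingMembers D y := by rw [← h4]; exact ⟨ha, hab⟩
    exact H85.RootInv.not_comm_of_four hD ha hy.1 (H85.RootInv.comm_of_mem h5)
  obtain ⟨k, hk1, hk2⟩ : ∃ h ∈ Cfsg.oddPartners D b, h ∉ Cfsg.oddPartners D y := by
    by_contra hcon
    push Not at hcon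
    exact hAy (H85.RootInv.oddP_eq_of_subset hD hc hbD hyD hcon)
  have hbk := H85.RootInv.oddP_symm hD hbD hk1
  have hayD : y * b ∈ D := by rw [← hyb]; exact H85.RootInv.four_mul_right_mem hD ha hy.1
  have hbyD : b * y ∈ D := by rw [← hyb1.eq]; exact hayD
  have hy4 : y ∈ Cfsg.fourPartners D k := by
    rcases H85.RootInv.tri hD hyD hk1.1 with h3 | h3 | h3
    · exact absurd h3 (H85.RootInv.line_not_comm hD hbk hk1.1 hyD hyb1.symm hbyD)
    · exact absurd h3 hk2
    · exact H85.RootInv.fourP_symm hD hyD h3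
  obtain ⟨x, hx, hxy⟩ := H85.RootInv.NM_surj hD hk1.1 hbk (b := y) ⟨hy4, hyb1.symm, hbyD⟩
  have hxD : x ∈ D := hx.1.1
  refine ⟨x, hx.1, ?_⟩
  have hxy1 : Commute x y := by rw [← hxy]; exact H85.RootInv.four_comm_right hD hbD hx.1
  have e1 : a * y * a = y * b := by
    have h3 : a * y * a = b * y := by
      rw [← hyb]; exact H85.RootInv.four_conj_right hD hyD
    rw [h3, hyb1.eq]
  have e2 : x * b * x = b * y := by
    have h3 := H85.RootInv.four_conj_left (a := b) (b := x) hD hbD
    rw [hxy] at h3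
    exact h3
  have hne : b ≠ y := by
    intro h3
    apply H85.RootInv.not_comm_of_four hD ha hy.1
    rw [← h3]; exact hab
  exact H85.RootInv.R3 hD ha hxD hbD hab hne hyb1.symm e1 hxy1 e2 hbaD

end Cfsg.Agent.S5047
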