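import Cfsg.Statements.S5048
import Cfsg.Agent.Lib.H85.RootInv4

set_option autoImplicit false
open Cfsg

namespace Cfsg.Agent.S5048

/-- Let G be a finite group generated by a set D of root involutions whose odd-order-product graph is connected, with some product of two different commuting members of D again in D. Then the largest solvable normal subgroup of G is the preimage of the centre of G/O₂(G), and the quotient of G by it is a simple group. -/
theorem result {G : Type*} [Group G] [Finite G] {D : Set G} (hD : Cfsg.IsRootInvolutionSet D)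
    (hc : Cfsg.IsConnectedSet (Cfsg.OddAdj D) D) (hDD : (D ∩ Cfsg.commutingProducts D).Nonempty) :
    Cfsg.solvableRadical G = Cfsg.twoZCore G ∧ IsSimpleGroup (G ⧸ Cfsg.twoZCore G) := by
  have hns := H85.RootInv.not_solvable hD hc hDD
  have hZ : Group.IsSolvable (Cfsg.twoZCore G) := H85.RootInv.twoZCore_solvable
  have hsolTop : ∀ N : Subgroup G, Group.IsSolvable N → N ≠ ⊤ := by
    rintro N hN rfl
    apply hns
    exact Group.isSolvable_of_surjective (f := (⊤ : Subgroup G).subtype)
      (fun x => ⟨⟨x, Subgroup.mem_top x⟩, rfl⟩)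
  refine ⟨?_, ?_⟩
  · apply le_antisymm
    · apply sSup_le
      rintro N ⟨hN, hNs⟩
      exact H85.RootInv.normal_le_twoZCore hD hc hDD hN (hsolTop N hNs)
    · exact le_sSup ⟨inferInstance, hZ⟩
  · have hne : Cfsg.twoZCore G ≠ ⊤ := hsolTop _ hZ
    have hnt : Nontrivial (G ⧸ Cfsg.twoZCore G) := QuotientGroup.nontrivial_iff.2 hne
    refine ⟨fun N hN => ?_⟩
    set M := N.comap (QuotientGroup.mk' (Cfsg.twoZCore G)) with hM
    have hMn : M.Normal := hN.comap _
    have hmap : M.map (QuotientGroup.mk' (Cfsg.twoZCore G)) = N :=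
      Subgroup.map_comap_eq_self_of_surjective (QuotientGroup.mk'_surjective _) N
    by_cases h : M = ⊤
    · right
      rw [← hmap, h, ← MonoidHom.range_eq_map]
      exact MonoidHom.range_eq_top.2 (QuotientGroup.mk'_surjective _)
    · left
      have hle := H85.RootInv.normal_le_twoZCore hD hc hDD hMn h
      rw [← hmap, eq_bot_iff]
      rintro _ ⟨x, hx, rfl⟩
      exact (QuotientGroup.eq_one_iff x).2 (hle hx)

end Cfsg.Agent.S5048
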