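import Cfsg.Statements.S5049
import Cfsg.Agent.Lib.H85.RootInv

set_option autoImplicit false
open Cfsg

namespace Cfsg.Agent.S5049

/-- Let G be a finite group generated by a set D of odd transpositions (root involutions with no product of order 4), Q = O₂(G), and for a ∈ D let Q_a be the commutator subgroup of Q with a. Then every member of D commuting with a centralizes Q_a; and for b ∈ D with ab of odd order greater than 1, the centralizer of ab in Q is the intersection of the centralizers of a and b in Q. -/
theorem result {G : Type*} [Group G] [Finite G] {D : Set G} (hD : Cfsg.IsOddTranspositionSet D) {a : G} (ha : a ∈ D) :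
    (∀ e ∈ Cfsg.commutingMembers D a, ∀ q ∈ ⁅Cfsg.pCore 2 G, Subgroup.zpowers a⁆, e * q = q * e) ∧
    (∀ b ∈ Cfsg.oddPartners D a,
      Cfsg.pCore 2 G ⊓ Subgroup.centralizer {a * b} = Cfsg.pCore 2 G ⊓ Subgroup.centralizer {a} ⊓ Subgroup.centralizer {b}) := by
  have hR := hD.1
  have key : ∀ c ∈ D, ∀ e ∈ D, Commute e c → ∀ q ∈ Cfsg.pCore 2 G,
      Commute e (q * c * q⁻¹ * c⁻¹) := fun c hc e he hec q hq =>
    (H85.RootInv.odd_comm_conj hD hc he hec hq).mul_right hec.inv_right
  refine ⟨?_, ?_⟩
  · intro e he q hq
    have hle : ⁅Cfsg.pCore 2 G, Subgroup.zpowers a⁆ ≤ Subgroup.centralizer {e} := by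
      rw [Subgroup.commutator_le]
      intro x hx y hy
      rw [Subgroup.mem_centralizer_iff]
      intro g hg
      rw [Set.mem_singleton_iff] at hg
      subst hg
      obtain ⟨n, rfl⟩ := Subgroup.mem_zpowers_iff.1 hy
      have haa := H85.RootInv.sq hR ha
      rcases Int.even_or_odd' n with ⟨m, rfl | rfl⟩
      · have h1 : a ^ (2 * m) = 1 := by
          rw [zpow_mul, zpow_ofNat, pow_two, haa, one_zpow]
        rw [h1, commutatorElement_one_right, mul_one, one_mul]
      · have h1 : a ^ (2 * m + 1) = a := by
          rw [zpow_add, zpow_mul, zpow_ofNat, pow_two, haa, one_zpow, one_mul, zpow_one]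
        rw [h1, commutatorElement_def]
        exact (key a ha g he.1 he.2 x hx).eq
    have := Subgroup.mem_centralizer_iff.1 (hle hq) e rfl
    exact this
  · intro b hb
    have hbD := hb.1
    have haa := H85.RootInv.sq hR ha
    ext q
    simp only [Subgroup.mem_inf, Subgroup.mem_centralizer_iff, Set.mem_singleton_iff, forall_eq]
    constructor
    · rintro ⟨hq, hc⟩
      have hc' : Commute (a * b) q := hc
      set r := q * a * q⁻¹ * a⁻¹ with hr
      have h1 : Commute a r := key a ha a ha (Commute.refl a) q hq
      have h2 : r = q * b * q⁻¹ * b⁻¹ := by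
        have e1 : b = a * (a * b) := by rw [← mul_assoc, haa, one_mul]
        have e2 : q⁻¹ * (a * b) * q = a * b := by
          rw [mul_assoc, hc'.eq]; group
        have e3 : q * b * q⁻¹ = q * a * q⁻¹ * (a * b) := by
          nth_rewrite 1 [e1]
          have e4 : (a * b) * q⁻¹ = q⁻¹ * (a * b) := (hc'.inv_right).eq
          calc q * (a * (a * b)) * q⁻¹ = q * a * ((a * b) * q⁻¹) := by group
            _ = q * a * q⁻¹ * (a * b) := by rw [e4]; group
        rw [e3, hr, H85.RootInv.inv_eq hR ha]
        group
      have h3 : Commute b r := by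
        rw [h2]; exact key b hbD b hbD (Commute.refl b) q hq
      have h4 : r * a ∈ D := by
        have : r * a = q * a * q⁻¹ := by rw [hr]; group
        rw [this]; exact hR.conj_mem a ha q
      have h5 : r = 1 := H85.RootInv.L1 hR ha hb h1.symm h3.symm h4
      refine ⟨⟨hq, ?_⟩, ?_⟩
      · have : q * a * q⁻¹ * a⁻¹ = 1 := h5
        rw [mul_inv_eq_one, mul_inv_eq_iff_eq_mul] at this
        exact this.symm
      · have : q * b * q⁻¹ * b⁻¹ = 1 := by rw [← h2]; exact h5
        rw [mul_inv_eq_one, mul_inv_eq_iff_eq_mul] at this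
        exact this.symm
    · rintro ⟨⟨hq, h1⟩, h2⟩
      refine ⟨hq, ?_⟩
      have h1' : Commute a q := h1
      exact (h1'.mul_left h2).eq

end Cfsg.Agent.S5049
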