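import Cfsg.Statements.S5057

set_option autoImplicit false
open Cfsg

namespace Cfsg.Agent.S5057

/-- The involutions of the alternating group of degree 6 form a class of root involutions (a single conjugacy class of involutions generating the group, any two of which commute, have product of odd order, or have product of order 4 whose square is again an involution of the class), and the product of any two of them has order at most 5. -/
theorem result :
    Cfsg.IsRootInvolutionClass {g : ↥(alternatingGroup (Fin 6)) | orderOf g = 2} ∧
    ∀ d ∈ {g : ↥(alternatingGroup (Fin 6)) | orderOf g = 2}, ∀ e ∈ {g : ↥(alternatingGroup (Fin 6)) | orderOf g = 2},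
      orderOf (d * e) ≤ 5 := by
  have hm : ∀ l : List ℕ, (∀ x ∈ l, 2 ≤ x) → l.sum ≤ 6 → Even (l.sum + l.length) →
      (l : Multiset ℕ).lcm ≤ 5 ∧ ((l : Multiset ℕ).lcm = 2 → (l : Multiset ℕ) = {2, 2}) := by
    intro l h2 hs he
    match l, h2, hs, he with
    | [], _, _, _ => simp
    | [a], h2, hs, he =>
      simp only [List.sum_cons, List.sum_nil, List.length_cons, List.length_nil] at hs he
      have ha := h2 a (by simp)
      have : a ≤ 6 := by omega
      interval_cases a <;> first | (exact absurd he (by decide)) | decide
    | [a, b], h2, hs, he =>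
      simp only [List.sum_cons, List.sum_nil, List.length_cons, List.length_nil] at hs he
      have ha := h2 a (by simp)
      have hb := h2 b (by simp)
      have : a ≤ 4 := by omega
      have : b ≤ 4 := by omega
      interval_cases a <;> interval_cases b <;>
        first | (exact absurd hs (by decide)) | (exact absurd he (by decide)) | decide
    | [a, b, c], h2, hs, he =>
      simp only [List.sum_cons, List.sum_nil, List.length_cons, List.length_nil] at hs he
      have ha := h2 a (by simp)
      have hb := h2 b (by simp)
      have hc := h2 c (by simp)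
      have : a = 2 := by omega
      have : b = 2 := by omega
      have : c = 2 := by omega
      subst_vars
      exact absurd he (by decide)
    | a :: b :: c :: d :: t, h2, hs, he =>
      simp only [List.sum_cons] at hs
      have ha := h2 a (by simp)
      have hb := h2 b (by simp)
      have hc := h2 c (by simp)
      have hd := h2 d (by simp)
      omega
  have key : ∀ g : ↥(alternatingGroup (Fin 6)), orderOf g ≤ 5 ∧
      (orderOf g = 2 → (g : Equiv.Perm (Fin 6)).cycleType = {2, 2}) := by
    intro g
    have hs : Equiv.Perm.sign (g : Equiv.Perm (Fin 6)) = 1 := Equiv.Perm.mem_alternatingGroup.1 g.2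
    have he : Even ((g : Equiv.Perm (Fin 6)).cycleType.sum +
        Multiset.card (g : Equiv.Perm (Fin 6)).cycleType) := by
      rw [Equiv.Perm.sign_of_cycleType] at hs
      rcases Nat.even_or_odd ((g : Equiv.Perm (Fin 6)).cycleType.sum +
        Multiset.card (g : Equiv.Perm (Fin 6)).cycleType) with h | h
      · exact h
      · rw [h.neg_one_pow] at hs
        exact absurd hs (by decide)
    have hsum := Equiv.Perm.sum_cycleType_le (g : Equiv.Perm (Fin 6))
    have h2 : ∀ x ∈ (g : Equiv.Perm (Fin 6)).cycleType, 2 ≤ x := fun x hx =>
      Equiv.Perm.two_le_of_mem_cycleType hx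
    have hord : (g : Equiv.Perm (Fin 6)).cycleType.lcm = orderOf g := by
      rw [Equiv.Perm.lcm_cycleType, Subgroup.orderOf_coe]
    rw [← hord]
    generalize (g : Equiv.Perm (Fin 6)).cycleType = m at *
    induction m using Quotient.inductionOn with
    | h l =>
      exact hm l (fun x hx => h2 x hx) (by simpa using hsum) (by simpa using he)
  have hpos : ∀ g : ↥(alternatingGroup (Fin 6)), 0 < orderOf g := fun g => orderOf_pos g
  refine ⟨⟨⟨fun d hd => hd, ?_, ?_, ?_⟩, ?_, ?_⟩, fun d _ e _ => (key _).1⟩
  · -- generation
    rw [eq_top_iff, ← alternatingGroup.closure_cycleType_eq_two_two_eq_top (α := Fin 6) (by simp)]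
    apply Subgroup.closure_mono
    intro g hg
    show orderOf g = 2
    rw [← Subgroup.orderOf_coe, ← Equiv.Perm.lcm_cycleType, show
      (g : Equiv.Perm (Fin 6)).cycleType = {2, 2} from hg]
    decide
  · intro d hd g
    show orderOf (g * d * g⁻¹) = 2
    have h1 : g * d * g⁻¹ = (MulAut.conj g) d := rfl
    rw [h1, MulEquiv.orderOf_eq]
    exact hd
  · intro a ha b hb
    have ha2 : a * a = 1 := by rw [← pow_two, ← show orderOf a = 2 from ha, pow_orderOf_eq_one]
    have hb2 : b * b = 1 := by rw [← pow_two, ← show orderOf b = 2 from hb, pow_orderOf_eq_one]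
    have h1 := (key (a * b)).1
    have h2 := hpos (a * b)
    have h3 : orderOf (a * b) = 1 ∨ orderOf (a * b) = 2 ∨ orderOf (a * b) = 3 ∨
      orderOf (a * b) = 4 ∨ orderOf (a * b) = 5 := by omega
    rcases h3 with h | h | h | h | h
    · left
      have h4 : a * b = 1 := orderOf_eq_one_iff.1 h
      have h5 : a = b := by
        rw [← mul_one a, ← hb2, ← mul_assoc, h4, one_mul]
      rw [h5]
    · left
      have h4 : (a * b) * (a * b) = 1 := by rw [← pow_two, ← h, pow_orderOf_eq_one]
      have h5 : (a * b)⁻¹ = a * b := inv_eq_of_mul_eq_one_left h4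
      rw [← h5, mul_inv_rev, inv_eq_of_mul_eq_one_left ha2, inv_eq_of_mul_eq_one_left hb2]
    · right; left; rw [h]; decide
    · right; right
      refine ⟨h, ?_⟩
      show orderOf ((a * b) ^ 2) = 2
      rw [orderOf_pow, h]
      decide
    · right; left; rw [h]; decide
  · refine ⟨⟨Equiv.swap 0 1 * Equiv.swap 2 3, ?_⟩, ?_⟩
    · rw [Equiv.Perm.mem_alternatingGroup]; decide
    · show orderOf _ = 2
      apply orderOf_eq_prime
      · apply Subtype.ext
        decide
      · intro h
        have := congrArg (fun g : ↥(alternatingGroup (Fin 6)) => (g : Equiv.Perm (Fin 6)) 0) h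
        exact absurd this (by decide)
  · intro a ha b hb
    have h1 := (key a).2 ha
    have h2 := (key b).2 hb
    have h3 : IsConj a b := by
      apply alternatingGroup.isConj_of (Equiv.Perm.isConj_iff_cycleType_eq.2 (h1.trans h2.symm))
      rw [← Equiv.Perm.sum_cycleType, h1]
      decide
    obtain ⟨c, hc⟩ := isConj_iff.1 h3
    exact ⟨c, hc.symm⟩

end Cfsg.Agent.S5057
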