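import Cfsg.Statements.S5060
import Cfsg.Agent.Lib.H86.SLTwoGen

set_option autoImplicit false
open Cfsg

namespace Cfsg.Agent.S5060

/-- Let k ⊆ K be fields with the characteristic of k not 2 and k not of order 3, and let α ∈ K be a non-zero element algebraic over k. Then the subgroup of SL₂(K) generated by the upper unitriangular matrices with entry c and the lower unitriangular matrices with entry cα, c ranging over k, is exactly the group of matrices of SL₂(K) with all entries in k(α). -/
theorem result {k K : Type*} [Field k] [Field K] [Algebra k K] (hk2 : ringChar k ≠ 2) (hk3 : Nat.card k ≠ 3)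
    (α : K) (hα : IsAlgebraic k α) (hα0 : α ≠ 0) :
    (Subgroup.closure ({g : Matrix.SpecialLinearGroup (Fin 2) K | ∃ c : k, (g : Matrix (Fin 2) (Fin 2) K) = !![1, algebraMap k K c; 0, 1]} ∪
        {g : Matrix.SpecialLinearGroup (Fin 2) K | ∃ c : k, (g : Matrix (Fin 2) (Fin 2) K) = !![1, 0; algebraMap k K c * α, 1]}) :
      Set (Matrix.SpecialLinearGroup (Fin 2) K)) =
    {g : Matrix.SpecialLinearGroup (Fin 2) K | ∀ i j : Fin 2, (g : Matrix (Fin 2) (Fin 2) K) i j ∈ IntermediateField.adjoin k ({α} : Set K)} := by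
  classical
  have h2k : (2 : k) ≠ 0 := by
    intro h
    apply hk2
    have hdvd : ringChar k ∣ 2 := (ringChar.spec k 2).1 (by exact_mod_cast h)
    rcases (Nat.dvd_prime Nat.prime_two).1 hdvd with h1 | h1
    · exact absurd h1 (CharP.ringChar_ne_one)
    · exact h1
  have hint : IsIntegral k α := hα.isIntegral
  set L := IntermediateField.adjoin k ({α} : Set K) with hL
  have hαL : α ∈ L := IntermediateField.mem_adjoin_simple_self k α
  let l : L := ⟨α, hαL⟩
  have hl0 : l ≠ 0 := fun h => hα0 (congrArg Subtype.val h)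
  have hl : IsIntegral k l := by
    have : algebraMap L K l = α := rfl
    rw [← this] at hint
    exact (isIntegral_algebraMap_iff (algebraMap L K).injective).1 hint
  have htop : ∀ y : L, ∃ x : Polynomial k, Polynomial.aeval l x = y := by
    intro y
    have hy : (y : K) ∈ Algebra.adjoin k ({α} : Set K) := by
      rw [← IntermediateField.adjoin_simple_toSubalgebra_of_isAlgebraic hα]
      exact y.2
    rw [Algebra.adjoin_singleton_eq_range_aeval] at hy
    obtain ⟨x, hx⟩ := hy
    refine ⟨x, ?_⟩
    apply Subtype.ext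
    have h1 : ((Polynomial.aeval l x : L) : K) = Polynomial.aeval α x := by
      have := Polynomial.aeval_algebraMap_apply K l x
      exact this.symm
    rw [h1]
    exact hx
  have hgen := H86.SLTwoGen.gen_eq_top h2k hk3 hl hl0 htop
  let φ : Matrix.SpecialLinearGroup (Fin 2) L →* Matrix.SpecialLinearGroup (Fin 2) K :=
    Matrix.SpecialLinearGroup.map (algebraMap L K)
  have hφ : ∀ (g : Matrix.SpecialLinearGroup (Fin 2) L) (i j : Fin 2),
      (φ g : Matrix (Fin 2) (Fin 2) K) i j = ((g : Matrix (Fin 2) (Fin 2) L) i j : K) :=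
    fun g i j => rfl
  set S := Subgroup.closure ({g : Matrix.SpecialLinearGroup (Fin 2) K | ∃ c : k, (g : Matrix (Fin 2) (Fin 2) K) = !![1, algebraMap k K c; 0, 1]} ∪
        {g : Matrix.SpecialLinearGroup (Fin 2) K | ∃ c : k, (g : Matrix (Fin 2) (Fin 2) K) = !![1, 0; algebraMap k K c * α, 1]}) with hS
  have hup : ∀ c : k, ((φ (H98.DicksonField.up (algebraMap k L c)) :
      Matrix.SpecialLinearGroup (Fin 2) K) : Matrix (Fin 2) (Fin 2) K) =
      !![1, algebraMap k K c; 0, 1] := by
    intro c
    ext i j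
    rw [hφ, H98.DicksonField.coe_up]
    fin_cases i <;> fin_cases j <;> simp <;> rfl
  have hlo : ∀ c : k, ((φ (H98.DicksonField.lo (algebraMap k L c * l)) :
      Matrix.SpecialLinearGroup (Fin 2) K) : Matrix (Fin 2) (Fin 2) K) =
      !![1, 0; algebraMap k K c * α, 1] := by
    intro c
    ext i j
    rw [hφ, H98.DicksonField.coe_lo]
    fin_cases i <;> fin_cases j
    · simp
    · simp
    · simp [l]
    · simp
  have heq : S = φ.range := by
    apply le_antisymm
    · rw [hS, Subgroup.closure_le]
      rintro g (⟨c, hc⟩ | ⟨c, hc⟩)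
      · exact ⟨_, Subtype.ext ((hup c).trans hc.symm)⟩
      · exact ⟨_, Subtype.ext ((hlo c).trans hc.symm)⟩
    · rw [MonoidHom.range_eq_map, ← hgen, Subgroup.map_le_iff_le_comap]
      unfold H86.SLTwoGen.gen
      rw [Subgroup.closure_le]
      rintro g (⟨c, rfl⟩ | ⟨c, rfl⟩)
      · exact Subgroup.subset_closure (Or.inl ⟨c, hup c⟩)
      · exact Subgroup.subset_closure (Or.inr ⟨c, hlo c⟩)
  rw [heq]
  ext g
  constructor
  · rintro ⟨g', rfl⟩ i j
    rw [hφ]
    exact SetLike.coe_mem _
  · intro hg
    have hg' : ∀ i j : Fin 2, (g : Matrix (Fin 2) (Fin 2) K) i j ∈ L := hg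
    let m : Matrix (Fin 2) (Fin 2) L := fun i j => ⟨(g : Matrix (Fin 2) (Fin 2) K) i j, hg' i j⟩
    have hm : m.det = 1 := by
      apply (algebraMap L K).injective
      rw [map_one, RingHom.map_det]
      exact g.2
    refine ⟨⟨m, hm⟩, ?_⟩
    apply Subtype.ext
    ext i j
    rfl

end Cfsg.Agent.S5060
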