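import Cfsg.Statements.S5061
import Cfsg.Agent.Lib.H86.Unip

set_option autoImplicit false
open Cfsg

namespace Cfsg.Agent.S5061

/-- Let M be a finite-dimensional vector space over a field k, G ≤ GL(M), and 𝒲 a set of subgroups of G, invariant under conjugation by G, such that any two members of 𝒲 generate a subgroup acting unipotently on M (for some n all products of n endomorphisms g − 1 from it vanish). Then the subgroup generated by all members of 𝒲 acts unipotently on M and is normal in G. -/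
theorem result {k : Type*} [Field k] {M : Type*} [AddCommGroup M] [Module k M] [FiniteDimensional k M]
    {G : Subgroup (LinearMap.GeneralLinearGroup k M)} {W : Set (Subgroup (LinearMap.GeneralLinearGroup k M))} (hWG : ∀ A ∈ W, A ≤ G)
    (hWW : ∀ A ∈ W, ∀ B ∈ W, Cfsg.IsUnipotentOn (A ⊔ B)) (hWconj : ∀ A ∈ W, ∀ g ∈ G, Cfsg.conjBy A g ∈ W) :
    Cfsg.IsUnipotentOn (⨆ A ∈ W, A) ∧ ∀ g ∈ G, Cfsg.conjBy (⨆ A ∈ W, A) g = ⨆ A ∈ W, A := by
  refine ⟨H86.Unip.baer_suzuki hWW fun B hB g hg A hA => hWconj A hA g (hWG B hB hg), ?_⟩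
  have key : ∀ g ∈ G, Cfsg.conjBy (⨆ A ∈ W, A) g ≤ ⨆ A ∈ W, A := by
    rintro g hg _ ⟨x, hx, rfl⟩
    refine H86.Unip.jn_induction (D := W) (P := fun x => (MulAut.conj g).toMonoidHom x ∈ ⨆ A ∈ W, A)
      ?_ ?_ ?_ hx
    · intro A hA x hx
      exact H86.Unip.le_jn (hWconj A hA g hg) ⟨x, hx, rfl⟩
    · rw [map_one]; exact one_mem _
    · intro x y hx hy
      rw [map_mul]; exact mul_mem hx hy
  intro g hg
  apply le_antisymm (key g hg)
  intro x hx
  rw [H86.Unip.mem_conjBy]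
  have := key g⁻¹ (inv_mem hg) (show (MulAut.conj g⁻¹).toMonoidHom x ∈ _ from ⟨x, hx, rfl⟩)
  have e : (MulAut.conj g⁻¹).toMonoidHom x = g⁻¹ * x * g := by
    show g⁻¹ * x * g⁻¹⁻¹ = _
    rw [inv_inv]
  rwa [e] at this

end Cfsg.Agent.S5061
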