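import Cfsg.Statements.S5063
import Cfsg.Agent.Lib.H86.Quad23

set_option autoImplicit false
universe u
open Cfsg
open H86.Quad1 H86.FinSL H86.Quad2 H86.Quad3 H86.Quad4 H86.Quad5 H86.Quad6 H86.Quad7 H86.Quad8 H86.Quad9 H86.Quad10 H86.Quad11 H86.Quad12 H86.Quad13 H86.Quad14 H86.Quad15 H86.Quad16 H86.Quad17 H86.Quad18 H86.Quad19 H86.Quad20 H86.Quad21 H86.Quad22 H86.Quad23 H86.Unip
open scoped commutatorElement

namespace Cfsg.Agent.S5063

/-- Let k be a field of characteristic not 2 with k not of order 3, M a finite-dimensional k-vector space and G ≤ GL(M) such that (G, M) is a quadratic pair (M irreducible for G, and G generated by its quadratically acting elements σ whose scalar family 1 + c(σ − 1), c ∈ k, lies in G). Write 𝒬_d for the quadratic elements of G of minimal commutator rank, E(σ) for the subgroup generated by the members of 𝒬_d with the same fixed space and commutator space as σ, and Σ for the set of these subgroups. Then G is a central product of finitely many quasisimple normal subgroups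 G₁, …, G_s (pairwise commuting and together generating G), each generated by the quadratic elements of G it contains, and every quadratic element of G lies in one of them. -/
theorem result {k : Type u} [Field k] (hk2 : ringChar k ≠ 2) (hk3 : Nat.card k ≠ 3)
    {M : Type u} [AddCommGroup M] [Module k M] [FiniteDimensional k M]
    {G : Subgroup (LinearMap.GeneralLinearGroup k M)} (hG : Cfsg.IsQuadraticPair G) :
    ∃ (s : ℕ) (Gi : Fin s → Subgroup (LinearMap.GeneralLinearGroup k M)),
      (∀ i, Gi i ≤ G ∧ ∀ g ∈ G, Cfsg.conjBy (Gi i) g = Gi i) ∧ (∀ i j, i ≠ j → ⁅Gi i, Gi j⁆ = ⊥) ∧ (⨆ i, Gi i) = G ∧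
      (∀ i, Cfsg.IsQuasisimple ↥(Gi i) ∧ Subgroup.closure (Cfsg.quadraticElements G ∩ (Gi i : Set (LinearMap.GeneralLinearGroup k M))) = Gi i) ∧
      Cfsg.quadraticElements G ⊆ ⋃ i, (Gi i : Set (LinearMap.GeneralLinearGroup k M)) := by
  haveI : Good k := good_of hk2 hk3
  obtain ⟨F, hF, h1, h2, h3⟩ := dec hG
  haveI := hF.to_subtype
  let e := Finite.equivFin F
  refine ⟨Nat.card F, fun i => (e.symm i).1, ?_, ?_, ?_, ?_, ?_⟩
  · intro i
    obtain ⟨i1, i2, i3, i4⟩ := h1 _ (e.symm i).2
    refine ⟨i1, fun g hg => ?_⟩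
    apply le_antisymm
    · rintro _ ⟨x, hx, rfl⟩
      exact i2 g hg x hx
    · intro x hx
      rw [H86.Unip.mem_conjBy]
      have := i2 g⁻¹ (inv_mem hg) x hx
      rwa [inv_inv] at this
  · intro i j hij
    apply h2 _ (e.symm i).2 _ (e.symm j).2
    intro h
    exact hij (e.symm.injective (Subtype.ext h))
  · apply le_antisymm
    · exact iSup_le fun i => (h1 _ (e.symm i).2).1
    · conv_lhs => rw [← hG.2]
      rw [Subgroup.closure_le]
      intro x hx
      obtain ⟨K, hK, hxK⟩ := h3 x hx
      have h4 : K = (e.symm (e ⟨K, hK⟩)).1 := by rw [Equiv.symm_apply_apply]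
      rw [h4] at hxK
      exact (le_iSup (fun i => (e.symm i).1) (e ⟨K, hK⟩)) hxK
  · intro i
    obtain ⟨i1, i2, i3, i4⟩ := h1 _ (e.symm i).2
    exact ⟨i3, i4⟩
  · intro x hx
    obtain ⟨K, hK, hxK⟩ := h3 x hx
    rw [Set.mem_iUnion]
    refine ⟨e ⟨K, hK⟩, ?_⟩
    show x ∈ (e.symm (e ⟨K, hK⟩)).1
    rw [Equiv.symm_apply_apply]
    exact hxK

end Cfsg.Agent.S5063
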