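import Cfsg.Statements.S5064
import Cfsg.Agent.Lib.H86.Quad5

set_option autoImplicit false
universe u
open Cfsg
open H86.Quad1 H86.FinSL H86.Quad2 H86.Quad3 H86.Quad4 H86.Quad5 H86.Unip

namespace Cfsg.Agent.S5064

/-- Let k be a field of characteristic not 2 with k not of order 3, M a finite-dimensional k-vector space and G ≤ GL(M) such that (G, M) is a quadratic pair (M irreducible for G, and G generated by its quadratically acting elements σ whose scalar family 1 + c(σ − 1), c ∈ k, lies in G). Write 𝒬_d for the quadratic elements of G of minimal commutator rank, E(σ) for the subgroup generated by the members of 𝒬_d with the same fixed space and commutator space as σ, and Σ for the set of these subgroups. If σ, τ ∈ 𝒬_d and the subgroup H generated by their two scalar families does not act unipotently on M, then H is isomorphic to SL₂ over a simple algebraic extension k(λ) of k. -/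
theorem result {k : Type u} [Field k] (hk2 : ringChar k ≠ 2) (hk3 : Nat.card k ≠ 3)
    {M : Type u} [AddCommGroup M] [Module k M] [FiniteDimensional k M]
    {G : Subgroup (LinearMap.GeneralLinearGroup k M)} (hG : Cfsg.IsQuadraticPair G)
    {σ τ : LinearMap.GeneralLinearGroup k M} (hσ : σ ∈ Cfsg.minimalQuadraticElements G) (hτ : τ ∈ Cfsg.minimalQuadraticElements G)
    (hH : ¬ Cfsg.IsUnipotentOn (Subgroup.closure (Cfsg.scalarFamily σ ∪ Cfsg.scalarFamily τ))) :
    ∃ (K : Type u) (_ : Field K) (_ : Algebra k K) (lam : K), IsAlgebraic k lam ∧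
      IntermediateField.adjoin k ({lam} : Set K) = ⊤ ∧
      Nonempty (↥(Subgroup.closure (Cfsg.scalarFamily σ ∪ Cfsg.scalarFamily τ)) ≃* Matrix.SpecialLinearGroup (Fin 2) K) := by
  classical
  have h2k : (2 : k) ≠ 0 := by
    intro h
    apply hk2
    have hdvd : ringChar k ∣ 2 := (ringChar.spec k 2).1 (by exact_mod_cast h)
    rcases (Nat.dvd_prime Nat.prime_two).1 hdvd with h1 | h1
    · exact absurd h1 (CharP.ringChar_ne_one)
    · exact h1
  obtain ⟨a, ha, rfl⟩ := mem_minimal_iff.1 hσ
  obtain ⟨t, ht, rfl⟩ := mem_minimal_iff.1 hτ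
  have hcl : Subgroup.closure (Cfsg.scalarFamily (tv a : LinearMap.GeneralLinearGroup k M) ∪
      Cfsg.scalarFamily (tv t : LinearMap.GeneralLinearGroup k M)) = pairGroup k a t := by
    rw [scalarFamily_tv ha.1.1, scalarFamily_tv ht.1.1]
    rfl
  rw [hcl] at hH ⊢
  have hn : ¬ IsNilpotent (a * t) := fun h => hH (unip_pair ha.1.1 ht.1.1 h)
  obtain ⟨D⟩ := star h2k hk3 ha ht.1 hn
  haveI : Fact (Irreducible D.F) := ⟨D.irr⟩
  have hF0 : D.F ≠ 0 := D.irr.ne_zero
  refine ⟨AdjoinRoot D.F, inferInstance, inferInstance, AdjoinRoot.root D.F, ?_, ?_, ?_⟩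
  · exact (AdjoinRoot.isAlgebraic_root hF0)
  · exact IntermediateField.adjoin_root_eq_top D.F
  · have h1 := Sys.Ψ_injective D.σ (faith_a D.σ D.inj)
    have h2 := SD.range_Ψ D (SD.one_t D ha.1 ht)
    have e := MonoidHom.ofInjective h1
    rw [h2] at e
    exact ⟨e.symm⟩

end Cfsg.Agent.S5064
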