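import Cfsg.Statements.S5065
import Cfsg.Agent.Lib.H86.Quad9

set_option autoImplicit false
universe u
open Cfsg
open H86.Quad1 H86.FinSL H86.Quad2 H86.Quad3 H86.Quad4 H86.Quad5 H86.Quad6 H86.Quad7 H86.Quad8 H86.Quad9 H86.Unip

namespace Cfsg.Agent.S5065

/-- Let k be a field of characteristic not 2 with k not of order 3, M a finite-dimensional k-vector space and G ≤ GL(M) such that (G, M) is a quadratic pair (M irreducible for G, and G generated by its quadratically acting elements σ whose scalar family 1 + c(σ − 1), c ∈ k, lies in G). Write 𝒬_d for the quadratic elements of G of minimal commutator rank, E(σ) for the subgroup generated by the members of 𝒬_d with the same fixed space and commutator space as σ, and Σ for the set of these subgroups. For σ, τ ∈ 𝒬_d put A = E(σ), B = E(τ) and X = ⟨A, B⟩. Then either X acts unipotently on M, or A and B are the unipotent subgroups of a special rank one group X; in the latter case X contains exactly one central involution acting as −1 on the commutator space [M, X]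 and trivially on the fixed space C_M(X), and M is the direct sum of C_M(X) and [M, X]. -/
theorem result {k : Type u} [Field k] (hk2 : ringChar k ≠ 2) (hk3 : Nat.card k ≠ 3)
    {M : Type u} [AddCommGroup M] [Module k M] [FiniteDimensional k M]
    {G : Subgroup (LinearMap.GeneralLinearGroup k M)} (hG : Cfsg.IsQuadraticPair G)
    {σ τ : LinearMap.GeneralLinearGroup k M} (hσ : σ ∈ Cfsg.minimalQuadraticElements G) (hτ : τ ∈ Cfsg.minimalQuadraticElements G) :
    Cfsg.IsUnipotentOn (Cfsg.sameActionSubgroup G σ ⊔ Cfsg.sameActionSubgroup G τ) ∨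
    (Cfsg.IsSpecialRankOnePair (Cfsg.sameActionSubgroup G σ) (Cfsg.sameActionSubgroup G τ) ∧
      (∃! i : LinearMap.GeneralLinearGroup k M, i ∈ Cfsg.sameActionSubgroup G σ ⊔ Cfsg.sameActionSubgroup G τ ∧ i ≠ 1 ∧ i * i = 1 ∧
        (∀ x ∈ Cfsg.sameActionSubgroup G σ ⊔ Cfsg.sameActionSubgroup G τ, i * x = x * i) ∧
        (∀ m ∈ Cfsg.commutatorSubmodule (Cfsg.sameActionSubgroup G σ ⊔ Cfsg.sameActionSubgroup G τ), (i : M →ₗ[k] M) m = -m) ∧
        (∀ m ∈ Cfsg.fixedSubmodule (Cfsg.sameActionSubgroup G σ ⊔ Cfsg.sameActionSubgroup G τ), (i : M →ₗ[k] M) m = m)) ∧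
      IsCompl (Cfsg.fixedSubmodule (Cfsg.sameActionSubgroup G σ ⊔ Cfsg.sameActionSubgroup G τ))
        (Cfsg.commutatorSubmodule (Cfsg.sameActionSubgroup G σ ⊔ Cfsg.sameActionSubgroup G τ))) := by
  haveI : Good k := good_of hk2 hk3
  obtain ⟨a, ha, rfl⟩ := mem_minimal_iff.1 hσ
  obtain ⟨b, hb, rfl⟩ := mem_minimal_iff.1 hτ
  rw [sameActionSubgroup_eq ha, sameActionSubgroup_eq hb]
  by_cases ho : Opp a b
  · right
    obtain ⟨b', hb', hb0, hip⟩ := exists_ip ha hb ho
    have hB := mem_AAd_of_EE hb hb' hb0
    have hfix : Cfsg.fixedSubmodule (Esub G a ha ⊔ Esub G b hb) =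
        LinearMap.ker a ⊓ LinearMap.ker b' := by
      rw [fixed_sup, fixed_Esub, fixed_Esub, EE_ker hb' hb0]
    have hcom : Cfsg.commutatorSubmodule (Esub G a ha ⊔ Esub G b hb) =
        LinearMap.range a ⊔ LinearMap.range b' := by
      rw [commutator_sup, commutator_Esub, commutator_Esub, EE_range hb' hb0]
    have hcompl : IsCompl (Cfsg.fixedSubmodule (Esub G a ha ⊔ Esub G b hb))
        (Cfsg.commutatorSubmodule (Esub G a ha ⊔ Esub G b hb)) := by
      rw [hfix, hcom]; exact hip.isCompl
    refine ⟨isSpecialRankOnePair ha hb ho, ?_, hcompl⟩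
    have hval : ∀ m, (((nU a b' * nU a b' : LinearMap.GeneralLinearGroup k M)) : M →ₗ[k] M) m =
        m - (2 : k) • (a (b' m)) - (2 : k) • (b' (a m)) := by
      intro m
      have h1 : ∀ m, ((nU a b' : (Module.End k M)ˣ) : Module.End k M) m =
          m - a (b' m) - b' (a m) + a m - b' m := by
        intro m; rw [hip.nU_val]; rfl
      rw [Units.val_mul]
      show ((nU a b' : (Module.End k M)ˣ) : Module.End k M)
        (((nU a b' : (Module.End k M)ˣ) : Module.End k M) m) = _
      rw [h1 m, h1]
      simp only [map_add, map_sub, sq_app hip.a2, sq_app hip.b2, hip.aba_app, hip.bab_app, map_zero]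
      module
    have h1c : ∀ m ∈ LinearMap.range a ⊔ LinearMap.range b',
        (((nU a b' * nU a b' : LinearMap.GeneralLinearGroup k M)) : M →ₗ[k] M) m = -m := by
      intro m hm
      obtain ⟨_, ⟨y, rfl⟩, _, ⟨z, rfl⟩, rfl⟩ := Submodule.mem_sup.1 hm
      rw [hval]
      simp only [map_add, map_sub, sq_app hip.a2, sq_app hip.b2, hip.aba_app, hip.bab_app, map_zero]
      module
    have h1f : ∀ m ∈ LinearMap.ker a ⊓ LinearMap.ker b',
        (((nU a b' * nU a b' : LinearMap.GeneralLinearGroup k M)) : M →ₗ[k] M) m = m := by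
      intro m hm
      rw [hval, show a m = 0 from hm.1, show b' m = 0 from hm.2]
      simp
    have hmem : nU a b' ∈ Esub G a ha ⊔ Esub G b hb := by
      unfold nU
      have h1 : tv a ∈ Esub G a ha ⊔ Esub G b hb :=
        Subgroup.mem_sup_left ⟨a, self_mem_EE ha.1, rfl⟩
      have h2 : tv (-b') ∈ Esub G a ha ⊔ Esub G b hb :=
        Subgroup.mem_sup_right ⟨-b', neg_mem_EE hb hb', rfl⟩
      exact mul_mem (mul_mem h1 h2) h1
    refine ⟨nU a b' * nU a b', ⟨mul_mem hmem hmem, ?_, ?_, ?_, ?_, ?_⟩, ?_⟩
    · intro h1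
      obtain ⟨m, hm⟩ : ∃ m, a m ≠ 0 := by
        by_contra hcon
        push Not at hcon
        exact ha.2.1 (LinearMap.ext hcon)
      have h2 := h1c (a m) (Submodule.mem_sup_left ⟨m, rfl⟩)
      rw [h1] at h2
      have h3 : a m = -(a m) := h2
      have h4 : (2 : k) • (a m) = 0 := by
        rw [two_smul]; nth_rw 2 [h3]; exact add_neg_cancel _
      rcases smul_eq_zero.1 h4 with h5 | h5
      · exact Good.two h5
      · exact hm h5
    · apply Units.ext
      apply LinearMap.ext
      intro m
      rw [Units.val_mul]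
      show (((nU a b' * nU a b' : LinearMap.GeneralLinearGroup k M)) : M →ₗ[k] M)
        ((((nU a b' * nU a b' : LinearMap.GeneralLinearGroup k M)) : M →ₗ[k] M) m) = m
      rw [hval m, hval]
      simp only [map_add, map_sub, sq_app hip.a2, sq_app hip.b2, hip.aba_app, hip.bab_app, map_zero,
        map_smul, smul_zero]
      module
    · intro x hx
      -- decompose
      apply Units.ext
      apply LinearMap.ext
      intro m
      rw [Units.val_mul, Units.val_mul]
      show (((nU a b' * nU a b' : LinearMap.GeneralLinearGroup k M)) : M →ₗ[k] M)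
        ((x : M →ₗ[k] M) m) = (x : M →ₗ[k] M)
        ((((nU a b' * nU a b' : LinearMap.GeneralLinearGroup k M)) : M →ₗ[k] M) m)
      have hm : m ∈ (LinearMap.ker a ⊓ LinearMap.ker b') ⊔ (LinearMap.range a ⊔ LinearMap.range b') := by
        rw [(hip.isCompl).sup_eq_top]; trivial
      obtain ⟨n, hn, c, hc, rfl⟩ := Submodule.mem_sup.1 hm
      have hxn : (x : M →ₗ[k] M) n = n := by
        rw [← hfix] at hn
        exact mem_fixed.1 hn x hx
      have hxc : (x : M →ₗ[k] M) c ∈ LinearMap.range a ⊔ LinearMap.range b' := by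
        have h1 := sub_mem_comm hx c
        rw [hcom] at h1
        have := Submodule.add_mem _ h1 hc
        rwa [sub_add_cancel] at this
      rw [map_add, map_add, map_add, map_add, hxn, h1f n hn, h1c _ hxc, h1c c hc, hxn, map_neg]
    · rw [hcom]; exact h1c
    · rw [hfix]; exact h1f
    · rintro i ⟨-, -, -, -, h5, h6⟩
      apply Units.ext
      apply LinearMap.ext
      intro m
      have hm : m ∈ (LinearMap.ker a ⊓ LinearMap.ker b') ⊔ (LinearMap.range a ⊔ LinearMap.range b') := by
        rw [(hip.isCompl).sup_eq_top]; trivial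
      obtain ⟨n, hn, c, hc, rfl⟩ := Submodule.mem_sup.1 hm
      rw [map_add, map_add, h1f n hn, h1c c hc, h6 n (by rw [hfix]; exact hn),
        h5 c (by rw [hcom]; exact hc)]
  · left
    exact np_unip ((np_iff ha hb).2 ho)

end Cfsg.Agent.S5065
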