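import Cfsg.Statements.S5066
import Cfsg.Agent.Lib.H86.Quad14

set_option autoImplicit false
universe u
open Cfsg
open H86.Quad1 H86.FinSL H86.Quad2 H86.Quad3 H86.Quad4 H86.Quad5 H86.Quad6 H86.Quad7 H86.Quad8 H86.Quad9 H86.Quad10 H86.Quad11 H86.Quad12 H86.Quad13 H86.Quad14 H86.Unip
open scoped commutatorElement

namespace Cfsg.Agent.S5066

/-- Let k be a field of characteristic not 2 with k not of order 3, M a finite-dimensional k-vector space and G ≤ GL(M) such that (G, M) is a quadratic pair (M irreducible for G, and G generated by its quadratically acting elements σ whose scalar family 1 + c(σ − 1), c ∈ k, lies in G). Write 𝒬_d for the quadratic elements of G of minimal commutator rank, E(σ) for the subgroup generated by the members of 𝒬_d with the same fixed space and commutator space as σ, and Σ for the set of these subgroups. Let E, F ∈ Σ generate a subgroup that is nilpotent of class exactly two. Then D = ⁅E, F⁆ belongs to Σ, equals the subgroup generated by the commutators of e with F, and also of E with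 f, for every non-identity e ∈ E, f ∈ F, and ⟨E, F⟩ lies in U(D), the set of elements g of G normalizing D with (g − 1)M inside the fixed space of D, (g − 1) mapping that fixed space into the commutator space of D, and g acting trivially on the commutator space of D. -/
theorem result {k : Type u} [Field k] (hk2 : ringChar k ≠ 2) (hk3 : Nat.card k ≠ 3)
    {M : Type u} [AddCommGroup M] [Module k M] [FiniteDimensional k M]
    {G : Subgroup (LinearMap.GeneralLinearGroup k M)} (hG : Cfsg.IsQuadraticPair G)
    {E F : Subgroup (LinearMap.GeneralLinearGroup k M)} (hE : E ∈ Cfsg.quadraticRootSubgroups G) (hF : F ∈ Cfsg.quadraticRootSubgroups G)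
    (h2 : ⁅E ⊔ F, E ⊔ F⁆ ≠ ⊥ ∧ ⁅⁅E ⊔ F, E ⊔ F⁆, E ⊔ F⁆ = ⊥) :
    ⁅E, F⁆ ∈ Cfsg.quadraticRootSubgroups G ∧
    (∀ e ∈ E, e ≠ 1 → Subgroup.closure ((fun f : LinearMap.GeneralLinearGroup k M => e * f * e⁻¹ * f⁻¹) '' (F : Set (LinearMap.GeneralLinearGroup k M))) = ⁅E, F⁆) ∧
    (∀ f ∈ F, f ≠ 1 → Subgroup.closure ((fun e : LinearMap.GeneralLinearGroup k M => e * f * e⁻¹ * f⁻¹) '' (E : Set (LinearMap.GeneralLinearGroup k M))) = ⁅E, F⁆) ∧
    ((E ⊔ F : Subgroup (LinearMap.GeneralLinearGroup k M)) : Set (LinearMap.GeneralLinearGroup k M)) ⊆ Cfsg.quadraticUnipotentCore G ⁅E, F⁆ := by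
  haveI : Good k := good_of hk2 hk3
  obtain ⟨a, ha, rfl⟩ := mem_root_iff.1 hE
  obtain ⟨b, hb, rfl⟩ := mem_root_iff.1 hF
  have h : NP G a b := by
    rw [np_iff ha hb, opp_iff ha hb]
    intro hn
    obtain ⟨D⟩ := star Good.two Good.card ha hb.1 hn
    haveI : Fact (Irreducible D.F) := ⟨D.irr⟩
    have hr := SD.range_Ψ D (SD.one_t D ha.1 hb)
    have hle : pairGroup k a b ≤ Esub G a ha ⊔ Esub G b hb := by
      apply pairGroup_le
      · intro s
        exact Subgroup.mem_sup_left ⟨s • a, smul_mem_EE ha (self_mem_EE ha.1) s, rfl⟩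
      · intro s
        exact Subgroup.mem_sup_right ⟨s • b, smul_mem_EE hb (self_mem_EE hb.1) s, rfl⟩
    obtain ⟨s, hs, hs2⟩ := exists_sq_ne (k := k) Good.two Good.card
    have hperf : ⁅(⊤ : Subgroup (SL2 (AdjoinRoot D.F))), (⊤ : Subgroup (SL2 (AdjoinRoot D.F)))⁆ = ⊤ := by
      apply perfect
      refine ⟨algebraMap k _ s, ?_, ?_⟩
      · intro h0
        exact hs ((algebraMap k (AdjoinRoot D.F)).injective (by rw [h0, map_zero]))
      · intro h0
        apply hs2
        apply (algebraMap k (AdjoinRoot D.F)).injective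
        rw [map_pow, h0, map_one]
    have hperf' : ⁅pairGroup k a b, pairGroup k a b⁆ = pairGroup k a b := by
      rw [← hr, MonoidHom.range_eq_map, ← Subgroup.map_commutator, hperf]
    have h3 : pairGroup k a b ≤ ⊥ := by
      rw [← h2.2, ← hperf']
      nth_rw 1 [← hperf']
      exact Subgroup.commutator_mono (Subgroup.commutator_mono hle hle) hle
    have h4 : (tv a : LinearMap.GeneralLinearGroup k M) ∈ pairGroup k a b := by
      have := left_mem a b (1 : k)
      rwa [one_smul] at this
    exact tv_ne_one ha.1.1 ha.2.1 (Subgroup.mem_bot.1 (h3 h4))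
  by_cases hc : a * b = b * a
  · exfalso
    apply h2.1
    have h5 := commutator_eq_bot h hc
    have h1 := comm_sup_le (E := Esub G a ha) (F := Esub G b hb) (D := ⊥)
      (fun x hx y hy => by rw [comm_one_of (Esub_comm_elem h.ha hx hy)]; exact one_mem _)
      (fun x hx y hy => by
        rw [← h5, ← commutatorElement_def]
        exact Subgroup.commutator_mem_commutator hx hy)
      (fun x hx y hy => by rw [comm_one_of (Esub_comm_elem h.hb hx hy)]; exact one_mem _)
      (by intro x hx d hd; rw [Subgroup.mem_bot.1 hd]; simp)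
      (by intro x hx d hd; rw [Subgroup.mem_bot.1 hd]; simp)
    exact le_bot_iff.1 h1.1
  · have hne : a * b - b * a ≠ 0 := sub_ne_zero.2 hc
    rw [commutator_eq hG.1 h hne]
    refine ⟨mem_root_iff.2 ⟨_, h.e_mem hne, rfl⟩, ?_, ?_, ?_⟩
    · rintro _ ⟨x, hx, rfl⟩ hx1
      exact closure_left hG.1 h hne hx (fun h0 => hx1 (by rw [h0]; exact tv_zero))
    · rintro _ ⟨x, hx, rfl⟩ hx1
      exact closure_right hG.1 h hne hx (fun h0 => hx1 (by rw [h0]; exact tv_zero))
    · rw [← core_eq]
      exact sup_le_core h hne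

end Cfsg.Agent.S5066
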