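import Cfsg.Statements.S5067

set_option autoImplicit false
open Cfsg
open scoped commutatorElement

namespace Cfsg.Agent.S5067

/-- The normal closure of an abelian subgroup is abelian modulo the third term of the lower central series. -/
theorem commutator_normalClosure_le {P : Type*} [Group P] {E : Subgroup P}
    (hE : IsMulCommutative ↥E) :
    ⁅Subgroup.normalClosure (E : Set P), Subgroup.normalClosure (E : Set P)⁆ ≤
      (⊤ : Subgroup P).lowerCentralSeries 2 := by
  set L : Subgroup P := (⊤ : Subgroup P).lowerCentralSeries 2 with hL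
  have hLn : L.Normal := Subgroup.lowerCentralSeries_normal ⊤ 2
  -- commutators are central modulo `L`
  have hcent : ∀ u v w : P, QuotientGroup.mk' L ⁅u, v⁆ * QuotientGroup.mk' L w =
      QuotientGroup.mk' L w * QuotientGroup.mk' L ⁅u, v⁆ := by
    intro u v w
    rw [← commutatorElement_eq_one_iff_mul_comm, ← map_commutatorElement,
      QuotientGroup.mk'_apply, QuotientGroup.eq_one_iff]
    exact Subgroup.commutator_mem_commutator
      (Subgroup.commutator_mem_commutator (Subgroup.mem_top u) (Subgroup.mem_top v))
      (Subgroup.mem_top w)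
  have hcomm : ∀ x ∈ Group.conjugatesOfSet (E : Set P), ∀ y ∈ Group.conjugatesOfSet (E : Set P),
      QuotientGroup.mk' L x * QuotientGroup.mk' L y =
        QuotientGroup.mk' L y * QuotientGroup.mk' L x := by
    intro x hx y hy
    obtain ⟨e, he, g, rfl⟩ : ∃ e ∈ E, ∃ g : P, g * e * g⁻¹ = x := by
      obtain ⟨e, he, h⟩ := Group.mem_conjugatesOfSet_iff.1 hx
      exact ⟨e, he, isConj_iff.1 h⟩
    obtain ⟨f, hf, h, rfl⟩ : ∃ e ∈ E, ∃ g : P, g * e * g⁻¹ = y := by
      obtain ⟨e, he, h⟩ := Group.mem_conjugatesOfSet_iff.1 hy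
      exact ⟨e, he, isConj_iff.1 h⟩
    have h1 : g * e * g⁻¹ = ⁅g, e⁆ * e := by rw [commutatorElement_def]; group
    have h2 : h * f * h⁻¹ = ⁅h, f⁆ * f := by rw [commutatorElement_def]; group
    have h3 : e * f = f * e := by
      have := hE.is_comm.comm (⟨e, he⟩ : E) ⟨f, hf⟩
      exact congrArg Subtype.val this
    have h4 : QuotientGroup.mk' L e * QuotientGroup.mk' L f =
        QuotientGroup.mk' L f * QuotientGroup.mk' L e := by
      rw [← map_mul, ← map_mul, h3]
    rw [h1, h2, map_mul, map_mul]
    calc QuotientGroup.mk' L ⁅g, e⁆ * QuotientGroup.mk' L e *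
          (QuotientGroup.mk' L ⁅h, f⁆ * QuotientGroup.mk' L f)
        = QuotientGroup.mk' L ⁅g, e⁆ * (QuotientGroup.mk' L e * QuotientGroup.mk' L ⁅h, f⁆) *
            QuotientGroup.mk' L f := by simp only [mul_assoc]
      _ = QuotientGroup.mk' L ⁅g, e⁆ * (QuotientGroup.mk' L ⁅h, f⁆ * QuotientGroup.mk' L e) *
            QuotientGroup.mk' L f := by rw [hcent h f e]
      _ = (QuotientGroup.mk' L ⁅g, e⁆ * QuotientGroup.mk' L ⁅h, f⁆) *
            (QuotientGroup.mk' L e * QuotientGroup.mk' L f) := by simp only [mul_assoc]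
      _ = (QuotientGroup.mk' L ⁅h, f⁆ * QuotientGroup.mk' L ⁅g, e⁆) *
            (QuotientGroup.mk' L f * QuotientGroup.mk' L e) := by rw [h4, hcent g e ⁅h, f⁆]
      _ = QuotientGroup.mk' L ⁅h, f⁆ * (QuotientGroup.mk' L ⁅g, e⁆ * QuotientGroup.mk' L f) *
            QuotientGroup.mk' L e := by simp only [mul_assoc]
      _ = QuotientGroup.mk' L ⁅h, f⁆ * (QuotientGroup.mk' L f * QuotientGroup.mk' L ⁅g, e⁆) *
            QuotientGroup.mk' L e := by rw [hcent g e f]
      _ = QuotientGroup.mk' L ⁅h, f⁆ * QuotientGroup.mk' L f *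
          (QuotientGroup.mk' L ⁅g, e⁆ * QuotientGroup.mk' L e) := by simp only [mul_assoc]
  -- hence the image of the normal closure is commutative
  have hstep : ∀ x ∈ Subgroup.normalClosure (E : Set P),
      ∀ y ∈ Subgroup.normalClosure (E : Set P), QuotientGroup.mk' L x * QuotientGroup.mk' L y =
        QuotientGroup.mk' L y * QuotientGroup.mk' L x := by
    intro x hx y hy
    have h1 : ∀ y ∈ Group.conjugatesOfSet (E : Set P), ∀ x ∈ Subgroup.normalClosure (E : Set P),
        QuotientGroup.mk' L x * QuotientGroup.mk' L y =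
          QuotientGroup.mk' L y * QuotientGroup.mk' L x := by
      intro y hy x hx
      unfold Subgroup.normalClosure at hx
      induction hx using Subgroup.closure_induction with
      | mem x hx => exact hcomm x hx y hy
      | one => simp
      | mul a b _ _ ha hb => rw [map_mul, mul_assoc, hb, ← mul_assoc, ha, mul_assoc]
      | inv a _ ha =>
        rw [map_inv]
        exact (Commute.inv_left (show Commute _ _ from ha)).eq
    unfold Subgroup.normalClosure at hy
    induction hy using Subgroup.closure_induction with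
    | mem y hy => exact h1 y hy x hx
    | one => simp
    | mul a b _ _ ha hb => rw [map_mul, ← mul_assoc, ha, mul_assoc, hb, mul_assoc]
    | inv a _ ha =>
      rw [map_inv]
      exact (Commute.inv_right (show Commute _ _ from ha)).eq
  rw [Subgroup.commutator_le]
  intro x hx y hy
  have h1 := hstep x hx y hy
  rw [← commutatorElement_eq_one_iff_mul_comm, ← map_commutatorElement,
    QuotientGroup.mk'_apply, QuotientGroup.eq_one_iff] at h1
  exact h1

theorem class_lt {P : Type*} [Group P] [Group.IsNilpotent P]
    (hna : ¬ IsMulCommutative P) {E : Subgroup P} (hE : IsMulCommutative ↥E) :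
    Group.nilpotencyClass ↥(Subgroup.normalClosure (E : Set P)) < Group.nilpotencyClass P := by
  have hc : 2 ≤ Group.nilpotencyClass P := by
    by_contra hlt
    apply hna
    have h1 : Group.nilpotencyClass P ≤ 1 := by omega
    exact Group.IsNilpotent.nilpotencyClass_le_one_iff.1 h1
  have h1 : ∀ n, (Subgroup.normalClosure (E : Set P)).lowerCentralSeries (n + 1) ≤
      (⊤ : Subgroup P).lowerCentralSeries (n + 2) := by
    intro n
    induction n with
    | zero => exact commutator_normalClosure_le hE
    | succ n ih =>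
      rw [Subgroup.lowerCentralSeries_succ _ (n + 1),
        show n + 1 + 2 = (n + 2) + 1 from rfl, Subgroup.lowerCentralSeries_succ _ (n + 2)]
      exact Subgroup.commutator_mono ih le_top
  obtain ⟨m, hm⟩ : ∃ m, Group.nilpotencyClass P = m + 2 := ⟨_, (Nat.sub_add_cancel hc).symm⟩
  have h2 := h1 m
  rw [← hm, Subgroup.lowerCentralSeries_nilpotencyClass, le_bot_iff] at h2
  have h3 : (⊤ : Subgroup ↥(Subgroup.normalClosure (E : Set P))).lowerCentralSeries (m + 1) = ⊥ := by
    rw [← Subgroup.map_subtype_inj, Subgroup.map_bot, Subgroup.top_subtype_lowerCentralSeries, h2]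
  rw [Subgroup.lowerCentralSeries_eq_bot_iff_nilpotencyClass_le] at h3
  omega

/-- Let P be a non-abelian nilpotent p-group (every element of p-power order; P possibly infinite) generated by two abelian subgroups E and F. Then the normal closure of E in P, and likewise that of F, has nilpotency class strictly smaller than that of P. -/
theorem result {P : Type*} [Group P] {p : ℕ} [Fact p.Prime] (hP : IsPGroup p P) [Group.IsNilpotent P]
    (hna : ¬ IsMulCommutative P) {E F : Subgroup P} (hE : IsMulCommutative ↥E) (hF : IsMulCommutative ↥F) (hgen : E ⊔ F = ⊤) :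
    Group.nilpotencyClass ↥(Subgroup.normalClosure (E : Set P)) < Group.nilpotencyClass P ∧
    Group.nilpotencyClass ↥(Subgroup.normalClosure (F : Set P)) < Group.nilpotencyClass P := by
  exact ⟨class_lt hna hE, class_lt hna hF⟩

end Cfsg.Agent.S5067
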