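import Cfsg.Statements.S5069
import Cfsg.Agent.Lib.H86.Quad20

set_option autoImplicit false
universe u
open Cfsg
open H86.Quad1 H86.FinSL H86.Quad2 H86.Quad3 H86.Quad4 H86.Quad5 H86.Quad6 H86.Quad7 H86.Quad8 H86.Quad9 H86.Quad10 H86.Quad11 H86.Quad12 H86.Quad13 H86.Quad14 H86.Quad15 H86.Quad16 H86.Quad17 H86.Quad18 H86.Quad19 H86.Quad20 H86.Unip
open scoped commutatorElement

namespace Cfsg.Agent.S5069

/-- Let k be a field of characteristic not 2 with k not of order 3, M a finite-dimensional k-vector space and G ≤ GL(M) such that (G, M) is a quadratic pair (M irreducible for G, and G generated by its quadratically acting elements σ whose scalar family 1 + c(σ − 1), c ∈ k, lies in G). Write 𝒬_d for the quadratic elements of G of minimal commutator rank, E(σ) for the subgroup generated by the members of 𝒬_d with the same fixed space and commutator space as σ, and Σ for the set of these subgroups. Then Σ is a disjoint union of finitely many parts Σ₁, …, Σ_r such that the subgroups G_i generated by the Σ_i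 commute pairwise, each G_i is quasisimple, and inside G_i the members of Σ_i form a class of abstract root subgroups in which every rank one pair A, B contains subgroups A₀ ≤ A, B₀ ≤ B generating an image of SL₂(k₁) with central kernel on unitriangular subgroups for some field k₁ with at least four elements. -/
theorem result {k : Type u} [Field k] (hk2 : ringChar k ≠ 2) (hk3 : Nat.card k ≠ 3)
    {M : Type u} [AddCommGroup M] [Module k M] [FiniteDimensional k M]
    {G : Subgroup (LinearMap.GeneralLinearGroup k M)} (hG : Cfsg.IsQuadraticPair G) :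
    ∃ (r : ℕ) (part : Fin r → Set (Subgroup (LinearMap.GeneralLinearGroup k M))),
      (⋃ i, part i) = Cfsg.quadraticRootSubgroups G ∧ (∀ i j, i ≠ j → Disjoint (part i) (part j)) ∧ (∀ i, (part i).Nonempty) ∧
      (∀ i j, i ≠ j → ⁅(⨆ A ∈ part i, A), (⨆ A ∈ part j, A)⁆ = ⊥) ∧
      (∀ i, Cfsg.IsQuasisimple ↥(⨆ A ∈ part i, A) ∧
        Cfsg.IsRootSubgroupClass ((fun A : Subgroup (LinearMap.GeneralLinearGroup k M) => A.subgroupOf (⨆ B ∈ part i, B)) '' (part i)) ∧
        ∀ A ∈ part i, ∀ B ∈ Cfsg.rankOnePartners (part i) A, ∃ A₀ B₀ : Subgroup (LinearMap.GeneralLinearGroup k M), A₀ ≤ A ∧ B₀ ≤ B ∧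
          ∃ (k₁ : Type u) (_ : Field k₁), 3 < ENat.card k₁ ∧ Cfsg.IsPSL2PairOver k₁ A₀ B₀) := by
  haveI : Good k := good_of hk2 hk3
  haveI := finite_components hG.1
  let e := Finite.equivFin (Quotient (st G))
  refine ⟨Nat.card (Quotient (st G)), fun i => cmp G ((e.symm i).out.1), ?_, ?_, ?_, ?_, ?_⟩
  · ext A
    rw [Set.mem_iUnion]
    constructor
    · rintro ⟨i, b, hb, -, rfl⟩
      exact mem_root_iff.2 ⟨b, hb, rfl⟩
    · intro hA
      obtain ⟨b, hb, rfl⟩ := mem_root_iff.1 hA
      refine ⟨e (Quotient.mk (st G) ⟨b, hb⟩), b, hb, ?_, rfl⟩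
      rw [Equiv.symm_apply_apply]
      exact Quotient.mk_out (s := st G) ⟨b, hb⟩
  · intro i j hij
    rw [Set.disjoint_left]
    rintro _ ⟨b, hb, hib, rfl⟩ ⟨c, hc, hjc, he⟩
    apply hij
    apply e.symm.injective
    rw [← Quotient.out_eq (e.symm i), ← Quotient.out_eq (e.symm j)]
    apply Quotient.sound
    exact hib.trans ((con_of_Esub_eq hG.1 he).trans hjc.symm)
  · intro i
    exact ⟨_, _, (e.symm i).out.2, H86.Quad17.Con.refl _, rfl⟩
  · intro i j hij
    apply Hc_comm hG (e.symm i).out.2 (e.symm j).out.2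
    intro h
    apply hij
    apply e.symm.injective
    rw [← Quotient.out_eq (e.symm i), ← Quotient.out_eq (e.symm j)]
    exact Quotient.sound h
  · intro i
    refine ⟨quasisimple hG (e.symm i).out.2, rootClass hG (e.symm i).out.2, ?_⟩
    rintro _ ⟨b, hb, -, rfl⟩ _ ⟨⟨c, hc, -, rfl⟩, hbc⟩
    exact psl_pair hb hc (opp_of_rankOne hb hc hbc.cond_left hbc.ne)

end Cfsg.Agent.S5069
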