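import Cfsg.Statements.S5073
import Cfsg.Agent.Lib.H86.Quad14

set_option autoImplicit false
universe u
open Cfsg
open H86.Quad1 H86.FinSL H86.Quad2 H86.Quad3 H86.Quad4 H86.Quad5 H86.Quad6 H86.Quad7 H86.Quad8 H86.Quad9 H86.Quad10 H86.Quad11 H86.Quad12 H86.Quad13 H86.Quad14 H86.Unip
open scoped commutatorElement

namespace Cfsg.Agent.S5073

/-- Let k be a field of characteristic not 2 with k not of order 3, M a finite-dimensional k-vector space and G ≤ GL(M) such that (G, M) is a quadratic pair (M irreducible for G, and G generated by its quadratically acting elements σ whose scalar family 1 + c(σ − 1), c ∈ k, lies in G). Write 𝒬_d for the quadratic elements of G of minimal commutator rank, E(σ) for the subgroup generated by the members of 𝒬_d with the same fixed space and commutator space as σ, and Σ for the set of these subgroups. Let E, F ∈ Σ. If some non-identity element of E commutes with some non-identity element of F, or some non-identity element of E normalizes F, then E and F commute elementwise.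 -/
theorem result {k : Type u} [Field k] (hk2 : ringChar k ≠ 2) (hk3 : Nat.card k ≠ 3)
    {M : Type u} [AddCommGroup M] [Module k M] [FiniteDimensional k M]
    {G : Subgroup (LinearMap.GeneralLinearGroup k M)} (hG : Cfsg.IsQuadraticPair G)
    {E F : Subgroup (LinearMap.GeneralLinearGroup k M)} (hE : E ∈ Cfsg.quadraticRootSubgroups G) (hF : F ∈ Cfsg.quadraticRootSubgroups G)
    (h : (∃ e ∈ E, e ≠ 1 ∧ ∃ f ∈ F, f ≠ 1 ∧ e * f = f * e) ∨ E ⊓ Subgroup.normalizer (F : Set (LinearMap.GeneralLinearGroup k M)) ≠ ⊥) :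
    ⁅E, F⁆ = ⊥ := by
  haveI : Good k := good_of hk2 hk3
  obtain ⟨a, ha, rfl⟩ := mem_root_iff.1 hE
  obtain ⟨b, hb, rfl⟩ := mem_root_iff.1 hF
  rcases h with ⟨_, ⟨x, hx, rfl⟩, hx1, _, ⟨y, hy, rfl⟩, hy1, hxy⟩ | h
  · have hx0 : x ≠ 0 := fun h0 => hx1 (by rw [h0]; exact tv_zero)
    have hy0 : y ≠ 0 := fun h0 => hy1 (by rw [h0]; exact tv_zero)
    have hX := mem_AAd_of_EE ha hx hx0
    have hY := mem_AAd_of_EE hb hy hy0
    have hc : x * y = y * x := by
      have h1 := congrArg Units.val hxy
      rw [Units.val_mul, Units.val_mul, val_tv hx.1.1, val_tv hy.1.1] at h1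
      simp only [mul_add, add_mul, mul_one, one_mul] at h1
      have h2 : x * y = (1 + x + (y + x * y)) - 1 - x - y := by abel
      rw [h2, h1]; abel
    have h : NP G x y := np_of_nilpotent hX hY ⟨2, by
      rw [pow_two, mul_assoc, ← mul_assoc y x y, ← hc, mul_assoc x y y, hY.1.1, mul_zero, mul_zero]⟩
    have := commutator_eq_bot h hc
    rwa [Esub_congr h.ha ha (EE_self hx hx0), Esub_congr h.hb hb (EE_self hy hy0)] at this
  · rw [Ne, Subgroup.eq_bot_iff_forall] at h
    push Not at h
    obtain ⟨g, ⟨⟨x, hx, rfl⟩, hn⟩, hx1⟩ := h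
    have hx0 : x ≠ 0 := fun h0 => hx1 (by rw [h0]; exact tv_zero)
    have hX := mem_AAd_of_EE ha hx hx0
    -- conjugates of `tv b` stay in `F`
    have hconj : ∀ y ∈ EE G b, ∃ z ∈ EE G b, tv x * tv y * (tv x)⁻¹ = tv z := by
      intro y hy
      have h1 := (Subgroup.mem_normalizer_iff.1 hn (tv y)).1 ⟨y, hy, rfl⟩
      obtain ⟨z, hz, he⟩ := h1
      exact ⟨z, hz, he⟩
    by_cases hnp : NP G x b
    · by_cases hc : x * b = b * x
      · have := commutator_eq_bot hnp hc
        rwa [Esub_congr hnp.ha ha (EE_self hx hx0)] at this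
      · exfalso
        have hne : x * b - b * x ≠ 0 := sub_ne_zero.2 hc
        obtain ⟨z, hz, he⟩ := hconj b (self_mem_EE hb.1)
        have h1 := comm_elem hnp (self_mem_EE hX.1) (self_mem_EE hb.1)
        rw [he, inv_tv hb.1.1, tv_mul_EE hb hz (neg_mem_EE hb (self_mem_EE hb.1))] at h1
        have h2 := add_mem_EE hb hz (neg_mem_EE hb (self_mem_EE hb.1))
        have h3 := tv_inj h2.1.1 h1.2 h1.1
        rw [h3] at h2
        -- `e ∈ EE b`
        have hr := EE_range h2 hne
        have hk := EE_ker h2 hne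
        apply hne
        have e1 : x * b = 0 := by
          rw [mul_eq_zero_iff, ← hr]; exact (mul_eq_zero_iff _ _).1 hnp.ae
        have e2 : b * x = 0 := by
          rw [mul_eq_zero_iff, ← hk]; exact (mul_eq_zero_iff _ _).1 hnp.ea
        rw [e1, e2, sub_zero]
    · exfalso
      rw [np_iff hX hb, not_not] at hnp
      obtain ⟨z, hz, he⟩ := hconj b (self_mem_EE hb.1)
      rw [conj_tv (tv x) hb.1.1] at he
      have h3 := tv_inj (conj_sq (tv x) hb.1.1) hz.1.1 he
      have h4 := congrArg LinearMap.range h3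
      rw [range_conj] at h4
      have hz0 : z ≠ 0 := by
        rintro rfl
        exact hb.2.1 (conj_eq_zero h3)
      rw [EE_range hz hz0] at h4
      apply hb.2.1
      ext m
      have h5 : ((tv x : (Module.End k M)ˣ) : Module.End k M) (b m) ∈ LinearMap.range b := by
        rw [← h4]; exact ⟨b m, ⟨m, rfl⟩, rfl⟩
      rw [val_tv hx.1.1] at h5
      have h6 : b m + x (b m) ∈ LinearMap.range b := h5
      have h7 : x (b m) ∈ LinearMap.range b := by
        have := Submodule.sub_mem _ h6 ⟨m, rfl⟩
        rwa [add_sub_cancel_left] at this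
      have h8 : x (b m) = 0 := Submodule.disjoint_def.1 hnp.1 _ ⟨_, rfl⟩ (range_le_ker hb.1.1 h7)
      exact Submodule.disjoint_def.1 hnp.2 _ ⟨m, rfl⟩ h8

end Cfsg.Agent.S5073
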