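import Cfsg.Statements.S5074
import Cfsg.Agent.Lib.H86.Quad16

set_option autoImplicit false
universe u
open Cfsg
open H86.Quad1 H86.FinSL H86.Quad2 H86.Quad3 H86.Quad4 H86.Quad5 H86.Quad6 H86.Quad7 H86.Quad8 H86.Quad9 H86.Quad10 H86.Quad11 H86.Quad12 H86.Quad13 H86.Quad14 H86.Quad15 H86.Quad16 H86.Unip
open scoped commutatorElement

namespace Cfsg.Agent.S5074

/-- Let k be a field of characteristic not 2 with k not of order 3, M a finite-dimensional k-vector space and G ≤ GL(M) such that (G, M) is a quadratic pair (M irreducible for G, and G generated by its quadratically acting elements σ whose scalar family 1 + c(σ − 1), c ∈ k, lies in G). Write 𝒬_d for the quadratic elements of G of minimal commutator rank, E(σ) for the subgroup generated by the members of 𝒬_d with the same fixed space and commutator space as σ, and Σ for the set of these subgroups. Then G is the product of the subgroup G₀ generated by Σ with the centralizer of G₀ in G. -/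
theorem result {k : Type u} [Field k] (hk2 : ringChar k ≠ 2) (hk3 : Nat.card k ≠ 3)
    {M : Type u} [AddCommGroup M] [Module k M] [FiniteDimensional k M]
    {G : Subgroup (LinearMap.GeneralLinearGroup k M)} (hG : Cfsg.IsQuadraticPair G) :
    (⨆ A ∈ Cfsg.quadraticRootSubgroups G, A) ⊔
      (G ⊓ Subgroup.centralizer ((⨆ A ∈ Cfsg.quadraticRootSubgroups G, A : Subgroup (LinearMap.GeneralLinearGroup k M)) : Set (LinearMap.GeneralLinearGroup k M))) = G := by
  haveI : Good k := good_of hk2 hk3
  apply le_antisymm
  · exact sup_le jn_le_G inf_le_left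
  · conv_lhs => rw [← hG.2]
    rw [Subgroup.closure_le]
    intro g hg
    obtain ⟨t, ht, -, rfl⟩ := mem_quadratic_iff.1 hg
    refine decomp hG.1 (fun x => x ∈ (⨆ A ∈ Cfsg.quadraticRootSubgroups G, A) ⊔
      (G ⊓ Subgroup.centralizer ((⨆ A ∈ Cfsg.quadraticRootSubgroups G, A : Subgroup (LinearMap.GeneralLinearGroup k M)) : Set (LinearMap.GeneralLinearGroup k M))))
      ?_ ?_ ?_ t ht
    · intro a ha
      apply Subgroup.mem_sup_left
      exact (le_iSup₂_of_le (f := fun (A : Subgroup (LinearMap.GeneralLinearGroup k M))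
        (_ : A ∈ Cfsg.quadraticRootSubgroups G) => A) (Esub G a ha) (mem_root_iff.2 ⟨a, ha, rfl⟩)
        le_rfl) ⟨a, self_mem_EE ha.1, rfl⟩
    · intro t ht hT
      exact Subgroup.mem_sup_right (Subgroup.mem_inf.2 ⟨AA_mem ht, TT_centralizes hG.1 ht hT⟩)
    · intro x y hx hy
      exact mul_mem hx hy

end Cfsg.Agent.S5074
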