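import Cfsg.Statements.S5107
import Cfsg.Agent.Lib.H89.Normal2
import Cfsg.Agent.Lib.H87.Grp

set_option autoImplicit false
open Cfsg

namespace Cfsg.Agent.S5107

/-- If a Sylow p-subgroup S of a finite group G has nilpotency class at most two and its centre is strongly closed in S with respect to G, then every map of the fusion system of G on S is conjugation by an element of N_G(S), and S is the largest subgroup normal in that fusion system. -/
theorem result {G : Type*} [Group G] [Finite G] (p : ℕ) [Fact p.Prime] (S : Sylow p G) (hcl : ⁅(S : Subgroup G), (S : Subgroup G)⁆ ≤ (S : Subgroup G) ⊓ Subgroup.centralizer ((S : Subgroup G) : Set G)) (hZ : Cfsg.IsStronglyClosed ((S : Subgroup G) ⊓ Subgroup.centralizer ((S : Subgroup G) : Set G)) (S : Subgroup G)) : (∀ (P : Subgroup G) (φ : P →* G), φ ∈ (Cfsg.groupFusionSystem (S : Subgroup G)).Hom P → ∃ g ∈ Subgroup.normalizer ((S : Subgroup G) : Set G), ∀ x : P, φ x = g * (x : G) * g⁻¹) ∧ (Cfsg.groupFusionSystem (S : Subgroup G)).core = S := by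
  have hS := S.2
  have hF : (Cfsg.groupFusionSystem (S : Subgroup G)).IsSaturated p := H86.FusGroup.group_isSaturated S
  set F := Cfsg.groupFusionSystem (S : Subgroup G) with hFdef
  set Z := (S : Subgroup G) ⊓ Subgroup.centralizer ((S : Subgroup G) : Set G) with hZdef
  have hZc : F.StronglyClosed Z := by
    rw [H87.Basic.stronglyClosed_iff]
    refine ⟨inf_le_left, fun P f hP hf x hx => ?_⟩
    obtain ⟨h1, h2, g, h3⟩ := H87.Grp.isMap_group_iff.1 hf
    have h4 := h2 x hx
    rw [h3 x hx] at h4 ⊢
    exact hZ.2 x (hP hx) g h4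
  have hSc : F.StronglyClosed (S : Subgroup G) := by
    rw [H87.Basic.stronglyClosed_iff]
    exact ⟨le_rfl, fun P f hP hf x hx => hf.mem hx⟩
  have hnorm : F.IsNormal (S : Subgroup G) := by
    refine H89.Normal2.isNormal_of_stronglyClosed_chain hS hF
      (fun i => if i = 0 then ⊥ else if i = 1 then Z else (S : Subgroup G)) 2 (by simp) (by simp) hSc ?_ ?_
    · intro i hi
      interval_cases i
      · simpa using hZc
      · simpa using hSc
    · intro i hi
      interval_cases i
      · simp only [zero_add, one_ne_zero, ↓reduceIte, le_bot_iff]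
        rw [Subgroup.commutator_eq_bot_iff_le_centralizer]
        intro s hs
        rw [Subgroup.mem_centralizer_iff]
        intro z hz
        exact ((Subgroup.mem_centralizer_iff.1 hz.2) s hs).symm
      · simpa using hcl
  refine ⟨fun P φ hφ => ?_, ?_⟩
  · obtain ⟨ψ, hψ, h1, h2⟩ := hnorm.2 P φ hφ
    obtain ⟨h3, h4, g, h5⟩ := hψ
    refine ⟨g, ?_, fun x => ?_⟩
    · rw [H87.Base.mem_normalizer_iff_of_finite]
      intro x hx
      have := h4 ⟨x, (le_sup_right : (S : Subgroup G) ≤ P ⊔ S) hx⟩
      rwa [h5] at this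
    · rw [← h1, h5]
      rfl
  · refine le_antisymm ?_ (H87.Basic.IsNormal.le_core hnorm)
    exact (H87.Basic.isNormal_core F).1

end Cfsg.Agent.S5107
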