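import Cfsg.Statements.S5119
import Cfsg.Agent.Lib.H87.Frat

set_option autoImplicit false
open Cfsg

namespace Cfsg.Agent.S5119

/-- Let F be a saturated fusion system over a finite p-group S and E a subsystem of F over a subgroup T that is strongly closed in F. Then E is invariant in F (invariance under Aut_F(T) plus the Frattini condition) if and only if the strong invariance condition holds: for P ≤ Q ≤ T, every map φ of E from P into Q and every map ψ of F with source Q, the transported map ψ φ ψ⁻¹ on ψ(P) is a map of E. -/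
theorem result {Ω : Type*} [Group Ω] {S : Subgroup Ω} [Finite S] (p : ℕ) [Fact p.Prime] (hS : IsPGroup p S) (F : Cfsg.FusionSystem S) (hF : F.IsSaturated p) {T : Subgroup Ω} (E : Cfsg.FusionSystem T) (hE : E.IsSubsystemOf F) (hT : F.StronglyClosed T) : E.IsInvariantIn F ↔ ∀ (P Q : Subgroup Ω) (hPQ : P ≤ Q) (_ : Q ≤ T) (φ : P →* Ω) (_ : φ ∈ E.Hom P) (hφQ : ∀ x : P, φ x ∈ Q) (ψ : Q →* Ω) (_ : ψ ∈ F.Hom Q), ∃ χ ∈ E.Hom ((P.subgroupOf Q).map ψ), ∀ (x : P) (hx : ψ (Subgroup.inclusion hPQ x) ∈ (P.subgroupOf Q).map ψ), χ ⟨ψ (Subgroup.inclusion hPQ x), hx⟩ = ψ ⟨φ x, hφQ x⟩ := by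
  rw [H87.Frat.invariant_iff hS hF hE hT]
  constructor
  · intro h P Q hPQ hQT φ hφ hφQ ψ hψ
    obtain ⟨g, hg, h1⟩ := h P Q _ _ hPQ hQT (H87.Base.isMap_of_mem hφ) (fun x hx => by
      rw [H87.Base.extFun_apply φ hx]; exact hφQ _) (H87.Base.isMap_of_mem hψ)
    have e2 := H87.Inv.map_subgroupOf_eq_img hPQ (ψ := ψ) (fun x => (H87.Base.extFun_coe ψ x).symm)
    rw [← e2] at hg
    obtain ⟨χ, hχ, e⟩ := hg
    refine ⟨χ, hχ, fun x hx => ?_⟩
    rw [e]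
    have h2 := h1 x x.2
    rw [H87.Base.extFun_coe, H87.Base.extFun_apply ψ (hPQ x.2), H87.Base.extFun_apply ψ (hφQ x)] at h2
    exact h2
  · intro h P Q f k hPQ hQT hf hfQ hk
    obtain ⟨φ, hφ, e⟩ := hf
    obtain ⟨ψ, hψ, e'⟩ := hk
    have hφQ : ∀ x : P, φ x ∈ Q := fun x => by rw [e]; exact hfQ x x.2
    obtain ⟨χ, hχ, h1⟩ := h P Q hPQ hQT φ hφ hφQ ψ hψ
    have e2 := H87.Inv.map_subgroupOf_eq_img hPQ e'
    refine ⟨H87.Base.extFun χ, e2 ▸ H87.Base.isMap_of_mem hχ, fun x hx => ?_⟩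
    have hm : k x ∈ (P.subgroupOf Q).map ψ := by rw [e2]; exact H87.Base.apply_mem_img hx
    have hm' : ψ (Subgroup.inclusion hPQ ⟨x, hx⟩) ∈ (P.subgroupOf Q).map ψ := by rw [e']; exact hm
    have h2 := h1 ⟨x, hx⟩ hm'
    rw [H87.Base.extFun_apply χ hm]
    have h3 : (⟨k x, hm⟩ : ↥((P.subgroupOf Q).map ψ)) = ⟨ψ (Subgroup.inclusion hPQ ⟨x, hx⟩), hm'⟩ :=
      Subtype.ext (e' ⟨x, hPQ hx⟩).symm
    rw [h3, h2, e', ← e ⟨x, hx⟩]

end Cfsg.Agent.S5119
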