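import Cfsg.Statements.S5120
import Cfsg.Agent.Lib.H87.PPow

set_option autoImplicit false
open Cfsg

namespace Cfsg.Agent.S5120

/-- Let F be a saturated fusion system over a finite p-group S and T a subgroup of S containing the hyperfocal subgroup of F and normal in S. Then every saturated subsystem of F over T of p-power index is a normal subsystem of F. -/
theorem result {Ω : Type*} [Group Ω] {S : Subgroup Ω} [Finite S] (p : ℕ) [Fact p.Prime] (hS : IsPGroup p S) (F : Cfsg.FusionSystem S) (hF : F.IsSaturated p) (T : Subgroup Ω) (hTS : T ≤ S) (hTn : (T.subgroupOf S).Normal) (hT : F.hyperfocalSubgroup p ≤ T) (E : Cfsg.FusionSystem T) (hEs : E.IsSaturated p) (hEi : E.HasPPowerIndexIn F p) : E.IsNormalIn F p := by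
  refine H87.PPow.normal_of_ppow hS hF (H88.Focal.stronglyClosed_of_hyp_le hS hF hTS ?_ hT) hEs hEi
  intro s hs
  rw [Subgroup.mem_normalizer_iff]
  intro x
  constructor
  · intro hx
    have h1 := hTn.conj_mem ⟨x, hTS hx⟩ (Subgroup.mem_subgroupOf.2 hx) ⟨s, hs⟩
    exact Subgroup.mem_subgroupOf.1 h1
  · intro hx
    have h1 := hTn.conj_mem ⟨_, hTS hx⟩ (Subgroup.mem_subgroupOf.2 hx) ⟨s, hs⟩⁻¹
    have h2 := Subgroup.mem_subgroupOf.1 h1
    simpa [mul_assoc] using h2

end Cfsg.Agent.S5120
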