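import Cfsg.Statements.S5122
import Cfsg.Agent.Lib.H86.FusGroup

set_option autoImplicit false
open Cfsg

namespace Cfsg.Agent.S5122

/-- Let G be a finite group with Sylow p-subgroup S. Every subgroup P of S has a G-conjugate Q ≤ S such that N_S(Q) is a Sylow p-subgroup of N_G(Q); and for any Q ≤ S with that property, C_S(Q) is a Sylow p-subgroup of C_G(Q) and the automorphisms of Q induced by N_S(Q) form a Sylow p-subgroup of those induced by N_G(Q). -/
theorem result {G : Type*} [Group G] [Finite G] (p : ℕ) [Fact p.Prime] (S : Sylow p G) : (∀ P : Subgroup G, P ≤ S → ∃ g : G, P.map (MulAut.conj g).toMonoidHom ≤ S ∧ (∃ R : Sylow p ↥(Subgroup.normalizer ((P.map (MulAut.conj g).toMonoidHom : Subgroup G) : Set G)), (R : Subgroup ↥(Subgroup.normalizer ((P.map (MulAut.conj g).toMonoidHom : Subgroup G) : Set G))) = (Cfsg.FusionSystem.normalizerIn (S : Subgroup G) (P.map (MulAut.conj g).toMonoidHom)).subgroupOf (Subgroup.normalizer ((P.map (MulAut.conj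 g).toMonoidHom : Subgroup G) : Set G)))) ∧ ∀ Q : Subgroup G, Q ≤ S → (∃ R : Sylow p ↥(Subgroup.normalizer (Q : Set G)), (R : Subgroup ↥(Subgroup.normalizer (Q : Set G))) = (Cfsg.FusionSystem.normalizerIn (S : Subgroup G) Q).subgroupOf (Subgroup.normalizer (Q : Set G))) → (∃ R : Sylow p ↥(Subgroup.centralizer (Q : Set G)), (R : Subgroup ↥(Subgroup.centralizer (Q : Set G))) = (Cfsg.FusionSystem.centralizerIn (S : Subgroup G) Q).subgroupOf (Subgroup.centralizer (Q : Set G))) ∧ (∃ R : Sylow p ↥(Cfsg.autInducedBy ⊤ Q), (R : Subgroup ↥(Cfsg.autInducedBy ⊤ Q)) = (Cfsg.autInducedBy (S : Subgroup G) Q).subgroupOf (Cfsg.autInducedBy ⊤ Q)) := by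
  have hrel : ∀ A B : Subgroup G, A ≤ B → ((∃ R : Sylow p B, (R : Subgroup B) = A.subgroupOf B) ↔
      H86.FusGroup.RelSylow p A B) := fun A B h => (H86.FusGroup.relSylow_iff h).symm
  refine ⟨fun P hP => ?_, fun Q hQ hR => ?_⟩
  · obtain ⟨Q, hPQ, hQ⟩ := H86.FusGroup.exists_conj_relSylow S hP
    obtain ⟨-, hQS, g, rfl⟩ := H86.FusGroup.group_isConj_iff.1 hPQ
    exact ⟨g, hQS, (hrel _ _ hQ.1).2 hQ⟩
  · have h1 := (hrel _ _ inf_le_right).1 hR
    obtain ⟨h2, h3⟩ := H86.FusGroup.relSylow_centralizer_and_aut S h1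
    haveI : Finite (MulAut Q) := H86.FusSat.finite_mulAut Q
    exact ⟨(hrel _ _ h2.1).2 h2, (H86.FusGroup.relSylow_iff h3.1).1 h3⟩

end Cfsg.Agent.S5122
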