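import Cfsg.Statements.S5123
import Cfsg.Agent.Lib.H87.Grow

set_option autoImplicit false
open Cfsg

namespace Cfsg.Agent.S5123

/-- Let G be a finite group with Sylow p-subgroup S, P, Q ≤ S and g ∈ G with gPg⁻¹ = Q, and suppose N_S(Q) is a Sylow p-subgroup of N_G(Q). Let N be the set of x ∈ N_S(P) with gxg⁻¹ ∈ N_S(Q)C_G(Q). Then some h ∈ C_G(Q) satisfies (hg)N(hg)⁻¹ ≤ S. -/
theorem result {G : Type*} [Group G] [Finite G] (p : ℕ) [Fact p.Prime] (S : Sylow p G) (P Q : Subgroup G) (hP : P ≤ S) (hQ : Q ≤ S) (g : G) (hg : P.map (MulAut.conj g).toMonoidHom = Q) (hN : (∃ R : Sylow p ↥(Subgroup.normalizer (Q : Set G)), (R : Subgroup ↥(Subgroup.normalizer (Q : Set G))) = (Cfsg.FusionSystem.normalizerIn (S : Subgroup G) Q).subgroupOf (Subgroup.normalizer (Q : Set G)))) : ∃ h ∈ Subgroup.centralizer (Q : Set G), ((Cfsg.FusionSystem.normalizerIn (S : Subgroup G) P) ⊓ (Cfsg.FusionSystem.normalizerIn (S : Subgroup G) Q ⊔ Subgroup.centralizer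 (Q : Set G)).comap (MulAut.conj g).toMonoidHom).map (MulAut.conj (h * g)).toMonoidHom ≤ S := by
  have h1 := (H87.Syl.sylIn_iff (inf_le_right : FusionSystem.normalizerIn (S : Subgroup G) Q ≤
    Subgroup.normalizer (Q : Set G))).2 hN
  set C := Subgroup.centralizer (Q : Set G) with hC
  set A := FusionSystem.normalizerIn (S : Subgroup G) Q with hA
  have hCn : C ≤ Subgroup.normalizer (Q : Set G) := Subgroup.centralizer_le_normalizer _
  have hK : A ⊔ C ≤ Subgroup.normalizer (Q : Set G) := sup_le inf_le_right hCn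
  have h2 := h1.of_le (le_sup_left : A ≤ A ⊔ C) hK
  have hnorm : ∀ x ∈ A, ∀ t ∈ C, x * t * x⁻¹ ∈ C := by
    intro x hx t ht
    rw [hC, Subgroup.mem_centralizer_iff] at ht ⊢
    intro y hy
    have h3 : x⁻¹ * y * x ∈ Q := by
      have := (Subgroup.mem_normalizer_iff.1 (Subgroup.inv_mem _ hx.2) y).1 hy
      simpa using this
    have h4 := ht _ h3
    have h5 : y * (x * t * x⁻¹) = x * (x⁻¹ * y * x * t) * x⁻¹ := by group
    rw [h5, h4]
    group
  set N := FusionSystem.normalizerIn (S : Subgroup G) P ⊓ (A ⊔ C).comap (MulAut.conj g).toMonoidHom with hNdef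
  have hNS : N ≤ S := inf_le_left.trans inf_le_left
  have hB : N.map (MulAut.conj g).toMonoidHom ≤ A ⊔ C := by
    rintro _ ⟨x, hx, rfl⟩
    exact hx.2
  obtain ⟨k, hk, hkc⟩ := h2.conj hB ((S.2.to_le hNS).map _)
  obtain ⟨n, hn, c, hc, rfl⟩ := (H87.Grow.mem_sup_of_conj hnorm).1 hk
  refine ⟨c, hc, ?_⟩
  rintro _ ⟨x, hx, rfl⟩
  have h3 := (hkc _ ⟨x, hx, rfl⟩).1
  have h4 : (c * g) * x * (c * g)⁻¹ = n⁻¹ * (n * c * (g * x * g⁻¹) * (n * c)⁻¹) * n := by group
  show (c * g) * x * (c * g)⁻¹ ∈ (S : Subgroup G)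
  rw [h4]
  exact (S : Subgroup G).mul_mem ((S : Subgroup G).mul_mem ((S : Subgroup G).inv_mem hn.1) h3) hn.1

end Cfsg.Agent.S5123
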