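import Cfsg.Statements.S5130
import Cfsg.Agent.Lib.H87.CMap
import Cfsg.Agent.Lib.H87.Surj
import Cfsg.Agent.Lib.H87.Frat

set_option autoImplicit false
open Cfsg

namespace Cfsg.Agent.S5130

section
open Cfsg.FusionSystem H87.Base H87.Basic H87.Syl H87.Sat H87.Grow H87.Inv H87.Frat H87.Factor H87.Factor2 H87.Lift
  H87.CMap H87.Surj

variable {Ω : Type*} [Group Ω] {S S₁ S₂ P : Subgroup Ω} {F : FusionSystem S} {R R' : FusionSystem S₁} {p : ℕ}
  {f : Ω → Ω}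

theorem exists_proj (h : IsInternalDirectProduct S₁ S₂ S) :
    ∃ α : S →* Ω, (∀ x ∈ S₁, extFun α x = x) ∧ (∀ x ∈ S₂, extFun α x = 1) ∧ α.range = S₁ ∧
      ∀ x ∈ S, extFun α x ∈ S₁ ∧ (extFun α x)⁻¹ * x ∈ S₂ := by
  obtain ⟨h1, h2, hc, hi, hs⟩ := h
  have hdec : ∀ x ∈ S, ∃ a ∈ S₁, ∃ b ∈ S₂, a * b = x := by
    intro x hx
    rw [← hs] at hx
    refine (mem_sup_of_conj fun a ha b hb => ?_).1 hx
    rw [hc a ha b hb, mul_inv_cancel_right]; exact hb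
  have huniq : ∀ a ∈ S₁, ∀ b ∈ S₂, ∀ a' ∈ S₁, ∀ b' ∈ S₂, a * b = a' * b' → a = a' := by
    intro a ha b hb a' ha' b' hb' e
    have h3 : a'⁻¹ * a = b' * b⁻¹ := by
      rw [eq_mul_inv_iff_mul_eq, mul_assoc, e]; group
    have h4 : a'⁻¹ * a ∈ S₁ ⊓ S₂ := by
      refine ⟨S₁.mul_mem (S₁.inv_mem ha') ha, ?_⟩
      rw [SetLike.mem_coe, h3]; exact S₂.mul_mem hb' (S₂.inv_mem hb)
    rw [hi, Subgroup.mem_bot, inv_mul_eq_one] at h4
    exact h4.symm
  choose! c hc1 d hd1 hcd using hdec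
  have hcu : ∀ a ∈ S₁, ∀ b ∈ S₂, c (a * b) = a := by
    intro a ha b hb
    have hm : a * b ∈ S := S.mul_mem (h1 ha) (h2 hb)
    exact huniq _ (hc1 _ hm) _ (hd1 _ hm) a ha b hb (hcd _ hm)
  let α : S →* Ω :=
    { toFun := fun x => c x
      map_one' := by
        show c ((1 : S) : Ω) = 1
        have := hcu 1 S₁.one_mem 1 S₂.one_mem
        rw [mul_one] at this
        exact this
      map_mul' := by
        intro x y
        show c (x * y : Ω) = c x * c y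
        have e : (x : Ω) * y = (c x * c y) * (d x * d y) := by
          conv_lhs => rw [← hcd x x.2, ← hcd y y.2]
          have := hc _ (hc1 y y.2) _ (hd1 x x.2)
          calc c x * d x * (c y * d y) = c x * (d x * c y) * d y := by group
            _ = c x * (c y * d x) * d y := by rw [this]
            _ = _ := by group
        rw [e, hcu _ (S₁.mul_mem (hc1 x x.2) (hc1 y y.2)) _ (S₂.mul_mem (hd1 x x.2) (hd1 y y.2))] }
  have hα : ∀ x ∈ S, extFun α x = c x := fun x hx => extFun_apply α hx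
  refine ⟨α, fun x hx => ?_, fun x hx => ?_, ?_, fun x hx => ?_⟩
  · rw [hα x (h1 hx)]
    have := hcu x hx 1 S₂.one_mem
    rwa [mul_one] at this
  · rw [hα x (h2 hx)]
    have := hcu 1 S₁.one_mem x hx
    rwa [one_mul] at this
  · ext y
    constructor
    · rintro ⟨x, rfl⟩; exact hc1 x x.2
    · intro hy
      refine ⟨⟨y, h1 hy⟩, ?_⟩
      show c y = y
      have := hcu y hy 1 S₂.one_mem
      rwa [mul_one] at this
  · rw [hα x hx]
    refine ⟨hc1 x hx, ?_⟩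
    have h3 : (c x)⁻¹ * x = d x := by
      rw [inv_mul_eq_iff_eq_mul]; exact (hcd x hx).symm
    rw [h3]; exact hd1 x hx

/-- every map between subgroups of `S₁` extends to the subgroup generated with `S₂` -/
theorem exists_ext [Fact p.Prime] [Finite S] (hS : IsPGroup p S) (hF : F.IsSaturated p)
    (hprod : IsInternalDirectProduct S₁ S₂ S) (h₁ : F.StronglyClosed S₁) (h₂ : F.StronglyClosed S₂) (hP : P ≤ S₁)
    (hf : IsMap F P f) : ∃ g, IsMap F (P ⊔ S₂) g ∧ ∀ x ∈ P, g x = f x := by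
  obtain ⟨g, hg, h3⟩ := good_of_saturated hS hF h₂ hf
  refine ⟨g, hg, fun x hx => ?_⟩
  have h4 : (f x)⁻¹ * g x ∈ S₁ ⊓ S₂ :=
    ⟨S₁.mul_mem (S₁.inv_mem (mem_of_stronglyClosed h₁ hf hx (hP hx)))
      (mem_of_stronglyClosed h₁ hg ((le_sup_left : P ≤ _) hx) (hP hx)), h3 x hx⟩
  rw [hprod.2.2.2.1, Subgroup.mem_bot, inv_mul_eq_one] at h4
  exact h4.symm

theorem isMap_R (hR : ∀ P : Subgroup Ω, P ≤ S₁ → R.Hom P = F.Hom P) : IsMap R P f ↔ IsMap F P f ∧ P ≤ S₁ := by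
  constructor
  · rintro ⟨φ, hφ, e⟩
    have h1 := (R.le_of_mem hφ).1
    rw [hR P h1] at hφ
    exact ⟨⟨φ, hφ, e⟩, h1⟩
  · rintro ⟨⟨φ, hφ, e⟩, h1⟩
    rw [← hR P h1] at hφ
    exact ⟨φ, hφ, e⟩

theorem isMap_R' (hR' : ∀ P : Subgroup Ω, P ≤ S₁ → R'.Hom P = F.centralizerHom S₂ P) :
    IsMap R' P f ↔ CMap F S₂ P f ∧ P ≤ S₁ := by
  constructor
  · rintro ⟨φ, hφ, e⟩
    have h1 := (R'.le_of_mem hφ).1
    rw [hR' P h1] at hφ
    exact ⟨(mem_centralizerHom_iff e).1 hφ, h1⟩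
  · rintro ⟨h, h1⟩
    obtain ⟨φ, hφ, e⟩ := h.isMap
    refine ⟨φ, ?_, e⟩
    rw [hR' P h1]
    exact (mem_centralizerHom_iff e).2 h

/-- if `g` is a map on `P ⊔ S₂`, then `π(g x) = g(π x)` for all `x` -/
theorem proj_comm {α : S →* Ω} (h₁ : F.StronglyClosed S₁) (h₂ : F.StronglyClosed S₂)
    (hα1 : ∀ x ∈ S₁, extFun α x = x) (hα2 : ∀ x ∈ S₂, extFun α x = 1)
    (hα3 : ∀ x ∈ S, extFun α x ∈ S₁ ∧ (extFun α x)⁻¹ * x ∈ S₂) {g : Ω → Ω} (hg : IsMap F (P ⊔ S₂) g)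
    {x : Ω} (hx : x ∈ P ⊔ S₂) : extFun α x ∈ P ⊔ S₂ ∧ extFun α (g x) = g (extFun α x) := by
  have hxS := hg.le hx
  obtain ⟨h3, h4⟩ := hα3 x hxS
  have h5 : (extFun α x)⁻¹ * x ∈ P ⊔ S₂ := (le_sup_right : S₂ ≤ _) h4
  have h6 : extFun α x ∈ P ⊔ S₂ := by
    have := Subgroup.mul_mem _ hx (Subgroup.inv_mem _ h5)
    simpa using this
  refine ⟨h6, ?_⟩
  have h7 : g x = g (extFun α x) * g ((extFun α x)⁻¹ * x) := by
    rw [← hg.map_mul h6 h5]; congr 1; group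
  rw [h7, ext_mul (hg.mem h6) (hg.mem h5), hα2 _ (mem_of_stronglyClosed h₂ hg h5 h4), mul_one,
    hα1 _ (mem_of_stronglyClosed h₁ hg h6 h3)]

theorem R_saturated [Fact p.Prime] [Finite S] (hS : IsPGroup p S) (hF : F.IsSaturated p)
    (hprod : IsInternalDirectProduct S₁ S₂ S) (h₁ : F.StronglyClosed S₁) (h₂ : F.StronglyClosed S₂)
    (hR : ∀ P : Subgroup Ω, P ≤ S₁ → R.Hom P = F.Hom P) : R.IsSaturated p := by
  obtain ⟨α, hα1, hα2, hr, hα3⟩ := exists_proj hprod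
  refine saturated_of_surjective hS hF (α := α) ?_
  rw [isSurjectiveMorphism_iff, isMorphism_iff]
  refine ⟨⟨fun s hs => (hα3 s hs).1, fun P f hf => ?_⟩, hr, fun P' f' hf' => ?_⟩
  · obtain ⟨g, hg, h3⟩ := good_of_saturated hS hF h₂ hf
    have hle : imageAlong α P ≤ P ⊔ S₂ := by
      intro y hy
      obtain ⟨x, hx, hxS, rfl⟩ := mem_imageAlong.1 hy
      exact (proj_comm h₁ h₂ hα1 hα2 hα3 hg ((le_sup_left : P ≤ _) hx)).1
    have hle' : imageAlong α P ≤ S₁ := by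
      intro y hy
      obtain ⟨x, hx, hxS, rfl⟩ := mem_imageAlong.1 hy
      exact (hα3 x hxS).1
    refine ⟨g, (isMap_R hR).2 ⟨hg.mono hle, hle'⟩, fun x hx => ?_⟩
    have hx' := (le_sup_left : P ≤ P ⊔ S₂) hx
    rw [← (proj_comm h₁ h₂ hα1 hα2 hα3 hg hx').2]
    have h4 : g x = f x * ((f x)⁻¹ * g x) := by group
    rw [h4, ext_mul (hf.mem hx) (h₂.1 (h3 x hx)), hα2 _ (h3 x hx), mul_one]
  · obtain ⟨h4, h5⟩ := (isMap_R hR).1 hf'
    obtain ⟨g, hg, h3⟩ := exists_ext hS hF hprod h₁ h₂ h5 h4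
    have hle : preimageAlong α P' ≤ P' ⊔ S₂ := by
      intro x hx
      obtain ⟨hxS, hx'⟩ := mem_preimageAlong.1 hx
      have := Subgroup.mul_mem _ ((le_sup_left : P' ≤ P' ⊔ S₂) hx') ((le_sup_right : S₂ ≤ P' ⊔ S₂) (hα3 x hxS).2)
      simpa using this
    refine ⟨g, hg.mono hle, fun x hx => ?_⟩
    rw [(proj_comm h₁ h₂ hα1 hα2 hα3 hg (hle hx)).2, h3 _ (mem_preimageAlong.1 hx).2]

theorem R'_saturated [Fact p.Prime] [Finite S] (hS : IsPGroup p S) (hF : F.IsSaturated p)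
    (hprod : IsInternalDirectProduct S₁ S₂ S) (h₁ : F.StronglyClosed S₁) (h₂ : F.StronglyClosed S₂)
    (hR' : ∀ P : Subgroup Ω, P ≤ S₁ → R'.Hom P = F.centralizerHom S₂ P) : R'.IsSaturated p := by
  obtain ⟨C, hC⟩ := exists_centralizerSystem F h₂.1
  have hCs := H89.KSat3.centralizer_saturated hS hF (fullyCentralized_of_stronglyClosed h₂) hC
  obtain ⟨α₀, hα1, hα2, hr, hα3⟩ := exists_proj hprod
  have hle : centralizerIn S S₂ ≤ S := centralizerIn_le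
  have hfin : Finite (centralizerIn S S₂) := finite_of_le hle
  let α : centralizerIn S S₂ →* Ω := α₀.comp (Subgroup.inclusion hle)
  have hS₁ : S₁ ≤ centralizerIn S S₂ := by
    intro x hx
    rw [mem_centralizerIn]
    exact ⟨h₁.1 hx, fun y hy => (hprod.2.2.1 x hx y hy).symm⟩
  have hα : ∀ x ∈ centralizerIn S S₂, extFun α x = extFun α₀ x := by
    intro x hx
    rw [extFun_apply α hx, extFun_apply α₀ (hle hx)]; rfl
  refine saturated_of_surjective (hS.to_le hle) hCs (α := α) ?_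
  rw [isSurjectiveMorphism_iff, isMorphism_iff]
  refine ⟨⟨fun s hs => by rw [hα s hs]; exact (hα3 s (hle hs)).1, fun P f hf => ?_⟩, ?_, fun P' f' hf' => ?_⟩
  · obtain ⟨k1, k2, g, hg, k3, k4⟩ := (isMap_centralizer_iff hC).1 hf
    have him : ∀ y ∈ imageAlong α P, y ∈ P ⊔ S₂ ∧ y ∈ S₁ := by
      intro y hy
      obtain ⟨x, hx, hxS, rfl⟩ := mem_imageAlong.1 hy
      rw [hα x hxS]
      exact ⟨(proj_comm h₁ h₂ hα1 hα2 hα3 hg ((le_sup_left : P ≤ _) hx)).1, (hα3 x (hle hxS)).1⟩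
    have hle2 : imageAlong α P ⊔ S₂ ≤ P ⊔ S₂ := sup_le (fun y hy => (him y hy).1) le_sup_right
    refine ⟨g, (isMap_R' hR').2 ⟨⟨fun y hy => hS₁ (him y hy).2, fun y hy => hS₁ ?_, g, hg.mono hle2, fun _ _ => rfl,
      k4⟩, fun y hy => (him y hy).2⟩, fun x hx => ?_⟩
    · exact mem_of_stronglyClosed h₁ hg (him y hy).1 (him y hy).2
    · have hx' := (le_sup_left : P ≤ P ⊔ S₂) hx
      rw [hα x (k1 hx), hα _ (k2 x hx), ← (proj_comm h₁ h₂ hα1 hα2 hα3 hg hx').2, k3 x hx]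
  · rw [← hr]
    ext y
    constructor
    · rintro ⟨x, rfl⟩; exact ⟨_, rfl⟩
    · intro hy
      rw [hr] at hy
      refine ⟨⟨y, hS₁ hy⟩, ?_⟩
      have := hα1 y hy
      rw [extFun_apply α₀ (h₁.1 hy)] at this
      exact this
  · obtain ⟨⟨k1, k2, g, hg, k3, k4⟩, h5⟩ := (isMap_R' hR').1 hf'
    have hpre : preimageAlong α P' ≤ P' ⊔ S₂ := by
      intro x hx
      obtain ⟨hxS, hx'⟩ := mem_preimageAlong.1 hx
      rw [hα x hxS] at hx'
      have := Subgroup.mul_mem _ ((le_sup_left : P' ≤ P' ⊔ S₂) hx') ((le_sup_right : S₂ ≤ P' ⊔ S₂) (hα3 x (hle hxS)).2)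
      simpa using this
    have hsup : preimageAlong α P' ⊔ S₂ ≤ P' ⊔ S₂ := sup_le hpre le_sup_right
    have hgC : ∀ x ∈ preimageAlong α P', g x ∈ centralizerIn S S₂ := by
      intro x hx
      have hxC := (mem_preimageAlong.1 hx).1
      rw [mem_centralizerIn]
      refine ⟨hg.mem (hpre hx), fun y hy => ?_⟩
      have hy' : y ∈ P' ⊔ S₂ := (le_sup_right : S₂ ≤ _) hy
      have e1 := (mem_centralizerIn.1 hxC).2 y hy
      have e2 := hg.map_mul hy' (hpre hx)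
      rw [e1, hg.map_mul (hpre hx) hy', k4 y hy] at e2
      exact e2.symm
    refine ⟨g, (isMap_centralizer_iff hC).2 ⟨preimageAlong_le, hgC, g, hg.mono hsup, fun _ _ => rfl, k4⟩,
      fun x hx => ?_⟩
    have hxC := (mem_preimageAlong.1 hx)
    rw [hα x hxC.1, hα _ (hgC x hx), (proj_comm h₁ h₂ hα1 hα2 hα3 hg (hpre hx)).2, k3]
    rw [← hα x hxC.1]; exact hxC.2

theorem R'_sinv [Fact p.Prime] [Finite S] (hS : IsPGroup p S) (hF : F.IsSaturated p)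
    (hprod : IsInternalDirectProduct S₁ S₂ S) (h₁ : F.StronglyClosed S₁) (h₂ : F.StronglyClosed S₂)
    (hR' : ∀ P : Subgroup Ω, P ≤ S₁ → R'.Hom P = F.centralizerHom S₂ P) : SInv F R' := by
  have hS₁ : S₁ ≤ centralizerIn S S₂ := by
    intro x hx
    rw [mem_centralizerIn]
    exact ⟨h₁.1 hx, fun y hy => (hprod.2.2.1 x hx y hy).symm⟩
  intro P Q f h hPQ hQ hf hfQ hh
  obtain ⟨⟨k1, k2, g, hg, k3, k4⟩, h5⟩ := (isMap_R' hR').1 hf
  obtain ⟨k, hk, hkh⟩ := exists_ext hS hF hprod h₁ h₂ hQ hh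
  -- k g k⁻¹ on k(P S₂)
  have hkP : IsMap F (P ⊔ S₂) k := hk.mono (sup_le_sup_right hPQ _)
  obtain ⟨k', hk', kk1, kk2⟩ := hkP.isIso.symm
  have hgQ : ∀ x ∈ P ⊔ S₂, g x ∈ Q ⊔ S₂ := by
    refine mem_of_sup hg (fun x hx => ?_) (fun x hx => ?_)
    · rw [k3 x hx]; exact (le_sup_left : Q ≤ _) (hfQ x hx)
    · rw [k4 x hx]; exact (le_sup_right : S₂ ≤ _) hx
  have hmap : IsMap F (img (P ⊔ S₂) k) (k ∘ (g ∘ k')) :=
    (hk'.isMap.comp hg fun x hx => hk'.mem hx).comp hk fun x hx => hgQ _ (hk'.mem hx)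
  have hPh : ∀ x ∈ P, h x ∈ img (P ⊔ S₂) k := by
    intro x hx
    rw [← hkh x (hPQ hx)]
    exact apply_mem_img ((le_sup_left : P ≤ _) hx)
  have himP : img P h ≤ img (P ⊔ S₂) k := by
    intro y hy
    obtain ⟨x, hx, rfl⟩ := (mem_img (hh.mono hPQ)).1 hy
    exact hPh x hx
  have hkS₂ : ∀ y ∈ S₂, ∃ x ∈ S₂, k x = y := by
    have hi := StronglyClosed.isMap_iso h₂ hk le_sup_right
    intro y hy
    exact hi.surj hy
  have himS₂ : S₂ ≤ img (P ⊔ S₂) k := by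
    intro y hy
    obtain ⟨x, hx, rfl⟩ := hkS₂ y hy
    exact apply_mem_img ((le_sup_right : S₂ ≤ _) hx)
  have hval : ∀ x ∈ P, k (g (k' (h x))) = h (f x) := by
    intro x hx
    rw [← hkh x (hPQ hx), kk1 x ((le_sup_left : P ≤ _) hx), k3 x hx, hkh _ (hfQ x hx)]
  have himS₁ : img P h ≤ S₁ := by
    intro y hy
    obtain ⟨x, hx, rfl⟩ := (mem_img (hh.mono hPQ)).1 hy
    exact mem_of_stronglyClosed h₁ hh (hPQ hx) (hQ (hPQ hx))
  refine ⟨k ∘ (g ∘ k'), (isMap_R' hR').2 ⟨⟨himS₁.trans hS₁, fun y hy => hS₁ ?_, _,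
    hmap.mono (sup_le himP himS₂), fun _ _ => rfl, fun y hy => ?_⟩, himS₁⟩, hval⟩
  · exact mem_of_stronglyClosed h₁ hmap (himP hy) (himS₁ hy)
  · obtain ⟨x, hx, rfl⟩ := hkS₂ y hy
    show k (g (k' (k x))) = k x
    rw [kk1 x ((le_sup_right : S₂ ≤ _) hx), k4 x hx]

theorem R'_normal [Fact p.Prime] [Finite S] (hS : IsPGroup p S) (hF : F.IsSaturated p)
    (hprod : IsInternalDirectProduct S₁ S₂ S) (h₁ : F.StronglyClosed S₁) (h₂ : F.StronglyClosed S₂)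
    (hR' : ∀ P : Subgroup Ω, P ≤ S₁ → R'.Hom P = F.centralizerHom S₂ P) : R'.IsNormalIn F p := by
  have hsub : R'.IsSubsystemOf F := isSubsystemOf_iff.2 fun P f hf => ((isMap_R' hR').1 hf).1.isMap
  rw [isNormalIn_iff]
  refine ⟨R'_saturated hS hF hprod h₁ h₂ hR', hF, ?_, fun a ha => ?_⟩
  · rw [invariant_iff hS hF hsub h₁]
    exact R'_sinv hS hF hprod h₁ h₂ hR'
  · obtain ⟨⟨k1, k2, g, hg, k3, k4⟩, -⟩ := (isMap_R' hR').1 ha.isMap
    have hS₂ : S₂ ≤ centralizerIn S S₁ := by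
      intro x hx
      rw [mem_centralizerIn]
      exact ⟨h₂.1 hx, fun y hy => hprod.2.2.1 y hy x hx⟩
    have hSeq : S₁ ⊔ centralizerIn S S₁ = S := by
      apply le_antisymm (sup_le h₁.1 centralizerIn_le)
      conv_lhs => rw [← hprod.2.2.2.2]
      exact sup_le_sup_left hS₂ _
    have hg' : IsMap F (S₁ ⊔ S₂) g := hg
    rw [hSeq]
    have hgi : IsIso F S S g := by
      have e : S₁ ⊔ S₂ = S := hprod.2.2.2.2
      rw [e] at hg'
      refine hg'.isIso_of (fun x hx => hg'.mem hx) ?_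
      intro y hy
      rw [← e] at hy
      obtain ⟨a', ha', b, hb, rfl⟩ := (mem_sup_of_conj (fun x hx t ht => by
        rw [hprod.2.2.1 x hx t ht, mul_inv_cancel_right]; exact ht)).1 hy
      obtain ⟨x, hx, rfl⟩ := ha.surj ha'
      refine ⟨x * b, S.mul_mem (h₁.1 hx) (h₂.1 hb), ?_⟩
      rw [hg'.map_mul (h₁.1 hx) (h₂.1 hb), k3 x hx, k4 b hb]
    refine ⟨g, hgi, k3, fun c hc => ?_⟩
    have hcS : c ∈ S := centralizerIn_le hc
    obtain ⟨z, hz, s, hs, rfl⟩ : ∃ z ∈ S₁, ∃ s ∈ S₂, z * s = c := by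
      have : c ∈ S₁ ⊔ S₂ := by rw [hprod.2.2.2.2]; exact hcS
      exact (mem_sup_of_conj (fun x hx t ht => by
        rw [hprod.2.2.1 x hx t ht, mul_inv_cancel_right]; exact ht)).1 this
    -- z is central in S₁
    have hzc : z ∈ centralizerIn S S₁ := by
      have := Subgroup.mul_mem _ hc (Subgroup.inv_mem _ (hS₂ hs))
      rwa [mul_inv_cancel_right] at this
    have hzcen := (mem_centralizerIn.1 hzc).2
    have hgz : g z ∈ S₁ := by rw [k3 z hz]; exact ha.mem hz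
    have hgzc : ∀ y ∈ S₁, y * g z = g z * y := by
      intro y hy
      obtain ⟨x, hx, rfl⟩ := ha.surj hy
      rw [← k3 x hx, ← hgi.isMap.map_mul (h₁.1 hx) (h₁.1 hz), hzcen x hx, hgi.isMap.map_mul (h₁.1 hz) (h₁.1 hx)]
    have e : (z * s)⁻¹ * g (z * s) = z⁻¹ * g z := by
      rw [hgi.isMap.map_mul (h₁.1 hz) (h₂.1 hs), k4 s hs, mul_inv_rev]
      have h1 := hprod.2.2.1 (z⁻¹ * g z) (S₁.mul_mem (S₁.inv_mem hz) hgz) s hs
      calc s⁻¹ * z⁻¹ * (g z * s) = s⁻¹ * ((z⁻¹ * g z) * s) := by group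
        _ = s⁻¹ * (s * (z⁻¹ * g z)) := by rw [h1]
        _ = _ := by group
    rw [e]
    refine Subgroup.mem_inf.2 ⟨S₁.mul_mem (S₁.inv_mem hz) hgz, ?_⟩
    rw [Subgroup.mem_centralizer_iff]
    intro y hy
    have e1 := hzcen y hy
    have e2 := hgzc y hy
    have e3 : y * z⁻¹ = z⁻¹ * y := by
      rw [mul_inv_eq_iff_eq_mul, mul_assoc, e1]; group
    rw [← mul_assoc, e3, mul_assoc, e2, mul_assoc]

end

/-- Let F be a saturated fusion system over a finite p-group S that is the direct product of two subgroups S₁ and S₂, each strongly closed in F. Let R be the full subsystem of F over S₁ (all maps of F between subgroups of S₁) and R′ the subsystem over S₁ of those maps that extend to the subgroup generated with S₂ fixing S₂ elementwise. Then R and R′ are saturated, R′ is normal in F and in R, and R is weakly normal in F. -/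
theorem result {Ω : Type*} [Group Ω] {S : Subgroup Ω} [Finite S] (p : ℕ) [Fact p.Prime] (hS : IsPGroup p S) (F : Cfsg.FusionSystem S) (hF : F.IsSaturated p) (S₁ S₂ : Subgroup Ω) (hprod : Cfsg.IsInternalDirectProduct S₁ S₂ S) (h₁ : F.StronglyClosed S₁) (h₂ : F.StronglyClosed S₂) (R R' : Cfsg.FusionSystem S₁) (hR : ∀ P : Subgroup Ω, P ≤ S₁ → R.Hom P = F.Hom P) (hR' : ∀ P : Subgroup Ω, P ≤ S₁ → R'.Hom P = F.centralizerHom S₂ P) : R.IsSaturated p ∧ R'.IsSaturated p ∧ R'.IsNormalIn F p ∧ R'.IsNormalIn R p ∧ R.IsWeaklyNormalIn F p := by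
  open Cfsg.FusionSystem H87.Base H87.Basic H87.Inv H87.Frat H87.CMap H87.Sat in
  have hRs := R_saturated hS hF hprod h₁ h₂ hR
  have hsubR : R.IsSubsystemOf F := H87.Basic.isSubsystemOf_iff.2 fun P f hf => ((isMap_R hR).1 hf).1
  have hfin : Finite S₁ := H87.Basic.finite_of_le h₁.1
  refine ⟨hRs, R'_saturated hS hF hprod h₁ h₂ hR', R'_normal hS hF hprod h₁ h₂ hR', ?_, hRs, hF, ?_⟩
  · have hsub : R'.IsSubsystemOf R := H87.Basic.isSubsystemOf_iff.2 fun P f hf =>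
      (isMap_R hR).2 ⟨((isMap_R' hR').1 hf).1.isMap, ((isMap_R' hR').1 hf).2⟩
    have h3 : R.StronglyClosed S₁ := H87.Basic.stronglyClosed_iff.2 ⟨le_rfl, fun P f _ hf x hx => hf.mem hx⟩
    rw [H87.Inv.isNormalIn_iff]
    refine ⟨R'_saturated hS hF hprod h₁ h₂ hR', hRs, ?_, fun a ha => ?_⟩
    · rw [H87.Frat.invariant_iff (hS.to_le h₁.1) hRs hsub h3]
      intro P Q f h hPQ hQ hf hfQ hh
      exact R'_sinv hS hF hprod h₁ h₂ hR' P Q f h hPQ hQ hf hfQ ((isMap_R hR).1 hh).1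
    · have e : S₁ ⊔ Cfsg.FusionSystem.centralizerIn S₁ S₁ = S₁ := sup_eq_left.2 H87.Sat.centralizerIn_le
      have ha' : H87.Base.IsIso R S₁ S₁ a := by
        obtain ⟨φ, hφ, e, hr⟩ := ha
        exact ⟨φ, hsub _ hφ, e, hr⟩
      rw [e]
      refine ⟨a, ha', fun _ _ => rfl, fun c hc => ?_⟩
      have hc' := H87.Sat.mem_centralizerIn.1 hc
      refine Subgroup.mem_inf.2 ⟨S₁.mul_mem (S₁.inv_mem hc'.1) (ha.mem hc'.1), ?_⟩
      rw [Subgroup.mem_centralizer_iff]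
      intro y hy
      have e1 := hc'.2 y hy
      have e2 : y * a c = a c * y := by
        obtain ⟨x, hx, rfl⟩ := ha.surj hy
        rw [← ha.isMap.map_mul hx hc'.1, hc'.2 x hx, ha.isMap.map_mul hc'.1 hx]
      have e3 : y * c⁻¹ = c⁻¹ * y := by
        rw [mul_inv_eq_iff_eq_mul, mul_assoc, e1]; group
      rw [← mul_assoc, e3, mul_assoc, e2, mul_assoc]
  · rw [H87.Frat.invariant_iff hS hF hsubR h₁]
    intro P Q f h hPQ hQ hf hfQ hh
    have hf' := ((isMap_R hR).1 hf).1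
    have hhP := hh.mono hPQ
    obtain ⟨k, hk, k1, k2⟩ := hhP.isIso.symm
    refine ⟨h ∘ (f ∘ k), (isMap_R hR).2 ⟨(hk.isMap.comp hf' fun x hx => hk.mem hx).comp hh fun x hx => hfQ _ (hk.mem hx),
      ?_⟩, fun x hx => ?_⟩
    · intro y hy
      obtain ⟨x, hx, rfl⟩ := (H87.Base.mem_img hhP).1 hy
      exact H87.Basic.mem_of_stronglyClosed h₁ hh (hPQ hx) (hQ (hPQ hx))
    · show h (f (k (h x))) = h (f x)
      rw [k1 x hx]

end Cfsg.Agent.S5130
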