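import Cfsg.Statements.S5139
import Cfsg.Agent.Lib.H87.PPow
import Cfsg.Agent.Lib.H87.Grp
import Cfsg.Agent.Lib.H88.FocalGroup

set_option autoImplicit false
open Cfsg

namespace Cfsg.Agent.S5139

section
open Cfsg.FusionSystem H87.Base H87.Basic H87.PPow H87.Grp H88.FocalGroup H86.FusGroup

theorem eq_of_ppow' {Ω : Type*} [Group Ω] {S T T' : Subgroup Ω} {F : FusionSystem S} {p : ℕ} [Fact p.Prime]
    [Finite T] (hT : IsPGroup p T) (e : T = T') {E : FusionSystem T} {E' : FusionSystem T'}
    (hEs : E.IsSaturated p) (hE : E.HasPPowerIndexIn F p) (hEs' : E'.IsSaturated p)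
    (hE' : E'.HasPPowerIndexIn F p) : ∀ P, E.Hom P = E'.Hom P := by
  subst e
  rw [eq_of_ppow hT hEs hE hEs' hE']
  exact fun _ => rfl

theorem ppow_residual {G : Type*} [Group G] [Finite G] {p : ℕ} [Fact p.Prime] (S : Sylow p G)
    (h : (S : Subgroup G) ⊓ pResidual p G ≤ pResidual p G) :
    (fusionSystemOfSubgroup (pResidual p G) ((S : Subgroup G) ⊓ pResidual p G) h).HasPPowerIndexIn
      (groupFusionSystem (S : Subgroup G)) p := by
  rw [ppow_iff]
  refine ⟨?_, hyp_le_residual S, fun P hP α hα hc => ?_⟩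
  · rw [isSubsystemOf_iff]
    intro P f hf
    obtain ⟨h1, h2, g, hg, h3⟩ := isMap_sub_iff.1 hf
    exact isMap_group_iff.2 ⟨h1.trans inf_le_left, fun x hx => (h2 x hx).1, g, h3⟩
  · have hPS : P ≤ (S : Subgroup G) := hP.trans inf_le_left
    rw [group_autGroup hPS] at hα
    obtain ⟨g, -, hg⟩ := H87.Base.mem_autInducedBy.1 hα
    have hN := H2.Residual.isPGroup_quotient_residual (G := G) (p := p)
    obtain ⟨k, hk⟩ := hN (QuotientGroup.mk g)
    have hk' : g ^ p ^ k ∈ pResidual p G := by
      rw [← QuotientGroup.eq_one_iff]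
      exact hk
    have hcop : Nat.Coprime (p ^ k) (orderOf α) := (Nat.Coprime.pow_right k hc).symm
    obtain ⟨j, hj⟩ := exists_pow_eq_self_of_coprime hcop
    have h2 : g ^ (p ^ k * j) ∈ pResidual p G := by
      rw [pow_mul]
      exact Subgroup.pow_mem _ hk' j
    have h1 : ∀ x : P, ((α x : P) : G) = g ^ (p ^ k * j) * x * (g ^ (p ^ k * j))⁻¹ := by
      intro x
      have h1 := pow_conjAut hg (p ^ k * j) x
      rw [pow_mul, hj] at h1
      exact h1
    refine H87.Base.mem_autGroup_of_isMap hP (f := fun x => g ^ (p ^ k * j) * x * (g ^ (p ^ k * j))⁻¹) ?_ h1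
    rw [isMap_sub_iff]
    refine ⟨hP, fun x hx => ?_, _, h2, fun x _ => rfl⟩
    rw [← h1 ⟨x, hx⟩]
    exact hP (α _).2
end

/-- Let G be a finite group with Sylow p-subgroup S and O^p(G) the subgroup generated by the elements of order prime to p. Then the p-residual subsystem of the fusion system of G on S — the saturated subsystem of p-power index over the hyperfocal subgroup — is the fusion system of O^p(G) on S ∩ O^p(G): its maps are exactly the conjugation maps by elements of O^p(G) between subgroups of S ∩ O^p(G). -/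
theorem result {G : Type*} [Group G] [Finite G] (p : ℕ) [Fact p.Prime] (S : Sylow p G) (E : Cfsg.FusionSystem ((Cfsg.groupFusionSystem (S : Subgroup G)).hyperfocalSubgroup p)) (hE : (Cfsg.groupFusionSystem (S : Subgroup G)).IsPResidual p E) : ∃ h : (S : Subgroup G) ⊓ Cfsg.pResidual p G ≤ Cfsg.pResidual p G, ∀ P : Subgroup G, E.Hom P = (Cfsg.fusionSystemOfSubgroup (Cfsg.pResidual p G) ((S : Subgroup G) ⊓ Cfsg.pResidual p G) h).Hom P := by
  refine ⟨inf_le_right, ?_⟩
  have hT : IsPGroup p ((Cfsg.groupFusionSystem (S : Subgroup G)).hyperfocalSubgroup p) :=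
    S.isPGroup'.to_le (H88.Focal.hyp_le _ p)
  exact eq_of_ppow' hT (H88.FocalGroup.hyp_eq S) hE.1 hE.2
    (H87.Grp.saturated_sub (H87.Grp.sylIn_inf_normal S (Cfsg.pResidual p G))) (ppow_residual S inf_le_right)

end Cfsg.Agent.S5139
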