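import Cfsg.Statements.S5160
import Cfsg.Agent.Lib.H86.FusGroup
import Cfsg.Agent.Lib.H88.Simple

set_option autoImplicit false
open Cfsg

namespace Cfsg.Agent.S5160

/-- Let G be a finite group with nontrivial Sylow p-subgroup S and F its fusion system on S. Suppose (a) no nontrivial proper subgroup of S is strongly closed in F, and (b) the automorphisms of S induced by G are generated by those induced, for R running over the fully normalized radical centric subgroups of F, by the subgroup of N_G(R) generated by its elements of p-power order. Then F is simple. -/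
theorem result {G : Type*} [Group G] [Finite G] (p : ℕ) [Fact p.Prime] (S : Sylow p G) (hS1 : (S : Subgroup G) ≠ ⊥) (ha : ∀ T : Subgroup G, (Cfsg.groupFusionSystem (S : Subgroup G)).StronglyClosed T → T = ⊥ ∨ T = (S : Subgroup G)) (hb : Cfsg.autInducedBy ⊤ (S : Subgroup G) = ⨆ (R : Subgroup G) (_ : (Cfsg.groupFusionSystem (S : Subgroup G)).IsFullyNormalized R ∧ (Cfsg.groupFusionSystem (S : Subgroup G)).IsRadical p R ∧ (Cfsg.groupFusionSystem (S : Subgroup G)).IsCentric R), Cfsg.autInducedBy (Subgroup.closure {g : G | g ∈ Subgroup.normalizer (R : Set G) ∧ ∃ k : ℕ, orderOf g = p ^ k}) (S : Subgroup G)) : (Cfsg.groupFusionSystem (S : Subgroup G)).IsSimple p := by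
  have hSp : IsPGroup p (S : Subgroup G) := S.isPGroup'
  refine H88.Simple.isSimple_of hSp (H86.FusGroup.group_isSaturated S) hS1 ha ?_
  rw [H86.FusGroup.group_autGroup le_rfl]
  refine hb.le.trans ?_
  refine iSup_le fun R => iSup_le fun hR => ?_
  obtain ⟨hRS, hRc⟩ : R ≤ (S : Subgroup G) ∧ _ := ⟨hR.1.1, hR.2.2⟩
  unfold Cfsg.autInducedBy
  rw [Subgroup.closure_le]
  rintro α ⟨g, hg, hα⟩
  refine Subgroup.subset_closure ⟨?_, R, hRS, hRc, ?_⟩
  · exact (H86.FusBasic.mem_autInducedBy).2 ⟨g, Subgroup.mem_top g, hα⟩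
  · -- the element `g` of the closure induces an element of `O^{p'}(Aut_F(R))` on `R`
    have key : ∀ g ∈ Subgroup.closure {g : G | g ∈ Subgroup.normalizer (R : Set G) ∧ ∃ k : ℕ, orderOf g = p ^ k},
        ∃ β ∈ H88.Simple.opAut (Cfsg.groupFusionSystem (S : Subgroup G)) p R,
          ∀ x : R, ((β x : R) : G) = g * x * g⁻¹ := by
      intro g hg
      induction hg using Subgroup.closure_induction with
      | mem g hg =>
        obtain ⟨hgN, k, hk⟩ := hg
        have hgN' : g ∈ Subgroup.normalizer (R : Set G) := hgN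
        refine ⟨H86.FusBasic.conjAut R hgN', Subgroup.subset_closure ⟨?_, ?_⟩, fun x => rfl⟩
        · rw [H86.FusGroup.group_autGroup hRS]
          exact H86.FusBasic.conjAut_mem_autInducedBy hgN' (Subgroup.mem_top g)
        · have hpow : ∀ (n : ℕ) (x : R),
              (((H86.FusBasic.conjAut R hgN' ^ n) x : R) : G) = g ^ n * x * (g ^ n)⁻¹ := by
            intro n
            induction n with
            | zero => intro x; simp
            | succ n ih =>
              intro x
              rw [pow_succ', MulAut.mul_apply, H86.FusBasic.conjAut_apply, ih]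
              simp only [pow_succ', mul_inv_rev, mul_assoc]
          have h1 : H86.FusBasic.conjAut R hgN' ^ (p ^ k) = 1 := by
            ext x
            rw [hpow, ← hk, pow_orderOf_eq_one]
            simp
          obtain ⟨j, -, hj⟩ := (Nat.dvd_prime_pow (Fact.out : p.Prime)).1 (orderOf_dvd_of_pow_eq_one h1)
          exact ⟨j, hj⟩
      | one => exact ⟨1, Subgroup.one_mem _, fun x => by simp⟩
      | mul a b _ _ iha ihb =>
        obtain ⟨β, hβ, hb⟩ := iha
        obtain ⟨γ, hγ, hc⟩ := ihb
        refine ⟨β * γ, Subgroup.mul_mem _ hβ hγ, fun x => ?_⟩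
        rw [MulAut.mul_apply, hb, hc]
        group
      | inv a _ iha =>
        obtain ⟨β, hβ, hb⟩ := iha
        refine ⟨β⁻¹, Subgroup.inv_mem _ hβ, fun x => ?_⟩
        have h1 := hb (β⁻¹ x)
        rw [MulAut.apply_inv_self] at h1
        rw [h1]
        group
    obtain ⟨β, hβ, h⟩ := key g hg
    exact ⟨β, hβ, fun x => by rw [hα, h]⟩

end Cfsg.Agent.S5160
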