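import Cfsg.Statements.S5311
import Cfsg.Agent.Lib.H90.TransComp

set_option autoImplicit false
open Cfsg

namespace Cfsg.Agent.S5311

open Cfsg.FusionSystem H87.Base H87.Basic H87.Factor H90.Trans H90.TransComp

/-- The layer of a saturated fusion system F over a finite p-group S is characteristic in F: for every automorphism α of S that is an automorphism of F (α and its inverse are morphisms from F to F) and every layer E of F over T, α carries T onto T and, for every map φ of E with source P, the map induced by α on α(P) (that is, α ∘ φ ∘ α⁻¹) is a map of E. -/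
theorem result {Ω : Type*} [Group Ω] {S : Subgroup Ω} [Finite S] (p : ℕ) [Fact p.Prime] (hS : IsPGroup p S) (F : Cfsg.FusionSystem S) (hF : F.IsSaturated p)
    (α : ↥S ≃* ↥S) (hα : F.IsMorphism F (S.subtype.comp α.toMonoidHom))
    (hα' : F.IsMorphism F (S.subtype.comp α.symm.toMonoidHom))
    {T : Subgroup Ω} (E : Cfsg.FusionSystem T) (hE : E.IsLayerOf F p) :
    Cfsg.FusionSystem.imageAlong (S.subtype.comp α.toMonoidHom) T = T ∧
      ∀ (P : Subgroup Ω) (φ : ↥P →* Ω), φ ∈ E.Hom P →
        ∀ φ' : ↥(Cfsg.FusionSystem.imageAlong (S.subtype.comp α.toMonoidHom) P) →* Ω,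
          Cfsg.FusionSystem.InducedAlong (S.subtype.comp α.toMonoidHom) φ φ' →
            φ' ∈ E.Hom (Cfsg.FusionSystem.imageAlong (S.subtype.comp α.toMonoidHom) P) := by
  obtain ⟨u, v, htr, hu, hv⟩ := exists_tr α
  have hext : ∀ x ∈ S, extFun (S.subtype.comp α.toMonoidHom) x = u x := by
    intro x hx
    rw [extFun_apply _ hx]
    exact (hu ⟨x, hx⟩).symm
  have hext' : ∀ x ∈ S, extFun (S.subtype.comp α.symm.toMonoidHom) x = v x := by
    intro x hx
    rw [extFun_apply _ hx]
    exact (hv ⟨x, hx⟩).symm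
  have himg : ∀ P : Subgroup Ω, P ≤ S → imageAlong (S.subtype.comp α.toMonoidHom) P = him P u := by
    intro P hP
    ext y
    rw [mem_imageAlong, htr.mem_him hP]
    constructor
    · rintro ⟨x, hx, hxS, rfl⟩
      exact ⟨x, hx, (hext x hxS).symm⟩
    · rintro ⟨x, hx, rfl⟩
      exact ⟨x, hx, hP hx, hext x (hP hx)⟩
  have himg' : ∀ P : Subgroup Ω, P ≤ S → imageAlong (S.subtype.comp α.symm.toMonoidHom) P = him P v := by
    intro P hP
    ext y
    rw [mem_imageAlong, htr.symm.mem_him hP]
    constructor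
    · rintro ⟨x, hx, hxS, rfl⟩
      exact ⟨x, hx, (hext' x hxS).symm⟩
    · rintro ⟨x, hx, rfl⟩
      exact ⟨x, hx, hP hx, hext' x (hP hx)⟩
  have hrel : Rel u v F F := by
    refine ⟨htr, fun P a hP ha => ⟨fun h => ?_, fun h => ?_⟩⟩
    · obtain ⟨f', hf', hi⟩ := (isMorphism_iff.1 hα).2 P a h
      rw [himg P hP] at hf'
      refine hf'.congr fun y hy => ?_
      obtain ⟨x, hx, rfl⟩ := (htr.mem_him hP).1 hy
      have h1 := hi x hx
      rw [hext x (hP hx), hext _ (ha x hx)] at h1
      rw [h1]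
      unfold tmap
      rw [htr.left x (hP hx)]
    · obtain ⟨f', hf', hi⟩ := (isMorphism_iff.1 hα').2 _ _ h
      rw [himg' _ (htr.him_le hP), htr.him_him hP] at hf'
      refine hf'.congr fun x hx => ?_
      have hux : u x ∈ him P u := Tr.apply_mem_him hx
      have h1 := hi (u x) hux
      have h2 : tmap u v a (u x) = u (a x) := by
        unfold tmap
        rw [htr.left x (hP hx)]
      rw [hext' _ (htr.mem x (hP hx)), h2, hext' _ (htr.mem _ (ha x hx)), htr.left x (hP hx), htr.left _ (ha x hx)] at h1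
      exact h1
  have hT : T ≤ S := hE.1.1.2.2.2.1.1
  obtain ⟨E', hE'⟩ := exists_rel (htr.restrict hT) E
  have hL : E'.IsLayerOf F p := isLayerOf hrel hE' hS hE
  have h1 : E.IsSubsystemOf E' := layer_unique hE hL
  have h2 : E'.IsSubsystemOf E := layer_unique hL hE
  have hTT : him T u = T := le_antisymm (H87.Inv.le_of_isSubsystemOf h2) (H87.Inv.le_of_isSubsystemOf h1)
  refine ⟨by rw [himg T hT, hTT], fun P φ hφ φ' hind => ?_⟩
  have hP : P ≤ S := (E.le_of_mem hφ).1.trans hT
  apply h2
  have hφS : ∀ x ∈ P, extFun φ x ∈ T := fun x hx => (isMap_of_mem hφ).mem hx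
  obtain ⟨-, -, -, hi⟩ := (inducedAlong_iff (f := extFun φ) (f' := extFun φ') (fun x => (extFun_coe _ x).symm)
    (fun x => (extFun_coe _ x).symm)).1 hind
  have h4 := hE'.isMap (isMap_of_mem hφ)
  rw [← himg P hP] at h4
  refine mem_of_isMap (f := extFun φ') ?_ (fun x => (extFun_coe _ x).symm)
  refine h4.congr fun y hy => ?_
  rw [himg P hP] at hy
  obtain ⟨x, hx, rfl⟩ := (htr.mem_him hP).1 hy
  have h5 := hi x hx
  rw [hext x (hP hx), hext _ (hT (hφS x hx))] at h5
  rw [h5]
  unfold tmap
  rw [htr.left x (hP hx)]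

end Cfsg.Agent.S5311
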