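import Cfsg.Statements.S5346
import Cfsg.Agent.Lib.H90.ThreeTransC

set_option autoImplicit false
open Cfsg

namespace Cfsg.Agent.S5346

open H90.ThreeTrans H90.ThreeTransB H90.WidthOne H90.ThreeTransC

theorem eq_one_of_sq {G : Type*} [Group G] {P : Subgroup G} (hP : IsPGroup 3 P) {x : G} (hx : x ∈ P) (h : x * x = 1) : x = 1 := by
  obtain ⟨k, hk⟩ := hP ⟨x, hx⟩
  have hk' : x ^ (3 ^ k) = 1 := congrArg Subtype.val hk
  have h2 : x ^ 2 = 1 := by rw [pow_two, h]
  have hcop : Nat.Coprime 2 (3 ^ k) := Nat.Coprime.pow_right k (by norm_num)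
  rw [← orderOf_eq_one_iff]
  exact Nat.eq_one_of_dvd_coprimes hcop (orderOf_dvd_of_pow_eq_one h2) (orderOf_dvd_of_pow_eq_one hk')

/-- Let D be a conjugation-invariant generating set of 3-transpositions of a finite group G and d a member of D. Then D has width 1 (no two different members of D commute) if and only if G is the product of the subgroup generated by d with the largest normal 3-subgroup of G. -/
theorem result {G : Type*} [Group G] [Finite G] {D : Set G} (hD : Cfsg.IsThreeTranspositionGroup D) {d : G} (hd : d ∈ D) : Cfsg.commutingWidth D = 1 ↔ Subgroup.zpowers d ⊔ Cfsg.pCore 3 G = ⊤ := by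
  have h3 : Fact (Nat.Prime 3) := ⟨Nat.prime_three⟩
  have hn : (pCore 3 G).Normal := Subgroup.sSup_normal _ fun N hN => hN.1
  rw [width_eq_one_iff hD hd]
  constructor
  · intro hw
    have hkei : Kei D := kei_of_no_commute hD le_rfl (fun a ha b hb => mul_mul_mem hD ha hb) hw
    have hp := hkei.isPGroup
    have hNn : (Subgroup.closure {x : G | ∃ a ∈ D, ∃ b ∈ D, x = a * b}).Normal := by
      apply normal_closure_of_conj
      rintro g _ ⟨a, ha, b, hb, rfl⟩
      exact ⟨g * a * g⁻¹, conj_mem hD g ha, g * b * g⁻¹, conj_mem hD g hb, by group⟩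
    have hle : Subgroup.closure {x : G | ∃ a ∈ D, ∃ b ∈ D, x = a * b} ≤ pCore 3 G := le_sSup ⟨hNn, hp⟩
    rw [eq_top_iff, ← hD.2.2, Subgroup.closure_le]
    intro a ha
    have h1 : d * a ∈ pCore 3 G := hle (Subgroup.subset_closure ⟨d, hd, a, ha, rfl⟩)
    have h2 : a = d⁻¹ * (d * a) := by group
    rw [h2]
    exact Subgroup.mul_mem _ ((le_sup_left : _ ≤ Subgroup.zpowers d ⊔ _) (Subgroup.inv_mem _ (Subgroup.mem_zpowers d)))
      ((le_sup_right : pCore 3 G ≤ Subgroup.zpowers d ⊔ _) h1)
  · intro htop
    have hp : IsPGroup 3 (pCore 3 G) := H1.Cores.isPGroup_pCore 3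
    have sd := mul_self hD.1 hd
    -- every member of D is congruent to d
    have key : ∀ a ∈ D, d * a ∈ pCore 3 G := by
      intro a ha
      have ha' : a ∈ Subgroup.zpowers d ⊔ pCore 3 G := by rw [htop]; trivial
      rw [Subgroup.mem_sup_of_normal_right] at ha'
      obtain ⟨y, ⟨k, rfl⟩, z, hz, hyz⟩ := ha'
      rcases Int.even_or_odd k with ⟨m, rfl⟩ | ⟨m, rfl⟩
      · exfalso
        have h1 : d ^ (m + m) = 1 := by
          rw [← two_mul, zpow_mul, zpow_two, sd, one_zpow]
        have h2 : a = z := by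
          rw [← hyz]
          show d ^ (m + m) * z = z
          rw [h1, one_mul]
        have h4 : a = 1 := eq_one_of_sq hp (h2 ▸ hz) (mul_self hD.1 ha)
        have h5 := hD.1.1 a ha
        rw [h4, orderOf_one] at h5
        norm_num at h5
      · have h1 : d ^ (2 * m + 1) = d := by
          rw [zpow_add, zpow_mul, zpow_two, sd, one_zpow, one_mul, zpow_one]
        have h2 : a = d * z := by
          rw [← hyz]
          show d ^ (2 * m + 1) * z = d * z
          rw [h1]
        rw [h2, ← mul_assoc, sd, one_mul]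
        exact hz
    intro a ha b hb hab
    have h1 := key a ha
    have h2 := key b hb
    have h4 : (d * a)⁻¹ * (d * b) ∈ pCore 3 G := Subgroup.mul_mem _ (Subgroup.inv_mem _ h1) h2
    have h5 : (d * a)⁻¹ * (d * b) = a * b := by
      rw [mul_inv_rev, inv_eq hD.1 ha]; group
    rw [h5] at h4
    have h6 : a * b = 1 := by
      apply eq_one_of_sq hp h4
      calc a * b * (a * b) = a * (b * a) * b := by group
        _ = a * (a * b) * b := by rw [hab.eq]
        _ = (a * a) * (b * b) := by group
        _ = 1 := by rw [mul_self hD.1 ha, mul_self hD.1 hb, one_mul]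
    have h7 := eq_inv_of_mul_eq_one_left h6
    rw [h7, inv_eq hD.1 hb]

end Cfsg.Agent.S5346
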