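import Cfsg.Statements.S5348

set_option autoImplicit false
open Cfsg

namespace Cfsg.Agent.S5348

/-- Let D be a conjugation-invariant generating set of 3-transpositions of a finite group G and d a member of D. Let V be the set of members of D commuting with exactly the same members of D as d, and W the set of members w of D such that the members of D other than w commuting with w are precisely the members of D other than d commuting with d. Then V = {d} or W = {d}. -/
theorem result {G : Type*} [Group G] [Finite G] {D : Set G} (hD : Cfsg.IsThreeTranspositionGroup D) {d : G} (hd : d ∈ D) : {v : G | v ∈ D ∧ ∀ e ∈ D, Commute v e ↔ Commute d e} = {d} ∨ {w : G | w ∈ D ∧ {y : G | y ∈ D ∧ y ≠ d ∧ Commute d y} = {y : G | y ∈ D ∧ y ≠ w ∧ Commute w y}} = {d} := by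
  by_contra hcon
  push Not at hcon
  obtain ⟨h1, h2⟩ := hcon
  have hv : ∃ v, (v ∈ D ∧ ∀ e ∈ D, Commute v e ↔ Commute d e) ∧ v ≠ d := by
    by_contra hno
    push Not at hno
    apply h1
    ext v
    constructor
    · intro hv
      exact hno v hv
    · rintro rfl
      exact ⟨hd, fun e _ => Iff.rfl⟩
  have hw : ∃ w, (w ∈ D ∧ {y : G | y ∈ D ∧ y ≠ d ∧ Commute d y} = {y : G | y ∈ D ∧ y ≠ w ∧ Commute w y}) ∧ w ≠ d := by
    by_contra hno
    push Not at hno
    apply h2
    ext w
    constructor
    · intro hw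
      exact hno w hw
    · rintro rfl
      exact ⟨hd, rfl⟩
  obtain ⟨v, ⟨hvD, hv⟩, hvd⟩ := hv
  obtain ⟨w, ⟨hwD, hw⟩, hwd⟩ := hw
  -- v commutes with d
  have hdv : Commute d v := (hv v hvD).1 (Commute.refl v)
  have hv' : v ∈ {y : G | y ∈ D ∧ y ≠ w ∧ Commute w y} := by
    rw [← hw]
    exact ⟨hvD, hvd, hdv⟩
  have hdw : Commute d w := (hv w hwD).1 hv'.2.2.symm
  have hww : w ∈ {y : G | y ∈ D ∧ y ≠ w ∧ Commute w y} := by
    rw [← hw]
    exact ⟨hwD, hwd, hdw⟩
  exact hww.2.1 rfl

end Cfsg.Agent.S5348
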