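import Cfsg.Statements.S5349
import Cfsg.Agent.Lib.H90.ThreeTransC

set_option autoImplicit false
open Cfsg

namespace Cfsg.Agent.S5349

open H90.ThreeTrans H90.ThreeTransB H90.ThreeTransC

/-- Let D be a conjugacy class of 3-transpositions generating the finite group G, with at least two members, and d a member of D. Then the set of members of D commuting with exactly the same members of D as d coincides with the set of members of D lying in the coset of d modulo the largest normal 2-subgroup of G, and also with the orbit of d under conjugation by that normal 2-subgroup. -/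
theorem result {G : Type*} [Group G] [Finite G] {D : Set G} (hD : Cfsg.IsThreeTranspositionClass D) (hD2 : ∃ a ∈ D, ∃ b ∈ D, a ≠ b) {d : G} (hd : d ∈ D) : {v : G | v ∈ D ∧ ∀ e ∈ D, Commute v e ↔ Commute d e} = {v : G | v ∈ D ∧ d⁻¹ * v ∈ Cfsg.pCore 2 G} ∧ {v : G | v ∈ D ∧ ∀ e ∈ D, Commute v e ↔ Commute d e} = {v : G | ∃ g ∈ Cfsg.pCore 2 G, v = g * d * g⁻¹} := by
  have hG := group_of_class hD
  have hn : (pCore 2 G).Normal := Subgroup.sSup_normal _ fun N hN => hN.1
  have hdinv : d⁻¹ = d := inv_eq hD.1 hd
  have h1 : ∀ v : G, (v ∈ D ∧ ∀ e ∈ D, Commute v e ↔ Commute d e) ↔ (v ∈ D ∧ d⁻¹ * v ∈ pCore 2 G) := by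
    intro v
    constructor
    · rintro ⟨hv, h⟩
      refine ⟨hv, ?_⟩
      rw [hdinv]
      exact vpair_mem hG hd hv h
    · rintro ⟨hv, h⟩
      exact ⟨hv, vrel_of_mem hG hd hv h⟩
  have h2 : ∀ v : G, (v ∈ D ∧ ∀ e ∈ D, Commute v e ↔ Commute d e) ↔ ∃ g ∈ pCore 2 G, v = g * d * g⁻¹ := by
    intro v
    constructor
    · rintro ⟨hv, h⟩
      -- an element not commuting with d
      obtain ⟨c, hc, hcd⟩ : ∃ c ∈ D, ¬ Commute d c := by
        by_contra hcon
        push Not at hcon
        have hcen : d ∈ Subgroup.center G := by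
          rw [Subgroup.mem_center_iff]
          intro g
          have hg : g ∈ Subgroup.closure D := by rw [hG.2.2]; trivial
          have : Subgroup.closure D ≤ Subgroup.centralizer {d} := by
            rw [Subgroup.closure_le]
            intro x hx
            exact Subgroup.mem_centralizer_singleton_iff.2 ((hcon x hx).symm.eq)
          exact (Subgroup.mem_centralizer_singleton_iff.1 (this hg))
        obtain ⟨a, ha, b, hb, hne⟩ := hD2
        obtain ⟨e, he, heq⟩ := hD.2.1
        have hall : ∀ x ∈ D, x = d := by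
          intro x hx
          have h1 : IsConj e x := by rw [heq] at hx; exact hx
          have h2 : IsConj e d := by rw [heq] at hd; exact hd
          obtain ⟨g, hg⟩ := isConj_iff.1 (h2.symm.trans h1)
          rw [← hg, (Subgroup.mem_center_iff.1 hcen g), mul_inv_cancel_right]
        exact hne ((hall a ha).trans (hall b hb).symm)
      have hcv : ¬ Commute v c := fun h' => hcd ((h c hc).1 h')
      have hdv : Commute v d := (h d hd).2 (Commute.refl d)
      have b1 := braid hG.1 hd hc hcd
      have b2 := braid hG.1 hv hc hcv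
      have sd := mul_self hG.1 hd
      have sc := mul_self hG.1 hc
      have sv := mul_self hG.1 hv
      have hdv' : d * v ∈ pCore 2 G := vpair_mem hG hd hv h
      refine ⟨c * (d * v) * c⁻¹, hn.conj_mem _ hdv' c, ?_⟩
      have hcinv : c⁻¹ = c := inv_eq hD.1 hc
      have hvinv : v⁻¹ = v := inv_eq hD.1 hv
      rw [mul_inv_rev, mul_inv_rev, mul_inv_rev, inv_inv, hcinv, hdinv, hvinv]
      symm
      calc c * (d * v) * c * d * (c * (v * d * c)) = c * (d * v) * (c * d * c) * (v * d * c) := by group
        _ = c * (d * v) * (d * c * d) * (v * d * c) := by rw [b1]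
        _ = c * (d * v) * (d * c * d) * (d * v * c) := by rw [hdv.eq]
        _ = c * (d * v * d) * c * (d * d) * v * c := by group
        _ = c * (v * d * d) * c * (d * d) * v * c := by rw [hdv.eq]
        _ = c * v * (d * d) * c * (d * d) * v * c := by group
        _ = c * (v * c * v) * c := by rw [sd]; group
        _ = c * (c * v * c) * c := by rw [b2]
        _ = (c * c) * v * (c * c) := by group
        _ = v := by rw [sc]; group
    · rintro ⟨g, hg, rfl⟩
      rw [h1]
      refine ⟨conj_mem hG g hd, ?_⟩
      have : d⁻¹ * (g * d * g⁻¹) = (d⁻¹ * g * d⁻¹⁻¹) * g⁻¹ := by group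
      rw [this]
      exact Subgroup.mul_mem _ (hn.conj_mem _ hg _) (Subgroup.inv_mem _ hg)
  exact ⟨Set.ext h1, Set.ext h2⟩

end Cfsg.Agent.S5349
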