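import Cfsg.Statements.S5350
import Cfsg.Agent.Lib.H90.ThreeTransC

set_option autoImplicit false
open Cfsg

namespace Cfsg.Agent.S5350

open H90.ThreeTrans H90.ThreeTransB H90.WidthOne H90.ThreeTransC

/-- Let D be a conjugacy class of 3-transpositions generating the finite group G, with at least two members, and d a member of D. Then the set of members w of D whose commuting partners in D (other than w) are exactly those of d (other than d) coincides with the set of members of D lying in the coset of d modulo the largest normal 3-subgroup of G, and also with the orbit of d under conjugation by that normal 3-subgroup. -/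
theorem result {G : Type*} [Group G] [Finite G] {D : Set G} (hD : Cfsg.IsThreeTranspositionClass D) (hD2 : ∃ a ∈ D, ∃ b ∈ D, a ≠ b) {d : G} (hd : d ∈ D) : {w : G | w ∈ D ∧ {y : G | y ∈ D ∧ y ≠ d ∧ Commute d y} = {y : G | y ∈ D ∧ y ≠ w ∧ Commute w y}} = {w : G | w ∈ D ∧ d⁻¹ * w ∈ Cfsg.pCore 3 G} ∧ {w : G | w ∈ D ∧ {y : G | y ∈ D ∧ y ≠ d ∧ Commute d y} = {y : G | y ∈ D ∧ y ≠ w ∧ Commute w y}} = {w : G | ∃ g ∈ Cfsg.pCore 3 G, w = g * d * g⁻¹} := by
  have hG := group_of_class hD
  have hn : (pCore 3 G).Normal := Subgroup.sSup_normal _ fun N hN => hN.1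
  have hdinv : d⁻¹ = d := inv_eq hD.1 hd
  have hrel : ∀ w : G, {y : G | y ∈ D ∧ y ≠ d ∧ Commute d y} = {y : G | y ∈ D ∧ y ≠ w ∧ Commute w y} ↔ WRel D d w := by
    intro w
    constructor
    · intro h y hy
      have := Set.ext_iff.1 h y
      simp only [Set.mem_setOf_eq, hy, true_and] at this
      exact this
    · intro h
      ext y
      simp only [Set.mem_setOf_eq]
      constructor
      · rintro ⟨hy, h1⟩
        exact ⟨hy, (h y hy).1 h1⟩
      · rintro ⟨hy, h1⟩
        exact ⟨hy, (h y hy).2 h1⟩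
  have h1 : ∀ w : G, (w ∈ D ∧ {y : G | y ∈ D ∧ y ≠ d ∧ Commute d y} = {y : G | y ∈ D ∧ y ≠ w ∧ Commute w y}) ↔
      (w ∈ D ∧ d⁻¹ * w ∈ pCore 3 G) := by
    intro w
    rw [hrel]
    constructor
    · rintro ⟨hw, h⟩
      refine ⟨hw, ?_⟩
      rw [hdinv]
      exact wpair_mem hG hd hw h
    · rintro ⟨hw, h⟩
      exact ⟨hw, wrel_of_mem hG hd hw h⟩
  refine ⟨Set.ext h1, Set.ext fun w => ?_⟩
  constructor
  · rintro ⟨hw, h⟩
    rw [hrel] at h
    by_cases hc : Commute d w
    · refine ⟨1, Subgroup.one_mem _, ?_⟩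
      rw [← h.eq_of_commute hw hc]
      simp
    · refine ⟨d * w, wpair_mem hG hd hw h, ?_⟩
      have b1 := braid hG.1 hd hw hc
      have sd := mul_self hG.1 hd
      have sw := mul_self hG.1 hw
      rw [mul_inv_rev, hdinv, inv_eq hD.1 hw]
      symm
      calc d * w * d * (w * d) = (d * w * d) * w * d := by group
        _ = (w * d * w) * w * d := by rw [b1]
        _ = w * d * (w * w) * d := by group
        _ = w * (d * d) := by rw [sw]; group
        _ = w := by rw [sd, mul_one]
  · rintro ⟨g, hg, rfl⟩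
    show _ ∧ _
    rw [h1]
    refine ⟨conj_mem hG g hd, ?_⟩
    have : d⁻¹ * (g * d * g⁻¹) = (d⁻¹ * g * d⁻¹⁻¹) * g⁻¹ := by group
    rw [this]
    exact Subgroup.mul_mem _ (hn.conj_mem _ hg _) (Subgroup.inv_mem _ hg)

end Cfsg.Agent.S5350
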