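import Cfsg.Statements.S5354
import Cfsg.Agent.Lib.H90.ThreeTransI

set_option autoImplicit false
open Cfsg

namespace Cfsg.Agent.S5354

open H90.ThreeTransB H90.ThreeTransE H90.ThreeTransF H90.ThreeTransG H90.ThreeTransI

/-- Let D be a conjugation-invariant generating set of 3-transpositions of the finite group G on which G acts primitively by conjugation, and suppose two different members of D commute (width at least 2). Then G has a quasisimple normal subgroup L of index at most 2 with the generalized Fitting subgroup of G equal to L times the centre, the commuting graph of D is connected, and for d in D the subgroup generated by the members of D commuting with d is a maximal D-subgroup: it is proper, and every subgroup generated by members of D that contains it is either it or G. -/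
theorem result {G : Type*} [Group G] [Finite G] {D : Set G} (hD : Cfsg.IsThreeTranspositionGroup D) (hprim : Cfsg.IsPrimitiveUnderConj D) (hw : ∃ a ∈ D, ∃ b ∈ D, a ≠ b ∧ Commute a b) : (∃ L : Subgroup G, L.Normal ∧ Cfsg.IsQuasisimple L ∧ L.index ≤ 2 ∧ Cfsg.generalizedFittingSubgroup G = L ⊔ Subgroup.center G) ∧ (Cfsg.commutingGraph D).Connected ∧ ∀ d ∈ D, Subgroup.closure {y : G | y ∈ D ∧ Commute d y} ≠ ⊤ ∧ ∀ H : Subgroup G, Cfsg.IsDSubgroup D H → Subgroup.closure {y : G | y ∈ D ∧ Commute d y} ≤ H → H = Subgroup.closure {y : G | y ∈ D ∧ Commute d y} ∨ H = ⊤ := by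
  have hC := class_of_prim hD hprim
  have hconn := connected hD hprim hw
  obtain ⟨L, nL, hL, hF⟩ := exists_quasisimple hC hprim.2.1 (O2_central hD hprim) (O3_central hD hprim hw)
  refine ⟨⟨L, nL, hL, index_le_two hC nL hL hconn, hF⟩, hconn, fun d hd => ⟨?_, fun H hH hle => maximal hD hprim hw hd H hH hle⟩⟩
  intro htop
  obtain ⟨c, hc, hdc⟩ := exists_not_commute hC hprim.2.1 hd
  apply hdc
  have h1 : c ∈ Subgroup.closure {y : G | y ∈ D ∧ Commute d y} := by rw [htop]; trivial
  have h2 : Subgroup.closure {y : G | y ∈ D ∧ Commute d y} ≤ Subgroup.centralizer {d} := by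
    rw [Subgroup.closure_le]
    intro y hy
    exact Subgroup.mem_centralizer_singleton_iff.2 hy.2.eq.symm
  exact (Subgroup.mem_centralizer_singleton_iff.1 (h2 h1)).symm

end Cfsg.Agent.S5354
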