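import Cfsg.Statements.S5355
import Cfsg.Agent.Lib.H90.ThreeTransE

set_option autoImplicit false
open Cfsg

namespace Cfsg.Agent.S5355

open H90.ThreeTrans H90.ThreeTransB H90.ThreeTransC H90.ThreeTransE

section
variable {G : Type*} [Group G] {D : Set G} (hG : IsThreeTranspositionGroup D) (st : G → G)
  (hst : ∀ x ∈ D, st x ∈ D ∧ st x ≠ x ∧ ∀ y ∈ D, Commute x y ↔ (y = x ∨ y = st x))
include hG hst

theorem st_eq {x y : G} (hx : x ∈ D) (hy : y ∈ D) (hne : y ≠ x) (hc : Commute x y) : y = st x :=
  (((hst x hx).2.2 y hy).1 hc).resolve_left hne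

theorem st_commute {x : G} (hx : x ∈ D) : Commute x (st x) := ((hst x hx).2.2 _ (hst x hx).1).2 (Or.inr rfl)

theorem st_conj {x : G} (hx : x ∈ D) (g : G) : st (g * x * g⁻¹) = g * st x * g⁻¹ := by
  symm
  apply st_eq hG st hst (conj_mem hG g hx) (conj_mem hG g (hst x hx).1)
  · intro h
    exact (hst x hx).2.1 (mul_left_cancel (mul_right_cancel h))
  · exact (st_commute hG st hst hx).map (MulAut.conj g).toMonoidHom

theorem not_commute_st {p q : G} (hp : p ∈ D) (hq : q ∈ D) (h : ¬ Commute p q) : ¬ Commute (st p) q := by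
  intro hc
  have h1 := ((hst _ (hst p hp).1).2.2 q hq).1 hc
  have h2 : st (st p) = p := by
    symm
    exact st_eq hG st hst (hst p hp).1 hp (hst p hp).2.1.symm (st_commute hG st hst hp).symm
  rw [h2] at h1
  rcases h1 with h1 | h1
  · exact h (h1 ▸ st_commute hG st hst hp)
  · exact h (h1 ▸ Commute.refl p)

/-- the partner of `q` in terms of `p` -/
theorem st_formula {p q : G} (hp : p ∈ D) (hq : q ∈ D) (h : ¬ Commute p q) :
    st q = p * st p * q * (p * st p) := by
  have hp' := (hst p hp).1
  have h' := not_commute_st hG st hst hp hq h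
  have b1 := braid hG.1 hp hq h
  have b2 := braid hG.1 hp' hq h'
  have sp := mul_self hG.1 hp
  have sp' := mul_self hG.1 hp'
  have sq := mul_self hG.1 hq
  have hc : p * st p = st p * p := st_commute hG st hst hp
  symm
  apply st_eq hG st hst hq
  · have h1 := mul_mul_mem hG hp (mul_mul_mem hG hp' hq)
    convert h1 using 1
    calc p * st p * q * (p * st p) = p * st p * q * (st p * p) := by rw [← hc]
      _ = _ := by group
  · intro he
    have h1 : st p * q * st p = p * q * p := by
      calc st p * q * st p = p * (p * st p * q * (p * st p)) * p := by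
            calc st p * q * st p = (p * p) * st p * q * st p * (p * p) := by rw [sp]; group
              _ = p * (p * st p * q * (st p * p)) * p := by group
              _ = _ := by rw [← hc]
        _ = p * q * p := by rw [he]
    rw [b1, b2] at h1
    have h2 : q * st p = q * p := mul_right_cancel h1
    exact (hst p hp).2.1 (mul_left_cancel h2)
  · show q * (p * st p * q * (p * st p)) = p * st p * q * (p * st p) * q
    symm
    calc p * st p * q * (p * st p) * q = p * st p * q * (st p * p) * q := by rw [← hc]
      _ = p * (st p * q * st p) * (p * q) := by group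
      _ = p * (q * st p * q) * (p * q) := by rw [b2]
      _ = p * q * st p * (q * p * q) := by group
      _ = p * q * st p * (p * q * p) := by rw [b1]
      _ = p * q * (st p * p) * q * p := by group
      _ = p * q * (p * st p) * q * p := by rw [← hc]
      _ = (p * q * p) * st p * q * p := by group
      _ = (q * p * q) * st p * q * p := by rw [b1]
      _ = q * p * (q * st p * q) * p := by group
      _ = q * p * (st p * q * st p) * p := by rw [b2]
      _ = q * (p * st p * q * (st p * p)) := by group
      _ = q * (p * st p * q * (p * st p)) := by rw [← hc]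

theorem z_sq {p : G} (hp : p ∈ D) : (p * st p) * (p * st p) = 1 := by
  have hc : p * st p = st p * p := st_commute hG st hst hp
  calc (p * st p) * (p * st p) = (p * st p) * (st p * p) := by rw [← hc]
    _ = p * (st p * st p) * p := by group
    _ = 1 := by rw [mul_self hG.1 (hst p hp).1, mul_one, mul_self hG.1 hp]

theorem z_swap {p q : G} (hp : p ∈ D) (hq : q ∈ D) (h : ¬ Commute p q) : st p * (q * st q) = (q * st q) * p := by
  have h1 := st_formula hG st hst hq hp (fun h' => h h'.symm)
  have h2 := z_sq hG st hst hq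
  calc st p * (q * st q) = (q * st q) * p * ((q * st q) * (q * st q)) := by rw [h1]; group
    _ = _ := by rw [h2, mul_one]

theorem z_swap' {p q : G} (hp : p ∈ D) (hq : q ∈ D) (h : ¬ Commute p q) : p * (q * st q) = (q * st q) * st p := by
  have h1 := st_formula hG st hst hq hp (fun h' => h h'.symm)
  have h2 := z_sq hG st hst hq
  calc p * (q * st q) = ((q * st q) * (q * st q)) * p * (q * st q) := by rw [h2, one_mul]
    _ = (q * st q) * ((q * st q) * p * (q * st q)) := by group
    _ = _ := by rw [← h1]

theorem z_comm {p q : G} (hp : p ∈ D) (hq : q ∈ D) (h : ¬ Commute p q) :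
    (p * st p) * (q * st q) = (q * st q) * (p * st p) := by
  have hc : p * st p = st p * p := st_commute hG st hst hp
  calc (p * st p) * (q * st q) = p * (st p * (q * st q)) := by group
    _ = p * ((q * st q) * p) := by rw [z_swap hG st hst hp hq h]
    _ = (p * (q * st q)) * p := by group
    _ = (q * st q) * st p * p := by rw [z_swap' hG st hst hp hq h]
    _ = (q * st q) * (st p * p) := by group
    _ = (q * st q) * (p * st p) := by rw [hc]

theorem z_mul {p q : G} (hp : p ∈ D) (hq : q ∈ D) (h : ¬ Commute p q) :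
    (p * q * p) * st (p * q * p) = (p * st p) * (q * st q) := by
  have hinv := inv_eq hG.1 hp
  have h1 := st_conj hG st hst hq p
  rw [hinv] at h1
  have sp := mul_self hG.1 hp
  rw [h1]
  calc p * q * p * (p * st q * p) = p * q * (p * p) * st q * p := by group
    _ = p * ((q * st q) * p) := by rw [sp]; group
    _ = p * (st p * (q * st q)) := by rw [z_swap hG st hst hp hq h]
    _ = _ := by group

/-- no member of `D` avoids `a`, `b` and `a b a` -/
theorem no_third {a b x : G} (ha : a ∈ D) (hb : b ∈ D) (hx : x ∈ D) (hab : ¬ Commute a b) (hax : ¬ Commute x a)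
    (hbx : ¬ Commute x b) (hcx : ¬ Commute x (a * b * a)) : False := by
  have xinv := inv_eq hG.1 hx
  have sx := mul_self hG.1 hx
  have hc : a * b * a ∈ D := mul_mul_mem hG ha hb
  have h1 := z_mul hG st hst hx hc hcx
  rw [z_mul hG st hst ha hb hab] at h1
  have hxa : x * a * x ∈ D := mul_mul_mem hG hx ha
  have hxb : x * b * x ∈ D := mul_mul_mem hG hx hb
  have hxab : ¬ Commute (x * a * x) (x * b * x) := by
    intro h
    apply hab
    have h2 := h.map (MulAut.conj x⁻¹).toMonoidHom
    have e : ∀ y : G, (MulAut.conj x⁻¹).toMonoidHom (x * y * x) = y := by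
      intro y
      show x⁻¹ * (x * y * x) * x⁻¹⁻¹ = y
      rw [inv_inv, xinv]
      calc x * (x * y * x) * x = (x * x) * y * (x * x) := by group
        _ = y := by rw [sx, one_mul, mul_one]
    rwa [e, e] at h2
  have h2 := z_mul hG st hst hxa hxb hxab
  have e1 : x * a * x * (x * b * x) * (x * a * x) = x * (a * b * a) * x := by
    calc x * a * x * (x * b * x) * (x * a * x) = x * a * (x * x) * b * (x * x) * a * x := by group
      _ = _ := by rw [sx]; group
  rw [e1, z_mul hG st hst hx ha hax, z_mul hG st hst hx hb hbx, h1] at h2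
  set zx := x * st x
  set za := a * st a
  set zb := b * st b
  have hzx : zx * zx = 1 := z_sq hG st hst hx
  have hcm : zx * za = za * zx := z_comm hG st hst hx ha hax
  have h3 : zx * (za * zb) = za * zb := by
    calc zx * (za * zb) = zx * za * (zx * zb) := h2
      _ = za * (zx * zx) * zb := by rw [hcm]; group
      _ = za * zb := by rw [hzx, mul_one]
  have h4 : zx = 1 := mul_eq_right.1 h3
  have h5 := eq_inv_of_mul_eq_one_right h4
  rw [xinv] at h5
  exact (hst x hx).2.1 h5

end

/-- Let D be a conjugacy class of 3-transpositions generating the finite group G, with at least two members, and d a member of D. Suppose that every member of D commuting with d commutes with exactly the same members of D as d does, and that exactly one member of D other than d commutes with d. Then G is isomorphic to the symmetric group of degree 4. -/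
theorem result {G : Type*} [Group G] [Finite G] {D : Set G} (hD : Cfsg.IsThreeTranspositionClass D) (hD2 : ∃ a ∈ D, ∃ b ∈ D, a ≠ b) {d : G} (hd : d ∈ D) (hV : {y : G | y ∈ D ∧ Commute d y} = {v : G | v ∈ D ∧ ∀ e ∈ D, Commute v e ↔ Commute d e}) (hm : {y : G | y ∈ D ∧ Commute d y}.ncard = 2) : Nonempty (G ≃* Equiv.Perm (Fin 4)) := by
  classical
  have hG := group_of_class hD
  -- the partner of `d`
  obtain ⟨d', hd', hdd', hdall⟩ : ∃ d' ∈ D, d' ≠ d ∧ ∀ y ∈ D, Commute d y ↔ (y = d ∨ y = d') := by
    have hdmem : d ∈ {y : G | y ∈ D ∧ Commute d y} := ⟨hd, Commute.refl d⟩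
    rw [Set.ncard_eq_two] at hm
    obtain ⟨x, y, hxy, hset⟩ := hm
    rw [hset] at hdmem
    have key : ∀ x y : G, x ≠ y → {y : G | y ∈ D ∧ Commute d y} = {x, y} → d = x → ∃ d' ∈ D, d' ≠ d ∧ ∀ y ∈ D, Commute d y ↔ (y = d ∨ y = d') := by
      intro x y hxy hset hdx
      have hy : y ∈ {y : G | y ∈ D ∧ Commute d y} := by rw [hset]; simp
      refine ⟨y, hy.1, by rw [hdx]; exact hxy.symm, fun z hz => ?_⟩
      have := Set.ext_iff.1 hset z
      simp only [Set.mem_setOf_eq, hz, true_and, Set.mem_insert_iff, Set.mem_singleton_iff] at this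
      rw [this, hdx]
    rcases hdmem with h | h
    · exact key x y hxy hset h
    · exact key y x hxy.symm (by rw [hset, Set.pair_comm]) h
  have hall : ∀ x ∈ D, ∃ x' ∈ D, x' ≠ x ∧ ∀ y ∈ D, Commute x y ↔ (y = x ∨ y = x') := by
    intro x hx
    obtain ⟨g, rfl⟩ := exists_conj_eq hD hd hx
    refine ⟨g * d' * g⁻¹, conj_mem hG g hd', ?_, ?_⟩
    · intro h
      exact hdd' (mul_left_cancel (mul_right_cancel h))
    · intro y hy
      rw [commute_conj_iff, hdall _ (conj_mem' hG g hy)]
      constructor
      · rintro (h | h)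
        · left; rw [← h]; group
        · right; rw [← h]; group
      · rintro (h | h)
        · left; rw [h]; group
        · right; rw [h]; group
  have hex : ∃ st : G → G, ∀ x ∈ D, st x ∈ D ∧ st x ≠ x ∧ ∀ y ∈ D, Commute x y ↔ (y = x ∨ y = st x) := by
    choose! st h1 h2 h3 using hall
    exact ⟨st, fun x hx => ⟨h1 x hx, h2 x hx, h3 x hx⟩⟩
  obtain ⟨st, hst⟩ := hex
  obtain ⟨b, hb, hdb⟩ := exists_not_commute hD hD2 hd
  obtain ⟨φ, hφ, e1, e2, e3⟩ := exists_string_hom hG.1 hd hb (hst d hd).1 (hst d hd).2.1.symm
    (st_commute hG st hst hd) hdb (fun h => not_commute_st hG st hst hd hb hdb h.symm)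
  have ma : d ∈ φ.range := ⟨_, e1⟩
  have mb : b ∈ φ.range := ⟨_, e2⟩
  have ma' : st d ∈ φ.range := ⟨_, e3⟩
  have mb' : st b ∈ φ.range := by
    rw [st_formula hG st hst hd hb hdb]
    exact Subgroup.mul_mem _ (Subgroup.mul_mem _ (Subgroup.mul_mem _ ma ma') mb) (Subgroup.mul_mem _ ma ma')
  have hc : d * b * d ∈ D := mul_mul_mem hG hd hb
  have mc : d * b * d ∈ φ.range := Subgroup.mul_mem _ (Subgroup.mul_mem _ ma mb) ma
  have mc' : st (d * b * d) ∈ φ.range := by
    have := st_conj hG st hst hb d
    rw [inv_eq hG.1 hd] at this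
    rw [this]
    exact Subgroup.mul_mem _ (Subgroup.mul_mem _ ma mb') ma
  have hsub : D ⊆ φ.range := by
    intro x hx
    by_contra hxr
    have key : ∀ y ∈ D, y ∈ φ.range → st y ∈ φ.range → ¬ Commute x y := by
      intro y hy h1 h2 h3
      rcases ((hst y hy).2.2 x hx).1 h3.symm with h | h
      · exact hxr (h ▸ h1)
      · exact hxr (h ▸ h2)
    exact no_third hG st hst hd hb hx hdb (key d hd ma ma') (key b hb mb mb') (key _ hc mc mc')
  have hsurj : Function.Surjective φ := by
    rw [← MonoidHom.range_eq_top, eq_top_iff, ← hG.2.2, Subgroup.closure_le]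
    exact hsub
  exact ⟨(MulEquiv.ofBijective φ ⟨hφ, hsurj⟩).symm⟩

end Cfsg.Agent.S5355
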