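import Cfsg.Statements.S5356
import Cfsg.Agent.Lib.H90.ThreeTransE
import Cfsg.Agent.S5349

set_option autoImplicit false
open Cfsg

namespace Cfsg.Agent.S5356

open H90.ThreeTrans H90.ThreeTransB H90.WidthOne H90.ThreeTransC H90.ThreeTransE

theorem odd_order_coprime {G : Type*} [Group G] {x : G} {m n : ℕ} (h1 : x ^ m = 1) (h2 : x ^ n = 1) (h : Nat.Coprime m n) :
    x = 1 := by
  rw [← orderOf_eq_one_iff]
  exact Nat.eq_one_of_dvd_coprimes h (orderOf_dvd_of_pow_eq_one h1) (orderOf_dvd_of_pow_eq_one h2)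

/-- if `x^m` lies in `H` and `x^n` lies in `H` with `m`, `n` coprime then `x` lies in `H` -/
theorem mem_of_pow_mem {G : Type*} [Group G] {H : Subgroup G} {x : G} {m n : ℕ} (h1 : x ^ m ∈ H) (h2 : x ^ n ∈ H)
    (h : Nat.Coprime m n) : x ∈ H := by
  have hb := Nat.gcd_eq_gcd_ab m n
  rw [h] at hb
  have : x = (x ^ m) ^ (Nat.gcdA m n) * (x ^ n) ^ (Nat.gcdB m n) := by
    rw [← zpow_natCast, ← zpow_natCast, ← zpow_mul, ← zpow_mul, ← zpow_add, ← hb]
    simp
  rw [this]
  exact H.mul_mem (H.zpow_mem h1 _) (H.zpow_mem h2 _)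

/-- Let D be a conjugacy class of 3-transpositions generating the finite group G, with at least two members, and d a member of D such that every member of D commuting with d commutes with exactly the same members of D as d. Then there is a Sylow 3-subgroup P of G normalized by d such that G is generated by d, P and the largest normal 2-subgroup of G. -/
theorem result {G : Type*} [Group G] [Finite G] {D : Set G} (hD : Cfsg.IsThreeTranspositionClass D) (hD2 : ∃ a ∈ D, ∃ b ∈ D, a ≠ b) {d : G} (hd : d ∈ D) (hV : {y : G | y ∈ D ∧ Commute d y} = {v : G | v ∈ D ∧ ∀ e ∈ D, Commute v e ↔ Commute d e}) : ∃ P : Sylow 3 G, d ∈ Subgroup.normalizer (P : Set G) ∧ Subgroup.zpowers d ⊔ (P : Subgroup G) ⊔ Cfsg.pCore 2 G = ⊤ := by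
  classical
  have hG := group_of_class hD
  have f3 : Fact (Nat.Prime 3) := ⟨Nat.prime_three⟩
  have f2 : Fact (Nat.Prime 2) := ⟨Nat.prime_two⟩
  set O := pCore 2 G with hO
  have nO : O.Normal := Subgroup.sSup_normal _ fun N hN => hN.1
  have pO : IsPGroup 2 O := H1.Cores.isPGroup_pCore 2
  have sd := mul_self hG.1 hd
  have id_ := inv_eq hG.1 hd
  -- commuting members are V-related
  have hVall : ∀ x ∈ D, ∀ y ∈ D, Commute x y → VRel D x y := by
    intro x hx y hy hxy
    obtain ⟨g, rfl⟩ := exists_conj_eq hD hd hx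
    rw [commute_conj_iff] at hxy
    have h1 : g⁻¹ * y * g ∈ {v : G | v ∈ D ∧ ∀ e ∈ D, Commute v e ↔ Commute d e} := by
      rw [← hV]
      exact ⟨conj_mem' hG g hy, hxy⟩
    have h2 : VRel D d (g⁻¹ * y * g) := h1.2
    have h3 := h2.conj hG g
    have e : g * (g⁻¹ * y * g) * g⁻¹ = y := by group
    rwa [e] at h3
  -- the quotient
  let π : G →* G ⧸ O := QuotientGroup.mk' O
  have hπ : ∀ x : G, π x = 1 ↔ x ∈ O := fun x => QuotientGroup.eq_one_iff x
  have hπs : Function.Surjective π := QuotientGroup.mk'_surjective O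
  let Db : Set (G ⧸ O) := π '' D
  have hkei : Kei Db := by
    refine ⟨?_, ?_, ?_⟩
    · rintro _ ⟨a, ha, rfl⟩
      rw [← map_mul, mul_self hG.1 ha, map_one]
    · rintro _ ⟨a, ha, rfl⟩ _ ⟨b, hb, rfl⟩
      exact ⟨a * b * a, mul_mul_mem hG ha hb, by rw [map_mul, map_mul]⟩
    · rintro _ ⟨a, ha, rfl⟩ _ ⟨b, hb, rfl⟩
      by_cases hab : Commute a b
      · have h1 := vpair_mem hG ha hb (hVall a ha b hb hab)
        have h2 : π a = π b := by
          have h3 := (hπ _).2 h1
          rw [map_mul] at h3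
          have h4 := eq_inv_of_mul_eq_one_left h3
          rw [h4, ← map_inv, inv_eq hG.1 hb]
        rw [h2]
      · rw [← map_mul, ← map_mul, ← map_mul, ← map_mul, braid hG.1 ha hb hab]
  set Pb := Subgroup.closure {x : G ⧸ O | ∃ a ∈ Db, ∃ b ∈ Db, x = a * b} with hPb
  have pPb : IsPGroup 3 Pb := hkei.isPGroup
  have nPb : Pb.Normal := by
    apply normal_closure_of_conj
    rintro g _ ⟨_, ⟨a, ha, rfl⟩, _, ⟨b, hb, rfl⟩, rfl⟩
    obtain ⟨h, rfl⟩ := hπs g
    refine ⟨_, ⟨h * a * h⁻¹, conj_mem hG h ha, rfl⟩, _, ⟨h * b * h⁻¹, conj_mem hG h hb, rfl⟩, ?_⟩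
    rw [← map_mul, ← map_mul, ← map_inv, ← map_mul, ← map_mul]
    congr 1
    group
  have hmul : ∀ a ∈ D, ∀ b ∈ D, π (a * b) ∈ Pb := by
    intro a ha b hb
    exact Subgroup.subset_closure ⟨_, ⟨a, ha, rfl⟩, _, ⟨b, hb, rfl⟩, map_mul π a b⟩
  -- every element of `G` is in `Pb` or `d Pb` modulo `O`
  have hcov : ∀ g : G, π g ∈ Pb ∨ π (d * g) ∈ Pb := by
    intro g
    have hg : g ∈ Subgroup.closure D := by rw [hG.2.2]; trivial
    have conjd : ∀ y ∈ Pb, π d * y * π d ∈ Pb := by
      intro y hy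
      have h1 := nPb.conj_mem y hy (π d)
      rwa [← map_inv, id_] at h1
    induction hg using Subgroup.closure_induction with
    | mem x hx => exact Or.inr (hmul d hd x hx)
    | one => left; rw [map_one]; exact Pb.one_mem
    | mul x y _ _ hx hy =>
      have e1 : π d * π d = 1 := by rw [← map_mul, sd, map_one]
      rcases hx with hx | hx <;> rcases hy with hy | hy
      · left; rw [map_mul]; exact Pb.mul_mem hx hy
      · right
        have h1 := Pb.mul_mem (conjd _ hx) hy
        rw [map_mul] at h1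
        rw [map_mul, map_mul]
        convert h1 using 1
        calc π d * (π x * π y) = π d * π x * 1 * π y := by group
          _ = π d * π x * (π d * π d) * π y := by rw [e1]
          _ = _ := by group
      · right
        have h1 := Pb.mul_mem hx hy
        rw [← map_mul] at h1
        convert h1 using 2
        group
      · left
        have h1 := Pb.mul_mem (conjd _ hx) hy
        rw [map_mul, map_mul] at h1
        rw [map_mul]
        convert h1 using 1
        calc π x * π y = (π d * π d) * π x * (π d * π d) * π y := by rw [e1, one_mul, mul_one]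
          _ = _ := by group
    | inv x _ hx =>
      rcases hx with hx | hx
      · left; rw [map_inv]; exact Pb.inv_mem hx
      · right
        have h1 := conjd _ (Pb.inv_mem hx)
        rw [map_mul, mul_inv_rev] at h1
        rw [map_mul, map_inv]
        have e1 : (π d)⁻¹ = π d := by rw [← map_inv, id_]
        have e2 : π d * π d = 1 := by rw [← map_mul, sd, map_one]
        rw [e1] at h1
        convert h1 using 1
        calc π d * (π x)⁻¹ = π d * (π x)⁻¹ * (π d * π d) := by rw [e2, mul_one]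
          _ = π d * ((π x)⁻¹ * π d) * π d := by group
  have O_inf : ∀ x ∈ O, (∃ k : ℕ, x ^ (3 ^ k) = 1) → x = 1 := by
    rintro x hx ⟨k, hk⟩
    obtain ⟨j, hj⟩ := pO ⟨x, hx⟩
    exact odd_order_coprime (congrArg Subtype.val hj) hk (Nat.Coprime.pow _ _ (by norm_num))
  -- elements of odd order are 3-elements and map into `Pb`
  have hodd : ∀ x : G, ∀ n : ℕ, Odd n → x ^ n = 1 → ∃ k : ℕ, x ^ (3 ^ k) = 1 := by
    intro x n hn hx
    have h1 : π x ∈ Pb := by
      rcases hcov x with h | h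
      · exact h
      · -- x^2 ∈ Pb
        have h2 : π (x ^ 2) ∈ Pb := by
          have h3 := nPb.conj_mem _ h (π d)
          have h4 := Pb.mul_mem h3 h
          have e2 : π d * π d = 1 := by rw [← map_mul, sd, map_one]
          have e1 : (π d)⁻¹ = π d := by rw [← map_inv, id_]
          rw [map_mul, e1] at h4
          rw [map_pow, pow_two]
          convert h4 using 1
          calc π x * π x = (π d * π d) * π x * (π d * π d) * π x := by rw [e2, one_mul, mul_one]
            _ = _ := by group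
        rw [map_pow] at h2
        have h5 : (π x) ^ n ∈ Pb := by rw [← map_pow, hx, map_one]; exact Pb.one_mem
        exact mem_of_pow_mem h2 h5 (Nat.coprime_two_left.2 hn)
    obtain ⟨k, hk⟩ := pPb ⟨π x, h1⟩
    have hk' : (π x) ^ (3 ^ k) = 1 := congrArg Subtype.val hk
    rw [← map_pow, hπ] at hk'
    obtain ⟨j, hj⟩ := pO ⟨_, hk'⟩
    have hj' : (x ^ 3 ^ k) ^ 2 ^ j = 1 := congrArg Subtype.val hj
    refine ⟨k, odd_order_coprime hj' (n := n) ?_ ?_⟩
    · rw [← pow_mul, mul_comm, pow_mul, hx, one_pow]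
    · exact Nat.Coprime.pow_left _ (Nat.coprime_two_left.2 hn)
  have memPb : ∀ x : G, (∃ k : ℕ, x ^ (3 ^ k) = 1) → π x ∈ Pb := by
    rintro x ⟨k, hk⟩
    rcases hcov x with h | h
    · exact h
    · have h2 : π (x ^ 2) ∈ Pb := by
        have h3 := nPb.conj_mem _ h (π d)
        have h4 := Pb.mul_mem h3 h
        have e2 : π d * π d = 1 := by rw [← map_mul, sd, map_one]
        have e1 : (π d)⁻¹ = π d := by rw [← map_inv, id_]
        rw [map_mul, e1] at h4
        rw [map_pow, pow_two]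
        convert h4 using 1
        calc π x * π x = (π d * π d) * π x * (π d * π d) * π x := by rw [e2, one_mul, mul_one]
          _ = _ := by group
      rw [map_pow] at h2
      have h5 : (π x) ^ (3 ^ k) ∈ Pb := by rw [← map_pow, hk, map_one]; exact Pb.one_mem
      exact mem_of_pow_mem h2 h5 (Nat.Coprime.pow_right _ (by norm_num))
  -- Sylow subgroup of the centralizer of `d`
  let C : Subgroup G := Subgroup.centralizer {d}
  obtain ⟨Q⟩ : Nonempty (Sylow 3 C) := inferInstance
  let Q' : Subgroup G := (Q : Subgroup C).map C.subtype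
  have hQ'C : ∀ q ∈ Q', Commute d q := by
    rintro _ ⟨⟨q, hq⟩, -, rfl⟩
    exact (Subgroup.mem_centralizer_singleton_iff.1 hq).symm
  have hQ'3 : IsPGroup 3 Q' := Q.2.map _
  -- images of 3-elements centralizing d
  have hQim : ∀ y : G, Commute d y → π y ∈ Pb → ∃ q ∈ Q', π q = π y := by
    intro y hy hyP
    let f : C →* (π.comp C.subtype).range := (π.comp C.subtype).rangeRestrict
    have hf : Function.Surjective f := (π.comp C.subtype).rangeRestrict_surjective
    let Qs := Q.mapSurjective hf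
    have hN : (Pb.subgroupOf (π.comp C.subtype).range).Normal := inferInstance
    have hNp : IsPGroup 3 (Pb.subgroupOf (π.comp C.subtype).range) :=
      pPb.comap_of_injective _ (Subgroup.subtype_injective _)
    have hle : Pb.subgroupOf (π.comp C.subtype).range ≤ (Qs : Subgroup _) :=
      (H1.Cores.le_pCore hN hNp).trans (H1.Cores.pCore_le_sylow Qs)
    have hyC : y ∈ C := Subgroup.mem_centralizer_singleton_iff.2 hy.symm.eq
    have h1 : f ⟨y, hyC⟩ ∈ (Qs : Subgroup _) := hle hyP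
    rw [Sylow.coe_mapSurjective] at h1
    obtain ⟨q, hq, hqy⟩ := h1
    exact ⟨q, ⟨q, hq, rfl⟩, congrArg Subtype.val hqy⟩
  -- maximal d-invariant 3-subgroup containing Q'
  let 𝒮 : Set (Subgroup G) := {R | IsPGroup 3 R ∧ Q' ≤ R ∧ d ∈ Subgroup.normalizer (R : Set G)}
  have hQmem : Q' ∈ 𝒮 := by
    refine ⟨hQ'3, le_rfl, ?_⟩
    rw [Subgroup.mem_normalizer_iff]
    intro q
    constructor
    · intro hq
      rw [(hQ'C q hq).eq, mul_inv_cancel_right]; exact hq
    · intro hq
      have h1 := hQ'C _ hq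
      have h2 : d * q * d⁻¹ = q := by
        have h3 : d * (d * q * d⁻¹) = (d * q * d⁻¹) * d := h1
        have h4 : d * q * d⁻¹ * d = d * q := by group
        rw [h4] at h3
        exact mul_left_cancel h3
      rwa [h2] at hq
  obtain ⟨R, hQR, hRmax⟩ := (Set.toFinite 𝒮).exists_le_maximal hQmem
  have hR3 : IsPGroup 3 R := hRmax.1.1
  have hdR : d ∈ Subgroup.normalizer (R : Set G) := hRmax.1.2.2
  have hRO : ∀ x ∈ R, x ∈ O → x = 1 := by
    intro x hx hxO
    obtain ⟨k, hk⟩ := hR3 ⟨x, hx⟩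
    exact O_inf x hxO ⟨k, congrArg Subtype.val hk⟩
  -- key claim: 3-elements normalizing `R` lie in `R`
  have hkey : ∀ x ∈ Subgroup.normalizer (R : Set G), (∃ k : ℕ, x ^ (3 ^ k) = 1) → x ∈ R := by
    set Y := Subgroup.normalizer (R : Set G) with hY
    have hRY : R ≤ Y := Subgroup.le_normalizer
    have nR : (R.subgroupOf Y).Normal := Subgroup.normal_in_normalizer
    let ρ : Y →* Y ⧸ R.subgroupOf Y := QuotientGroup.mk' _
    have hρ : ∀ y : Y, ρ y = 1 ↔ (y : G) ∈ R := fun y => by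
      rw [← Subgroup.mem_subgroupOf]; exact QuotientGroup.eq_one_iff y
    have hρs : Function.Surjective ρ := QuotientGroup.mk'_surjective _
    let dY : Y := ⟨d, hdR⟩
    obtain ⟨M, nM, pM, hdM⟩ := H55.BaerSuzuki.exists_normal_of_involution (ρ dY) (by
        rw [← map_mul]
        have : dY * dY = 1 := Subtype.ext sd
        rw [this, map_one]) (by
      intro z hz hinv
      obtain ⟨y, rfl⟩ := hρs z
      -- y is a 3-element modulo R
      have h1 : ρ (y ^ orderOf (ρ y)) = 1 := by rw [map_pow, pow_orderOf_eq_one]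
      rw [hρ] at h1
      obtain ⟨k, hk⟩ := hR3 ⟨_, h1⟩
      have hk' : (y : G) ^ (orderOf (ρ y) * 3 ^ k) = 1 := by
        rw [pow_mul]; exact congrArg Subtype.val hk
      obtain ⟨j, hj⟩ := hodd (y : G) _ (hz.mul (Odd.pow (by decide))) hk'
      -- the group R⟨y⟩
      let R₁ : Subgroup G := R ⊔ Subgroup.zpowers (y : G)
      have hyN : Subgroup.zpowers (y : G) ≤ Subgroup.normalizer (R : Set G) := by
        rw [Subgroup.zpowers_le]; exact y.2
      have hy3 : IsPGroup 3 (Subgroup.zpowers (y : G)) := by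
        rintro ⟨_, i, rfl⟩
        refine ⟨j, Subtype.ext ?_⟩
        change ((y : G) ^ i) ^ 3 ^ j = 1
        rw [← zpow_natCast, ← zpow_mul, mul_comm, zpow_mul, zpow_natCast, hj, one_zpow]
      have hR₁3 : IsPGroup 3 R₁ := hR3.to_sup_of_normal_left' hy3 hyN
      have hyinv : d * (y : G) * d⁻¹ ∈ R₁ := by
        have h2 : ρ (dY * y * dY⁻¹ * y) = 1 := by
          rw [map_mul, map_mul, map_mul, map_inv, hinv, inv_mul_cancel]
        rw [hρ] at h2
        have h3 : d * (y : G) * d⁻¹ * y ∈ R := h2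
        have h4 := R₁.mul_mem (Subgroup.mem_sup_left h3 : _ ∈ R₁)
          (R₁.inv_mem (Subgroup.mem_sup_right (Subgroup.mem_zpowers (y : G)) : _ ∈ R₁))
        rwa [mul_inv_cancel_right] at h4
      have hconj : ∀ w ∈ R₁, d * w * d⁻¹ ∈ R₁ := by
        have hle : R₁ ≤ R₁.comap (MulAut.conj d).toMonoidHom := by
          refine sup_le ?_ ?_
          · intro r hr
            exact Subgroup.mem_sup_left ((Subgroup.mem_normalizer_iff.1 hdR r).1 hr)
          · rw [Subgroup.zpowers_le]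
            exact hyinv
        exact fun w hw => hle hw
      have hdR₁ : d ∈ Subgroup.normalizer (R₁ : Set G) := by
        rw [Subgroup.mem_normalizer_iff]
        intro w
        refine ⟨hconj w, fun h => ?_⟩
        have h2 := hconj _ h
        rw [id_] at h2
        have e : d * (d * w * d) * d = w := by
          calc d * (d * w * d) * d = (d * d) * w * (d * d) := by group
            _ = w := by rw [sd]; group
        rwa [e] at h2
      have hle := hRmax.2 (y := R₁) ⟨hR₁3, hRmax.1.2.1.trans le_sup_left, hdR₁⟩ le_sup_left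
      rw [hρ]
      exact hle (Subgroup.mem_sup_right (Subgroup.mem_zpowers _)))
    -- now `M` is a normal 2-subgroup of `Y/R` containing `d`
    rintro x hxY ⟨k, hk⟩
    let xY : Y := ⟨x, hxY⟩
    -- the element m = [d, x]
    have hm1 : ρ (dY * (xY * dY * xY⁻¹)) ∈ M := by
      rw [map_mul]
      refine M.mul_mem hdM ?_
      rw [map_mul, map_mul, map_inv]
      exact nM.conj_mem _ hdM _
    have hxdx : x * d * x⁻¹ ∈ D := conj_mem hG x hd
    have hm2 : π (d * (x * d * x⁻¹)) ∈ Pb := hmul d hd _ hxdx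
    have hm3 : π (d * (x * d * x⁻¹)) ∈ R.map π := by
      obtain ⟨j, hj⟩ := pM ⟨_, hm1⟩
      have hj' : ρ ((dY * (xY * dY * xY⁻¹)) ^ 2 ^ j) = 1 := by
        rw [map_pow]; exact congrArg Subtype.val hj
      rw [hρ] at hj'
      have hj2 : (d * (x * d * x⁻¹)) ^ 2 ^ j ∈ R := hj'
      obtain ⟨l, hl⟩ := pPb ⟨_, hm2⟩
      have hl' : π (d * (x * d * x⁻¹)) ^ 3 ^ l = 1 := congrArg Subtype.val hl
      refine mem_of_pow_mem (m := 2 ^ j) (n := 3 ^ l) ?_ ?_ (Nat.Coprime.pow _ _ (by norm_num))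
      · rw [← map_pow]; exact ⟨_, hj2, rfl⟩
      · rw [hl']; exact Subgroup.one_mem _
    obtain ⟨r, hrR, hr⟩ := hm3
    -- `d r d⁻¹ = r⁻¹` and `r ^ 3 = 1`
    have hπd : π d * π d = 1 := by rw [← map_mul, sd, map_one]
    have hπx : π (x * d * x⁻¹) * π (x * d * x⁻¹) = 1 := by
      rw [← map_mul, mul_self hG.1 hxdx, map_one]
    have hdr : d * r * d⁻¹ = r⁻¹ := by
      have h1 : d * r * d⁻¹ ∈ R := (Subgroup.mem_normalizer_iff.1 hdR r).1 hrR
      have h2 : π (d * r * d⁻¹ * r) = 1 := by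
        rw [map_mul, map_mul, map_mul, hr, id_, map_mul]
        calc π d * (π d * π (x * d * x⁻¹)) * π d * (π d * π (x * d * x⁻¹))
            = (π d * π d) * π (x * d * x⁻¹) * (π d * π d) * π (x * d * x⁻¹) := by group
          _ = 1 := by rw [hπd, one_mul, mul_one, hπx]
      rw [hπ] at h2
      have h3 := hRO _ (R.mul_mem h1 hrR) h2
      exact eq_inv_of_mul_eq_one_left h3
    have hr3 : r ^ 3 = 1 := by
      apply hRO _ (R.pow_mem hrR 3)
      rw [← hπ, map_pow, hr]
      by_cases hc : Commute d (x * d * x⁻¹)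
      · have h1 := vpair_mem hG hd hxdx (hVall _ hd _ hxdx hc)
        rw [(hπ _).2 h1, one_pow]
      · rw [← map_pow, cube_of_not_commute hG.1 hd hxdx hc, map_one]
    -- `r d r⁻¹` agrees with `x d x⁻¹` modulo `O`
    have hrd : π (r * d * r⁻¹) = π (x * d * x⁻¹) := by
      have e1 : r * d * r⁻¹ = r ^ 2 * d := by
        have h1 : d * r = r⁻¹ * d := by
          calc d * r = d * r * d⁻¹ * d := by group
            _ = r⁻¹ * d := by rw [hdr]
        have h2 : d * r⁻¹ = r * d := by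
          calc d * r⁻¹ = d * r⁻¹ * (d * d) := by rw [sd, mul_one]
            _ = d * (r⁻¹ * d) * d := by group
            _ = d * (d * r) * d := by rw [h1]
            _ = (d * d) * r * d := by group
            _ = r * d := by rw [sd, one_mul]
        rw [mul_assoc, h2, pow_two, mul_assoc]
      have e2 : r ^ 2 = r⁻¹ := by
        rw [eq_comm, inv_eq_iff_mul_eq_one, ← pow_succ', hr3]
      rw [e1, e2, map_mul, map_inv, hr, map_mul, mul_inv_rev]
      have e3 : (π d)⁻¹ = π d := by rw [← map_inv, id_]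
      have e4 : (π (x * d * x⁻¹))⁻¹ = π (x * d * x⁻¹) := by
        rw [← map_inv, inv_eq hG.1 hxdx]
      rw [e3, e4, mul_assoc, hπd, mul_one]
    -- `x' = r⁻¹ x`
    have hx'D : r⁻¹ * x * d * (r⁻¹ * x)⁻¹ ∈ D := conj_mem hG _ hd
    have hx'O : d⁻¹ * (r⁻¹ * x * d * (r⁻¹ * x)⁻¹) ∈ O := by
      rw [← hπ]
      have h1 : d⁻¹ * (r⁻¹ * x * d * (r⁻¹ * x)⁻¹) = d⁻¹ * r⁻¹ * (x * d * x⁻¹) * r := by group
      rw [h1, map_mul, map_mul, ← hrd, ← map_mul, ← map_mul]
      have h2 : d⁻¹ * r⁻¹ * (r * d * r⁻¹) * r = 1 := by group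
      rw [h2, map_one]
    obtain ⟨g, hgO, hg⟩ : ∃ g ∈ O, r⁻¹ * x * d * (r⁻¹ * x)⁻¹ = g * d * g⁻¹ := by
      have h1 := Cfsg.Agent.S5349.result hD hD2 hd
      have h2 : r⁻¹ * x * d * (r⁻¹ * x)⁻¹ ∈ {v : G | v ∈ D ∧ d⁻¹ * v ∈ Cfsg.pCore 2 G} := ⟨hx'D, hx'O⟩
      rw [← h1.1, h1.2] at h2
      exact h2
    -- y = g⁻¹ x' commutes with d
    have hyd : Commute d (g⁻¹ * (r⁻¹ * x)) := by
      change d * (g⁻¹ * (r⁻¹ * x)) = (g⁻¹ * (r⁻¹ * x)) * d
      calc d * (g⁻¹ * (r⁻¹ * x)) = g⁻¹ * (g * d * g⁻¹) * (r⁻¹ * x) := by group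
        _ = g⁻¹ * (r⁻¹ * x * d * (r⁻¹ * x)⁻¹) * (r⁻¹ * x) := by rw [hg]
        _ = _ := by group
    have hπy : π (g⁻¹ * (r⁻¹ * x)) = π (r⁻¹ * x) := by
      rw [map_mul, map_inv, (hπ g).2 hgO, inv_one, one_mul]
    have hπyP : π (g⁻¹ * (r⁻¹ * x)) ∈ Pb := by
      rw [hπy, map_mul, map_inv]
      exact Pb.mul_mem (Pb.inv_mem (memPb r ⟨1, by rw [pow_one]; exact hr3⟩)) (memPb x ⟨k, hk⟩)
    obtain ⟨q, hqQ, hq⟩ := hQim _ hyd hπyP
    have hqR : q ∈ R := hRmax.1.2.1 hqQ
    have hx3 : IsPGroup 3 (Subgroup.zpowers x) := by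
      rintro ⟨_, i, rfl⟩
      refine ⟨k, Subtype.ext ?_⟩
      change (x ^ i) ^ 3 ^ k = 1
      rw [← zpow_natCast, ← zpow_mul, mul_comm, zpow_mul, zpow_natCast, hk, one_zpow]
    have hxN : Subgroup.zpowers x ≤ Subgroup.normalizer (R : Set G) := by
      rw [Subgroup.zpowers_le]; exact hxY
    have hRx3 : IsPGroup 3 (R ⊔ Subgroup.zpowers x : Subgroup G) := hR3.to_sup_of_normal_left' hx3 hxN
    have h1 : q⁻¹ * (r⁻¹ * x) ∈ R ⊔ Subgroup.zpowers x :=
      Subgroup.mul_mem _ (Subgroup.mem_sup_left (R.inv_mem hqR))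
        (Subgroup.mul_mem _ (Subgroup.mem_sup_left (R.inv_mem hrR)) (Subgroup.mem_sup_right (Subgroup.mem_zpowers x)))
    have h2 : q⁻¹ * (r⁻¹ * x) ∈ O := by
      rw [← hπ, map_mul, map_inv, hq, hπy, inv_mul_cancel]
    obtain ⟨l, hl⟩ := hRx3 ⟨_, h1⟩
    have h3 := O_inf _ h2 ⟨l, congrArg Subtype.val hl⟩
    have h4 : x = r * q := by
      rw [inv_mul_eq_one] at h3
      rw [h3]; group
    rw [h4]
    exact R.mul_mem hrR hqR
  -- `R` is a Sylow subgroup
  obtain ⟨P', hP'⟩ := hR3.exists_le_sylow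
  have hRP : (P' : Subgroup G) = R := by
    by_contra hne
    have hlt : R < (P' : Subgroup G) := lt_of_le_of_ne hP' (Ne.symm hne)
    obtain ⟨n, hnP, hnR, hnN⟩ := H55.SylowBasic.exists_mem_normalizer_notMem R (P' : Subgroup G) P'.2 hlt
    obtain ⟨k, hk⟩ := P'.2 ⟨n, hnP⟩
    exact hnR (hkey n hnN ⟨k, congrArg Subtype.val hk⟩)
  refine ⟨P', by
    have e : (P' : Set G) = (R : Set G) := congrArg (fun K : Subgroup G => (K : Set G)) hRP
    rw [e]; exact hdR, ?_⟩
  rw [eq_top_iff, ← hG.2.2, Subgroup.closure_le]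
  intro a ha
  have hle : Pb ≤ (P'.mapSurjective hπs : Subgroup (G ⧸ O)) :=
    (H1.Cores.le_pCore nPb pPb).trans (H1.Cores.pCore_le_sylow _)
  have h1 := hle (hmul d hd a ha)
  rw [Sylow.coe_mapSurjective] at h1
  obtain ⟨p, hp, hpa⟩ := h1
  have h2 : d * a * p⁻¹ ∈ O := by
    rw [← hπ, map_mul, map_inv, ← hpa, mul_inv_cancel]
  have e : a = d * (d * a * p⁻¹) * p := by
    calc a = (d * d) * a := by rw [sd, one_mul]
      _ = _ := by group
  rw [SetLike.mem_coe, e]
  refine Subgroup.mul_mem _ (Subgroup.mul_mem _ ?_ ?_) ?_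
  · exact Subgroup.mem_sup_left (Subgroup.mem_sup_left (Subgroup.mem_zpowers d))
  · exact Subgroup.mem_sup_right h2
  · exact Subgroup.mem_sup_left (Subgroup.mem_sup_right hp)

end Cfsg.Agent.S5356
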