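import Cfsg.Statements.S5357
import Cfsg.Agent.Lib.H90.ReflThree

set_option autoImplicit false
open scoped MatrixGroups
open Cfsg

namespace Cfsg.Agent.S5357

open H90.ReflThree QuadraticMap H17

/-- Let Q be a non-degenerate quadratic form on the n-dimensional coordinate space over the field with three elements, n ≥ 5, and c a non-zero scalar. In the subgroup of the isometry group of Q generated by the reflections in vectors v with Q(v) = c, these reflections form a single conjugacy class of 3-transpositions generating that subgroup. -/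
theorem result (n : ℕ) (hn : 5 ≤ n) (Q : QuadraticForm (ZMod 3) (Fin n → ZMod 3)) (hQ : (QuadraticMap.polarBilin Q).Nondegenerate) (c : ZMod 3) (hc : c ≠ 0) : Cfsg.IsThreeTranspositionClass {g : ↥(Cfsg.reflectionSubgroup (⇑Q) c) | (g : ↥(Cfsg.isometryGroup (ZMod 3) (⇑Q))) ∈ Cfsg.reflectionsOfNorm (⇑Q) c} := by
  classical
  have z3 : (3 : ZMod 3) = 0 := by decide
  have hND := H48.QuadSplit.nd_iff.mpr hQ
  have h2 : (2 : ZMod 3) ≠ 0 := by decide
  have hfr : Module.finrank (ZMod 3) (Fin n → ZMod 3) = n := by simp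
  have hnc : -c ≠ 0 := neg_ne_zero.mpr hc
  set R := Cfsg.reflectionSubgroup (⇑Q) c with hR
  have hmem : ∀ (v : Fin n → ZMod 3) (hv : Q v ≠ 0), Q v = c → OrthDet.refl Q v hv ∈ R :=
    fun v hv hvc => Subgroup.subset_closure ⟨v, hvc, rfl⟩
  have hsq : ∀ (v : Fin n → ZMod 3) (hv : Q v ≠ 0), OrthDet.refl Q v hv * OrthDet.refl Q v hv = 1 :=
    fun v hv => mul_self Q v hv
  -- adjacent reflections are conjugate in `R`
  have hadj : ∀ (v w : Fin n → ZMod 3) (hv : Q v ≠ 0) (hw : Q w ≠ 0) (hvc : Q v = c) (hwc : Q w = c),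
      polar (⇑Q) v w ≠ 0 → IsConj (⟨OrthDet.refl Q v hv, hmem v hv hvc⟩ : R) ⟨OrthDet.refl Q w hw, hmem w hw hwc⟩ := by
    intro v w hv hw hvc hwc hvw
    rw [isConj_iff]
    refine ⟨⟨OrthDet.refl Q v hv, hmem v hv hvc⟩ * ⟨OrthDet.refl Q w hw, hmem w hw hwc⟩, Subtype.ext ?_⟩
    have h1 := braid_refl Q v w hv hw (by rw [hvc, hwc]) hvw
    change OrthDet.refl Q v hv * OrthDet.refl Q w hw * OrthDet.refl Q v hv *
      (OrthDet.refl Q v hv * OrthDet.refl Q w hw)⁻¹ = OrthDet.refl Q w hw
    rw [h1]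
    group
  have hall : ∀ (v w : Fin n → ZMod 3) (hv : Q v ≠ 0) (hw : Q w ≠ 0) (hvc : Q v = c) (hwc : Q w = c),
      IsConj (⟨OrthDet.refl Q v hv, hmem v hv hvc⟩ : R) ⟨OrthDet.refl Q w hw, hmem w hw hwc⟩ := by
    intro v w hv hw hvc hwc
    by_cases hvw : polar (⇑Q) v w = 0
    · obtain ⟨x, hvx, hwx, hxc⟩ := exists_orth_two h2 hND (by rw [hfr]; omega) v w hv hw hvw hnc
      have hwv : polar (⇑Q) w v = 0 := by rw [polar_comm]; exact hvw
      have hvv : polar (⇑Q) v v = -c := by
        rw [QuadraticMap.polar_self, hvc]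
        simp only [nsmul_eq_mul, Nat.cast_ofNat]
        linear_combination c * z3
      have hww : polar (⇑Q) w w = -c := by
        rw [QuadraticMap.polar_self, hwc]
        simp only [nsmul_eq_mul, Nat.cast_ofNat]
        linear_combination c * z3
      have hu : Q (v + w + x) = c := by
        rw [QuadraticMap.map_add (⇑Q) (v + w) x, QuadraticMap.map_add (⇑Q) v w, QuadraticMap.polar_add_left, hvc,
          hwc, hvw, hvx, hwx, hxc]
        ring
      have hu0 : Q (v + w + x) ≠ 0 := by rw [hu]; exact hc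
      refine (hadj v (v + w + x) hv hu0 hvc hu ?_).trans (hadj (v + w + x) w hu0 hw hu hwc ?_)
      · rw [QuadraticMap.polar_add_right, QuadraticMap.polar_add_right, hvv, hvw, hvx, add_zero, add_zero]
        exact hnc
      · rw [polar_comm, QuadraticMap.polar_add_right, QuadraticMap.polar_add_right, hwv, hww, hwx, add_zero, zero_add]
        exact hnc
    · exact hadj v w hv hw hvc hwc hvw
  refine ⟨⟨?_, ?_⟩, ?_, ?_⟩
  · rintro ⟨d, hdR⟩ hd
    change d ∈ Cfsg.reflectionsOfNorm (⇑Q) c at hd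
    rw [mem_reflections Q hc] at hd
    obtain ⟨v, hv, hvc, rfl⟩ := hd
    apply orderOf_eq_prime
    · rw [pow_two]; exact Subtype.ext (hsq v hv)
    · intro h
      have h1 : OrthDet.refl Q v hv = 1 := congrArg Subtype.val h
      have h3 := act_refl Q v hv v
      rw [h1, act_one, QuadraticMap.polar_self, nsmul_eq_mul, Nat.cast_ofNat] at h3
      have h4 : (Q v)⁻¹ * (2 * Q v) = 2 := by field_simp
      rw [h4, eq_comm, sub_eq_self] at h3
      rcases smul_eq_zero.mp h3 with h5 | h5
      · exact h2 h5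
      · rw [h5, QuadraticMap.map_zero] at hvc
        exact hc hvc.symm
  · rintro ⟨d, hdR⟩ hd ⟨e, heR⟩ he
    change d ∈ Cfsg.reflectionsOfNorm (⇑Q) c at hd
    change e ∈ Cfsg.reflectionsOfNorm (⇑Q) c at he
    rw [mem_reflections Q hc] at hd he
    obtain ⟨v, hv, hvc, rfl⟩ := hd
    obtain ⟨w, hw, hwc, rfl⟩ := he
    by_cases hvw : polar (⇑Q) v w = 0
    · left
      apply Subtype.ext
      change (OrthDet.refl Q v hv * OrthDet.refl Q w hw) ^ 2 = 1
      have h1 := comm_of_polar Q v w hv hw hvw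
      rw [pow_two]
      nth_rewrite 2 [h1]
      calc OrthDet.refl Q v hv * OrthDet.refl Q w hw * (OrthDet.refl Q w hw * OrthDet.refl Q v hv)
          = OrthDet.refl Q v hv * (OrthDet.refl Q w hw * OrthDet.refl Q w hw) * OrthDet.refl Q v hv := by group
        _ = 1 := by rw [hsq, mul_one, hsq]
    · right
      apply Subtype.ext
      change (OrthDet.refl Q v hv * OrthDet.refl Q w hw) ^ 3 = 1
      have h1 := braid_refl Q v w hv hw (by rw [hvc, hwc]) hvw
      calc (OrthDet.refl Q v hv * OrthDet.refl Q w hw) ^ 3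
          = (OrthDet.refl Q v hv * OrthDet.refl Q w hw * OrthDet.refl Q v hv) *
            (OrthDet.refl Q w hw * OrthDet.refl Q v hv * OrthDet.refl Q w hw) := by
              simp only [pow_succ, pow_zero, one_mul, mul_assoc]
        _ = OrthDet.refl Q v hv * OrthDet.refl Q w hw * OrthDet.refl Q v hv *
            (OrthDet.refl Q v hv * OrthDet.refl Q w hw * OrthDet.refl Q v hv) := by rw [h1]
        _ = OrthDet.refl Q v hv * OrthDet.refl Q w hw * (OrthDet.refl Q v hv * OrthDet.refl Q v hv) *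
            OrthDet.refl Q w hw * OrthDet.refl Q v hv := by group
        _ = OrthDet.refl Q v hv * (OrthDet.refl Q w hw * OrthDet.refl Q w hw) * OrthDet.refl Q v hv := by
              rw [hsq, mul_one]; group
        _ = 1 := by rw [hsq, mul_one, hsq]
  · obtain ⟨v₀, hv₀⟩ := H48.QuadStd.exists_eq hND (by rw [hfr]; omega) hc
    have hv₀' : Q v₀ ≠ 0 := by rw [hv₀]; exact hc
    refine ⟨⟨OrthDet.refl Q v₀ hv₀', hmem v₀ hv₀' hv₀⟩, ⟨v₀, hv₀, rfl⟩, ?_⟩
    ext ⟨g, hg⟩
    constructor
    · intro h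
      change g ∈ Cfsg.reflectionsOfNorm (⇑Q) c at h
      rw [mem_reflections Q hc] at h
      obtain ⟨w, hw, hwc, rfl⟩ := h
      exact hall v₀ w hv₀' hw hv₀ hwc
    · intro h
      have h : IsConj _ _ := h
      rw [isConj_iff] at h
      obtain ⟨⟨k, hk⟩, hkg⟩ := h
      change g ∈ Cfsg.reflectionsOfNorm (⇑Q) c
      have h1 : k * OrthDet.refl Q v₀ hv₀' * k⁻¹ = g := congrArg Subtype.val hkg
      rw [← h1]
      exact conj_mem Q hc k _ ⟨v₀, hv₀, rfl⟩
  · exact Subgroup.closure_closure_coe_preimage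

end Cfsg.Agent.S5357
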