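import Cfsg.Statements.S5358
import Cfsg.Agent.Lib.H17.OrthMat

set_option autoImplicit false
open Cfsg

namespace Cfsg.Agent.S5358

/-- Let Q be a non-degenerate quadratic form on the n-dimensional coordinate space over the field with three elements and u, v vectors of the same non-zero norm Q(u) = Q(v) spanning different lines (v ≠ u and v ≠ −u). Then the reflection matrices of u and v commute if and only if u and v are orthogonal for the polar form of Q. -/
theorem result (n : ℕ) (Q : QuadraticForm (ZMod 3) (Fin n → ZMod 3)) (hQ : (QuadraticMap.polarBilin Q).Nondegenerate) (u v : Fin n → ZMod 3) (hu : Q u ≠ 0) (huv : Q u = Q v) (h1 : v ≠ u) (h2 : v ≠ -u) : Commute (Cfsg.reflectionMatrix (⇑Q) u) (Cfsg.reflectionMatrix (⇑Q) v) ↔ QuadraticMap.polar (⇑Q) u v = 0 := by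
  have hv : Q v ≠ 0 := huv ▸ hu
  have key : ∀ x, (Cfsg.reflectionMatrix (⇑Q) u).mulVec ((Cfsg.reflectionMatrix (⇑Q) v).mulVec x) -
      (Cfsg.reflectionMatrix (⇑Q) v).mulVec ((Cfsg.reflectionMatrix (⇑Q) u).mulVec x) =
      ((Q u)⁻¹ * (Q u)⁻¹ * QuadraticMap.polar (⇑Q) u v) •
        (QuadraticMap.polar (⇑Q) v x • u - QuadraticMap.polar (⇑Q) u x • v) := by
    intro x
    simp only [H17.OrthMat.reflectionMatrix_mulVec, QuadraticMap.polar_sub_right, QuadraticMap.polar_smul_right, ← huv]
    rw [QuadraticMap.polar_comm (⇑Q) v u]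
    ext i
    simp only [Pi.sub_apply, Pi.smul_apply, smul_eq_mul]
    ring
  have hcomm : Commute (Cfsg.reflectionMatrix (⇑Q) u) (Cfsg.reflectionMatrix (⇑Q) v) ↔
      ∀ x, (Cfsg.reflectionMatrix (⇑Q) u).mulVec ((Cfsg.reflectionMatrix (⇑Q) v).mulVec x) -
      (Cfsg.reflectionMatrix (⇑Q) v).mulVec ((Cfsg.reflectionMatrix (⇑Q) u).mulVec x) = 0 := by
    constructor
    · intro h x
      rw [Matrix.mulVec_mulVec, Matrix.mulVec_mulVec, h.eq, sub_self]
    · intro h
      apply Matrix.ext_of_mulVec_single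
      intro i
      have := h (Pi.single i 1)
      rw [Matrix.mulVec_mulVec, Matrix.mulVec_mulVec, sub_eq_zero] at this
      exact this
  rw [hcomm]
  constructor
  · intro h
    by_contra hne
    have hx := h u
    rw [key, smul_eq_zero] at hx
    have hz : ((Q u)⁻¹ * (Q u)⁻¹ * QuadraticMap.polar (⇑Q) u v) ≠ 0 :=
      mul_ne_zero (mul_ne_zero (inv_ne_zero hu) (inv_ne_zero hu)) hne
    rcases hx with hx | hx
    · exact hz hx
    · rw [sub_eq_zero, QuadraticMap.polar_self, QuadraticMap.polar_comm (⇑Q) v u] at hx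
      have e3 : v = (((2 : ℕ) • Q u)⁻¹ * QuadraticMap.polar (⇑Q) u v) • u := by
        have h20 : ((2 : ℕ) • Q u) ≠ 0 := by
          rw [nsmul_eq_mul]
          exact mul_ne_zero (by decide) hu
        rw [← smul_smul, hx, smul_smul, inv_mul_cancel₀ h20, one_smul]
      set c : ZMod 3 := (((2 : ℕ) • Q u)⁻¹ * QuadraticMap.polar (⇑Q) u v) with hc
      have hc3 : c = 0 ∨ c = 1 ∨ c = -1 := by
        have : ∀ c : ZMod 3, c = 0 ∨ c = 1 ∨ c = -1 := by decide
        exact this c
      rcases hc3 with h0 | h0 | h0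
      · rw [h0, zero_smul] at e3
        apply hv
        rw [e3, QuadraticMap.map_zero]
      · rw [h0, one_smul] at e3
        exact h1 e3
      · rw [h0, neg_one_smul] at e3
        exact h2 e3
  · intro h x
    rw [key, h, mul_zero, zero_smul]

end Cfsg.Agent.S5358
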