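import Cfsg.Statements.S5359
import Cfsg.Agent.Lib.H90.ReflThree

set_option autoImplicit false
open scoped MatrixGroups
open Cfsg

namespace Cfsg.Agent.S5359

open H90.ReflThree QuadraticMap H17

/-- index two from generation by involutions -/
theorem index_two {G : Type*} [Group G] (R : Subgroup G) [hn : R.Normal] (T : Set G) (hT : Subgroup.closure T = ⊤)
    (r₀ : G) (hr : r₀ * r₀ = 1) (h : ∀ t ∈ T, t ∈ R ∨ r₀ * t ∈ R) (g : G) : g ∈ R ∨ r₀ * g ∈ R := by
  have hg : g ∈ Subgroup.closure T := by rw [hT]; trivial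
  have hri : r₀⁻¹ = r₀ := inv_eq_of_mul_eq_one_left hr
  have conjd : ∀ y ∈ R, r₀ * y * r₀ ∈ R := by
    intro y hy
    have h1 := hn.conj_mem y hy r₀
    rwa [hri] at h1
  induction hg using Subgroup.closure_induction with
  | mem x hx => exact h x hx
  | one => exact Or.inl R.one_mem
  | mul x y _ _ hx hy =>
    rcases hx with hx | hx <;> rcases hy with hy | hy
    · exact Or.inl (R.mul_mem hx hy)
    · right
      have h1 := R.mul_mem (conjd _ hx) hy
      convert h1 using 1
      calc r₀ * (x * y) = r₀ * x * 1 * y := by group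
        _ = r₀ * x * (r₀ * r₀) * y := by rw [hr]
        _ = _ := by group
    · right
      have h1 := R.mul_mem hx hy
      rwa [mul_assoc] at h1
    · left
      have h1 := R.mul_mem (conjd _ hx) hy
      convert h1 using 1
      calc x * y = (r₀ * r₀) * x * (r₀ * r₀) * y := by rw [hr, one_mul, mul_one]
        _ = _ := by group
  | inv x _ hx =>
    rcases hx with hx | hx
    · exact Or.inl (R.inv_mem hx)
    · right
      have h1 := conjd _ (R.inv_mem hx)
      rw [mul_inv_rev, hri] at h1
      convert h1 using 1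
      calc r₀ * x⁻¹ = r₀ * x⁻¹ * (r₀ * r₀) := by rw [hr, mul_one]
        _ = _ := by group

/-- Let Q be a non-degenerate quadratic form on the n-dimensional coordinate space over the field with three elements, n odd and at least 5, and c a non-zero scalar. Then the subgroup of the isometry group of Q generated by the reflections in vectors of norm c has index 2 in the isometry group. -/
theorem result (n : ℕ) (hn : 5 ≤ n) (hodd : Odd n) (Q : QuadraticForm (ZMod 3) (Fin n → ZMod 3)) (hQ : (QuadraticMap.polarBilin Q).Nondegenerate) (c : ZMod 3) (hc : c ≠ 0) : (Cfsg.reflectionSubgroup (⇑Q) c).index = 2 := by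
  classical
  have z1 : ∀ c : ZMod 3, -c + -c + 0 = c := by decide
  have z2 : ∀ c : ZMod 3, -c + -c - 0 = c := by decide
  have z3 : (3 : ZMod 3) = 0 := by decide
  have hND := H48.QuadSplit.nd_iff.mpr hQ
  have h2 : (2 : ZMod 3) ≠ 0 := by decide
  have hfr : Module.finrank (ZMod 3) (Fin n → ZMod 3) = n := by simp
  have hnc : -c ≠ 0 := neg_ne_zero.mpr hc
  have nR : (Cfsg.reflectionSubgroup (⇑Q) c).Normal := normal_reflectionSubgroup Q hc
  set R := Cfsg.reflectionSubgroup (⇑Q) c with hR
  obtain ⟨v₀, hv₀⟩ := H48.QuadStd.exists_eq hND (by rw [hfr]; omega) hnc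
  have hv₀' : Q v₀ ≠ 0 := by rw [hv₀]; exact hnc
  -- orthogonal vectors of norm `-c`
  have horth : ∀ (v w : Fin n → ZMod 3) (hv : Q v ≠ 0) (hw : Q w ≠ 0), Q v = -c → Q w = -c → polar (⇑Q) v w = 0 →
      OrthDet.refl Q v hv * OrthDet.refl Q w hw ∈ R := by
    intro v w hv hw hvc hwc hvw
    have h1 : Q (v + w) = c := by
      rw [QuadraticMap.map_add (⇑Q), hvc, hwc, hvw, z1]
    have h3 : Q (v - w) = c := by
      rw [OrthGenTwo.Q_sub, hvc, hwc, hvw, z2]
    have h1' : Q (v + w) ≠ 0 := by rw [h1]; exact hc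
    have h3' : Q (v - w) ≠ 0 := by rw [h3]; exact hc
    have e : OrthDet.refl Q v hv * OrthDet.refl Q w hw =
        OrthDet.refl Q (v + w) h1' * OrthDet.refl Q (v - w) h3' := by
      apply ext_act
      intro x
      rw [act_mul, act_mul, act_refl, act_refl, act_refl, act_refl, h1, h3, hvc, hwc]
      have hwv : polar (⇑Q) w v = 0 := by rw [polar_comm]; exact hvw
      have hvv : polar (⇑Q) v v = polar (⇑Q) w w := by
        rw [QuadraticMap.polar_self, QuadraticMap.polar_self, hvc, hwc]
      simp only [QuadraticMap.polar_sub_right, QuadraticMap.polar_sub_left, QuadraticMap.polar_add_left,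
        QuadraticMap.polar_add_right, QuadraticMap.polar_smul_right, hvw, hwv, hvv, inv_neg, smul_eq_mul]
      linear_combination (norm := module) (c⁻¹ * polar (⇑Q) v x * z3) • v + (c⁻¹ * polar (⇑Q) w x * z3) • w
    rw [e]
    exact R.mul_mem (Subgroup.subset_closure ⟨_, h1, rfl⟩) (Subgroup.subset_closure ⟨_, h3, rfl⟩)
  have hall : ∀ (v w : Fin n → ZMod 3) (hv : Q v ≠ 0) (hw : Q w ≠ 0), Q v = -c → Q w = -c →
      OrthDet.refl Q v hv * OrthDet.refl Q w hw ∈ R := by
    intro v w hv hw hvc hwc
    by_cases he : polar (⇑Q) v w = 0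
    · exact horth v w hv hw hvc hwc he
    have hcc : c * c = 1 := sq_one c hc
    have hee : polar (⇑Q) v w * polar (⇑Q) v w = 1 := sq_one _ he
    set e := polar (⇑Q) v w with hedef
    have hvv : polar (⇑Q) v v = c := by
      rw [QuadraticMap.polar_self, hvc]
      simp only [nsmul_eq_mul, Nat.cast_ofNat]
      linear_combination -c * z3
    have hwv : polar (⇑Q) w v = e := by rw [polar_comm]
    set u := w - (e * c) • v with hu
    have hvu : polar (⇑Q) v u = 0 := by
      rw [hu, QuadraticMap.polar_sub_right, QuadraticMap.polar_smul_right, hvv, ← hedef, smul_eq_mul]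
      linear_combination -e * hcc
    have hQu : Q u = 0 := by
      rw [hu, OrthGenTwo.Q_sub, QuadraticMap.map_smul, QuadraticMap.polar_smul_right, hwv, hwc, hvc, smul_eq_mul,
        smul_eq_mul]
      linear_combination (-c * c * c - c) * hee - c * hcc - c * z3
    by_cases hu0 : u = 0
    · have h1 : w = (e * c) • v := by
        rw [hu, sub_eq_zero] at hu0; exact hu0
      have h2' : e * c ≠ 0 := mul_ne_zero he hc
      have h3 : Q ((e * c) • v) ≠ 0 := by rw [← h1]; exact hw
      rw [refl_congr Q h1 hw h3, refl_smul Q v hv _ h2' h3, mul_self]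
      exact R.one_mem
    · obtain ⟨x, hvx, hux, hxc⟩ := exists_orth_deg h2 hND (by rw [hfr]; exact hn) v u hv hQu hu0 hvu hnc
      have hx : Q x ≠ 0 := by rw [hxc]; exact hnc
      have hwx : polar (⇑Q) w x = 0 := by
        have h1 : w = u + (e * c) • v := by rw [hu]; abel
        rw [h1, QuadraticMap.polar_add_left, QuadraticMap.polar_smul_left, hvx, hux, smul_zero, add_zero]
      have h1 := horth v x hv hx hvc hxc hvx
      have h3 := horth x w hx hw hxc hwc (by rw [polar_comm]; exact hwx)
      have h4 := R.mul_mem h1 h3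
      have e1 : OrthDet.refl Q v hv * OrthDet.refl Q x hx * (OrthDet.refl Q x hx * OrthDet.refl Q w hw) =
          OrthDet.refl Q v hv * (OrthDet.refl Q x hx * OrthDet.refl Q x hx) * OrthDet.refl Q w hw := by group
      rw [e1, mul_self, mul_one] at h4
      exact h4
  -- the sign character
  have hθ : ∀ g ∈ R, OrthSO2.th Q (-c) g = 1 := by
    intro g hg
    have hle : R ≤ (OrthSO2.th Q (-c)).ker := by
      rw [hR, Cfsg.reflectionSubgroup, Subgroup.closure_le]
      intro x hx
      rw [mem_reflections Q hc] at hx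
      obtain ⟨v, hv, hvc, rfl⟩ := hx
      rw [SetLike.mem_coe, MonoidHom.mem_ker, OrthSO2.th_refl, OrthTheta.theta_refl h2 Q (-c) hnc v hv, if_neg]
      rintro ⟨t, ht, hvt⟩
      rw [hvc, pow_two, sq_one t ht] at hvt
      apply hc
      linear_combination (-1 : ZMod 3) * hvt + c * z3
    exact hle hg
  have hθ₀ : OrthSO2.th Q (-c) (OrthDet.refl Q v₀ hv₀') = -1 := by
    rw [OrthSO2.th_refl, OrthTheta.theta_refl h2 Q (-c) hnc v₀ hv₀', if_pos]
    exact ⟨1, one_ne_zero, by rw [hv₀]; ring⟩
  have htop := OrthTrans.closure_refl_eq_top Q hQ (Or.inl (by rw [ZMod.card]; decide))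
  have hkey := index_two R _ htop (OrthDet.refl Q v₀ hv₀') (mul_self Q v₀ hv₀') (by
    rintro t ⟨v, hv, ht⟩
    rw [OrthTrans.eq_refl_of_coe Q v hv t ht]
    have hcase : ∀ a c : ZMod 3, a ≠ 0 → c ≠ 0 → a = c ∨ a = -c := by decide
    rcases hcase (Q v) c hv hc with h1 | h1
    · exact Or.inl (Subgroup.subset_closure ⟨v, h1, rfl⟩)
    · exact Or.inr (hall v₀ v hv₀' hv hv₀ h1))
  rw [Subgroup.index_eq_two_iff]
  refine ⟨OrthDet.refl Q v₀ hv₀', fun b => ?_⟩
  rcases hkey b with h1 | h1
  · right
    refine ⟨h1, fun h3 => ?_⟩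
    have h4 : OrthDet.refl Q v₀ hv₀' ∈ R := (Subgroup.mul_mem_cancel_left R h1).1 h3
    have h5 := hθ _ h4
    rw [hθ₀] at h5
    exact absurd h5 (by decide)
  · left
    refine ⟨nR.mem_comm h1, fun h3 => ?_⟩
    have h4 : OrthDet.refl Q v₀ hv₀' ∈ R := (Subgroup.mul_mem_cancel_right R h3).1 h1
    have h5 := hθ _ h4
    rw [hθ₀] at h5
    exact absurd h5 (by decide)

end Cfsg.Agent.S5359
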