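import Cfsg.Statements.S5360
import Cfsg.Agent.S5357
import Cfsg.Agent.S5353
import Cfsg.Agent.Lib.H90.ThreeTransG
import Cfsg.Agent.Lib.H90.ReflThree

set_option autoImplicit false
open scoped MatrixGroups
open Cfsg

namespace Cfsg.Agent.S5360

open H90.ReflThree QuadraticMap H17

section vec

variable {V : Type*} [AddCommGroup V] [Module (ZMod 3) V] [FiniteDimensional (ZMod 3) V]

theorem two_ne : (2 : ZMod 3) ≠ 0 := by decide

theorem polar_self_three (Q : QuadraticForm (ZMod 3) V) (v : V) : polar (⇑Q) v v = - Q v := by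
  rw [QuadraticMap.polar_self]
  have : ∀ a : ZMod 3, 2 • a = -a := by decide
  exact this _

theorem exists_iso {Q : QuadraticForm (ZMod 3) V} (hND : H48.QuadSplit.ND Q) (hd : 5 ≤ Module.finrank (ZMod 3) V)
    (v w : V) : ∃ f : V, f ≠ 0 ∧ polar (⇑Q) v f = 0 ∧ polar (⇑Q) w f = 0 ∧ Q f = 0 := by
  have h1 := H48.QuadSplit.finrank_orth hND (Submodule.span (ZMod 3) {v, w})
  have h2 : Module.finrank (ZMod 3) (Submodule.span (ZMod 3) {v, w}) ≤ 2 := by
    classical
    have h4 := finrank_span_finset_le_card (R := ZMod 3) ({v, w} : Finset V)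
    have h5 := Finset.card_le_two (a := v) (b := w)
    simp only [Finset.coe_insert, Finset.coe_singleton] at h4
    exact h4.trans h5
  obtain ⟨⟨f, hf⟩, hf0, hQf⟩ := H48.QuadStd.exists_singular
    (Q.restrict (H48.QuadSplit.orth Q (Submodule.span (ZMod 3) {v, w}))) (by omega)
  exact ⟨f, fun h => hf0 (Subtype.ext h), hf v (Submodule.subset_span (by simp)),
    hf w (Submodule.subset_span (by simp)), hQf⟩

/-- the isotropic vector of the plane spanned by two non-orthogonal vectors of norm `c` -/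
theorem plane_u {Q : QuadraticForm (ZMod 3) V} {c : ZMod 3} (hc : c ≠ 0) {v w : V} (hv : Q v = c) (hw : Q w = c)
    (hvw : polar (⇑Q) v w ≠ 0) : polar (⇑Q) v (w + (c * polar (⇑Q) v w) • v) = 0 ∧
      Q (w + (c * polar (⇑Q) v w) • v) = 0 := by
  have hwv : polar (⇑Q) w v = polar (⇑Q) v w := polar_comm _ _ _
  constructor
  · rw [QuadraticMap.polar_add_right, QuadraticMap.polar_smul_right, polar_self_three, hv, smul_eq_mul]
    have key : ∀ c p : ZMod 3, c ≠ 0 → p ≠ 0 → p + c * p * -c = 0 := by decide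
    exact key _ _ hc hvw
  · rw [QuadraticMap.map_add (⇑Q), QuadraticMap.map_smul, QuadraticMap.polar_smul_right, hv, hw, hwv]
    simp only [smul_eq_mul]
    have key : ∀ c p : ZMod 3, c ≠ 0 → p ≠ 0 → c + c * p * (c * p) * c + c * p * p = 0 := by decide
    exact key _ _ hc hvw

/-- a vector of norm `c` orthogonal to `v` but not to `w` -/
theorem exists_sep {Q : QuadraticForm (ZMod 3) V} (hND : H48.QuadSplit.ND Q) {c : ZMod 3} (hc : c ≠ 0) {v w : V}
    (hv : Q v = c) (hw : Q w = c) (hvw : polar (⇑Q) v w ≠ 0) (hu : w + (c * polar (⇑Q) v w) • v ≠ 0) :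
    ∃ y : V, Q y = c ∧ polar (⇑Q) v y = 0 ∧ polar (⇑Q) w y ≠ 0 := by
  obtain ⟨hvu, hQu⟩ := plane_u hc hv hw hvw
  set u := w + (c * polar (⇑Q) v w) • v with hudef
  obtain ⟨y₀, hy₀⟩ : ∃ z, polar (⇑Q) u z ≠ 0 := by
    by_contra hcon
    push Not at hcon
    exact hu (hND u hcon)
  have huv : polar (⇑Q) u v = 0 := by rw [polar_comm]; exact hvu
  set z := y₀ + (c * polar (⇑Q) v y₀) • v with hz
  have hcc := sq_one c hc
  have hvz : polar (⇑Q) v z = 0 := by
    rw [hz, QuadraticMap.polar_add_right, QuadraticMap.polar_smul_right, polar_self_three, hv, smul_eq_mul]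
    linear_combination - polar (⇑Q) v y₀ * hcc
  have huz : polar (⇑Q) u z = polar (⇑Q) u y₀ := by
    rw [hz, QuadraticMap.polar_add_right, QuadraticMap.polar_smul_right, huv, smul_zero, add_zero]
  have hzu : polar (⇑Q) z u = polar (⇑Q) u y₀ := by rw [polar_comm]; exact huz
  have huu : polar (⇑Q) u u = 0 := by rw [polar_self_three, hQu, neg_zero]
  have hvy : polar (⇑Q) v (z + ((c - Q z) * polar (⇑Q) u y₀) • u) = 0 := by
    rw [QuadraticMap.polar_add_right, QuadraticMap.polar_smul_right, hvz, hvu, smul_zero, add_zero]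
  refine ⟨z + ((c - Q z) * polar (⇑Q) u y₀) • u, ?_, hvy, ?_⟩
  · rw [QuadraticMap.map_add (⇑Q), QuadraticMap.map_smul, QuadraticMap.polar_smul_right, hQu, hzu]
    simp only [smul_eq_mul]
    linear_combination (c - Q z) * sq_one _ hy₀
  · have hw' : w = u - (c * polar (⇑Q) v w) • v := by rw [hudef]; abel
    rw [hw', QuadraticMap.polar_sub_left, QuadraticMap.polar_smul_left, hvy, smul_zero, sub_zero,
      QuadraticMap.polar_add_right, QuadraticMap.polar_smul_right, huz, huu, smul_zero, add_zero]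
    exact hy₀

end vec

section refl

variable {ι : Type} [Fintype ι] [DecidableEq ι] {Q : QuadraticForm (ZMod 3) (ι → ZMod 3)}

theorem par_of_refl_eq {v w : ι → ZMod 3} (hv : Q v ≠ 0) (hw : Q w ≠ 0)
    (h : OrthDet.refl Q v hv = OrthDet.refl Q w hw) : ∃ t : ZMod 3, w = t • v := by
  have h1 := act_refl Q v hv w
  have h2 := act_refl Q w hw w
  rw [h, h2, polar_self_three] at h1
  have h3 : (Q w)⁻¹ * -Q w = -1 := by field_simp
  rw [h3] at h1
  refine ⟨-((Q v)⁻¹ * polar (⇑Q) v w), ?_⟩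
  linear_combination (norm := module) h1

theorem polar_of_comm {c : ZMod 3} {v w : ι → ZMod 3} (hv : Q v ≠ 0) (hw : Q w ≠ 0)
    (hvc : Q v = c) (hwc : Q w = c)
    (h : OrthDet.refl Q v hv * OrthDet.refl Q w hw = OrthDet.refl Q w hw * OrthDet.refl Q v hv)
    (hne : OrthDet.refl Q v hv ≠ OrthDet.refl Q w hw) : polar (⇑Q) v w = 0 := by
  by_contra hcon
  have h1 := braid_refl Q v w hv hw (by rw [hvc, hwc]) hcon
  apply hne
  have e1 : OrthDet.refl Q v hv * OrthDet.refl Q w hw * OrthDet.refl Q v hv = OrthDet.refl Q w hw := by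
    rw [h, mul_assoc, mul_self, mul_one]
  have e2 : OrthDet.refl Q w hw * OrthDet.refl Q v hv * OrthDet.refl Q w hw = OrthDet.refl Q v hv := by
    rw [← h, mul_assoc, mul_self, mul_one]
  rw [e1, e2] at h1
  exact h1.symm

end refl

/-- Let Q be a non-degenerate quadratic form on the n-dimensional coordinate space over the field with three elements, n ≥ 5, c a non-zero scalar, and R the subgroup of the isometry group generated by the reflections of norm c. Then the commutator subgroup of R is quasisimple of index at most 2, the generalized Fitting subgroup of R is the product of the centre and the commutator subgroup, and R acts primitively by conjugation on its reflections of norm c. -/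
theorem result (n : ℕ) (hn : 5 ≤ n) (Q : QuadraticForm (ZMod 3) (Fin n → ZMod 3)) (hQ : (QuadraticMap.polarBilin Q).Nondegenerate) (c : ZMod 3) (hc : c ≠ 0) : Cfsg.IsQuasisimple (commutator ↥(Cfsg.reflectionSubgroup (⇑Q) c)) ∧ (commutator ↥(Cfsg.reflectionSubgroup (⇑Q) c)).index ≤ 2 ∧ Cfsg.generalizedFittingSubgroup ↥(Cfsg.reflectionSubgroup (⇑Q) c) = Subgroup.center ↥(Cfsg.reflectionSubgroup (⇑Q) c) ⊔ commutator ↥(Cfsg.reflectionSubgroup (⇑Q) c) ∧ Cfsg.IsPrimitiveUnderConj {g : ↥(Cfsg.reflectionSubgroup (⇑Q) c) | (g : ↥(Cfsg.isometryGroup (ZMod 3) (⇑Q))) ∈ Cfsg.reflectionsOfNorm (⇑Q) c} := by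
  classical
  have hD := Cfsg.Agent.S5357.result n hn Q hQ c hc
  have hND := H48.QuadSplit.nd_iff.mpr hQ
  have hfr : Module.finrank (ZMod 3) (Fin n → ZMod 3) = n := by simp
  have hd5 : 5 ≤ Module.finrank (ZMod 3) (Fin n → ZMod 3) := by rw [hfr]; exact hn
  haveI : Finite (Cfsg.isometryGroup (ZMod 3) (⇑Q)) := by
    haveI : Finite (GL (Fin n) (ZMod 3)) := inferInstance
    infer_instance
  haveI : Finite (Cfsg.reflectionSubgroup (⇑Q) c) := inferInstance
  set R := Cfsg.reflectionSubgroup (⇑Q) c with hR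
  set D : Set R := {g : R | (g : ↥(Cfsg.isometryGroup (ZMod 3) (⇑Q))) ∈ Cfsg.reflectionsOfNorm (⇑Q) c} with hDdef
  have hG := H90.ThreeTransB.group_of_class hD
  have hmemR : ∀ (v : Fin n → ZMod 3) (hv : Q v ≠ 0), Q v = c → OrthDet.refl Q v hv ∈ R :=
    fun v hv hvc => Subgroup.subset_closure ⟨v, hvc, rfl⟩
  have hnz : ∀ {v : Fin n → ZMod 3}, Q v = c → Q v ≠ 0 := fun h => by rw [h]; exact hc
  -- the member attached to a vector
  let m : ∀ v : Fin n → ZMod 3, Q v = c → R := fun v hv => ⟨OrthDet.refl Q v (hnz hv), hmemR v (hnz hv) hv⟩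
  have hmD : ∀ v hv, m v hv ∈ D := fun v hv => ⟨v, hv, rfl⟩
  have hDm : ∀ a ∈ D, ∃ v, ∃ hv : Q v = c, a = m v hv := by
    rintro ⟨a, haR⟩ ha
    change a ∈ Cfsg.reflectionsOfNorm (⇑Q) c at ha
    rw [mem_reflections Q hc] at ha
    obtain ⟨v, hv, hvc, rfl⟩ := ha
    exact ⟨v, hvc, rfl⟩
  have hcomm : ∀ v w hv hw, polar (⇑Q) v w = 0 → Commute (m v hv) (m w hw) := by
    intro v w hv hw h
    exact Subtype.ext (comm_of_polar Q v w (hnz hv) (hnz hw) h)
  have hpol : ∀ v w hv hw, Commute (m v hv) (m w hw) → m v hv ≠ m w hw → polar (⇑Q) v w = 0 := by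
    intro v w hv hw h hne
    exact polar_of_comm (hnz hv) (hnz hw) hv hw (congrArg Subtype.val h.eq) (fun h => hne (Subtype.ext h))
  have hne : ∀ v w hv hw, polar (⇑Q) v w = 0 → m v hv ≠ m w hw := by
    intro v w hv hw h he
    obtain ⟨t, ht⟩ := par_of_refl_eq (hnz hv) (hnz hw) (congrArg Subtype.val he)
    have h1 : Q w ≠ 0 := hnz hw
    rw [ht, QuadraticMap.polar_smul_right, polar_self_three, hv, smul_eq_mul] at h
    rw [ht, QuadraticMap.map_smul, smul_eq_mul] at h1
    apply h1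
    have h2 : t = 0 := by
      rcases mul_eq_zero.mp h with h3 | h3
      · exact h3
      · exact absurd (neg_eq_zero.mp h3) hc
    rw [h2]; ring
  -- V-triviality
  have hV : ∀ a ∈ D, ∀ b ∈ D, H90.ThreeTransC.VRel D a b → a = b := by
    intro a ha b hb h
    obtain ⟨v, hv, rfl⟩ := hDm a ha
    obtain ⟨w, hw, rfl⟩ := hDm b hb
    by_contra hab
    have h1 : polar (⇑Q) v w = 0 := hpol v w hv hw (h.commute ha).symm hab
    obtain ⟨f, hf0, hvf, hwf, hQf⟩ := exists_iso hND hd5 v w
    have he : Q (w + f) = c := by rw [QuadraticMap.map_add (⇑Q), hw, hQf, hwf]; ring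
    have h2 : Commute (m w hw) (m (w + f) he) := by
      refine (h _ (hmD _ he)).2 (hcomm _ _ hv he ?_)
      rw [QuadraticMap.polar_add_right, h1, hvf, add_zero]
    have h3 : m w hw = m (w + f) he := by
      by_contra h4
      have h5 := hpol _ _ hw he h2 h4
      rw [QuadraticMap.polar_add_right, polar_self_three, hwf, hw, add_zero] at h5
      exact hc (neg_eq_zero.mp h5)
    obtain ⟨t, ht⟩ := par_of_refl_eq (hnz hw) (hnz he) (congrArg Subtype.val h3)
    have h6 : f = (t - 1) • w := by linear_combination (norm := module) ht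
    have h7 : (t - 1) * (t - 1) * c = 0 := by
      rw [h6, QuadraticMap.map_smul, hw, smul_eq_mul] at hQf
      exact hQf
    have h8 : t - 1 = 0 := by
      rcases mul_eq_zero.mp h7 with h9 | h9
      · exact mul_self_eq_zero.mp h9
      · exact absurd h9 hc
    exact hf0 (by rw [h6, h8, zero_smul])
  -- W-triviality
  have hW : ∀ a ∈ D, ∀ b ∈ D, H90.ThreeTransC.WRel D a b → a = b := by
    intro a ha b hb h
    obtain ⟨v, hv, rfl⟩ := hDm a ha
    obtain ⟨w, hw, rfl⟩ := hDm b hb
    by_contra hab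
    have h1 : polar (⇑Q) v w ≠ 0 := fun h0 => hab (h.eq_of_commute hb (hcomm v w hv hw h0))
    have hu : w + (c * polar (⇑Q) v w) • v ≠ 0 := by
      intro h0
      apply hab
      have h2 : w = (-(c * polar (⇑Q) v w)) • v := by linear_combination (norm := module) h0
      have h3 : -(c * polar (⇑Q) v w) ≠ 0 := neg_ne_zero.mpr (mul_ne_zero hc h1)
      apply Subtype.ext
      change OrthDet.refl Q v (hnz hv) = OrthDet.refl Q w (hnz hw)
      have h4 : Q ((-(c * polar (⇑Q) v w)) • v) ≠ 0 := by rw [← h2]; exact hnz hw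
      rw [refl_congr Q h2 (hnz hw) h4]
      exact (refl_smul Q v (hnz hv) _ h3 h4).symm
    obtain ⟨y, hy, hvy, hwy⟩ := exists_sep hND hc hv hw h1 hu
    have h2 := (h _ (hmD y hy)).1 ⟨(hne v y hv hy hvy).symm, hcomm v y hv hy hvy⟩
    exact hwy (hpol w y hw hy h2.2 h2.1.symm)
  have hcore : ∀ p : ℕ, (∀ a ∈ D, ∀ b ∈ D, a⁻¹ * b ∈ Cfsg.pCore p R → a = b) → Cfsg.pCore p R ≤ Subgroup.center R := by
    intro p hp
    have hn : (pCore p R).Normal := Subgroup.sSup_normal _ fun N hN => hN.1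
    apply H90.ThreeTransE.le_center_of_commute hG
    intro d hd x hx
    have h1 : x * d * x⁻¹ ∈ D := hG.2.1 x d hd
    have h2 : d⁻¹ * (x * d * x⁻¹) ∈ Cfsg.pCore p R := by
      have h3 : d⁻¹ * x * d ∈ Cfsg.pCore p R := by
        have := hn.conj_mem x hx d⁻¹
        rwa [inv_inv] at this
      have h4 := Subgroup.mul_mem _ h3 (Subgroup.inv_mem _ hx)
      have e : d⁻¹ * (x * d * x⁻¹) = d⁻¹ * x * d * x⁻¹ := by group
      rw [e]; exact h4
    have h5 := hp d hd _ h1 h2
    have h6 : x * d = d * x := by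
      nth_rewrite 2 [h5]
      group
    exact h6.symm
  have h2 : Cfsg.pCore 2 R ≤ Subgroup.center R :=
    hcore 2 fun a ha b hb h => hV a ha b hb (H90.ThreeTransC.vrel_of_mem hG ha hb h)
  have h3 : Cfsg.pCore 3 R ≤ Subgroup.center R :=
    hcore 3 fun a ha b hb h => hW a ha b hb (H90.ThreeTransC.wrel_of_mem hG ha hb h)
  -- two members
  obtain ⟨v₀, hv₀⟩ := H48.QuadStd.exists_eq hND (by rw [hfr]; omega) hc
  have hD2 : ∃ a ∈ D, ∃ b ∈ D, a ≠ b := by
    obtain ⟨f, hf0, hvf, -, hQf⟩ := exists_iso hND hd5 v₀ v₀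
    obtain ⟨x, hx1, -, hx⟩ := exists_orth_deg two_ne hND hd5 v₀ f (hnz hv₀) hQf hf0 hvf hc
    exact ⟨_, hmD v₀ hv₀, _, hmD x hx, hne v₀ x hv₀ hx hx1⟩
  -- connected
  have hadj : ∀ (a b : D), Commute (a : R) (b : R) → (Cfsg.commutingGraph D).Reachable a b := by
    intro a b h
    by_cases hab : a = b
    · rw [hab]
    · exact SimpleGraph.Adj.reachable ((SimpleGraph.fromRel_adj _ _ _).mpr ⟨hab, Or.inl h⟩)
  have hconn : (Cfsg.commutingGraph D).Connected := by
    haveI : Nonempty D := ⟨⟨_, hmD v₀ hv₀⟩⟩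
    refine SimpleGraph.Connected.mk ?_
    rintro ⟨a, ha⟩ ⟨b, hb⟩
    obtain ⟨v, hv, rfl⟩ := hDm a ha
    obtain ⟨w, hw, rfl⟩ := hDm b hb
    by_cases h1 : polar (⇑Q) v w = 0
    · exact hadj _ _ (hcomm v w hv hw h1)
    obtain ⟨hvu, hQu⟩ := plane_u hc hv hw h1
    by_cases hu : w + (c * polar (⇑Q) v w) • v = 0
    · apply hadj
      have h2 : w = (-(c * polar (⇑Q) v w)) • v := by linear_combination (norm := module) hu
      have h3 : -(c * polar (⇑Q) v w) ≠ 0 := neg_ne_zero.mpr (mul_ne_zero hc h1)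
      have h4 : Q ((-(c * polar (⇑Q) v w)) • v) ≠ 0 := by rw [← h2]; exact hnz hw
      have h5 : m v hv = m w hw := by
        apply Subtype.ext
        change OrthDet.refl Q v (hnz hv) = OrthDet.refl Q w (hnz hw)
        rw [refl_congr Q h2 (hnz hw) h4]
        exact (refl_smul Q v (hnz hv) _ h3 h4).symm
      change Commute (m v hv) (m w hw)
      rw [h5]
    · obtain ⟨x, hvx, hux, hx⟩ := exists_orth_deg two_ne hND hd5 v _ (hnz hv) hQu hu hvu hc
      have hwx : polar (⇑Q) w x = 0 := by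
        rw [QuadraticMap.polar_add_left, QuadraticMap.polar_smul_left, hvx, smul_zero, add_zero] at hux
        exact hux
      exact (hadj ⟨m v hv, ha⟩ ⟨m x hx, hmD x hx⟩ (hcomm v x hv hx hvx)).trans
        (hadj ⟨m x hx, hmD x hx⟩ ⟨m w hw, hb⟩ (hcomm w x hw hx hwx).symm)
  obtain ⟨L, nL, hL, hF⟩ := H90.ThreeTransF.exists_quasisimple hD hD2 h2 h3
  have hi : L.index ≤ 2 := (Cfsg.Agent.S5353.result hD hD2 h2 h3 L hL hF).2 hconn
  have hprim := (Cfsg.Agent.S5353.result hD hD2 h2 h3 L hL hF).1 hi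
  have hLc : commutator R = L := by
    apply le_antisymm
    · have h0 : L.index ≠ 0 := Subgroup.index_ne_zero_of_finite
      have h12 : Nat.card (R ⧸ L) = 1 ∨ Nat.card (R ⧸ L) = 2 := by
        rw [← Subgroup.index_eq_card]; omega
      have hcomm2 : ∀ a b : R ⧸ L, a * b = b * a := by
        rcases h12 with h | h
        · have := (Nat.card_eq_one_iff_unique.mp h).1
          intro a b
          exact Subsingleton.elim _ _
        · haveI : Fact (Nat.Prime 2) := ⟨Nat.prime_two⟩
          haveI := isCyclic_of_prime_card h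
          intro a b
          obtain ⟨g, hg⟩ := IsCyclic.exists_generator (α := R ⧸ L)
          obtain ⟨i, rfl⟩ := Subgroup.mem_zpowers_iff.mp (hg a)
          obtain ⟨j, rfl⟩ := Subgroup.mem_zpowers_iff.mp (hg b)
          exact ((Commute.refl g).zpow_zpow i j).eq
      rw [commutator_def, Subgroup.commutator_le]
      intro a _ b _
      rw [← QuotientGroup.eq_one_iff, commutatorElement_def]
      change (a : R ⧸ L) * (b : R ⧸ L) * (a : R ⧸ L)⁻¹ * (b : R ⧸ L)⁻¹ = 1
      rw [hcomm2 (a : R ⧸ L) b]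
      group
    · have h1 : commutator L = ⊤ := hL.1.commutator_eq_top
      have h2 : (commutator L).map L.subtype = L := by
        rw [h1, ← MonoidHom.range_eq_map, Subgroup.range_subtype]
      rw [commutator_def, Subgroup.map_commutator, ← MonoidHom.range_eq_map, Subgroup.range_subtype] at h2
      rw [← h2, commutator_def]
      exact Subgroup.commutator_mono le_top le_top
  rw [hLc]
  exact ⟨hL, hi, by rw [hF, sup_comm], hprim⟩

end Cfsg.Agent.S5360
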