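import Cfsg.Statements.S5361
import Cfsg.Agent.Lib.H91.TTPrim

set_option autoImplicit false
open Cfsg

namespace Cfsg.Agent.S5361




/-- Let D be a conjugacy class of 3-transpositions generating the finite group G, and suppose the centre of G is trivial and some two different members of D commute. Then the following are equivalent: (1) the commutator subgroup of G is simple (possibly of prime order); (2) G acts primitively on D by conjugation; (3) the largest normal 2-subgroup and the largest normal 3-subgroup of G are trivial and the commuting graph of D is connected. -/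
theorem result {G : Type*} [Group G] [Finite G] {D : Set G} (hD : Cfsg.IsThreeTranspositionClass D) (hZ : Subgroup.center G = ⊥) (hw : ∃ a ∈ D, ∃ b ∈ D, a ≠ b ∧ Commute a b) : (IsSimpleGroup (commutator G) ↔ Cfsg.IsPrimitiveUnderConj D) ∧ (Cfsg.IsPrimitiveUnderConj D ↔ (Cfsg.pCore 2 G = ⊥ ∧ Cfsg.pCore 3 G = ⊥ ∧ (Cfsg.commutingGraph D).Connected)) := by
  have H := H91.TTPrim.Cls.mk' hD hZ
  have h13 : H91.TTPrim.Star G → (Cfsg.pCore 2 G = ⊥ ∧ Cfsg.pCore 3 G = ⊥ ∧ (Cfsg.commutingGraph D).Connected) := fun hs =>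
    ⟨H.pcore_two hs, H.pcore_three hs hw, H.conn_iff.2 (H.conn_of_star hs hw)⟩
  have h32 : (Cfsg.pCore 2 G = ⊥ ∧ Cfsg.pCore 3 G = ⊥ ∧ (Cfsg.commutingGraph D).Connected) →
      Cfsg.IsPrimitiveUnderConj D := fun h => H.prim_of_conn h.1 h.2.1 (H.conn_iff.1 h.2.2) hw
  refine ⟨⟨fun h => h32 (h13 (H.star_of_simple h)), fun h => H.simple_of_star (H.star_of_prim h) hw⟩,
    fun h => h13 (H.star_of_prim h), h32⟩

end Cfsg.Agent.S5361
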