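import Cfsg.Statements.S5363
-- import your own Cfsg.Agent.* helpers here

set_option autoImplicit false
open Cfsg

namespace Cfsg.Agent.S5363




/-- Let D be a conjugation-invariant set of involutions of a finite group G. Then every product of two members of D has odd order or order 2 if and only if, for every a in D and every b in D different from a and commuting with a, the members of D commuting with a b are exactly those commuting with both a and b. -/
theorem result {G : Type*} [Group G] [Finite G] {D : Set G} (hinv : ∀ d ∈ D, orderOf d = 2) (hconj : ∀ g : G, ∀ d ∈ D, g * d * g⁻¹ ∈ D) : (∀ a ∈ D, ∀ b ∈ D, Odd (orderOf (a * b)) ∨ orderOf (a * b) = 2) ↔ ∀ a ∈ D, ∀ b ∈ D, b ≠ a → Commute a b → {y : G | y ∈ D ∧ Commute (a * b) y} = {y : G | y ∈ D ∧ Commute a y} ∩ {y : G | y ∈ D ∧ Commute b y} := by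
  classical
  have hsq : ∀ d ∈ D, d * d = 1 := by
    intro d hd
    have := pow_orderOf_eq_one d
    rw [hinv d hd, pow_two] at this
    exact this
  have hinvd : ∀ d ∈ D, d⁻¹ = d := fun d hd => inv_eq_of_mul_eq_one_left (hsq d hd)
  constructor
  · intro H a ha b hb hba hab
    have hc2 : (a * b) * (a * b) = 1 := by
      have h1 : a * b * (a * b) = (a * a) * (b * b) := by
        rw [mul_assoc, ← mul_assoc b a b, ← hab.eq]; group
      rw [h1, hsq a ha, hsq b hb, one_mul]
    have hc1 : a * b ≠ 1 := by
      intro h
      apply hba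
      have : b = a⁻¹ := by rw [eq_comm, inv_eq_iff_mul_eq_one]; exact h
      rw [this, hinvd a ha]
    have hco : orderOf (a * b) = 2 := by
      apply orderOf_eq_prime
      · rw [pow_two]; exact hc2
      · exact hc1
    ext y
    simp only [Set.mem_ofPred_eq, Set.mem_inter_iff]
    constructor
    · rintro ⟨hy, hcy⟩
      have key : Commute a y := by
        rcases H a ha y hy with hodd | h2
        · obtain ⟨k, hk⟩ := hodd
          have hca : Commute (a * b) a := by
            show a * b * a = a * (a * b)
            rw [mul_assoc, ← hab.eq]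
          have hcay : Commute (a * b) (a * y) := hca.mul_right hcy
          -- y = (a y)^k a (a y)^-k
          have hconja : a * (a * y) * a⁻¹ = (a * y)⁻¹ := by
            rw [mul_inv_rev, hinvd a ha, hinvd y hy, ← mul_assoc, hsq a ha, one_mul]
          have hconj' : a * (a * y) ^ k * a⁻¹ = ((a * y) ^ k)⁻¹ := by
            rw [← conj_pow, hconja, inv_pow]
          have hyk : (a * y) ^ k * a * ((a * y) ^ k)⁻¹ = y := by
            rw [← hconj']
            have e1 : (a * y) ^ k * a * (a * (a * y) ^ k * a⁻¹) = (a * y) ^ k * (a * a) * (a * y) ^ k * a⁻¹ := by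
              group
            rw [e1, hsq a ha, mul_one, ← pow_add]
            have e2 : (a * y) ^ (k + k) = (a * y)⁻¹ := by
              rw [eq_inv_iff_mul_eq_one, ← pow_succ, show k + k + 1 = 2 * k + 1 by ring, ← hk]
              exact pow_orderOf_eq_one _
            rw [e2, mul_inv_rev, hinvd a ha, hinvd y hy, mul_assoc, hsq a ha, mul_one]
          have hyc : y * (a * b) ∈ D := by
            have e3 : y * (a * b) = (a * y) ^ k * b * ((a * y) ^ k)⁻¹ := by
              have hcomm : Commute (a * b) ((a * y) ^ k)⁻¹ := (hcay.pow_right k).inv_right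
              calc y * (a * b) = (a * y) ^ k * a * ((a * y) ^ k)⁻¹ * (a * b) := by rw [hyk]
                _ = (a * y) ^ k * a * ((a * b) * ((a * y) ^ k)⁻¹) := by
                    rw [mul_assoc, ← hcomm.eq]
                _ = (a * y) ^ k * (a * a) * b * ((a * y) ^ k)⁻¹ := by group
                _ = (a * y) ^ k * b * ((a * y) ^ k)⁻¹ := by rw [hsq a ha, mul_one]
            rw [e3]
            exact hconj _ _ hb
          have hord : orderOf ((a * y) * (a * b)) = orderOf (a * y) * orderOf (a * b) := by
            apply hcay.symm.orderOf_mul_eq_mul_orderOf_of_coprime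
            rw [hco, hk]
            simp
          have e4 : a * (y * (a * b)) = (a * y) * (a * b) := by group
          rcases H a ha _ hyc with hodd' | h2'
          · exfalso
            rw [e4, hord, hco] at hodd'
            rw [Nat.odd_mul] at hodd'
            exact absurd hodd'.2 (by decide)
          · rw [e4, hord, hco] at h2'
            have h1 : orderOf (a * y) = 1 := by omega
            rw [orderOf_eq_one_iff] at h1
            have : y = a := by
              have := inv_eq_of_mul_eq_one_right h1
              rw [← this, hinvd a ha]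
            rw [this]
        · have h3 : (a * y) * (a * y) = 1 := by
            have := pow_orderOf_eq_one (a * y)
            rwa [h2, pow_two] at this
          show a * y = y * a
          have := inv_eq_of_mul_eq_one_left h3
          rw [mul_inv_rev, hinvd a ha, hinvd y hy] at this
          exact this.symm
      refine ⟨⟨hy, key⟩, hy, ?_⟩
      have : b = a * (a * b) := by rw [← mul_assoc, hsq a ha, one_mul]
      rw [this]
      exact key.mul_left hcy
    · rintro ⟨⟨hy, hay⟩, -, hby⟩
      exact ⟨hy, hay.mul_left hby⟩
  · intro H a ha b hb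
    by_contra hcon
    push Not at hcon
    obtain ⟨hno, hn2⟩ := hcon
    rw [Nat.not_odd_iff_even] at hno
    obtain ⟨m, hm⟩ := hno
    have hpos : 0 < orderOf (a * b) := orderOf_pos _
    set c := a * b with hcdef
    have hconja : a * c * a⁻¹ = c⁻¹ := by
      rw [hcdef, mul_inv_rev, hinvd a ha, hinvd b hb, ← mul_assoc, hsq a ha, one_mul]
    have hconjb : b * c * b⁻¹ = c⁻¹ := by
      rw [hcdef, mul_inv_rev, hinvd a ha, hinvd b hb]
      rw [mul_assoc, mul_assoc, hsq b hb, mul_one]
    have hpa : ∀ k : ℕ, a * c ^ k * a⁻¹ = (c ^ k)⁻¹ := by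
      intro k; rw [← conj_pow, hconja, inv_pow]
    have hpb : ∀ k : ℕ, b * c ^ k * b⁻¹ = (c ^ k)⁻¹ := by
      intro k; rw [← conj_pow, hconjb, inv_pow]
    have hzinv : (c ^ m)⁻¹ = c ^ m := by
      rw [inv_eq_iff_mul_eq_one, ← pow_add, ← hm]; exact pow_orderOf_eq_one _
    have hz1 : c ^ m ≠ 1 := by
      intro h
      have := orderOf_dvd_of_pow_eq_one h
      have := Nat.le_of_dvd (by omega) this
      omega
    have hza : Commute a (c ^ m) := by
      have := hpa m
      rw [hzinv] at this
      show a * c ^ m = c ^ m * a
      rw [← mul_inv_eq_iff_eq_mul]; exact this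
    have hzb : Commute b (c ^ m) := by
      have := hpb m
      rw [hzinv] at this
      show b * c ^ m = c ^ m * b
      rw [← mul_inv_eq_iff_eq_mul]; exact this
    -- c^k d c^-k = c^(2k) d for d inverting c
    have hgen : ∀ d : G, (∀ k : ℕ, d * c ^ k * d⁻¹ = (c ^ k)⁻¹) → ∀ k : ℕ, c ^ k * d * (c ^ k)⁻¹ = c ^ (k + k) * d := by
      intro d hd k
      have e : c ^ k * d * c ^ k = d := by
        have := hd k
        rw [mul_inv_eq_iff_eq_mul] at this
        rw [mul_assoc, this, mul_inv_cancel_left]
      have e' : c ^ k * d = d * (c ^ k)⁻¹ := by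
        rw [eq_mul_inv_iff_mul_eq]; exact e
      rw [mul_assoc, ← e', pow_add, mul_assoc]
    have hzaD : c ^ m * a ∈ D := by
      rcases Nat.even_or_odd' m with ⟨k, hk | hk⟩
      · have := hgen a hpa k
        rw [show k + k = m by omega] at this
        rw [← this]
        exact hconj _ _ ha
      · have haba : ∀ j : ℕ, (a * b * a⁻¹) * c ^ j * (a * b * a⁻¹)⁻¹ = (c ^ j)⁻¹ := by
          intro j
          have e : (a * b * a⁻¹) * c ^ j * (a * b * a⁻¹)⁻¹ = a * (b * (a⁻¹ * c ^ j * a) * b⁻¹) * a⁻¹ := by group
          have e2 : a⁻¹ * c ^ j * a = (c ^ j)⁻¹ := by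
            rw [← hpa j]
            rw [hinvd a ha]
          rw [e, e2]
          have e3 : b * (c ^ j)⁻¹ * b⁻¹ = c ^ j := by
            have := congrArg (·⁻¹) (hpb j)
            simp only [mul_inv_rev, inv_inv] at this
            rw [← mul_assoc] at this
            exact this
          rw [e3, hpa]
        have := hgen _ haba k
        have e5 : c ^ (k + k) * (a * b * a⁻¹) = c ^ m * a := by
          rw [hinvd a ha, hk, show 2 * k + 1 = (k + k) + 1 by ring, pow_succ, hcdef]
          group
        rw [e5] at this
        rw [← this]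
        exact hconj _ _ (hconj _ _ hb)
    have hne : c ^ m * a ≠ a := by
      intro h
      exact hz1 (by simpa using h)
    have hcomm : Commute a (c ^ m * a) := hza.mul_right (Commute.refl a)
    have hset := H a ha _ hzaD hne hcomm
    have hzz : a * (c ^ m * a) = c ^ m := by
      rw [← mul_assoc, hza.eq, mul_assoc, hsq a ha, mul_one]
    have hb' : b ∈ {y : G | y ∈ D ∧ Commute (a * (c ^ m * a)) y} := by
      refine ⟨hb, ?_⟩
      rw [hzz]; exact hzb.symm
    rw [hset] at hb'
    have hab : Commute a b := hb'.1.2
    have hc2 : c ^ 2 = 1 := by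
      rw [hcdef, pow_two]
      have h1 : a * b * (a * b) = (a * a) * (b * b) := by
        rw [mul_assoc, ← mul_assoc b a b, ← hab.eq]; group
      rw [h1, hsq a ha, hsq b hb, one_mul]
    have hd := orderOf_dvd_of_pow_eq_one hc2
    have := Nat.le_of_dvd (by norm_num) hd
    omega

end Cfsg.Agent.S5363
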