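import Cfsg.Statements.S5364
-- import your own Cfsg.Agent.* helpers here

set_option autoImplicit false
open Cfsg

namespace Cfsg.Agent.S5364




/-- Let D be a conjugation-invariant set of involutions of a finite group G and t an involution in the centre of G such that d t does not lie in D for any d in D. If the images of the members of D in G modulo the subgroup generated by t satisfy the 3-transposition order conditions (each has order 2 and any two have product of order at most 3), then so do the members of D. -/
theorem result {G : Type*} [Group G] [Finite G] {D : Set G} (hinv : ∀ d ∈ D, orderOf d = 2) (hconj : ∀ g : G, ∀ d ∈ D, g * d * g⁻¹ ∈ D) (t : G) (ht : orderOf t = 2) (htZ : t ∈ Subgroup.center G) (hDt : ∀ d ∈ D, d * t ∉ D) [(Subgroup.zpowers t).Normal] (himg : Cfsg.IsThreeTranspositionSet ((QuotientGroup.mk : G → G ⧸ Subgroup.zpowers t) '' D)) : Cfsg.IsThreeTranspositionSet D := by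
  classical
  have hsq : ∀ d ∈ D, d * d = 1 := by
    intro d hd
    have := pow_orderOf_eq_one d
    rw [hinv d hd, pow_two] at this
    exact this
  have hinvd : ∀ d ∈ D, d⁻¹ = d := fun d hd => inv_eq_of_mul_eq_one_left (hsq d hd)
  have htt : t * t = 1 := by
    have := pow_orderOf_eq_one t
    rwa [ht, pow_two] at this
  have hcomm : ∀ g : G, g * t = t * g := fun g => (Subgroup.mem_center_iff.mp htZ g)
  have hmem : ∀ x : G, x ∈ Subgroup.zpowers t → x = 1 ∨ x = t := by
    intro x hx
    obtain ⟨k, rfl⟩ := Subgroup.mem_zpowers_iff.mp hx
    rcases Int.even_or_odd' k with ⟨j, hj | hj⟩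
    · left
      rw [hj, zpow_mul]
      have : t ^ (2 : ℤ) = 1 := by
        rw [zpow_ofNat, pow_two, htt]
      rw [this, one_zpow]
    · right
      rw [hj, zpow_add, zpow_mul]
      have : t ^ (2 : ℤ) = 1 := by
        rw [zpow_ofNat, pow_two, htt]
      rw [this, one_zpow, one_mul, zpow_one]
  refine ⟨hinv, ?_⟩
  intro d hd e he
  have hconj' : ∀ g ∈ D, ∀ x ∈ D, g * x * g ∈ D := by
    intro g hg x hx
    have := hconj g x hx
    rwa [hinvd g hg] at this
  rcases himg.2 _ ⟨d, hd, rfl⟩ _ ⟨e, he, rfl⟩ with h | h
  · rw [← QuotientGroup.mk_mul, ← QuotientGroup.mk_pow, QuotientGroup.eq_one_iff] at h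
    rcases hmem _ h with h1 | h1
    · left; exact h1
    · exfalso
      apply hDt d hd
      have h2 : d * t = e * d * e := by
        rw [hcomm, ← h1, pow_two]
        calc d * e * (d * e) * d = d * (e * d * e) * d := by group
          _ = d * (e * d * e) * d := rfl
          _ = e * d * e := by
            have h3 : d * (e * d * e) = t := by rw [← h1, pow_two]; group
            have h4 : e * d * e = d * t := by
              rw [← h3, ← mul_assoc, hsq d hd, one_mul]
            rw [h4, ← mul_assoc, hsq d hd, one_mul, ← hcomm]
      rw [h2]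
      exact hconj' e he d hd
  · rw [← QuotientGroup.mk_mul, ← QuotientGroup.mk_pow, QuotientGroup.eq_one_iff] at h
    rcases hmem _ h with h1 | h1
    · right; exact h1
    · exfalso
      apply hDt _ (hconj' e he d hd)
      have h3 : (d * e * d) * (e * d * e) = t := by
        rw [← h1, pow_succ, pow_two]; group
      have h5 : (e * d * e) * (e * d * e) = 1 := hsq _ (hconj' e he d hd)
      have h4 : d * e * d = e * d * e * t := by
        rw [hcomm, ← h3]
        rw [mul_assoc (d * e * d), h5, mul_one]
      rw [← h4]
      exact hconj' d hd e he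

end Cfsg.Agent.S5364
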