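import Cfsg.Statements.S5377
import Cfsg.Agent.Lib.H91.FiMain
import Cfsg.Agent.Lib.H91.FYMain
import Cfsg.Agent.Lib.H91.FiType

set_option autoImplicit false
open Cfsg

namespace Cfsg.Agent.S5377




/-- Let G be a finite group with an involution d whose centralizer C is quasisimple with C modulo the subgroup generated by d isomorphic to the projective special unitary group of dimension 6 over the field with four elements, and suppose some conjugate of d other than d commutes with d. Then the conjugacy class of d is a class of 3-transpositions generating G, and G with this class is of type M(22). -/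
theorem result {G : Type*} [Group G] [Finite G] (d : G) (hd : orderOf d = 2) (hq : Cfsg.IsQuasisimple (Subgroup.centralizer ({d} : Set G))) [((Subgroup.zpowers d).subgroupOf (Subgroup.centralizer ({d} : Set G))).Normal] (K : Type) [Field K] [Fintype K] (hK : Fintype.card K = 4) (e : (Subgroup.centralizer ({d} : Set G)) ⧸ (Subgroup.zpowers d).subgroupOf (Subgroup.centralizer ({d} : Set G)) ≃* Cfsg.PSU 6 K 2) (hnwc : ∃ g : G, g * d * g⁻¹ ∈ Subgroup.centralizer ({d} : Set G) ∧ g * d * g⁻¹ ≠ d) : Cfsg.IsThreeTranspositionClass (conjugatesOf d) ∧ Cfsg.IsOfTypeM22 G (conjugatesOf d) := by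
  classical
  obtain ⟨h1, h2, h3, h4, h5⟩ := H91.FiMain.main d hd _ rfl hq K hK e hnwc
  obtain ⟨φ, hφ⟩ := H91.FY.main22 h1 h2 h3 h5
  refine ⟨⟨H92.Expl23.set_of_tri h1.lev.tri ?_, ⟨d, IsConj.refl d, rfl⟩, h2⟩, H91.FiType.type22 φ hφ⟩
  intro hh
  have h6 : d = 1 := (isConj_one_right.1 (IsConj.symm (show IsConj d 1 from hh)))
  rw [h6, orderOf_one] at hd
  norm_num at hd

end Cfsg.Agent.S5377
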