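import Cfsg.Statements.S5392
import Cfsg.Agent.Lib.H91.LeechIrr

set_option autoImplicit false
open Cfsg

namespace Cfsg.Agent.S5392




/-- The Leech lattice modulo twice itself is a faithful irreducible module for the first Conway group: an automorphism of the rank-24 lattice built from the length-24 code that moves every lattice vector only by twice a lattice vector lies in the centre of the automorphism group (the centre consists of ±1, which act trivially there, so the kernel is exactly the centre), and an additive subgroup lying between twice the lattice and the lattice that is invariant under all lattice automorphisms is one of the two. -/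
theorem result : (∀ g : ↥Cfsg.Co0, (∀ v : ↥Cfsg.leechLattice, ∃ w : ↥Cfsg.leechLattice, ((g • v : ↥Cfsg.leechLattice) : Cfsg.GolayPt → ℤ) - (v : Cfsg.GolayPt → ℤ) = 2 • (w : Cfsg.GolayPt → ℤ)) → g ∈ Subgroup.center ↥Cfsg.Co0) ∧ ∀ M : AddSubgroup (Cfsg.GolayPt → ℤ), (∀ v ∈ Cfsg.leechLattice, (2 : ℤ) • v ∈ M) → M ≤ Cfsg.leechLattice → (∀ g : ↥Cfsg.Co0, ∀ v : ↥Cfsg.leechLattice, (v : Cfsg.GolayPt → ℤ) ∈ M → ((g • v : ↥Cfsg.leechLattice) : Cfsg.GolayPt → ℤ) ∈ M) → (∀ x ∈ M, ∃ w ∈ Cfsg.leechLattice, x = (2 : ℤ) • w) ∨ M = Cfsg.leechLattice := by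
  constructor
  · intro g hg
    rw [H91.LeechTools.mem_center_iff]
    apply H91.LeechIrr.central_of_trivial
    intro v
    obtain ⟨w, hw⟩ := hg v
    refine ⟨w, ?_⟩
    apply Subtype.ext
    rw [AddSubgroup.coe_add, AddSubgroup.coe_add, ← two_nsmul, ← hw, add_sub_cancel]
  · intro M h2 hM hinv
    by_cases hd : ∀ x ∈ M, ∃ w ∈ Cfsg.leechLattice, x = (2 : ℤ) • w
    · exact Or.inl hd
    · right
      push Not at hd
      obtain ⟨x, hx, hxn⟩ := hd
      apply le_antisymm hM
      intro y hy
      have h := H91.LeechIrr.irr (U := M.comap Cfsg.leechLattice.subtype) (fun g w hw => hinv g w hw) (by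
        intro w
        have := h2 w w.2
        rw [two_zsmul] at this
        exact this) ⟨⟨x, hM hx⟩, hx, by
          rintro ⟨w, hw⟩
          apply hxn w w.2
          rw [two_zsmul]
          exact congrArg Subtype.val hw⟩ ⟨y, hy⟩
      exact h

end Cfsg.Agent.S5392
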