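import Cfsg.Statements.S5402
import Cfsg.Agent.Lib.H91.FiFin1

set_option autoImplicit false
open Cfsg

namespace Cfsg.Agent.S5402




/-- Let G be a finite group with an involution d whose centralizer C is quasisimple, such that C modulo the subgroup generated by d is of type M(22) with respect to some conjugacy class of 3-transpositions generating it, and also has an involution whose own centralizer is quasisimple with quotient by it isomorphic to the projective special unitary group of dimension 6 over the field with four elements and which is not weakly closed in its centralizer; and suppose some conjugate of d other than d commutes with d. Then the conjugacy class of d is a class of 3-transpositions generating G, and G with this class is of type M(23). -/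
theorem result {G : Type*} [Group G] [Finite G] (d : G) (hd : orderOf d = 2) (hq : Cfsg.IsQuasisimple (Subgroup.centralizer ({d} : Set G))) [((Subgroup.zpowers d).subgroupOf (Subgroup.centralizer ({d} : Set G))).Normal] (htype : ∃ E : Set ((Subgroup.centralizer ({d} : Set G)) ⧸ (Subgroup.zpowers d).subgroupOf (Subgroup.centralizer ({d} : Set G))), Cfsg.IsThreeTranspositionClass E ∧ Cfsg.IsOfTypeM22 _ E) (hinvol : ∃ d' : (Subgroup.centralizer ({d} : Set G)) ⧸ (Subgroup.zpowers d).subgroupOf (Subgroup.centralizer ({d} : Set G)), orderOf d' = 2 ∧ Cfsg.IsQuasisimple (Subgroup.centralizer ({d'} : Set _)) ∧ (∃ (K : Type) (_ : Field K) (_ : Fintype K), Fintype.card K = 4 ∧ ∃ _ : ((Subgroup.zpowers d').subgroupOf (Subgroup.centralizer ({d'} : Set _))).Normal, Nonempty ((Subgroup.centralizer ({d'} : Set _)) ⧸ (Subgroup.zpowers d').subgroupOf (Subgroup.centralizer ({d'} : Set _)) ≃* Cfsg.PSU 6 K 2)) ∧ ∃ g, g * d' * g⁻¹ ∈ Subgroup.centralizer ({d'} : Set _) ∧ g * d' * g⁻¹ ≠ d') (hnwc : ∃ g : G, g * d * g⁻¹ ∈ Subgroup.centralizer ({d}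 : Set G) ∧ g * d * g⁻¹ ≠ d) : Cfsg.IsThreeTranspositionClass (conjugatesOf d) ∧ Cfsg.IsOfTypeM23 G (conjugatesOf d) := by
  classical
  obtain ⟨E, hE3, hE22⟩ := htype
  have hEg : Cfsg.IsThreeTranspositionGroup E := by
    refine ⟨hE3.1, ?_, hE3.2.2⟩
    obtain ⟨e, he, hEe⟩ := hE3.2.1
    intro g x hx
    rw [hEe] at hx ⊢
    have h1 : IsConj e x := hx
    exact h1.trans (isConj_iff.2 ⟨g, rfl⟩)
  obtain ⟨hLG, hcard⟩ := H92.TypeNum.card22 (H92.Setup.tri_of_group hEg) (H92.Setup.one_notMem hEg) hEg.2.2 hE22
  obtain ⟨h1, φ, hφ⟩ := H91.FiFin1.fin_two d hd _ rfl hq hLG hcard hEg.2.2 hE22.1 hnwc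
  exact ⟨h1, H91.FiType.type23 φ hφ⟩

end Cfsg.Agent.S5402
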