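import Cfsg.Statements.S5406
import Cfsg.Agent.Lib.H91.MonConj
import Cfsg.Agent.Lib.H91.LeechFacts

set_option autoImplicit false
open Cfsg

namespace Cfsg.Agent.S5406




/-- Let G be a finite group of Monster type at the involution z with Q the extraspecial normal subgroup of order 2^25 of C = C_G(z) (so C/Q is identified with the first Conway group with Q modulo its centre the Leech lattice modulo 2, and z is not weakly closed in Q). Then C acts transitively by conjugation on the conjugates of z that lie in Q and differ from z. -/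
theorem result {G : Type*} [Group G] [Finite G] (z : G) (Q : Subgroup (Subgroup.centralizer ({z} : Set G))) [Q.Normal] (hM : Cfsg.IsOfMonsterType z Q) (s t : G) (hsQ : ∃ hsc : s ∈ Subgroup.centralizer ({z} : Set G), (⟨s, hsc⟩ : Subgroup.centralizer ({z} : Set G)) ∈ Q) (htQ : ∃ htc : t ∈ Subgroup.centralizer ({z} : Set G), (⟨t, htc⟩ : Subgroup.centralizer ({z} : Set G)) ∈ Q) (hs : IsConj z s) (ht : IsConj z t) (hs1 : s ≠ z) (ht1 : t ≠ z) : ∃ h ∈ Subgroup.centralizer ({z} : Set G), h * s * h⁻¹ = t := by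
  obtain ⟨hS, e, ψ, hψ⟩ := hM
  obtain ⟨Lab, R, q, b, M, hLab, hR⟩ := H91.MonData.exists_monData hS hψ
  have L := H91.LeechFacts.lf
  have mem : ∀ x : G, (∃ hsc : x ∈ Subgroup.centralizer ({z} : Set G), (⟨x, hsc⟩ : Subgroup.centralizer ({z} : Set G)) ∈ Q) →
      x ∈ Q.map (Subgroup.centralizer ({z} : Set G)).subtype := by
    rintro x ⟨h1, h2⟩
    exact ⟨⟨x, h1⟩, h2, rfl⟩
  obtain ⟨v, hv, hvn⟩ := H91.MonConj.conj_label L M hs (mem s hsQ) hs1
  obtain ⟨w, hw, hwn⟩ := H91.MonConj.conj_label L M ht (mem t htQ) ht1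
  obtain ⟨c, hc, hcs⟩ := H91.MonType.trans64 L M hv hw hvn hwn
  exact ⟨c, Subgroup.mem_centralizer_singleton_iff.2 hc, hcs⟩

end Cfsg.Agent.S5406
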