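import Cfsg.Statements.S5408
import Cfsg.Agent.Lib.H91.MonsterForm
import Cfsg.Agent.Lib.H8.M24Mem

set_option autoImplicit false
open Cfsg

namespace Cfsg.Agent.S5408

open H91.Leech H91.InvForm H91.MonsterForm H8.GolayCode H8.GolayBasic H8.M24Mem

/-- a codeword supported on the points of index at least 12 is empty -/
theorem eq_empty_of_high {c : Finset GolayPt} (hc : c ∈ GS) (h : ∀ p ∈ c, 12 ≤ idx p) : c = ∅ := by
  obtain ⟨w, hw, rfl⟩ := hc
  obtain ⟨k, hk, rfl⟩ := mem_golay_iff_exists.1 hw
  have h1 : k % 4096 = 0 := by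
    rw [← cw_mod_low]
    apply Nat.eq_of_testBit_eq
    intro i
    rw [show (4096 : ℕ) = 2 ^ 12 by norm_num, Nat.testBit_mod_two_pow, Nat.zero_testBit]
    by_cases hi : i < 12
    · by_contra h2
      have h3 : (cw k).testBit i = true := by
        simpa [hi] using h2
      have h4 : pt i ∈ support₂ (wd (cw k)) := by
        simp [support₂, wd, idx_pt i (by omega), h3]
      have := h _ h4
      rw [idx_pt i (by omega)] at this
      omega
    · simp [hi]
  have h2 : cw k = 0 := by
    rw [← cw_mod, h1, cw_zero]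
  rw [h2, wd_zero]
  ext; simp [support₂]

/-- index set -/
abbrev I := {x : ZMod 23 // 12 ≤ x.val}

/-- the vector attached to a subset of `I` and a bit -/
def av (t : I → Fin 2) (s : Fin 2) : GolayPt → ℤ
  | none => (∑ x : ZMod 23, if h : 12 ≤ x.val then ((t ⟨x, h⟩).val : ℤ) else 0) + 2 * (s.val : ℤ)
  | some x => if h : 12 ≤ x.val then ((t ⟨x, h⟩).val : ℤ) else 0

theorem av_even (t : I → Fin 2) (s : Fin 2) : (2 : ℤ) ∣ ∑ i, av t s i := by
  rw [Fintype.sum_option]
  show (2 : ℤ) ∣ ((∑ x : ZMod 23, if h : 12 ≤ x.val then ((t ⟨x, h⟩).val : ℤ) else 0) + 2 * (s.val : ℤ)) +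
    ∑ x : ZMod 23, if h : 12 ≤ x.val then ((t ⟨x, h⟩).val : ℤ) else 0
  omega

theorem card_I : Fintype.card I = 11 := by decide +kernel

theorem av_inj {t t' : I → Fin 2} {s s' : Fin 2} (w : leechLattice)
    (h : four (av t s) (av_even t s) = four (av t' s') (av_even t' s') + (w + w)) : t = t' ∧ s = s' := by
  have h1 : ∀ i, 4 * (av t s i - av t' s' i) = 2 * (w : GolayPt → ℤ) i := by
    intro i
    have := congrFun (congrArg Subtype.val h) i
    have h2 : 4 * av t s i = 4 * av t' s' i + ((w : GolayPt → ℤ) i + (w : GolayPt → ℤ) i) := this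
    linarith
  obtain ⟨h2, h3⟩ := odd_mem_of_double (x := fun i => av t s i - av t' s' i) w.2 h1
  have h4 := eq_empty_of_high h2 (by
    intro p hp
    rw [Finset.mem_filter] at hp
    by_contra hlt
    push Not at hlt
    obtain ⟨-, hp⟩ := hp
    cases p with
    | none => simp [idx] at hlt
    | some x =>
      have h5 : ¬ 12 ≤ x.val := by simpa [idx] using hlt
      simp only [av, h5, dif_neg, not_false_iff] at hp
      norm_num at hp)
  have h5 : ∀ i, (av t s i - av t' s' i) % 2 ≠ 1 := by
    intro i hi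
    have : i ∈ (Finset.univ.filter fun i => (av t s i - av t' s' i) % 2 = 1) :=
      Finset.mem_filter.2 ⟨Finset.mem_univ _, hi⟩
    rw [h4] at this
    exact absurd this (Finset.notMem_empty _)
  have ht : t = t' := by
    funext ⟨x, hx⟩
    have h6 := h5 (some x)
    simp only [av, hx, dif_pos] at h6
    apply Fin.ext
    have h7 := (t ⟨x, hx⟩).isLt
    have h8 := (t' ⟨x, hx⟩).isLt
    omega
  refine ⟨ht, ?_⟩
  subst ht
  rw [Fintype.sum_option] at h3
  have h9 : ∀ x : ZMod 23, av t s (some x) - av t s' (some x) = 0 := by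
    intro x
    simp [av]
  simp only [h9] at h3
  rw [Finset.sum_const_zero, add_zero] at h3
  simp only [av] at h3
  apply Fin.ext
  have h7 := s.isLt
  have h8 := s'.isLt
  omega


/-- Let G be a finite group of Monster type at the involution z with Q the extraspecial normal subgroup of order 2^25 of C = C_G(z) (so C/Q is identified with the first Conway group with Q modulo its centre the Leech lattice modulo 2, and z is not weakly closed in Q). Then Q is of plus type: it contains an elementary abelian subgroup of order 2^13. -/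
theorem result {G : Type*} [Group G] [Finite G] (z : G) (Q : Subgroup (Subgroup.centralizer ({z} : Set G))) [Q.Normal] (hM : Cfsg.IsOfMonsterType z Q) : ∃ E : Subgroup Q, Cfsg.IsElementaryAbelian 2 E ∧ Nat.card E = 2 ^ 13 := by
  classical
  obtain ⟨⟨hz2, hF, hQ, hcard, hg⟩, e, ψ, hψ⟩ := hM
  obtain ⟨ζ, X⟩ := exists_XS hQ
  obtain ⟨q, b, F, hq, hb⟩ := exists_form hQ hψ
  obtain ⟨h1, h2, h3, h4⟩ := hψ
  have hψ0 : ψ 0 = 1 := (h3 0).2 ⟨0, by simp⟩
  have hψneg : ∀ v, ψ (-v) = (ψ v)⁻¹ := by
    intro v
    rw [eq_inv_iff_mul_eq_one, ← h1, neg_add_cancel, hψ0]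
  let B : Subgroup (Q ⧸ Subgroup.center Q) :=
    { carrier := {y | ∃ (a : GolayPt → ℤ) (ha : (2 : ℤ) ∣ ∑ i, a i), ψ (four a ha) = y}
      one_mem' := by
        refine ⟨0, by simp, ?_⟩
        have : four 0 (by simp) = 0 := by
          apply Subtype.ext; funext i; show 4 * (0 : ℤ) = 0; norm_num
        rw [this, hψ0]
      mul_mem' := by
        rintro x y ⟨a, ha, rfl⟩ ⟨c, hc, rfl⟩
        refine ⟨a + c, ?_, ?_⟩
        · simp only [Pi.add_apply, Finset.sum_add_distrib]
          exact dvd_add ha hc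
        · rw [← h1]
          congr 1
          apply Subtype.ext; funext i
          show 4 * (a i + c i) = 4 * a i + 4 * c i
          ring
      inv_mem' := by
        rintro x ⟨a, ha, rfl⟩
        refine ⟨-a, ?_, ?_⟩
        · simp only [Pi.neg_apply, Finset.sum_neg_distrib]
          exact (dvd_neg).2 ha
        · rw [← hψneg]
          congr 1
          apply Subtype.ext; funext i
          show 4 * (-a i) = -(4 * a i)
          ring }
  let E : Subgroup Q := B.comap (QuotientGroup.mk' (Subgroup.center Q))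
  have hsq : ∀ x ∈ E, x * x = 1 := by
    rintro x ⟨a, ha, hax⟩
    rw [← sqf_eq_zero, ← hq _ x hax]
    exact F.q_four a ha
  have hBcard : 2 ^ 12 ≤ Nat.card B := by
    let f : (I → Fin 2) × Fin 2 → B := fun p => ⟨ψ (four (av p.1 p.2) (av_even _ _)), _, _, rfl⟩
    have hf : Function.Injective f := by
      rintro ⟨t, s⟩ ⟨t', s'⟩ h
      have h5 : ψ (four (av t s) (av_even _ _)) = ψ (four (av t' s') (av_even _ _)) := congrArg Subtype.val h
      have h6 : ψ (four (av t s) (av_even _ _) + -(four (av t' s') (av_even _ _))) = 1 := by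
        rw [h1, hψneg, h5, mul_inv_cancel]
      obtain ⟨w, hw⟩ := (h3 _).1 h6
      obtain ⟨h7, h8⟩ := av_inj (t := t) (t' := t') (s := s) (s' := s') w (by rw [← hw]; abel)
      rw [h7, h8]
    have h5 := Nat.card_le_card_of_injective f hf
    have h6 : Nat.card ((I → Fin 2) × Fin 2) = 2 ^ 12 := by
      rw [Nat.card_eq_fintype_card, Fintype.card_prod, Fintype.card_fun, card_I]
      simp
    rw [h6] at h5
    exact h5
  have hEcard : Nat.card E = 2 * Nat.card B := by
    have h5 := E.card_mul_index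
    have h6 := B.card_mul_index
    have h7 : E.index = B.index := Subgroup.index_comap_of_surjective B (QuotientGroup.mk'_surjective _)
    have h8 := Subgroup.card_eq_card_quotient_mul_card_subgroup (Subgroup.center Q)
    rw [hQ.2, ← h6, ← h5, h7] at h8
    have h9 : 0 < B.index := Nat.pos_of_ne_zero (Subgroup.index_ne_zero_of_finite)
    have : Nat.card E * B.index = (2 * Nat.card B) * B.index := by rw [h8]; ring
    exact Nat.eq_of_mul_eq_mul_right h9 this
  have hEdvd : Nat.card E ∣ 2 ^ 25 := by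
    have := Subgroup.card_subgroup_dvd_card E
    rw [hcard] at this
    exact this
  obtain ⟨k, hk, hEk⟩ := (Nat.dvd_prime_pow Nat.prime_two).1 hEdvd
  have hk13 : 13 ≤ k := by
    by_contra hlt
    push Not at hlt
    have : Nat.card E < 2 ^ 13 := by
      rw [hEk]
      exact Nat.pow_lt_pow_right (by norm_num) hlt
    omega
  have hfact : Fact (Nat.Prime 2) := ⟨Nat.prime_two⟩
  obtain ⟨K, hK⟩ := Sylow.exists_subgroup_card_pow_prime (G := E) 2 (n := 13)
    (by rw [hEk]; exact pow_dvd_pow 2 hk13)
  refine ⟨K.map E.subtype, ⟨⟨⟨?_⟩⟩, ?_⟩, ?_⟩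
  · rintro ⟨x, hx⟩ ⟨y, hy⟩
    apply Subtype.ext
    show x * y = y * x
    have hxE : x ∈ E := Subgroup.map_subtype_le _ hx
    have hyE : y ∈ E := Subgroup.map_subtype_le _ hy
    have e1 := hsq x hxE
    have e2 := hsq y hyE
    have e3 := hsq (x * y) (E.mul_mem hxE hyE)
    have i1 : x⁻¹ = x := inv_eq_of_mul_eq_one_left e1
    have i2 : y⁻¹ = y := inv_eq_of_mul_eq_one_left e2
    have i3 : (x * y)⁻¹ = x * y := inv_eq_of_mul_eq_one_left e3
    rw [← i3, mul_inv_rev, i1, i2]
  · intro x hx
    rw [pow_two]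
    exact hsq x (Subgroup.map_subtype_le _ hx)
  · rw [← hK]
    exact (Nat.card_congr (K.equivMapOfInjective E.subtype E.subtype_injective).toEquiv).symm

end Cfsg.Agent.S5408
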