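import Cfsg.Statements.S5409
import Cfsg.Agent.Lib.H91.MonCross
import Cfsg.Agent.Lib.H91.LeechFacts

set_option autoImplicit false
open Cfsg

namespace Cfsg.Agent.S5409




/-- Let G be a finite group of Monster type at the involution z with Q the extraspecial normal subgroup of order 2^25 of C = C_G(z) (so C/Q is identified with the first Conway group with Q modulo its centre the Leech lattice modulo 2, and z is not weakly closed in Q). Then for a conjugate s = g z g⁻¹ of z lying in Q and different from z, the intersection of Q with its conjugate g Q g⁻¹ (both regarded as subgroups of G) has order 2^13. -/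
theorem result {G : Type*} [Group G] [Finite G] (z : G) (Q : Subgroup (Subgroup.centralizer ({z} : Set G))) [Q.Normal] (hM : Cfsg.IsOfMonsterType z Q) (s : G) (hsQ : ∃ hsc : s ∈ Subgroup.centralizer ({z} : Set G), (⟨s, hsc⟩ : Subgroup.centralizer ({z} : Set G)) ∈ Q) (hs : IsConj z s) (hs1 : s ≠ z) (g : G) (hg : g * z * g⁻¹ = s) : Nat.card ↥((Q.map (Subgroup.centralizer ({z} : Set G)).subtype) ⊓ (Q.map (Subgroup.centralizer ({z} : Set G)).subtype).map (MulAut.conj g).toMonoidHom) = 2 ^ 13 := by
  obtain ⟨hS, e, ψ, hψ⟩ := hM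
  obtain ⟨Lab, R, q, b, M, hLab, hR⟩ := H91.MonData.exists_monData hS hψ
  have L := H91.LeechFacts.lf
  obtain ⟨hsc, hsq⟩ := hsQ
  have hsQ' : s ∈ Q.map (Subgroup.centralizer ({z} : Set G)).subtype := ⟨⟨s, hsc⟩, hsq, rfl⟩
  subst hg
  obtain ⟨P1, h2, h3, h4⟩ := H91.MonConj.basic M hsQ' hs1
  obtain ⟨v, hv, hn⟩ := H91.MonConj.conj_label L M hs hsQ' hs1
  obtain ⟨k, u, hk⟩ := L.h64 v (H91.LeechTools.fr none) hn (H91.LeechTools.norm_fr none)
  exact H91.MonCross.card_inter M P1 h2 (by rw [H91.MonConj.card_conj, M.card]) h4 hs1 hv hk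

end Cfsg.Agent.S5409
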