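import Cfsg.Statements.S5410
import Cfsg.Agent.Lib.H91.MonCross
import Cfsg.Agent.Lib.H91.LeechFacts

set_option autoImplicit false
open Cfsg

namespace Cfsg.Agent.S5410

open H8.GolayCode H91.MonsterForm H91.LargePair H91.Setting H91.InvForm H91.LeechTools H91.MonData H91.Co2Core
  H91.MonType H91.MonPair H91.MonConj H91.Cross H91.MonCross

/-- the perm elements as a homomorphism -/
theorem exists_hom : ∃ p : M24 →* Co0, ∀ σ i, p σ • fr i = fr ((σ : Equiv.Perm GolayPt) i) := by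
  have h1 : ∀ σ : M24, ∃ g : Co0, ∀ i, g • fr i = fr ((σ : Equiv.Perm GolayPt) i) := fun σ => exists_P σ.2
  choose f hf using h1
  refine ⟨MonoidHom.mk' f ?_, hf⟩
  intro σ τ
  apply ext_fr
  intro i
  rw [hf, mul_smul, hf, hf]
  rfl

theorem card_map_EE {G : Type*} [Group G] {z : G} {Q : Subgroup G} {Lab : leechLattice → G → Prop}
    {R : G → Co0 → Prop} {q : leechLattice → ZMod 2} {b : leechLattice → leechLattice → ZMod 2}
    (M : MonData z Q Lab R q b) {Q1 : Subgroup G} (h3 : Nat.card (EE M Q1) = 2 ^ 12) :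
    Nat.card ((EE M Q1).map (QuotientGroup.mk' (Subgroup.center Co0))) = 2 ^ 11 := by
  let f : EE M Q1 →* Co0 ⧸ Subgroup.center Co0 := (QuotientGroup.mk' (Subgroup.center Co0)).comp (EE M Q1).subtype
  have e1 : Nat.card f.range * Nat.card f.ker = Nat.card (EE M Q1) := by
    rw [← Subgroup.index_ker, mul_comm, Subgroup.card_mul_index]
  have e2 : f.range = (EE M Q1).map (QuotientGroup.mk' (Subgroup.center Co0)) := by
    ext y
    constructor
    · rintro ⟨γ, rfl⟩; exact ⟨γ, γ.2, rfl⟩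
    · rintro ⟨γ, hγ, rfl⟩; exact ⟨⟨γ, hγ⟩, rfl⟩
  have e3 : Nat.card f.ker = 2 := by
    rw [← card_center]
    apply Nat.card_congr
    exact
      { toFun := fun x => ⟨x.1.1, (QuotientGroup.eq_one_iff _).1 x.2⟩
        invFun := fun x => ⟨⟨x.1, by
          rcases mem_center_iff.1 x.2 with h | h
          · rw [h]; exact (EE M Q1).one_mem
          · rw [h]; exact neg_mem_EE M⟩, (QuotientGroup.eq_one_iff _).2 x.2⟩
        left_inv := fun x => rfl
        right_inv := fun x => rfl }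
  rw [e2, e3, h3] at e1
  omega


/-- Let G be a finite group of Monster type at the involution z with Q the extraspecial normal subgroup of order 2^25 of C = C_G(z) (so C/Q is identified with the first Conway group with Q modulo its centre the Leech lattice modulo 2, and z is not weakly closed in Q). Let g in G with s = g z g⁻¹ a member of Q other than z, let X be the image in C/Q of the centralizer of s in C, and let E be the image in C/Q of the intersection of g Q g⁻¹ with C. Then E is a normal subgroup of X, elementary abelian of order 2^11, and it has a complement in X isomorphic to the Mathieu group of degree 24 (the automorphism group of the length-24 binary Golay code). -/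
theorem result {G : Type*} [Group G] [Finite G] (z : G) (Q : Subgroup (Subgroup.centralizer ({z} : Set G))) [Q.Normal] (hM : Cfsg.IsOfMonsterType z Q) (s : G) (hsQ : ∃ hsc : s ∈ Subgroup.centralizer ({z} : Set G), (⟨s, hsc⟩ : Subgroup.centralizer ({z} : Set G)) ∈ Q) (hs : IsConj z s) (hs1 : s ≠ z) (g : G) (hg : g * z * g⁻¹ = s) (X E : Subgroup ((Subgroup.centralizer ({z} : Set G)) ⧸ Q)) (hX : X = ((Subgroup.centralizer ({z} : Set G) ⊓ Subgroup.centralizer ({s} : Set G)).subgroupOf (Subgroup.centralizer ({z} : Set G))).map (QuotientGroup.mk' Q)) (hE : E = (((Q.map (Subgroup.centralizer ({z} : Set G)).subtype).map (MulAut.conj g).toMonoidHom ⊓ Subgroup.centralizer ({z} : Set G)).subgroupOf (Subgroup.centralizer ({z} : Set G))).map (QuotientGroup.mk' Q)) : E ≤ X ∧ (∀ x ∈ X, ∀ y ∈ E, x * y * x⁻¹ ∈ E) ∧ Cfsg.IsElementaryAbelian 2 E ∧ Nat.card E = 2 ^ 11 ∧ ∃ K : Subgroup ((Subgroup.centralizer ({z} : Set G)) ⧸ Q),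 K ≤ X ∧ E ⊓ K = ⊥ ∧ E ⊔ K = X ∧ Nonempty (K ≃* Cfsg.M24) := by
  classical
  obtain ⟨hS, e, ψ, hψ⟩ := hM
  obtain ⟨Lab, R, q, b, M, hLab, hR⟩ := H91.MonData.exists_monData hS hψ
  have L := H91.LeechFacts.lf
  obtain ⟨hsc, hsq⟩ := hsQ
  have hsQ' : s ∈ Q.map (Subgroup.centralizer ({z} : Set G)).subtype := ⟨⟨s, hsc⟩, hsq, rfl⟩
  subst hg
  obtain ⟨P1, h2, h3, h4⟩ := H91.MonConj.basic M hsQ' hs1
  obtain ⟨v, hv, hn⟩ := H91.MonConj.conj_label L M hs hsQ' hs1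
  obtain ⟨k, u, hk⟩ := L.h64 v (H91.LeechTools.fr none) hn (H91.LeechTools.norm_fr none)
  set Q1 := (Q.map (Subgroup.centralizer ({z} : Set G)).subtype).map (MulAut.conj g).toMonoidHom with hQ1
  set s := g * z * g⁻¹ with hsdef
  have hEE := EE_eq M P1 h2 h3 h4 hs1 hv hk
  have hcardEE := card_EE M P1 h2 h3 h4 hs1 hv hk
  obtain ⟨p, hp⟩ := exists_hom
  have hkv : k⁻¹ • fr none = v + (-(k⁻¹ • u) + -(k⁻¹ • u)) := by
    rw [inv_smul_eq_iff, H91.LeechTools.smul_add, hk, H91.LeechTools.smul_add, H91.LeechTools.smul_neg, smul_inv_smul]; abel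
  -- membership in `X`
  have hXmem : ∀ y, y ∈ X ↔ ∃ c : Subgroup.centralizer ({z} : Set G), (c : G) * s = s * c ∧ QuotientGroup.mk c = y := by
    intro y
    rw [hX]
    constructor
    · rintro ⟨c, hc, rfl⟩
      exact ⟨c, Subgroup.mem_centralizer_singleton_iff.1 hc.2, rfl⟩
    · rintro ⟨c, hc, rfl⟩
      exact ⟨c, ⟨c.2, Subgroup.mem_centralizer_singleton_iff.2 hc⟩, rfl⟩
  have hEmem : ∀ y, y ∈ E ↔ ∃ c : Subgroup.centralizer ({z} : Set G), (c : G) ∈ Q1 ∧ QuotientGroup.mk c = y := by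
    intro y
    rw [hE]
    constructor
    · rintro ⟨c, hc, rfl⟩
      exact ⟨c, hc.1, rfl⟩
    · rintro ⟨c, hc, rfl⟩
      exact ⟨c, ⟨hc, c.2⟩, rfl⟩
  -- `X` in terms of `Co0`
  have hX1 : ∀ y ∈ X, ∃ γ : Co0, (∃ σ, P (k * γ * k⁻¹) σ) ∧ e y = QuotientGroup.mk γ := by
    intro y hy
    obtain ⟨c, hc, rfl⟩ := (hXmem y).1 hy
    obtain ⟨γ, hγ⟩ := M.R_ex' (Subgroup.mem_centralizer_singleton_iff.1 c.2)
    refine ⟨γ, ?_, ((hR c γ).1 hγ).symm⟩
    have h1 := M.R_conj hγ hv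
    have h5 : (c : G) * s * (c : G)⁻¹ = s := by rw [hc]; group
    rw [h5] at h1
    obtain ⟨w, hw⟩ := lab_congr M h1 hv
    apply P_iff
    refine ⟨u + (k • w - k • (γ • (k⁻¹ • u))), ?_⟩
    rw [mul_smul, mul_smul, hkv, H91.LeechTools.smul_add, hw, H91.LeechTools.smul_add, H91.LeechTools.smul_add, hk,
      H91.LeechTools.smul_add, H91.LeechTools.smul_add, H91.LeechTools.smul_add, H91.LeechTools.smul_neg, H91.LeechTools.smul_neg]
    abel
  have hX2 : ∀ (γ : Co0) σ, P (k * γ * k⁻¹) σ → e.symm (QuotientGroup.mk γ) ∈ X := by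
    intro γ σ hσ
    obtain ⟨w, hw⟩ := P_congr hσ
    have h5 : γ • v = v + ((k⁻¹ • w + γ • (k⁻¹ • u) - k⁻¹ • u) + (k⁻¹ • w + γ • (k⁻¹ • u) - k⁻¹ • u)) := by
      have e1 : γ • (k⁻¹ • fr none) = k⁻¹ • fr none + (k⁻¹ • w + k⁻¹ • w) := by
        have : γ • (k⁻¹ • fr none) = k⁻¹ • ((k * γ * k⁻¹) • fr none) := by
          rw [← mul_smul, ← mul_smul]; congr 1; group
        rw [this, hw, H91.LeechTools.smul_add, H91.LeechTools.smul_add]
      rw [hkv, H91.LeechTools.smul_add, H91.LeechTools.smul_add, H91.LeechTools.smul_neg] at e1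
      have e2 : γ • v = (γ • v + (-(γ • k⁻¹ • u) + -(γ • k⁻¹ • u))) + ((γ • k⁻¹ • u) + (γ • k⁻¹ • u)) := by abel
      rw [e2, e1]; abel
    obtain ⟨c, hc, hcs⟩ := exists_R_comm M hv P1.z1 hs1 h5
    have hcC : c ∈ Subgroup.centralizer ({z} : Set G) := Subgroup.mem_centralizer_singleton_iff.2 (M.R_comm hc)
    rw [hXmem]
    refine ⟨⟨c, hcC⟩, hcs, ?_⟩
    rw [MulEquiv.eq_symm_apply]
    exact ((hR ⟨c, hcC⟩ γ).1 hc).symm
  have hE1 : ∀ y ∈ E, ∃ γ ∈ EE M Q1, e y = QuotientGroup.mk γ := by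
    intro y hy
    obtain ⟨c, hc, rfl⟩ := (hEmem y).1 hy
    obtain ⟨γ, hγ⟩ := M.R_ex' (Subgroup.mem_centralizer_singleton_iff.1 c.2)
    exact ⟨γ, ⟨c, hc, hγ⟩, ((hR c γ).1 hγ).symm⟩
  have hE2 : ∀ γ ∈ EE M Q1, e.symm (QuotientGroup.mk γ) ∈ E := by
    rintro γ ⟨c, hc, hγ⟩
    have hcC : c ∈ Subgroup.centralizer ({z} : Set G) := Subgroup.mem_centralizer_singleton_iff.2 (M.R_comm hγ)
    rw [hEmem]
    refine ⟨⟨c, hcC⟩, hc, ?_⟩
    rw [MulEquiv.eq_symm_apply]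
    exact ((hR ⟨c, hcC⟩ γ).1 hγ).symm
  have hsC : (⟨s, hsc⟩ : Subgroup.centralizer ({z} : Set G)) ∈ Q := hsq
  have hEX : E ≤ X := by
    intro y hy
    obtain ⟨c, hc, rfl⟩ := (hEmem y).1 hy
    exact (hXmem _).2 ⟨c, P1.zc c hc, rfl⟩
  have hEn : ∀ x ∈ X, ∀ y ∈ E, x * y * x⁻¹ ∈ E := by
    intro x hx y hy
    obtain ⟨c, hc, rfl⟩ := (hXmem x).1 hx
    obtain ⟨d, hd, rfl⟩ := (hEmem y).1 hy
    exact (hEmem _).2 ⟨c * d * c⁻¹, P1.N c hc d hd, rfl⟩
  -- the complement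
  let θ : M24 →* (Subgroup.centralizer ({z} : Set G)) ⧸ Q :=
    (e.symm : Spor.Co1 →* _).comp ((QuotientGroup.mk' (Subgroup.center Co0)).comp
      ((MulAut.conj k⁻¹).toMonoidHom.comp p))
  have hθ : ∀ σ, θ σ = e.symm (QuotientGroup.mk (k⁻¹ * p σ * k)) := by
    intro σ
    show e.symm (QuotientGroup.mk (k⁻¹ * p σ * k⁻¹⁻¹)) = _
    rw [inv_inv]
  have hPp : ∀ σ : M24, P (p σ) σ := fun σ i => Or.inl (hp σ i)
  have hkp : ∀ σ : M24, k * (k⁻¹ * p σ * k) * k⁻¹ = p σ := fun σ => by group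
  have hsign : ∀ σ : M24, p σ ∈ S → σ = 1 := fun σ h => Subtype.ext (P_unique (hPp σ) h)
  have hcen : ∀ γ : Co0, γ ∈ Subgroup.center Co0 → γ ∈ EE M Q1 := by
    intro γ hγ
    rcases mem_center_iff.1 hγ with h | h
    · rw [h]; exact (EE M Q1).one_mem
    · rw [h]; exact neg_mem_EE M
  have hEK : ∀ σ, θ σ ∈ E → σ = 1 := by
    intro σ hσ
    obtain ⟨γ, hγ, h5⟩ := hE1 _ hσ
    rw [hθ, MulEquiv.apply_symm_apply] at h5
    apply hsign
    rw [← hkp σ]
    apply (hEE _).1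
    have h6 : (k⁻¹ * p σ * k)⁻¹ * γ ∈ EE M Q1 := hcen _ (QuotientGroup.eq.1 h5)
    have h7 := (EE M Q1).mul_mem hγ ((EE M Q1).inv_mem h6)
    have h8 : γ * ((k⁻¹ * p σ * k)⁻¹ * γ)⁻¹ = k⁻¹ * p σ * k := by group
    rwa [h8] at h7
  have hθinj : Function.Injective θ := by
    rw [injective_iff_map_eq_one]
    intro σ hσ
    apply hEK
    rw [hσ]; exact E.one_mem
  refine ⟨hEX, hEn, ⟨⟨⟨?_⟩⟩, ?_⟩, ?_, θ.range, ?_, ?_, ?_, ⟨(MonoidHom.ofInjective hθinj).symm⟩⟩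
  · rintro ⟨x, hx⟩ ⟨y, hy⟩
    apply Subtype.ext
    show x * y = y * x
    obtain ⟨c, hc, rfl⟩ := (hEmem x).1 hx
    obtain ⟨d, hd, rfl⟩ := (hEmem y).1 hy
    rw [← mul_inv_eq_iff_eq_mul, ← mul_inv_eq_one]
    rw [← QuotientGroup.mk_mul, ← QuotientGroup.mk_inv, ← QuotientGroup.mk_mul, ← QuotientGroup.mk_inv, ← QuotientGroup.mk_mul,
      QuotientGroup.eq_one_iff]
    have h5 := P1.comm c hc d hd
    have h6 : c * d * c⁻¹ * d⁻¹ = 1 ∨ c * d * c⁻¹ * d⁻¹ = ⟨s, hsc⟩ := by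
      rcases h5 with h | h
      · left; exact Subtype.ext h
      · right; exact Subtype.ext h
    rcases h6 with h | h
    · rw [h]; exact Q.one_mem
    · rw [h]; exact hsC
  · intro y hy
    obtain ⟨c, hc, rfl⟩ := (hEmem y).1 hy
    rw [pow_two, ← QuotientGroup.mk_mul, QuotientGroup.eq_one_iff]
    have h6 : c * c = 1 ∨ c * c = ⟨s, hsc⟩ := by
      rcases P1.sq c hc with h | h
      · left; exact Subtype.ext h
      · right; exact Subtype.ext h
    rcases h6 with h | h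
    · rw [h]; exact Q.one_mem
    · rw [h]; exact hsC
  · rw [← card_map_EE M hcardEE]
    apply Nat.card_congr
    exact
      { toFun := fun y => ⟨e y, by
          obtain ⟨γ, hγ, h5⟩ := hE1 y y.2
          exact ⟨γ, hγ, h5.symm⟩⟩
        invFun := fun y => ⟨e.symm y, by
          obtain ⟨γ, hγ, h5⟩ := y.2
          rw [← h5]
          exact hE2 γ hγ⟩
        left_inv := fun y => Subtype.ext (e.symm_apply_apply _)
        right_inv := fun y => Subtype.ext (e.apply_symm_apply _) }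
  · rintro _ ⟨σ, rfl⟩
    rw [hθ]
    apply hX2 _ σ
    rw [hkp]
    exact hPp σ
  · rw [Subgroup.eq_bot_iff_forall]
    rintro _ ⟨h5, σ, rfl⟩
    rw [hEK σ h5, map_one]
  · apply le_antisymm
    · rw [sup_le_iff]
      refine ⟨hEX, ?_⟩
      rintro _ ⟨σ, rfl⟩
      rw [hθ]
      apply hX2 _ σ
      rw [hkp]
      exact hPp σ
    · intro y hy
      obtain ⟨γ, ⟨σ, hσ⟩, h5⟩ := hX1 y hy
      have hσM := P_mem_M24 hσ
      set τ : M24 := ⟨σ, hσM⟩ with hτ
      have h6 : γ * (k⁻¹ * p τ * k)⁻¹ ∈ EE M Q1 := by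
        rw [hEE]
        have h7 : k * (γ * (k⁻¹ * p τ * k)⁻¹) * k⁻¹ = (k * γ * k⁻¹) * (p τ)⁻¹ := by group
        rw [h7]
        have h8 := P_mul hσ (P_inv (hPp τ))
        have h9 : σ * (τ : Equiv.Perm GolayPt)⁻¹ = 1 := by rw [hτ]; simp
        rw [h9] at h8
        exact h8
      have h7 : y = e.symm (QuotientGroup.mk (γ * (k⁻¹ * p τ * k)⁻¹)) * θ τ := by
        rw [hθ, ← map_mul, ← QuotientGroup.mk_mul, inv_mul_cancel_right, ← h5, e.symm_apply_apply]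
      rw [h7]
      exact Subgroup.mul_mem_sup (hE2 _ h6) ⟨τ, rfl⟩

end Cfsg.Agent.S5410
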