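import Cfsg.Statements.S5411
import Cfsg.Agent.Lib.H91.MonConj
import Cfsg.Agent.Lib.H91.LeechFacts

set_option autoImplicit false
open Cfsg

namespace Cfsg.Agent.S5411




/-- Let G be a finite group of Monster type at the involution z with Q the extraspecial normal subgroup of order 2^25 of C = C_G(z) (so C/Q is identified with the first Conway group with Q modulo its centre the Leech lattice modulo 2, and z is not weakly closed in Q). Then C acts transitively by conjugation on the involutions of Q that are not conjugate to z in G. -/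
theorem result {G : Type*} [Group G] [Finite G] (z : G) (Q : Subgroup (Subgroup.centralizer ({z} : Set G))) [Q.Normal] (hM : Cfsg.IsOfMonsterType z Q) (s t : G) (hsQ : ∃ hsc : s ∈ Subgroup.centralizer ({z} : Set G), (⟨s, hsc⟩ : Subgroup.centralizer ({z} : Set G)) ∈ Q) (htQ : ∃ htc : t ∈ Subgroup.centralizer ({z} : Set G), (⟨t, htc⟩ : Subgroup.centralizer ({z} : Set G)) ∈ Q) (hs2 : orderOf s = 2) (ht2 : orderOf t = 2) (hs : ¬ IsConj z s) (ht : ¬ IsConj z t) : ∃ h ∈ Subgroup.centralizer ({z} : Set G), h * s * h⁻¹ = t := by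
  obtain ⟨hS, e, ψ, hψ⟩ := hM
  obtain ⟨Lab, R, q, b, M, hLab, hR⟩ := H91.MonData.exists_monData hS hψ
  have L := H91.LeechFacts.lf
  have mem : ∀ x : G, (∃ hsc : x ∈ Subgroup.centralizer ({z} : Set G), (⟨x, hsc⟩ : Subgroup.centralizer ({z} : Set G)) ∈ Q) →
      x ∈ Q.map (Subgroup.centralizer ({z} : Set G)).subtype := by
    rintro x ⟨h1, h2⟩
    exact ⟨⟨x, h1⟩, h2, rfl⟩
  obtain ⟨g, ⟨hq, hg1⟩, hg2⟩ := hS.2.2.2.2
  have key : ∀ x : G, x ∈ Q.map (Subgroup.centralizer ({z} : Set G)).subtype → orderOf x = 2 → ¬ IsConj z x →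
      ∃ v : leechLattice, sqNorm (v : GolayPt → ℤ) = 32 ∧ Lab v x := by
    intro x hx hx2 hxc
    have hx1 : x ≠ 1 := by
      intro h; rw [h, orderOf_one] at hx2; norm_num at hx2
    have hxz : x ≠ z := by
      rintro rfl; exact hxc (IsConj.refl _)
    have hxx : x * x = 1 := by
      have := pow_orderOf_eq_one x
      rw [hx2, pow_two] at this
      exact this
    obtain ⟨v, hv, hn | hn⟩ := H91.MonType.exists_label L M hx hxx hx1 hxz
    · exact ⟨v, hn, hv⟩
    · exact absurd ((H91.MonConj.conj_iff L M (s₀ := g * z * g⁻¹) (isConj_iff.2 ⟨g, rfl⟩) ⟨_, hg1, rfl⟩ hg2 hx).2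
        ⟨v, hn, hv⟩).1 hxc
  obtain ⟨v, hvn, hv⟩ := key s (mem s hsQ) hs2 hs
  obtain ⟨w, hwn, hw⟩ := key t (mem t htQ) ht2 ht
  obtain ⟨c, hc, hcs⟩ := H91.MonType.trans32 L M hv hw hvn hwn
  exact ⟨c, Subgroup.mem_centralizer_singleton_iff.2 hc, hcs⟩

end Cfsg.Agent.S5411
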