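import Cfsg.Statements.S5412
import Cfsg.Agent.Lib.H91.BabyEnd
import Cfsg.Agent.Lib.H91.LeechFacts

set_option autoImplicit false
open Cfsg

namespace Cfsg.Agent.S5412




/-- Let G be a finite group of Monster type at the involution z with Q the extraspecial normal subgroup of order 2^25 of C = C_G(z) (so C/Q is identified with the first Conway group with Q modulo its centre the Leech lattice modulo 2, and z is not weakly closed in Q). Let t be an involution of Q not conjugate to z in G. Then the centralizer of t modulo the subgroup generated by t is a group of Baby Monster type (an involution whose centralizer D has generalized Fitting subgroup R extraspecial of order 2^23 with D/R identified with the second Conway group acting on R modulo its centre as on the vectors of the Leech lattice modulo 2 orthogonal to a short vector, modulo that vector; the involution not weakly closed in R). -/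
theorem result {G : Type*} [Group G] [Finite G] (z : G) (Q : Subgroup (Subgroup.centralizer ({z} : Set G))) [Q.Normal] (hM : Cfsg.IsOfMonsterType z Q) (t : G) (htQ : ∃ htc : t ∈ Subgroup.centralizer ({z} : Set G), (⟨t, htc⟩ : Subgroup.centralizer ({z} : Set G)) ∈ Q) (ht2 : orderOf t = 2) (ht : ¬ IsConj z t) [hn : ((Subgroup.zpowers t).subgroupOf (Subgroup.centralizer ({t} : Set G))).Normal] : Cfsg.IsOfBabyMonsterType (↥(Subgroup.centralizer ({t} : Set G)) ⧸ (Subgroup.zpowers t).subgroupOf (Subgroup.centralizer ({t} : Set G))) := by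
  obtain ⟨hS, e, ψ, hψ⟩ := hM
  obtain ⟨Lab, R, q, b, M, hLab, hR⟩ := H91.MonData.exists_monData hS hψ
  have L := H91.LeechFacts.lf
  have htQ' : t ∈ Q.map (Subgroup.centralizer ({z} : Set G)).subtype := by
    obtain ⟨h1, h2⟩ := htQ
    exact ⟨⟨t, h1⟩, h2, rfl⟩
  obtain ⟨g, ⟨hq, hg1⟩, hg2⟩ := hS.2.2.2.2
  have hx1 : t ≠ 1 := by
    intro h; rw [h, orderOf_one] at ht2; norm_num at ht2
  have hxz : t ≠ z := by
    rintro rfl; exact ht (IsConj.refl _)
  have hxx : t * t = 1 := by
    have := pow_orderOf_eq_one t
    rw [ht2, pow_two] at this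
    exact this
  have hgQ : g * z * g⁻¹ ∈ Q.map (Subgroup.centralizer ({z} : Set G)).subtype := ⟨_, hg1, rfl⟩
  obtain ⟨v, hv, hn' | hn'⟩ := H91.MonType.exists_label L M htQ' hxx hx1 hxz
  · exact H91.BabyEnd.baby_type L M hv hn' ht hgQ hg2
  · exact absurd ((H91.MonConj.conj_iff L M (s₀ := g * z * g⁻¹) (isConj_iff.2 ⟨g, rfl⟩) hgQ hg2 htQ').2
      ⟨v, hn', hv⟩).1 ht

end Cfsg.Agent.S5412
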