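import Cfsg.Statements.S5414
import Cfsg.Agent.Lib.H33.MonThree
import Cfsg.Agent.Lib.H91.LeechFacts

set_option autoImplicit false
open Cfsg

namespace Cfsg.Agent.S5414

/-- Let G be a finite group of Monster type at the involution z with Q the extraspecial normal subgroup of order 2^25 of C = C_G(z) (so C/Q is identified with the first Conway group with Q modulo its centre the Leech lattice modulo 2, and z is not weakly closed in Q). Let s be a conjugate of z in Q other than z and let Y be a subgroup of order 3 of the joint centralizer L of z and s that is not 3-central in L (Y lies in the centre of no Sylow 3-subgroup of L). Then the centralizer of Y modulo Y is a group of Thompson type (an involution whose centralizer D has generalized Fitting subgroup R extraspecial of order 2^9 with D/R the alternating group of degree 9, the involution not weakly closed in R). -/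
theorem result {G : Type*} [Group G] [Finite G] (z : G) (Q : Subgroup (Subgroup.centralizer ({z} : Set G))) [Q.Normal] (hM : Cfsg.IsOfMonsterType z Q) (s : G) (hsQ : ∃ hsc : s ∈ Subgroup.centralizer ({z} : Set G), (⟨s, hsc⟩ : Subgroup.centralizer ({z} : Set G)) ∈ Q) (hs : IsConj z s) (hs1 : s ≠ z) (Y : Subgroup G) (hY : Y ≤ Subgroup.centralizer ({z, s} : Set G)) (hY3 : Nat.card Y = 3) (hnc : ∀ P : Sylow 3 ↥(Subgroup.centralizer ({z, s} : Set G)), ¬ Y.subgroupOf (Subgroup.centralizer ({z, s} : Set G)) ≤ (Subgroup.center ↥(P : Subgroup ↥(Subgroup.centralizer ({z, s} : Set G)))).map (P : Subgroup ↥(Subgroup.centralizer ({z, s} : Set G))).subtype) [hn : (Y.subgroupOf (Subgroup.centralizer (Y : Set G))).Normal] : Cfsg.IsOfThompsonType (↥(Subgroup.centralizer (Y : Set G)) ⧸ Y.subgroupOf (Subgroup.centralizer (Y : Set G))) := by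
  obtain ⟨hS, e, ψ, hψ⟩ := hM
  obtain ⟨Lab, R, q, b, M, hLab, hR⟩ := H91.MonData.exists_monData hS hψ
  have L := H91.LeechFacts.lf
  have hsQ' : s ∈ Q.map (Subgroup.centralizer ({z} : Set G)).subtype := by
    obtain ⟨h1, h2⟩ := hsQ
    exact ⟨⟨s, h1⟩, h2, rfl⟩
  obtain ⟨v, hv, hv64⟩ := H91.MonConj.conj_label L M hs hsQ' hs1
  have hp3 : Fact (Nat.Prime 3) := ⟨by norm_num⟩
  obtain ⟨c, hc'', hBc⟩ : ∃ c : G, orderOf c = 3 ∧ Y = Subgroup.zpowers c := by
    obtain ⟨c, hc⟩ : ∃ c : Y, orderOf c = 3 := exists_prime_orderOf_dvd_card' 3 (by rw [hY3])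
    have hc' : orderOf (c : G) = 3 := by rw [← hc]; exact Subgroup.orderOf_coe c
    refine ⟨c, hc', ?_⟩
    symm
    apply Subgroup.eq_of_le_of_card_ge
    · rw [Subgroup.zpowers_le]; exact c.2
    · rw [hY3, Nat.card_zpowers, hc']
  subst hBc
  have hcLL : c ∈ H33.MonFus.LL z s := hY (Subgroup.mem_zpowers c)
  have hcL := H33.MonFus.mem_LL.1 hcLL
  have hc3 : c ^ 3 = 1 := by rw [← hc'']; exact pow_orderOf_eq_one c
  have hc1 : c ≠ 1 := by
    rintro rfl
    rw [orderOf_one] at hc''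
    omega
  have hLf : (Nat.card (H33.MonFus.LL z s)).factorization 3 = 3 := by
    rw [H33.MonFus.fact_LL M hv hv64 (by norm_num) (by norm_num), H33.MonFus.fact3]
  have hTC : ¬ H33.MonFus.TC z s c := by
    rintro ⟨T, t1, t2, t3, t4⟩
    have h1 : Nat.card (T.subgroupOf (H33.MonFus.LL z s)) = 3 ^ (Nat.card (H33.MonFus.LL z s)).factorization 3 := by
      rw [hLf, Nat.card_congr (Subgroup.subgroupOfEquivOfLe t1).toEquiv, t2]; norm_num
    let P : Sylow 3 (H33.MonFus.LL z s) := Sylow.ofCard (T.subgroupOf (H33.MonFus.LL z s)) h1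
    apply hnc P
    intro x hx
    have hxc : x.1 ∈ Subgroup.zpowers c := hx
    have hxT : x.1 ∈ T := (Subgroup.zpowers_le.2 t3) hxc
    refine ⟨⟨x, hxT⟩, ?_, rfl⟩
    rw [SetLike.mem_coe, Subgroup.mem_center_iff]
    rintro ⟨t, ht⟩
    apply Subtype.ext; apply Subtype.ext
    show t.1 * x.1 = x.1 * t.1
    obtain ⟨n, hn⟩ := Subgroup.mem_zpowers_iff.1 hxc
    rw [← hn]
    exact ((show Commute t.1 c from t4 t.1 ht).zpow_right n).eq
  obtain ⟨⟨l, hl, hls⟩, hconj⟩ := H33.MonFus.fuse3 L M hsQ' hs hs1 hcLL hc'' hTC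
  obtain ⟨γ, hγ, hγ3⟩ := H33.MonRed.exists_gamma M (p := 3) (by decide) hc3 hcL.1
  have hγ1 : γ ≠ 1 := H33.MonRed.gamma_ne M (p := 3) (by norm_num) (by decide) hc3 hc1 hγ
  obtain ⟨k, j, hkj⟩ := hconj γ hγ hγ3 hγ1
  obtain ⟨Φ, κ, D⟩ := H33.MonP3.main3
  obtain ⟨Φ', κ', hFx, D', hκ'⟩ := H33.MonFus.transport D k γ j hkj hγ1
  exact H33.MonFus.setting M D' (w := 4) (by norm_num) (by
    rw [Nat.card_eq_fintype_card, Fintype.card_fun, ZMod.card, Fintype.card_fin]) H33.MonP3.pcore9 hc'' hγ hsQ' hs1 hcL.2 hl hls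

end Cfsg.Agent.S5414
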