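import Cfsg.Statements.S5415
import Cfsg.Agent.Lib.H33.MonQ6h
import Cfsg.Agent.Lib.H33.MonQ6i
import Cfsg.Agent.Lib.H33.MonQ6j
import Cfsg.Agent.Lib.H91.LeechFacts

set_option autoImplicit false
open Cfsg

namespace Cfsg.Agent.S5415

/-- Let G be a finite group of Monster type at the involution z with Q the extraspecial normal subgroup of order 2^25 of C = C_G(z) (so C/Q is identified with the first Conway group with Q modulo its centre the Leech lattice modulo 2, and z is not weakly closed in Q). Let s be a conjugate of z in Q other than z and let Y be a subgroup of order 3 of the joint centralizer L of z and s that is 3-central in L (Y lies in the centre of some Sylow 3-subgroup of L). Then the centralizer of Y modulo Y is a group of large Fischer type (an involution whose centralizer D has generalized Fitting subgroup R extraspecial of order 2^13 and normal subgroups R ≤ N ≤ M with N/R of order 3, M/N the projective special unitary group of dimension 4 over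 the field with nine elements and M of index 2 in D; the involution not weakly closed in R). -/
theorem result {G : Type*} [Group G] [Finite G] (z : G) (Q : Subgroup (Subgroup.centralizer ({z} : Set G))) [Q.Normal] (hM : Cfsg.IsOfMonsterType z Q) (s : G) (hsQ : ∃ hsc : s ∈ Subgroup.centralizer ({z} : Set G), (⟨s, hsc⟩ : Subgroup.centralizer ({z} : Set G)) ∈ Q) (hs : IsConj z s) (hs1 : s ≠ z) (Y : Subgroup G) (hY : Y ≤ Subgroup.centralizer ({z, s} : Set G)) (hY3 : Nat.card Y = 3) (hc : ∃ P : Sylow 3 ↥(Subgroup.centralizer ({z, s} : Set G)), Y.subgroupOf (Subgroup.centralizer ({z, s} : Set G)) ≤ (Subgroup.center ↥(P : Subgroup ↥(Subgroup.centralizer ({z, s} : Set G)))).map (P : Subgroup ↥(Subgroup.centralizer ({z, s} : Set G))).subtype) [hn : (Y.subgroupOf (Subgroup.centralizer (Y : Set G))).Normal] : Cfsg.IsOfLargeFischerType (↥(Subgroup.centralizer (Y : Set G)) ⧸ Y.subgroupOf (Subgroup.centralizer (Y : Set G))) := by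
  obtain ⟨hS, e, ψ, hψ⟩ := hM
  obtain ⟨Lab, R, q, b, M, hLab, hR⟩ := H91.MonData.exists_monData hS hψ
  have L := H91.LeechFacts.lf
  have hsQ' : s ∈ Q.map (Subgroup.centralizer ({z} : Set G)).subtype := by
    obtain ⟨h1, h2⟩ := hsQ
    exact ⟨⟨s, h1⟩, h2, rfl⟩
  obtain ⟨v, hv, hv64⟩ := H91.MonConj.conj_label L M hs hsQ' hs1
  have hp3 : Fact (Nat.Prime 3) := ⟨by norm_num⟩
  obtain ⟨c, hc'', hBc⟩ : ∃ c : G, orderOf c = 3 ∧ Y = Subgroup.zpowers c := by
    obtain ⟨c, hc⟩ : ∃ c : Y, orderOf c = 3 := exists_prime_orderOf_dvd_card' 3 (by rw [hY3])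
    have hc' : orderOf (c : G) = 3 := by rw [← hc]; exact Subgroup.orderOf_coe c
    refine ⟨c, hc', ?_⟩
    symm
    apply Subgroup.eq_of_le_of_card_ge
    · rw [Subgroup.zpowers_le]; exact c.2
    · rw [hY3, Nat.card_zpowers, hc']
  subst hBc
  have hcLL : c ∈ H33.MonFus.LL z s := hY (Subgroup.mem_zpowers c)
  have hcL := H33.MonFus.mem_LL.1 hcLL
  have hc3 : c ^ 3 = 1 := by rw [← hc'']; exact pow_orderOf_eq_one c
  have hc1 : c ≠ 1 := by
    rintro rfl
    rw [orderOf_one] at hc''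
    omega
  have hLf : (Nat.card (H33.MonFus.LL z s)).factorization 3 = 3 := by
    rw [H33.MonFus.fact_LL M hv hv64 (by norm_num) (by norm_num), H33.MonFus.fact3]
  have hTC : H33.MonFus.TC z s c := by
    obtain ⟨P, hP⟩ := hc
    have hcP : (⟨c, hcLL⟩ : Subgroup.centralizer ({z, s} : Set G)) ∈
        (Subgroup.center ↥(P : Subgroup ↥(Subgroup.centralizer ({z, s} : Set G)))).map
          (P : Subgroup ↥(Subgroup.centralizer ({z, s} : Set G))).subtype :=
      hP (Subgroup.mem_subgroupOf.2 (Subgroup.mem_zpowers c))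
    obtain ⟨y, hy, hyc⟩ := hcP
    refine ⟨(P : Subgroup ↥(Subgroup.centralizer ({z, s} : Set G))).map (Subgroup.centralizer ({z, s} : Set G)).subtype, ?_, ?_, ?_, ?_⟩
    · rintro _ ⟨t, -, rfl⟩
      exact t.2
    · rw [← Nat.card_congr ((P : Subgroup ↥(Subgroup.centralizer ({z, s} : Set G))).equivMapOfInjective _
        (Subgroup.subtype_injective _)).toEquiv]
      have h1 : Nat.card P = 3 ^ (Nat.card (H33.MonFus.LL z s)).factorization 3 := P.card_eq_multiplicity
      rw [hLf] at h1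
      exact h1
    · exact ⟨⟨c, hcLL⟩, by rw [← hyc]; exact y.2, rfl⟩
    · rintro _ ⟨t, ht, rfl⟩
      have h1 := congrArg (fun x : P => (x.1.1 : G)) (Subgroup.mem_center_iff.1 hy ⟨t, ht⟩)
      have h2 : (y.1.1 : G) = c := congrArg Subtype.val hyc
      show t.1 * c = c * t.1
      rw [← h2]
      exact h1
  obtain ⟨⟨l, hl, hls⟩, hconj⟩ := H33.MonFus.fuse6 L M hsQ' hs hs1 hcLL hc'' hTC
  obtain ⟨γ, hγ, hγ3⟩ := H33.MonRed.exists_gamma M (p := 3) (by decide) hc3 hcL.1
  have hγ1 : γ ≠ 1 := H33.MonRed.gamma_ne M (p := 3) (by norm_num) (by decide) hc3 hc1 hγ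
  obtain ⟨k, j, hkj⟩ := hconj γ hγ hγ3 hγ1
  obtain ⟨S, iS, iF, Φ, κ, X, iX, τ, W, D, hcore, hWn, hτ, hWr, hidx, ⟨eW⟩⟩ := H33.MonQ6.main6
  obtain ⟨Φ', κ', hFx, D', hκ'⟩ := H33.MonFus.transport D k γ j hkj hγ1
  obtain ⟨z', Q', hQ', hset, ⟨ε⟩⟩ := H33.MonFus.setting M D' (w := 6) (by norm_num) (by
    rw [Nat.card_eq_fintype_card, Fintype.card_fun, ZMod.card, Fintype.card_fin]) hcore hc'' hγ hsQ' hs1 hcL.2 hl hls
  refine ⟨z', Q', hQ', hset, ?_⟩
  obtain ⟨π, hπs, hπk⟩ : ∃ π : Subgroup.centralizer ({z'} : Set _) →* S, Function.Surjective π ∧ π.ker = Q' := by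
    refine ⟨ε.toMonoidHom.comp (QuotientGroup.mk' Q'), ?_, ?_⟩
    · exact ε.surjective.comp (QuotientGroup.mk'_surjective Q')
    · ext x
      rw [MonoidHom.mem_ker]
      show ε (x : _ ⧸ Q') = 1 ↔ _
      rw [← map_one ε, ε.injective.eq_iff, QuotientGroup.eq_one_iff]
  have hNker : (τ.comp π).ker = τ.ker.comap π := rfl
  have hMc : W.comap (τ.comp π) = (W.comap τ).comap π := rfl
  have hrange : (τ.comp π).range = τ.range := by
    rw [MonoidHom.range_eq_map, ← Subgroup.map_map, ← MonoidHom.range_eq_map, MonoidHom.range_eq_top.2 hπs, ← MonoidHom.range_eq_map]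
  haveI : Fintype (GaloisField 3 2) := Fintype.ofFinite _
  have hK : Fintype.card (GaloisField 3 2) = 3 ^ 2 := by
    rw [← Nat.card_eq_fintype_card, GaloisField.card 3 2 (by norm_num)]
  obtain ⟨e1⟩ := H33.MonQ6j.quot_comap (τ.comp π) W (by rw [hrange]; exact hWr)
  obtain ⟨e2⟩ := H33.U43.psu hK
  refine ⟨(τ.comp π).ker, W.comap (τ.comp π), inferInstance, hWn.comap _, ?_, ?_, ?_, ⟨GaloisField 3 2, inferInstance, inferInstance,
    hK, ⟨e1.trans (eW.trans e2)⟩⟩, ?_⟩
  · rw [← hπk]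
    intro x hx
    rw [MonoidHom.mem_ker] at hx ⊢
    rw [MonoidHom.comp_apply, hx, map_one]
  · intro x hx
    rw [Subgroup.mem_comap, MonoidHom.mem_ker.1 hx]
    exact W.one_mem
  · rw [hNker, H33.MonQ6j.card_comap π hπs, hτ, hπk]
  · rw [hMc, Subgroup.index_comap_of_surjective _ hπs, hidx]

end Cfsg.Agent.S5415
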