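import Cfsg.Statements.S5416
import Cfsg.Agent.Lib.H33.MonHeld
import Cfsg.Agent.Lib.H91.LeechFacts

set_option autoImplicit false
open Cfsg

namespace Cfsg.Agent.S5416

/-- Let G be a finite group of Monster type at the involution z with Q the extraspecial normal subgroup of order 2^25 of C = C_G(z) (so C/Q is identified with the first Conway group with Q modulo its centre the Leech lattice modulo 2, and z is not weakly closed in Q). Let s be a conjugate of z in Q other than z and let B be a Sylow 7-subgroup of the joint centralizer of z and s. Then the centralizer of B modulo B is a group of Held type (an involution whose centralizer D has generalized Fitting subgroup R extraspecial of order 2^7 with D/R isomorphic to SL(3, 2), exactly 29 of its conjugates lying in R, and the involution not weakly closed in R). -/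
theorem result {G : Type*} [Group G] [Finite G] (z : G) (Q : Subgroup (Subgroup.centralizer ({z} : Set G))) [Q.Normal] (hM : Cfsg.IsOfMonsterType z Q) (s : G) (hsQ : ∃ hsc : s ∈ Subgroup.centralizer ({z} : Set G), (⟨s, hsc⟩ : Subgroup.centralizer ({z} : Set G)) ∈ Q) (hs : IsConj z s) (hs1 : s ≠ z) (B : Subgroup G) (hB : B ≤ Subgroup.centralizer ({z, s} : Set G)) (hBp : Nat.card B = 7 ^ (Nat.card ↥(Subgroup.centralizer ({z, s} : Set G))).factorization 7) [hn : (B.subgroupOf (Subgroup.centralizer (B : Set G))).Normal] : Cfsg.IsOfHeldType (↥(Subgroup.centralizer (B : Set G)) ⧸ B.subgroupOf (Subgroup.centralizer (B : Set G))) := by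
  obtain ⟨hS, e, ψ, hψ⟩ := hM
  obtain ⟨Lab, R, q, b, M, hLab, hR⟩ := H91.MonData.exists_monData hS hψ
  have L := H91.LeechFacts.lf
  have hsQ' : s ∈ Q.map (Subgroup.centralizer ({z} : Set G)).subtype := by
    obtain ⟨h1, h2⟩ := hsQ
    exact ⟨⟨s, h1⟩, h2, rfl⟩
  obtain ⟨v, hv, hv64⟩ := H91.MonConj.conj_label L M hs hsQ' hs1
  have hp7 : Fact (Nat.Prime 7) := ⟨by norm_num⟩
  have hB7 : Nat.card B = 7 := by
    rw [hBp]
    have h1 := H33.MonFus.fact_LL M hv hv64 (p := 7) (by norm_num) (by norm_num)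
    rw [H33.MonFus.fact7] at h1
    have h2 : (Nat.card ↥(Subgroup.centralizer ({z, s} : Set G))).factorization 7 = 1 := h1
    rw [h2, pow_one]
  obtain ⟨c, hc'', hBc⟩ : ∃ c : G, orderOf c = 7 ∧ B = Subgroup.zpowers c := by
    obtain ⟨c, hc⟩ : ∃ c : B, orderOf c = 7 := exists_prime_orderOf_dvd_card' 7 (by rw [hB7])
    have hc' : orderOf (c : G) = 7 := by rw [← hc]; exact Subgroup.orderOf_coe c
    refine ⟨c, hc', ?_⟩
    symm
    apply Subgroup.eq_of_le_of_card_ge
    · rw [Subgroup.zpowers_le]; exact c.2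
    · rw [hB7, Nat.card_zpowers, hc']
  subst hBc
  have hcL := H33.MonFus.mem_LL.1 (hB (Subgroup.mem_zpowers c))
  have hc7 : c ^ 7 = 1 := by rw [← hc'']; exact pow_orderOf_eq_one c
  have hc1 : c ≠ 1 := by
    rintro rfl
    rw [orderOf_one] at hc''
    omega
  obtain ⟨γ, hγ, hγ7⟩ := H33.MonRed.exists_gamma M (p := 7) (by decide) hc7 hcL.1
  have hγ1 : γ ≠ 1 := H33.MonRed.gamma_ne M (p := 7) (by norm_num) (by decide) hc7 hc1 hγ
  obtain ⟨Φ, κ, D, hF⟩ := H33.MonP7.main7
  obtain ⟨k, j, hkj⟩ := H33.MonFus.exists_conj_gm (by norm_num) H33.MonFus.fact7 H33.MonP7.gm7 H33.MonP7.gm_ne hγ7 hγ1 hv64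
    (H33.MonFus.mem_St_of M hv hcL.2 hγ)
  obtain ⟨Φ', κ', hFx, D', hκ'⟩ := H33.MonFus.transport D k γ j hkj hγ1
  refine H33.MonFus.held L M D' (T := {a | ∃ m ∈ H33.MonP7.T4, a = H33.MonCo.bv 6 m}) ?_ ?_ hc'' hγ hsQ' hs hs1 hcL.2
  · intro v
    rw [hκ' v]
    constructor
    · intro h
      exact (hF _).1 (h.smul k)
    · intro h
      have h1 := (hF ⟨k • v.1, hFx v.1 v.2⟩).2 h
      have h2 := h1.smul k⁻¹
      have h3 : k⁻¹ • (k • v.1) = v.1 := inv_smul_smul k v.1
      rw [← h3]; exact h2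
  · have h1 : ({a | ∃ m ∈ H33.MonP7.T4, a = H33.MonCo.bv 6 m} : Set (Fin 6 → ZMod 2)) =
        ((H33.MonP7.T4.map (H33.MonCo.bv 6)).toFinset : Set _) := by
      ext a
      simp only [Set.mem_ofPred_eq, List.coe_toFinset, List.mem_map]
      constructor
      · rintro ⟨m, hm, rfl⟩; exact ⟨m, hm, rfl⟩
      · rintro ⟨m, hm, rfl⟩; exact ⟨m, hm, rfl⟩
    rw [h1, Set.ncard_coe_finset]
    decide +kernel

end Cfsg.Agent.S5416
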