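import Cfsg.Statements.S5418
import Cfsg.Agent.Lib.H33.MonSev2
import Cfsg.Agent.Lib.H33.MonHeld
import Cfsg.Agent.Lib.H91.LeechFacts

set_option autoImplicit false
open Cfsg

namespace Cfsg.Agent.S5418

/-- Let G be a finite group of Monster type at the involution z with Q the extraspecial normal subgroup of order 2^25 of C = C_G(z) (so C/Q is identified with the first Conway group with Q modulo its centre the Leech lattice modulo 2, and z is not weakly closed in Q). Let s be a conjugate of z in Q other than z and let B be a Sylow 7-subgroup of the joint centralizer of z and s. Then the centralizer of B has index 6 in the normalizer of B; and some involution inverting B induces, by conjugation, a non-inner automorphism of the layer of the centralizer of B. -/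
theorem result {G : Type*} [Group G] [Finite G] (z : G) (Q : Subgroup (Subgroup.centralizer ({z} : Set G))) [Q.Normal] (hM : Cfsg.IsOfMonsterType z Q) (s : G) (hsQ : ∃ hsc : s ∈ Subgroup.centralizer ({z} : Set G), (⟨s, hsc⟩ : Subgroup.centralizer ({z} : Set G)) ∈ Q) (hs : IsConj z s) (hs1 : s ≠ z) (B : Subgroup G) (hB : B ≤ Subgroup.centralizer ({z, s} : Set G)) (hBp : Nat.card B = 7 ^ (Nat.card ↥(Subgroup.centralizer ({z, s} : Set G))).factorization 7) : (Subgroup.centralizer (B : Set G)).relIndex (Subgroup.normalizer (B : Set G)) = 6 ∧ ∃ t : G, orderOf t = 2 ∧ (∀ b ∈ B, t * b * t⁻¹ = b⁻¹) ∧ (∀ x ∈ (Cfsg.layer ↥(Subgroup.centralizer (B : Set G))).map (Subgroup.centralizer (B : Set G)).subtype, t * x * t⁻¹ ∈ (Cfsg.layer ↥(Subgroup.centralizer (B : Set G))).map (Subgroup.centralizer (B : Set G)).subtype) ∧ ¬ ∃ l ∈ (Cfsg.layer ↥(Subgroup.centralizer (B : Set G))).map (Subgroup.centralizer (B : Set G)).subtype, ∀ x ∈ (Cfsg.layer ↥(Subgroup.centralizer (B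 : Set G))).map (Subgroup.centralizer (B : Set G)).subtype, t * x * t⁻¹ = l * x * l⁻¹ := by
  obtain ⟨hS, e, ψ, hψ⟩ := hM
  obtain ⟨Lab, R, q, b, M, hLab, hR⟩ := H91.MonData.exists_monData hS hψ
  have L := H91.LeechFacts.lf
  have hsQ' : s ∈ Q.map (Subgroup.centralizer ({z} : Set G)).subtype := by
    obtain ⟨h1, h2⟩ := hsQ
    exact ⟨⟨s, h1⟩, h2, rfl⟩
  obtain ⟨v, hv, hv64⟩ := H91.MonConj.conj_label L M hs hsQ' hs1
  have hp7 : Fact (Nat.Prime 7) := ⟨by norm_num⟩
  have hB7 : Nat.card B = 7 := by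
    rw [hBp]
    have h1 := H33.MonFus.fact_LL M hv hv64 (p := 7) (by norm_num) (by norm_num)
    rw [H33.MonFus.fact7] at h1
    have h2 : (Nat.card ↥(Subgroup.centralizer ({z, s} : Set G))).factorization 7 = 1 := h1
    rw [h2, pow_one]
  obtain ⟨c, hc'', hBc⟩ : ∃ c : G, orderOf c = 7 ∧ B = Subgroup.zpowers c := by
    obtain ⟨c, hc⟩ : ∃ c : B, orderOf c = 7 := exists_prime_orderOf_dvd_card' 7 (by rw [hB7])
    have hc' : orderOf (c : G) = 7 := by rw [← hc]; exact Subgroup.orderOf_coe c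
    refine ⟨c, hc', ?_⟩
    symm
    apply Subgroup.eq_of_le_of_card_ge
    · rw [Subgroup.zpowers_le]; exact c.2
    · rw [hB7, Nat.card_zpowers, hc']
  subst hBc
  have hcL := H33.MonFus.mem_LL.1 (hB (Subgroup.mem_zpowers c))
  have hc7 : c ^ 7 = 1 := by rw [← hc'']; exact pow_orderOf_eq_one c
  have hc1 : c ≠ 1 := by
    rintro rfl
    rw [orderOf_one] at hc''
    omega
  obtain ⟨γ, hγ, hγ7⟩ := H33.MonRed.exists_gamma M (p := 7) (by decide) hc7 hcL.1
  have hγ1 : γ ≠ 1 := H33.MonRed.gamma_ne M (p := 7) (by norm_num) (by decide) hc7 hc1 hγ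
  obtain ⟨Φ, κ, D, hF⟩ := H33.MonP7.main7
  obtain ⟨k, j, hkj⟩ := H33.MonFus.exists_conj_gm (by norm_num) H33.MonFus.fact7 H33.MonP7.gm7 H33.MonP7.gm_ne hγ7 hγ1 hv64
    (H33.MonFus.mem_St_of M hv hcL.2 hγ)
  obtain ⟨Φ', κ', hFx, D', hκ'⟩ := H33.MonFus.transport D k γ j hkj hγ1
  exact H33.MonSev.main L M D' hc'' hγ hγ7 hγ1 hkj hsQ' hs hs1

end Cfsg.Agent.S5418
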