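import Cfsg.Statements.S5420
import Cfsg.Agent.Lib.H91.LargeExtra

set_option autoImplicit false
open Cfsg

namespace Cfsg.Agent.S5420




/-- Let Q be an extraspecial 2-subgroup of the finite group G whose centralizer in G is its centre Z and which is normal in the centralizer of Z. If Z lies in the largest normal 2-subgroup of G, then Q is a large extraspecial 2-subgroup of G: it normalizes no non-trivial subgroup of G of odd order. -/
theorem result {G : Type*} [Group G] [Finite G] (Q : Subgroup G) (hL1 : Cfsg.IsExtraspecial 2 ↥Q) (hL2 : Subgroup.centralizer (Q : Set G) = ((Subgroup.center ↥Q).map Q.subtype)) (hL3 : Subgroup.centralizer (((Subgroup.center ↥Q).map Q.subtype) : Set G) ≤ Subgroup.normalizer (Q : Set G)) (hZ : ((Subgroup.center ↥Q).map Q.subtype) ≤ Cfsg.pCore 2 G) : Cfsg.IsLargeExtraspecial Q := by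
  refine ⟨hL1, hL2, hL3, ?_⟩
  intro K hKodd hQK
  set Z := (Subgroup.center ↥Q).map Q.subtype with hZdef
  have hZQ : Z ≤ Q := by
    rw [hZdef]; exact Subgroup.map_subtype_le _
  -- K ∩ O_2(G) = 1
  have h2 : IsPGroup 2 ↥(Cfsg.pCore 2 G) := H91.LargeExtra.isPGroup_pCore
  have hdisj : ∀ x : G, x ∈ K → x ∈ Cfsg.pCore 2 G → x = 1 := by
    intro x hxK hxP
    exact H91.LargeExtra.eq_one_of_odd_of_two hKodd h2 hxK hxP
  have hKZ : K ≤ Subgroup.centralizer (Z : Set G) := by
    intro k hk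
    rw [Subgroup.mem_centralizer_iff]
    intro z hz
    have hzQ : z ∈ Q := hZQ hz
    have h1 : z * k * z⁻¹ * k⁻¹ ∈ K := by
      apply K.mul_mem _ (K.inv_mem hk)
      exact (Subgroup.mem_normalizer_iff.mp (hQK hzQ) k).mp hk
    have h3 : z * k * z⁻¹ * k⁻¹ ∈ Cfsg.pCore 2 G := by
      have : z * k * z⁻¹ * k⁻¹ = z * (k * z⁻¹ * k⁻¹) := by group
      rw [this]
      apply Subgroup.mul_mem _ (hZ hz)
      exact (Cfsg.pCore_normal 2 G).conj_mem _ (Subgroup.inv_mem _ (hZ hz)) k
    have h4 := hdisj _ h1 h3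
    rw [mul_inv_eq_one, mul_inv_eq_iff_eq_mul] at h4
    exact h4
  exact H91.LargeExtra.eq_bot_of_le_centralizer hL1.1.1 hL2 hL3 hKodd hQK hKZ

end Cfsg.Agent.S5420
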