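import Cfsg.Statements.S5421
import Cfsg.Agent.Lib.H91.LargeExtra
import Cfsg.Agent.Lib.H91.FourGroup

set_option autoImplicit false
open Cfsg

namespace Cfsg.Agent.S5421




/-- Let Q be an extraspecial 2-subgroup of the finite group G whose centralizer in G is its centre Z and which is normal in the centralizer of Z. If some involution b of Q outside Z has Z inside the largest normal 2-subgroup of the centralizer of b, then Q is a large extraspecial 2-subgroup of G. -/
theorem result {G : Type*} [Group G] [Finite G] (Q : Subgroup G) (hL1 : Cfsg.IsExtraspecial 2 ↥Q) (hL2 : Subgroup.centralizer (Q : Set G) = ((Subgroup.center ↥Q).map Q.subtype)) (hL3 : Subgroup.centralizer (((Subgroup.center ↥Q).map Q.subtype) : Set G) ≤ Subgroup.normalizer (Q : Set G)) (b : G) (hbQ : b ∈ Q) (hbZ : b ∉ ((Subgroup.center ↥Q).map Q.subtype)) (hb : orderOf b = 2) (hZ : ((Subgroup.center ↥Q).map Q.subtype) ≤ (Cfsg.pCore 2 ↥(Subgroup.centralizer ({b} : Set G))).map (Subgroup.centralizer ({b} : Set G)).subtype)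 : Cfsg.IsLargeExtraspecial Q := by
  refine ⟨hL1, hL2, hL3, ?_⟩
  intro K hKodd hQK
  obtain ⟨z, hzQ, hz1, hzz, hZz, hmem, hzc, hcen, hcomm, hsq⟩ := H91.LargeExtra.exists_z hL1
  apply H91.LargeExtra.eq_bot_of_le_centralizer hL1.1.1 hL2 hL3 hKodd hQK
  have hbb : b * b = 1 := by
    have := pow_orderOf_eq_one b
    rwa [hb, pow_two] at this
  have hb1 : b ≠ 1 := by
    intro h; rw [h, orderOf_one] at hb; norm_num at hb
  have hzb : z * b = b * z := (hzc b hbQ).symm
  have hzinv : z⁻¹ = z := inv_eq_of_mul_eq_one_left hzz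
  -- membership in the centraliser of Z
  have hcZ : ∀ k : G, z * k = k * z → k ∈ Subgroup.centralizer (((Subgroup.center ↥Q).map Q.subtype : Subgroup G) : Set G) := by
    intro k hk
    rw [Subgroup.mem_centralizer_iff]
    intro y hy
    rcases (hmem y).mp hy with rfl | rfl
    · simp
    · exact hk
  have hZzmem : z ∈ ((Subgroup.center ↥Q).map Q.subtype : Subgroup G) := (hmem z).mpr (Or.inr rfl)
  -- k commuting with b commutes with z
  have h2 : ∀ k ∈ K, b * k = k * b → z * k = k * z := by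
    intro k hk hbk
    set T := (Cfsg.pCore 2 ↥(Subgroup.centralizer ({b} : Set G))).map (Subgroup.centralizer ({b} : Set G)).subtype with hT
    have hT2 : IsPGroup 2 ↥T := by
      apply IsPGroup.map
      exact H91.LargeExtra.isPGroup_pCore
    have hkC : k ∈ Subgroup.centralizer ({b} : Set G) := by
      rw [Subgroup.mem_centralizer_singleton_iff]
      exact hbk.symm
    have hzT : z ∈ T := hZ hZzmem
    have hconjT : ∀ y ∈ T, k * y * k⁻¹ ∈ T := by
      rintro y ⟨y', hy', rfl⟩
      refine ⟨⟨k, hkC⟩ * y' * ⟨k, hkC⟩⁻¹, ?_, by simp⟩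
      exact (Cfsg.pCore_normal 2 _).conj_mem _ hy' _
    have h1 : z * k * z⁻¹ * k⁻¹ ∈ K :=
      K.mul_mem ((Subgroup.mem_normalizer_iff.mp (hQK hzQ) k).mp hk) (K.inv_mem hk)
    have h3 : z * k * z⁻¹ * k⁻¹ ∈ T := by
      have : z * k * z⁻¹ * k⁻¹ = z * (k * z⁻¹ * k⁻¹) := by group
      rw [this]
      exact T.mul_mem hzT (hconjT _ (T.inv_mem hzT))
    have h4 := H91.LargeExtra.eq_one_of_odd_of_two hKodd hT2 h1 h3
    rw [mul_inv_eq_one, mul_inv_eq_iff_eq_mul] at h4
    exact h4
  apply H91.FourGroup.le_of_centralizers hKodd hzz hbb hzb (hQK hzQ) (hQK hbQ)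
  · intro k hk h; exact hcZ k h
  · intro k hk h; exact hcZ k (h2 k hk h)
  · intro k hk h
    apply hcZ
    -- b is conjugate to z b
    obtain ⟨q, hq, hqb⟩ : ∃ q ∈ Q, q * b ≠ b * q := by
      by_contra hcon
      push Not at hcon
      rcases hcen b hbQ hcon with h | h
      · exact hb1 h
      · apply hbZ; rw [h]; exact hZzmem
    have hqz : q * b * q⁻¹ = z * b := by
      rcases hcomm q hq b hbQ with h' | h'
      · exfalso; apply hqb
        rw [mul_inv_eq_one, mul_inv_eq_iff_eq_mul] at h'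
        exact h'
      · rw [mul_inv_eq_iff_eq_mul] at h'
        exact h'
    have hk' : q⁻¹ * k * q ∈ K := by
      have := (Subgroup.mem_normalizer_iff.mp (hQK (Q.inv_mem hq)) k).mp hk
      simpa using this
    have hbk' : b * (q⁻¹ * k * q) = (q⁻¹ * k * q) * b := by
      have e : (q * b * q⁻¹) * k = k * (q * b * q⁻¹) := by rw [hqz]; exact h
      calc b * (q⁻¹ * k * q) = q⁻¹ * ((q * b * q⁻¹) * k) * q := by group
        _ = q⁻¹ * (k * (q * b * q⁻¹)) * q := by rw [e]
        _ = (q⁻¹ * k * q) * b := by group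
    have h5 := h2 _ hk' hbk'
    have hqz' : q * z = z * q := hzc q hq
    calc z * k = z * (q * (q⁻¹ * k * q) * q⁻¹) := by group
      _ = (z * q) * (q⁻¹ * k * q) * q⁻¹ := by group
      _ = (q * z) * (q⁻¹ * k * q) * q⁻¹ := by rw [hqz']
      _ = q * (z * (q⁻¹ * k * q)) * q⁻¹ := by group
      _ = q * ((q⁻¹ * k * q) * z) * q⁻¹ := by rw [h5]
      _ = k * (q * z * q⁻¹) := by group
      _ = k * (z * q * q⁻¹) := by rw [hqz']
      _ = k * z := by group

end Cfsg.Agent.S5421
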