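import Cfsg.Statements.S5425
import Cfsg.Agent.Lib.H91.M24Cent
import Cfsg.Agent.Lib.H8.M24Trans

set_option autoImplicit false
open Cfsg

namespace Cfsg.Agent.S5425




/-- In the Mathieu group of degree 24 (the automorphism group of the length-24 binary Golay code, acting on the 24 coordinates), let z be an involution whose fixed points form an octad (the support of a code word of weight 8), and let Q be the largest normal 2-subgroup of the centralizer C of z. Then Q is extraspecial of order 2^7 with an elementary abelian subgroup of order 16 (plus type), Q is a large extraspecial 2-subgroup, and C is the split extension of Q by the special linear group of degree 3 over the field with two elements. -/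
theorem result (z : ↥Cfsg.M24) (hz : orderOf z = 2) (hfix : (Finset.univ.filter fun p : Cfsg.GolayPt => (z : Equiv.Perm Cfsg.GolayPt) p = p) ∈ Cfsg.octads) (Q : Subgroup ↥Cfsg.M24) (hQ : Q = (Cfsg.pCore 2 ↥(Subgroup.centralizer ({z} : Set ↥Cfsg.M24))).map (Subgroup.centralizer ({z} : Set ↥Cfsg.M24)).subtype) : Cfsg.IsExtraspecial 2 ↥Q ∧ Nat.card ↥Q = 2 ^ 7 ∧ (∃ E : Subgroup ↥Cfsg.M24, E ≤ Q ∧ Cfsg.IsElementaryAbelian 2 E ∧ Nat.card ↥E = 2 ^ 4) ∧ Cfsg.IsLargeExtraspecial Q ∧ ∃ K : Subgroup ↥Cfsg.M24, K ≤ Subgroup.centralizer ({z} : Set ↥Cfsg.M24) ∧ Q ⊓ K = ⊥ ∧ Q ⊔ K = Subgroup.centralizer ({z} : Set ↥Cfsg.M24) ∧ Nonempty (↥K ≃* Matrix.SpecialLinearGroup (Fin 3) (ZMod 2)) := by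
  obtain ⟨g0, hg0, hgO⟩ := H8.M24Trans.octad_trans hfix H57.OctTab.O_octad
  set g : Cfsg.M24 := ⟨g0, hg0⟩ with hg
  have hz1 : z ≠ 1 := by
    intro h; rw [h, orderOf_one] at hz; norm_num at hz
  have hv : ((g * z * g⁻¹ : Cfsg.M24) : Equiv.Perm Cfsg.GolayPt) ∈ H57.OctStab.VO := by
    refine ⟨(g * z * g⁻¹).2, fun x hx => ?_⟩
    rw [← hgO, Finset.mem_image] at hx
    obtain ⟨y, hy, rfl⟩ := hx
    rw [Finset.mem_filter] at hy
    show g0 ((z : Equiv.Perm Cfsg.GolayPt) (g0⁻¹ (g0 y))) = g0 y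
    have e : g0⁻¹ (g0 y) = y := by simp
    rw [e, hy.2]
  have hC : ∀ c, c ∈ Subgroup.centralizer ({z} : Set ↥Cfsg.M24) ↔ c * z = z * c :=
    fun _ => Subgroup.mem_centralizer_singleton_iff
  have hvU : H91.M24Cent.vv hv ∈ H91.M24Cent.U0 := hv
  obtain ⟨Φ, hΦ⟩ := H91.M24Cent.exists_Phi hvU (H91.M24Cent.vv_ne hv hz1)
  have hΦ' : ∀ h : z ∈ Subgroup.centralizer ({z} : Set ↥Cfsg.M24),
      (((H91.M24Cent.Psi hv hz1).trans Φ) ⟨z, h⟩ : H91.TransvCent.SL (2 + 1 + 2)) = H91.Holomorph.z1 := by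
    intro h
    exact hΦ (Subgroup.mem_centralizer_singleton_iff.2 rfl)
  obtain ⟨⟨h1, h2, h3⟩, ⟨h4, h5⟩, h6⟩ := H91.M24Cent.main_of_iso _ hC ((H91.M24Cent.Psi hv hz1).trans Φ) hΦ' Q hQ
  refine ⟨h1, h2, h3, ⟨h1, h4, h5, ?_⟩, h6⟩
  intro K hK hn
  refine H91.M24Cent.odd_clause (g := g) K hK (le_trans ?_ hn)
  rw [hQ]
  exact H91.M24Cent.Uz_le_Q hv hz1

end Cfsg.Agent.S5425
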