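import Cfsg.Statements.S5426
import Cfsg.Agent.Lib.H91.LargeLayer

set_option autoImplicit false
open Cfsg

namespace Cfsg.Agent.S5426




/-- Let Q be a large extraspecial 2-subgroup of the finite group G (extraspecial; centralizer equal to its centre; normal in the centralizer of its centre; normalizing no non-trivial subgroup of odd order) with centre generated by z, and let M be the normal closure of z in G. Then one of the following holds: Q is normal in G; or M is abelian and the generalized Fitting subgroup of G is its largest normal 2-subgroup; or M is the generalized Fitting subgroup of G and is a non-abelian simple group; or M is the generalized Fitting subgroup of G and is the direct product of a non-abelian simple subgroup L and its conjugate u L u⁻¹ by some u in Q (the two meet trivially and commute elementwise), with z = z₁ (u z₁ u⁻¹) for some z₁ in L whose centralizer in L is a Sylow 2-subgroup of L with Frattini subgroup inside the subgroup generated by z₁, and Q is not the largest normal 2-subgroup of the centralizer of z. -/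
theorem result {G : Type*} [Group G] [Finite G] (Q : Subgroup G) (hQ : Cfsg.IsLargeExtraspecial Q) (z : G) (hz : ((Subgroup.center ↥Q).map Q.subtype) = Subgroup.zpowers z) (M : Subgroup G) (hM : M = Subgroup.normalClosure ({z} : Set G)) : Q.Normal ∨ (IsMulCommutative ↥M ∧ Cfsg.generalizedFittingSubgroup G = Cfsg.pCore 2 G) ∨ (M = Cfsg.generalizedFittingSubgroup G ∧ IsSimpleGroup ↥M ∧ ¬ IsMulCommutative ↥M) ∨ (M = Cfsg.generalizedFittingSubgroup G ∧ ∃ (L : Subgroup G) (u : G), u ∈ Q ∧ IsSimpleGroup ↥L ∧ ¬ IsMulCommutative ↥L ∧ L ⊓ (L).map (MulAut.conj u).toMonoidHom = ⊥ ∧ (∀ x ∈ L, ∀ y ∈ (L).map (MulAut.conj u).toMonoidHom, x * y = y * x) ∧ L ⊔ (L).map (MulAut.conj u).toMonoidHom = M ∧ ∃ z₁ ∈ L, z = z₁ * (u * z₁ * u⁻¹) ∧ (∃ R : Sylow 2 ↥L, (R : Subgroup ↥L) = (Subgroup.centralizer ({z₁} : Set G)).subgroupOf L ∧ (frattini ↥(R : Subgroup ↥L)).map ((L.subtype).comp (R : Subgroup ↥L).subtype) ≤ Subgroup.zpowers z₁) ∧ Q ≠ (Cfsg.pCore 2 ↥(Subgroup.centralizer ({z} : Set G))).map (Subgroup.centralizer ({z} : Set G)).subtype) := by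
  obtain ⟨z0, H, hmem⟩ := H91.LargeNormal.LPack.of_large hQ
  have hzz0 : z = z0 := by
    have h1 : z ∈ (Subgroup.center ↥Q).map Q.subtype := by rw [hz]; exact Subgroup.mem_zpowers z
    rcases (hmem z).1 h1 with h | h
    · exfalso
      have h2 : z0 ∈ (Subgroup.center ↥Q).map Q.subtype := (hmem z0).2 (Or.inr rfl)
      rw [hz, h, Subgroup.zpowers_one_eq_bot, Subgroup.mem_bot] at h2
      exact H.z1 h2
    · exact h
  rw [← hzz0] at H
  clear hzz0 hmem
  right
  by_cases hcore : z ∈ Cfsg.pCore 2 G
  · exact Or.inl (H91.LargeLayer.case_core H hcore M hM)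
  · right
    have hML := H91.LargeLayer.closure_eq_layer H hcore M hM
    have hgf := H91.LargeLayer.gFitting_eq H hcore
    have hMg : M = Cfsg.generalizedFittingSubgroup G := by rw [hML, hgf]
    -- a component
    obtain ⟨L, hL⟩ : ∃ L : Subgroup G, Cfsg.IsComponent L := by
      by_contra hcon
      push Not at hcon
      have h1 := H26.Components.layer_eq_bot_iff.2 hcon
      have h2 : z ∈ Cfsg.layer G := by
        rw [← hML, hM]; exact Subgroup.subset_normalClosure (Set.mem_singleton z)
      rw [h1, Subgroup.mem_bot] at h2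
      exact H.z1 h2
    by_cases hone : ∀ K : Subgroup G, Cfsg.IsComponent K → K = L
    · left
      have h1 : Cfsg.layer G = L := by
        apply le_antisymm
        · exact sSup_le fun K hK => (hone K hK).le
        · exact H26.Components.le_layer hL
      refine ⟨hMg, ?_⟩
      rw [hML, h1]
      exact H91.LargeLayer.comp_simple H hcore hL
    · right
      push Not at hone
      obtain ⟨K, hK, hKL⟩ := hone
      obtain ⟨u, hu, huL⟩ := H91.LargeLayer.comp_moved H hL hK hKL
      obtain ⟨h1, h2, h3, h4⟩ := H91.LargeLayer.pair_case H hcore hL hu huL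
      obtain ⟨h5, h6⟩ := H91.LargeLayer.comp_simple H hcore hL
      exact ⟨hMg, L, u, hu, h5, h6, h1, h2, by rw [hML]; exact h3, h4⟩

end Cfsg.Agent.S5426
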