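import Cfsg.Statements.S5427
import Cfsg.Agent.Lib.H91.LargeNormal
import Cfsg.Agent.S5422
import Cfsg.Agent.S5421

set_option autoImplicit false
open Cfsg

namespace Cfsg.Agent.S5427




/-- Let z be an involution of the finite group G whose centralizer C has generalized Fitting subgroup Q, an extraspecial 2-group of width at least 2 (order 2^(2w+1), w ≥ 2). Let K be a subgroup of G such that the subgroup U generated by the K-conjugates of z is abelian and C is generated by the C-conjugates of U. Suppose that either some K-conjugate of z other than z lies in Q, or some element u of U ∩ Q outside the subgroup generated by z has z in the largest normal 2-subgroup of its centralizer. Then G is simple and Q is a large extraspecial 2-subgroup of G. -/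
theorem result {G : Type*} [Group G] [Finite G] (z : G) (hz : orderOf z = 2) (Q : Subgroup G) (hQC : Q ≤ Subgroup.centralizer ({z} : Set G)) (hF : (Cfsg.generalizedFittingSubgroup ↥(Subgroup.centralizer ({z} : Set G))).map (Subgroup.centralizer ({z} : Set G)).subtype = Q) (hQ : Cfsg.IsExtraspecial 2 ↥Q) (w : ℕ) (hw : 2 ≤ w) (hcard : Nat.card ↥Q = 2 ^ (2 * w + 1)) (K U : Subgroup G) (hU : U = Subgroup.closure {x : G | ∃ k ∈ K, x = k * z * k⁻¹}) (hUab : IsMulCommutative ↥U) (hgen : Subgroup.closure {x : G | ∃ c ∈ Subgroup.centralizer ({z} : Set G), ∃ u ∈ U, x = c * u * c⁻¹} = Subgroup.centralizer ({z} : Set G)) (h3 : (∃ k ∈ K, k * z * k⁻¹ ∈ Q ∧ k * z * k⁻¹ ≠ z) ∨ ∃ u ∈ U ⊓ Q, u ∉ Subgroup.zpowers z ∧ (∃ hz' : z ∈ Subgroup.centralizer ({u} : Set G), (⟨z, hz'⟩ : ↥(Subgroup.centralizer ({u} : Set G))) ∈ Cfsg.pCore 2 ↥(Subgroup.centralizer ({u} : Set G)))) : IsSimpleGroup G ∧ Cfsg.IsLargeExtraspecial Q := by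
  classical
  have hz1 : z ≠ 1 := by rintro rfl; rw [orderOf_one] at hz; exact absurd hz (by norm_num)
  have hzz : z * z = 1 := by
    have := pow_orderOf_eq_one z
    rwa [hz, pow_two] at this
  have hzi : z⁻¹ = z := inv_eq_of_mul_eq_one_left hzz
  obtain ⟨z0, hz0Q, -, -, -, hmem0, -, hcen0, -, -⟩ := H91.LargeExtra.exists_z hQ
  set C := Subgroup.centralizer ({z} : Set G) with hCdef
  have hFC : ∀ x : C, (x : G) ∈ Q ↔ x ∈ Cfsg.generalizedFittingSubgroup C := by
    intro x
    rw [← hF]
    constructor
    · rintro ⟨y, hy, hyx⟩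
      have : y = x := Subtype.ext hyx
      rwa [← this]
    · intro h; exact ⟨x, h, rfl⟩
  have hzC : z ∈ C := Subgroup.mem_centralizer_singleton_iff.2 rfl
  have hcentF : ∀ x : G, (∀ q ∈ Q, q * x = x * q) → x * z = z * x → x ∈ Q := by
    intro x hx hxz
    have hxC : x ∈ C := Subgroup.mem_centralizer_singleton_iff.2 hxz
    apply (hFC ⟨x, hxC⟩).2
    apply H26.Components.centralizer_gFitting_le
    rw [Subgroup.mem_centralizer_iff]
    intro y hy
    apply Subtype.ext
    exact hx y ((hFC y).2 hy)
  have hQz : ∀ q ∈ Q, q * z = z * q := fun q hq => Subgroup.mem_centralizer_singleton_iff.1 (hQC hq)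
  have hzQ : z ∈ Q := hcentF z hQz rfl
  have hz0 : z = z0 := by
    rcases hcen0 z hzQ hQz with h | h
    · exact absurd h hz1
    · exact h
  have hmem : ∀ x, x ∈ (Subgroup.center ↥Q).map Q.subtype ↔ x = 1 ∨ x = z := by
    intro x; rw [hmem0, hz0]
  have hL2 : Subgroup.centralizer (Q : Set G) = ((Subgroup.center ↥Q).map Q.subtype) := by
    apply le_antisymm
    · intro x hx
      rw [Subgroup.mem_centralizer_iff] at hx
      have hxQ : x ∈ Q := hcentF x hx (hx z hzQ).symm
      rw [hmem]
      rw [hz0]
      exact hcen0 x hxQ hx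
    · intro x hx
      rw [Subgroup.mem_centralizer_iff]
      intro q hq
      rcases (hmem x).1 hx with rfl | rfl
      · simp
      · exact hQz q hq
  have hL3 : Subgroup.centralizer (((Subgroup.center ↥Q).map Q.subtype) : Set G) ≤ Subgroup.normalizer (Q : Set G) := by
    intro x hx
    have hxz : x * z = z * x := (Subgroup.mem_centralizer_iff.1 hx z ((hmem z).2 (Or.inr rfl))).symm
    have hxC : x ∈ C := Subgroup.mem_centralizer_singleton_iff.2 hxz
    have hn : (Cfsg.generalizedFittingSubgroup C).Normal := H26.Components.gFitting_normal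
    rw [Subgroup.mem_normalizer_iff]
    intro q
    constructor
    · intro hq
      have h1 := hn.conj_mem _ ((hFC ⟨q, hQC hq⟩).1 hq) ⟨x, hxC⟩
      exact (hFC _).2 h1
    · intro hq
      have h1 := hn.conj_mem _ ((hFC ⟨_, hQC hq⟩).1 hq) ⟨x, hxC⟩⁻¹
      have h2 := (hFC _).2 h1
      have e : ((⟨x, hxC⟩⁻¹ * ⟨x * q * x⁻¹, hQC hq⟩ * ⟨x, hxC⟩⁻¹⁻¹ : C) : G) = q := by
        show x⁻¹ * (x * q * x⁻¹) * x⁻¹⁻¹ = q
        group
      rwa [e] at h2
  have hL : Cfsg.IsLargeExtraspecial Q := by
    rcases h3 with ⟨k, hk, hkQ, hkz⟩ | ⟨u, hu, huz, hz', hcore⟩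
    · refine (Cfsg.Agent.S5422.result Q hQ hL2 hL3 w hw hcard k ?_ ?_).2.2
      · intro h
        have h1 := (Subgroup.mem_normalizer_iff.1 h z).1 ((hmem z).2 (Or.inr rfl))
        rcases (hmem _).1 h1 with h2 | h2
        · apply hz1
          rw [mul_inv_eq_one] at h2
          exact mul_left_cancel (h2.trans (mul_one k).symm)
        · exact hkz h2
      · rintro _ ⟨x, hx, rfl⟩
        rcases (hmem x).1 hx with rfl | rfl
        · rw [map_one]; exact one_mem _
        · exact hkQ
    · have huu : u * u = 1 := by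
        have hinv : ∀ x ∈ U, x * x = 1 := by
          intro x hx
          have hcomm : ∀ a ∈ U, ∀ b ∈ U, a * b = b * a := fun a ha b hb =>
            congrArg Subtype.val (hUab.1.1 ⟨a, ha⟩ ⟨b, hb⟩)
          have hx' := hx
          rw [hU] at hx'
          induction hx' using Subgroup.closure_induction with
          | mem y hy =>
            obtain ⟨k, -, rfl⟩ := hy
            calc k * z * k⁻¹ * (k * z * k⁻¹) = k * (z * z) * k⁻¹ := by group
              _ = 1 := by rw [hzz]; group
          | one => simp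
          | mul a b ha hb iha ihb =>
            have ha' : a ∈ U := by rw [hU]; exact ha
            have hb' : b ∈ U := by rw [hU]; exact hb
            calc a * b * (a * b) = a * (b * a) * b := by group
              _ = a * (a * b) * b := by rw [hcomm a ha' b hb']
              _ = (a * a) * (b * b) := by group
              _ = 1 := by rw [iha ha', ihb hb', one_mul]
          | inv a ha iha =>
            have ha' : a ∈ U := by rw [hU]; exact ha
            rw [← mul_inv_rev, iha ha', inv_one]
        exact hinv u hu.1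
      have hu1 : u ≠ 1 := by rintro rfl; exact huz (one_mem _)
      refine Cfsg.Agent.S5421.result Q hQ hL2 hL3 u hu.2 ?_ ?_ ?_
      · intro h
        rcases (hmem u).1 h with h | h
        · exact hu1 h
        · rw [h] at huz; exact huz (Subgroup.mem_zpowers z)
      · exact orderOf_eq_prime (by rw [pow_two]; exact huu) hu1
      · intro x hx
        rcases (hmem x).1 hx with rfl | rfl
        · exact one_mem _
        · exact ⟨_, hcore, rfl⟩
  refine ⟨?_, hL⟩
  obtain ⟨z2, hP, hmem2⟩ := H91.LargeNormal.LPack.of_large hL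
  have hz2 : z2 = z := by
    rcases (hmem2 z).1 ((hmem z).2 (Or.inr rfl)) with h | h
    · exact absurd h hz1
    · exact h.symm
  rw [hz2] at hP
  refine { exists_pair_ne := ⟨z, 1, hz1⟩, eq_bot_or_eq_top_of_normal := fun N hN => ?_ }
  rw [or_iff_not_imp_left]
  intro hne
  have hzN : z ∈ N := hP.mem_of_norm (by rw [Subgroup.normalizer_eq_top]; exact le_top) hne
  have hUN : U ≤ N := by
    rw [hU, Subgroup.closure_le]
    rintro _ ⟨k, -, rfl⟩
    exact hN.conj_mem z hzN k
  apply hP.eq_top
  show C ≤ N
  rw [← hgen, Subgroup.closure_le]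
  rintro _ ⟨c, -, u, hu, rfl⟩
  exact hN.conj_mem u (hUN hu) c

end Cfsg.Agent.S5427
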