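import Cfsg.Statements.S5433

set_option autoImplicit false
open Cfsg

namespace Cfsg.Agent.S5433

theorem eq_of_card_two {G : Type*} [Group G] (Z : Subgroup G) (h : Nat.card Z = 2) {x y : G}
    (hx : x ∈ Z) (hy : y ∈ Z) (hx1 : x ≠ 1) (hy1 : y ≠ 1) : x = y := by
  obtain ⟨a, b, hab, huniv⟩ := Nat.card_eq_two_iff.1 h
  have hcov : ∀ w : Z, w = a ∨ w = b := by
    intro w
    have : w ∈ ({a, b} : Set Z) := by rw [huniv]; trivial
    simpa using this
  have h1 : (⟨x, hx⟩ : Z) ≠ 1 := fun h => hx1 (congrArg Subtype.val h)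
  have h2 : (⟨y, hy⟩ : Z) ≠ 1 := fun h => hy1 (congrArg Subtype.val h)
  have : (⟨x, hx⟩ : Z) = ⟨y, hy⟩ := by
    rcases hcov 1 with h | h <;> rcases hcov ⟨x, hx⟩ with h' | h' <;> rcases hcov ⟨y, hy⟩ with h'' | h'' <;>
      simp_all
  exact congrArg Subtype.val this

/-- Let Q be a large extraspecial 2-subgroup of the finite group G (extraspecial; centralizer equal to its centre; normal in the centralizer of its centre; normalizing no non-trivial subgroup of odd order), and L a normal subgroup of G containing Q. Then G is the product of L and the normalizer of Q. -/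
theorem result {G : Type*} [Group G] [Finite G] (Q : Subgroup G) (hQ : Cfsg.IsLargeExtraspecial Q) (L : Subgroup G) [L.Normal] (hQL : Q ≤ L) : L ⊔ Subgroup.normalizer (Q : Set G) = ⊤ := by
  obtain ⟨⟨⟨hp, -, -⟩, hcard⟩, hC, hN, -⟩ := hQ
  have : Fact (Nat.Prime 2) := ⟨Nat.prime_two⟩
  set Z : Subgroup G := (Subgroup.center Q).map Q.subtype with hZ
  have hZcard : Nat.card Z = 2 := by
    rw [hZ, ← hcard]
    exact (Nat.card_congr ((Subgroup.center Q).equivMapOfInjective Q.subtype Q.subtype_injective).toEquiv).symm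
  -- a Sylow 2-subgroup of L containing Q
  have hQ' : IsPGroup 2 (Q.subgroupOf L) := by
    intro x
    obtain ⟨k, hk⟩ := hp ⟨x.1.1, Subgroup.mem_subgroupOf.1 x.2⟩
    refine ⟨k, ?_⟩
    apply Subtype.ext
    apply Subtype.ext
    have := congrArg Subtype.val hk
    simpa using this
  obtain ⟨S, hS⟩ := hQ'.exists_le_sylow
  have hfr := Sylow.normalizer_sup_eq_top S
  set S' : Subgroup G := (S : Subgroup L).map L.subtype with hS'
  have hQS : Q ≤ S' := by
    intro x hx
    exact ⟨⟨x, hQL hx⟩, hS (Subgroup.mem_subgroupOf.2 hx), rfl⟩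
  have hpS : IsPGroup 2 S' := S.2.map L.subtype
  -- the centre of S' is Z
  set ZS : Subgroup G := (Subgroup.center S').map S'.subtype with hZS
  have hZSle : ZS ≤ Z := by
    rw [← hC]
    rintro x ⟨y, hy, rfl⟩
    rw [Subgroup.mem_centralizer_iff]
    intro q hq
    have := Subgroup.mem_center_iff.1 hy ⟨q, hQS hq⟩
    exact congrArg Subtype.val this
  have hZSne : ZS ≠ ⊥ := by
    have hnt : Nontrivial S' := by
      rw [Subgroup.nontrivial_iff_ne_bot]
      intro hbot
      have hQbot : Q = ⊥ := le_bot_iff.1 (hbot ▸ hQS)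
      have : Z = ⊥ := by
        rw [eq_bot_iff, ← hQbot]
        rintro x ⟨y, -, rfl⟩
        exact y.2
      rw [this] at hZcard
      simp at hZcard
    have h1 : Nontrivial (Subgroup.center S') := hpS.center_nontrivial
    intro hbot
    rw [hZS, Subgroup.map_eq_bot_iff_of_injective _ S'.subtype_injective] at hbot
    rw [hbot] at h1
    exact not_nontrivial _ h1
  have hZSeq : ZS = Z := by
    apply Subgroup.eq_of_le_of_card_ge hZSle
    rw [hZcard]
    have : Nontrivial ZS := (Subgroup.nontrivial_iff_ne_bot _).2 hZSne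
    exact Finite.one_lt_card
  -- the normalizer of S' normalizes Q
  have hnn : Subgroup.normalizer (S' : Set G) ≤ Subgroup.normalizer (Q : Set G) := by
    intro n hn
    apply hN
    rw [Subgroup.mem_centralizer_iff]
    intro z hz
    -- n normalizes Z
    have hnz : n * z * n⁻¹ ∈ Z := by
      rw [← hZSeq] at hz ⊢
      obtain ⟨y, hy, rfl⟩ := hz
      have hyS : n * (y : G) * n⁻¹ ∈ S' := (Subgroup.mem_normalizer_iff.1 hn _).1 y.2
      refine ⟨⟨_, hyS⟩, ?_, rfl⟩
      rw [SetLike.mem_coe, Subgroup.mem_center_iff]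
      intro s
      apply Subtype.ext
      have hs : n⁻¹ * (s : G) * n ∈ S' := by
        have := (Subgroup.mem_normalizer_iff.1 (Subgroup.inv_mem _ hn) (s : G)).1 s.2
        simpa using this
      have hcomm := congrArg Subtype.val (Subgroup.mem_center_iff.1 hy ⟨_, hs⟩)
      simp only [Subgroup.coe_mul] at hcomm ⊢
      calc (s : G) * (n * y * n⁻¹) = n * ((n⁻¹ * s * n) * y) * n⁻¹ := by group
        _ = n * (y * (n⁻¹ * s * n)) * n⁻¹ := by rw [hcomm]
        _ = n * y * n⁻¹ * s := by group
    -- Z has order 2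
    by_cases hz1 : z = 1
    · subst hz1; simp
    · have h2 : n * z * n⁻¹ = z := by
        by_contra hne
        have h3 : n * z * n⁻¹ ≠ 1 := by
          intro h
          apply hz1
          have : z = n⁻¹ * (n * z * n⁻¹) * n := by group
          rw [this, h]; group
        exact hne (eq_of_card_two Z hZcard hnz hz h3 hz1)
      have : n * z = z * n := by
        calc n * z = (n * z * n⁻¹) * n := by group
          _ = z * n := by rw [h2]
      exact this.symm
  rw [eq_top_iff, ← hfr, sup_comm]
  exact sup_le_sup_left hnn L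

end Cfsg.Agent.S5433
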