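import Cfsg.Statements.S5435
import Cfsg.Agent.S0215
import Cfsg.Agent.Lib.H76.Metacyclic
import Cfsg.Agent.Lib.H3.PBasic
import Cfsg.Agent.Lib.H13.Cores
import Cfsg.Agent.Lib.H73.TransferP
import Cfsg.Agent.Lib.H25.DQ
import Cfsg.Agent.Lib.H28.Cj

set_option autoImplicit false
open Cfsg Subgroup

namespace Cfsg.Agent.S5435

/-- Let L be a finite non-abelian simple group with an involution z whose centralizer R is a Sylow 2-subgroup of L whose Frattini subgroup is the subgroup generated by z. Then R is dihedral of order 8. -/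
theorem result {L : Type*} [Group L] [Finite L] [IsSimpleGroup L] (hL : ¬ IsMulCommutative L) (z : L) (hz : orderOf z = 2) (R : Sylow 2 L) (hR : (R : Subgroup L) = Subgroup.centralizer ({z} : Set L)) (hΦ : (frattini ↥(R : Subgroup L)).map (R : Subgroup L).subtype = Subgroup.zpowers z) : Nonempty (↥(R : Subgroup L) ≃* DihedralGroup 4) := by
  classical
  have h2p : Fact (Nat.Prime 2) := ⟨Nat.prime_two⟩
  set P : Subgroup L := (R : Subgroup L) with hP
  have hPp : IsPGroup 2 P := R.isPGroup'
  have hz1 : z ≠ 1 := by rintro rfl; rw [orderOf_one] at hz; omega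
  have hzz : z * z = 1 := by rw [← pow_two, ← hz, pow_orderOf_eq_one]
  have hzi : z⁻¹ = z := inv_eq_of_mul_eq_one_left hzz
  have hmemP : ∀ x, x ∈ P ↔ x * z = z * x := fun x => by
    rw [hR, mem_centralizer_singleton_iff]
  have hzP : z ∈ P := (hmemP z).mpr rfl
  have hzp : ∀ x, x ∈ zpowers z → x = 1 ∨ x = z := by
    intro x hx
    obtain ⟨k, rfl⟩ := mem_zpowers_iff.mp hx
    rcases Int.even_or_odd' k with ⟨m, rfl | rfl⟩
    · left; rw [zpow_mul, zpow_two, hzz, one_zpow]
    · right; rw [zpow_add, zpow_mul, zpow_two, hzz, one_zpow, one_mul, zpow_one]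
  have hfr : ∀ x : P, x ∈ frattini P → (x : L) = 1 ∨ (x : L) = z := by
    intro x hx
    apply hzp
    rw [← hΦ]
    exact mem_map_of_mem _ hx
  have hsq : ∀ x ∈ P, x * x = 1 ∨ x * x = z := by
    intro x hx
    have h1 := hfr _ (H76.Metacyclic.pow_mem_frattini hPp ⟨x, hx⟩)
    simpa [pow_two] using h1
  have hco : ∀ x ∈ P, ∀ y ∈ P, x * y * x⁻¹ * y⁻¹ = 1 ∨ x * y * x⁻¹ * y⁻¹ = z := by
    intro x hx y hy
    exact hfr _ (H76.Metacyclic.comm_mem_frattini hPp ⟨x, hx⟩ ⟨y, hy⟩)
  -- the normalizer of `P`
  have hN : ∀ g ∈ normalizer (P : Set L), g ∈ P := by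
    intro g hg
    have h1 := H13.Cores.normalizer_le_normalizer_map P (frattini P) hg
    rw [hΦ] at h1
    have h2 := hzp _ ((mem_normalizer_iff.mp h1 z).mp (mem_zpowers z))
    rcases h2 with h2 | h2
    · exfalso
      rw [mul_inv_eq_one] at h2
      exact hz1 (mul_eq_left.mp h2)
    · rw [hmemP]
      calc g * z = (g * z * g⁻¹) * g := by group
        _ = z * g := by rw [h2]
  -- no nontrivial normal subgroups
  have hcen : ∀ w : L, (∀ g : L, w * g = g * w) → w = 1 := by
    intro w hw
    rcases Subgroup.Normal.eq_bot_or_eq_top (H := center L) inferInstance with h1 | h1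
    · have h2 : w ∈ center L := mem_center_iff.mpr fun g => (hw g).symm
      rwa [h1, mem_bot] at h2
    · exfalso
      apply hL
      refine ⟨⟨fun a b => ?_⟩⟩
      have h2 : b ∈ center L := by rw [h1]; exact mem_top _
      exact mem_center_iff.mp h2 a
  -- fusion of `z`
  obtain ⟨g, hgP, hgz⟩ : ∃ g : L, g * z * g⁻¹ ∈ P ∧ g * z * g⁻¹ ≠ z := by
    by_contra hcon
    push Not at hcon
    obtain ⟨N, hNn, hNo, hNc⟩ := Cfsg.Agent.S0215.result R z hz hzP hcon
    rcases Subgroup.Normal.eq_bot_or_eq_top hNn with h1 | h1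
    · apply hz1
      apply hcen
      intro g
      have h2 := hNc g
      rw [h1, mem_bot] at h2
      calc z * g = (z * g * z⁻¹ * g⁻¹) * (g * z) := by group
        _ = g * z := by rw [h2, one_mul]
    · rw [h1] at hNo
      have h2 : 2 ∣ Nat.card (⊤ : Subgroup L) := by
        rw [Subgroup.card_top, ← hz]; exact orderOf_dvd_natCard z
      exact (Nat.not_even_iff_odd.mpr hNo) (even_iff_two_dvd.mpr h2)
  set u : L := g * z * g⁻¹ with hu
  have huu : u * u = 1 := by
    calc u * u = g * (z * z) * g⁻¹ := by rw [hu]; group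
      _ = 1 := by rw [hzz]; group
  have hui : u⁻¹ = u := inv_eq_of_mul_eq_one_left huu
  have hu1 : u ≠ 1 := by
    intro h
    rw [hu, mul_inv_eq_one] at h
    exact hz1 (mul_eq_left.mp h)
  have hCu : ∀ t : L, t * u = u * t → g⁻¹ * t * g ∈ P := by
    intro t ht
    rw [hmemP]
    calc g⁻¹ * t * g * z = g⁻¹ * (t * u) * g := by rw [hu]; group
      _ = g⁻¹ * (u * t) * g := by rw [ht]
      _ = z * (g⁻¹ * t * g) := by rw [hu]; group
  -- `u` is not central in `P`
  obtain ⟨y₀, hy₀, hy₀u⟩ : ∃ y ∈ P, y * u ≠ u * y := by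
    by_contra hcon
    push Not at hcon
    apply hgz
    have h1 : H28.Cj.cj g⁻¹ P ≤ P := by
      intro x hx
      rw [H28.Cj.mem_cj, inv_inv] at hx
      have h2 := hCu _ (hcon _ hx)
      have h3 : g⁻¹ * (g * x * g⁻¹) * g = x := by group
      rwa [h3] at h2
    have h2 : g⁻¹ ∈ P := hN _ (H28.Cj.mem_normalizer_of_cj_le h1)
    have h3 : g ∈ P := by rw [← inv_inv g]; exact P.inv_mem h2
    have h4 := (hmemP g).mp h3
    rw [hu, h4]; group
  obtain ⟨a, haP, hau, haa⟩ : ∃ a ∈ P, a * u ≠ u * a ∧ a * a = z := by
    rcases hsq y₀ hy₀ with h1 | h1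
    · have hy₀i : y₀⁻¹ = y₀ := inv_eq_of_mul_eq_one_left h1
      refine ⟨u * y₀, P.mul_mem hgP hy₀, ?_, ?_⟩
      · intro h2
        apply hy₀u
        have h3 : u * (y₀ * u) = u * (u * y₀) := by
          calc u * (y₀ * u) = u * y₀ * u := by group
            _ = u * (u * y₀) := h2
        exact mul_left_cancel h3
      · have h2 : u * y₀ * (u * y₀) = u * y₀ * u⁻¹ * y₀⁻¹ := by rw [hui, hy₀i]; group
        rw [h2]
        refine (hco u hgP y₀ hy₀).resolve_left fun h3 => hy₀u ?_
        have h4 : u * y₀ = (u * y₀ * u⁻¹ * y₀⁻¹) * (y₀ * u) := by group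
        rw [h4, h3, one_mul]
    · exact ⟨y₀, hy₀, hy₀u, h1⟩
  have hua : u * a * u⁻¹ * a⁻¹ = z := by
    refine (hco u hgP a haP).resolve_left fun h3 => hau ?_
    have h4 : u * a = (u * a * u⁻¹ * a⁻¹) * (a * u) := by group
    rw [h4, h3, one_mul]
  have hzc : ∀ x ∈ P, z * x = x * z := fun x hx => ((hmemP x).mp hx).symm
  have hua' : u * a = z * (a * u) := by
    rw [← hua]; group
  have hau' : a * u = z * (u * a) := by
    rw [hua', ← mul_assoc z z, hzz, one_mul]
  -- `T`
  have hTT : ∀ t ∈ P, t * u = u * t → t * t = 1 := by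
    intro t ht htu
    rcases hsq t ht with h1 | h1
    · exact h1
    · exfalso
      rcases hsq _ (hCu t htu) with h2 | h2
      · have h3 : t * t = 1 := by
          calc t * t = g * (g⁻¹ * t * g * (g⁻¹ * t * g)) * g⁻¹ := by group
            _ = 1 := by rw [h2]; group
        rw [h1] at h3
        exact hz1 h3
      · have h3 : t * t = u := by
          calc t * t = g * (g⁻¹ * t * g * (g⁻¹ * t * g)) * g⁻¹ := by group
            _ = u := by rw [h2, hu]
        rw [h1] at h3
        exact hgz h3.symm
  -- elements of `P`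
  have hmove : ∀ x ∈ P, ∀ y ∈ P, x * y = y * x ∨ x * y = z * (y * x) := by
    intro x hx y hy
    rcases hco x hx y hy with h1 | h1
    · left
      calc x * y = (x * y * x⁻¹ * y⁻¹) * (y * x) := by group
        _ = y * x := by rw [h1, one_mul]
    · right
      calc x * y = (x * y * x⁻¹ * y⁻¹) * (y * x) := by group
        _ = z * (y * x) := by rw [h1]
  -- the center of `P`
  have hZP : ∀ e ∈ P, e * e = 1 → (∀ r ∈ P, e * r = r * e) → e = 1 ∨ e = z := by
    intro e heP hee hec
    let f : P →* Abelianization P := Abelianization.of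
    have htr : ∀ x : L, f.transfer x = 1 := by
      intro x
      rcases Subgroup.Normal.eq_bot_or_eq_top (H := f.transfer.ker) inferInstance with h1 | h1
      · exfalso
        apply hL
        refine ⟨⟨fun a b => ?_⟩⟩
        have h2 := (MonoidHom.ker_eq_bot_iff f.transfer).mp h1
        apply h2
        rw [map_mul, map_mul, mul_comm]
      · have h2 : x ∈ f.transfer.ker := by rw [h1]; exact mem_top _
        exact h2
    have h1 := H73.TransferP.transfer_eq_pow (p := 2) P hPp f e heP
      (by
        intro k n h hn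
        obtain ⟨m, rfl⟩ := hn
        have h2 : (⟨_, h⟩ : P) = 1 := Subtype.ext (by
          change k⁻¹ * e ^ (2 * m) * k = 1
          rw [pow_mul, pow_two, hee, one_pow]; group)
        rw [h2, map_one])
      (by
        intro k t h ht h'
        congr 1
        apply Subtype.ext
        change k⁻¹ * e * k = (t * k)⁻¹ * e * (t * k)
        have h2 := hec t ht
        calc k⁻¹ * e * k = k⁻¹ * (t⁻¹ * (t * e)) * k := by group
          _ = k⁻¹ * (t⁻¹ * (e * t)) * k := by rw [h2]
          _ = (t * k)⁻¹ * e * (t * k) := by group)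
      (by
        intro k hk h
        congr 1
        apply Subtype.ext
        change k⁻¹ * e * k = e
        rw [mul_assoc, hec k (hN k hk)]; group)
      (by
        intro k h
        rw [← map_pow]
        have h2 : (⟨_, h⟩ : P) ^ 2 = 1 := Subtype.ext (by
          change (k⁻¹ * e * k) ^ 2 = 1
          calc (k⁻¹ * e * k) ^ 2 = k⁻¹ * (e * e) * k := by rw [pow_two]; group
            _ = 1 := by rw [hee]; group)
        rw [h2, map_one])
    rw [htr] at h1
    have h2 : f ⟨e, heP⟩ * f ⟨e, heP⟩ = 1 := by
      rw [← map_mul]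
      have h3 : (⟨e, heP⟩ : P) * ⟨e, heP⟩ = 1 := Subtype.ext hee
      rw [h3, map_one]
    have h3 : Odd (Nat.card (MulAction.fixedPoints P (L ⧸ P))) := by
      have h4 := hPp.card_modEq_card_fixedPoints (L ⧸ P)
      have h5 : ¬ 2 ∣ P.index := R.not_dvd_index
      rw [← Nat.not_even_iff_odd, even_iff_two_dvd]
      intro h6
      apply h5
      exact (Nat.modEq_zero_iff_dvd.mp (h4.trans (Nat.modEq_zero_iff_dvd.mpr h6)))
    obtain ⟨m, hm⟩ := h3
    rw [hm, pow_succ, pow_mul, pow_two, h2, one_pow, one_mul] at h1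
    have h4 : (⟨e, heP⟩ : P) ∈ commutator P := by
      rw [← Abelianization.ker_of]
      exact h1.symm
    exact hfr _ (H3.PBasic.commutator_le_frattini hPp h4)
  -- elements of `C_P(u)`
  have hT4 : ∀ t ∈ P, t * u = u * t → t = 1 ∨ t = z ∨ t = u ∨ t = z * u := by
    intro t ht htu
    -- elements commuting with `u` and `a` are central
    have key : ∀ s ∈ P, s * u = u * s → s * a = a * s → s = 1 ∨ s = z := by
      intro s hs hsu hsa
      apply hZP s hs (hTT s hs hsu)
      intro r hr
      -- elements of `P` commuting with `u` commute with `s`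
      have h1 : ∀ r ∈ P, r * u = u * r → s * r = r * s := by
        intro r hr hru
        have h2 := hTT s hs hsu
        have h3 := hTT r hr hru
        have h4 := hTT (s * r) (P.mul_mem hs hr) (by
          rw [mul_assoc, hru, ← mul_assoc, hsu, mul_assoc])
        have e2 : s⁻¹ = s := inv_eq_of_mul_eq_one_left h2
        have e3 : r⁻¹ = r := inv_eq_of_mul_eq_one_left h3
        have e4 : (s * r)⁻¹ = s * r := inv_eq_of_mul_eq_one_left h4
        rw [mul_inv_rev, e2, e3] at e4
        exact e4.symm
      rcases hmove r hr u hgP with h2 | h2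
      · exact h1 r hr h2
      · have h3 : (a⁻¹ * r) * u = u * (a⁻¹ * r) := by
          have h4 : a⁻¹ * u = z * (u * a⁻¹) := by
            have h5 : a * (a⁻¹ * u) * a = a * (z * (u * a⁻¹)) * a := by
              calc a * (a⁻¹ * u) * a = u * a := by group
                _ = z * (a * u) := hua'
                _ = (z * a) * u := by group
                _ = (a * z) * u := by rw [hzc a haP]
                _ = a * (z * (u * a⁻¹)) * a := by group
            exact mul_left_cancel (mul_right_cancel h5)
          calc (a⁻¹ * r) * u = a⁻¹ * (r * u) := by group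
            _ = a⁻¹ * (z * (u * r)) := by rw [h2]
            _ = (a⁻¹ * z) * u * r := by group
            _ = (z * a⁻¹) * u * r := by rw [hzc a⁻¹ (P.inv_mem haP)]
            _ = z * (a⁻¹ * u) * r := by group
            _ = z * (z * (u * a⁻¹)) * r := by rw [h4]
            _ = (z * z) * (u * (a⁻¹ * r)) := by group
            _ = u * (a⁻¹ * r) := by rw [hzz, one_mul]
        have h5 := h1 _ (P.mul_mem (P.inv_mem haP) hr) h3
        calc s * r = (s * a) * (a⁻¹ * r) := by group
          _ = a * (s * (a⁻¹ * r)) := by rw [hsa]; group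
          _ = a * (a⁻¹ * r * s) := by rw [h5]
          _ = r * s := by group
    rcases hmove t ht a haP with h1 | h1
    · rcases key t ht htu h1 with h2 | h2
      · exact Or.inl h2
      · exact Or.inr (Or.inl h2)
    · have h2 : (t * u) * a = a * (t * u) := by
        calc (t * u) * a = t * (u * a) := by group
          _ = t * (z * (a * u)) := by rw [hua']
          _ = (t * z) * (a * u) := by group
          _ = (z * t) * (a * u) := by rw [hzc t ht]
          _ = z * (t * a) * u := by group
          _ = z * (z * (a * t)) * u := by rw [h1]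
          _ = (z * z) * (a * (t * u)) := by group
          _ = a * (t * u) := by rw [hzz, one_mul]
      have h3 : (t * u) * u = u * (t * u) := by rw [htu, mul_assoc, htu]
      rcases key (t * u) (P.mul_mem ht hgP) h3 h2 with h4 | h4
      · right; right; left
        have h5 : t = u⁻¹ := eq_inv_of_mul_eq_one_left h4
        rw [h5, hui]
      · right; right; right
        rw [← h4, mul_assoc, huu, mul_one]
  -- conclusion
  have ha4 : orderOf a = 4 := by
    have h1 : a ^ 2 = z := by rw [pow_two, haa]
    apply orderOf_eq_prime_pow (p := 2) (n := 1)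
    · rw [pow_one, h1]; exact hz1
    · rw [show (2 : ℕ) ^ (1 + 1) = 2 * 2 from rfl, pow_mul, h1, pow_two, hzz]
  have hinv : u * a * u⁻¹ = a⁻¹ := by
    have h1 : u * a * u⁻¹ = z * a := by
      rw [← hua]; group
    rw [h1]
    apply eq_inv_of_mul_eq_one_left
    rw [mul_assoc, haa, hzz]
  apply H25.DQ.nonempty_dihedral 4 a u P ha4 huu hinv
  · intro h1
    obtain ⟨k, hk⟩ := mem_zpowers_iff.mp h1
    apply hau
    rw [← hk]
    exact (Commute.refl a).zpow_right k
  · intro r
    constructor
    · intro hr
      have e1 : a ^ (2 : ℤ) = z := by rw [zpow_two, haa]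
      rcases hmove r hr u hgP with h1 | h1
      · rcases hT4 r hr h1 with h2 | h2 | h2 | h2
        · left; exact ⟨0, by rw [h2, zpow_zero]⟩
        · left; exact ⟨2, by rw [h2, e1]⟩
        · right; exact ⟨0, by rw [h2, zpow_zero, mul_one]⟩
        · right; exact ⟨2, by rw [h2, e1, hzc u hgP]⟩
      · have h3 : (a * r) * u = u * (a * r) := by
          calc (a * r) * u = a * (r * u) := by group
            _ = a * (z * (u * r)) := by rw [h1]
            _ = (a * z) * u * r := by group
            _ = (z * a) * u * r := by rw [hzc a haP]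
            _ = z * (a * u) * r := by group
            _ = z * (z * (u * a)) * r := by rw [hau']
            _ = (z * z) * (u * (a * r)) := by group
            _ = u * (a * r) := by rw [hzz, one_mul]
        have h4 : r = a⁻¹ * (a * r) := by group
        have hua'' : a⁻¹ * u = u * a := by
          rw [← hinv, hui]
          calc u * a * u * u = u * a * (u * u) := by group
            _ = u * a := by rw [huu, mul_one]
        rcases hT4 _ (P.mul_mem haP hr) h3 with h2 | h2 | h2 | h2
        · left; exact ⟨-1, by rw [h4, h2, mul_one, zpow_neg_one]⟩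
        · left; exact ⟨1, by rw [h4, h2, ← haa]; group⟩
        · right; exact ⟨1, by rw [h4, h2, hua'', zpow_one]⟩
        · right
          refine ⟨3, ?_⟩
          have e3 : a ^ (3 : ℤ) = a * z := by
            rw [show (3 : ℤ) = 1 + 2 from rfl, zpow_add, zpow_one, e1]
          rw [h4, h2, hzc u hgP, ← mul_assoc, hua'', e3, mul_assoc]
    · rintro (⟨i, rfl⟩ | ⟨i, rfl⟩)
      · exact P.zpow_mem haP i
      · exact P.mul_mem hgP (P.zpow_mem haP i)

end Cfsg.Agent.S5435
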