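import Cfsg.Statements.S5437

set_option autoImplicit false
open Cfsg

namespace Cfsg.Agent.S5437

/-- Let I be a set of involutions of the finite group G closed under conjugation, and H a subgroup of G. The following are equivalent: (1) for every member x of I lying in H, the conjugates of x lying in H form a single H-class and the centralizer of x lies in H; (2) for every g outside H, no member of I lies in both H and g H g⁻¹; (3) every member of I lying in H fixes exactly one coset in the action of G on the cosets of H. -/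
theorem result {G : Type*} [Group G] [Finite G] (I : Set G) (hI : ∀ x ∈ I, orderOf x = 2) (hIc : ∀ g : G, ∀ x ∈ I, g * x * g⁻¹ ∈ I) (H : Subgroup G) : ((∀ x ∈ I, x ∈ H → (∀ g : G, g * x * g⁻¹ ∈ H → ∃ h ∈ H, h * x * h⁻¹ = g * x * g⁻¹) ∧ Subgroup.centralizer ({x} : Set G) ≤ H) ↔ (∀ g : G, g ∉ H → ∀ x ∈ I, ¬ (x ∈ H ∧ x ∈ (H : Subgroup G).map (MulAut.conj g).toMonoidHom))) ∧ ((∀ g : G, g ∉ H → ∀ x ∈ I, ¬ (x ∈ H ∧ x ∈ (H : Subgroup G).map (MulAut.conj g).toMonoidHom)) ↔ ∀ x ∈ I, x ∈ H → ∃! c : G ⧸ H, x • c = c) := by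
  have hmem : ∀ (g x : G), x ∈ (H : Subgroup G).map (MulAut.conj g).toMonoidHom ↔ g⁻¹ * x * g ∈ H := by
    intro g x
    rw [Subgroup.mem_map]
    constructor
    · rintro ⟨y, hy, rfl⟩
      have : g⁻¹ * ((MulAut.conj g).toMonoidHom y) * g = y := by
        simp [MulAut.conj_apply, mul_assoc]
      rw [this]; exact hy
    · intro h
      refine ⟨_, h, ?_⟩
      simp [MulAut.conj_apply, mul_assoc]
  have hfix : ∀ (g x : G), x • (QuotientGroup.mk g : G ⧸ H) = QuotientGroup.mk g ↔ g⁻¹ * x * g ∈ H := by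
    intro g x
    rw [MulAction.Quotient.smul_mk, eq_comm, QuotientGroup.eq]
    simp [smul_eq_mul, mul_assoc]
  refine ⟨⟨?_, ?_⟩, ⟨?_, ?_⟩⟩
  · intro h g hg x hx ⟨hxH, hxg⟩
    rw [hmem] at hxg
    have hyI : g⁻¹ * x * g ∈ I := by simpa using hIc g⁻¹ x hx
    obtain ⟨h1, h2⟩ := h _ hyI hxg
    obtain ⟨k, hk, hk2⟩ := h1 g (by simpa [mul_assoc] using hxH)
    have hc : k⁻¹ * g ∈ Subgroup.centralizer ({g⁻¹ * x * g} : Set G) := by
      rw [Subgroup.mem_centralizer_singleton_iff]
      have : g * (g⁻¹ * x * g) * g⁻¹ = x := by group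
      rw [this] at hk2
      calc (k⁻¹ * g) * (g⁻¹ * x * g) = k⁻¹ * x * g := by group
        _ = k⁻¹ * (k * (g⁻¹ * x * g) * k⁻¹) * g := by rw [hk2]
        _ = (g⁻¹ * x * g) * (k⁻¹ * g) := by group
    have := h2 hc
    apply hg
    have h3 := H.mul_mem hk this
    simpa using h3
  · intro h x hx hxH
    refine ⟨?_, ?_⟩
    · intro g hg
      by_cases hgH : g ∈ H
      · exact ⟨g, hgH, rfl⟩
      · exfalso
        refine h g⁻¹ (fun hh => hgH (by simpa using H.inv_mem hh)) x hx ⟨hxH, ?_⟩
        rw [hmem]; simpa using hg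
    · intro c hc
      by_contra hcH
      refine h c hcH x hx ⟨hxH, ?_⟩
      rw [hmem]
      rw [Subgroup.mem_centralizer_singleton_iff] at hc
      have : c⁻¹ * x * c = x := by
        rw [mul_assoc, ← hc]; group
      rw [this]; exact hxH
  · intro h x hx hxH
    refine ⟨QuotientGroup.mk 1, ?_, ?_⟩
    · show x • (QuotientGroup.mk 1 : G ⧸ H) = QuotientGroup.mk 1
      rw [hfix]; simpa using hxH
    · intro c hc
      induction c using QuotientGroup.induction_on with
      | H g =>
        have hc' : g⁻¹ * x * g ∈ H := (hfix g x).1 hc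
        by_contra hne
        refine h g ?_ x hx ⟨hxH, (hmem g x).2 hc'⟩
        intro hgH
        apply hne
        rw [eq_comm, QuotientGroup.eq]
        simpa using hgH
  · intro h g hg x hx ⟨hxH, hxg⟩
    obtain ⟨c, hc, huniq⟩ := h x hx hxH
    have h1 := huniq (QuotientGroup.mk 1) ((hfix 1 x).2 (by simpa using hxH))
    have h2 := huniq (QuotientGroup.mk g) ((hfix g x).2 ((hmem g x).1 hxg))
    apply hg
    have h3 : (QuotientGroup.mk 1 : G ⧸ H) = QuotientGroup.mk g := h1.trans h2.symm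
    rw [QuotientGroup.eq] at h3
    simpa using h3

end Cfsg.Agent.S5437
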