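import Cfsg.Statements.S5438

set_option autoImplicit false
open Cfsg

namespace Cfsg.Agent.S5438

/-- Let z be a 2-central involution of the finite group G (an involution central in some Sylow 2-subgroup) and H a subgroup containing z such that the coset H is the only coset of H fixed by z (in the action of G on the cosets of H). Then H has odd index in G, and for every 2-element x of H the conjugates of x lying in H form a single H-class. -/
theorem result {G : Type*} [Group G] [Finite G] (z : G) (hz : Cfsg.IsTwoCentralInvolution z) (H : Subgroup G) (hzH : z ∈ H) (hfix : ∀ g : G, g⁻¹ * z * g ∈ H → g ∈ H) : Odd H.index ∧ ∀ x ∈ H, (∃ k : ℕ, orderOf x = 2 ^ k) → ∀ g : G, g * x * g⁻¹ ∈ H → ∃ h ∈ H, h * x * h⁻¹ = g * x * g⁻¹ := by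
  have : Fact (Nat.Prime 2) := ⟨Nat.prime_two⟩
  obtain ⟨hz2, P, hzP, hPz⟩ := hz
  have hcz : ∀ c : G, c * z = z * c → c ∈ H := by
    intro c hc
    apply hfix
    rw [mul_assoc, ← hc, ← mul_assoc, inv_mul_cancel, one_mul]
    exact hzH
  have hPH : (P : Subgroup G) ≤ H := fun x hx => hcz x (hPz x hx)
  have hodd : Odd H.index := by
    rw [← Nat.not_even_iff_odd]
    intro hev
    apply P.not_dvd_index
    exact (even_iff_two_dvd.1 hev).trans (Subgroup.index_dvd_of_le hPH)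
  refine ⟨hodd, ?_⟩
  have hnd : ¬ 2 ∣ Nat.card (G ⧸ H) := by
    intro h
    exact (Nat.not_even_iff_odd.2 hodd) (even_iff_two_dvd.2 h)
  have hfixc : ∀ (g x : G), x • (QuotientGroup.mk g : G ⧸ H) = QuotientGroup.mk g ↔ g⁻¹ * x * g ∈ H := by
    intro g x
    rw [MulAction.Quotient.smul_mk, eq_comm, QuotientGroup.eq]
    simp [smul_eq_mul, mul_assoc]
  -- every 2-element of H commutes with an H-conjugate of z
  have key : ∀ x ∈ H, (∃ k : ℕ, orderOf x = 2 ^ k) → ∃ h ∈ H, x * (h * z * h⁻¹) = (h * z * h⁻¹) * x := by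
    intro x hx ⟨k, hk⟩
    have hpx : IsPGroup 2 (Subgroup.zpowers (⟨x, hx⟩ : H)) := by
      apply IsPGroup.of_card (n := k)
      rw [Nat.card_zpowers, Subgroup.orderOf_mk, hk]
    have hidx : ¬ 2 ∣ Nat.card (H ⧸ ((P : Subgroup G).subgroupOf H)) := by
      intro h
      apply P.not_dvd_index
      have h1 : 2 ∣ (P : Subgroup G).relIndex H := h
      exact h1.trans (Subgroup.relIndex_dvd_index_of_le hPH)
    obtain ⟨c, hc⟩ := hpx.nonempty_fixed_point_of_prime_not_dvd_card (H ⧸ ((P : Subgroup G).subgroupOf H)) hidx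
    induction c using QuotientGroup.induction_on with
    | H h =>
      have h1 := hc ⟨⟨x, hx⟩, Subgroup.mem_zpowers _⟩
      have h2 : (⟨x, hx⟩ : H) • (QuotientGroup.mk h : H ⧸ ((P : Subgroup G).subgroupOf H)) = QuotientGroup.mk h := h1
      rw [MulAction.Quotient.smul_mk, eq_comm, QuotientGroup.eq] at h2
      have h3 : (h : G)⁻¹ * (x * h) ∈ (P : Subgroup G) := by
        simpa [Subgroup.mem_subgroupOf] using h2
      refine ⟨h, h.2, ?_⟩
      have h4 := hPz _ h3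
      calc x * ((h : G) * z * (h : G)⁻¹) = h * (((h : G)⁻¹ * (x * h)) * z) * (h : G)⁻¹ := by group
        _ = h * (z * ((h : G)⁻¹ * (x * h))) * (h : G)⁻¹ := by rw [h4]
        _ = _ := by group
  intro x hx hxk g hg
  obtain ⟨k, hk⟩ := hxk
  obtain ⟨h₁, hh₁, hc₁⟩ := key x hx ⟨k, hk⟩
  obtain ⟨h₂, hh₂, hc₂⟩ := key (g * x * g⁻¹) hg ⟨k, by
    rw [← hk]
    have : g * x * g⁻¹ = MulAut.conj g x := by simp [MulAut.conj_apply]
    rw [this]
    exact orderOf_injective (MulAut.conj g).toMonoidHom (MulAut.conj g).injective x⟩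
  -- the two involutions in C = C_G(x)
  set C : Subgroup G := Subgroup.centralizer ({x} : Set G) with hC
  set z₁ : G := h₁ * z * h₁⁻¹ with hz₁
  set z₂ : G := h₂ * z * h₂⁻¹ with hz₂
  have hz₁C : z₁ ∈ C := by
    rw [hC, Subgroup.mem_centralizer_singleton_iff]; exact hc₁.symm
  have hwC : g⁻¹ * z₂ * g ∈ C := by
    rw [hC, Subgroup.mem_centralizer_singleton_iff]
    calc g⁻¹ * z₂ * g * x = g⁻¹ * (z₂ * (g * x * g⁻¹)) * g := by group
      _ = g⁻¹ * ((g * x * g⁻¹) * z₂) * g := by rw [hc₂]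
      _ = _ := by group
  have hord : ∀ h : G, (h * z * h⁻¹) ^ 2 = 1 := by
    intro h
    have : z ^ 2 = 1 := by rw [← hz2]; exact pow_orderOf_eq_one z
    rw [conj_pow, this]; group
  have hpg : ∀ w : C, w ^ 2 = 1 → IsPGroup 2 (Subgroup.zpowers w) := by
    intro w hw
    have : orderOf w ∣ 2 ^ 1 := by rw [pow_one]; exact orderOf_dvd_of_pow_eq_one hw
    obtain ⟨m, -, hm⟩ := (Nat.dvd_prime_pow Nat.prime_two).1 this
    apply IsPGroup.of_card (n := m)
    rw [Nat.card_zpowers, hm]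
  obtain ⟨T₁, hT₁⟩ := (hpg ⟨z₁, hz₁C⟩ (by
    apply Subtype.ext
    show z₁ ^ 2 = 1
    exact hord h₁)).exists_le_sylow
  obtain ⟨T₂, hT₂⟩ := (hpg ⟨g⁻¹ * z₂ * g, hwC⟩ (by
    apply Subtype.ext
    have := hord (g⁻¹ * h₂)
    simp only [hz₂]
    show (g⁻¹ * (h₂ * z * h₂⁻¹) * g) ^ 2 = 1
    have h5 : g⁻¹ * (h₂ * z * h₂⁻¹) * g = (g⁻¹ * h₂) * z * (g⁻¹ * h₂)⁻¹ := by group
    rw [h5]; exact this)).exists_le_sylow
  obtain ⟨c, hcT⟩ := MulAction.exists_smul_eq C T₂ T₁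
  have hz₁T : (⟨z₁, hz₁C⟩ : C) ∈ (T₁ : Subgroup C) := hT₁ (Subgroup.mem_zpowers _)
  have hwT : c * (⟨g⁻¹ * z₂ * g, hwC⟩ : C) * c⁻¹ ∈ (T₁ : Subgroup C) := by
    rw [← hcT]
    have := Subgroup.smul_mem_pointwise_smul (⟨g⁻¹ * z₂ * g, hwC⟩ : C) (MulAut.conj c) (T₂ : Subgroup C) (hT₂ (Subgroup.mem_zpowers _))
    exact this
  -- T₁ fixes a coset
  have hT₁p : IsPGroup 2 (T₁ : Subgroup C) := T₁.2
  obtain ⟨a, ha⟩ := hT₁p.nonempty_fixed_point_of_prime_not_dvd_card (G ⧸ H) hnd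
  induction a using QuotientGroup.induction_on with
  | H a =>
    have e1 : z₁ • (QuotientGroup.mk a : G ⧸ H) = QuotientGroup.mk a := ha ⟨⟨z₁, hz₁C⟩, hz₁T⟩
    rw [hfixc] at e1
    have e1' : (h₁⁻¹ * a)⁻¹ * z * (h₁⁻¹ * a) ∈ H := by
      have : (h₁⁻¹ * a)⁻¹ * z * (h₁⁻¹ * a) = a⁻¹ * z₁ * a := by rw [hz₁]; group
      rw [this]; exact e1
    have haH : a ∈ H := by
      have := H.mul_mem hh₁ (hfix _ e1')
      simpa using this
    have e2 : ((c : G) * (g⁻¹ * z₂ * g) * (c : G)⁻¹) • (QuotientGroup.mk a : G ⧸ H) = QuotientGroup.mk a := by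
      have := ha ⟨_, hwT⟩
      exact this
    rw [hfixc] at e2
    have e2' : (h₂⁻¹ * g * (c : G)⁻¹ * a)⁻¹ * z * (h₂⁻¹ * g * (c : G)⁻¹ * a) ∈ H := by
      have : (h₂⁻¹ * g * (c : G)⁻¹ * a)⁻¹ * z * (h₂⁻¹ * g * (c : G)⁻¹ * a) = a⁻¹ * ((c : G) * (g⁻¹ * z₂ * g) * (c : G)⁻¹) * a := by
        rw [hz₂]; group
      rw [this]; exact e2
    have h6 := hfix _ e2'
    have h7 : g * (c : G)⁻¹ ∈ H := by
      have := H.mul_mem (H.mul_mem hh₂ h6) (H.inv_mem haH)
      have e : h₂ * (h₂⁻¹ * g * (c : G)⁻¹ * a) * a⁻¹ = g * (c : G)⁻¹ := by group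
      rwa [e] at this
    refine ⟨g * (c : G)⁻¹, h7, ?_⟩
    have hcx : (c : G) * x = x * c := by
      exact Subgroup.mem_centralizer_singleton_iff.1 c.2
    have hcx' : (c : G)⁻¹ * x * c = x := by
      rw [mul_assoc, ← hcx]; group
    calc g * (c : G)⁻¹ * x * (g * (c : G)⁻¹)⁻¹ = g * ((c : G)⁻¹ * x * c) * g⁻¹ := by group
      _ = g * x * g⁻¹ := by rw [hcx']

end Cfsg.Agent.S5438
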