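import Cfsg.Statements.S5439

set_option autoImplicit false
open Cfsg

namespace Cfsg.Agent.S5439

theorem conj_pow_mul {G : Type*} [Group G] {a b : G} (ha : a * a = 1) (hb : b * b = 1) (k : ℕ) :
    (a * b) ^ k * a * ((a * b) ^ k)⁻¹ = (a * b) ^ (2 * k) * a := by
  have hai : a⁻¹ = a := inv_eq_of_mul_eq_one_left ha
  have hbi : b⁻¹ = b := inv_eq_of_mul_eq_one_left hb
  have h1 : ∀ k : ℕ, a * ((a * b) ^ k)⁻¹ = (a * b) ^ k * a := by
    intro k
    have : ((a * b) ^ k)⁻¹ = a * (a * b) ^ k * a := by
      calc ((a * b) ^ k)⁻¹ = ((a * b)⁻¹) ^ k := by rw [inv_pow]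
        _ = (a * (a * b) * a⁻¹) ^ k := by
            congr 1
            rw [mul_inv_rev, hai, hbi, ← mul_assoc, ha, one_mul]
        _ = a * (a * b) ^ k * a⁻¹ := by rw [conj_pow]
        _ = _ := by rw [hai]
    rw [this, ← mul_assoc, ← mul_assoc, ha, one_mul]
  rw [mul_assoc, h1, ← mul_assoc, ← pow_add, two_mul]

/-- Let I and J be two different conjugacy classes of involutions of the finite group G and H a subgroup such that every member of I ∪ J fixes exactly one coset in the action on the cosets of H, and such that for every a in I ∩ H and every b in (I ∪ J) ∩ H different from a and commuting with it, the centralizer of a b lies in H. Then H = G. -/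
theorem result {G : Type*} [Group G] [Finite G] (I J : Set G) (a₀ b₀ : G) (ha₀ : orderOf a₀ = 2) (hb₀ : orderOf b₀ = 2) (hI : I = {x | IsConj a₀ x}) (hJ : J = {x | IsConj b₀ x}) (hIJ : I ≠ J) (H : Subgroup G) (hfix : ∀ x ∈ I ∪ J, ∃! c : G ⧸ H, x • c = c) (hcent : ∀ a ∈ I, a ∈ H → ∀ b ∈ I ∪ J, b ∈ H → a ≠ b → a * b = b * a → Subgroup.centralizer ({a * b} : Set G) ≤ H) : H = ⊤ := by
  have hfixc : ∀ (g x : G), x • (QuotientGroup.mk g : G ⧸ H) = QuotientGroup.mk g ↔ g⁻¹ * x * g ∈ H := by
    intro g x
    rw [MulAction.Quotient.smul_mk, eq_comm, QuotientGroup.eq]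
    simp [smul_eq_mul, mul_assoc]
  have hIc : ∀ g x : G, x ∈ I → g * x * g⁻¹ ∈ I := by
    intro g x hx
    rw [hI] at hx ⊢
    exact IsConj.trans hx (isConj_iff.2 ⟨g, rfl⟩)
  have hJc : ∀ g x : G, x ∈ J → g * x * g⁻¹ ∈ J := by
    intro g x hx
    rw [hJ] at hx ⊢
    exact IsConj.trans hx (isConj_iff.2 ⟨g, rfl⟩)
  have hsq : ∀ x ∈ I ∪ J, x * x = 1 := by
    have aux : ∀ y x : G, orderOf y = 2 → IsConj y x → x * x = 1 := by
      intro y x hy hyx
      obtain ⟨c, rfl⟩ := isConj_iff.1 hyx
      have : y ^ 2 = 1 := by rw [← hy]; exact pow_orderOf_eq_one y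
      rw [← pow_two, conj_pow, this]; simp
    intro x hx
    rcases hx with hx | hx
    · rw [hI] at hx; exact aux _ _ ha₀ hx
    · rw [hJ] at hx; exact aux _ _ hb₀ hx
  -- centralizers of members in H are in H
  have hcl : ∀ x ∈ I ∪ J, x ∈ H → ∀ c : G, c * x = x * c → c ∈ H := by
    intro x hx hxH c hc
    obtain ⟨d, -, hu⟩ := hfix x hx
    have h1 := hu (QuotientGroup.mk 1) ((hfixc 1 x).2 (by simpa using hxH))
    have h2 := hu (QuotientGroup.mk c) ((hfixc c x).2 (by
      have : c⁻¹ * x * c = x := by rw [mul_assoc, ← hc]; group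
      rw [this]; exact hxH))
    have h3 : (QuotientGroup.mk 1 : G ⧸ H) = QuotientGroup.mk c := h1.trans h2.symm
    rw [QuotientGroup.eq] at h3
    simpa using h3
  -- main claim
  have key : ∀ a ∈ I, a ∈ H → ∀ b ∈ J, b ∈ H := by
    intro a ha haH b hb
    have haa := hsq a (Or.inl ha)
    have hbb := hsq b (Or.inr hb)
    have hai : a⁻¹ = a := inv_eq_of_mul_eq_one_left haa
    have hbi : b⁻¹ = b := inv_eq_of_mul_eq_one_left hbb
    have hord : (a * b) ^ orderOf (a * b) = 1 := pow_orderOf_eq_one _
    have hpos : 0 < orderOf (a * b) := orderOf_pos _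
    rcases Nat.even_or_odd' (orderOf (a * b)) with ⟨m, hm | hm⟩
    · -- even case
      set u : G := (a * b) ^ m with hu
      have hm0 : 0 < m := by omega
      have hu1 : u ≠ 1 := by
        intro h
        have := orderOf_dvd_of_pow_eq_one h
        have := Nat.le_of_dvd hm0 this
        omega
      have huu : u * u = 1 := by
        rw [hu, ← pow_add, ← two_mul, ← hm]; exact hord
      have hui : u⁻¹ = u := inv_eq_of_mul_eq_one_left huu
      have hua : u * a = a * u := by
        have h1 := conj_pow_mul haa hbb m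
        rw [two_mul, pow_add, ← hu, huu, one_mul, hui] at h1
        calc u * a = (u * a * u) * u := by rw [mul_assoc, huu, mul_one]
          _ = a * u := by rw [h1]
      have hub : u * b = b * u := by
        have h1 : u * (a * b) = (a * b) * u := by
          rw [hu, ← pow_succ, ← pow_succ']
        have h2 : a * (u * b) = a * (b * u) := by
          calc a * (u * b) = (a * u) * b := by group
            _ = (u * a) * b := by rw [hua]
            _ = u * (a * b) := by group
            _ = a * b * u := h1
            _ = a * (b * u) := by group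
        exact mul_left_cancel h2
      have hmem : u * a ∈ I ∪ J := by
        rcases Nat.even_or_odd' m with ⟨k, hk | hk⟩
        · left
          have h1 := conj_pow_mul haa hbb k
          rw [← hk, ← hu] at h1
          rw [← h1]
          exact hIc _ _ ha
        · right
          have h2 : u * a = ((a * b) ^ k * a) * b * ((a * b) ^ k * a)⁻¹ := by
            have h1 := conj_pow_mul haa hbb k
            have e1 : a * ((a * b) ^ k)⁻¹ = (a * b) ^ k * a := by
              have : (a * b) ^ k * (a * ((a * b) ^ k)⁻¹) = (a * b) ^ k * ((a * b) ^ k * a) := by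
                rw [← mul_assoc, h1, two_mul, pow_add, mul_assoc]
              exact mul_left_cancel this
            symm
            calc ((a * b) ^ k * a) * b * ((a * b) ^ k * a)⁻¹
                = (a * b) ^ k * (a * b) * (a⁻¹ * ((a * b) ^ k)⁻¹) := by group
              _ = (a * b) ^ (k + 1) * (a * ((a * b) ^ k)⁻¹) := by rw [pow_succ, hai]
              _ = (a * b) ^ (k + 1) * ((a * b) ^ k * a) := by rw [e1]
              _ = (a * b) ^ (k + 1 + k) * a := by rw [← mul_assoc, ← pow_add]
              _ = u * a := by rw [hu, hk]; congr 2; omega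
          rw [h2]
          exact hJc _ _ hb
      have huaH : u * a ∈ H := by
        apply hcl a (Or.inl ha) haH
        rw [mul_assoc, haa, mul_one, ← mul_assoc, ← hua, mul_assoc, haa, mul_one]
      have hne : a ≠ u * a := by
        intro h
        apply hu1
        have : 1 * a = u * a := by rw [one_mul]; exact h
        exact (mul_right_cancel this).symm
      have hau : a * (u * a) = u := by
        rw [← mul_assoc, ← hua, mul_assoc, haa, mul_one]
      have hau' : (u * a) * a = u := by rw [mul_assoc, haa, mul_one]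
      have hle := hcent a ha haH (u * a) hmem huaH hne (by rw [hau, hau'])
      rw [hau] at hle
      apply hle
      rw [Subgroup.mem_centralizer_singleton_iff]
      exact hub.symm
    · -- odd case: contradiction
      exfalso
      apply hIJ
      have h1 := conj_pow_mul haa hbb m
      have h2 : (a * b) ^ (2 * m) = b * a := by
        have h3 : (a * b) ^ (2 * m) * (a * b) = 1 := by
          rw [← pow_succ, ← hm]; exact hord
        have h4 := eq_inv_of_mul_eq_one_left h3
        rw [h4, mul_inv_rev, hai, hbi]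
      rw [h2, mul_assoc b a a, haa, mul_one] at h1
      have hab : IsConj a b := isConj_iff.2 ⟨_, h1⟩
      rw [hI] at ha
      rw [hJ] at hb
      have h5 : IsConj a₀ b₀ := (IsConj.trans ha hab).trans hb.symm
      rw [hI, hJ]
      ext x
      exact ⟨fun h => IsConj.trans h5.symm h, fun h => IsConj.trans h5 h⟩
  -- a member of I in H
  obtain ⟨a, ha, haH⟩ : ∃ a ∈ I, a ∈ H := by
    have ha₀I : a₀ ∈ I := by rw [hI]; exact IsConj.refl _
    obtain ⟨c, hc, -⟩ := hfix a₀ (Or.inl ha₀I)
    induction c using QuotientGroup.induction_on with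
    | H g =>
      have h1 : g⁻¹ * a₀ * g ∈ H := (hfixc g a₀).1 hc
      refine ⟨g⁻¹ * a₀ * g, ?_, h1⟩
      simpa using hIc g⁻¹ a₀ ha₀I
  have hJH := key a ha haH
  have hb₀J : b₀ ∈ J := by rw [hJ]; exact IsConj.refl _
  obtain ⟨d, -, hu⟩ := hfix b₀ (Or.inr hb₀J)
  rw [eq_top_iff]
  intro g _
  have h1 := hu (QuotientGroup.mk 1) ((hfixc 1 b₀).2 (by simpa using hJH b₀ hb₀J))
  have h2 := hu (QuotientGroup.mk g) ((hfixc g b₀).2 (by
    simpa using hJH _ (hJc g⁻¹ b₀ hb₀J)))
  have h3 : (QuotientGroup.mk 1 : G ⧸ H) = QuotientGroup.mk g := h1.trans h2.symm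
  rw [QuotientGroup.eq] at h3
  simpa using h3

end Cfsg.Agent.S5439
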