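import Cfsg.Statements.S5452
import Mathlib
import Cfsg.Agent.Lib.H92.ULift

set_option autoImplicit false
open Cfsg

namespace Cfsg.Agent.S5452

/-- Let G be a finite group with an involution d whose centralizer C is quasisimple with C modulo the subgroup generated by d isomorphic to the projective special unitary group of dimension 6 over the field with four elements, and suppose some conjugate of d other than d commutes with d. Then every involution of C modulo the subgroup generated by d is the image of an involution of C, and d is not a square in G. -/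
theorem result {G : Type*} [Group G] [Finite G] (d : G) (hd : orderOf d = 2) (hq : Cfsg.IsQuasisimple ↥(Subgroup.centralizer ({d} : Set G))) [hzn : ((Subgroup.zpowers d).subgroupOf (Subgroup.centralizer ({d} : Set G))).Normal] (K : Type) [Field K] [Fintype K] (hK : Fintype.card K = 4) (e : ↥(Subgroup.centralizer ({d} : Set G)) ⧸ (Subgroup.zpowers d).subgroupOf (Subgroup.centralizer ({d} : Set G)) ≃* Cfsg.PSU 6 K 2) (hnwc : ∃ g : G, g * d * g⁻¹ ∈ Subgroup.centralizer ({d} : Set G) ∧ g * d * g⁻¹ ≠ d) : (∀ x : ↥(Subgroup.centralizer ({d} : Set G)) ⧸ (Subgroup.zpowers d).subgroupOf (Subgroup.centralizer ({d} : Set G)), orderOf x = 2 → ∃ y : ↥(Subgroup.centralizer ({d} : Set G)), orderOf y = 2 ∧ (QuotientGroup.mk y : ↥(Subgroup.centralizer ({d} : Set G)) ⧸ (Subgroup.zpowers d).subgroupOf (Subgroup.centralizer ({d} : Set G))) = x) ∧ ¬ ∃ g : G, g ^ 2 = d := by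
  set C : Subgroup G := Subgroup.centralizer ({d} : Set G) with hC
  have hdd : d * d = 1 := by
    have : d ^ 2 = 1 := by rw [← hd]; exact pow_orderOf_eq_one d
    rw [← pow_two]; exact this
  have hd1 : d ≠ 1 := by
    intro h; rw [h, orderOf_one] at hd; exact absurd hd (by norm_num)
  have hdC : d ∈ C := by rw [hC, Subgroup.mem_centralizer_singleton_iff]
  let d' : C := ⟨d, hdC⟩
  let π : C →* Cfsg.PSU 6 K 2 := e.toMonoidHom.comp (QuotientGroup.mk' ((Subgroup.zpowers d).subgroupOf C))
  have hs : Function.Surjective π := e.surjective.comp (QuotientGroup.mk'_surjective _)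
  have hdc : ∀ c : C, c * d' = d' * c := by
    intro c
    apply Subtype.ext
    exact Subgroup.mem_centralizer_singleton_iff.1 c.2
  have hd2 : d' * d' = 1 := Subtype.ext hdd
  have hk : ∀ c : C, π c = 1 → c = 1 ∨ c = d' := by
    intro c hc
    have h1 : (QuotientGroup.mk' ((Subgroup.zpowers d).subgroupOf C)) c = 1 := by
      apply e.injective
      rw [map_one]; exact hc
    have h2 : c ∈ (Subgroup.zpowers d).subgroupOf C := (QuotientGroup.eq_one_iff c).1 h1
    rw [Subgroup.mem_subgroupOf] at h2
    obtain ⟨m, hm⟩ := Subgroup.mem_zpowers_iff.1 h2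
    rcases Int.even_or_odd' m with ⟨j, hj | hj⟩
    · left
      apply Subtype.ext
      show (c : G) = 1
      rw [← hm, hj, zpow_mul]
      have : d ^ (2 : ℤ) = 1 := by
        rw [show (2 : ℤ) = ((2 : ℕ) : ℤ) by norm_num, zpow_natCast, pow_two]; exact hdd
      rw [this, one_zpow]
    · right
      apply Subtype.ext
      show (c : G) = d
      rw [← hm, hj, zpow_add, zpow_mul]
      have : d ^ (2 : ℤ) = 1 := by
        rw [show (2 : ℤ) = ((2 : ℕ) : ℤ) by norm_num, zpow_natCast, pow_two]; exact hdd
      rw [this, one_zpow, one_mul, zpow_one]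
  have key : ∀ y : C, π y * π y = 1 → y * y = 1 :=
    H92.ULift.lift_involution π d' hK le_rfl hs hdc hd2 hk
  refine ⟨?_, ?_⟩
  · intro x hx
    obtain ⟨y, rfl⟩ := QuotientGroup.mk_surjective x
    have hyy : y * y = 1 := by
      apply key
      show e (QuotientGroup.mk y) * e (QuotientGroup.mk y) = 1
      rw [← map_mul]
      have : (QuotientGroup.mk y : C ⧸ (Subgroup.zpowers d).subgroupOf C) ^ 2 = 1 := by
        rw [← hx]; exact pow_orderOf_eq_one _
      rw [pow_two] at this
      rw [this, map_one]
    refine ⟨y, ?_, rfl⟩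
    apply orderOf_eq_prime (by rw [pow_two]; exact hyy)
    intro h1
    rw [h1] at hx
    have : (QuotientGroup.mk (1 : C) : C ⧸ (Subgroup.zpowers d).subgroupOf C) = 1 := rfl
    rw [this, orderOf_one] at hx
    exact absurd hx (by norm_num)
  · rintro ⟨g, hg⟩
    have hgC : g ∈ C := by
      rw [hC, Subgroup.mem_centralizer_singleton_iff, ← hg]
      rw [← pow_succ, ← pow_succ']
    have h1 : (⟨g, hgC⟩ : C) * ⟨g, hgC⟩ = 1 := by
      apply key
      rw [← map_mul]
      have : (⟨g, hgC⟩ : C) * ⟨g, hgC⟩ = d' := by
        apply Subtype.ext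
        show g * g = d
        rw [← pow_two]; exact hg
      rw [this]
      show e (QuotientGroup.mk d') = 1
      have h2 : (QuotientGroup.mk d' : C ⧸ (Subgroup.zpowers d).subgroupOf C) = 1 := by
        rw [QuotientGroup.eq_one_iff, Subgroup.mem_subgroupOf]
        exact Subgroup.mem_zpowers d
      rw [h2, map_one]
    have h2 : g * g = 1 := congrArg Subtype.val h1
    apply hd1
    rw [← hg, pow_two]; exact h2

end Cfsg.Agent.S5452
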