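import Cfsg.Statements.S5453
import Cfsg.Agent.Lib.H19.DCovA
import Cfsg.Agent.Lib.H92.Setup

set_option autoImplicit false
open Cfsg

namespace Cfsg.Agent.S5453

/-- Let G be a finite group with an involution d whose centralizer C is quasisimple, such that C modulo the subgroup generated by d is of type M(22) with respect to some conjugacy class of 3-transpositions generating it and also has an involution whose own centralizer is quasisimple with quotient by it isomorphic to the projective special unitary group of dimension 6 over the field with four elements and which is not weakly closed in that centralizer; and suppose some conjugate of d other than d commutes with d. Then every involution of C modulo the subgroup generated by d is the image of an involution of C, and d is not a square in G. -/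
theorem result {G : Type*} [Group G] [Finite G] (d : G) (hd : orderOf d = 2) (hq : Cfsg.IsQuasisimple ↥(Subgroup.centralizer ({d} : Set G))) [hzn : ((Subgroup.zpowers d).subgroupOf (Subgroup.centralizer ({d} : Set G))).Normal] (htype : ∃ E : Set (↥(Subgroup.centralizer ({d} : Set G)) ⧸ (Subgroup.zpowers d).subgroupOf (Subgroup.centralizer ({d} : Set G))), Cfsg.IsThreeTranspositionClass E ∧ Cfsg.IsOfTypeM22 _ E) (hinvol : ∃ d' : ↥(Subgroup.centralizer ({d} : Set G)) ⧸ (Subgroup.zpowers d).subgroupOf (Subgroup.centralizer ({d} : Set G)), orderOf d' = 2 ∧ Cfsg.IsQuasisimple ↥(Subgroup.centralizer ({d'} : Set _)) ∧ (∃ (K : Type) (_ : Field K) (_ : Fintype K), Fintype.card K = 4 ∧ ∃ _ : ((Subgroup.zpowers d').subgroupOf (Subgroup.centralizer ({d'} : Set _))).Normal, Nonempty (↥(Subgroup.centralizer ({d'} : Set _)) ⧸ (Subgroup.zpowers d').subgroupOf (Subgroup.centralizer ({d'} : Set _)) ≃* Cfsg.PSU 6 K 2)) ∧ ∃ g, g * d' * g⁻¹ ∈ Subgroup.centralizer ({d'} : Set _) ∧ g * d' * g⁻¹ ≠ d') (hnwc : ∃ g : G, g * d * g⁻¹ ∈ Subgroup.centralizer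 ({d} : Set G) ∧ g * d * g⁻¹ ≠ d) : (∀ x : ↥(Subgroup.centralizer ({d} : Set G)) ⧸ (Subgroup.zpowers d).subgroupOf (Subgroup.centralizer ({d} : Set G)), orderOf x = 2 → ∃ y : ↥(Subgroup.centralizer ({d} : Set G)), orderOf y = 2 ∧ (QuotientGroup.mk y : ↥(Subgroup.centralizer ({d} : Set G)) ⧸ (Subgroup.zpowers d).subgroupOf (Subgroup.centralizer ({d} : Set G))) = x) ∧ ¬ ∃ g : G, g ^ 2 = d := by
  set C : Subgroup G := Subgroup.centralizer ({d} : Set G) with hC
  have hdd : d * d = 1 := by
    have : d ^ 2 = 1 := by rw [← hd]; exact pow_orderOf_eq_one d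
    rw [← pow_two]; exact this
  have hd1 : d ≠ 1 := by
    intro h; rw [h, orderOf_one] at hd; exact absurd hd (by norm_num)
  have hdC : d ∈ C := by rw [hC, Subgroup.mem_centralizer_singleton_iff]
  let d' : C := ⟨d, hdC⟩
  let π : C →* (C ⧸ (Subgroup.zpowers d).subgroupOf C) := QuotientGroup.mk' ((Subgroup.zpowers d).subgroupOf C)
  have hs : Function.Surjective π := QuotientGroup.mk'_surjective _
  have hdc : ∀ c : C, c * d' = d' * c := by
    intro c
    apply Subtype.ext
    exact Subgroup.mem_centralizer_singleton_iff.1 c.2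
  have hd2 : d' * d' = 1 := Subtype.ext hdd
  have hk : ∀ c : C, π c = 1 → c = 1 ∨ c = d' := by
    intro c hc
    have h2 : c ∈ (Subgroup.zpowers d).subgroupOf C := (QuotientGroup.eq_one_iff c).1 hc
    rw [Subgroup.mem_subgroupOf] at h2
    obtain ⟨m, hm⟩ := Subgroup.mem_zpowers_iff.1 h2
    rcases Int.even_or_odd' m with ⟨j, hj | hj⟩
    · left
      apply Subtype.ext
      show (c : G) = 1
      rw [← hm, hj, zpow_mul]
      have : d ^ (2 : ℤ) = 1 := by
        rw [show (2 : ℤ) = ((2 : ℕ) : ℤ) by norm_num, zpow_natCast, pow_two]; exact hdd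
      rw [this, one_zpow]
    · right
      apply Subtype.ext
      show (c : G) = d
      rw [← hm, hj, zpow_add, zpow_mul]
      have : d ^ (2 : ℤ) = 1 := by
        rw [show (2 : ℤ) = ((2 : ℕ) : ℤ) by norm_num, zpow_natCast, pow_two]; exact hdd
      rw [this, one_zpow, one_mul, zpow_one]
  obtain ⟨E, hE3, hE22⟩ := htype
  have hEg : Cfsg.IsThreeTranspositionGroup E := by
    refine ⟨hE3.1, ?_, hE3.2.2⟩
    obtain ⟨e, he, hEe⟩ := hE3.2.1
    intro g x hx
    rw [hEe] at hx ⊢
    have h1 : IsConj e x := hx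
    exact h1.trans (isConj_iff.2 ⟨g, rfl⟩)
  have h1D := H92.Setup.one_notMem hEg
  have htri := H92.Setup.tri_of_group hEg
  obtain ⟨hLG, hcard⟩ := H92.TypeNum.card22 htri h1D hEg.2.2 hE22
  have key : ∀ y : C, π y * π y = 1 → y * y = 1 := fun y hy =>
    H19.DCovA.lift_inv π d' hLG hcard hEg.2.2 hE22.1 hs hdc hd2 hk hy
  refine ⟨?_, ?_⟩
  · intro x hx
    obtain ⟨y, rfl⟩ := QuotientGroup.mk_surjective x
    have hyy : y * y = 1 := by
      apply key
      show (QuotientGroup.mk y : C ⧸ (Subgroup.zpowers d).subgroupOf C) * (QuotientGroup.mk y) = 1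
      have : (QuotientGroup.mk y : C ⧸ (Subgroup.zpowers d).subgroupOf C) ^ 2 = 1 := by
        rw [← hx]; exact pow_orderOf_eq_one _
      rw [pow_two] at this
      exact this
    refine ⟨y, ?_, rfl⟩
    apply orderOf_eq_prime (by rw [pow_two]; exact hyy)
    intro h1
    rw [h1] at hx
    have : (QuotientGroup.mk (1 : C) : C ⧸ (Subgroup.zpowers d).subgroupOf C) = 1 := rfl
    rw [this, orderOf_one] at hx
    exact absurd hx (by norm_num)
  · rintro ⟨g, hg⟩
    have hgC : g ∈ C := by
      rw [hC, Subgroup.mem_centralizer_singleton_iff, ← hg]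
      rw [← pow_succ, ← pow_succ']
    have h1 : (⟨g, hgC⟩ : C) * ⟨g, hgC⟩ = 1 := by
      apply key
      rw [← map_mul]
      have : (⟨g, hgC⟩ : C) * ⟨g, hgC⟩ = d' := by
        apply Subtype.ext
        show g * g = d
        rw [← pow_two]; exact hg
      rw [this]
      apply (QuotientGroup.eq_one_iff d').2
      rw [Subgroup.mem_subgroupOf]
      exact Subgroup.mem_zpowers d
    have h2 : g * g = 1 := congrArg Subtype.val h1
    rw [← pow_two, hg] at h2
    exact hd1 h2

end Cfsg.Agent.S5453
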