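import Cfsg.Statements.S5454
import Cfsg.Agent.S0280
import Cfsg.Agent.Lib.H19.UCovN

set_option autoImplicit false
open Cfsg

namespace Cfsg.Agent.S5454

theorem main {G : Type*} [Group G] [Finite G] (d : G) (hd : orderOf d = 2) (C : Subgroup G) (hC : C = Subgroup.centralizer ({d} : Set G)) (hq : Cfsg.IsQuasisimple ↥C) [hzn : ((Subgroup.zpowers d).subgroupOf C).Normal] (K : Type) [Field K] [Fintype K] (hK : Fintype.card K = 4) (e : ↥C ⧸ (Subgroup.zpowers d).subgroupOf C ≃* Cfsg.PSU 6 K 2) (hnwc : ∃ g : G, g * d * g⁻¹ ∈ C ∧ g * d * g⁻¹ ≠ d) (S : Sylow 2 ↥C) (A : Subgroup G) (hA : A = (Cfsg.thompsonSubgroupOf 2 (S : Subgroup ↥C)).map C.subtype) : Cfsg.IsElementaryAbelian 2 A ∧ Nat.card A = 2 ^ 10 ∧ Set.ncard {x : G | x ∈ A ∧ IsConj d x} = 22 ∧ ∀ x ∈ A, ∀ y ∈ A, IsConj d x → IsConj d y → ∃ n ∈ Subgroup.normalizer (A : Set G), n * x * n⁻¹ = y := by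
  classical
  have hdd : d * d = 1 := by
    have : d ^ 2 = 1 := by rw [← hd]; exact pow_orderOf_eq_one d
    rw [← pow_two]; exact this
  have hd1 : d ≠ 1 := by
    intro h; rw [h, orderOf_one] at hd; exact absurd hd (by norm_num)
  have hdC : d ∈ C := by rw [hC, Subgroup.mem_centralizer_singleton_iff]
  let d' : C := ⟨d, hdC⟩
  let π : C →* PSU 6 K 2 := e.toMonoidHom.comp (QuotientGroup.mk' ((Subgroup.zpowers d).subgroupOf C))
  have hk0 : ∀ c : C, π c = 1 → c ∈ (Subgroup.zpowers d).subgroupOf C := by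
    intro c hc
    have h1 : (QuotientGroup.mk' ((Subgroup.zpowers d).subgroupOf C)) c = 1 := e.injective (by rw [map_one]; exact hc)
    exact (QuotientGroup.eq_one_iff c).1 h1
  have hk : ∀ c : C, π c = 1 → c = 1 ∨ c = d' := by
    intro c hc
    have h2 := hk0 c hc
    rw [Subgroup.mem_subgroupOf] at h2
    obtain ⟨m, hm⟩ := Subgroup.mem_zpowers_iff.1 h2
    rcases Int.even_or_odd' m with ⟨j, hj | hj⟩
    · left
      apply Subtype.ext
      show (c : G) = 1
      rw [← hm, hj, zpow_mul]
      have : d ^ (2 : ℤ) = 1 := by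
        rw [show (2 : ℤ) = ((2 : ℕ) : ℤ) by norm_num, zpow_natCast, pow_two]; exact hdd
      rw [this, one_zpow]
    · right
      apply Subtype.ext
      show (c : G) = d
      rw [← hm, hj, zpow_add, zpow_mul]
      have : d ^ (2 : ℤ) = 1 := by
        rw [show (2 : ℤ) = ((2 : ℕ) : ℤ) by norm_num, zpow_natCast, pow_two]; exact hdd
      rw [this, one_zpow, one_mul, zpow_one]
  have H : H19.UCovB.Cov K π d' := by
    refine ⟨hK, ?_, ?_, Subtype.ext hdd, hk, ?_, ?_⟩
    · exact e.surjective.comp (QuotientGroup.mk'_surjective _)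
    · intro c
      apply Subtype.ext
      have h5 : (c : G) ∈ Subgroup.centralizer ({d} : Set G) := by rw [← hC]; exact c.2
      exact Subgroup.mem_centralizer_singleton_iff.1 h5
    · intro h
      exact hd1 (congrArg Subtype.val h)
    · show e (QuotientGroup.mk d') = 1
      rw [(QuotientGroup.eq_one_iff d').2 (by rw [Subgroup.mem_subgroupOf]; exact Subgroup.mem_zpowers d), map_one]
  -- the order
  have hpsu : Nat.card (PSU 6 K 2) = 2 ^ 15 * 280665 := by
    have h1 := Cfsg.Agent.S0280.result (F := K) (q := 2) (by rw [hK]; norm_num) 6 (by norm_num)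
    norm_num [Finset.prod_range_succ] at h1
    rw [Nat.card_eq_fintype_card]
    omega
  have hcard : Nat.card C = 2 ^ 16 * 280665 := by
    have h1 := Subgroup.card_eq_card_quotient_mul_card_subgroup ((Subgroup.zpowers d).subgroupOf C)
    rw [Nat.card_congr e.toEquiv, hpsu] at h1
    have h2 : Nat.card ((Subgroup.zpowers d).subgroupOf C) = 2 := by
      rw [Nat.card_congr (Subgroup.subgroupOfEquivOfLe (by rw [Subgroup.zpowers_le]; exact hdC)).toEquiv, Nat.card_zpowers, hd]
    rw [h2] at h1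
    rw [h1]; norm_num
  have hno : ∀ M : Subgroup C, M.Normal → M.index ≠ 2 := by
    intro M hM h2
    have hperf : commutator C = ⊤ := Group.isPerfect_def.1 hq.1
    have h3 : commutator C ≤ M := by
      haveI := hM
      haveI : IsCyclic (C ⧸ M) := isCyclic_of_prime_card (p := 2) h2
      letI : CommGroup (C ⧸ M) := IsCyclic.commGroup
      have h4 := Abelianization.commutator_subset_ker (QuotientGroup.mk' M)
      rwa [QuotientGroup.ker_mk'] at h4
    rw [hperf, top_le_iff] at h3
    rw [h3, Subgroup.index_top] at h2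
    norm_num at h2
  obtain ⟨x0, S0⟩ := H19.UCovD.exists_std H
  obtain ⟨Δ, hf, hΔ⟩ := H92.Frame.frame_of_pgroup (H.lev S0.h0) (S : Subgroup C) S.2 (by
    intro q _
    refine ⟨fun y hy => H19.UCovB.conj_D hy q, fun y hy => ?_⟩
    have := H19.UCovB.conj_D hy q⁻¹
    rwa [inv_inv] at this)
  have hs := H19.UCovD.sit H S0.h0 hf
  obtain ⟨t1, t2, t3⟩ := hs.thompson S hΔ
  rw [t2] at hA
  letI : CommGroup ↥(Subgroup.closure (insert d' Δ)) := H19.UCovJ.cgrp _ hs.closure_comm
  letI : Fintype ↥(Subgroup.closure (insert d' Δ)) := Fintype.ofFinite _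
  have PL := H19.UCovE.plane H S0 hf (V := ↥(Subgroup.closure (insert d' Δ))) (ι := (Subgroup.closure (insert d' Δ)).subtype)
    (Subgroup.subtype_injective _) (Subgroup.range_subtype _) (zv := ⟨d', Subgroup.subset_closure (Set.mem_insert _ _)⟩) rfl
  have hfus : ∀ g : G, g * d * g⁻¹ ∈ A → ∃ n ∈ Subgroup.normalizer (A : Set G), n * d * n⁻¹ = g * d * g⁻¹ := by
    intro g hg
    rw [hA] at hg ⊢
    exact H19.UCovL.fusion hC (z := d') rfl hs S hΔ hg
  have hl := H19.UCovJ.not_split H S0 hno hcard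
  refine ⟨?_, ?_, ?_, ?_⟩
  · rw [hA]
    refine ⟨⟨⟨?_⟩⟩, ?_⟩
    · rintro ⟨_, a, ha, rfl⟩ ⟨_, b, hb, rfl⟩
      apply Subtype.ext
      exact congrArg (fun x : C => (x : G)) (hs.closure_comm a ha b hb).eq
    · rintro _ ⟨a, ha, rfl⟩
      show (a : G) ^ 2 = 1
      rw [pow_two]
      exact congrArg (fun x : C => (x : G)) (hs.closure_sq' a ha)
  · rw [hA, Subgroup.card_map_of_injective C.subtype_injective, Nat.card_eq_fintype_card, PL.card_V]
    norm_num
  · rw [hA]
    exact H19.UCovN.count hd hC (z := d') rfl H S0 hf (V := ↥(Subgroup.closure (insert d' Δ))) (ι := (Subgroup.closure (insert d' Δ)).subtype)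
      (Subgroup.subtype_injective _) (Subgroup.range_subtype _) (zv := ⟨d', Subgroup.subset_closure (Set.mem_insert _ _)⟩) rfl
      (fun g hg => by rw [← hA] at hg ⊢; exact hfus g hg) hl hcard hnwc
  · intro x hx y hy hdx hdy
    obtain ⟨g, rfl⟩ := isConj_iff.1 hdx
    obtain ⟨g', rfl⟩ := isConj_iff.1 hdy
    obtain ⟨n, hn, hn2⟩ := hfus g hx
    obtain ⟨n', hn', hn2'⟩ := hfus g' hy
    refine ⟨n' * n⁻¹, Subgroup.mul_mem _ hn' (Subgroup.inv_mem _ hn), ?_⟩
    rw [← hn2, ← hn2']
    group

/-- Let G be a finite group with an involution d whose centralizer C is quasisimple with C modulo the subgroup generated by d isomorphic to the projective special unitary group of dimension 6 over the field with four elements, and suppose some conjugate of d other than d commutes with d. Let S be a Sylow 2-subgroup of C and A the Thompson subgroup of S (generated by the elementary abelian subgroups of S of largest order), regarded as a subgroup of G. Then A is elementary abelian of order 2^10,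 exactly 22 conjugates of d lie in A, and the normalizer of A permutes them transitively. -/
theorem result {G : Type*} [Group G] [Finite G] (d : G) (hd : orderOf d = 2) (hq : Cfsg.IsQuasisimple ↥(Subgroup.centralizer ({d} : Set G))) [hzn : ((Subgroup.zpowers d).subgroupOf (Subgroup.centralizer ({d} : Set G))).Normal] (K : Type) [Field K] [Fintype K] (hK : Fintype.card K = 4) (e : ↥(Subgroup.centralizer ({d} : Set G)) ⧸ (Subgroup.zpowers d).subgroupOf (Subgroup.centralizer ({d} : Set G)) ≃* Cfsg.PSU 6 K 2) (hnwc : ∃ g : G, g * d * g⁻¹ ∈ Subgroup.centralizer ({d} : Set G) ∧ g * d * g⁻¹ ≠ d) (S : Sylow 2 ↥(Subgroup.centralizer ({d} : Set G))) (A : Subgroup G) (hA : A = (Cfsg.thompsonSubgroupOf 2 (S : Subgroup ↥(Subgroup.centralizer ({d} : Set G)))).map (Subgroup.centralizer ({d} : Set G)).subtype) : Cfsg.IsElementaryAbelian 2 A ∧ Nat.card A = 2 ^ 10 ∧ Set.ncard {x : G | x ∈ A ∧ IsConj d x} = 22 ∧ ∀ x ∈ A, ∀ y ∈ A, IsConj d x → IsConj d y → ∃ n ∈ Subgroup.normalizer (A : Set G), n *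 x * n⁻¹ = y := by
  exact main d hd _ rfl hq K hK e hnwc S A hA

end Cfsg.Agent.S5454
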