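import Cfsg.Statements.S5455
import Cfsg.Agent.Lib.H19.VCovG
import Cfsg.Agent.Lib.H92.Setup

set_option autoImplicit false
open Cfsg

namespace Cfsg.Agent.S5455

theorem main {G : Type*} [Group G] [Finite G] (d : G) (hd : orderOf d = 2) (C : Subgroup G) (hC : C = Subgroup.centralizer ({d} : Set G)) (hq : Cfsg.IsQuasisimple ↥C) [hzn : ((Subgroup.zpowers d).subgroupOf C).Normal] (htype : ∃ E : Set (↥C ⧸ (Subgroup.zpowers d).subgroupOf C), Cfsg.IsThreeTranspositionClass E ∧ Cfsg.IsOfTypeM22 _ E) (hnwc : ∃ g : G, g * d * g⁻¹ ∈ C ∧ g * d * g⁻¹ ≠ d) (S : Sylow 2 ↥C) (A : Subgroup G) (hA : A = (Cfsg.thompsonSubgroupOf 2 (S : Subgroup ↥C)).map C.subtype) : Cfsg.IsElementaryAbelian 2 A ∧ Nat.card A = 2 ^ 11 ∧ Set.ncard {x : G | x ∈ A ∧ IsConj d x} = 23 ∧ ∀ x ∈ A, ∀ y ∈ A, IsConj d x → IsConj d y → ∃ n ∈ Subgroup.normalizer (A : Set G), n * x * n⁻¹ = y := by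
  classical
  have hdd : d * d = 1 := by
    have : d ^ 2 = 1 := by rw [← hd]; exact pow_orderOf_eq_one d
    rw [← pow_two]; exact this
  have hd1 : d ≠ 1 := by
    intro h; rw [h, orderOf_one] at hd; exact absurd hd (by norm_num)
  have hdC : d ∈ C := by rw [hC, Subgroup.mem_centralizer_singleton_iff]
  let d' : C := ⟨d, hdC⟩
  let π : C →* (C ⧸ (Subgroup.zpowers d).subgroupOf C) := QuotientGroup.mk' ((Subgroup.zpowers d).subgroupOf C)
  have hs : Function.Surjective π := QuotientGroup.mk'_surjective _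
  have hk : ∀ c : C, π c = 1 → c = 1 ∨ c = d' := by
    intro c hc
    have h2 : c ∈ (Subgroup.zpowers d).subgroupOf C := (QuotientGroup.eq_one_iff c).1 hc
    rw [Subgroup.mem_subgroupOf] at h2
    rcases H19.VCovE.mem_zp hdd h2 with h3 | h3
    · exact Or.inl (Subtype.ext h3)
    · exact Or.inr (Subtype.ext h3)
  obtain ⟨E, hE3, hE22⟩ := htype
  have hEg : Cfsg.IsThreeTranspositionGroup E := by
    refine ⟨hE3.1, ?_, hE3.2.2⟩
    obtain ⟨e, he, hEe⟩ := hE3.2.1
    intro g x hx
    rw [hEe] at hx ⊢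
    have h1 : IsConj e x := hx
    exact h1.trans (isConj_iff.2 ⟨g, rfl⟩)
  have h1D := H92.Setup.one_notMem hEg
  have htri := H92.Setup.tri_of_group hEg
  obtain ⟨hLG, hcard⟩ := H92.TypeNum.card22 htri h1D hEg.2.2 hE22
  have H : H19.VCovA.Cov2 π d' E := by
    refine ⟨hLG, hcard, hEg.2.2, hE22.1, hs, ?_, Subtype.ext hdd, hk, ?_, ?_⟩
    · intro c
      apply Subtype.ext
      have h5 : (c : G) ∈ Subgroup.centralizer ({d} : Set G) := by rw [← hC]; exact c.2
      exact Subgroup.mem_centralizer_singleton_iff.1 h5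
    · intro h
      exact hd1 (congrArg Subtype.val h)
    · apply (QuotientGroup.eq_one_iff d').2
      rw [Subgroup.mem_subgroupOf]; exact Subgroup.mem_zpowers d
  have hperf : commutator C = ⊤ := Group.isPerfect_def.1 hq.1
  obtain ⟨e0, he0⟩ := hLG.lev.nonempty
  obtain ⟨x0, hx0⟩ := hs e0
  have h0 : π x0 ∈ E := by rw [hx0]; exact he0
  obtain ⟨Δ, hf, hΔ⟩ := H92.Frame.frame_of_pgroup (H.lg' h0).lev (S : Subgroup C) S.2 (by
    intro q _
    refine ⟨fun y hy => H19.VCovA.conj_D hy q, fun y hy => ?_⟩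
    have := H19.VCovA.conj_D hy q⁻¹
    rwa [inv_inv] at this)
  have hs := H.sit h0 hf
  obtain ⟨t1, t2, t3⟩ := hs.thompson S hΔ
  rw [t2] at hA
  letI : CommGroup ↥(Subgroup.closure (insert d' Δ)) := H19.UCovJ.cgrp _ hs.closure_comm
  letI : Fintype ↥(Subgroup.closure (insert d' Δ)) := Fintype.ofFinite _
  have W := H19.VCovB.wt H h0 hf (V := ↥(Subgroup.closure (insert d' Δ))) (ι := (Subgroup.closure (insert d' Δ)).subtype)
    (Subgroup.subtype_injective _) (Subgroup.range_subtype _) (zv := ⟨d', Subgroup.subset_closure (Set.mem_insert _ _)⟩) rfl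
  have hns : ∀ h, H19.RMod.Rl (⟨d', Subgroup.subset_closure (Set.mem_insert _ _)⟩ : ↥(Subgroup.closure (insert d' Δ)))
      (H19.UCovE.FF (Subgroup.closure (insert d' Δ)).subtype Δ) h → h.card = 6 →
      ∏ x ∈ h, x = (⟨d', Subgroup.subset_closure (Set.mem_insert _ _)⟩ : ↥(Subgroup.closure (insert d' Δ))) := by
    intro h hh hc
    have h1 := H19.VCovB.rel_of H h0 hf (V := ↥(Subgroup.closure (insert d' Δ))) (ι := (Subgroup.closure (insert d' Δ)).subtype)
      (Subgroup.subtype_injective _) (zv := ⟨d', Subgroup.subset_closure (Set.mem_insert _ _)⟩) rfl hh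
    have h2 := H19.VCovF.nonsplit H h0 hperf _ h1 (by rw [List.length_map, Finset.length_toList, hc])
    rw [H19.UCovE.tl_prod] at h2
    exact Subtype.ext h2
  have hfus : ∀ g : G, g * d * g⁻¹ ∈ A → ∃ n ∈ Subgroup.normalizer (A : Set G), n * d * n⁻¹ = g * d * g⁻¹ := by
    intro g hg
    rw [hA] at hg ⊢
    exact H19.UCovL.fusion hC (z := d') rfl hs S hΔ hg
  refine ⟨?_, ?_, ?_, ?_⟩
  · rw [hA]
    refine ⟨⟨⟨?_⟩⟩, ?_⟩
    · rintro ⟨_, a, ha, rfl⟩ ⟨_, b, hb, rfl⟩
      apply Subtype.ext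
      exact congrArg (fun x : C => (x : G)) (hs.closure_comm a ha b hb).eq
    · rintro _ ⟨a, ha, rfl⟩
      show (a : G) ^ 2 = 1
      rw [pow_two]
      exact congrArg (fun x : C => (x : G)) (hs.closure_sq' a ha)
  · rw [hA, Subgroup.card_map_of_injective C.subtype_injective, Nat.card_eq_fintype_card, W.card_V hns]
    norm_num
  · rw [hA]
    exact H19.VCovG.count hd hC (z := d') rfl H h0 hf (V := ↥(Subgroup.closure (insert d' Δ))) (ι := (Subgroup.closure (insert d' Δ)).subtype)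
      (Subgroup.subtype_injective _) (Subgroup.range_subtype _) (zv := ⟨d', Subgroup.subset_closure (Set.mem_insert _ _)⟩) rfl
      (fun g hg => by rw [← hA] at hg ⊢; exact hfus g hg) hperf hnwc
  · intro x hx y hy hdx hdy
    obtain ⟨g, rfl⟩ := isConj_iff.1 hdx
    obtain ⟨g', rfl⟩ := isConj_iff.1 hdy
    obtain ⟨n, hn, hn2⟩ := hfus g hx
    obtain ⟨n', hn', hn2'⟩ := hfus g' hy
    refine ⟨n' * n⁻¹, Subgroup.mul_mem _ hn' (Subgroup.inv_mem _ hn), ?_⟩
    rw [← hn2, ← hn2']
    group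

/-- Let G be a finite group with an involution d whose centralizer C is quasisimple, such that C modulo the subgroup generated by d is of type M(22) with respect to some conjugacy class of 3-transpositions generating it and also has an involution whose own centralizer is quasisimple with quotient by it isomorphic to the projective special unitary group of dimension 6 over the field with four elements and which is not weakly closed in that centralizer; and suppose some conjugate of d other than d commutes with d. Let S be a Sylow 2-subgroup of C and A the Thompson subgroup of S, regarded as a subgroup of G. Then A is elementary abelian of order 2^11, exactly 23 conjugates of d lie in A, and the normalizer of A permutes them transitively. -/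
theorem result {G : Type*} [Group G] [Finite G] (d : G) (hd : orderOf d = 2) (hq : Cfsg.IsQuasisimple ↥(Subgroup.centralizer ({d} : Set G))) [hzn : ((Subgroup.zpowers d).subgroupOf (Subgroup.centralizer ({d} : Set G))).Normal] (htype : ∃ E : Set (↥(Subgroup.centralizer ({d} : Set G)) ⧸ (Subgroup.zpowers d).subgroupOf (Subgroup.centralizer ({d} : Set G))), Cfsg.IsThreeTranspositionClass E ∧ Cfsg.IsOfTypeM22 _ E) (hinvol : ∃ d' : ↥(Subgroup.centralizer ({d} : Set G)) ⧸ (Subgroup.zpowers d).subgroupOf (Subgroup.centralizer ({d} : Set G)), orderOf d' = 2 ∧ Cfsg.IsQuasisimple ↥(Subgroup.centralizer ({d'} : Set _)) ∧ (∃ (K : Type) (_ : Field K) (_ : Fintype K), Fintype.card K = 4 ∧ ∃ _ : ((Subgroup.zpowers d').subgroupOf (Subgroup.centralizer ({d'} : Set _))).Normal, Nonempty (↥(Subgroup.centralizer ({d'} : Set _)) ⧸ (Subgroup.zpowers d').subgroupOf (Subgroup.centralizer ({d'} : Set _)) ≃* Cfsg.PSU 6 K 2)) ∧ ∃ g, g * d' * g⁻¹ ∈ Subgroup.centralizer ({d'} : Set _) ∧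 g * d' * g⁻¹ ≠ d') (hnwc : ∃ g : G, g * d * g⁻¹ ∈ Subgroup.centralizer ({d} : Set G) ∧ g * d * g⁻¹ ≠ d) (S : Sylow 2 ↥(Subgroup.centralizer ({d} : Set G))) (A : Subgroup G) (hA : A = (Cfsg.thompsonSubgroupOf 2 (S : Subgroup ↥(Subgroup.centralizer ({d} : Set G)))).map (Subgroup.centralizer ({d} : Set G)).subtype) : Cfsg.IsElementaryAbelian 2 A ∧ Nat.card A = 2 ^ 11 ∧ Set.ncard {x : G | x ∈ A ∧ IsConj d x} = 23 ∧ ∀ x ∈ A, ∀ y ∈ A, IsConj d x → IsConj d y → ∃ n ∈ Subgroup.normalizer (A : Set G), n * x * n⁻¹ = y := by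
  exact main d hd _ rfl hq htype hnwc S A hA

end Cfsg.Agent.S5455
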