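import Cfsg.Statements.S5456
import Cfsg.Agent.Lib.H92.M22
import Cfsg.Agent.Lib.H92.Uniq
import Cfsg.Agent.Lib.H92.TypeNum
import Cfsg.Agent.Lib.H92.Setup

set_option autoImplicit false
open Cfsg

namespace Cfsg.Agent.S5456

/-- Let G be a finite group with trivial centre generated by a conjugation-invariant set D of 3-transpositions on which it acts primitively, of type M(22), and suppose G also has an involution whose centralizer is quasisimple with quotient by it the projective special unitary group of dimension 6 over the field with four elements and which is not weakly closed in that centralizer. Then D is the only conjugacy class of 3-transpositions generating G. -/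
theorem result {G : Type*} [Group G] [Finite G] {D : Set G} (hD : Cfsg.IsThreeTranspositionGroup D) (hprim : Cfsg.IsPrimitiveUnderConj D) (h22 : Cfsg.IsOfTypeM22 G D) (hM : ∃ d : G, orderOf d = 2 ∧ Cfsg.IsQuasisimple ↥(Subgroup.centralizer ({d} : Set G)) ∧ (∃ (_ : ((Subgroup.zpowers d).subgroupOf (Subgroup.centralizer ({d} : Set G))).Normal) (K : Type) (_ : Field K) (_ : Fintype K), Fintype.card K = 4 ∧ Nonempty (↥(Subgroup.centralizer ({d} : Set G)) ⧸ (Subgroup.zpowers d).subgroupOf (Subgroup.centralizer ({d} : Set G)) ≃* Cfsg.PSU 6 K 2)) ∧ ∃ g : G, g * d * g⁻¹ ∈ Subgroup.centralizer ({d} : Set G) ∧ g * d * g⁻¹ ≠ d) (D' : Set G) (hD' : Cfsg.IsThreeTranspositionClass D') : D' = D := by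
  have h1D := H92.Setup.one_notMem hD
  have htri := H92.Setup.tri_of_group hD
  obtain ⟨hLG, hcard⟩ := H92.TypeNum.card22 htri h1D hD.2.2 h22
  refine H92.Uniq.uniq hLG hD.2.1 3 (by norm_num) ?_ D' hD'
  intro x hx
  have hxx : x * x = 1 := by rw [← pow_two, ← hx, pow_orderOf_eq_one]
  obtain ⟨l, a1, a2, a3, a4, a5⟩ := H92.M22.inv_one hLG hcard hD.2.2 h22.1 hxx
  refine ⟨l, a1, ?_, a2, a3, a4, a5⟩
  by_contra h0
  have hl : l = [] := List.length_eq_zero_iff.1 (by omega)
  rw [hl, List.prod_nil] at a5
  rw [← a5, orderOf_one] at hx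
  exact absurd hx (by norm_num)

end Cfsg.Agent.S5456
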