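import Cfsg.Statements.S5459

set_option autoImplicit false
open Cfsg

namespace Cfsg.Agent.S5459

theorem mem_conj_iff {G : Type*} [Group G] {a b : G} : a ∈ conjugatesOf b ↔ IsConj b a := Iff.rfl

theorem adj_iff {G : Type*} [Group G] (D : Set G) (a b : D) :
    (Cfsg.commutingGraph D).Adj a b ↔ a ≠ b ∧ Commute (a : G) (b : G) := by
  unfold Cfsg.commutingGraph
  rw [SimpleGraph.fromRel_adj]
  constructor
  · rintro ⟨h, h' | h'⟩
    · exact ⟨h, h'⟩
    · exact ⟨h, h'.symm⟩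
  · rintro ⟨h, h'⟩
    exact ⟨h, Or.inl h'⟩

/-- Let G be a finite group with a quasisimple normal subgroup L and an involution d such that G is generated by L and d, the centre of L has odd order, and d inverts every element of the centre of L. If the commuting graph on the conjugacy class of the image of d in G modulo the centre of L is connected, then the commuting graph on the conjugacy class of d is connected. -/
theorem result {G : Type*} [Group G] [Finite G] (L : Subgroup G) [L.Normal] (hL : Cfsg.IsQuasisimple ↥L) (d : G) (hd : orderOf d = 2) (hgen : L ⊔ Subgroup.zpowers d = ⊤) (hodd : Odd (Nat.card ↥(Subgroup.center ↥L))) (hinv : ∀ c ∈ (Subgroup.center ↥L).map L.subtype, d * c * d⁻¹ = c⁻¹) [hn : ((Subgroup.center ↥L).map L.subtype).Normal] (hconn : (Cfsg.commutingGraph (conjugatesOf (QuotientGroup.mk d : G ⧸ (Subgroup.center ↥L).map L.subtype))).Connected) : (Cfsg.commutingGraph (conjugatesOf d)).Connected := by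
  set Z : Subgroup G := (Subgroup.center ↥L).map L.subtype with hZ
  set D : Set G := conjugatesOf d with hD
  have hcard : Nat.card Z = Nat.card (Subgroup.center ↥L) :=
    (Nat.card_congr ((Subgroup.center L).equivMapOfInjective L.subtype L.subtype_injective).toEquiv).symm
  obtain ⟨k, hk⟩ := hodd
  rw [← hcard] at hk
  have hpowZ : ∀ c ∈ Z, c ^ (2 * k + 1) = 1 := by
    intro c hc
    have h1 : (⟨c, hc⟩ : Z) ^ Nat.card Z = 1 := pow_card_eq_one'
    rw [hk] at h1
    exact congrArg Subtype.val h1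
  have hZL : ∀ c ∈ Z, ∀ l ∈ L, c * l = l * c := by
    rintro c ⟨y, hy, rfl⟩ l hl
    exact (congrArg Subtype.val (Subgroup.mem_center_iff.1 hy ⟨l, hl⟩)).symm
  have hZleL : Z ≤ L := by
    rintro c ⟨y, -, rfl⟩
    exact y.2
  have hdd : d * d = 1 := by
    have : d ^ 2 = 1 := by rw [← hd]; exact pow_orderOf_eq_one d
    rw [← pow_two]; exact this
  have hdi : d⁻¹ = d := inv_eq_of_mul_eq_one_left hdd
  -- every conjugate of d inverts Z
  have hact : ∀ g : G, (∀ c ∈ Z, g * c * g⁻¹ = c) ∨ (∀ c ∈ Z, g * c * g⁻¹ = c⁻¹) := by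
    intro g
    have hg : g ∈ L ⊔ Subgroup.zpowers d := by rw [hgen]; trivial
    rw [Subgroup.mem_sup_of_normal_left] at hg
    obtain ⟨l, hl, y, hy, rfl⟩ := hg
    have hyc : (∀ c ∈ Z, y * c * y⁻¹ = c) ∨ (∀ c ∈ Z, y * c * y⁻¹ = c⁻¹) := by
      obtain ⟨n, rfl⟩ := Subgroup.mem_zpowers_iff.1 hy
      have hd2 : d ^ (2 : ℤ) = 1 := by
        rw [show (2 : ℤ) = ((2 : ℕ) : ℤ) by norm_num, zpow_natCast, pow_two]; exact hdd
      rcases Int.even_or_odd' n with ⟨m, hm | hm⟩
      · left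
        intro c _
        rw [hm, zpow_mul, hd2, one_zpow]; simp
      · right
        intro c hc
        rw [hm, zpow_add, zpow_mul, hd2, one_zpow, one_mul, zpow_one]
        exact hinv c hc
    have hlc : ∀ c ∈ Z, l * c * l⁻¹ = c := by
      intro c hc
      rw [← hZL c hc l hl]; group
    rcases hyc with h | h
    · left
      intro c hc
      calc l * y * c * (l * y)⁻¹ = l * (y * c * y⁻¹) * l⁻¹ := by group
        _ = c := by rw [h c hc, hlc c hc]
    · right
      intro c hc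
      calc l * y * c * (l * y)⁻¹ = l * (y * c * y⁻¹) * l⁻¹ := by group
        _ = c⁻¹ := by rw [h c hc, hlc _ (Z.inv_mem hc)]
  have hDinv : ∀ x ∈ D, ∀ c ∈ Z, x * c * x⁻¹ = c⁻¹ := by
    intro x hx c hc
    obtain ⟨g, rfl⟩ := isConj_iff.1 (mem_conj_iff.1 hx)
    have e : g * d * g⁻¹ * c * (g * d * g⁻¹)⁻¹ = g * (d * (g⁻¹ * c * g) * d⁻¹) * g⁻¹ := by group
    rw [e]
    have hgc : g⁻¹ * c * g ∈ Z := by simpa using hn.conj_mem c hc g⁻¹
    rw [hinv _ hgc]; group
  have hDD : ∀ x ∈ D, x * x = 1 := by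
    intro x hx
    obtain ⟨g, rfl⟩ := isConj_iff.1 (mem_conj_iff.1 hx)
    calc g * d * g⁻¹ * (g * d * g⁻¹) = g * (d * d) * g⁻¹ := by group
      _ = 1 := by rw [hdd]; group
  have hDconj : ∀ g : G, ∀ x ∈ D, g * x * g⁻¹ ∈ D := by
    intro g x hx
    rw [hD, mem_conj_iff] at hx ⊢
    exact hx.trans (isConj_iff.2 ⟨g, rfl⟩)
  -- conjugating x by Z gives all of x Z
  have hfib : ∀ x ∈ D, ∀ e ∈ Z, ∃ f ∈ Z, f * x * f⁻¹ = x * e := by
    intro x hx e he
    refine ⟨(e ^ (k + 1))⁻¹, Z.inv_mem (Z.pow_mem he _), ?_⟩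
    have h1 : x * (e ^ (k + 1)) * x⁻¹ = (e ^ (k + 1))⁻¹ := hDinv x hx _ (Z.pow_mem he _)
    calc (e ^ (k + 1))⁻¹ * x * ((e ^ (k + 1))⁻¹)⁻¹ = (x * (e ^ (k + 1)) * x⁻¹) * x * ((e ^ (k + 1))⁻¹)⁻¹ := by rw [h1]
      _ = x * (e ^ (k + 1) * e ^ (k + 1)) := by group
      _ = x * e := by
        rw [← pow_add]
        have : k + 1 + (k + 1) = (2 * k + 1) + 1 := by ring
        rw [this, pow_succ, hpowZ e he, one_mul]
  -- conjugation preserves reachability
  have hreach_conj : ∀ (g : G) (x y : D), (Cfsg.commutingGraph D).Reachable x y →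
      (Cfsg.commutingGraph D).Reachable ⟨g * x * g⁻¹, hDconj g x x.2⟩ ⟨g * y * g⁻¹, hDconj g y y.2⟩ := by
    intro g x y h
    let f : Cfsg.commutingGraph D →g Cfsg.commutingGraph D :=
      { toFun := fun x => ⟨g * x * g⁻¹, hDconj g x x.2⟩
        map_rel' := by
          intro a b hab
          rw [adj_iff] at hab ⊢
          refine ⟨?_, ?_⟩
          · intro h
            apply hab.1
            have h1 := congrArg Subtype.val h
            simp only at h1
            apply Subtype.ext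
            exact mul_left_cancel (mul_right_cancel h1)
          · show g * (a : G) * g⁻¹ * (g * b * g⁻¹) = g * b * g⁻¹ * (g * a * g⁻¹)
            have h2 : (a : G) * b = b * a := hab.2
            calc g * (a : G) * g⁻¹ * (g * b * g⁻¹) = g * (a * b) * g⁻¹ := by group
              _ = g * (b * a) * g⁻¹ := by rw [h2]
              _ = _ := by group }
    exact h.map f
  have hdD : d ∈ D := mem_conjugatesOf_self
  -- path lifting
  have hlift : ∀ (xb yb : conjugatesOf (QuotientGroup.mk d : G ⧸ Z)), (Cfsg.commutingGraph (conjugatesOf (QuotientGroup.mk d : G ⧸ Z))).Reachable xb yb →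
      ∀ x : D, (QuotientGroup.mk (x : G) : G ⧸ Z) = xb → ∃ y : D, (QuotientGroup.mk (y : G) : G ⧸ Z) = yb ∧ (Cfsg.commutingGraph D).Reachable x y := by
    intro xb yb ⟨w⟩
    induction w with
    | nil => intro x hx; exact ⟨x, hx, SimpleGraph.Reachable.refl _⟩
    | @cons u v w hadj p ih =>
      intro x hx
      rw [adj_iff] at hadj
      obtain ⟨hne, hcomm⟩ := hadj
      -- lift of v
      obtain ⟨gb, hgb⟩ := isConj_iff.1 (mem_conj_iff.1 v.2)
      obtain ⟨g, rfl⟩ := QuotientGroup.mk_surjective gb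
      set y : G := g * d * g⁻¹ with hy
      have hyD : y ∈ D := hDconj g d hdD
      have hyv : (QuotientGroup.mk y : G ⧸ Z) = v := by
        rw [← hgb]; rfl
      have hxD := x.2
      -- commutator in Z
      have hc : ((x : G) * y) * (x * y) ∈ Z := by
        rw [← QuotientGroup.eq_one_iff]
        have h1 : (QuotientGroup.mk ((x : G) * y * (x * y)) : G ⧸ Z) = (u : G ⧸ Z) * v * (u * v) := by
          rw [← hx, ← hyv]; rfl
        rw [h1]
        have h2 : (u : G ⧸ Z) * v = v * u := hcomm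
        have hu2 : (u : G ⧸ Z) * u = 1 := by
          rw [← hx]
          have := congrArg (QuotientGroup.mk : G → G ⧸ Z) (hDD x hxD)
          exact this
        have hv2 : (v : G ⧸ Z) * v = 1 := by
          rw [← hyv]
          have := congrArg (QuotientGroup.mk : G → G ⧸ Z) (hDD y hyD)
          exact this
        calc (u : G ⧸ Z) * v * (u * v) = (v * u) * (u * v) := by rw [h2]
          _ = v * (u * u) * v := by group
          _ = 1 := by rw [hu2, mul_one, hv2]
      set c : G := ((x : G) * y) * (x * y) with hcdef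
      set e : G := c ^ k with he
      have heZ : e ∈ Z := Z.pow_mem hc k
      have he2 : c * (e * e) = 1 := by
        rw [he, ← pow_add, ← pow_succ']
        have : k + k + 1 = 2 * k + 1 := by ring
        rw [this]; exact hpowZ c hc
      obtain ⟨f, hfZ, hf⟩ := hfib y hyD e heZ
      have hyeD : y * e ∈ D := by rw [← hf]; exact hDconj f y hyD
      have hxye : (x : G) * (y * e) * (x * (y * e)) = 1 := by
        have hy' := hDinv y hyD e heZ
        have hx' := hDinv x hxD e⁻¹ (Z.inv_mem heZ)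
        rw [inv_inv] at hx'
        -- e commutes with x*y
        have h3 : (x : G) * y * e = e * (x * y) := by
          calc (x : G) * y * e = x * (y * e * y⁻¹) * y := by group
            _ = x * e⁻¹ * y := by rw [hy']
            _ = (x * e⁻¹ * (x : G)⁻¹) * (x * y) := by group
            _ = e * (x * y) := by rw [hx']
        calc (x : G) * (y * e) * (x * (y * e)) = (x * y) * (e * (x * y)) * e := by group
          _ = (x * y) * ((x * y) * e) * e := by rw [h3]
          _ = c * (e * e) := by rw [hcdef]; group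
          _ = 1 := he2
      have hcomm' : Commute (x : G) (y * e) := by
        have h1 := hDD x hxD
        have h2 := hDD _ hyeD
        have h4 : (x : G) * (y * e) = (x * (y * e))⁻¹ := eq_inv_of_mul_eq_one_left hxye
        rw [mul_inv_rev, inv_eq_of_mul_eq_one_left h1, inv_eq_of_mul_eq_one_left h2] at h4
        exact h4
      have hyev : (QuotientGroup.mk (y * e) : G ⧸ Z) = v := by
        rw [← hyv]
        rw [eq_comm, QuotientGroup.eq]
        simpa using heZ
      obtain ⟨y', hy', hr⟩ := ih ⟨y * e, hyeD⟩ hyev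
      refine ⟨y', hy', ?_⟩
      have hadj' : (Cfsg.commutingGraph D).Adj x ⟨y * e, hyeD⟩ := by
        rw [adj_iff]
        refine ⟨?_, hcomm'⟩
        intro h
        apply hne
        apply Subtype.ext
        rw [← hx, ← hyev]
        exact congrArg (QuotientGroup.mk : G → G ⧸ Z) (congrArg Subtype.val h)
      exact hadj'.reachable.trans hr
  -- the stabilizer N
  let N : Subgroup G :=
    { carrier := {g | (Cfsg.commutingGraph D).Reachable ⟨d, hdD⟩ ⟨g * d * g⁻¹, hDconj g d hdD⟩}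
      mul_mem' := by
        intro a b ha hb
        have h1 := hreach_conj a _ _ hb
        have h2 := SimpleGraph.Reachable.trans (ha : (Cfsg.commutingGraph D).Reachable _ _) h1
        have e : (⟨a * (b * d * b⁻¹) * a⁻¹, hDconj a _ (hDconj b d hdD)⟩ : D) = ⟨(a * b) * d * (a * b)⁻¹, hDconj (a * b) d hdD⟩ := by
          apply Subtype.ext
          show a * (b * d * b⁻¹) * a⁻¹ = (a * b) * d * (a * b)⁻¹
          group
        show (Cfsg.commutingGraph D).Reachable _ _
        rw [← e]; exact h2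
      one_mem' := by
        show (Cfsg.commutingGraph D).Reachable _ _
        have e : (⟨1 * d * 1⁻¹, hDconj 1 d hdD⟩ : D) = ⟨d, hdD⟩ := by
          apply Subtype.ext; simp
        rw [e]
      inv_mem' := by
        intro a ha
        have h1 := hreach_conj a⁻¹ _ _ ha
        have e : (⟨a⁻¹ * (a * d * a⁻¹) * a⁻¹⁻¹, hDconj a⁻¹ _ (hDconj a d hdD)⟩ : D) = ⟨d, hdD⟩ := by
          apply Subtype.ext
          show a⁻¹ * (a * d * a⁻¹) * a⁻¹⁻¹ = d
          group
        have h2 : (Cfsg.commutingGraph D).Reachable ⟨a⁻¹ * d * a⁻¹⁻¹, hDconj a⁻¹ d hdD⟩ ⟨d, hdD⟩ := by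
          rw [← e]; exact h1
        exact h2.symm }
  have hNmem : ∀ g : G, g ∈ N ↔ (Cfsg.commutingGraph D).Reachable ⟨d, hdD⟩ ⟨g * d * g⁻¹, hDconj g d hdD⟩ := fun g => Iff.rfl
  have hcentN : ∀ g : G, g * d = d * g → g ∈ N := by
    intro g hg
    rw [hNmem]
    have e : (⟨g * d * g⁻¹, hDconj g d hdD⟩ : D) = ⟨d, hdD⟩ := by
      apply Subtype.ext
      show g * d * g⁻¹ = d
      rw [hg]; group
    rw [e]
  have hZN : ∀ g : G, ∃ f ∈ Z, ∃ n ∈ N, g = f * n := by
    intro g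
    have hgq : (QuotientGroup.mk (g * d * g⁻¹) : G ⧸ Z) ∈ conjugatesOf (QuotientGroup.mk d : G ⧸ Z) := by
      rw [mem_conj_iff]
      exact isConj_iff.2 ⟨QuotientGroup.mk g, rfl⟩
    have hdq : (QuotientGroup.mk d : G ⧸ Z) ∈ conjugatesOf (QuotientGroup.mk d : G ⧸ Z) := mem_conjugatesOf_self
    obtain ⟨y, hy, hr⟩ := hlift ⟨_, hdq⟩ ⟨_, hgq⟩ (hconn.preconnected _ _) ⟨d, hdD⟩ rfl
    obtain ⟨h, hh⟩ := isConj_iff.1 (mem_conj_iff.1 y.2)
    have hhN : h ∈ N := by
      rw [hNmem]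
      have e : (⟨h * d * h⁻¹, hDconj h d hdD⟩ : D) = y := Subtype.ext hh
      rw [e]; exact hr
    have hye : (y : G)⁻¹ * (g * d * g⁻¹) ∈ Z := by
      rw [← QuotientGroup.eq]; exact hy
    obtain ⟨f, hf, hf2⟩ := hfib y y.2 _ hye
    have hf3 : f * (h * d * h⁻¹) * f⁻¹ = g * d * g⁻¹ := by
      rw [hh, hf2]; group
    have hm : h⁻¹ * f⁻¹ * g ∈ N := by
      apply hcentN
      calc h⁻¹ * f⁻¹ * g * d = h⁻¹ * f⁻¹ * (g * d * g⁻¹) * g := by group
        _ = h⁻¹ * f⁻¹ * (f * (h * d * h⁻¹) * f⁻¹) * g := by rw [hf3]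
        _ = d * (h⁻¹ * f⁻¹ * g) := by group
    refine ⟨f, hf, h * (h⁻¹ * f⁻¹ * g), N.mul_mem hhN hm, by group⟩
  have hLN : L ≤ N := by
    have hperf : ⁅L, L⁆ = L := Subgroup.isPerfect_iff.1 hL.1
    rw [← hperf, Subgroup.commutator_le]
    intro a ha b hb
    obtain ⟨f₁, hf₁, n₁, hn₁, rfl⟩ := hZN a
    obtain ⟨f₂, hf₂, n₂, hn₂, rfl⟩ := hZN b
    have hn₁L : n₁ ∈ L := by
      have := L.mul_mem (L.inv_mem (hZleL hf₁)) ha
      simpa using this
    have hn₂L : n₂ ∈ L := by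
      have := L.mul_mem (L.inv_mem (hZleL hf₂)) hb
      simpa using this
    have c1 := hZL f₁ hf₁ n₁ hn₁L
    have c2 := hZL f₁ hf₁ n₂ hn₂L
    have c3 := hZL f₂ hf₂ n₁ hn₁L
    have c4 := hZL f₂ hf₂ n₂ hn₂L
    have c5 := hZL f₁ hf₁ f₂ (hZleL hf₂)
    have : f₁ * n₁ * (f₂ * n₂) * (f₁ * n₁)⁻¹ * (f₂ * n₂)⁻¹ = n₁ * n₂ * n₁⁻¹ * n₂⁻¹ := by
      calc f₁ * n₁ * (f₂ * n₂) * (f₁ * n₁)⁻¹ * (f₂ * n₂)⁻¹
          = f₁ * (n₁ * f₂) * n₂ * n₁⁻¹ * f₁⁻¹ * n₂⁻¹ * f₂⁻¹ := by group
        _ = f₁ * (f₂ * n₁) * n₂ * n₁⁻¹ * f₁⁻¹ * n₂⁻¹ * f₂⁻¹ := by rw [c3]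
        _ = (f₁ * (f₂ * (n₁ * n₂ * n₁⁻¹))) * f₁⁻¹ * n₂⁻¹ * f₂⁻¹ := by group
        _ = ((f₂ * (n₁ * n₂ * n₁⁻¹)) * f₁) * f₁⁻¹ * n₂⁻¹ * f₂⁻¹ := by
            rw [hZL f₁ hf₁ _ (L.mul_mem (hZleL hf₂) (L.mul_mem (L.mul_mem hn₁L hn₂L) (L.inv_mem hn₁L)))]
        _ = f₂ * (n₁ * n₂ * n₁⁻¹ * n₂⁻¹) * f₂⁻¹ := by group
        _ = (n₁ * n₂ * n₁⁻¹ * n₂⁻¹) * f₂ * f₂⁻¹ := by
            rw [hZL f₂ hf₂ _ (L.mul_mem (L.mul_mem (L.mul_mem hn₁L hn₂L) (L.inv_mem hn₁L)) (L.inv_mem hn₂L))]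
        _ = n₁ * n₂ * n₁⁻¹ * n₂⁻¹ := by group
    rw [commutatorElement_def, this]
    exact N.mul_mem (N.mul_mem (N.mul_mem hn₁ hn₂) (N.inv_mem hn₁)) (N.inv_mem hn₂)
  have hNtop : N = ⊤ := by
    rw [eq_top_iff, ← hgen]
    apply sup_le hLN
    rw [Subgroup.zpowers_le]
    exact hcentN d rfl
  have hreach : ∀ x : D, (Cfsg.commutingGraph D).Reachable ⟨d, hdD⟩ x := by
    intro x
    obtain ⟨g, hg⟩ := isConj_iff.1 (mem_conj_iff.1 x.2)
    have h1 : g ∈ N := by rw [hNtop]; trivial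
    rw [hNmem] at h1
    have e : (⟨g * d * g⁻¹, hDconj g d hdD⟩ : D) = x := Subtype.ext hg
    rw [e] at h1
    exact h1
  have : Nonempty D := ⟨⟨d, hdD⟩⟩
  exact ⟨fun x y => (hreach x).symm.trans (hreach y)⟩

end Cfsg.Agent.S5459
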