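import Cfsg.Statements.S5462
import Cfsg.Agent.Lib.H92.M22
import Cfsg.Agent.Lib.H92.Aut
import Cfsg.Agent.Lib.H92.TypeNum
import Cfsg.Agent.Lib.H92.Setup

set_option autoImplicit false
open Cfsg

namespace Cfsg.Agent.S5462

/-- Let G be a finite group with trivial centre generated by a conjugation-invariant set D of 3-transpositions on which it acts primitively, such that for some d in D the subgroup generated by the members of D other than d commuting with d has central largest normal 2- and 3-subgroups, and suppose G with D is of type M(22). Then every automorphism of G of order 2 fixes some member of D. -/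
theorem result {G : Type*} [Group G] [Finite G] {D : Set G} (hD : Cfsg.IsThreeTranspositionGroup D) (hprim : Cfsg.IsPrimitiveUnderConj D) (d₀ : G) (hd₀ : d₀ ∈ D) (h3 : Cfsg.pCore 3 ↥(Subgroup.closure {y : G | y ∈ D ∧ y ≠ d₀ ∧ Commute d₀ y}) ≤ Subgroup.center ↥(Subgroup.closure {y : G | y ∈ D ∧ y ≠ d₀ ∧ Commute d₀ y})) (h2 : Cfsg.pCore 2 ↥(Subgroup.closure {y : G | y ∈ D ∧ y ≠ d₀ ∧ Commute d₀ y}) ≤ Subgroup.center ↥(Subgroup.closure {y : G | y ∈ D ∧ y ≠ d₀ ∧ Commute d₀ y})) (h22 : Cfsg.IsOfTypeM22 G D) (φ : MulAut G) (hφ : orderOf φ = 2) : ∃ d ∈ D, φ d = d := by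
  have h1D := H92.Setup.one_notMem hD
  have htri := H92.Setup.tri_of_group hD
  obtain ⟨hLG, hcard⟩ := H92.TypeNum.card22 htri h1D hD.2.2 h22
  refine H92.AutC.aut_fix_one hLG hcard h22.1 (H92.AutC.aut_stable hLG hD 3 (by norm_num) ?_) φ ?_
  · intro x hx
    have hxx : x * x = 1 := by rw [← pow_two, ← hx, pow_orderOf_eq_one]
    obtain ⟨l, a1, a2, a3, a4, a5⟩ := H92.M22.inv_one hLG hcard hD.2.2 h22.1 hxx
    refine ⟨l, a1, ?_, a2, a3, a4, a5⟩
    by_contra h0
    have hl : l = [] := List.length_eq_zero_iff.1 (by omega)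
    rw [hl, List.prod_nil] at a5
    rw [← a5, orderOf_one] at hx
    exact absurd hx (by norm_num)
  · rw [← pow_two, ← hφ, pow_orderOf_eq_one]

end Cfsg.Agent.S5462
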