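import Cfsg.Statements.S5465
import Cfsg.Agent.Lib.H92.Cover4

set_option autoImplicit false
open Cfsg

namespace Cfsg.Agent.S5465

/-- Let G be a finite group with trivial centre generated by a conjugation-invariant set D of 3-transpositions on which it acts primitively, such that for some d in D the subgroup generated by the members of D other than d commuting with d has central largest normal 2- and 3-subgroups, and suppose G with D is of type M(24), and let L be the commutator subgroup of G. Let d₁, d₂ be distinct commuting members of D and j = d₁ d₂. Then K, the joint centralizer of d₁ and d₂ in L, is quasisimple, is the generalized Fitting subgroup of the centralizer of j in L, has index 2 in it and contains j, and the centralizer of j in L modulo the subgroup generated by j is isomorphic to the full automorphism group of the Fischer group Fi₂₂ (as presented). -/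
theorem result {G : Type*} [Group G] [Finite G] {D : Set G} (hD : Cfsg.IsThreeTranspositionGroup D) (hprim : Cfsg.IsPrimitiveUnderConj D) (d₀ : G) (hd₀ : d₀ ∈ D) (h3 : Cfsg.pCore 3 ↥(Subgroup.closure {y : G | y ∈ D ∧ y ≠ d₀ ∧ Commute d₀ y}) ≤ Subgroup.center ↥(Subgroup.closure {y : G | y ∈ D ∧ y ≠ d₀ ∧ Commute d₀ y})) (h2 : Cfsg.pCore 2 ↥(Subgroup.closure {y : G | y ∈ D ∧ y ≠ d₀ ∧ Commute d₀ y}) ≤ Subgroup.center ↥(Subgroup.closure {y : G | y ∈ D ∧ y ≠ d₀ ∧ Commute d₀ y})) (h24 : Cfsg.IsOfTypeM24 G D) (L : Subgroup G) (hL : L = commutator G) (d₁ d₂ : G) (h₁ : d₁ ∈ D) (h₂ : d₂ ∈ D) (hne : d₁ ≠ d₂) (hc : Commute d₁ d₂) (K CL : Subgroup G) (hK : K = L ⊓ Subgroup.centralizer ({d₁, d₂} : Set G)) (hCL : CL = L ⊓ Subgroup.centralizer ({d₁ * d₂} : Set G)) [hn : ((Subgroup.zpowers (d₁ * d₂)).subgroupOf CL).Normal] : Cfsg.IsQuasisimple ↥K ∧ K = (Cfsg.generalizedFittingSubgroup ↥CL).map CL.subtype ∧ K ≤ CL ∧ (K.subgroupOf CL).index = 2 ∧ d₁ * d₂ ∈ K ∧ Nonempty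 (↥CL ⧸ (Subgroup.zpowers (d₁ * d₂)).subgroupOf CL ≃* MulAut Cfsg.Spor.Fi22) := by
  have h24' := h24
  obtain ⟨H, φ, hφ⟩ := H92.Cover.hyp24_of_type hD hprim h24
  have hd2 : d₂ ∈ H92.Tri.C D d₁ := ⟨h₂, hne.symm, hc⟩
  subst hL hK hCL
  obtain ⟨e⟩ := H92.Cover.iso22 H φ hφ h₁ hd2
  have hfin22 : Finite Cfsg.Spor.Fi22 := H35.Fi22Main.fin
  refine ⟨?_, H92.Cover.gfit H h₁ hd2, H92.Cover.K_le_CL, H92.Cover.index_K H h₁ hd2, ?_,
    (H92.Cover.iso H h₁ hd2 e (H92.Expl24.mulAut_le H92.Expl22.card_out_le)).2⟩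
  · rw [H92.Cover.K_eq H h₁ hd2]
    exact H92.Cover.quasi H h₁ hd2
  · rw [H92.Cover.K_eq H h₁ hd2]
    exact (H92.Cover.mem_E1 H h₁ hd2).2.2

end Cfsg.Agent.S5465
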