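import Cfsg.Statements.S5468
import Cfsg.Agent.Lib.H92.M23b

set_option autoImplicit false
open Cfsg

namespace Cfsg.Agent.S5468

/-- Let G be a finite group with trivial centre generated by a conjugation-invariant set D of 3-transpositions on which it acts primitively, such that for some d in D the subgroup generated by the members of D other than d commuting with d has central largest normal 2- and 3-subgroups, and suppose G with D is of type M(23). Let d₁, d₂ be distinct commuting members of D, j = d₁ d₂, K the joint centralizer of d₁ and d₂ and C the centralizer of j. Then K has index 2 in C, the centre of K is the subgroup generated by d₁ and d₂, K is quasisimple with K modulo its centre isomorphic to the projective special unitary group of dimension 6 over the field with four elements, and C modulo the subgroup generated by d₁ and d₂ has trivial centre (so it is that unitary group extended by an outer involution). -/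
theorem result {G : Type*} [Group G] [Finite G] {D : Set G} (hD : Cfsg.IsThreeTranspositionGroup D) (hprim : Cfsg.IsPrimitiveUnderConj D) (d₀ : G) (hd₀ : d₀ ∈ D) (h3 : Cfsg.pCore 3 ↥(Subgroup.closure {y : G | y ∈ D ∧ y ≠ d₀ ∧ Commute d₀ y}) ≤ Subgroup.center ↥(Subgroup.closure {y : G | y ∈ D ∧ y ≠ d₀ ∧ Commute d₀ y})) (h2 : Cfsg.pCore 2 ↥(Subgroup.closure {y : G | y ∈ D ∧ y ≠ d₀ ∧ Commute d₀ y}) ≤ Subgroup.center ↥(Subgroup.closure {y : G | y ∈ D ∧ y ≠ d₀ ∧ Commute d₀ y})) (h23 : Cfsg.IsOfTypeM23 G D) (d₁ d₂ : G) (h₁ : d₁ ∈ D) (h₂ : d₂ ∈ D) (hne : d₁ ≠ d₂) (hc : Commute d₁ d₂) (K C V : Subgroup G) (hK : K = Subgroup.centralizer ({d₁, d₂} : Set G)) (hC : C = Subgroup.centralizer ({d₁ * d₂} : Set G)) (hV : V = Subgroup.closure ({d₁, d₂} : Set G)) [hn : (V.subgroupOf C).Normal] : K ≤ C ∧ (K.subgroupOf C).index = 2 ∧ (Subgroup.center ↥K).map K.subtype = V ∧ Cfsg.IsQuasisimple ↥K ∧ (∃ (F : Type) (_ : Field F) (_ : Fintype F), Fintype.card F = 4 ∧ Nonempty (↥K ⧸ Subgroup.center ↥K ≃* Cfsg.PSU 6 F 2)) ∧ Subgroup.center (↥C ⧸ V.subgroupOf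 C) = ⊥ := by
  have h1D := H92.Setup.one_notMem hD
  have hlev := H92.Setup.lev23 hD h23
  have hLG := H92.LGAll.lg_two hlev
  have ht := hlev.tri
  have hd2 : d₂ ∈ H92.Tri.C D d₁ := ⟨h₂, hne.symm, hc⟩
  have hcen := H92.QS.central_one hD.2.2 h23.1
  have hKF : K = Subgroup.closure (H92.Tri.C (H92.Tri.C D d₁) d₂) := by
    rw [hK, H92.M23.K_eq hLG hD.2.2 h23.1 h₁ hd2]
    ext x
    rw [Subgroup.mem_centralizer_iff, Subgroup.mem_inf, Subgroup.mem_centralizer_singleton_iff, Subgroup.mem_centralizer_singleton_iff]
    constructor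
    · intro h
      exact ⟨(h d₁ (by simp)).symm, (h d₂ (by simp)).symm⟩
    · rintro ⟨h1, h2⟩ y (rfl | hy)
      · exact h1.symm
      · rw [Set.mem_singleton_iff.1 hy]; exact h2.symm
  have hVset : (V : Set G) = {1, d₁, d₂, d₁ * d₂} := by
    have h1 := H92.M23.center_set hLG hD.2.2 h23.1 h₁ hd2
    rw [← h1]
    have h2 : V = (Subgroup.center ↥(Subgroup.closure (H92.Tri.C (H92.Tri.C D d₁) d₂))).map (Subgroup.subtype _) := by
      rw [hV]
      apply le_antisymm
      · rw [Subgroup.closure_le, h1]
        rintro x (rfl | hx)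
        · simp
        · rw [Set.mem_singleton_iff.1 hx]; simp
      · intro x hx
        have hx' : x ∈ ({1, d₁, d₂, d₁ * d₂} : Set G) := by rw [← h1]; exact hx
        have m1 : d₁ ∈ Subgroup.closure ({d₁, d₂} : Set G) := Subgroup.subset_closure (by simp)
        have m2 : d₂ ∈ Subgroup.closure ({d₁, d₂} : Set G) := Subgroup.subset_closure (by simp)
        rcases hx' with rfl | rfl | rfl | rfl
        · exact Subgroup.one_mem _
        · exact m1
        · exact m2
        · exact Subgroup.mul_mem _ m1 m2
    rw [h2]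
  have hcenK : (Subgroup.center ↥K).map K.subtype = V := by
    apply SetLike.coe_injective
    rw [hVset]
    subst hKF
    exact H92.M23.center_set hLG hD.2.2 h23.1 h₁ hd2
  refine ⟨?_, ?_, hcenK, ?_, ?_, ?_⟩
  · rw [hK, hC]
    intro x hx
    rw [Subgroup.mem_centralizer_iff] at hx
    rw [Subgroup.mem_centralizer_singleton_iff]
    have e1 : Commute x d₁ := (hx d₁ (by simp)).symm
    have e2 : Commute x d₂ := (hx d₂ (by simp)).symm
    exact (e1.mul_right e2)
  · rw [hK, hC]
    exact H92.M23b.index_two hLG hD.2.2 h₁ hd2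
  · subst hKF
    exact H92.M23b.quasi_K hLG hcen h₁ hd2
  · subst hKF
    obtain ⟨hT, F, i1, i2, τ, P⟩ := (hLG.C h₁).C hd2
    exact ⟨F, i1, i2, P.card, H92.PSUEquiv.psu_equiv hT P⟩
  · rw [eq_bot_iff]
    intro q hq
    obtain ⟨c, rfl⟩ := QuotientGroup.mk_surjective q
    rw [Subgroup.mem_center_iff] at hq
    rw [Subgroup.mem_bot, QuotientGroup.eq_one_iff, Subgroup.mem_subgroupOf]
    have hcV : ∀ y ∈ H92.Tri.C (H92.Tri.C D d₁) d₂, Commute (c : G) y := by
      intro y hy
      have hyC : y ∈ C := by
        rw [hC, Subgroup.mem_centralizer_singleton_iff]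
        exact (hy.1.2.2.symm.mul_right hy.2.2.symm)
      have h1 := hq (QuotientGroup.mk ⟨y, hyC⟩)
      rw [← QuotientGroup.mk_mul, ← QuotientGroup.mk_mul, QuotientGroup.eq, Subgroup.mem_subgroupOf] at h1
      have h2 : ((y * (c : G))⁻¹ * ((c : G) * y)) ∈ (V : Set G) := h1
      rw [hVset] at h2
      -- c⁻¹ y⁻¹ c y = v
      have hyD : (c : G)⁻¹ * y * (c : G) ∈ D := by
        have := hD.2.1 (c : G)⁻¹ y hy.1.1
        rwa [inv_inv] at this
      have hyy : y⁻¹ = y := H92.Tri.inv_eq ht hy.1.1
      have c1 : Commute y d₁ := hy.1.2.2.symm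
      have c2 : Commute y d₂ := hy.2.2.symm
      have main : ∀ v : G, (y * (c : G))⁻¹ * ((c : G) * y) = v → (c : G)⁻¹ * y * (c : G) = v * y := by
        intro v hv
        rw [← hv]
        calc (c : G)⁻¹ * y * (c : G) = (c : G)⁻¹ * y⁻¹ * (c : G) := by rw [hyy]
          _ = (c : G)⁻¹ * y⁻¹ * (c : G) * (y * y) := by rw [ht.sq y hy.1.1, mul_one]
          _ = (y * (c : G))⁻¹ * ((c : G) * y) * y := by group
      rcases h2 with h2 | h2 | h2 | h2
      · have h3 := main _ h2
        rw [one_mul] at h3
        show (c : G) * y = y * c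
        calc (c : G) * y = (c : G) * ((c : G)⁻¹ * y * (c : G)) := by rw [h3]
          _ = y * c := by group
      · exfalso
        have h3 := main _ h2
        rw [h3] at hyD
        exact H92.M23b.mul_notMem hlev h₁ hy.1.1 hy.1.2.2 (Ne.symm hy.1.2.1) hyD
      · exfalso
        have h3 := main _ h2
        rw [h3] at hyD
        exact H92.M23b.mul_notMem hlev h₂ hy.1.1 hy.2.2 (Ne.symm hy.2.1) hyD
      · exfalso
        have h3 := main _ h2
        rw [h3] at hyD
        have hcw : Commute y (d₁ * d₂ * y) := (c1.mul_right c2).mul_right (Commute.refl y)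
        have hcd1 : Commute d₁ (d₁ * d₂ * y) := ((Commute.refl d₁).mul_right hc).mul_right c1.symm
        have hcd2 : Commute d₂ (d₁ * d₂ * y) := (hc.symm.mul_right (Commute.refl d₂)).mul_right c2.symm
        have hne' : d₁ * d₂ * y ≠ y := by
          intro e
          have : d₁ * d₂ = 1 := by
            have := mul_eq_right.1 e
            exact this
          have h5 : d₂ = d₁⁻¹ := eq_inv_of_mul_eq_one_right this
          rw [H92.Tri.inv_eq ht h₁] at h5
          exact hne h5.symm
        have h4 := H92.M23b.short_eq hlev [d₁, d₂] [d₁ * d₂ * y, y] (by simp [hne]) (by simp [hne']) (by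
          intro x hx
          simp only [List.mem_cons, List.not_mem_nil, or_false] at hx
          rcases hx with rfl | rfl
          · exact h₁
          · exact h₂) (by
          intro x hx
          simp only [List.mem_cons, List.not_mem_nil, or_false] at hx
          rcases hx with rfl | rfl
          · exact hyD
          · exact hy.1.1) (by
          intro a ha b hb
          simp only [List.cons_append, List.nil_append, List.mem_cons, List.not_mem_nil, or_false] at ha hb
          rcases ha with rfl | rfl | rfl | rfl <;> rcases hb with rfl | rfl | rfl | rfl <;>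
            first | exact Commute.refl _ | exact hc | exact hc.symm | exact c1 | exact c1.symm | exact c2 | exact c2.symm | exact hcw | exact hcw.symm | exact hcd1 | exact hcd1.symm | exact hcd2 | exact hcd2.symm) (by simp) (by
          simp only [List.prod_cons, List.prod_nil, mul_one]
          rw [mul_assoc (d₁ * d₂), ht.sq y hy.1.1, mul_one]) y
        simp only [List.mem_cons, List.not_mem_nil, or_false, or_true, iff_true] at h4
        rcases h4 with h4 | h4
        · exact hy.1.2.1 h4
        · exact hy.2.1 h4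
    have hKm : ∀ x ∈ Subgroup.closure (H92.Tri.C (H92.Tri.C D d₁) d₂), Commute (c : G) x := by
      intro x hx
      exact (H92.Geo.centralizes_of_closure (fun y hy => (hcV y hy).symm) hx).symm
    obtain ⟨m1, m2⟩ := H92.M23.mem_K hLG hcen h₁ hd2
    have := H92.M23.center_K hLG hD.2.2 h23.1 h₁ hd2 hcV (hKm _ m1) (hKm _ m2)
    show (c : G) ∈ (V : Set G)
    rw [hVset]
    exact this

end Cfsg.Agent.S5468
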