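import Cfsg.Statements.S5473
import Cfsg.Agent.Lib.H43.FJl
import Cfsg.Agent.Lib.H91.FYUniq22
import Cfsg.Agent.Lib.H63.OutFi22

set_option autoImplicit false
open Cfsg

namespace Cfsg.Agent.S5473


open H92.Setup H43.FJb H43.FJe H43.FJi H43.FJl
/-- Let G be a finite group with trivial centre generated by a conjugation-invariant set D of 3-transpositions on which it acts primitively, such that for some d in D the subgroup generated by the members of D other than d commuting with d has central largest normal 2- and 3-subgroups, and suppose G with D is of type M(22), and let A be the automorphism group of G. Let d₁, d₂ be distinct commuting members of D and j the inner automorphism of their product. Then the generalized Fitting subgroup Q of the centralizer of j in A is a large extraspecial 2-subgroup of A of order 2^11 (extraspecial; centralizer equal to its centre; normal in the centralizer of its centre; normalizing no non-trivial odd-order subgroup), and the centralizer of j modulo Q is isomorphic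 to the full automorphism group of the projective special unitary group of dimension 4 over the field with four elements. -/
theorem result {G : Type*} [Group G] [Finite G] {D : Set G} (hD : Cfsg.IsThreeTranspositionGroup D) (hprim : Cfsg.IsPrimitiveUnderConj D) (d₀ : G) (hd₀ : d₀ ∈ D) (h3 : Cfsg.pCore 3 ↥(Subgroup.closure {y : G | y ∈ D ∧ y ≠ d₀ ∧ Commute d₀ y}) ≤ Subgroup.center ↥(Subgroup.closure {y : G | y ∈ D ∧ y ≠ d₀ ∧ Commute d₀ y})) (h2 : Cfsg.pCore 2 ↥(Subgroup.closure {y : G | y ∈ D ∧ y ≠ d₀ ∧ Commute d₀ y}) ≤ Subgroup.center ↥(Subgroup.closure {y : G | y ∈ D ∧ y ≠ d₀ ∧ Commute d₀ y})) (h22 : Cfsg.IsOfTypeM22 G D) (d₁ d₂ : G) (h₁ : d₁ ∈ D) (h₂ : d₂ ∈ D) (hne : d₁ ≠ d₂) (hc : Commute d₁ d₂) (j : MulAut G) (hj : j = MulAut.conj (d₁ * d₂)) (Q : Subgroup (MulAut G)) (hQ : Q = (Cfsg.generalizedFittingSubgroup ↥(Subgroup.centralizer ({j} : Set (MulAut G)))).map (Subgroup.centralizer ({j} : Set (MulAut G))).subtype) : Cfsg.IsLargeExtraspecial Q ∧ Nat.card Q = 2 ^ 11 ∧ Q ≤ Subgroup.centralizer ({j}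 : Set (MulAut G)) ∧ ∃ (_ : (Q.subgroupOf (Subgroup.centralizer ({j} : Set (MulAut G)))).Normal) (F : Type) (_ : Field F) (_ : Fintype F), Fintype.card F = 4 ∧ Nonempty (↥(Subgroup.centralizer ({j} : Set (MulAut G))) ⧸ Q.subgroupOf (Subgroup.centralizer ({j} : Set (MulAut G))) ≃* MulAut (Cfsg.PSU 4 F 2)) := by

  have h1D := one_notMem hD
  have htri := tri_of_group hD
  have hcard := H92.TypeNum.card22 htri h1D hD.2.2 h22
  obtain ⟨Fi, _, _, τ, u, v, b, f, X⟩ := exists_dat hcard.1 hcard.2 hD.2.2 h22.1 h1D h₁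
    (show d₂ ∈ H92.Tri.C D d₁ from ⟨h₂, hne.symm, hc⟩)
  have hst : ∀ φ : MulAut G, ∀ d ∈ D, φ d ∈ D := by
    refine H92.AutC.aut_stable hcard.1 hD 3 (by norm_num) ?_
    intro x hx
    have hxx : x * x = 1 := by rw [← pow_two, ← hx, pow_orderOf_eq_one]
    obtain ⟨l, a1, a2, a3, a4, a5⟩ := H92.M22.inv_one hcard.1 hcard.2 hD.2.2 h22.1 hxx
    refine ⟨l, a1, ?_, a2, a3, a4, a5⟩
    by_contra h0
    have hl : l = [] := List.length_eq_zero_iff.1 (by omega)
    rw [hl, List.prod_nil] at a5
    rw [← a5, orderOf_one] at hx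
    exact absurd hx (by norm_num)
  have hout : ∃ φ : MulAut G, ∀ g : G, MulAut.conj g ≠ φ := by
    obtain ⟨e, -⟩ := H91.FY.uniq22 hD h22.1 h22
    exact outer_congr e (exists_outer H63.OutFi22.card_out)
  subst hj
  have hF := gFit X hst hcard.2 hout
  have hQ' : Q = H43.FJi.Q X hst := by
    rw [hQ, hF, Subgroup.subgroupOf_map_subtype, inf_eq_left]
    exact Q_le X hst
  subst hQ'
  have hn : ((H43.FJi.Q X hst).subgroupOf (CA d₁ d₂)).Normal := by
    rw [Q_sub X hst]; infer_instance
  refine ⟨large X hst hcard.2 hout, ?_, Q_le X hst, hn, Fi, inferInstance, inferInstance, X.pol.card, quot X hst hn⟩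
  rw [card_Q X hst hcard.2 hout]; norm_num

end Cfsg.Agent.S5473
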