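import Cfsg.Statements.S5474
import Cfsg.Agent.Lib.H92.M24

set_option autoImplicit false
open Cfsg

namespace Cfsg.Agent.S5474

/-- Let G be a finite group with trivial centre generated by a conjugation-invariant set D of 3-transpositions on which it acts primitively, such that for some d in D the subgroup generated by the members of D other than d commuting with d has central largest normal 2- and 3-subgroups, and suppose G with D is of type M(24). Then D is the only conjugacy class of 3-transpositions generating G. -/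
theorem result {G : Type*} [Group G] [Finite G] {D : Set G} (hD : Cfsg.IsThreeTranspositionGroup D) (hprim : Cfsg.IsPrimitiveUnderConj D) (d₀ : G) (hd₀ : d₀ ∈ D) (h3 : Cfsg.pCore 3 ↥(Subgroup.closure {y : G | y ∈ D ∧ y ≠ d₀ ∧ Commute d₀ y}) ≤ Subgroup.center ↥(Subgroup.closure {y : G | y ∈ D ∧ y ≠ d₀ ∧ Commute d₀ y})) (h2 : Cfsg.pCore 2 ↥(Subgroup.closure {y : G | y ∈ D ∧ y ≠ d₀ ∧ Commute d₀ y}) ≤ Subgroup.center ↥(Subgroup.closure {y : G | y ∈ D ∧ y ≠ d₀ ∧ Commute d₀ y})) (h24 : Cfsg.IsOfTypeM24 G D) (D' : Set G) (hD' : Cfsg.IsThreeTranspositionClass D') : D' = D := by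
  have h1D := H92.Setup.one_notMem hD
  have htri := H92.Setup.tri_of_group hD
  obtain ⟨hLG, hcard, hC, hC2⟩ := H92.TypeNum.card24 htri h1D hD.2.2 hD.2.1 hprim h24
  refine H92.Uniq.uniq hLG hD.2.1 4 (by norm_num) ?_ D' hD'
  intro x hx
  have hxx : x * x = 1 := by rw [← pow_two, ← hx, pow_orderOf_eq_one]
  obtain ⟨l, a1, a2, a3, a4, a5⟩ := H92.M24.inv_three hLG hD.2.2 h24.1 hC hC2 hxx
  refine ⟨l, a1, ?_, a2, a3, a4, a5⟩
  by_contra h0
  have hl : l = [] := List.length_eq_zero_iff.1 (by omega)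
  rw [hl, List.prod_nil] at a5
  rw [← a5, orderOf_one] at hx
  exact absurd hx (by norm_num)

end Cfsg.Agent.S5474
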