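import Cfsg.Statements.S5515
import Cfsg.Agent.S2608
import Cfsg.Agent.S0296
import Cfsg.Agent.Lib.H26.Components

set_option autoImplicit false
open Cfsg

namespace Cfsg.Agent.S5515

/-- subgroups of order six of the symmetric group of degree four are point stabilisers -/
theorem s4_six (K : Subgroup (Equiv.Perm (Fin 4))) (hK : Nat.card K = 6) :
    ∃ i : Fin 4, K = MulAction.stabilizer (Equiv.Perm (Fin 4)) i := by
  haveI : Fact (Nat.Prime 3) := ⟨by norm_num⟩
  obtain ⟨σ, hσ⟩ := exists_prime_orderOf_dvd_card' (G := K) 3 (by rw [hK]; norm_num)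
  have hσ' : orderOf (σ : Equiv.Perm (Fin 4)) = 3 := by
    rw [Subgroup.orderOf_coe]; exact hσ
  have hex : ∀ τ : Equiv.Perm (Fin 4), orderOf τ = 3 → ∃ i, ∀ j, τ j = j ↔ j = i := by
    have : ∀ τ : Equiv.Perm (Fin 4), τ ^ 3 = 1 → τ ≠ 1 → ∃ i, ∀ j, τ j = j ↔ j = i := by decide
    intro τ h
    apply this τ
    · rw [← h]; exact pow_orderOf_eq_one τ
    · rintro rfl; simp at h
  obtain ⟨i, hi⟩ := hex _ hσ'
  refine ⟨i, ?_⟩
  have hle : K ≤ MulAction.stabilizer (Equiv.Perm (Fin 4)) i := by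
    intro g hg
    have hidx : (Subgroup.zpowers σ).index = 2 := by
      have h := Subgroup.card_mul_index (Subgroup.zpowers σ)
      rw [Nat.card_zpowers, hσ, hK] at h
      omega
    have hn : (Subgroup.zpowers σ).Normal := Subgroup.normal_of_index_eq_two hidx
    have hm := hn.conj_mem σ (Subgroup.mem_zpowers σ) ⟨g, hg⟩⁻¹
    obtain ⟨k, hk⟩ := Subgroup.mem_zpowers_iff.1 hm
    -- g⁻¹ σ g = σ ^ k fixes i
    have h1 : (g⁻¹ * (σ : Equiv.Perm (Fin 4)) * g) = (σ : Equiv.Perm (Fin 4)) ^ k := by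
      have := congrArg (fun x : K => (x : Equiv.Perm (Fin 4))) hk
      simpa using this.symm
    have h2 : ((σ : Equiv.Perm (Fin 4)) ^ k) i = i := by
      have : (σ : Equiv.Perm (Fin 4)) i = i := (hi i).2 rfl
      exact Function.IsFixedPt.perm_zpow this k
    rw [← h1] at h2
    have h3 : (σ : Equiv.Perm (Fin 4)) (g i) = g i := by
      have h4 : g⁻¹ ((σ : Equiv.Perm (Fin 4)) (g i)) = i := h2
      rw [Equiv.Perm.inv_eq_iff_eq] at h4
      exact h4.symm ▸ rfl
    rw [MulAction.mem_stabilizer_iff]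
    exact (hi _).1 h3
  have hst : Nat.card (MulAction.stabilizer (Equiv.Perm (Fin 4)) i) = 6 := by
    have : ∀ i : Fin 4, Fintype.card (MulAction.stabilizer (Equiv.Perm (Fin 4)) i) = 6 := by decide
    rw [Nat.card_eq_fintype_card]
    exact this i
  exact Subgroup.eq_of_le_of_card_ge hle (by rw [hst, hK])

theorem s4_conj (K K' : Subgroup (Equiv.Perm (Fin 4))) (hK : Nat.card K = 6) (hK' : Nat.card K' = 6) :
    ∃ g : Equiv.Perm (Fin 4), K' = K.map (MulAut.conj g).toMonoidHom := by
  obtain ⟨i, rfl⟩ := s4_six K hK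
  obtain ⟨j, rfl⟩ := s4_six K' hK'
  refine ⟨Equiv.swap i j, ?_⟩
  have : j = (Equiv.swap i j) • i := by simp
  conv_lhs => rw [this]
  rw [MulAction.stabilizer_smul_eq_stabilizer_map_conj]

theorem key {S : Type} [Group S] (hz : Subgroup.center S = ⊥) {G : Type*} [Group G] (L : Subgroup G) [L.Normal]
    (e : L ≃* S) (hc : Subgroup.centralizer (L : Set G) = ⊥) :
    ∃ R : Subgroup (MulAut S), Inn S ≤ R ∧ Nonempty (G ≃* R) ∧
      Nonempty (G ⧸ L ≃* R.map (QuotientGroup.mk' (Inn S))) := by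
  let φ : G →* MulAut S := (MulAut.congr e).toMonoidHom.comp (MulAut.conjNormal (H := L))
  have hφ : ∀ g (s : S), φ g s = e (MulAut.conjNormal g (e.symm s)) := fun g s => rfl
  have hinj : Function.Injective φ := by
    rw [injective_iff_map_eq_one]
    intro g hg
    have : g ∈ Subgroup.centralizer (L : Set G) := by
      rw [Subgroup.mem_centralizer_iff]
      intro l hl
      have h := DFunLike.congr_fun hg (e ⟨l, hl⟩)
      rw [hφ, e.symm_apply_apply, MulAut.one_apply] at h
      have h2 := congrArg Subtype.val (e.injective h)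
      rw [MulAut.conjNormal_apply] at h2
      exact (mul_inv_eq_iff_eq_mul.1 h2).symm
    rw [hc] at this
    exact Subgroup.mem_bot.1 this
  have hL : ∀ l : L, φ l = MulAut.conj (e l) := by
    intro l
    ext s
    rw [hφ, MulAut.conj_apply]
    have : (MulAut.conjNormal (l : G) (e.symm s) : L) = l * e.symm s * l⁻¹ := by
      ext; rw [MulAut.conjNormal_apply]; rfl
    rw [this, map_mul, map_mul, map_inv, e.apply_symm_apply]
  have hInn : Inn S ≤ φ.range := by
    rintro x ⟨s, rfl⟩
    exact ⟨e.symm s, by rw [hL, e.apply_symm_apply]⟩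
  refine ⟨φ.range, hInn, ⟨MonoidHom.ofInjective hinj⟩, ?_⟩
  let ψ : G →* MulAut S ⧸ Inn S := (QuotientGroup.mk' (Inn S)).comp φ
  have hker : ψ.ker = L := by
    ext g
    rw [MonoidHom.mem_ker]
    change (QuotientGroup.mk (φ g) : MulAut S ⧸ Inn S) = 1 ↔ _
    rw [QuotientGroup.eq_one_iff]
    constructor
    · rintro ⟨s, hs⟩
      have h1 : φ (e.symm s) = φ g := by rw [hL, e.apply_symm_apply, ← hs]
      rw [← hinj h1]
      exact (e.symm s).2
    · intro hg
      exact ⟨e ⟨g, hg⟩, (hL ⟨g, hg⟩).symm⟩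
  have hr : ψ.range = (φ.range).map (QuotientGroup.mk' (Inn S)) := by
    rw [MonoidHom.map_range]
  rw [← hr]
  refine ⟨?_⟩
  exact (QuotientGroup.quotientMulEquivOfEq hker.symm).trans (QuotientGroup.quotientKerEquivRange ψ)

theorem conj_of {S : Type} [Group S] (o : Out S ≃* Equiv.Perm (Fin 4)) (R R' : Subgroup (MulAut S))
    (hR : Inn S ≤ R) (hR' : Inn S ≤ R') (h6 : Nat.card (R.map (QuotientGroup.mk' (Inn S))) = 6)
    (h6' : Nat.card (R'.map (QuotientGroup.mk' (Inn S))) = 6) : Nonempty (R ≃* R') := by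
  set m := QuotientGroup.mk' (Inn S) with hm
  obtain ⟨g, hg⟩ := s4_conj ((R.map m).map o.toMonoidHom) ((R'.map m).map o.toMonoidHom)
    (by rw [← h6]; exact (Nat.card_congr ((R.map m).equivMapOfInjective o.toMonoidHom o.injective).toEquiv).symm)
    (by rw [← h6']; exact (Nat.card_congr ((R'.map m).equivMapOfInjective o.toMonoidHom o.injective).toEquiv).symm)
  obtain ⟨a, ha⟩ := QuotientGroup.mk'_surjective (Inn S) (o.symm g)
  have hcm : ∀ (T : Subgroup (MulAut S)), Inn S ≤ T → (T.map m).comap m = T := by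
    intro T hT
    rw [Subgroup.comap_map_eq, QuotientGroup.ker_mk', sup_eq_left.2 hT]
  have hR'2 : R' = R.map (MulAut.conj a).toMonoidHom := by
    have h1 : R'.map m = (R.map (MulAut.conj a).toMonoidHom).map m := by
      have h2 : Function.Injective (Subgroup.map o.toMonoidHom) := Subgroup.map_injective o.injective
      apply h2
      rw [hg]
      simp only [Subgroup.map_map]
      congr 1
      ext x : 1
      have h3 : o (m a) = g := by
        change o (QuotientGroup.mk' (Inn S) a) = g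
        rw [ha, o.apply_symm_apply]
      change g * o (m x) * g⁻¹ = o (m (a * x * a⁻¹))
      rw [map_mul, map_mul, map_inv, map_mul, map_mul, map_inv, h3]
    have h4 : Inn S ≤ R.map (MulAut.conj a).toMonoidHom := by
      intro x hx
      have hx' : a⁻¹ * x * a⁻¹⁻¹ ∈ Inn S := (innNormal S).conj_mem x hx a⁻¹
      refine ⟨a⁻¹ * x * a⁻¹⁻¹, hR hx', ?_⟩
      change a * (a⁻¹ * x * a⁻¹⁻¹) * a⁻¹ = x
      group
    rw [← hcm R' hR', h1, hcm _ h4]
  rw [hR'2]
  exact ⟨R.equivMapOfInjective _ (MulAut.conj a).injective⟩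

theorem center_bot {S : Type} [Group S] [IsSimpleGroup S] (o : Out S ≃* Equiv.Perm (Fin 4)) :
    Subgroup.center S = ⊥ := by
  rcases (inferInstance : (Subgroup.center S).Normal).eq_bot_or_eq_top with h | h
  · exact h
  · exfalso
    have hcomm : ∀ a b : S, a * b = b * a := fun a b =>
      ((Subgroup.mem_center_iff.1 (h ▸ Subgroup.mem_top b)) a)
    letI : CommGroup S := { (inferInstance : Group S) with mul_comm := hcomm }
    haveI : IsCyclic S := IsSimpleGroup.isCyclic
    have hab : ∀ x y : MulAut S, x * y = y * x := by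
      intro x y
      have := (IsCyclic.mulAutMulEquiv S).injective
      apply this
      rw [map_mul, map_mul, mul_comm]
    have hout : ∀ x y : Out S, x * y = y * x := by
      intro x y
      obtain ⟨a, rfl⟩ := QuotientGroup.mk'_surjective (Inn S) x
      obtain ⟨b, rfl⟩ := QuotientGroup.mk'_surjective (Inn S) y
      rw [← map_mul, hab, map_mul]
    have h4 : ∀ x y : Equiv.Perm (Fin 4), x * y = y * x := by
      intro x y
      obtain ⟨a, rfl⟩ := o.surjective x
      obtain ⟨b, rfl⟩ := o.surjective y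
      rw [← map_mul, hout, map_mul]
    have := h4 (Equiv.swap 0 1) (Equiv.swap 1 2)
    revert this
    decide

theorem cent_bot {S : Type} [Group S] (hz : Subgroup.center S = ⊥) {G : Type*} [Group G] [Finite G]
    (e : ↥(Cfsg.generalizedFittingSubgroup G) ≃* S) :
    Subgroup.centralizer (Cfsg.generalizedFittingSubgroup G : Set G) = ⊥ := by
  rw [eq_bot_iff]
  intro x hx
  have hxF := H26.Components.centralizer_gFitting_le hx
  have h1 : e ⟨x, hxF⟩ ∈ Subgroup.center S := by
    rw [Subgroup.mem_center_iff]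
    intro s
    obtain ⟨l, rfl⟩ := e.surjective s
    rw [← map_mul, ← map_mul]
    congr 1
    exact Subtype.ext (Subgroup.mem_centralizer_iff.1 hx l l.2)
  rw [hz, Subgroup.mem_bot] at h1
  have h2 : (⟨x, hxF⟩ : ↥(Cfsg.generalizedFittingSubgroup G)) = 1 := by
    apply e.injective
    rw [h1, map_one]
  exact Subgroup.mem_bot.2 (congrArg Subtype.val h2)

/-- Let G and G′ be finite groups whose generalized Fitting subgroups are isomorphic to PΩ⁺(8, 3) (the commutator subgroup of the isometry group of the hyperbolic quadratic form in dimension 8 over the field with three elements, modulo its centre) with quotients isomorphic to the symmetric group of degree 3. Then G and G′ are isomorphic. -/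
theorem result {G G' : Type*} [Group G] [Finite G] [Group G'] [Finite G'] (hF : Nonempty (↥(Cfsg.generalizedFittingSubgroup G) ≃* Cfsg.POmega (ZMod 3) (Cfsg.quadFormPlus 4 (ZMod 3)))) (hF' : Nonempty (↥(Cfsg.generalizedFittingSubgroup G') ≃* Cfsg.POmega (ZMod 3) (Cfsg.quadFormPlus 4 (ZMod 3)))) [hn : (Cfsg.generalizedFittingSubgroup G).Normal] [hn' : (Cfsg.generalizedFittingSubgroup G').Normal] (hq : Nonempty (G ⧸ Cfsg.generalizedFittingSubgroup G ≃* Equiv.Perm (Fin 3))) (hq' : Nonempty (G' ⧸ Cfsg.generalizedFittingSubgroup G' ≃* Equiv.Perm (Fin 3))) : Nonempty (G ≃* G') := by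
  obtain ⟨e⟩ := hF
  obtain ⟨e'⟩ := hF'
  obtain ⟨q⟩ := hq
  obtain ⟨q'⟩ := hq'
  haveI : Fact (Nat.Prime 3) := ⟨by norm_num⟩
  haveI hS : IsSimpleGroup (Cfsg.POmega (ZMod 3) (Cfsg.quadFormPlus 4 (ZMod 3))) := Cfsg.Agent.S0296.result 4 le_rfl
  have ho := Cfsg.Agent.S2608.result (F := ZMod 3) (p := 3) (f := 1) (m := 4) le_rfl (by rw [ZMod.card, pow_one])
    (by norm_num) le_rfl
  rw [if_pos rfl] at ho
  obtain ⟨o0⟩ := ho
  have o : Out (Cfsg.POmega (ZMod 3) (Cfsg.quadFormPlus 4 (ZMod 3))) ≃* Equiv.Perm (Fin 4) := by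
    haveI : Unique (Multiplicative (ZMod 1)) := ⟨⟨1⟩, fun a => Subsingleton.elim (α := ZMod 1) _ _⟩
    exact o0.trans (MulEquiv.prodUnique)
  have hz := center_bot o
  have hcard : Nat.card (Equiv.Perm (Fin 3)) = 6 := by
    rw [Nat.card_eq_fintype_card, Fintype.card_perm, Fintype.card_fin]; rfl
  obtain ⟨R, hR, ⟨i1⟩, ⟨j1⟩⟩ := key hz _ e (cent_bot hz e)
  obtain ⟨R', hR', ⟨i2⟩, ⟨j2⟩⟩ := key hz _ e' (cent_bot hz e')
  obtain ⟨k⟩ := conj_of o R R' hR hR'
    (by rw [← hcard, ← Nat.card_congr q.toEquiv]; exact (Nat.card_congr j1.toEquiv).symm)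
    (by rw [← hcard, ← Nat.card_congr q'.toEquiv]; exact (Nat.card_congr j2.toEquiv).symm)
  exact ⟨i1.trans (k.trans i2.symm)⟩

end Cfsg.Agent.S5515
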