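import Cfsg.Statements.S5517
import Cfsg.Agent.S1685
import Cfsg.Agent.S1686
import Cfsg.Agent.Lib.H91.FYUniq22
import Cfsg.Agent.Lib.H35.FiClass22

set_option autoImplicit false

open Cfsg

namespace Cfsg.Agent.S5517

/-- Let G be a finite group with trivial centre generated by a conjugation-invariant set D of 3-transpositions on which it acts primitively, such that for some d in D the subgroup generated by the members of D other than d commuting with d has central largest normal 2- and 3-subgroups, and suppose G with D is of type M(22). Then G has a subgroup L generated by the members of D it contains and isomorphic to Ω(7, 3) (the commutator subgroup of the isometry group of a non-degenerate 7-dimensional quadratic form over the field with three elements, modulo its centre), and every Sylow 3-subgroup of L is a Sylow 3-subgroup of G. -/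
theorem result {G : Type*} [Group G] [Finite G] {D : Set G} (hD : Cfsg.IsThreeTranspositionGroup D) (hprim : Cfsg.IsPrimitiveUnderConj D) (d₀ : G) (hd₀ : d₀ ∈ D) (h3 : Cfsg.pCore 3 ↥(Subgroup.closure {y : G | y ∈ D ∧ y ≠ d₀ ∧ Commute d₀ y}) ≤ Subgroup.center ↥(Subgroup.closure {y : G | y ∈ D ∧ y ≠ d₀ ∧ Commute d₀ y})) (h2 : Cfsg.pCore 2 ↥(Subgroup.closure {y : G | y ∈ D ∧ y ≠ d₀ ∧ Commute d₀ y}) ≤ Subgroup.center ↥(Subgroup.closure {y : G | y ∈ D ∧ y ≠ d₀ ∧ Commute d₀ y})) (h22 : Cfsg.IsOfTypeM22 G D) : ∃ L : Subgroup G, Cfsg.IsDSubgroup D L ∧ Nonempty (↥L ≃* Cfsg.POmega (ZMod 3) (Cfsg.quadFormOdd 3 (ZMod 3))) ∧ ∀ P : Sylow 3 ↥L, ∃ P' : Sylow 3 G, (P : Subgroup ↥L).map L.subtype = (P' : Subgroup G) := by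
  obtain ⟨φ, hφ⟩ := H91.FY.uniq22 hD h22.1 h22
  set M : Subgroup Spor.Fi22 := (((Subgroup.closure ({Cfsg.Spor.Fi22.b, Cfsg.Spor.Fi22.c, Cfsg.Spor.Fi22.d, Cfsg.Spor.Fi22.e, Cfsg.Spor.Fi22.f, Cfsg.Spor.Fi22.g, Cfsg.Spor.Fi22.h, Cfsg.Spor.Fi22.i} : Set (FreeGroup Cfsg.Spor.Fi22.Gen))).map (PresentedGroup.mk (Cfsg.Spor.coxRelators Cfsg.Spor.Fi22.edges ∪ {r | r ∈ Cfsg.Spor.Fi22.extra})))) with hM
  have hidx : M.index = 14080 := Cfsg.Agent.S1685.result
  obtain ⟨e⟩ := Cfsg.Agent.S1686.result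
  have hMc : M = Subgroup.closure ((PresentedGroup.mk (Cfsg.Spor.coxRelators Cfsg.Spor.Fi22.edges ∪ {r | r ∈ Cfsg.Spor.Fi22.extra})) '' {Cfsg.Spor.Fi22.b, Cfsg.Spor.Fi22.c, Cfsg.Spor.Fi22.d, Cfsg.Spor.Fi22.e, Cfsg.Spor.Fi22.f, Cfsg.Spor.Fi22.g, Cfsg.Spor.Fi22.h, Cfsg.Spor.Fi22.i}) := by
    rw [hM, MonoidHom.map_closure]
  refine ⟨M.map φ.toMonoidHom, ?_, ?_, ?_⟩
  · -- generated by members of `D`
    apply le_antisymm
    · rw [Subgroup.closure_le]
      exact fun x hx => hx.2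
    · have hgen : ∀ x : Spor.Fi22.Gen, (PresentedGroup.of x : Spor.Fi22) ∈ M → φ (PresentedGroup.of x) ∈
          Subgroup.closure {d : G | d ∈ D ∧ d ∈ M.map φ.toMonoidHom} := by
        intro x hx
        refine Subgroup.subset_closure ⟨?_, ⟨_, hx, rfl⟩⟩
        rw [hφ]
        refine ⟨_, ?_, rfl⟩
        have := H35.FiClass22.letter_mem (H35.Fi22Main.toLt x)
        rwa [H35.Fi22Main.gP_toLt] at this
      rw [Subgroup.map_le_iff_le_comap]
      conv_lhs => rw [hMc]
      rw [Subgroup.closure_le]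
      rintro _ ⟨y, hy, rfl⟩
      have hyM : (PresentedGroup.mk (Cfsg.Spor.coxRelators Cfsg.Spor.Fi22.edges ∪ {r | r ∈ Cfsg.Spor.Fi22.extra})) y ∈ M := by
        rw [hMc]; exact Subgroup.subset_closure ⟨y, hy, rfl⟩
      simp only [Set.mem_insert_iff, Set.mem_singleton_iff] at hy
      rcases hy with rfl | rfl | rfl | rfl | rfl | rfl | rfl | rfl <;> exact hgen _ hyM
  · exact ⟨(M.equivMapOfInjective φ.toMonoidHom φ.injective).symm.trans e⟩
  · intro P
    have hidx2 : (M.map φ.toMonoidHom).index = 14080 := by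
      rw [← hidx]
      exact Subgroup.index_map_equiv M φ
    have hp : IsPGroup 3 ((P : Subgroup (M.map φ.toMonoidHom)).map (M.map φ.toMonoidHom).subtype) := P.2.map _
    have hd : ¬ 3 ∣ ((P : Subgroup (M.map φ.toMonoidHom)).map (M.map φ.toMonoidHom).subtype).index := by
      rw [Subgroup.index_map_subtype, hidx2]
      intro h
      rcases (Nat.prime_three.dvd_mul).1 h with h | h
      · exact P.not_dvd_index h
      · omega
    exact ⟨hp.toSylow hd, rfl⟩

end Cfsg.Agent.S5517
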