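import Cfsg.Statements.S5541
import Mathlib

set_option autoImplicit false
open Cfsg

namespace Cfsg.Agent.S5541


section aux

variable {H : Type*} [Group H] {U : Type*} [AddCommGroup U] [Module ℝ U] [FiniteDimensional ℝ U]

theorem inj_of_irr (ρ : Representation ℝ H U)
    (hirr : ∀ W : Submodule ℝ U, (∀ g : H, W.map (ρ g) ≤ W) → W = ⊥ ∨ W = ⊤)
    (B : LinearMap.BilinForm ℝ U) (hB0 : B ≠ 0)
    (hBi : ∀ (g : H) (u v : U), B (ρ g u) (ρ g v) = B u v) :
    Function.Injective (B : U →ₗ[ℝ] (U →ₗ[ℝ] ℝ)) := by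
  have h := hirr (LinearMap.ker (B : U →ₗ[ℝ] (U →ₗ[ℝ] ℝ))) ?_
  · rcases h with h | h
    · exact LinearMap.ker_eq_bot.mp h
    · exfalso
      apply hB0
      exact LinearMap.ker_eq_top.mp h
  · intro g
    rintro _ ⟨u, hu, rfl⟩
    have hu' : B u = 0 := hu
    show B (ρ g u) = 0
    ext w
    have h1 : w = ρ g (ρ g⁻¹ w) := by
      rw [← Module.End.mul_apply, ← map_mul, mul_inv_cancel, map_one, Module.End.one_apply]
    rw [h1, hBi, hu']
    rfl

end aux

/-- Let ρ be a representation of a group H on a finite-dimensional real vector space U whose only ρ-invariant subspaces are the zero subspace and U, and suppose U carries a non-zero ρ-invariant symmetric bilinear form. Then the following are equivalent: (1) there is a non-zero ρ-equivariant commutative bilinear product on U of which every ρ-equivariant bilinear product is a scalar multiple; (2) there is a non-zero ρ-invariant trilinear form on U that is symmetric under all permutations of its arguments and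 of which every ρ-invariant trilinear form is a scalar multiple. -/
theorem result {H : Type*} [Group H] {U : Type*} [AddCommGroup U] [Module ℝ U] [FiniteDimensional ℝ U] (ρ : Representation ℝ H U) (hirr : ∀ W : Submodule ℝ U, (∀ g : H, W.map (ρ g) ≤ W) → W = ⊥ ∨ W = ⊤) (B : LinearMap.BilinForm ℝ U) (hB0 : B ≠ 0) (hBs : ∀ u v, B u v = B v u) (hBi : ∀ (g : H) (u v : U), B (ρ g u) (ρ g v) = B u v) : (∃ m : U →ₗ[ℝ] U →ₗ[ℝ] U, m ≠ 0 ∧ (∀ u v, m u v = m v u) ∧ (∀ (g : H) (u v : U), m (ρ g u) (ρ g v) = ρ g (m u v)) ∧ ∀ m' : U →ₗ[ℝ] U →ₗ[ℝ] U, (∀ (g : H) (u v : U), m' (ρ g u) (ρ g v) = ρ g (m' u v)) → ∃ c : ℝ, m' = c • m) ↔ (∃ t : U →ₗ[ℝ] U →ₗ[ℝ] U →ₗ[ℝ] ℝ, t ≠ 0 ∧ (∀ u v w, t u v w = t v u w ∧ t u v w = t u w v) ∧ (∀ (g : H) (u v w : U), t (ρ g u) (ρ g v) (ρ g w) = t u v w) ∧ ∀ t' : U →ₗ[ℝ] U →ₗ[ℝ] U →ₗ[ℝ] ℝ, (∀ (g : H) (u v w : U), t' (ρ g u) (ρ g v) (ρ g w) = t' u v w) → ∃ c : ℝ, t' = c • t) := by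
  have hinj := inj_of_irr ρ hirr B hB0 hBi
  have hgg : ∀ (g : H) (w : U), ρ g (ρ g⁻¹ w) = w := by
    intro g w
    rw [← Module.End.mul_apply, ← map_mul, mul_inv_cancel, map_one, Module.End.one_apply]
  let b : U ≃ₗ[ℝ] (U →ₗ[ℝ] ℝ) := LinearMap.linearEquivOfInjective (B : U →ₗ[ℝ] (U →ₗ[ℝ] ℝ)) hinj
    (Subspace.dual_finrank_eq (K := ℝ) (V := U)).symm
  have hb : ∀ u : U, b u = B u := fun u => rfl
  have hbs : ∀ f : U →ₗ[ℝ] ℝ, B (b.symm f) = f := by
    intro f
    rw [← hb, LinearEquiv.apply_symm_apply]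
  -- equivariant product from invariant trilinear form
  have hback : ∀ t : U →ₗ[ℝ] U →ₗ[ℝ] U →ₗ[ℝ] ℝ,
      (∀ (g : H) (u v w : U), t (ρ g u) (ρ g v) (ρ g w) = t u v w) →
      ∃ m : U →ₗ[ℝ] U →ₗ[ℝ] U, (∀ u v w, B (m u v) w = t u v w) ∧
        ∀ (g : H) (u v : U), m (ρ g u) (ρ g v) = ρ g (m u v) := by
    intro t ht
    refine ⟨t.compr₂ (b.symm : (U →ₗ[ℝ] ℝ) →ₗ[ℝ] U), ?_, ?_⟩
    · intro u v w
      rw [LinearMap.compr₂_apply]
      show B (b.symm (t u v)) w = _
      rw [hbs]
    · intro g u v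
      apply hinj
      rw [LinearMap.compr₂_apply, LinearMap.compr₂_apply]
      show B (b.symm (t (ρ g u) (ρ g v))) = B (ρ g (b.symm (t u v)))
      rw [hbs]
      ext w
      conv_rhs => rw [← hgg g w, hBi, hbs]
      conv_lhs => rw [← hgg g w, ht]
  constructor
  · rintro ⟨m, hm0, hmc, hme, hmu⟩
    let t : U →ₗ[ℝ] U →ₗ[ℝ] U →ₗ[ℝ] ℝ := m.compr₂ (B : U →ₗ[ℝ] (U →ₗ[ℝ] ℝ))
    have htd : ∀ u v w, t u v w = B (m u v) w := fun u v w => rfl
    have ht0 : t ≠ 0 := by
      intro h0
      apply hm0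
      ext u v
      apply hinj
      ext w
      have := congrArg (fun s : U →ₗ[ℝ] U →ₗ[ℝ] U →ₗ[ℝ] ℝ => s u v w) h0
      simpa [htd] using this
    have hti : ∀ (g : H) (u v w : U), t (ρ g u) (ρ g v) (ρ g w) = t u v w := by
      intro g u v w
      rw [htd, htd, hme, hBi]
    have huni : ∀ t' : U →ₗ[ℝ] U →ₗ[ℝ] U →ₗ[ℝ] ℝ,
        (∀ (g : H) (u v w : U), t' (ρ g u) (ρ g v) (ρ g w) = t' u v w) → ∃ c : ℝ, t' = c • t := by
      intro t' ht'
      obtain ⟨m', hm', hme'⟩ := hback t' ht'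
      obtain ⟨c, hc⟩ := hmu m' hme'
      refine ⟨c, ?_⟩
      ext u v w
      rw [← hm', hc]
      simp [htd]
    have hs1 : ∀ u v w, t u v w = t v u w := by
      intro u v w
      rw [htd, htd, hmc]
    have hs2 : ∀ u v w, t u v w = t u w v := by
      let t' : U →ₗ[ℝ] U →ₗ[ℝ] U →ₗ[ℝ] ℝ :=
        LinearMap.mk₂ ℝ (fun u w => (t u).flip w) (by intros; ext; simp) (by intros; ext; simp)
          (by intros; ext; simp) (by intros; ext; simp)
      have ht'd : ∀ u v w, t' u v w = t u w v := fun u v w => rfl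
      obtain ⟨c, hc⟩ := huni t' (by intro g u v w; rw [ht'd, ht'd, hti])
      have hc1 : ∀ u v w, t u w v = c * t u v w := by
        intro u v w
        rw [← ht'd, hc]
        simp
      have hcc : c * c = 1 := by
        by_contra hne
        apply ht0
        ext u v w
        have h1 := hc1 u v w
        have h2 := hc1 u w v
        rw [h1, ← mul_assoc] at h2
        have h3 : (c * c - 1) * t u v w = 0 := by linarith
        rcases mul_eq_zero.mp h3 with h4 | h4
        · exact absurd (by linarith) hne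
        · simpa using h4
      have hc' : c = 1 := by
        rcases mul_self_eq_one_iff.mp hcc with h | h
        · exact h
        · exfalso
          apply ht0
          ext u v w
          have e1 := hs1 u v w
          have e2 := hc1 v u w
          have e3 := hs1 v w u
          have e4 := hc1 w v u
          have e5 := hs1 w u v
          have e6 := hc1 u w v
          rw [h] at e2 e4 e6
          have : t u v w = 0 := by linarith
          simpa using this
      intro u v w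
      have := hc1 u w v
      rw [hc', one_mul] at this
      exact this
    exact ⟨t, ht0, fun u v w => ⟨hs1 u v w, hs2 u v w⟩, hti, huni⟩
  · rintro ⟨t, ht0, hts, hti, htu⟩
    obtain ⟨m, hm, hme⟩ := hback t hti
    refine ⟨m, ?_, ?_, hme, ?_⟩
    · rintro rfl
      apply ht0
      ext u v w
      rw [← hm]
      simp
    · intro u v
      apply hinj
      ext w
      rw [hm, hm, (hts u v w).1]
    · intro m' hme'
      obtain ⟨c, hc⟩ := htu (m'.compr₂ (B : U →ₗ[ℝ] (U →ₗ[ℝ] ℝ))) (by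
        intro g u v w
        show B (m' (ρ g u) (ρ g v)) (ρ g w) = B (m' u v) w
        rw [hme', hBi])
      refine ⟨c, ?_⟩
      ext u v
      apply hinj
      ext w
      have h1 : B (m' u v) w = (c • t) u v w := by rw [← hc]; rfl
      rw [h1]
      simp [hm]

end Cfsg.Agent.S5541
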