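import Cfsg.Statements.S5543
import Mathlib
import Cfsg.Agent.Lib.H93.Majorana

set_option autoImplicit false
open Cfsg

namespace Cfsg.Agent.S5543


open H93.Majorana in
theorem ip {V : Type*} [AddCommGroup V] [Module ℝ V] {mul : V →ₗ[ℝ] V →ₗ[ℝ] V}
    {B : LinearMap.BilinForm ℝ V} (hV : Cfsg.Axial.IsMajoranaAmbient mul B) {a b c : V}
    (ha : mul a a = a) (hna : B a a = 1)
    (hab : mul a b = (1 / 8 : ℝ) • (a + b - c)) (hac : mul a c = (1 / 8 : ℝ) • (a + c - b)) :
    B a b = 1 / 8 := by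
  have h1 : B a (mul a b) = B a b := by rw [assoc hV, ha]
  have h2 : B a (mul a c) = B a c := by rw [assoc hV, ha]
  rw [hab] at h1
  rw [hac] at h2
  simp only [map_add, map_sub, map_smul, smul_eq_mul, hna] at h1 h2
  linarith

open H93.Majorana in
theorem main {V : Type*} [AddCommGroup V] [Module ℝ V] (mul : V →ₗ[ℝ] V →ₗ[ℝ] V)
    (B : LinearMap.BilinForm ℝ V) (hV : Cfsg.Axial.IsMajoranaAmbient mul B)
    {x y z xy xz yz xyz : V} (A : Ax mul x) (hnx : B x x = 1) (hnyz : B yz yz = 1)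
    (hyz1 : mul yz yz = yz)
    (e1 : mul x y = (1 / 8 : ℝ) • (x + y - xy)) (e2 : mul x xy = (1 / 8 : ℝ) • (x + xy - y))
    (e3 : mul x z = (1 / 8 : ℝ) • (x + z - xz)) (e4 : mul x xz = (1 / 8 : ℝ) • (x + xz - z))
    (e5 : mul x yz = (1 / 8 : ℝ) • (x + yz - xyz)) (e6 : mul x xyz = (1 / 8 : ℝ) • (x + xyz - yz))
    (e7 : mul y z = (1 / 8 : ℝ) • (y + z - yz)) (e8 : mul y xz = (1 / 8 : ℝ) • (y + xz - xyz))
    (e9 : mul xy z = (1 / 8 : ℝ) • (xy + z - xyz)) (e10 : mul xy xz = (1 / 8 : ℝ) • (xy + xz - yz))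
    (e11 : mul yz x = (1 / 8 : ℝ) • (yz + x - xyz)) (e12 : mul yz xyz = (1 / 8 : ℝ) • (yz + xyz - x)) :
    False := by
  have hu : mul x (y - xy) = (1 / 4 : ℝ) • (y - xy) := by
    rw [map_sub, e1, e2]; module
  have hv : mul x (z - xz) = (1 / 4 : ℝ) • (z - xz) := by
    rw [map_sub, e3, e4]; module
  have hw : mul x (xyz - yz) = (1 / 4 : ℝ) • (xyz - yz) := by
    rw [map_sub, e5, e6]; module
  have hprod : mul (y - xy) (z - xz) = (1 / 4 : ℝ) • (xyz - yz) := by
    simp only [map_sub, LinearMap.sub_apply, e7, e8, e9, e10]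
    (module)
  obtain ⟨c, t, ht, hxt⟩ := A.faa _ _ hu hv
  have h0 : xyz - yz = 0 := by
    apply eq_zero_of_norm hV
    have h1 : B (xyz - yz) x = 0 := orth hV (a := x) (c := 1 / 4) (d := 1) (by norm_num) hw
      (by rw [A.idem, one_smul])
    have h2 : B (xyz - yz) t = 0 := orth hV (a := x) (c := 1 / 4) (d := 0) (by norm_num) hw
      (by rw [hxt, zero_smul])
    have h3 : xyz - yz = (4 : ℝ) • (c • x + t) := by
      rw [← ht, hprod]; module
    have h4 : B (xyz - yz) (xyz - yz) = B (xyz - yz) ((4 : ℝ) • (c • x + t)) := by rw [← h3]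
    rw [h4, map_smul, map_add, map_smul, h1, h2]
    simp
  have h5 : xyz = yz := sub_eq_zero.mp h0
  have h6 : B yz xyz = 1 / 8 := by
    apply ip hV hyz1 hnyz e12
    rw [e11]
  rw [h5, hnyz] at h6
  norm_num at h6

/-- Let V be a finite-dimensional real vector space with a commutative bilinear product and a positive-definite symmetric bilinear form that associates with the product and satisfies the Norton inequality (the Majorana setting of the definitions). Let X be a group of linear automorphisms of V in which every element squares to the identity, and suppose every non-identity element x of X is a Majorana involution with an axial vector a(x) of squared length 1, such that for any two distinct non-identity x, y the product a(x) ∘ a(y) equals (1/8)(a(x) + a(y) − a(xy)) (the dihedral subalgebra of type 2A whose third axis belongs to the involution xy). Then X has order at most 4. -/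
theorem result {V : Type*} [AddCommGroup V] [Module ℝ V] [FiniteDimensional ℝ V] (mul : V →ₗ[ℝ] V →ₗ[ℝ] V) (B : LinearMap.BilinForm ℝ V) (hV : Cfsg.Axial.IsMajoranaAmbient mul B) (X : Subgroup (V ≃ₗ[ℝ] V)) (hX : ∀ x ∈ X, x * x = 1) (ax : (V ≃ₗ[ℝ] V) → V) (hax : ∀ x ∈ X, x ≠ 1 → Cfsg.Axial.IsMajoranaPair mul B x (ax x)) (h1 : ∀ x ∈ X, x ≠ 1 → B (ax x) (ax x) = 1) (h2A : ∀ x ∈ X, ∀ y ∈ X, x ≠ 1 → y ≠ 1 → x ≠ y → mul (ax x) (ax y) = (1 / 8 : ℝ) • (ax x + ax y - ax (x * y))) : Nat.card ↥X ≤ 4 := by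
  by_contra hcard
  push Not at hcard
  have hfin : Finite ↥X := by
    by_contra hinf
    rw [not_finite_iff_infinite] at hinf
    have := Nat.card_eq_zero_of_infinite (α := ↥X)
    omega
  have hinv : ∀ x ∈ X, x⁻¹ = x := fun x hx => inv_eq_of_mul_eq_one_left (hX x hx)
  have hcomm : ∀ x ∈ X, ∀ y ∈ X, x * y = y * x := by
    intro x hx y hy
    have h1 := hinv _ (X.mul_mem hx hy)
    rw [mul_inv_rev, hinv x hx, hinv y hy] at h1
    exact h1.symm
  -- pick three independent elements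
  have hpick : ∀ s : Finset (V ≃ₗ[ℝ] V), s.card ≤ 4 → ∃ x ∈ X, x ∉ s := by
    intro s hs
    by_contra hcon
    push Not at hcon
    have h1 : Nat.card ↥X ≤ s.card := by
      have : (X : Set (V ≃ₗ[ℝ] V)) ⊆ (s : Set (V ≃ₗ[ℝ] V)) := fun x hx => hcon x hx
      have h2 := Set.ncard_le_ncard this (Finset.finite_toSet s)
      rw [Set.ncard_coe_finset] at h2
      exact h2
    omega
  classical
  obtain ⟨x, hxX, hx⟩ := hpick {1} (by simp)
  obtain ⟨y, hyX, hy⟩ := hpick {1, x} (by exact (Finset.card_le_two).trans (by norm_num))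
  obtain ⟨z, hzX, hz⟩ := hpick {1, x, y, x * y} Finset.card_le_four
  simp only [Finset.mem_singleton] at hx
  simp only [Finset.mem_insert, Finset.mem_singleton, not_or] at hy hz
  obtain ⟨hy1, hyx⟩ := hy
  obtain ⟨hz1, hzx, hzy, hzxy⟩ := hz
  have hxx := hX x hxX
  have hyy := hX y hyX
  have hzz := hX z hzX
  have hxyX := X.mul_mem hxX hyX
  have hxzX := X.mul_mem hxX hzX
  have hyzX := X.mul_mem hyX hzX
  have hxyzX := X.mul_mem hxX hyzX
  have cxy := hcomm x hxX y hyX
  have cxz := hcomm x hxX z hzX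
  have cyz := hcomm y hyX z hzX
  have eqI : ∀ a ∈ X, ∀ b ∈ X, a * b = 1 → a = b := by
    intro a ha b hb hab
    have := eq_inv_of_mul_eq_one_left hab
    rwa [hinv b hb] at this
  -- non-identity
  have nxy : x * y ≠ 1 := fun h => hyx (eqI x hxX y hyX h).symm
  have nxz : x * z ≠ 1 := fun h => hzx (eqI x hxX z hzX h).symm
  have nyz : y * z ≠ 1 := fun h => hzy (eqI y hyX z hzX h).symm
  have nxyz : x * (y * z) ≠ 1 := by
    intro h
    have h1 := eqI x hxX _ hyzX h
    apply hzxy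
    rw [h1, mul_assoc, ← cyz, ← mul_assoc, hyy, one_mul]
  -- products
  have p1 : x * (x * y) = y := by rw [← mul_assoc, hxx, one_mul]
  have p2 : x * (x * z) = z := by rw [← mul_assoc, hxx, one_mul]
  have p3 : x * (x * (y * z)) = y * z := by rw [← mul_assoc, hxx, one_mul]
  have p4 : y * (x * z) = x * (y * z) := by rw [← mul_assoc, ← cxy, mul_assoc]
  have p5 : (x * y) * z = x * (y * z) := mul_assoc _ _ _
  have p6 : (x * y) * (x * z) = y * z := by
    rw [cxy, mul_assoc, p2]
  have p7 : (y * z) * x = x * (y * z) := hcomm _ hyzX _ hxX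
  have p8 : (y * z) * (x * (y * z)) = x := by
    rw [← mul_assoc, p7, mul_assoc, hX _ hyzX, mul_one]
  -- distinctness
  have d1 : x ≠ y := fun h => hyx h.symm
  have d2 : x ≠ x * y := fun h => hy1 (by simpa using h.symm)
  have d3 : x ≠ z := fun h => hzx h.symm
  have d4 : x ≠ x * z := fun h => hz1 (by simpa using h.symm)
  have d5 : x ≠ y * z := fun h => nxyz (by rw [← h]; exact hxx)
  have d6 : x ≠ x * (y * z) := fun h => nyz (by simpa using h.symm)
  have d7 : y ≠ z := fun h => hzy h.symm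
  have d8 : y ≠ x * z := fun h => nxyz (by rw [← p4, ← h]; exact hyy)
  have d9 : x * y ≠ z := fun h => hzxy h.symm
  have d10 : x * y ≠ x * z := fun h => d7 (mul_left_cancel h)
  have d11 : y * z ≠ x := fun h => d5 h.symm
  have d12 : y * z ≠ x * (y * z) := fun h => hx (by
    have : 1 * (y * z) = x * (y * z) := by rw [one_mul]; exact h
    exact (mul_right_cancel this).symm)
  have A := (H93.Majorana.mp_of_pair (hax x hxX hx)).ax
  have hid := (H93.Majorana.mp_of_pair (hax _ hyzX nyz)).ax.idem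
  have q1 := h2A x hxX y hyX hx hy1 d1
  have q2 := h2A x hxX _ hxyX hx nxy d2
  have q3 := h2A x hxX z hzX hx hz1 d3
  have q4 := h2A x hxX _ hxzX hx nxz d4
  have q5 := h2A x hxX _ hyzX hx nyz d5
  have q6 := h2A x hxX _ hxyzX hx nxyz d6
  have q7 := h2A y hyX z hzX hy1 hz1 d7
  have q8 := h2A y hyX _ hxzX hy1 nxz d8
  have q9 := h2A _ hxyX z hzX nxy hz1 d9
  have q10 := h2A _ hxyX _ hxzX nxy nxz d10
  have q11 := h2A _ hyzX x hxX nyz hx d11
  have q12 := h2A _ hyzX _ hxyzX nyz nxyz d12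
  rw [p1] at q2
  rw [p2] at q4
  rw [p3] at q6
  rw [p4] at q8
  rw [p5] at q9
  rw [p6] at q10
  rw [p7] at q11
  rw [p8] at q12
  exact main mul B hV A (h1 x hxX hx) (h1 _ hyzX nyz) hid q1 q2 q3 q4 q5 q6 q7 q8 q9 q10 q11 q12

end Cfsg.Agent.S5543
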