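import Cfsg.Statements.S5545
import Mathlib
import Cfsg.Agent.Lib.H93.Majorana

set_option autoImplicit false
open Cfsg

namespace Cfsg.Agent.S5545


open H93.Majorana in
theorem comp_zero {V : Type*} [AddCommGroup V] [Module ℝ V] {mul : V →ₗ[ℝ] V →ₗ[ℝ] V}
    {B : LinearMap.BilinForm ℝ V} (hV : Cfsg.Axial.IsMajoranaAmbient mul B) {a y z : V} {k : ℝ}
    (hid : mul a a = a) (hy : mul a y = 0) (hz : mul a z = (1 / 4 : ℝ) • z)
    (h : k • a + y + z = 0) : z = 0 := by
  apply eq_zero_of_norm hV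
  have hz' : z = -(k • a) - y := by
    have := h
    linear_combination (norm := module) this
  have h1 : B z a = 0 := orth hV (a := a) (c := 1 / 4) (d := 1) (by norm_num) hz (by rw [hid, one_smul])
  have h2 : B z y = 0 := orth hV (a := a) (c := 1 / 4) (d := 0) (by norm_num) hz (by rw [hy, zero_smul])
  have h3 : B z z = B z (-(k • a) - y) := by rw [← hz']
  rw [h3, map_sub, map_neg, map_smul, h1, h2]
  simp

open H93.Majorana in
theorem key {V : Type*} [AddCommGroup V] [Module ℝ V] {mul : V →ₗ[ℝ] V →ₗ[ℝ] V}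
    {B : LinearMap.BilinForm ℝ V} (hV : Cfsg.Axial.IsMajoranaAmbient mul B) {μ : V ≃ₗ[ℝ] V} {a b : V}
    (P : MP mul B μ a) (hn : B a a = 1) (hb : mul b b = b) (hfix : μ b = b) :
    mul a (mul a b) = (3 / 4 * B a b) • a + (1 / 4 : ℝ) • mul a b ∧
    (mul b (mul a b) = (3 / 4 * B a b) • b + (1 / 4 : ℝ) • mul a b →
      (16 : ℝ) • mul (mul a b) (mul a b) = (3 * B a b) • b + (8 * (B a b) ^ 2 + 2 * B a b) • a +
        (4 * B a b - 1) • mul a b) := by
  obtain ⟨c, u, v, hbd, hu, hv⟩ := P.dec_fixed b hfix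
  have hid := P.ax.idem
  have hau : B a u = 0 := orth hV (a := a) (c := 1) (d := 0) (by norm_num) (by rw [hid, one_smul]) (by rw [hu, zero_smul])
  have hav : B a v = 0 := orth hV (a := a) (c := 1) (d := 1 / 4) (by norm_num) (by rw [hid, one_smul]) hv
  have hc : B a b = c := by
    rw [hbd]; simp [hn, hau, hav]
  have hp : mul a b = c • a + (1 / 4 : ℝ) • v := by
    rw [hbd]; simp [hid, hu, hv]
  have hap : mul a (mul a b) = (3 / 4 * B a b) • a + (1 / 4 : ℝ) • mul a b := by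
    rw [hc, hp]
    simp only [map_add, map_smul, hid, hv]
    (module)
  refine ⟨hap, fun hbp => ?_⟩
  obtain ⟨k, z, hvv, hz⟩ := P.ax.faa v v hv hv
  have huv := P.ax.f0a u v hu hv
  have huu := P.ax.f00 u u hu hu
  have hvu : mul v u = mul u v := comm hV v u
  have hbb : mul b b = (c ^ 2) • a + (c / 2) • v + mul u u + (2 : ℝ) • mul u v + mul v v := by
    rw [hbd]
    simp only [map_add, map_smul, LinearMap.add_apply, LinearMap.smul_apply, hid, hu, hv, hvu,
      comm hV u a, comm hV v a]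
    (module)
  have hcomp : (c / 2) • v + (2 : ℝ) • mul u v - v = 0 := by
    apply comp_zero hV (a := a) (y := mul u u + z - u) (k := c ^ 2 + k - c) hid
    · simp only [map_add, map_sub, huu, hz, hu]; simp
    · simp only [map_add, map_sub, map_smul, huv, hv]; module
    · have h1 : mul b b - b = 0 := by rw [hb, sub_self]
      rw [hbb, hvv] at h1
      conv at h1 => lhs; rw [hbd]
      rw [← h1]
      (module)
  -- express everything through a, b, p
  have hv' : v = (4 : ℝ) • mul a b - (4 * c) • a := by rw [hp]; module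
  have hu' : u = b + (3 * c) • a - (4 : ℝ) • mul a b := by
    conv_rhs => rw [hp]
    conv_rhs => rw [hbd]
    (module)
  set p := mul a b with hpdef
  have hpa : mul p a = mul a p := comm hV p a
  have hpb : mul p b = mul b p := comm hV p b
  have hba : mul b a = p := comm hV b a
  rw [hc] at hap hbp
  rw [hc]
  rw [hu', hv'] at hcomp
  simp only [map_add, map_sub, map_smul, LinearMap.add_apply, LinearMap.sub_apply, LinearMap.smul_apply,
    hid, hb, hpa, hpb, hba, hap, hbp, ← hpdef] at hcomp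
  linear_combination (norm := module) (-(1 / 2 : ℝ)) • hcomp

/-- Let V be a finite-dimensional real vector space with a commutative bilinear product and a positive-definite symmetric bilinear form that associates with the product and satisfies the Norton inequality (the Majorana setting of the definitions). Let μ₀, μ₁ be commuting Majorana involutions with distinct axial vectors a₀ ≠ a₁ of squared length 1, each involution having no other axial vector. Then either a₀ and a₁ are orthogonal with a₀ ∘ a₁ = 0 (type 2B), or their inner product is 1/8 and, with a₂ = a₀ + a₁ − 8 a₀ ∘ a₁, the vector a₂ is an idempotent and a₀ ∘ a₂ = (1/8)(a₀ + a₂ − a₁), a₁ ∘ a₂ = (1/8)(a₁ + a₂ − a₀) (type 2A: the three idempotents span a subalgebra with aᵢ ∘ aⱼ = (1/8)(aᵢ + aⱼ − aₖ)). -/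
theorem result {V : Type*} [AddCommGroup V] [Module ℝ V] [FiniteDimensional ℝ V] (mul : V →ₗ[ℝ] V →ₗ[ℝ] V) (B : LinearMap.BilinForm ℝ V) (hV : Cfsg.Axial.IsMajoranaAmbient mul B) (μ₀ μ₁ : V ≃ₗ[ℝ] V) (a₀ a₁ : V) (h₀ : Cfsg.Axial.IsMajoranaPair mul B μ₀ a₀) (h₁ : Cfsg.Axial.IsMajoranaPair mul B μ₁ a₁) (hu₀ : ∀ a : V, Cfsg.Axial.IsMajoranaPair mul B μ₀ a → a = a₀) (hu₁ : ∀ a : V, Cfsg.Axial.IsMajoranaPair mul B μ₁ a → a = a₁) (hn₀ : B a₀ a₀ = 1) (hn₁ : B a₁ a₁ = 1) (hc : μ₀ * μ₁ = μ₁ * μ₀) (hne : a₀ ≠ a₁) : (B a₀ a₁ = 0 ∧ mul a₀ a₁ = 0) ∨ (B a₀ a₁ = 1 / 8 ∧ mul (a₀ + a₁ - (8 : ℝ) • mul a₀ a₁) (a₀ + a₁ - (8 : ℝ) • mul a₀ a₁) = a₀ + a₁ - (8 : ℝ) • mul a₀ a₁ ∧ mul a₀ (a₀ + a₁ - (8 : ℝ) • mul a₀ a₁) = (1 / 8 : ℝ) • (a₀ + (a₀ + a₁ - (8 : ℝ) • mul a₀ a₁) - a₁) ∧ mul a₁ (a₀ + a₁ - (8 : ℝ) • mul a₀ a₁) = (1 / 8 : ℝ) • (a₁ + (a₀ + a₁ - (8 : ℝ) • mul a₀ a₁) - a₀)) := by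
  have P₀ := H93.Majorana.mp_of_pair h₀
  have P₁ := H93.Majorana.mp_of_pair h₁
  have f01 : μ₀ a₁ = a₁ := by
    apply hu₁
    have := H93.Majorana.conj_pair h₁ P₀.hmul P₀.hB
    have h2 : μ₀ * μ₁ * μ₀⁻¹ = μ₁ := by rw [hc]; group
    rwa [h2] at this
  have f10 : μ₁ a₀ = a₀ := by
    apply hu₀
    have := H93.Majorana.conj_pair h₀ P₁.hmul P₁.hB
    have h2 : μ₁ * μ₀ * μ₁⁻¹ = μ₀ := by rw [← hc]; group
    rwa [h2] at this
  obtain ⟨k1, k2⟩ := key hV P₀ hn₀ P₁.ax.idem f01
  obtain ⟨l1, l2⟩ := key hV P₁ hn₁ P₀.ax.idem f10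
  have hsw : B a₁ a₀ = B a₀ a₁ := H93.Majorana.symm hV a₁ a₀
  have hmw : mul a₁ a₀ = mul a₀ a₁ := H93.Majorana.comm hV a₁ a₀
  rw [hsw, hmw] at l1 l2
  have e1 := k2 l1
  have e2 := l2 k1
  set c := B a₀ a₁ with hcdef
  set p := mul a₀ a₁ with hpdef
  have hdiff : (8 * c ^ 2 - c) • (a₀ - a₁) = 0 := by
    have h3 := e1.symm.trans e2
    have h4 := sub_eq_zero.mpr h3
    rw [← h4]
    (module)
  have hroot : 8 * c ^ 2 - c = 0 := by
    rcases smul_eq_zero.mp hdiff with h | h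
    · exact h
    · exact absurd (sub_eq_zero.mp h) hne
  have hroot' : c * (8 * c - 1) = 0 := by linarith [hroot, sq c]
  rcases mul_eq_zero.mp hroot' with h | h
  · left
    refine ⟨h, ?_⟩
    -- norm computation : v = 0
    obtain ⟨c', u, v, hbd, hu, hv⟩ := P₀.dec_fixed a₁ f01
    have hid := P₀.ax.idem
    have hau : B a₀ u = 0 := H93.Majorana.orth hV (a := a₀) (c := 1) (d := 0) (by norm_num) (by rw [hid, one_smul]) (by rw [hu, zero_smul])
    have hav : B a₀ v = 0 := H93.Majorana.orth hV (a := a₀) (c := 1) (d := 1 / 4) (by norm_num) (by rw [hid, one_smul]) hv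
    have huv : B u v = 0 := H93.Majorana.orth hV (a := a₀) (c := 0) (d := 1 / 4) (by norm_num) (by rw [hu, zero_smul]) hv
    have hc : c = c' := by
      rw [hcdef, hbd]; simp [hn₀, hau, hav]
    have hp : p = c' • a₀ + (1 / 4 : ℝ) • v := by
      rw [hpdef, hbd]; simp [hid, hu, hv]
    -- B a₀ (a₁ a₁) = B p a₁
    have h5 : B p a₁ = c := by
      rw [hpdef, ← H93.Majorana.assoc hV, P₁.ax.idem]
    have h6 : B p a₁ = c' * c + (1 / 4) * B v v := by
      have h7 : B v a₁ = B v v := by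
        conv_lhs => rw [hbd]
        simp [H93.Majorana.symm hV v a₀, H93.Majorana.symm hV v u, hav, huv]
      rw [hp]
      simp [h7, ← hcdef]
    have h8 : B v v = 0 := by
      rw [h5] at h6
      rw [h] at h6
      linarith
    have hv0 := H93.Majorana.eq_zero_of_norm hV h8
    rw [hp, hv0, ← hc, h]
    simp
  · right
    have hc8 : c = 1 / 8 := by linarith
    have hid0 := P₀.ax.idem
    have hid1 := P₁.ax.idem
    have hpa : mul p a₀ = mul a₀ p := H93.Majorana.comm hV p a₀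
    have hpb : mul p a₁ = mul a₁ p := H93.Majorana.comm hV p a₁
    rw [hc8] at k1 l1 e1
    refine ⟨hc8, ?_, ?_, ?_⟩
    · simp only [map_add, map_sub, map_smul, LinearMap.add_apply, LinearMap.sub_apply, LinearMap.smul_apply,
        hid0, hid1, hpa, hpb, hmw, k1, l1, ← hpdef]
      linear_combination (norm := module) (4 : ℝ) • e1
    · simp only [map_add, map_sub, map_smul, hid0, k1, ← hpdef]
      (module)
    · simp only [map_add, map_sub, map_smul, hid1, l1, hmw]
      (module)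

end Cfsg.Agent.S5545
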