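import Cfsg.Statements.S5546
import Mathlib

set_option autoImplicit false
open Cfsg

namespace Cfsg.Agent.S5546


open Cfsg.Spor

abbrev Lam := ↥Cfsg.leechLattice

theorem e8_mem (i : GolayPt) : (Pi.single i 8 : GolayPt → ℤ) ∈ leechSet := by
  apply mem_leechSet_of_const_mod_four _ 0 0 (by decide)
  · intro j
    by_cases h : j = i
    · subst h; rw [Pi.single_eq_same]; decide
    · rw [Pi.single_eq_of_ne h]
  · rw [Finset.sum_pi_single']
    simp
    try decide

/-- `8 eᵢ` -/
def e8 (i : GolayPt) : Lam := ⟨Pi.single i 8, AddSubgroup.subset_closure (e8_mem i)⟩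

theorem e8_coe (i : GolayPt) : ((e8 i : Lam) : GolayPt → ℤ) = Pi.single i 8 := rfl

/-- additive map of an element of Co0 -/
def addH (g : Co0) : Lam →+ Lam := AddMonoidHom.mk' (fun v => (g : Equiv.Perm Lam) v) g.2.1

theorem addH_apply (g : Co0) (v : Lam) : addH g v = (g : Equiv.Perm Lam) v := rfl

theorem addH_mul (g h : Co0) (v : Lam) : addH (g * h) v = addH g (addH h v) := rfl

theorem addH_one (v : Lam) : addH 1 v = v := rfl

/-- reduction modulo 13 -/
def red : Lam →+ (GolayPt → ZMod 13) where
  toFun v := fun i => (((v : GolayPt → ℤ) i : ℤ) : ZMod 13)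
  map_zero' := by funext i; simp
  map_add' v w := by funext i; simp

theorem red_apply (v : Lam) (i : GolayPt) : red v i = (((v : GolayPt → ℤ) i : ℤ) : ZMod 13) := rfl

theorem forty (v : Lam) : (40 : ℤ) • v = ∑ i, ((v : GolayPt → ℤ) i) • ((5 : ℤ) • e8 i) := by
  apply Subtype.ext
  rw [AddSubgroup.val_finsetSum]
  funext j
  rw [Finset.sum_apply]
  simp only [AddSubgroup.coe_zsmul, e8_coe, Pi.smul_apply, smul_eq_mul]
  rw [Finset.sum_eq_single j]
  · rw [Pi.single_eq_same]; ring
  · intro b _ hb
    rw [Pi.single_eq_of_ne hb.symm]; ring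
  · intro h; exact absurd (Finset.mem_univ _) h

/-- the linear map on `F₁₃²⁴` induced by an element of `Co0` -/
noncomputable def R (g : Co0) : (GolayPt → ZMod 13) →ₗ[ZMod 13] (GolayPt → ZMod 13) :=
  Fintype.linearCombination (ZMod 13) (fun i => red (addH g ((5 : ℤ) • e8 i)))

theorem R_red (g : Co0) (v : Lam) : R g (red v) = red (addH g v) := by
  have h1 : R g (red v) = red (addH g ((40 : ℤ) • v)) := by
    rw [forty, map_sum, map_sum, R, Fintype.linearCombination_apply]
    apply Finset.sum_congr rfl
    intro i _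
    conv_rhs => rw [map_zsmul, map_zsmul]
    rw [red_apply]
    funext j
    simp only [Pi.smul_apply, smul_eq_mul, zsmul_eq_mul]
  rw [h1, map_zsmul, map_zsmul]
  funext j
  simp only [Pi.smul_apply, zsmul_eq_mul]
  have : ((40 : ℤ) : ZMod 13) = 1 := by decide
  rw [this, one_mul]

theorem red_surj : Function.Surjective red := by
  intro x
  refine ⟨∑ i, ((x i).val : ℤ) • ((5 : ℤ) • e8 i), ?_⟩
  funext j
  rw [red_apply, AddSubgroup.val_finsetSum, Finset.sum_apply]
  simp only [AddSubgroup.coe_zsmul, e8_coe, Pi.smul_apply, smul_eq_mul]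
  rw [Finset.sum_eq_single j]
  · rw [Pi.single_eq_same]
    rw [Int.cast_mul, Int.cast_mul, Int.cast_natCast, ZMod.natCast_val, ZMod.cast_id]
    push_cast
    have h40 : (5 : ZMod 13) * 8 = 1 := by decide
    rw [h40, mul_one]
  · intro b _ hb
    rw [Pi.single_eq_of_ne hb.symm]; ring
  · intro h; exact absurd (Finset.mem_univ _) h

theorem dot_pres (g : Co0) (v w : Lam) :
    dotInt ((addH g v : Lam) : GolayPt → ℤ) ((addH g w : Lam) : GolayPt → ℤ) =
      dotInt (v : GolayPt → ℤ) (w : GolayPt → ℤ) := by
  have hpol : ∀ a b : Lam, sqNorm ((a + b : Lam) : GolayPt → ℤ) =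
      sqNorm (a : GolayPt → ℤ) + sqNorm (b : GolayPt → ℤ) + 2 * dotInt (a : GolayPt → ℤ) (b : GolayPt → ℤ) := by
    intro a b
    unfold sqNorm dotInt
    rw [Finset.mul_sum, ← Finset.sum_add_distrib, ← Finset.sum_add_distrib]
    apply Finset.sum_congr rfl
    intro i _
    rw [AddSubgroup.coe_add, Pi.add_apply]
    ring
  have hn : ∀ a : Lam, sqNorm ((addH g a : Lam) : GolayPt → ℤ) = sqNorm (a : GolayPt → ℤ) := g.2.2
  have h1 := hpol (addH g v) (addH g w)
  rw [← map_add, hn, hn, hn, hpol] at h1
  linarith

/-- the functional `x ↦ x_∞ + x_0` -/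
def lin : (GolayPt → ZMod 13) →ₗ[ZMod 13] ZMod 13 where
  toFun x := x none + x (some 0)
  map_add' x y := by simp only [Pi.add_apply]; ring
  map_smul' c x := by simp only [Pi.smul_apply, smul_eq_mul, RingHom.id_apply]; ring

/-- orthogonal complement of `u` modulo 13 -/
def W : Submodule (ZMod 13) (GolayPt → ZMod 13) := LinearMap.ker lin

theorem mem_W (x : GolayPt → ZMod 13) : x ∈ W ↔ x none + x (some 0) = 0 := by
  unfold W
  rw [LinearMap.mem_ker]
  rfl

theorem dot_u (v : Lam) : dotInt (v : GolayPt → ℤ) vecU =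
    4 * ((v : GolayPt → ℤ) none + (v : GolayPt → ℤ) (some 0)) := by
  unfold dotInt
  have h1 : ∀ i : GolayPt, (v : GolayPt → ℤ) i * vecU i =
      (if i = none then 4 * (v : GolayPt → ℤ) none else 0) +
        (if i = some 0 then 4 * (v : GolayPt → ℤ) (some 0) else 0) := by
    intro i
    unfold vecU
    by_cases h : i = none
    · subst h; simp; ring
    · by_cases h' : i = some 0
      · subst h'; simp; ring
      · simp [h, h']
  rw [Finset.sum_congr rfl (fun i _ => h1 i), Finset.sum_add_distrib, Finset.sum_ite_eq', Finset.sum_ite_eq']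
  simp
  ring

theorem mem_W_red (v : Lam) : red v ∈ W ↔ ((dotInt (v : GolayPt → ℤ) vecU : ℤ) : ZMod 13) = 0 := by
  rw [mem_W, dot_u, red_apply, red_apply]
  push_cast
  have h4 : (4 : ZMod 13) ≠ 0 := by decide
  have : Fact (Nat.Prime 13) := ⟨by norm_num⟩
  constructor
  · intro h; rw [h, mul_zero]
  · intro h
    rcases mul_eq_zero.mp h with h | h
    · exact absurd h h4
    · exact h

theorem R_W (g : Co0) (hg : addH g leechU = leechU) (x : GolayPt → ZMod 13) (hx : x ∈ W) : R g x ∈ W := by
  obtain ⟨v, rfl⟩ := red_surj x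
  rw [R_red, mem_W_red]
  rw [mem_W_red] at hx
  rw [← hx]
  congr 1
  have := dot_pres g v leechU
  rw [hg] at this
  exact this

/-- the element of `Co0` underlying an element of `Co2` -/
def toCo0 (g : Co2) : Co0 := ⟨g.1, g.2.1⟩

theorem toCo0_fix (g : Co2) : addH (toCo0 g) leechU = leechU := g.2.2

noncomputable def rho : Co2 →* Module.End (ZMod 13) W where
  toFun g := (R (toCo0 g)).restrict (fun x hx => R_W _ (toCo0_fix g) x hx)
  map_one' := by
    apply LinearMap.ext
    intro x
    apply Subtype.ext
    obtain ⟨v, hv⟩ := red_surj x.1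
    rw [LinearMap.coe_restrict_apply, ← hv, R_red]
    exact hv
  map_mul' g h := by
    apply LinearMap.ext
    intro x
    apply Subtype.ext
    obtain ⟨v, hv⟩ := red_surj x.1
    rw [Module.End.mul_apply, LinearMap.coe_restrict_apply, LinearMap.coe_restrict_apply,
      LinearMap.coe_restrict_apply, ← hv, R_red, R_red, R_red]
    rfl

theorem short_fixed (g : Co2) (hg : rho g = 1) (v : Lam)
    (hv : (v : GolayPt → ℤ) none + (v : GolayPt → ℤ) (some 0) = 0)
    (hn : sqNorm (v : GolayPt → ℤ) = 32) : addH (toCo0 g) v = v := by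
  have hvW : red v ∈ W := by
    rw [mem_W_red, dot_u, hv]; simp
  have h1 : R (toCo0 g) (red v) = red v := by
    have := congrArg (fun f : Module.End (ZMod 13) W => ((f ⟨red v, hvW⟩ : W) : GolayPt → ZMod 13)) hg
    exact this
  rw [R_red] at h1
  have hdvd : ∀ i, (13 : ℤ) ∣ ((addH (toCo0 g) v : Lam) : GolayPt → ℤ) i - (v : GolayPt → ℤ) i := by
    intro i
    have := congrFun h1 i
    rw [red_apply, red_apply, ← sub_eq_zero, ← Int.cast_sub] at this
    exact (ZMod.intCast_zmod_eq_zero_iff_dvd _ 13).mp this
  have hnorm : sqNorm ((addH (toCo0 g) v : Lam) : GolayPt → ℤ) = 32 := by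
    rw [← hn]; exact (toCo0 g).2.2 v
  apply Subtype.ext
  funext i
  by_contra hne
  obtain ⟨k, hk⟩ := hdvd i
  have hk0 : k ≠ 0 := by
    rintro rfl
    apply hne
    linarith
  have h2 : ∀ (x : GolayPt → ℤ), x i ^ 2 ≤ sqNorm x := by
    intro x
    exact Finset.single_le_sum (f := fun j => x j ^ 2) (fun j _ => sq_nonneg _) (Finset.mem_univ i)
  have h3 := h2 (addH (toCo0 g) v : Lam)
  have h4 := h2 (v : Lam)
  rw [hnorm] at h3
  rw [hn] at h4
  have h5 : 1 ≤ k ^ 2 := by
    have := sq_pos_of_ne_zero hk0
    omega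
  set a := ((addH (toCo0 g) v : Lam) : GolayPt → ℤ) i
  set b := (v : GolayPt → ℤ) i
  have h6 : (a - b) ^ 2 = 169 * k ^ 2 := by rw [hk]; ring
  have h7 : (a - b) ^ 2 + (a + b) ^ 2 = 2 * a ^ 2 + 2 * b ^ 2 := by ring
  have h8 := sq_nonneg (a + b)
  linarith

/-- `a eᵢ + b eⱼ` with `a, b = ±4` -/
def two (i j : GolayPt) (s : ℤ) : GolayPt → ℤ := Pi.single i 4 + Pi.single j (4 * s)

theorem two_mem (i j : GolayPt) (s : ℤ) (hs : s = 1 ∨ s = -1) : two i j s ∈ leechSet := by
  apply mem_leechSet_of_const_mod_four _ 0 0 (by decide)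
  · intro k
    unfold two
    rw [Pi.add_apply, Int.modEq_zero_iff_dvd]
    apply dvd_add
    · by_cases h : k = i
      · subst h; simp
      · rw [Pi.single_eq_of_ne h]; simp
    · by_cases h : k = j
      · subst h; simp
      · rw [Pi.single_eq_of_ne h]; simp
  · unfold two
    simp only [Pi.add_apply, Finset.sum_add_distrib, Finset.sum_pi_single']
    rcases hs with rfl | rfl <;> simp <;> decide

def twoL (i j : GolayPt) (s : ℤ) (hs : s = 1 ∨ s = -1) : Lam :=
  ⟨two i j s, AddSubgroup.subset_closure (two_mem i j s hs)⟩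

theorem two_norm (i j : GolayPt) (hij : i ≠ j) (s : ℤ) (hs : s = 1 ∨ s = -1) : sqNorm (two i j s) = 32 := by
  have h1 : ∀ k, two i j s k ^ 2 = (Pi.single i 16 : GolayPt → ℤ) k + (Pi.single j 16 : GolayPt → ℤ) k := by
    intro k
    unfold two
    rw [Pi.add_apply]
    by_cases h : k = i
    · subst h
      rw [Pi.single_eq_same, Pi.single_eq_of_ne hij, Pi.single_eq_same, Pi.single_eq_of_ne hij]; norm_num
    · by_cases h' : k = j
      · subst h'
        rw [Pi.single_eq_same, Pi.single_eq_of_ne h, Pi.single_eq_same, Pi.single_eq_of_ne h]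
        rcases hs with rfl | rfl <;> norm_num
      · rw [Pi.single_eq_of_ne h, Pi.single_eq_of_ne h', Pi.single_eq_of_ne h, Pi.single_eq_of_ne h']
        norm_num
  unfold sqNorm
  rw [Finset.sum_congr rfl (fun k _ => h1 k), Finset.sum_add_distrib, Finset.sum_pi_single',
    Finset.sum_pi_single']
  simp

theorem fix_e8 (g : Co2) (hg : rho g = 1) (i : GolayPt) : addH (toCo0 g) (e8 i) = e8 i := by
  have hsum : ∀ (i j : GolayPt), i ≠ j → addH (toCo0 g) (twoL i j 1 (Or.inl rfl)) = twoL i j 1 (Or.inl rfl) →
      addH (toCo0 g) (twoL i j (-1) (Or.inr rfl)) = twoL i j (-1) (Or.inr rfl) →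
      addH (toCo0 g) (e8 i) = e8 i ∧ addH (toCo0 g) (e8 j) = e8 j := by
    intro i j hij h1 h2
    have e1 : e8 i = twoL i j 1 (Or.inl rfl) + twoL i j (-1) (Or.inr rfl) := by
      apply Subtype.ext
      funext k
      show (Pi.single i 8 : GolayPt → ℤ) k = (two i j 1 + two i j (-1)) k
      unfold two
      simp only [Pi.add_apply]
      by_cases h : k = i
      · subst h; simp [hij]
      · by_cases h' : k = j
        · subst h'; simp [h]
        · simp [h, h']
    have e2 : e8 j = twoL i j 1 (Or.inl rfl) - twoL i j (-1) (Or.inr rfl) := by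
      apply Subtype.ext
      funext k
      show (Pi.single j 8 : GolayPt → ℤ) k = (two i j 1 - two i j (-1)) k
      unfold two
      simp only [Pi.add_apply, Pi.sub_apply]
      by_cases h : k = i
      · subst h; simp [hij]
      · by_cases h' : k = j
        · subst h'; simp [h]
        · simp [h, h']
    constructor
    · rw [e1, map_add, h1, h2]
    · rw [e2, map_sub, h1, h2]
  have hU : twoL none (some 0) 1 (Or.inl rfl) = leechU := by
    apply Subtype.ext
    funext k
    show two none (some 0) 1 k = vecU k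
    unfold two vecU
    rw [Pi.add_apply]
    by_cases h : k = none
    · subst h; simp
    · by_cases h' : k = some 0
      · subst h'; simp
      · simp [h, h']
  have hmain : ∀ i j : GolayPt, i ≠ j → i ≠ none → i ≠ some 0 → j ≠ none → j ≠ some 0 →
      addH (toCo0 g) (e8 i) = e8 i := by
    intro i j hij h1 h2 h3 h4
    refine (hsum i j hij ?_ ?_).1
    · apply short_fixed g hg
      · show two i j 1 none + two i j 1 (some 0) = 0
        unfold two
        simp [h1.symm, h2.symm, h3.symm, h4.symm]
      · exact two_norm i j hij _ (Or.inl rfl)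
    · apply short_fixed g hg
      · show two i j (-1) none + two i j (-1) (some 0) = 0
        unfold two
        simp [h1.symm, h2.symm, h3.symm, h4.symm]
      · exact two_norm i j hij _ (Or.inr rfl)
  have h0 : addH (toCo0 g) (e8 none) = e8 none ∧ addH (toCo0 g) (e8 (some 0)) = e8 (some 0) := by
    apply hsum none (some 0) (by simp)
    · rw [hU]; exact toCo0_fix g
    · apply short_fixed g hg
      · show two none (some 0) (-1) none + two none (some 0) (-1) (some 0) = 0
        unfold two
        simp
      · exact two_norm _ _ (by simp) _ (Or.inr rfl)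
  by_cases h1 : i = none
  · subst h1; exact h0.1
  · by_cases h2 : i = some 0
    · subst h2; exact h0.2
    · by_cases h3 : i = some 1
      · exact hmain i (some 2) (by rw [h3]; decide) h1 h2 (by simp) (by decide)
      · exact hmain i (some 1) h3 h1 h2 (by simp) (by decide)

theorem rho_injective : Function.Injective rho := by
  rw [injective_iff_map_eq_one]
  intro g hg
  apply Subtype.ext
  apply Equiv.ext
  intro v
  show addH (toCo0 g) v = v
  have h1 : addH (toCo0 g) ((40 : ℤ) • v) = (40 : ℤ) • v := by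
    rw [forty, map_sum]
    apply Finset.sum_congr rfl
    intro i _
    rw [map_zsmul, map_zsmul, fix_e8 g hg]
  rw [map_zsmul] at h1
  apply Subtype.ext
  funext i
  have h2 := congrFun (congrArg Subtype.val h1) i
  simp only [AddSubgroup.coe_zsmul, Pi.smul_apply, smul_eq_mul] at h2
  linarith

theorem finrank_W : Module.finrank (ZMod 13) W = 23 := by
  have : Fact (Nat.Prime 13) := ⟨by norm_num⟩
  have h1 := LinearMap.finrank_range_add_finrank_ker lin
  have h2 : LinearMap.range lin = ⊤ := by
    rw [LinearMap.range_eq_top]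
    intro c
    refine ⟨Pi.single none c, ?_⟩
    show (Pi.single none c : GolayPt → ZMod 13) none + (Pi.single none c : GolayPt → ZMod 13) (some 0) = c
    simp
  rw [h2, finrank_top, Module.finrank_self, Module.finrank_fintype_fun_eq_card] at h1
  have h3 : Fintype.card GolayPt = 24 := by
    rw [Fintype.card_option, ZMod.card]
  rw [h3] at h1
  have h4 : Module.finrank (ZMod 13) W = Module.finrank (ZMod 13) (LinearMap.ker lin) := rfl
  omega

/-- The second Conway group (the stabilizer in the Leech lattice automorphism group of the short vector fixed in the definitions) is isomorphic to a subgroup of the general linear group of degree 23 over the field with 13 elements: there is an injective homomorphism into it. -/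
theorem result : ∃ f : ↥Cfsg.Spor.Co2 →* GL (Fin 23) (ZMod 13), Function.Injective f := by
  have : Fact (Nat.Prime 13) := ⟨by norm_num⟩
  let b := Module.finBasisOfFinrankEq (ZMod 13) W finrank_W
  let A := LinearMap.toMatrixAlgEquiv b
  refine ⟨(Units.map (A : Module.End (ZMod 13) W →* Matrix (Fin 23) (Fin 23) (ZMod 13))).comp
    rho.toHomUnits, ?_⟩
  rw [MonoidHom.coe_comp]
  apply Function.Injective.comp
  · apply Units.map_injective
    exact A.injective
  · intro g h hgh
    apply rho_injective
    have h1 := congrArg (fun u : (Module.End (ZMod 13) W)ˣ => (u : Module.End (ZMod 13) W)) hgh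
    simpa using h1

end Cfsg.Agent.S5546
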