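import Cfsg.Statements.S5549
import Mathlib
import Cfsg.Agent.Lib.H93.GolayMod

set_option autoImplicit false
open Cfsg

namespace Cfsg.Agent.S5549


open Cfsg H8.GolayCode H8.GolayCount H8.GolayBasic H8.M24Mem H8.M24Trans H93.GolayMod

/-- octad-type words meeting `w` oddly -/
def TS (w : GolayPt → ZMod 2) : Set (GolayPt → ZMod 2) :=
  {c | c ∈ golayCode ∧ ((support₂ c).card = 8 ∨ (support₂ c).card = 16) ∧ ∑ p, w p * c p = 1}

theorem TS_add {w g : GolayPt → ZMod 2} (hg : g ∈ golayCode) : TS (w + g) = TS w := by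
  have key : ∀ c ∈ golayCode, ∑ p, (w + g) p * c p = ∑ p, w p * c p := by
    intro c hc
    simp only [Pi.add_apply, add_mul, Finset.sum_add_distrib]
    rw [golay_orth hg hc, add_zero]
  ext c
  unfold TS
  simp only [Set.mem_setOf_eq]
  constructor
  · rintro ⟨h1, h2, h3⟩
    exact ⟨h1, h2, by rw [← key c h1]; exact h3⟩
  · rintro ⟨h1, h2, h3⟩
    exact ⟨h1, h2, by rw [key c h1]; exact h3⟩

theorem card_sh (σ : Equiv.Perm GolayPt) (c : GolayPt → ZMod 2) :
    (support₂ (sh σ c)).card = (support₂ c).card := by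
  rw [← ofSupp_support c, sh_ofSupp, support_ofSupp, support_ofSupp,
    Finset.card_image_of_injective _ σ.injective]

theorem sh_inv_sh (σ : Equiv.Perm GolayPt) (c : GolayPt → ZMod 2) : sh σ⁻¹ (sh σ c) = c := by
  rw [← sh_mul, inv_mul_cancel, sh_one]

theorem sh_sh_inv (σ : Equiv.Perm GolayPt) (c : GolayPt → ZMod 2) : sh σ (sh σ⁻¹ c) = c := by
  rw [← sh_mul, mul_inv_cancel, sh_one]

theorem sum_sh_sh (σ : Equiv.Perm GolayPt) (w c : GolayPt → ZMod 2) :
    ∑ p, sh σ w p * sh σ c p = ∑ p, w p * c p := by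
  rw [← Equiv.sum_comp σ.symm (fun p => w p * c p)]
  rfl

theorem TS_sh {σ : Equiv.Perm GolayPt} (hσ : σ ∈ M24) (w : GolayPt → ZMod 2) :
    (TS (sh σ w)).ncard = (TS w).ncard := by
  have h : TS (sh σ w) = sh σ '' TS w := by
    ext c
    constructor
    · rintro ⟨h1, h2, h3⟩
      refine ⟨sh σ⁻¹ c, ⟨sh_mem (M24.inv_mem hσ) h1, ?_, ?_⟩, sh_sh_inv σ c⟩
      · rw [card_sh]; exact h2
      · rw [← sum_sh_sh σ, sh_sh_inv]; exact h3
    · rintro ⟨c', ⟨h1, h2, h3⟩, rfl⟩
      exact ⟨sh_mem hσ h1, by rw [card_sh]; exact h2, by rw [sum_sh_sh]; exact h3⟩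
  rw [h]
  apply Set.ncard_image_of_injective
  intro a b hab
  rw [← sh_inv_sh σ a, hab, sh_inv_sh]

def PB (m n : ℕ) : Bool := (Nat.beq (pop n) 8 || Nat.beq (pop n) 16) && Nat.beq (pop (n &&& m) % 2) 1

theorem TS_count {m : ℕ} (hm : m < 2 ^ 24) : (TS (wd m)).ncard = cntB (PB m) basisL 0 := by
  rw [← ncard_supports]
  have h : {s | s ∈ supports (golayCode : Set (GolayPt → ZMod 2)) ∧ PB m (mk (ofSupp s)) = true} =
      support₂ '' TS (wd m) := by
    have key : ∀ c : GolayPt → ZMod 2, PB m (mk c) = true ↔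
        ((support₂ c).card = 8 ∨ (support₂ c).card = 16) ∧ ∑ p, wd m p * c p = 1 := by
      intro c
      have e1 : ∑ p, wd m p * c p = ((pop (mk c &&& m) : ℕ) : ZMod 2) := by
        rw [dot_eq_card, ← card_support_wd (lt_of_le_of_lt Nat.and_le_right hm)]
        congr 2
        ext p
        rw [Finset.mem_inter, mem_support_wd, mem_support_wd, Nat.testBit_and, Bool.and_eq_true]
        rw [← mem_support_wd (mk c), wd_mk, and_comm]
      have e2 : ∀ n : ℕ, ((n : ℕ) : ZMod 2) = 1 ↔ n % 2 = 1 := by
        intro n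
        rw [← Nat.odd_iff]
        exact ZMod.natCast_eq_one_iff_odd
      rw [e1, e2, ← pop_mk]
      simp only [PB, Bool.and_eq_true, Bool.or_eq_true, Nat.beq_eq]
    ext s
    constructor
    · rintro ⟨h1, h2⟩
      rw [mem_supports_iff] at h1
      exact ⟨ofSupp s, ⟨h1, (key _).1 h2⟩, support_ofSupp s⟩
    · rintro ⟨c, ⟨h1, h2⟩, rfl⟩
      refine ⟨⟨c, h1, rfl⟩, ?_⟩
      rw [ofSupp_support]
      exact (key _).2 h2
  rw [h, Set.ncard_image_of_injective _ support_injective]

theorem cover : ∀ (n : ℕ) (w : GolayPt → ZMod 2), (support₂ w).card ≤ n →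
    ∃ g ∈ golayCode, (support₂ (w + g)).card ≤ 4 := by
  intro n
  induction n with
  | zero =>
    intro w hw
    exact ⟨0, golayCode.zero_mem, by rw [add_zero]; omega⟩
  | succ n ih =>
    intro w hw
    by_cases h4 : (support₂ w).card ≤ 4
    · exact ⟨0, golayCode.zero_mem, by rw [add_zero]; exact h4⟩
    · obtain ⟨u, hu, hu5⟩ := Finset.exists_subset_card_eq (show 5 ≤ (support₂ w).card by omega)
      obtain ⟨o, ⟨ho, huo⟩, -⟩ := octads_steiner.2 u hu5
      have ho1 : ofSupp o ∈ golayCode := (mem_supports_iff _ _).mp ho.1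
      have h1 : (support₂ (w + ofSupp o)).card ≤ n := by
        rw [support_add, support_ofSupp]
        have h2 := card_symmDiff (support₂ w) o
        have h3 : u.card ≤ (support₂ w ∩ o).card := Finset.card_le_card (Finset.subset_inter hu huo)
        have h5 : o.card = 8 := ho.2
        omega
      obtain ⟨g, hg, h⟩ := ih _ h1
      exact ⟨ofSupp o + g, golayCode.add_mem ho1 hg, by rw [← add_assoc]; exact h⟩

/-- transitivity on small subsets -/
theorem trans_subsets {k : ℕ} (hk : k ≤ 5) {u v : Finset GolayPt} (hu : u.card = k) (hv : v.card = k) :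
    ∃ g ∈ M24, u.image g = v := by
  have h5 := five
  have hk' : MulAction.IsMultiplyPretransitive M24 GolayPt k :=
    MulAction.isMultiplyPretransitive_of_le (n := 5) hk (by rw [Nat.card_eq_fintype_card, card_pt]; norm_num)
  rw [MulAction.isMultiplyPretransitive_iff] at hk'
  obtain ⟨x, hx, hx'⟩ := exists_enum u hu
  obtain ⟨y, hy, hy'⟩ := exists_enum v hv
  obtain ⟨g, h⟩ := hk' ⟨x, hx⟩ ⟨y, hy⟩
  have h' : ∀ i, g.1 (x i) = y i := fun i => DFunLike.congr_fun h i
  refine ⟨g.1, g.2, ?_⟩
  ext p
  rw [Finset.mem_image, hy' p]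
  constructor
  · rintro ⟨q, hq, rfl⟩
    obtain ⟨i, rfl⟩ := (hx' q).1 hq
    exact ⟨i, (h' i).symm⟩
  · rintro ⟨i, rfl⟩
    exact ⟨x i, (hx' _).2 ⟨i, rfl⟩, h' i⟩

theorem TS_two {s : Finset GolayPt} (hs : s.card = 2) : (TS (ofSupp s)).ncard = 704 := by
  have h0 : (support₂ (wd 0x800001)).card = 2 := by rw [card_support_wd (by norm_num)]; decide +kernel
  obtain ⟨g, hg, h⟩ := trans_subsets (by norm_num) h0 hs
  rw [← h, ← sh_ofSupp, TS_sh hg, ofSupp_support, TS_count (by norm_num)]
  decide +kernel

theorem TS_four {s : Finset GolayPt} (hs : s.card = 4) : (TS (ofSupp s)).ncard = 768 := by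
  have h0 : (support₂ (wd 0x800007)).card = 4 := by rw [card_support_wd (by norm_num)]; decide +kernel
  obtain ⟨g, hg, h⟩ := trans_subsets (by norm_num) h0 hs
  rw [← h, ← sh_ofSupp, TS_sh hg, ofSupp_support, TS_count (by norm_num)]
  decide +kernel

theorem TS_zero : (TS 0).ncard = 0 := by
  have : TS 0 = ∅ := by
    ext c
    constructor
    · rintro ⟨_, _, h⟩
      simp at h
    · intro h; exact absurd h (Set.notMem_empty _)
  rw [this, Set.ncard_empty]

/-- every functional on the code comes from a word -/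
theorem rep (φ : golayCode →ₗ[ZMod 2] ZMod 2) : ∃ w : GolayPt → ZMod 2, ∀ c : golayCode, φ c = ∑ p, w p * c.1 p := by
  have : Fact (Nat.Prime 2) := ⟨Nat.prime_two⟩
  obtain ⟨ψ, hψ⟩ := LinearMap.exists_extend φ
  refine ⟨fun p => ψ (Pi.single p 1), fun c => ?_⟩
  have h1 : φ c = ψ c.1 := by rw [← hψ]; rfl
  rw [h1]
  have hv : c.1 = ∑ i, c.1 i • (Pi.single i (1 : ZMod 2) : GolayPt → ZMod 2) := by
    funext j
    rw [Finset.sum_apply, Finset.sum_eq_single j]
    · simp
    · intro b _ hb
      rw [Pi.smul_apply, Pi.single_eq_of_ne hb.symm, smul_zero]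
    · intro hh; exact absurd (Finset.mem_univ _) hh
  conv_lhs => rw [hv]
  rw [map_sum]
  apply Finset.sum_congr rfl
  intro i _
  rw [map_smul, smul_eq_mul, mul_comm]

theorem sum_ofSupp (s : Finset GolayPt) (c : GolayPt → ZMod 2) : ∑ p, ofSupp s p * c p = ∑ p ∈ s, c p := by
  unfold ofSupp
  simp only [ite_mul, one_mul, zero_mul, Finset.sum_ite_mem, Finset.univ_inter]

theorem sum_symmDiff (s t : Finset GolayPt) (c : GolayPt → ZMod 2) :
    ∑ p ∈ symmDiff s t, c p = ∑ p ∈ s, c p + ∑ p ∈ t, c p := by
  rw [← sum_ofSupp (symmDiff s t) c, ← sum_ofSupp s c, ← sum_ofSupp t c, ← Finset.sum_add_distrib]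
  apply Finset.sum_congr rfl
  intro p _
  have : ofSupp (symmDiff s t) = ofSupp s + ofSupp t := by
    apply support_injective
    rw [support_add, support_ofSupp, support_ofSupp, support_ofSupp]
  rw [this, Pi.add_apply, add_mul]

/-- a set of odd-free intersections of small size is empty -/
theorem small_eq {s : Finset GolayPt} (h : ∀ c ∈ golayCode, ∑ p ∈ s, c p = 0) (h8 : s.card < 8) : s = ∅ := by
  have h1 : ofSupp s ∈ golayCode := by
    apply H93.GolayDual.mem_of_orth
    intro c hc
    refine Eq.trans ?_ (h c hc)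
    rw [← sum_ofSupp s c]
    apply Finset.sum_congr rfl
    intro p _
    exact mul_comm _ _
  have h2 : s ∈ GS := (mem_supports_iff _ _).mpr h1
  have h3 := weight_cases h2
  rw [← Finset.card_eq_zero]
  omega

theorem one_mem'' : (fun _ => (1 : ZMod 2) : GolayPt → ZMod 2) ∈ golayCode := by
  have : (fun _ => (1 : ZMod 2) : GolayPt → ZMod 2) = 1 := rfl
  rw [this, one_eq]
  exact wd_one_mem

theorem card_add_one (c : GolayPt → ZMod 2) :
    (support₂ (c + fun _ => (1 : ZMod 2))).card = 24 - (support₂ c).card := by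
  have : support₂ (c + fun _ => (1 : ZMod 2)) = (support₂ c)ᶜ := by
    rw [support_add]
    have : support₂ (fun _ => (1 : ZMod 2) : GolayPt → ZMod 2) = Finset.univ := by
      ext p; simp [support₂]
    rw [this]
    ext p
    simp [Finset.mem_symmDiff]
  rw [this, Finset.card_compl, card_pt]

/-- a linear automorphism of the code preserving octad type and the all-one word permutes duad functionals -/
theorem duad {x : golayCode ≃ₗ[ZMod 2] golayCode}
    (hx1 : (x ⟨_, one_mem''⟩ : golayCode).1 = fun _ => (1 : ZMod 2))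
    (hx : ∀ c : golayCode, ((support₂ c.1).card = 8 ∨ (support₂ c.1).card = 16) ↔
      ((support₂ (x c).1).card = 8 ∨ (support₂ (x c).1).card = 16))
    {s : Finset GolayPt} (hs : s.card = 2) :
    ∃ t : Finset GolayPt, t.card = 2 ∧ ∀ c : golayCode, ∑ p ∈ s, (x c).1 p = ∑ p ∈ t, c.1 p := by
  classical
  let φ : golayCode →ₗ[ZMod 2] ZMod 2 :=
    { toFun := fun c => ∑ p ∈ s, (x c).1 p
      map_add' := fun a b => by
        rw [← Finset.sum_add_distrib]
        apply Finset.sum_congr rfl
        intro p _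
        rw [map_add]; rfl
      map_smul' := fun r a => by
        rw [RingHom.id_apply, smul_eq_mul, Finset.mul_sum]
        apply Finset.sum_congr rfl
        intro p _
        rw [map_smul]; rfl }
  obtain ⟨w, hw⟩ := rep φ
  obtain ⟨g, hg, h4⟩ := cover _ w le_rfl
  set t := support₂ (w + g) with ht
  have hwg : w + g = ofSupp t := by rw [ht, ofSupp_support]
  have key : ∀ c : golayCode, ∑ p ∈ s, (x c).1 p = ∑ p ∈ t, c.1 p := by
    intro c
    have h1 : ∑ p ∈ s, (x c).1 p = ∑ p, w p * c.1 p := hw c
    rw [h1, ← sum_ofSupp t, ← hwg]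
    simp only [Pi.add_apply, add_mul, Finset.sum_add_distrib]
    rw [golay_orth hg c.2, add_zero]
  -- parity
  have hev : t.card % 2 = 0 := by
    have h1 := key ⟨_, one_mem''⟩
    rw [hx1] at h1
    simp only [Finset.sum_const, hs, smul_eq_mul, nsmul_eq_mul, mul_one] at h1
    have h2 : ((t.card : ℕ) : ZMod 2) = 0 := by rw [← h1]; decide
    rw [ZMod.natCast_eq_zero_iff] at h2
    omega
  -- counting
  have hcount : (TS (ofSupp t)).ncard = (TS (ofSupp s)).ncard := by
    have h : TS (ofSupp s) = (fun c : GolayPt → ZMod 2 => if h : c ∈ golayCode then (x ⟨c, h⟩).1 else c) '' TS (ofSupp t) := by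
      ext c
      constructor
      · rintro ⟨h1, h2, h3⟩
        obtain ⟨c', hc'⟩ := x.surjective ⟨c, h1⟩
        have hc'' : (x c').1 = c := by rw [hc']
        refine ⟨c'.1, ⟨c'.2, ?_, ?_⟩, ?_⟩
        · rw [hx c', hc'']; exact h2
        · rw [sum_ofSupp, ← key c', hc'', ← sum_ofSupp]; exact h3
        · simp only [c'.2, dif_pos]; exact hc''
      · rintro ⟨c', ⟨h1, h2, h3⟩, rfl⟩
        simp only [h1, dif_pos]
        refine ⟨(x ⟨c', h1⟩).2, (hx ⟨c', h1⟩).1 h2, ?_⟩
        rw [sum_ofSupp, key, ← sum_ofSupp]; exact h3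
    rw [h, Set.InjOn.ncard_image]
    rintro a ⟨ha, -⟩ b ⟨hb, -⟩ hab
    simp only [ha, hb, dif_pos] at hab
    have := x.injective (Subtype.ext hab)
    exact congrArg Subtype.val this
  rw [TS_two hs] at hcount
  refine ⟨t, ?_, key⟩
  have h5 : t.card = 0 ∨ t.card = 2 ∨ t.card = 4 := by omega
  rcases h5 with h5 | h5 | h5
  · exfalso
    have : t = ∅ := Finset.card_eq_zero.mp h5
    rw [this] at hcount
    have e : ofSupp (∅ : Finset GolayPt) = 0 := by funext p; simp [ofSupp]
    rw [e, TS_zero] at hcount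
    omega
  · exact h5
  · exfalso
    rw [TS_four h5] at hcount
    omega

theorem card_sum3 {s t u : Finset GolayPt} (hs : s.card = 2) (ht : t.card = 2) (hu : u.card = 2)
    (h : ∀ c ∈ golayCode, ∑ p ∈ s, c p + ∑ p ∈ t, c p + ∑ p ∈ u, c p = 0) : symmDiff s t = u := by
  have h1 : symmDiff (symmDiff s t) u = ∅ := by
    apply small_eq
    · intro c hc
      rw [sum_symmDiff, sum_symmDiff]; exact h c hc
    · have := card_symmDiff s t
      have := card_symmDiff (symmDiff s t) u
      omega
  exact symmDiff_eq_bot.mp h1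

/-- main step: the automorphism is a permutation modulo the all-one word -/
theorem main {x : golayCode ≃ₗ[ZMod 2] golayCode}
    (hx1 : (x ⟨_, one_mem''⟩ : golayCode).1 = fun _ => (1 : ZMod 2))
    (hx : ∀ c : golayCode, ((support₂ c.1).card = 8 ∨ (support₂ c.1).card = 16) ↔
      ((support₂ (x c).1).card = 8 ∨ (support₂ (x c).1).card = 16)) :
    ∃ (a : GolayPt) (f : GolayPt → GolayPt), ∀ (i : GolayPt) (c : golayCode),
      (x c).1 none + (x c).1 i = c.1 a + c.1 (f i) := by
  have hD : ∀ i : GolayPt, i ≠ none → ∃ t : Finset GolayPt, t.card = 2 ∧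
      ∀ c : golayCode, (x c).1 none + (x c).1 i = ∑ p ∈ t, c.1 p := by
    intro i hi
    obtain ⟨t, ht, h⟩ := duad hx1 hx (Finset.card_pair hi.symm)
    refine ⟨t, ht, fun c => ?_⟩
    rw [← h c, Finset.sum_pair hi.symm]
  have hinter : ∀ i j : GolayPt, i ≠ none → j ≠ none → i ≠ j → ∀ s t : Finset GolayPt, s.card = 2 → t.card = 2 →
      (∀ c : golayCode, (x c).1 none + (x c).1 i = ∑ p ∈ s, c.1 p) →
      (∀ c : golayCode, (x c).1 none + (x c).1 j = ∑ p ∈ t, c.1 p) → (s ∩ t).card = 1 := by
    intro i j hi hj hij s t hs ht h1 h2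
    obtain ⟨u, hu, h3⟩ := duad hx1 hx (Finset.card_pair hij)
    have h4 : symmDiff s t = u := by
      apply card_sum3 hs ht hu
      intro c hc
      have a1 := h1 ⟨c, hc⟩
      have a2 := h2 ⟨c, hc⟩
      have a3 := h3 ⟨c, hc⟩
      rw [Finset.sum_pair hij] at a3
      rw [← a1, ← a2, ← a3]
      generalize (x ⟨c, hc⟩).1 none = A
      generalize (x ⟨c, hc⟩).1 i = B
      generalize (x ⟨c, hc⟩).1 j = C
      revert A B C
      decide
    have h5 := card_symmDiff s t
    rw [h4] at h5
    omega
  have n0 : (some 0 : GolayPt) ≠ none := by decide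
  have n1 : (some 1 : GolayPt) ≠ none := by decide
  have n01 : (some 0 : GolayPt) ≠ some 1 := by decide
  obtain ⟨s0, hs0, h0⟩ := hD (some 0) n0
  obtain ⟨s1, hs1, h1⟩ := hD (some 1) n1
  have h01 := hinter _ _ n0 n1 n01 s0 s1 hs0 hs1 h0 h1
  obtain ⟨a, ha⟩ := Finset.card_eq_one.mp h01
  have ha0 : a ∈ s0 := by
    have : a ∈ s0 ∩ s1 := by rw [ha]; exact Finset.mem_singleton_self a
    exact (Finset.mem_inter.mp this).1
  have ha1 : a ∈ s1 := by
    have : a ∈ s0 ∩ s1 := by rw [ha]; exact Finset.mem_singleton_self a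
    exact (Finset.mem_inter.mp this).2
  have hex : ∀ i : GolayPt, ∃ b : GolayPt, ∀ c : golayCode, (x c).1 none + (x c).1 i = c.1 a + c.1 b := by
    intro i
    by_cases hi : i = none
    · subst hi
      exact ⟨a, fun c => by rw [CharTwo.add_self_eq_zero, CharTwo.add_self_eq_zero]⟩
    · obtain ⟨s, hs, h⟩ := hD i hi
      have has : a ∈ s := by
        by_contra hna
        have hi0 : i ≠ some 0 := by
          rintro rfl
          apply hna
          have : symmDiff s0 s = ∅ := by
            apply small_eq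
            · intro c hc
              rw [sum_symmDiff, ← h0 ⟨c, hc⟩, ← h ⟨c, hc⟩]
              exact CharTwo.add_self_eq_zero _
            · have := card_symmDiff s0 s; omega
          rw [← symmDiff_eq_bot.mp this]; exact ha0
        have hi1 : i ≠ some 1 := by
          rintro rfl
          apply hna
          have : symmDiff s1 s = ∅ := by
            apply small_eq
            · intro c hc
              rw [sum_symmDiff, ← h1 ⟨c, hc⟩, ← h ⟨c, hc⟩]
              exact CharTwo.add_self_eq_zero _
            · have := card_symmDiff s1 s; omega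
          rw [← symmDiff_eq_bot.mp this]; exact ha1
        have e0 := hinter _ _ hi n0 hi0 s s0 hs hs0 h h0
        have e1 := hinter _ _ hi n1 hi1 s s1 hs hs1 h h1
        have hsub : symmDiff s0 s1 = s := by
          have hc2 := card_symmDiff s0 s1
          have hsub' : s ⊆ symmDiff s0 s1 := by
            -- s meets s0 \ a and s1 \ a
            obtain ⟨b, hb⟩ := Finset.card_eq_one.mp e0
            obtain ⟨d, hd⟩ := Finset.card_eq_one.mp e1
            have hb' : b ∈ s ∩ s0 := by rw [hb]; exact Finset.mem_singleton_self b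
            have hd' : d ∈ s ∩ s1 := by rw [hd]; exact Finset.mem_singleton_self d
            rw [Finset.mem_inter] at hb' hd'
            have hbd : b ≠ d := by
              rintro rfl
              have : b ∈ s0 ∩ s1 := Finset.mem_inter.mpr ⟨hb'.2, hd'.2⟩
              rw [ha, Finset.mem_singleton] at this
              rw [this] at hb'
              exact hna hb'.1
            have hs_eq : ({b, d} : Finset GolayPt) = s := by
              apply Finset.eq_of_subset_of_card_le
              · intro p hp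
                rw [Finset.mem_insert, Finset.mem_singleton] at hp
                rcases hp with rfl | rfl
                · exact hb'.1
                · exact hd'.1
              · rw [hs, Finset.card_pair hbd]
            have hb1 : b ∉ s1 := by
              intro hbs
              have : b ∈ s0 ∩ s1 := Finset.mem_inter.mpr ⟨hb'.2, hbs⟩
              rw [ha, Finset.mem_singleton] at this
              rw [this] at hb'
              exact hna hb'.1
            have hd0 : d ∉ s0 := by
              intro hds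
              have : d ∈ s0 ∩ s1 := Finset.mem_inter.mpr ⟨hds, hd'.2⟩
              rw [ha, Finset.mem_singleton] at this
              rw [this] at hd'
              exact hna hd'.1
            rw [← hs_eq]
            intro p hp
            rw [Finset.mem_insert, Finset.mem_singleton] at hp
            rw [Finset.mem_symmDiff]
            rcases hp with rfl | rfl
            · exact Or.inl ⟨hb'.2, hb1⟩
            · exact Or.inr ⟨hd'.2, hd0⟩
          exact (Finset.eq_of_subset_of_card_le hsub' (by omega)).symm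
        -- contradiction via surjectivity
        have hz : ∀ c ∈ golayCode, ∑ p ∈ ({none, some 0, some 1, i} : Finset GolayPt), c p = 0 := by
          intro c hc
          obtain ⟨c', hc'⟩ := x.surjective ⟨c, hc⟩
          have hc'' : (x c').1 = c := by rw [hc']
          have b0 := h0 c'
          have b1 := h1 c'
          have b2 := h c'
          rw [← hsub, sum_symmDiff, ← b0, ← b1, hc''] at b2
          rw [Finset.sum_insert, Finset.sum_insert, Finset.sum_insert, Finset.sum_singleton]
          · revert b2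
            generalize c none = A
            generalize c (some 0) = B
            generalize c (some 1) = C
            generalize c i = D
            revert A B C D
            decide
          · simpa using hi1.symm
          · simp only [Finset.mem_insert, Finset.mem_singleton, not_or]
            exact ⟨n01, hi0.symm⟩
          · simp only [Finset.mem_insert, Finset.mem_singleton, not_or]
            exact ⟨n0.symm, n1.symm, fun h => hi h.symm⟩
        have := small_eq hz (lt_of_le_of_lt (Finset.card_le_four) (by norm_num))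
        exact (Finset.insert_ne_empty _ _) this
      obtain ⟨b, hb⟩ : ∃ b, s = {a, b} ∧ a ≠ b := by
        obtain ⟨p, q, hpq, rfl⟩ := Finset.card_eq_two.mp hs
        rw [Finset.mem_insert, Finset.mem_singleton] at has
        rcases has with rfl | rfl
        · exact ⟨q, rfl, hpq⟩
        · exact ⟨p, Finset.pair_comm _ _, hpq.symm⟩
      refine ⟨b, fun c => ?_⟩
      rw [h c, hb.1, Finset.sum_pair hb.2]
  choose f hf using hex
  exact ⟨a, f, hf⟩

/-- Let X be a group of linear automorphisms of the length-24 binary Golay code of the definitions that fix the all-ones word, containing the coordinate-permutation action of every element of the code's automorphism group (the Mathieu group of degree 24), and such that every element of X sends each codeword into its orbit under that Mathieu group up to adding the all-ones word (X has the same orbits as the Mathieu group on the code modulo the all-ones word). Then every element of X agrees, modulo the all-ones word, with the action of a single element of the Mathieu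 group: X induces exactly the Mathieu group on the code modulo the all-ones word. -/
theorem result (X : Subgroup (↥Cfsg.golayCode ≃ₗ[ZMod 2] ↥Cfsg.golayCode)) (h1 : ∀ x ∈ X, ∀ e : ↥Cfsg.golayCode, (e : (Cfsg.GolayPt → ZMod 2)) = (fun _ => (1 : ZMod 2)) → x e = e) (hM : ∀ σ ∈ Cfsg.M24, ∃ x ∈ X, ∀ c : ↥Cfsg.golayCode, ((x c : ↥Cfsg.golayCode) : (Cfsg.GolayPt → ZMod 2)) = fun p => (c : (Cfsg.GolayPt → ZMod 2)) (σ.symm p)) (horb : ∀ x ∈ X, ∀ c : ↥Cfsg.golayCode, ∃ σ ∈ Cfsg.M24, ((x c : ↥Cfsg.golayCode) : (Cfsg.GolayPt → ZMod 2)) = (fun p => (c : (Cfsg.GolayPt → ZMod 2)) (σ.symm p)) ∨ ((x c : ↥Cfsg.golayCode) : (Cfsg.GolayPt → ZMod 2)) = (fun p => (c : (Cfsg.GolayPt → ZMod 2)) (σ.symm p)) + fun _ => (1 : ZMod 2)) (x : ↥Cfsg.golayCode ≃ₗ[ZMod 2] ↥Cfsg.golayCode) (hx : x ∈ X) : ∃ σ ∈ Cfsg.M24, ∀ c : ↥Cfsg.golayCode, ((x c : ↥Cfsg.golayCode) : (Cfsg.GolayPt → ZMod 2)) = (fun p => (c : (Cfsg.GolayPt → ZMod 2)) (σ.symm p)) ∨ ((x c : ↥Cfsg.golayCode) : (Cfsg.GolayPt → ZMod 2)) = (fun p => (c : (Cfsg.GolayPt → ZMod 2))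 (σ.symm p)) + fun _ => (1 : ZMod 2) := by
  have htype : ∀ c : ↥Cfsg.golayCode, ((Cfsg.support₂ c.1).card = 8 ∨ (Cfsg.support₂ c.1).card = 16) ↔
      ((Cfsg.support₂ (x c).1).card = 8 ∨ (Cfsg.support₂ (x c).1).card = 16) := by
    intro c
    obtain ⟨σ, hσ, h | h⟩ := horb x hx c
    · have e : (x c).1 = sh σ c.1 := h
      rw [e, card_sh]
    · have e : (x c).1 = sh σ c.1 + fun _ => (1 : ZMod 2) := h
      rw [e, card_add_one, card_sh]
      have := weight_cases (⟨c.1, c.2, rfl⟩ : Cfsg.support₂ c.1 ∈ GS)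
      omega
  have hx1 : (x ⟨_, one_mem''⟩ : ↥Cfsg.golayCode).1 = fun _ => (1 : ZMod 2) := by
    rw [h1 x hx ⟨_, one_mem''⟩ rfl]
  obtain ⟨a, f, hf⟩ := main hx1 htype
  have hinj : Function.Injective f := by
    intro i j hij
    by_contra hne
    have hz : ∀ c ∈ Cfsg.golayCode, ∑ p ∈ ({i, j} : Finset Cfsg.GolayPt), c p = 0 := by
      intro c hc
      obtain ⟨c', hc'⟩ := x.surjective ⟨c, hc⟩
      have hc'' : (x c').1 = c := by rw [hc']
      have b1 := hf i c'
      have b2 := hf j c'
      rw [← hij, ← b1, hc''] at b2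
      rw [Finset.sum_pair hne]
      revert b2
      generalize c none = A
      generalize c i = B
      generalize c j = C
      revert A B C
      decide
    have := small_eq hz (by rw [Finset.card_pair hne]; norm_num)
    exact (Finset.insert_ne_empty _ _) this
  let π : Equiv.Perm Cfsg.GolayPt := Equiv.ofBijective f (Finite.injective_iff_bijective.mp hinj)
  have hπ : ∀ c : ↥Cfsg.golayCode, (x c).1 = sh π⁻¹ c.1 ∨ (x c).1 = sh π⁻¹ c.1 + fun _ => (1 : ZMod 2) := by
    intro c
    have h2 : ∀ i, (x c).1 i = c.1 (f i) + ((x c).1 none + c.1 a) := by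
      intro i
      have := hf i c
      revert this
      generalize (x c).1 none = A
      generalize (x c).1 i = B
      generalize c.1 a = C
      generalize c.1 (f i) = D
      revert A B C D
      decide
    have hz2 : ∀ a : ZMod 2, a = 0 ∨ a = 1 := by decide
    rcases hz2 ((x c).1 none + c.1 a) with h3 | h3
    · left
      funext i
      rw [h2 i, h3, add_zero]
      rfl
    · right
      funext i
      rw [h2 i, h3]
      rfl
  have hmem : π⁻¹ ∈ Cfsg.M24 := by
    rw [mem_M24_iff]
    intro s hs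
    rw [mem_supports_iff] at hs ⊢
    rw [← sh_ofSupp]
    rcases hπ ⟨_, hs⟩ with h | h
    · rw [← h]; exact (x _).2
    · have h4 : sh π⁻¹ (ofSupp s) = (x ⟨_, hs⟩).1 + fun _ => (1 : ZMod 2) := by
        rw [h, add_assoc]
        funext p
        simp only [Pi.add_apply]
        rw [CharTwo.add_self_eq_zero, add_zero]
      rw [h4]
      exact Cfsg.golayCode.add_mem (x _).2 one_mem''
  exact ⟨π⁻¹, hmem, hπ⟩

end Cfsg.Agent.S5549
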