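import Cfsg.Statements.S5550
import Mathlib
import Cfsg.Agent.Lib.H93.GolayMod

set_option autoImplicit false
open Cfsg

namespace Cfsg.Agent.S5550


open H8.GolayCode H8.GolayCount H8.GolayBasic H8.M24Mem H8.M24Trans H93.GolayMod

theorem sum_sh (σ : Equiv.Perm Cfsg.GolayPt) (c w : Cfsg.GolayPt → ZMod 2) :
    ∑ p, sh σ c p * w p = ∑ p, c p * sh σ⁻¹ w p := by
  rw [← Equiv.sum_comp σ (fun p => sh σ c p * w p)]
  apply Finset.sum_congr rfl
  intro p _
  have e1 : sh σ c (σ p) = c p := by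
    rw [sh_apply]
    exact congrArg c (σ.symm_apply_apply p)
  have e2 : sh σ⁻¹ w p = w (σ p) := rfl
  rw [e1, e2]

theorem step_zero {σ : Equiv.Perm Cfsg.GolayPt} (hσ : σ ∈ Cfsg.M24) {w : Cfsg.GolayPt → ZMod 2}
    (h : sh σ w - w ∈ Cfsg.golayCode) {c : Cfsg.GolayPt → ZMod 2} (hc : c ∈ Cfsg.golayCode) :
    ∑ p, (c + sh σ c) p * w p = 0 := by
  have h0 : sh σ⁻¹ w - w ∈ Cfsg.golayCode := by
    have h1 := sh_mem (Cfsg.M24.inv_mem hσ) h
    rw [map_sub, ← sh_mul, inv_mul_cancel, sh_one] at h1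
    have h2 := Cfsg.golayCode.neg_mem h1
    rwa [neg_sub] at h2
  have h1 : ∑ p, c p * (sh σ⁻¹ w - w) p = 0 := golay_orth hc h0
  have h2 : ∑ p, (c + sh σ c) p * w p = ∑ p, c p * w p + ∑ p, sh σ c p * w p := by
    rw [← Finset.sum_add_distrib]
    apply Finset.sum_congr rfl
    intro p _
    rw [Pi.add_apply, add_mul]
  rw [h2, sum_sh]
  have h3 : ∑ p, c p * (sh σ⁻¹ w - w) p = ∑ p, c p * sh σ⁻¹ w p - ∑ p, c p * w p := by
    rw [← Finset.sum_sub_distrib]
    apply Finset.sum_congr rfl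
    intro p _
    rw [Pi.sub_apply, mul_sub]
  rw [h3, sub_eq_zero] at h1
  rw [h1]
  exact CharTwo.add_self_eq_zero _

theorem base_case {g1 g2 : Equiv.Perm Cfsg.GolayPt} {c1 c2 : ℕ} (t1 : ∀ p, idx (g1 p) = tab c1 (idx p))
    (t2 : ∀ p, idx (g2 p) = tab c2 (idx p)) (m1 : g1 ∈ Cfsg.M24) (m2 : g2 ∈ Cfsg.M24) {L : List (ℕ × ℕ)}
    (hL : L.map (fun p => stepN c1 (cw p.1) ^^^ stepN c2 (cw p.2)) = basisL) {w : Cfsg.GolayPt → ZMod 2}
    (h1 : sh g1 w - w ∈ Cfsg.golayCode) (h2 : sh g2 w - w ∈ Cfsg.golayCode) : w ∈ Cfsg.golayCode := by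
  apply H93.GolayDual.mem_of_orth
  have hle : Cfsg.golayCode ≤ LinearMap.ker (Fintype.linearCombination (ZMod 2) w) := by
    apply golay_le_of_basis
    intro b hb
    rw [← hL, List.mem_map] at hb
    obtain ⟨⟨x, y⟩, _, rfl⟩ := hb
    rw [LinearMap.mem_ker, Fintype.linearCombination_apply]
    simp only [smul_eq_mul]
    have e1 : ∀ (c : ℕ) (g : Equiv.Perm Cfsg.GolayPt) (_ : ∀ p, idx (g p) = tab c (idx p)) (n : ℕ),
        wd (stepN c n) = wd n + sh g (wd n) := by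
      intro c g hg n
      rw [sh_wd hg]
      exact wd_xor _ _
    rw [wd_xor, e1 c1 g1 t1, e1 c2 g2 t2]
    simp only [Pi.add_apply, add_mul, Finset.sum_add_distrib]
    have a1 := step_zero m1 h1 (wd_cw_mem x)
    have a2 := step_zero m2 h2 (wd_cw_mem y)
    simp only [Pi.add_apply, add_mul, Finset.sum_add_distrib] at a1 a2
    rw [a1, a2, add_zero]
  intro c hc
  have := hle hc
  rw [LinearMap.mem_ker, Fintype.linearCombination_apply] at this
  simpa only [smul_eq_mul] using this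

def a1 : Equiv.Perm Cfsg.GolayPt := permT (tab 0x640553dc167c54e59464485b3450d2) (tab 0x94282201d67b0b75b4e3985484d4d1)
  (by decide +kernel)
def a2 : Equiv.Perm Cfsg.GolayPt := permT (tab 0x639e62da40ac5706cc8740829a0d57) (tab 0x49e3545ccad9776848745269118b0)
  (by decide +kernel)
def d1 : Equiv.Perm Cfsg.GolayPt := permT (tab 0x1bc86ade122ad3345947a39a20822c) (tab 0x92a6764031b18a0725ab451f5b9062)
  (by decide +kernel)
def d2 : Equiv.Perm Cfsg.GolayPt := permT (tab 0x2205484c2c4b5e0b2d45338f21c6f5) (tab 0xac1491053699d0525f629d171d62c)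
  (by decide +kernel)

theorem a1_mem : a1 ∈ Cfsg.M24 := permT_mem _ (by decide +kernel)
theorem a2_mem : a2 ∈ Cfsg.M24 := permT_mem _ (by decide +kernel)
theorem d1_mem : d1 ∈ Cfsg.M24 := permT_mem _ (by decide +kernel)
theorem d2_mem : d2 ∈ Cfsg.M24 := permT_mem _ (by decide +kernel)

/-- base dodecad -/
def D0 : Finset Cfsg.GolayPt := Cfsg.support₂ (wd 0xaf101f)

theorem D0_mem : D0 ∈ Cfsg.dodecads :=
  ⟨support_wd_mem_GS (by norm_num) (by decide +kernel), by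
    unfold D0; rw [card_support_wd (by norm_num)]; decide +kernel⟩

theorem a1_fix : O0.image a1 = O0 := by
  unfold O0
  rw [image_support (g := a1) (permT_idx _)]
  congr 2
theorem a2_fix : O0.image a2 = O0 := by
  unfold O0
  rw [image_support (g := a2) (permT_idx _)]
  congr 2
theorem d1_fix : D0.image d1 = D0 := by
  unfold D0
  rw [image_support (g := d1) (permT_idx _)]
  congr 2
theorem d2_fix : D0.image d2 = D0 := by
  unfold D0
  rw [image_support (g := d2) (permT_idx _)]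
  congr 2

theorem base_O {w : Cfsg.GolayPt → ZMod 2} (h1 : sh a1 w - w ∈ Cfsg.golayCode)
    (h2 : sh a2 w - w ∈ Cfsg.golayCode) : w ∈ Cfsg.golayCode :=
  base_case (permT_idx _) (permT_idx _) a1_mem a2_mem
    (L := [(1056, 0), (306, 128), (150, 18), (1408, 152), (168, 152), (1028, 0), (1448, 24), (1034, 138), (1446, 18), (1184, 0), (146, 18), (388, 144)])
    (by decide +kernel) h1 h2

theorem base_D {w : Cfsg.GolayPt → ZMod 2} (h1 : sh d1 w - w ∈ Cfsg.golayCode)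
    (h2 : sh d2 w - w ∈ Cfsg.golayCode) : w ∈ Cfsg.golayCode :=
  base_case (permT_idx _) (permT_idx _) d1_mem d2_mem
    (L := [(45, 5), (1582, 5), (1635, 5), (2018, 1), (420, 4), (386, 1), (74, 0), (1670, 5), (1930, 0), (96, 0), (1088, 0), (1998, 4)])
    (by decide +kernel) h1 h2

/-- transport -/
theorem transport {τ g1 g2 : Equiv.Perm Cfsg.GolayPt} (hτ : τ ∈ Cfsg.M24) (m1 : g1 ∈ Cfsg.M24)
    (m2 : g2 ∈ Cfsg.M24)
    (hb : ∀ w : Cfsg.GolayPt → ZMod 2, sh g1 w - w ∈ Cfsg.golayCode → sh g2 w - w ∈ Cfsg.golayCode → w ∈ Cfsg.golayCode)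
    {u : Cfsg.GolayPt → ZMod 2} (f1 : sh g1 (sh τ⁻¹ u) = sh τ⁻¹ u) (f2 : sh g2 (sh τ⁻¹ u) = sh τ⁻¹ u)
    {w : Cfsg.GolayPt → ZMod 2} (hw : w ∉ Cfsg.golayCode) :
    ∃ σ ∈ Cfsg.M24, sh σ u = u ∧ sh σ w - w ∉ Cfsg.golayCode := by
  by_contra hcon
  have hcon' : ∀ σ ∈ Cfsg.M24, sh σ u = u → sh σ w - w ∈ Cfsg.golayCode := by
    intro σ hσ hu
    by_contra h
    exact hcon ⟨σ, hσ, hu, h⟩
  have key : ∀ g ∈ Cfsg.M24, sh g (sh τ⁻¹ u) = sh τ⁻¹ u → sh g (sh τ⁻¹ w) - sh τ⁻¹ w ∈ Cfsg.golayCode := by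
    intro g hg hf
    have h1 := hcon' (τ * g * τ⁻¹) (Cfsg.M24.mul_mem (Cfsg.M24.mul_mem hτ hg) (Cfsg.M24.inv_mem hτ)) (by
      rw [sh_mul, sh_mul, hf, ← sh_mul, mul_inv_cancel, sh_one])
    have h2 := sh_mem (Cfsg.M24.inv_mem hτ) h1
    rw [map_sub, ← sh_mul] at h2
    have e : τ⁻¹ * (τ * g * τ⁻¹) = g * τ⁻¹ := by group
    rw [e, sh_mul] at h2
    exact h2
  have h3 := hb _ (key g1 m1 f1) (key g2 m2 f2)
  have h4 := sh_mem hτ h3
  rw [← sh_mul, mul_inv_cancel, sh_one] at h4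
  exact hw h4

theorem sh_one_word (σ : Equiv.Perm Cfsg.GolayPt) : sh σ (1 : Cfsg.GolayPt → ZMod 2) = 1 := rfl

theorem ofSupp_compl (s : Finset Cfsg.GolayPt) : ofSupp sᶜ = 1 + ofSupp s := by
  funext p
  simp only [ofSupp, Finset.mem_compl, Pi.add_apply, Pi.one_apply]
  by_cases h : p ∈ s
  · rw [if_neg (not_not.mpr h), if_pos h]; decide
  · rw [if_pos h, if_neg h]; decide

/-- Let u be a word of the length-24 binary Golay code of the definitions (possibly zero or all-ones) and w any binary word of length 24 outside the code. Then some automorphism of the code (a coordinate permutation preserving it) fixes u but moves w to a word not congruent to w modulo the code: the stabilizer of a codeword fixes no non-zero element of the quotient of the space of all words by the code. -/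
theorem result (u : (Cfsg.GolayPt → ZMod 2)) (hu : u ∈ Cfsg.golayCode) (w : (Cfsg.GolayPt → ZMod 2)) (hw : w ∉ Cfsg.golayCode) : ∃ σ ∈ Cfsg.M24, (fun p => u (σ.symm p)) = u ∧ (fun p => w (σ.symm p)) - w ∉ Cfsg.golayCode := by
  have hs : Cfsg.support₂ u ∈ GS := ⟨u, hu, rfl⟩
  have hu' : ofSupp (Cfsg.support₂ u) = u := ofSupp_support u
  have hfixO : ∀ {τ : Equiv.Perm Cfsg.GolayPt} {o : Finset Cfsg.GolayPt}, O0.image τ = o →
      ∀ g : Equiv.Perm Cfsg.GolayPt, O0.image g = O0 → sh g (sh τ⁻¹ (ofSupp o)) = sh τ⁻¹ (ofSupp o) := by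
    intro τ o h g hg
    rw [sh_ofSupp, image_inv h, sh_ofSupp, hg]
  rcases weight_cases hs with h | h | h | h | h
  · have h0 : u = 0 := by
      rw [← hu', Finset.card_eq_zero.mp h]
      rfl
    subst h0
    have z1 : ∀ g : Equiv.Perm Cfsg.GolayPt, sh g (sh (1 : Equiv.Perm Cfsg.GolayPt)⁻¹ 0) =
        sh (1 : Equiv.Perm Cfsg.GolayPt)⁻¹ 0 := fun g => by rw [map_zero, map_zero]
    exact transport (τ := 1) Cfsg.M24.one_mem a1_mem a2_mem (fun _ => base_O) (z1 _) (z1 _) hw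
  · obtain ⟨τ, hτ, h2⟩ := octad_trans O0_mem (⟨hs, h⟩ : Cfsg.support₂ u ∈ Cfsg.octads)
    rw [← hu']
    exact transport hτ a1_mem a2_mem (fun _ => base_O) (hfixO h2 _ a1_fix) (hfixO h2 _ a2_fix) hw
  · obtain ⟨τ, hτ, h2⟩ := dodecad_trans D0_mem (⟨hs, h⟩ : Cfsg.support₂ u ∈ Cfsg.dodecads)
    rw [← hu']
    exact transport hτ d1_mem d2_mem (fun _ => base_D) (by rw [sh_ofSupp, image_inv h2, sh_ofSupp, d1_fix])
      (by rw [sh_ofSupp, image_inv h2, sh_ofSupp, d2_fix]) hw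
  · have h8 : (Cfsg.support₂ u)ᶜ.card = 8 := by
      rw [Finset.card_compl, h, card_pt]
    obtain ⟨τ, hτ, h2⟩ := octad_trans O0_mem (⟨compl_mem hs, h8⟩ : (Cfsg.support₂ u)ᶜ ∈ Cfsg.octads)
    have h3 : u = 1 + ofSupp (Cfsg.support₂ u)ᶜ := by
      rw [← ofSupp_compl, compl_compl, hu']
    rw [h3]
    have z1 : ∀ g : Equiv.Perm Cfsg.GolayPt, O0.image g = O0 →
        sh g (sh τ⁻¹ (1 + ofSupp (Cfsg.support₂ u)ᶜ)) = sh τ⁻¹ (1 + ofSupp (Cfsg.support₂ u)ᶜ) := fun g hg => by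
      rw [map_add, map_add, sh_one_word, sh_one_word, hfixO h2 _ hg]
    exact transport hτ a1_mem a2_mem (fun _ => base_O) (z1 _ a1_fix) (z1 _ a2_fix) hw
  · have h0 : u = 1 := by
      have : Cfsg.support₂ u = Finset.univ := by
        apply (Finset.card_eq_iff_eq_univ _).mp
        rw [h, card_pt]
      rw [← hu', this]
      funext p
      simp [ofSupp]
    subst h0
    exact transport (τ := 1) Cfsg.M24.one_mem a1_mem a2_mem (fun _ => base_O) rfl rfl hw

end Cfsg.Agent.S5550
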