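import Cfsg.Statements.S5551
import Mathlib
import Cfsg.Agent.Lib.H93.LeechCong

set_option autoImplicit false
open Cfsg

namespace Cfsg.Agent.S5551

/-- In the Leech lattice of the definitions (integer coordinates, minimal squared length 32), let v and w be non-zero lattice vectors of squared length at most 64 that are congruent modulo twice the lattice. Then they have the same squared length, and if that length is less than 64 then w = v or w = −v. (So a class that contains a non-zero vector of squared length at most 64 has a well-defined type 2, 3 or 4, and a class of type 2 or 3 contains no such vector other than v and −v.) -/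
theorem result (v w : Cfsg.GolayPt → ℤ) (hv : v ∈ Cfsg.leechLattice) (hw : w ∈ Cfsg.leechLattice) (hv0 : v ≠ 0) (hw0 : w ≠ 0) (hvn : Cfsg.sqNorm v ≤ 64) (hwn : Cfsg.sqNorm w ≤ 64) (hc : ∃ z ∈ Cfsg.leechLattice, v - w = 2 • z) : Cfsg.sqNorm v = Cfsg.sqNorm w ∧ (Cfsg.sqNorm v < 64 → w = v ∨ w = -v) := by
  by_cases h1 : v = w
  · subst h1
    exact ⟨rfl, fun _ => Or.inl rfl⟩
  · by_cases h2 : v = -w
    · subst h2
      exact ⟨H9.Leech.sqNorm_neg w, fun _ => Or.inr (neg_neg w).symm⟩
    · obtain ⟨e1, e2, _⟩ := H93.LeechCong.key hw hvn hwn hc h1 h2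
      exact ⟨e1.trans e2.symm, fun h => absurd h (by rw [e1]; exact lt_irrefl _)⟩

end Cfsg.Agent.S5551
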