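import Cfsg.Statements.S5552
import Mathlib
import Cfsg.Agent.Lib.H9.Trans

set_option autoImplicit false
open Cfsg

namespace Cfsg.Agent.S5552


open Cfsg H9.Leech H8.GolayBasic H8.GolayCode H8.GolayCount H9.LeechGood H9.Trans

theorem const {Q : leechLattice → ZMod 2} (hinv : ∀ (g : Co0) (v : leechLattice), Q (g • v) = Q v)
    {v w : leechLattice} {n : ℤ} (hn : n = 32 ∨ n = 48 ∨ n = 64) (hv : sqNorm (v : GolayPt → ℤ) = n)
    (hw : sqNorm (w : GolayPt → ℤ) = n) : Q v = Q w := by
  have : ∃ g : Co0, g • v = w := by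
    rcases hn with rfl | rfl | rfl
    · exact trans32 hv hw
    · exact trans48 hv hw
    · exact trans64 hv hw
  obtain ⟨g, rfl⟩ := this
  rw [hinv]

/-- explicit lattice vectors -/
def uF : GolayPt → ℤ := fun p => if idx p = 23 then -3 else 1
def aF : GolayPt → ℤ := fun p => if idx p = 1 ∨ idx p = 12 then -4 else 0
def bF : GolayPt → ℤ := fun p => (if (0x49f002 : ℕ).testBit (idx p) then -2 else 0) + (if idx p = 1 ∨ idx p = 12 then 4 else 0)
def v1F : GolayPt → ℤ := fun p => if idx p = 1 ∨ idx p = 2 then 4 else 0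
def v2F : GolayPt → ℤ := fun p => if idx p = 2 ∨ idx p = 3 then -4 else 0
def v3F : GolayPt → ℤ := fun p => if idx p = 2 then -4 else if idx p = 3 then 4 else 0

theorem oct_mem : support₂ (wd 0x49f002) ∈ GS := H8.M24Mem.support_wd_mem_GS (by norm_num) (by decide +kernel)

theorem u_mem : uF ∈ leechLattice :=
  Rep.mem_leech (m := 1) (c := ∅) (y := fun p => if idx p = 23 then -1 else 0)
    ⟨empty_mem, by decide +kernel, ⟨-1, by decide +kernel⟩⟩

theorem a_mem : aF ∈ leechLattice :=
  Rep.mem_leech (m := 0) (c := ∅) (y := fun p => if idx p = 1 ∨ idx p = 12 then -1 else 0)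
    ⟨empty_mem, by decide +kernel, ⟨-1, by decide +kernel⟩⟩

theorem ind_oct (p : GolayPt) : ind (support₂ (wd 0x49f002)) p = if (0x49f002 : ℕ).testBit (idx p) then 1 else 0 := by
  unfold ind
  congr 1
  rw [mem_support_wd]

theorem b_mem : bF ∈ leechLattice :=
  Rep.mem_leech (m := 0) (c := support₂ (wd 0x49f002))
    (y := fun p => (if (0x49f002 : ℕ).testBit (idx p) then -1 else 0) + (if idx p = 1 ∨ idx p = 12 then 1 else 0))
    ⟨oct_mem, by
      intro p
      rw [ind_oct]
      revert p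
      decide +kernel, ⟨-3, by decide +kernel⟩⟩

theorem v1_mem : v1F ∈ leechLattice :=
  Rep.mem_leech (m := 0) (c := ∅) (y := fun p => if idx p = 1 ∨ idx p = 2 then 1 else 0)
    ⟨empty_mem, by decide +kernel, ⟨1, by decide +kernel⟩⟩

theorem v2_mem : v2F ∈ leechLattice :=
  Rep.mem_leech (m := 0) (c := ∅) (y := fun p => if idx p = 2 ∨ idx p = 3 then -1 else 0)
    ⟨empty_mem, by decide +kernel, ⟨-1, by decide +kernel⟩⟩

theorem v3_mem : v3F ∈ leechLattice :=
  Rep.mem_leech (m := 0) (c := ∅) (y := fun p => if idx p = 2 then -1 else if idx p = 3 then 1 else 0)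
    ⟨empty_mem, by decide +kernel, ⟨0, by decide +kernel⟩⟩

theorem par_mod (s z : leechLattice) : ∃ t : ℤ, sqNorm ((s + (z + z) : leechLattice) : GolayPt → ℤ) =
    sqNorm (s : GolayPt → ℤ) + 32 * t := by
  have e1 : ((s + (z + z) : leechLattice) : GolayPt → ℤ) = s.1 + (z.1 + z.1) := rfl
  have e2 : dotInt s.1 (z.1 + z.1) = 2 * dotInt s.1 z.1 := by
    unfold dotInt
    rw [Finset.mul_sum]
    apply Finset.sum_congr rfl
    intro i _
    rw [Pi.add_apply]; ring
  have e3 : dotInt z.1 z.1 = sqNorm z.1 := by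
    unfold dotInt sqNorm
    apply Finset.sum_congr rfl
    intro i _
    ring
  obtain ⟨a, ha⟩ := eight_dvd s.2 z.2
  obtain ⟨b, hb⟩ := sixteen_dvd z.2
  rw [e1, H9.Leech.sqNorm_add, H9.Leech.sqNorm_add z.1 z.1, e2, e3, ha, hb]
  exact ⟨a + 2 * b, by ring⟩

/-- On the Leech lattice of the definitions, let Q be a function to the field with two elements that is constant on cosets of twice the lattice, is a quadratic form there (Q(u+v+w) + Q(u) + Q(v) + Q(w) = Q(u+v) + Q(u+w) + Q(v+w) for all u, v, w), is invariant under every lattice automorphism, and is not identically zero. Then Q(v) is the squared length of v divided by 16, reduced modulo 2, for every lattice vector v (squared lengths of lattice vectors are multiples of 16). -/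
theorem result (Q : ↥Cfsg.leechLattice → ZMod 2) (hcoset : ∀ v w : ↥Cfsg.leechLattice, Q (v + (w + w)) = Q v) (hquad : ∀ u v w : ↥Cfsg.leechLattice, Q (u + v + w) + Q u + Q v + Q w = Q (u + v) + Q (u + w) + Q (v + w)) (hinv : ∀ (g : ↥Cfsg.Co0) (v : ↥Cfsg.leechLattice), Q (g • v) = Q v) (hne : ∃ v : ↥Cfsg.leechLattice, Q v ≠ 0) (v : ↥Cfsg.leechLattice) : Q v = ((Cfsg.sqNorm (v : Cfsg.GolayPt → ℤ) / 16 : ℤ) : ZMod 2) := by
  obtain ⟨v0, hv0⟩ := hne
  have hQ0 : Q 0 = 0 := by
    have := hquad 0 0 0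
    simp only [add_zero] at this
    generalize Q 0 = A at this ⊢
    revert A
    decide
  -- relation one
  let u' : leechLattice := ⟨uF, u_mem⟩
  let a' : leechLattice := ⟨aF, a_mem⟩
  let b' : leechLattice := ⟨bF, b_mem⟩
  let v1 : leechLattice := ⟨v1F, v1_mem⟩
  let v2 : leechLattice := ⟨v2F, v2_mem⟩
  let v3 : leechLattice := ⟨v3F, v3_mem⟩
  have nu : sqNorm (u' : GolayPt → ℤ) = 32 := by decide +kernel
  have hα : ∀ w : leechLattice, sqNorm (w : GolayPt → ℤ) = 32 → Q w = 0 := by
    have h := hquad u' a' b'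
    have na : sqNorm (a' : GolayPt → ℤ) = 32 := by decide +kernel
    have nb : sqNorm (b' : GolayPt → ℤ) = 32 := by decide +kernel
    have nab : sqNorm ((a' + b' : leechLattice) : GolayPt → ℤ) = 32 := by decide +kernel
    have nuab : sqNorm ((u' + a' + b' : leechLattice) : GolayPt → ℤ) = 32 := by decide +kernel
    have nua : sqNorm ((u' + a' : leechLattice) : GolayPt → ℤ) = 48 := by decide +kernel
    have nub : sqNorm ((u' + b' : leechLattice) : GolayPt → ℤ) = 48 := by decide +kernel
    rw [const hinv (Or.inl rfl) na nu, const hinv (Or.inl rfl) nb nu, const hinv (Or.inl rfl) nab nu,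
      const hinv (Or.inl rfl) nuab nu, const hinv (Or.inr (Or.inl rfl)) nua nub] at h
    intro w hw
    rw [const hinv (Or.inl rfl) hw nu]
    generalize Q u' = A at h ⊢
    generalize Q (u' + b') = B at h
    revert A B
    decide
  have hγ : ∀ w : leechLattice, sqNorm (w : GolayPt → ℤ) = 64 → Q w = 0 := by
    have h := hquad v1 v2 v3
    have n1 : sqNorm (v1 : GolayPt → ℤ) = 32 := by decide +kernel
    have n2 : sqNorm (v2 : GolayPt → ℤ) = 32 := by decide +kernel
    have n3 : sqNorm (v3 : GolayPt → ℤ) = 32 := by decide +kernel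
    have n12 : sqNorm ((v1 + v2 : leechLattice) : GolayPt → ℤ) = 32 := by decide +kernel
    have n13 : sqNorm ((v1 + v3 : leechLattice) : GolayPt → ℤ) = 32 := by decide +kernel
    have n23 : sqNorm ((v2 + v3 : leechLattice) : GolayPt → ℤ) = 64 := by decide +kernel
    have n123 : sqNorm ((v1 + v2 + v3 : leechLattice) : GolayPt → ℤ) = 32 := by decide +kernel
    rw [hα _ n1, hα _ n2, hα _ n3, hα _ n12, hα _ n13, hα _ n123] at h
    intro w hw
    rw [const hinv (Or.inr (Or.inr rfl)) hw n23]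
    generalize Q (v2 + v3) = A at h ⊢
    revert A
    decide
  -- short representatives
  have hshort : ∀ w : leechLattice, ∃ s z : leechLattice, w = s + (z + z) ∧
      (sqNorm (s : GolayPt → ℤ) = 0 ∨ sqNorm (s : GolayPt → ℤ) = 32 ∨ sqNorm (s : GolayPt → ℤ) = 48 ∨
        sqNorm (s : GolayPt → ℤ) = 64) := by
    intro w
    obtain ⟨s, hs, z, hz⟩ := H9.ModTwo.exists_short good w
    refine ⟨s, z, ?_, ?_⟩
    · rw [← two_nsmul, ← hz]; abel
    · have h1 := eight_form_self s
      have h2 : sqNorm (s : GolayPt → ℤ) ≤ 64 := by omega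
      obtain ⟨t, ht⟩ := sixteen_dvd s.2
      have h3 := sqNorm_nonneg (s : GolayPt → ℤ)
      by_cases h0 : s = 0
      · left; rw [h0]
        show sqNorm (0 : GolayPt → ℤ) = 0
        exact sqNorm_eq_zero.mpr rfl
      · have h4 := min_norm s.2 (fun h => h0 (Subtype.ext h))
        omega
  have hval : ∀ s z : leechLattice, Q (s + (z + z)) = Q s := hcoset
  -- the value on norm 48
  have hβ : ∀ w : leechLattice, sqNorm (w : GolayPt → ℤ) = 48 → Q w = 1 := by
    intro w hw
    obtain ⟨s, z, rfl, h⟩ := hshort v0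
    rw [hval] at hv0
    rcases h with h | h | h | h
    · exfalso; apply hv0
      have : s = 0 := Subtype.ext (sqNorm_eq_zero.mp h)
      rw [this, hQ0]
    · exact absurd (hα _ h) hv0
    · rw [const hinv (Or.inr (Or.inl rfl)) hw h]
      revert hv0
      generalize Q s = A
      revert A
      decide
    · exact absurd (hγ _ h) hv0
  obtain ⟨s, z, rfl, h⟩ := hshort v
  rw [hval]
  obtain ⟨t, ht⟩ := par_mod s z
  rw [ht]
  have hdiv : ∀ k : ℤ, (16 : ℤ) ∣ k → (((k + 32 * t) / 16 : ℤ) : ZMod 2) = ((k / 16 : ℤ) : ZMod 2) := by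
    rintro _ ⟨k, rfl⟩
    have : (16 * k + 32 * t) = 16 * (k + 2 * t) := by ring
    rw [this, Int.mul_ediv_cancel_left _ (by norm_num), Int.mul_ediv_cancel_left _ (by norm_num)]
    push_cast
    have h2 : (2 : ZMod 2) = 0 := by decide
    rw [h2]; ring
  rw [hdiv _ (sixteen_dvd s.2)]
  rcases h with h | h | h | h
  · have : s = 0 := Subtype.ext (sqNorm_eq_zero.mp h)
    rw [h, this, hQ0]; rfl
  · rw [h, hα _ h]; decide
  · rw [h, hβ _ h]; decide
  · rw [h, hγ _ h]; decide

end Cfsg.Agent.S5552
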