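import Cfsg.Statements.S5553
import Mathlib
import Cfsg.Agent.Lib.H9.Leech

set_option autoImplicit false
open Cfsg

namespace Cfsg.Agent.S5553


open H9.Leech H8.GolayBasic H8.GolayCode H8.GolayCount

theorem golay_natCard : Nat.card Cfsg.golayCode = 2 ^ 12 := by
  have h : (Cfsg.golayCode : Set (Cfsg.GolayPt → ZMod 2)) = (fun k => wd (cw k)) '' (Finset.range 4096 : Set ℕ) := by
    ext w
    rw [SetLike.mem_coe, mem_golay_iff_exists]
    simp only [Set.mem_image, Finset.coe_range, Set.mem_Iio]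
    constructor
    · rintro ⟨k, hk, rfl⟩; exact ⟨k, hk, rfl⟩
    · rintro ⟨k, hk, rfl⟩; exact ⟨k, hk, rfl⟩
  have h2 : Nat.card Cfsg.golayCode = (Cfsg.golayCode : Set (Cfsg.GolayPt → ZMod 2)).ncard := rfl
  have hinj : Set.InjOn (fun k => wd (cw k)) (Finset.range 4096 : Set ℕ) := by
    intro j hj k hk hjk
    rw [Finset.coe_range, Set.mem_Iio] at hj hk
    exact cw_injOn hj hk (wd_inj (cw_lt j) (cw_lt k) hjk)
  rw [h2, h, hinj.ncard_image, Set.ncard_coe_finset, Finset.card_range]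
  norm_num

/-- the map of the lattice onto the code -/
def phiFun (x : Cfsg.GolayPt → ℤ) : Cfsg.GolayPt → ZMod 2 :=
  fun i => (((x i - x none) / 2 + x none : ℤ) : ZMod 2)

theorem phi_rep {x : Cfsg.GolayPt → ℤ} {m : ℤ} {c : Finset Cfsg.GolayPt} {y : Cfsg.GolayPt → ℤ}
    (h : Rep x m c y) (i : Cfsg.GolayPt) : phiFun x i = ((ind c i + ind c none + m : ℤ) : ZMod 2) := by
  unfold phiFun
  have e1 : (x i - x none) / 2 + x none = ind c i + ind c none + m + 2 * (y i + y none) := by
    rw [h.eq i, h.eq none]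
    have : m + 2 * ind c i + 4 * y i - (m + 2 * ind c none + 4 * y none) =
      2 * (ind c i - ind c none + 2 * (y i - y none)) := by ring
    rw [this, Int.mul_ediv_cancel_left _ (by norm_num)]
    ring
  rw [e1]
  push_cast
  have h2 : (2 : ZMod 2) = 0 := by decide
  rw [h2]; ring

theorem phi_add {x x' : Cfsg.GolayPt → ℤ} (hx : x ∈ Cfsg.leechLattice) (hx' : x' ∈ Cfsg.leechLattice) :
    phiFun (x + x') = phiFun x + phiFun x' := by
  obtain ⟨m, c, y, h⟩ := mem_iff.mp hx
  funext i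
  unfold phiFun
  have e1 : ∃ t, x i - x none = 2 * t := ⟨ind c i - ind c none + 2 * (y i - y none), by
    rw [h.eq i, h.eq none]; ring⟩
  obtain ⟨t, ht⟩ := e1
  have e2 : (x + x') i - (x + x') none = x' i - x' none + 2 * t := by
    rw [Pi.add_apply, Pi.add_apply, ← ht]; ring
  rw [e2, Pi.add_apply, Pi.add_apply, ht, Int.mul_ediv_cancel_left _ (by norm_num),
    Int.add_mul_ediv_left _ _ (by norm_num)]
  push_cast
  ring

/-- the map of the lattice onto the code, as homomorphism -/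
def phi : Cfsg.leechLattice →+ (Cfsg.GolayPt → ZMod 2) :=
  AddMonoidHom.mk' (fun x => phiFun x.1) (fun x y => phi_add x.2 y.2)

theorem phi_apply (x : Cfsg.leechLattice) : phi x = phiFun x.1 := rfl

theorem ind_eq_ofSupp (c : Finset Cfsg.GolayPt) (i : Cfsg.GolayPt) : ((ind c i : ℤ) : ZMod 2) = ofSupp c i := by
  unfold ind ofSupp
  split_ifs <;> simp

theorem one_mem' : (1 : Cfsg.GolayPt → ZMod 2) ∈ Cfsg.golayCode := by
  rw [one_eq]; exact wd_one_mem

theorem ofSupp_mem {c : Finset Cfsg.GolayPt} (hc : c ∈ GS) : ofSupp c ∈ Cfsg.golayCode :=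
  (mem_supports_iff _ _).mp hc

theorem phi_range : (phi.range : Set (Cfsg.GolayPt → ZMod 2)) = Cfsg.golayCode := by
  ext w
  constructor
  · rintro ⟨x, rfl⟩
    obtain ⟨m, c, y, h⟩ := mem_iff.mp x.2
    have : phi x = ofSupp c + ((ind c none + m : ℤ) : ZMod 2) • (1 : Cfsg.GolayPt → ZMod 2) := by
      funext i
      rw [phi_apply, phi_rep h i, Pi.add_apply, Pi.smul_apply, Pi.one_apply, smul_eq_mul, mul_one,
        ← ind_eq_ofSupp]
      push_cast; ring
    rw [this]
    exact Cfsg.golayCode.add_mem (ofSupp_mem h.mem) (Cfsg.golayCode.smul_mem _ one_mem')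
  · intro hw
    rw [SetLike.mem_coe] at hw
    have hsupp : Cfsg.support₂ w ∈ GS := ⟨w, hw, rfl⟩
    have hz2 : ∀ a : ZMod 2, a = 0 ∨ a = 1 := by decide
    rcases hz2 (w none) with h0 | h0
    · have hr : Rep (fun i => 2 * ind (Cfsg.support₂ w) i) 0 (Cfsg.support₂ w) (fun _ => 0) :=
        ⟨hsupp, fun i => by ring, ⟨0, by simp⟩⟩
      refine ⟨⟨_, hr.mem_leech⟩, ?_⟩
      funext i
      rw [phi_apply, phi_rep hr i]
      have hn : ind (Cfsg.support₂ w) none = 0 := by
        unfold ind; rw [if_neg]; simp [Cfsg.support₂, h0]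
      rw [hn]
      unfold ind
      rcases hz2 (w i) with h1 | h1
      · rw [if_neg (by simp [Cfsg.support₂, h1]), h1]; rfl
      · rw [if_pos (by simp [Cfsg.support₂, h1]), h1]; rfl
    · have hr : Rep (fun i => 1 + 2 * ind (Cfsg.support₂ w)ᶜ i + 4 * (if i = none then 1 else 0)) 1 (Cfsg.support₂ w)ᶜ
          (fun i => if i = none then 1 else 0) :=
        ⟨compl_mem hsupp, fun i => rfl, ⟨0, by simp⟩⟩
      refine ⟨⟨_, hr.mem_leech⟩, ?_⟩
      funext i
      rw [phi_apply, phi_rep hr i]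
      have hn : ind (Cfsg.support₂ w)ᶜ none = 0 := by
        unfold ind; rw [if_neg]; simp [Cfsg.support₂, h0]
      rw [hn]
      unfold ind
      rcases hz2 (w i) with h1 | h1
      · rw [if_pos (by simp [Cfsg.support₂, h1]), h1]; rfl
      · rw [if_neg (by simp [Cfsg.support₂, h1]), h1]; rfl

theorem sq_par (y : Cfsg.GolayPt → ℤ) : ∃ t, ∑ i, y i ^ 2 = ∑ i, y i + 2 * t := by
  have : ∀ i, ∃ t, y i ^ 2 = y i + 2 * t := by
    intro i
    rcases Int.even_or_odd' (y i) with ⟨s, hs | hs⟩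
    · exact ⟨2 * s ^ 2 - s, by rw [hs]; ring⟩
    · exact ⟨2 * s ^ 2 + s, by rw [hs]; ring⟩
  choose t ht using this
  exact ⟨∑ i, t i, by rw [Finset.mul_sum, ← Finset.sum_add_distrib]; exact Finset.sum_congr rfl fun i _ => ht i⟩

theorem ker_norm (x : Cfsg.leechLattice) (h : phi x = 0) : (32 : ℤ) ∣ Cfsg.sqNorm (x : Cfsg.GolayPt → ℤ) := by
  obtain ⟨m, c, y, hr⟩ := mem_iff.mp x.2
  have h1 : ∀ i, (2 : ℤ) ∣ ind c i + ind c none + m := by
    intro i
    have := congrFun h i
    rw [phi_apply, phi_rep hr i, Pi.zero_apply] at this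
    exact (ZMod.intCast_zmod_eq_zero_iff_dvd _ 2).mp this
  have hi01 : ∀ i, ind c i = 0 ∨ ind c i = 1 := by
    intro i; unfold ind; split_ifs <;> simp
  have h2 : ∀ i, ind c i = ind c none := by
    intro i
    have a := h1 i
    have b := h1 none
    rcases hi01 i with h | h <;> rcases hi01 none with h' | h' <;> rw [h] at a ⊢ <;> rw [h'] at a b ⊢ <;> omega
  obtain ⟨a, ha⟩ : ∃ a, m = 2 * a := by
    have b := h1 none
    obtain ⟨t, ht⟩ := b
    exact ⟨t - ind c none, by linarith⟩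
  obtain ⟨k, hk⟩ := hr.par
  obtain ⟨t, ht⟩ := sq_par y
  have h3 : ∀ i, x.1 i ^ 2 = 4 * (a + ind c none) ^ 2 + 16 * (a + ind c none) * y i + 16 * y i ^ 2 := by
    intro i
    rw [hr.eq i, h2 i, ha]; ring
  have h4 : Cfsg.sqNorm x.1 = 96 * (a + ind c none) ^ 2 + 16 * (a + ind c none) * ∑ i, y i + 16 * ∑ i, y i ^ 2 := by
    unfold Cfsg.sqNorm
    rw [Finset.sum_congr rfl fun i _ => h3 i, Finset.sum_add_distrib, Finset.sum_add_distrib,
      sum_const, ← Finset.mul_sum, ← Finset.mul_sum]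
    ring
  rw [h4, ht, hk, ha]
  refine ⟨3 * (a + ind c none) ^ 2 + (a + ind c none) * (a + k) + (a + k) + t, ?_⟩
  ring

/-- The Leech lattice of the definitions has an additive subgroup A containing twice the lattice, of index 2^12 in the lattice, all of whose vectors have squared length divisible by 32: the invariant quadratic form 'squared length over 16 modulo 2' on the lattice modulo twice the lattice (a 24-dimensional space over the field with two elements) vanishes on a 12-dimensional subspace, so it is of plus type. -/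
theorem result : ∃ A : AddSubgroup (Cfsg.GolayPt → ℤ), A ≤ Cfsg.leechLattice ∧ (∀ v ∈ Cfsg.leechLattice, (2 : ℤ) • v ∈ A) ∧ (A.addSubgroupOf Cfsg.leechLattice).index = 2 ^ 12 ∧ ∀ v ∈ A, (32 : ℤ) ∣ Cfsg.sqNorm v := by
  refine ⟨phi.ker.map Cfsg.leechLattice.subtype, ?_, ?_, ?_, ?_⟩
  · rintro _ ⟨x, _, rfl⟩
    exact x.2
  · intro v hv
    refine ⟨⟨v, hv⟩ + ⟨v, hv⟩, ?_, ?_⟩
    · rw [SetLike.mem_coe, AddMonoidHom.mem_ker, map_add]
      funext i
      rw [Pi.add_apply, Pi.zero_apply]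
      exact CharTwo.add_self_eq_zero _
    · rw [two_smul]; rfl
  · have h1 : (phi.ker.map Cfsg.leechLattice.subtype).addSubgroupOf Cfsg.leechLattice = phi.ker :=
      AddSubgroup.comap_map_eq_self_of_injective Subtype.val_injective _
    rw [h1, AddSubgroup.index_ker]
    have h2 : Nat.card phi.range = (phi.range : Set (Cfsg.GolayPt → ZMod 2)).ncard := rfl
    rw [h2, phi_range]
    exact golay_natCard
  · rintro _ ⟨x, hx, rfl⟩
    exact ker_norm x hx

end Cfsg.Agent.S5553
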