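import Cfsg.Statements.S5594
import Cfsg.Agent.Lib.H9.LeechGood

set_option autoImplicit false
open Cfsg

namespace Cfsg.Agent.S5594

open H8.M24Mem H8.GolayCode H8.GolayCount H8.GolayBasic H9.LeechGood H9.Leech

/-- the squares modulo 23 (with zero) -/
def sq : Finset GolayPt := Finset.univ.filter fun p => qrWord 0 p ≠ 0

theorem sq_mem : sq ∈ supports (golayCode : Set (GolayPt → ZMod 2)) :=
  ⟨qrWord 0, Submodule.subset_span (Or.inl ⟨0, rfl⟩), rfl⟩

theorem projInv_sq : ∀ p, (projInv.symm p ∈ sq ↔ p ∉ sq) := by
  have h : ∀ p : GolayPt, (projInvFun p ∈ sq ↔ p ∉ sq) := by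
    unfold sq
    simp only [Finset.mem_filter, Finset.mem_univ, true_and]
    decide +kernel
  exact h

theorem projInv_projInv : ∀ p, projInv.symm (projInv.symm p) = p := by
  have h : ∀ p : GolayPt, projInvFun (projInvFun p) = p := by decide
  exact h

theorem co0_ext {g h : Co0} (H : ∀ x : leechLattice, g • x = h • x) : g = h :=
  Subtype.ext (Equiv.ext H)

/-- The automorphism group of the Leech lattice contains the negation map, and the subgroup of order 2 it generates has no complement: the automorphism group is a non-split extension of its quotient by that subgroup (it is not the direct product of a group of order 2 with the first Conway group). -/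
theorem result :
    ∃ n : ↥Cfsg.Co0, (∀ v : ↥Cfsg.leechLattice, ((n • v : ↥Cfsg.leechLattice) : Cfsg.GolayPt → ℤ) = -(v : Cfsg.GolayPt → ℤ)) ∧
    ∀ K : Subgroup ↥Cfsg.Co0, ¬ (Subgroup.zpowers n).IsComplement' K := by
  refine ⟨negOne, fun v => ?_, fun K hK => ?_⟩
  · rw [negOne_smul]; rfl
  · have hcomm : ∀ g : Co0, negOne * g = g * negOne := by
      intro g
      apply co0_ext
      intro x
      rw [mul_smul, mul_smul, negOne_smul, negOne_smul, co0_neg]
    have hsq : negOne * negOne = 1 := by
      apply co0_ext
      intro x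
      rw [mul_smul, negOne_smul, negOne_smul, neg_neg, one_smul]
    have hne : negOne ≠ 1 := by
      intro h
      have h1 := congrArg (fun g : Co0 => ((g • e8 none : leechLattice) : GolayPt → ℤ) none) h
      simp only [negOne_smul, one_smul] at h1
      have h2 : (((-e8 none : leechLattice)) : GolayPt → ℤ) none = -8 := by
        show -((e8 none : leechLattice) : GolayPt → ℤ) none = -8
        rw [coe_e8, Pi.single_eq_same]
      rw [h2, coe_e8, Pi.single_eq_same] at h1
      norm_num at h1
    have hx2 : mono projInv γ_mem sq sq_mem * mono projInv γ_mem sq sq_mem = negOne := by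
      apply co0_ext
      intro v
      apply Subtype.ext
      rw [mul_smul, coe_mono, coe_mono, negOne_smul]
      funext i
      show _ = -(v : GolayPt → ℤ) i
      unfold signedPerm
      have h1 := projInv_sq i
      by_cases hi : i ∈ sq
      · rw [if_pos hi, if_neg (fun h => (h1.1 h) hi), projInv_projInv]
      · rw [if_neg hi, if_pos (h1.2 hi), projInv_projInv]
    obtain ⟨⟨⟨z, hz⟩, ⟨k, hk⟩⟩, hzk⟩ := hK.2 (mono projInv γ_mem sq sq_mem)
    have hzk' : z * k = mono projInv γ_mem sq sq_mem := hzk
    have hz2 : z * z = 1 := by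
      obtain ⟨j, rfl⟩ := Subgroup.mem_zpowers_iff.1 hz
      rw [← (Commute.refl negOne).mul_zpow, hsq, one_zpow]
    have hzc : z * k = k * z := by
      obtain ⟨j, rfl⟩ := Subgroup.mem_zpowers_iff.1 hz
      exact ((show Commute negOne k from hcomm k).zpow_left j)
    have hkk : k * k = negOne := by
      rw [← hx2, ← hzk', hzc, mul_assoc, ← mul_assoc z k z, hzc, mul_assoc k z z, hz2, mul_one]
    have hK' : negOne ∈ K := by rw [← hkk]; exact K.mul_mem hk hk
    exact hne ((Subgroup.disjoint_def.1 hK.disjoint) (Subgroup.mem_zpowers negOne) hK')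

end Cfsg.Agent.S5594
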