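import Cfsg.Statements.S5601
import Cfsg.Agent.Lib.H94.M24Fix

set_option autoImplicit false
open scoped Pointwise
open Cfsg

namespace Cfsg.Agent.S5601

open H8.GolayCode H8.GolayCount H8.GolayBasic H8.M24Mem H8.M24Chain H32.M24Kit H94.M24Fix H94.M24Cls

theorem gen {X : Subgroup M24} (hX : Nat.card X = 3) : ∃ x : M24, orderOf x = 3 ∧ X = Subgroup.zpowers x := by
  have : Fact (Nat.Prime 3) := ⟨Nat.prime_three⟩
  obtain ⟨y, hy⟩ := exists_prime_orderOf_dvd_card' (G := X) 3 (by rw [hX])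
  refine ⟨y, by rw [← hy, Subgroup.orderOf_coe], ?_⟩
  symm
  apply Subgroup.eq_of_le_of_card_ge
  · rw [Subgroup.zpowers_le]; exact y.2
  · rw [Nat.card_zpowers, Subgroup.orderOf_coe, hy, hX]

theorem fix_zpowers (x : M24) : {p : GolayPt | ∀ y ∈ Subgroup.zpowers x, ((y : M24) : Equiv.Perm GolayPt) p = p}.ncard =
    (Finset.univ.filter fun p => (x : Equiv.Perm GolayPt) p = p).card := by
  rw [← Set.ncard_coe_finset]
  congr 1
  ext p
  simp only [Set.mem_ofPred_eq, Finset.coe_filter, Finset.mem_univ, true_and]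
  constructor
  · intro h; exact h x (Subgroup.mem_zpowers x)
  · intro h y hy
    obtain ⟨n, rfl⟩ := Subgroup.mem_zpowers_iff.1 hy
    have hst : (x : Equiv.Perm GolayPt) ∈ MulAction.stabilizer (Equiv.Perm GolayPt) p := h
    have := Subgroup.zpow_mem _ hst n
    exact this

theorem order_coe {x : M24} (h : orderOf x = 3) : orderOf (x : Equiv.Perm GolayPt) = 3 := by
  rw [Subgroup.orderOf_coe, h]

theorem conj_zpowers (k x y : M24) (h : k * x * k⁻¹ = y) :
    MulAut.conj k • Subgroup.zpowers x = Subgroup.zpowers y := by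
  rw [← h]
  have : MulAut.conj k • Subgroup.zpowers x = (Subgroup.zpowers x).map (MulAut.conj k).toMonoidHom := rfl
  rw [this, MonoidHom.map_zpowers]
  rfl

theorem order3 {c : ℕ} (hc : okTab c = true) (h3 : okOrd3 c = true) (h1 : tab c 0 ≠ 0) : orderOf (pm c) = 3 := by
  have : Fact (Nat.Prime 3) := ⟨Nat.prime_three⟩
  apply orderOf_eq_prime
  · apply Equiv.ext
    intro p
    apply idx_injective
    unfold okOrd3 at h3
    rw [List.all_eq_true] at h3
    rw [pow_succ, pow_two, Equiv.Perm.mul_apply, Equiv.Perm.mul_apply, pm_idx hc, pm_idx hc, pm_idx hc]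
    exact Nat.eq_of_beq_eq_true (h3 _ (List.mem_range.2 (idx_lt p)))
  · intro h
    apply h1
    have := pm_idx hc (pt 0)
    rw [h, idx_pt 0 (by norm_num)] at this
    rw [← this]
    exact idx_pt 0 (by norm_num)

theorem oX6 : orderOf (pm X6) = 3 := order3 okX6 (by decide +kernel) (by decide +kernel)
theorem oX0 : orderOf (pm X0) = 3 := order3 okX0 (by decide +kernel) (by decide +kernel)


/-- The group of the length-24 code has exactly two conjugacy classes of subgroups of order 3: a subgroup of order 3 fixes either exactly 6 of the 24 points or none of them, both cases occur, and two subgroups of order 3 with the same number of fixed points are conjugate. -/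
theorem result : (∀ X : Subgroup ↥Cfsg.M24, Nat.card X = 3 → {p : Cfsg.GolayPt | ∀ x ∈ X, ((x : ↥Cfsg.M24) : Equiv.Perm Cfsg.GolayPt) p = p}.ncard = 6 ∨ {p : Cfsg.GolayPt | ∀ x ∈ X, ((x : ↥Cfsg.M24) : Equiv.Perm Cfsg.GolayPt) p = p}.ncard = 0) ∧ (∃ X : Subgroup ↥Cfsg.M24, Nat.card X = 3 ∧ {p : Cfsg.GolayPt | ∀ x ∈ X, ((x : ↥Cfsg.M24) : Equiv.Perm Cfsg.GolayPt) p = p}.ncard = 6) ∧ (∃ X : Subgroup ↥Cfsg.M24, Nat.card X = 3 ∧ {p : Cfsg.GolayPt | ∀ x ∈ X, ((x : ↥Cfsg.M24) : Equiv.Perm Cfsg.GolayPt) p = p}.ncard = 0) ∧ ∀ X Y : Subgroup ↥Cfsg.M24, Nat.card X = 3 → Nat.card Y = 3 → {p : Cfsg.GolayPt | ∀ x ∈ X, ((x : ↥Cfsg.M24) : Equiv.Perm Cfsg.GolayPt) p = p}.ncard = {p : Cfsg.GolayPt | ∀ x ∈ Y, ((x : ↥Cfsg.M24) : Equiv.Perm Cfsg.GolayPt) p = p}.ncard → ∃ k : ↥Cfsg.M24, MulAut.conj k • X = Y := by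
  refine ⟨?_, ?_, ?_, ?_⟩
  · intro X hX
    obtain ⟨x, hx, rfl⟩ := gen hX
    rw [fix_zpowers]
    rcases cls3' x.2 (order_coe hx) with ⟨h, _⟩ | ⟨h, _⟩
    · exact Or.inl h
    · exact Or.inr h
  · refine ⟨Subgroup.zpowers ⟨pm X6, pm_mem _⟩, ?_, ?_⟩
    · rw [Nat.card_zpowers, ← Subgroup.orderOf_coe]; exact oX6
    · rw [fix_zpowers]; exact fX6
  · refine ⟨Subgroup.zpowers ⟨pm X0, pm_mem _⟩, ?_, ?_⟩
    · rw [Nat.card_zpowers, ← Subgroup.orderOf_coe]; exact oX0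
    · rw [fix_zpowers]; exact fX0
  · intro X Y hX hY hXY
    obtain ⟨x, hx, rfl⟩ := gen hX
    obtain ⟨y, hy, rfl⟩ := gen hY
    rw [fix_zpowers, fix_zpowers] at hXY
    have key : ∀ c (k : Equiv.Perm GolayPt), k ∈ M24 → (x : Equiv.Perm GolayPt) = k * pm c * k⁻¹ → ∀ l : Equiv.Perm GolayPt, l ∈ M24 →
        (y : Equiv.Perm GolayPt) = l * pm c * l⁻¹ → ∃ k : M24, MulAut.conj k • Subgroup.zpowers x = Subgroup.zpowers y := by
      intro c k hk hxk l hl hyl
      refine ⟨⟨l, hl⟩ * ⟨k, hk⟩⁻¹, conj_zpowers _ _ _ (Subtype.ext ?_)⟩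
      show l * k⁻¹ * (x : Equiv.Perm GolayPt) * (l * k⁻¹)⁻¹ = y
      rw [hxk, hyl]
      group
    rcases cls3' x.2 (order_coe hx) with ⟨h, k, hk, hxk⟩ | ⟨h, k, hk, hxk⟩ <;>
      rcases cls3' y.2 (order_coe hy) with ⟨h', l, hl, hyl⟩ | ⟨h', l, hl, hyl⟩
    · exact key X6 k hk hxk l hl hyl
    · rw [h, h'] at hXY; exact absurd hXY (by norm_num)
    · rw [h, h'] at hXY; exact absurd hXY (by norm_num)
    · exact key X0 k hk hxk l hl hyl

end Cfsg.Agent.S5601
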