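import Cfsg.Statements.S5603
import Cfsg.Agent.Lib.H94.M24Fix

set_option autoImplicit false
open scoped Pointwise
open Cfsg

namespace Cfsg.Agent.S5603

/-- A fixed-point-free element of order 3 of the group of the length-24 code maps to themselves exactly 7 sextets and exactly 15 trios. -/
theorem result (g : Equiv.Perm Cfsg.GolayPt) (hg : g ∈ Cfsg.M24) (h₃ : orderOf g = 3) (h₀ : ∀ p, g p ≠ p) : {S : Finset (Finset Cfsg.GolayPt) | S ∈ Cfsg.sextets ∧ g • S = S}.ncard = 7 ∧ {T : Finset (Finset Cfsg.GolayPt) | T ∈ Cfsg.trios ∧ g • T = T}.ncard = 15 := by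
  have h0 : (Finset.univ.filter fun p => g p = p).card = 0 := by
    rw [Finset.card_eq_zero, Finset.filter_eq_empty_iff]
    intro p _; exact h₀ p
  rcases H94.M24Fix.cls3' hg h₃ with ⟨h6, _⟩ | ⟨_, k, hk, hgk⟩
  · rw [h0] at h6; exact absurd h6 (by norm_num)
  · obtain ⟨c1, c2, c3, c4⟩ := H94.M24Fix.counts H94.M24Fix.okWX0 hk hgk
    exact ⟨c3.trans H94.M24Fix.csX0, c2.trans H94.M24Fix.ctX0⟩

end Cfsg.Agent.S5603
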