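import Cfsg.Statements.S5609
import Cfsg.Agent.Lib.H94.M24Pair
import Cfsg.Agent.Lib.H94.M24Fast

set_option autoImplicit false
open scoped Pointwise
open Cfsg

namespace Cfsg.Agent.S5609

open H8.GolayCode H8.GolayCount H8.GolayBasic H8.M24Mem H8.M24Trans H32.M24Kit H32.Octad H32.OctadOrb

theorem adj_iff (a b : octads) : (blockGraph octads).Adj a b ↔ Disjoint (a : Finset GolayPt) b := by
  unfold blockGraph
  rw [SimpleGraph.fromRel_adj]
  constructor
  · rintro ⟨_, h | h⟩
    · exact h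
    · exact h.symm
  · intro h
    refine ⟨?_, Or.inl h⟩
    rintro rfl
    exact ne_of_disjoint a.2 h rfl

theorem okm {m : ℕ} (h : H94.M24Fast.isOct m = true) : fs m ∈ octads := (H94.M24Fast.isOct_spec h).2

/-- transport of an existence statement from a standard pair -/
theorem exists_of_std {m1 m2 m3 : ℕ} (h1 : H94.M24Fast.isOct m1 = true) (h2 : H94.M24Fast.isOct m2 = true)
    (h3 : H94.M24Fast.isOct m3 = true) {o o' : Finset GolayPt} (ho : o ∈ octads) (ho' : o' ∈ octads)
    (h : (o ∩ o').card = (fs m1 ∩ fs m2).card) :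
    ∃ x ∈ octads, (o ∩ x).card = (fs m1 ∩ fs m3).card ∧ (o' ∩ x).card = (fs m2 ∩ fs m3).card := by
  obtain ⟨g, hg, hg1, hg2⟩ := octad_pair_trans' (okm h1) (okm h2) ho ho' h.symm
  refine ⟨(fs m3).image g, (image_mem_octads hg).2 (okm h3), ?_, ?_⟩
  · rw [← hg1, ← image_inter, card_image]
  · rw [← hg2, ← image_inter, card_image]

theorem card_inter_fs {m n : ℕ} (hm : m < 2 ^ 24) : (fs m ∩ fs n).card = pop (m &&& n) := by
  rw [fs_inter, card_fs (lt_of_le_of_lt Nat.and_le_left hm)]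

theorem disj_iff (a b : Finset GolayPt) : (a ∩ b).card = 0 ↔ Disjoint a b := by
  rw [Finset.card_eq_zero, Finset.disjoint_iff_inter_eq_empty]

/-- octads meeting in four points have a common disjoint octad -/
theorem common4 {o o' : Finset GolayPt} (ho : o ∈ octads) (ho' : o' ∈ octads) (h : (o ∩ o').card = 4) :
    ∃ x ∈ octads, Disjoint o x ∧ Disjoint x o' := by
  obtain ⟨x, hx, h1, h2⟩ := exists_of_std (m1 := 0x82402f) (m2 := 0xc75001) (m3 := 0x3886c0) (by decide +kernel)
    (by decide +kernel) (by decide +kernel) ho ho' (by rw [h, card_inter_fs (by norm_num)]; decide +kernel)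
  refine ⟨x, hx, (disj_iff _ _).1 ?_, ((disj_iff _ _).1 ?_).symm⟩
  · rw [h1, card_inter_fs (by norm_num)]; decide +kernel
  · rw [h2, card_inter_fs (by norm_num)]; decide +kernel

theorem path2 {o o' : Finset GolayPt} (ho : o ∈ octads) (ho' : o' ∈ octads) (h : (o ∩ o').card = 2) :
    ∃ x ∈ octads, Disjoint o x ∧ (x ∩ o').card = 4 := by
  obtain ⟨x, hx, h1, h2⟩ := exists_of_std (m1 := 0x82402f) (m2 := 0x49f002) (m3 := 0x6920d0) (by decide +kernel)
    (by decide +kernel) (by decide +kernel) ho ho' (by rw [h, card_inter_fs (by norm_num)]; decide +kernel)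
  refine ⟨x, hx, (disj_iff _ _).1 ?_, ?_⟩
  · rw [h1, card_inter_fs (by norm_num)]; decide +kernel
  · rw [Finset.inter_comm, h2, card_inter_fs (by norm_num)]; decide +kernel

theorem no_common2 {o o' x : Finset GolayPt} (ho : o ∈ octads) (ho' : o' ∈ octads) (h : (o ∩ o').card = 2)
    (hx : x ∈ octads) (h1 : Disjoint o x) (h2 : Disjoint x o') : False := by
  obtain ⟨g, hg, hg1, hg2⟩ := octad_pair_trans' ho ho' (o' := fs 0x82402f) (t := fs 0x49f002) (okm (by decide +kernel))
    (okm (by decide +kernel)) (by rw [h, card_inter_fs (by norm_num)]; decide +kernel)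
  have hx' : x.image g ∈ octads := (image_mem_octads hg).2 hx
  have hall : allB (fun n => !(Nat.beq (pop n) 8 && Nat.beq (n &&& 0x82402f) 0 && Nat.beq (n &&& 0x49f002) 0)) basisL 0 = true := by
    decide +kernel
  have h3 := allGS hall hx'.1
  have e1 : msk (x.image g) &&& 0x82402f = 0 := by
    have : msk (x.image g ∩ fs 0x82402f) = 0 := by
      rw [← hg1, ← image_inter, Finset.inter_comm, Finset.disjoint_iff_inter_eq_empty.1 h1, Finset.image_empty, msk_empty]
    rwa [msk_inter, msk_fs (by norm_num)] at this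
  have e2 : msk (x.image g) &&& 0x49f002 = 0 := by
    have : msk (x.image g ∩ fs 0x49f002) = 0 := by
      rw [← hg2, ← image_inter, Finset.disjoint_iff_inter_eq_empty.1 h2, Finset.image_empty, msk_empty]
    rwa [msk_inter, msk_fs (by norm_num)] at this
  have e3 : pop (msk (x.image g)) = 8 := by rw [← card_eq_pop]; exact hx'.2
  rw [e1, e2, e3] at h3
  exact absurd h3 (by decide)


/-- In the graph on the 759 octads of the length-24 code in which two octads are adjacent when they are disjoint, the graph is connected (of diameter 3) and two distinct octads are at distance 1, 2 or 3 exactly when they meet in 0, 4 or 2 points respectively. -/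
theorem result (o o' : Finset Cfsg.GolayPt) (ho : o ∈ Cfsg.octads) (ho' : o' ∈ Cfsg.octads) (hne : o ≠ o') : (Cfsg.blockGraph Cfsg.octads).Connected ∧ ((Cfsg.blockGraph Cfsg.octads).dist ⟨o, ho⟩ ⟨o', ho'⟩ = 1 ↔ (o ∩ o').card = 0) ∧ ((Cfsg.blockGraph Cfsg.octads).dist ⟨o, ho⟩ ⟨o', ho'⟩ = 2 ↔ (o ∩ o').card = 4) ∧ ((Cfsg.blockGraph Cfsg.octads).dist ⟨o, ho⟩ ⟨o', ho'⟩ = 3 ↔ (o ∩ o').card = 2) := by
  -- the distance of two distinct octads
  have hadj : ∀ a b : octads, Disjoint (a : Finset GolayPt) b → (blockGraph octads).Adj a b := fun a b h => (adj_iff a b).2 h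
  have hreach : ∀ a b : octads, (blockGraph octads).Reachable a b := by
    intro a b
    by_cases hab : a = b
    · subst hab; exact SimpleGraph.Reachable.refl _
    · have hab' : (a : Finset GolayPt) ≠ b := fun h => hab (Subtype.ext h)
      have hr4 : ∀ a b : octads, ((a : Finset GolayPt) ∩ b).card = 4 → (blockGraph octads).Reachable a b := by
        intro a b h
        obtain ⟨x, hx, h1, h2⟩ := common4 a.2 b.2 h
        exact (hadj a ⟨x, hx⟩ h1).reachable.trans (hadj ⟨x, hx⟩ b h2).reachable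
      rcases H9.Steiner24.inter_card card_pt octads_steiner a.2 b.2 hab' with h | h | h
      · exact (hadj a b ((disj_iff _ _).1 h)).reachable
      · obtain ⟨x, hx, h1, h2⟩ := path2 a.2 b.2 h
        exact (hadj a ⟨x, hx⟩ h1).reachable.trans (hr4 ⟨x, hx⟩ b h2)
      · exact hr4 a b h
  have hne' : (⟨o, ho⟩ : octads) ≠ ⟨o', ho'⟩ := fun h => hne (congrArg Subtype.val h)
  haveI : Nonempty octads := ⟨⟨o, ho⟩⟩
  have hcon : (blockGraph octads).Connected := ⟨hreach⟩
  obtain ⟨d, hd⟩ : ∃ d, d = (blockGraph octads).dist ⟨o, ho⟩ ⟨o', ho'⟩ := ⟨_, rfl⟩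
  have hd0 : d ≠ 0 := by
    rw [hd]
    intro h
    exact hne' ((hcon.dist_eq_zero_iff).1 h)
  have hd1 : d = 1 ↔ (o ∩ o').card = 0 := by
    rw [hd, SimpleGraph.dist_eq_one_iff_adj, adj_iff, disj_iff]
  have hd2 : d = 2 → ∃ x ∈ octads, Disjoint o x ∧ Disjoint x o' := by
    intro h
    obtain ⟨w, hw⟩ := hcon.exists_walk_length_eq_dist ⟨o, ho⟩ ⟨o', ho'⟩
    rw [← hd, h] at hw
    match w, hw with
    | SimpleGraph.Walk.cons (v := v) h1 (SimpleGraph.Walk.cons h2 SimpleGraph.Walk.nil), _ =>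
      exact ⟨v, v.2, (adj_iff _ _).1 h1, (adj_iff _ _).1 h2⟩
  have hle4 : (o ∩ o').card = 4 → d ≤ 2 := by
    intro h
    obtain ⟨x, hx, h1, h2⟩ := common4 ho ho' h
    rw [hd]
    exact SimpleGraph.dist_le (SimpleGraph.Walk.cons (hadj ⟨o, ho⟩ ⟨x, hx⟩ h1) (SimpleGraph.Walk.cons (hadj ⟨x, hx⟩ ⟨o', ho'⟩ h2) SimpleGraph.Walk.nil))
  have hle2 : (o ∩ o').card = 2 → d ≤ 3 := by
    intro h
    obtain ⟨x, hx, h1, h2⟩ := path2 ho ho' h
    obtain ⟨y, hy, h3, h4⟩ := common4 hx ho' h2
    rw [hd]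
    exact SimpleGraph.dist_le (SimpleGraph.Walk.cons (hadj ⟨o, ho⟩ ⟨x, hx⟩ h1) (SimpleGraph.Walk.cons (hadj ⟨x, hx⟩ ⟨y, hy⟩ h3)
      (SimpleGraph.Walk.cons (hadj ⟨y, hy⟩ ⟨o', ho'⟩ h4) SimpleGraph.Walk.nil)))
  have hcases := H9.Steiner24.inter_card card_pt octads_steiner ho ho' hne
  have hno : (o ∩ o').card = 2 → d ≠ 2 := by
    intro h h'
    obtain ⟨x, hx, h1, h2⟩ := hd2 h'
    exact no_common2 ho ho' h hx h1 h2
  refine ⟨hcon, ?_, ?_, ?_⟩ <;> rw [← hd] <;> constructor <;> intro h <;> rcases hcases with h' | h' | h' <;>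
    (try have e1 := hle4 h') <;> (try have e2 := hle2 h') <;> (try have e3 := hno h') <;> omega

end Cfsg.Agent.S5609
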