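import Cfsg.Statements.S5610
import Cfsg.Agent.Lib.H94.M24OctFor

set_option autoImplicit false
open scoped Pointwise
open Cfsg

namespace Cfsg.Agent.S5610

open H8.GolayCode H8.GolayCount H8.GolayBasic H8.M24Mem H8.M24Trans H32.M24Kit H32.Octad H94.M24Fast H94.M24Lists
  H94.M24Forest H94.M24OctFor


/-- The stabiliser of an octad in the group of the length-24 code has exactly three orbits on the 3795 trios, of sizes 15, 420 and 3360, and exactly three orbits on the 1771 sextets, of sizes 35, 840 and 896. -/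
theorem result (o : Finset Cfsg.GolayPt) (ho : o ∈ Cfsg.octads) : (∃ X₁ ∈ Cfsg.trios, ∃ X₂ ∈ Cfsg.trios, ∃ X₃ ∈ Cfsg.trios, (MulAction.orbit ↥(MulAction.stabilizer Cfsg.M24 o) X₁).ncard = 15 ∧ (MulAction.orbit ↥(MulAction.stabilizer Cfsg.M24 o) X₂).ncard = 420 ∧ (MulAction.orbit ↥(MulAction.stabilizer Cfsg.M24 o) X₃).ncard = 3360 ∧ Cfsg.trios = MulAction.orbit ↥(MulAction.stabilizer Cfsg.M24 o) X₁ ∪ MulAction.orbit ↥(MulAction.stabilizer Cfsg.M24 o) X₂ ∪ MulAction.orbit ↥(MulAction.stabilizer Cfsg.M24 o) X₃) ∧ (∃ Y₁ ∈ Cfsg.sextets, ∃ Y₂ ∈ Cfsg.sextets, ∃ Y₃ ∈ Cfsg.sextets, (MulAction.orbit ↥(MulAction.stabilizer Cfsg.M24 o) Y₁).ncard = 35 ∧ (MulAction.orbit ↥(MulAction.stabilizer Cfsg.M24 o) Y₂).ncard = 840 ∧ (MulAction.orbit ↥(MulAction.stabilizer Cfsg.M24 o) Y₃).ncard = 896 ∧ Cfsg.sextets = MulAction.orbit ↥(MulAction.stabilizer Cfsg.M24 o) Y₁ ∪ MulAction.orbit ↥(MulAction.stabilizer Cfsg.M24 o) Y₂ ∪ MulAction.orbit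 ↥(MulAction.stabilizer Cfsg.M24 o) Y₃) := by
  have hX : ∀ x ∈ octads, ∃ g : M24, g • x = fs o0 := fun x hx => octads_trans x hx _ o0_mem
  obtain ⟨hT1, hT2⟩ := verT.right invOct invTr hX ho
  obtain ⟨hS1, hS2⟩ := verS.right invOct invSx hX ho
  constructor
  · have := three_orbits (MulAction.stabilizer M24 o) (n := fun r => cntR 3795 12 PT r) (by
      intro r hr
      obtain ⟨y, hy, h1, h2⟩ := hT1 r hr
      refine ⟨y, hy, h1, ?_⟩
      rw [h2]
      exact ncard_root 3795 _ PT 12 r (by norm_num) tr_injOn) hT2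
    simpa only [cntT0, cntT1, cntT2] using this
  · obtain ⟨a, ha, b, hb, d, hd, h0, h1, h2, h3⟩ := three_orbits (MulAction.stabilizer M24 o)
      (n := fun r => cntR 1771 11 PS r) (by
      intro r hr
      obtain ⟨y, hy, h1, h2⟩ := hS1 r hr
      refine ⟨y, hy, h1, ?_⟩
      rw [h2]
      exact ncard_root 1771 _ PS 11 r (by norm_num) sx_injOn) hS2
    refine ⟨a, ha, b, hb, d, hd, h0.trans cntS0, h1.trans cntS1, h2.trans cntS2, h3⟩

end Cfsg.Agent.S5610
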