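import Cfsg.Statements.S5611
import Cfsg.Agent.Lib.H94.M24SxFor

set_option autoImplicit false
open scoped Pointwise
open Cfsg

namespace Cfsg.Agent.S5611

open H8.GolayCode H8.GolayCount H8.GolayBasic H8.M24Mem H8.M24Trans H32.M24Kit H32.Octad H32.Sextet H94.M24Fast
  H94.M24Lists H94.M24Forest
open H94.M24OctFor (cntS0 cntS1 cntS2 cntT0 cntT1 cntT2)
open H94.M24SxFor (x0_mem cnt0 cnt1 cnt2 cnt3)


/-- The stabiliser of a sextet in the group of the length-24 code has exactly three orbits on the 759 octads, of sizes 15, 360 and 384, and exactly four orbits on the 3795 trios, of sizes 15, 180, 720 and 2880. -/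
theorem result (S : Finset (Finset Cfsg.GolayPt)) (hS : S ∈ Cfsg.sextets) : (∃ X₁ ∈ Cfsg.octads, ∃ X₂ ∈ Cfsg.octads, ∃ X₃ ∈ Cfsg.octads, (MulAction.orbit ↥(MulAction.stabilizer Cfsg.M24 S) X₁).ncard = 15 ∧ (MulAction.orbit ↥(MulAction.stabilizer Cfsg.M24 S) X₂).ncard = 360 ∧ (MulAction.orbit ↥(MulAction.stabilizer Cfsg.M24 S) X₃).ncard = 384 ∧ Cfsg.octads = MulAction.orbit ↥(MulAction.stabilizer Cfsg.M24 S) X₁ ∪ MulAction.orbit ↥(MulAction.stabilizer Cfsg.M24 S) X₂ ∪ MulAction.orbit ↥(MulAction.stabilizer Cfsg.M24 S) X₃) ∧ (∃ Y₁ ∈ Cfsg.trios, ∃ Y₂ ∈ Cfsg.trios, ∃ Y₃ ∈ Cfsg.trios, ∃ Y₄ ∈ Cfsg.trios, (MulAction.orbit ↥(MulAction.stabilizer Cfsg.M24 S) Y₁).ncard = 15 ∧ (MulAction.orbit ↥(MulAction.stabilizer Cfsg.M24 S) Y₂).ncard = 180 ∧ (MulAction.orbit ↥(MulAction.stabilizer Cfsg.M24 S) Y₃).ncard = 720 ∧ (MulAction.orbit ↥(MulAction.stabilizer Cfsg.M24 S) Y₄).ncard = 2880 ∧ Cfsg.trios = MulAction.orbit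 ↥(MulAction.stabilizer Cfsg.M24 S) Y₁ ∪ MulAction.orbit ↥(MulAction.stabilizer Cfsg.M24 S) Y₂ ∪ MulAction.orbit ↥(MulAction.stabilizer Cfsg.M24 S) Y₃ ∪ MulAction.orbit ↥(MulAction.stabilizer Cfsg.M24 S) Y₄) := by
  have hX : ∀ x ∈ octads, ∃ g : M24, g • x = fs o0 := fun x hx => octads_trans x hx _ o0_mem
  obtain ⟨hS1, hS2⟩ := H94.M24OctFor.verS.left invOct invSx hX o0_mem sextets_trans hS
  have hX' : ∀ x ∈ sextets, ∃ g : M24, g • x = sxFam (sxE 0) := fun x hx => sextets_trans x hx _ x0_mem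
  obtain ⟨hT1, hT2⟩ := H94.M24SxFor.verT.right invSx invTr hX' hS
  constructor
  · obtain ⟨a, ha, b, hb, d, hd, h0, h1, h2, h3⟩ := three_orbits (MulAction.stabilizer M24 S)
      (n := fun r => cntR 1771 11 H94.M24OctFor.PS r * 759 / 1771) (by
      intro r hr
      obtain ⟨y, hy, h1, h2⟩ := hS1 r hr
      refine ⟨y, hy, h1, ?_⟩
      rw [ncard_root 1771 _ _ 11 r (by norm_num) sx_injOn, octads_ncard, sextets_ncard] at h2
      show _ = cntR 1771 11 H94.M24OctFor.PS r * 759 / 1771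
      rw [h2, Nat.mul_div_cancel _ (by norm_num)]) hS2
    refine ⟨a, ha, b, hb, d, hd, h0.trans ?_, h1.trans ?_, h2.trans ?_, h3⟩
    · show cntR 1771 11 H94.M24OctFor.PS 0 * 759 / 1771 = _
      rw [cntS0]
    · show cntR 1771 11 H94.M24OctFor.PS 1 * 759 / 1771 = _
      rw [cntS1]
    · show cntR 1771 11 H94.M24OctFor.PS 2 * 759 / 1771 = _
      rw [cntS2]
  · obtain ⟨a, ha, b, hb, d, hd, e, he, h0, h1, h2, h3, h4⟩ := four_orbits (MulAction.stabilizer M24 S)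
      (n := fun r => cntR 3795 12 H94.M24SxFor.PT r) (by
      intro r hr
      obtain ⟨y, hy, h1, h2⟩ := hT1 r hr
      refine ⟨y, hy, h1, ?_⟩
      rw [h2]
      exact ncard_root 3795 _ _ 12 r (by norm_num) tr_injOn) hT2
    exact ⟨a, ha, b, hb, d, hd, e, he, h0.trans cnt0, h1.trans cnt1, h2.trans cnt2, h3.trans cnt3, h4⟩

end Cfsg.Agent.S5611
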