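import Cfsg.Statements.S5612
import Cfsg.Agent.Lib.H94.M24SxFor

set_option autoImplicit false
open scoped Pointwise
open Cfsg

namespace Cfsg.Agent.S5612

open H8.GolayCode H8.GolayCount H8.GolayBasic H8.M24Mem H8.M24Trans H32.M24Kit H32.Octad H32.Sextet H94.M24Fast
  H94.M24Lists H94.M24Forest
open H94.M24OctFor (cntS0 cntS1 cntS2 cntT0 cntT1 cntT2)
open H94.M24SxFor (x0_mem cnt0 cnt1 cnt2 cnt3)


/-- The stabiliser of a trio in the group of the length-24 code has exactly three orbits on the 759 octads, of sizes 3, 84 and 672, and exactly four orbits on the 1771 sextets, of sizes 7, 84, 336 and 1344. -/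
theorem result (T : Finset (Finset Cfsg.GolayPt)) (hT : T ∈ Cfsg.trios) : (∃ X₁ ∈ Cfsg.octads, ∃ X₂ ∈ Cfsg.octads, ∃ X₃ ∈ Cfsg.octads, (MulAction.orbit ↥(MulAction.stabilizer Cfsg.M24 T) X₁).ncard = 3 ∧ (MulAction.orbit ↥(MulAction.stabilizer Cfsg.M24 T) X₂).ncard = 84 ∧ (MulAction.orbit ↥(MulAction.stabilizer Cfsg.M24 T) X₃).ncard = 672 ∧ Cfsg.octads = MulAction.orbit ↥(MulAction.stabilizer Cfsg.M24 T) X₁ ∪ MulAction.orbit ↥(MulAction.stabilizer Cfsg.M24 T) X₂ ∪ MulAction.orbit ↥(MulAction.stabilizer Cfsg.M24 T) X₃) ∧ (∃ Y₁ ∈ Cfsg.sextets, ∃ Y₂ ∈ Cfsg.sextets, ∃ Y₃ ∈ Cfsg.sextets, ∃ Y₄ ∈ Cfsg.sextets, (MulAction.orbit ↥(MulAction.stabilizer Cfsg.M24 T) Y₁).ncard = 7 ∧ (MulAction.orbit ↥(MulAction.stabilizer Cfsg.M24 T) Y₂).ncard = 84 ∧ (MulAction.orbit ↥(MulAction.stabilizer Cfsg.M24 T) Y₃).ncard = 336 ∧ (MulAction.orbit ↥(MulAction.stabilizer Cfsg.M24 T) Y₄).ncard = 1344 ∧ Cfsg.sextets =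 MulAction.orbit ↥(MulAction.stabilizer Cfsg.M24 T) Y₁ ∪ MulAction.orbit ↥(MulAction.stabilizer Cfsg.M24 T) Y₂ ∪ MulAction.orbit ↥(MulAction.stabilizer Cfsg.M24 T) Y₃ ∪ MulAction.orbit ↥(MulAction.stabilizer Cfsg.M24 T) Y₄) := by
  have hX : ∀ x ∈ octads, ∃ g : M24, g • x = fs o0 := fun x hx => octads_trans x hx _ o0_mem
  obtain ⟨hS1, hS2⟩ := H94.M24OctFor.verT.left invOct invTr hX o0_mem trios_trans hT
  have hX' : ∀ x ∈ sextets, ∃ g : M24, g • x = sxFam (sxE 0) := fun x hx => sextets_trans x hx _ x0_mem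
  obtain ⟨hT1, hT2⟩ := H94.M24SxFor.verT.left invSx invTr hX' x0_mem trios_trans hT
  constructor
  · obtain ⟨a, ha, b, hb, d, hd, h0, h1, h2, h3⟩ := three_orbits (MulAction.stabilizer M24 T)
      (n := fun r => cntR 3795 12 H94.M24OctFor.PT r * 759 / 3795) (by
      intro r hr
      obtain ⟨y, hy, h1, h2⟩ := hS1 r hr
      refine ⟨y, hy, h1, ?_⟩
      rw [ncard_root 3795 _ _ 12 r (by norm_num) tr_injOn, octads_ncard, trios_ncard] at h2
      show _ = cntR 3795 12 H94.M24OctFor.PT r * 759 / 3795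
      rw [h2, Nat.mul_div_cancel _ (by norm_num)]) hS2
    refine ⟨a, ha, b, hb, d, hd, h0.trans ?_, h1.trans ?_, h2.trans ?_, h3⟩
    · show cntR 3795 12 H94.M24OctFor.PT 0 * 759 / 3795 = _
      rw [cntT0]
    · show cntR 3795 12 H94.M24OctFor.PT 1 * 759 / 3795 = _
      rw [cntT1]
    · show cntR 3795 12 H94.M24OctFor.PT 2 * 759 / 3795 = _
      rw [cntT2]
  · obtain ⟨a, ha, b, hb, d, hd, e, he, h0, h1, h2, h3, h4⟩ := four_orbits (MulAction.stabilizer M24 T)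
      (n := fun r => cntR 3795 12 H94.M24SxFor.PT r * 1771 / 3795) (by
      intro r hr
      obtain ⟨y, hy, h1, h2⟩ := hT1 r hr
      refine ⟨y, hy, h1, ?_⟩
      rw [ncard_root 3795 _ _ 12 r (by norm_num) tr_injOn, sextets_ncard, trios_ncard] at h2
      show _ = cntR 3795 12 H94.M24SxFor.PT r * 1771 / 3795
      rw [h2, Nat.mul_div_cancel _ (by norm_num)]) hT2
    refine ⟨a, ha, b, hb, d, hd, e, he, h0.trans ?_, h1.trans ?_, h2.trans ?_, h3.trans ?_, h4⟩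
    · show cntR 3795 12 H94.M24SxFor.PT 0 * 1771 / 3795 = _
      rw [cnt0]
    · show cntR 3795 12 H94.M24SxFor.PT 1 * 1771 / 3795 = _
      rw [cnt1]
    · show cntR 3795 12 H94.M24SxFor.PT 2 * 1771 / 3795 = _
      rw [cnt2]
    · show cntR 3795 12 H94.M24SxFor.PT 3 * 1771 / 3795 = _
      rw [cnt3]

end Cfsg.Agent.S5612
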