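import Cfsg.Statements.S5616
import Cfsg.Agent.Lib.H94.M24TriFor
import Cfsg.Agent.Lib.H32.M24Ext

set_option autoImplicit false
open scoped Pointwise
open Cfsg

namespace Cfsg.Agent.S5616

open H8.GolayCode H8.GolayCount H8.GolayBasic H8.M24Mem H8.M24Trans H32.M24Kit H94.M24Fast H94.M24Lists
  H94.M24Forest H94.M24TriFor

theorem card_m0 : (fs m0).card = 3 := by
  rw [card_fs m0_lt]; decide +kernel


/-- Let Y be a set of 3 of the 24 points. The sextets of the length-24 code whose tetrads meeting Y number 1, 2 or 3 are respectively 21, 630 and 1120 in number, and two sextets with the same number of tetrads meeting Y are conjugate under the setwise stabiliser of Y in the code's group. -/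
theorem result (Y : Finset Cfsg.GolayPt) (hY : Y.card = 3) : {S : Finset (Finset Cfsg.GolayPt) | S ∈ Cfsg.sextets ∧ (S.filter fun t => (t ∩ Y).Nonempty).card = 1}.ncard = 21 ∧ {S : Finset (Finset Cfsg.GolayPt) | S ∈ Cfsg.sextets ∧ (S.filter fun t => (t ∩ Y).Nonempty).card = 2}.ncard = 630 ∧ {S : Finset (Finset Cfsg.GolayPt) | S ∈ Cfsg.sextets ∧ (S.filter fun t => (t ∩ Y).Nonempty).card = 3}.ncard = 1120 ∧ ∀ S S' : Finset (Finset Cfsg.GolayPt), S ∈ Cfsg.sextets → S' ∈ Cfsg.sextets → (S.filter fun t => (t ∩ Y).Nonempty).card = (S'.filter fun t => (t ∩ Y).Nonempty).card → ∃ g ∈ Cfsg.M24, g • Y = Y ∧ g • S = S' := by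
  classical
  have hX : ∀ x ∈ {Y : Finset GolayPt | Y.card = 3}, ∃ g : M24, g • x = fs m0 := by
    intro x hx
    have hx3 : x.card = 3 := hx
    obtain ⟨g, hg, h⟩ := H32.M24Ext.trans_subsets (s := x) (t := fs m0) (by rw [hx3, card_m0]) (by rw [hx3]; norm_num)
    exact ⟨⟨g, hg⟩, h⟩
  have invX : ∀ (g : M24), ∀ x ∈ {Y : Finset GolayPt | Y.card = 3}, g • x ∈ {Y : Finset GolayPt | Y.card = 3} := by
    intro g x hx
    show (g • x).card = 3
    rw [Finset.card_smul_finset]; exact hx
  have hY' : Y ∈ {Y : Finset GolayPt | Y.card = 3} := hY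
  have hJ : ∀ S : Finset (Finset GolayPt), J1 sg Y S = (S.filter fun t => (t ∩ Y).Nonempty).card := by
    intro S
    rw [Finset.card_filter]
    unfold J1
    apply Finset.sum_congr rfl
    intro t _
    unfold sg
    rw [Finset.inter_comm]
    by_cases h : (t ∩ Y).Nonempty
    · rw [if_pos h, if_neg (Finset.card_pos.2 h).ne']
    · rw [if_neg h, if_pos (by rw [Finset.not_nonempty_iff_eq_empty] at h; rw [h, Finset.card_empty])]
  obtain ⟨h1, -⟩ := verS.right invX invSx hX hY'
  have hn : ∀ r < 3, {S | S ∈ sextets ∧ (S.filter fun t => (t ∩ Y).Nonempty).card = cS r}.ncard = cntR 1771 11 PS r := by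
    intro r hr
    obtain ⟨y, hy, h2, h3⟩ := h1 r hr
    rw [← ncard_root 1771 (fun i => sxFam (sxE i)) PS 11 r (by norm_num) sx_injOn, ← h3, h2]
    congr 1
    ext S
    simp only [Set.mem_ofPred_eq, hJ]
  refine ⟨(hn 0 (by norm_num)).trans cnt0, (hn 1 (by norm_num)).trans cnt1, (hn 2 (by norm_num)).trans cnt2, ?_⟩
  intro S S' hS hS' h
  have hP := verS.pairTrans invX invSx hX
  obtain ⟨g, h3, h4⟩ := hP.trans Y hY' S hS Y hY' S' hS' (by rw [hJ, hJ, h])
  exact ⟨g.1, g.2, h3, h4⟩

end Cfsg.Agent.S5616
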