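import Cfsg.Statements.S5617
import Cfsg.Agent.Lib.H94.M24DodFor

set_option autoImplicit false
open scoped Pointwise
open Cfsg

namespace Cfsg.Agent.S5617

open H8.GolayCode H8.GolayCount H8.GolayBasic H8.M24Mem H8.M24Trans H32.M24Kit H32.Dodecad H94.M24Fast H94.M24Lists
  H94.M24Forest H94.M24DodFor
open scoped Pointwise

/-- the complementary pairs of dodecads -/
def prs : Set (Finset (Finset GolayPt)) := {x | ∃ d ∈ dodecads, x = {d, Finset.univ \ d}}


/-- The setwise stabiliser, in the group of the length-24 code, of a complementary pair of dodecads has exactly three orbits on the 1771 sextets, of sizes 396, 495 and 880. -/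
theorem result (d : Finset Cfsg.GolayPt) (hd : d ∈ Cfsg.dodecads) : ∃ X₁ ∈ Cfsg.sextets, ∃ X₂ ∈ Cfsg.sextets, ∃ X₃ ∈ Cfsg.sextets, (MulAction.orbit ↥(MulAction.stabilizer Cfsg.M24 ({d, Finset.univ \ d} : Finset (Finset Cfsg.GolayPt))) X₁).ncard = 396 ∧ (MulAction.orbit ↥(MulAction.stabilizer Cfsg.M24 ({d, Finset.univ \ d} : Finset (Finset Cfsg.GolayPt))) X₂).ncard = 495 ∧ (MulAction.orbit ↥(MulAction.stabilizer Cfsg.M24 ({d, Finset.univ \ d} : Finset (Finset Cfsg.GolayPt))) X₃).ncard = 880 ∧ Cfsg.sextets = MulAction.orbit ↥(MulAction.stabilizer Cfsg.M24 ({d, Finset.univ \ d} : Finset (Finset Cfsg.GolayPt))) X₁ ∪ MulAction.orbit ↥(MulAction.stabilizer Cfsg.M24 ({d, Finset.univ \ d} : Finset (Finset Cfsg.GolayPt))) X₂ ∪ MulAction.orbit ↥(MulAction.stabilizer Cfsg.M24 ({d, Finset.univ \ d} : Finset (Finset Cfsg.GolayPt))) X₃ := by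
  have invX : ∀ (g : M24), ∀ x ∈ prs, g • x ∈ prs := by
    rintro g _ ⟨e, he, rfl⟩
    refine ⟨g • e, (H32.Octad.image_mem_dodecads g.2).2 he, ?_⟩
    rw [Finset.smul_finset_insert, Finset.smul_finset_singleton, Finset.smul_finset_sdiff, Finset.smul_finset_univ]
  have hX : ∀ x ∈ prs, ∃ g : M24, g • x = pr := by
    rintro _ ⟨e, he, rfl⟩
    obtain ⟨g, hg, h⟩ := dodecad_trans he d0_mem
    refine ⟨⟨g, hg⟩, ?_⟩
    have h' : (⟨g, hg⟩ : M24) • e = fs d0 := h
    rw [Finset.smul_finset_insert, Finset.smul_finset_singleton, Finset.smul_finset_sdiff, Finset.smul_finset_univ, h',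
      ← d1_eq]
    rfl
  have hd' : ({d, Finset.univ \ d} : Finset (Finset GolayPt)) ∈ prs := ⟨d, hd, rfl⟩
  obtain ⟨h1, h2⟩ := verS.right invX invSx hX hd'
  obtain ⟨a, ha, b, hb, e, he, k0, k1, k2, k3⟩ := three_orbits
    (MulAction.stabilizer M24 ({d, Finset.univ \ d} : Finset (Finset GolayPt))) (n := fun r => cntR 1771 11 PS r) (by
      intro r hr
      obtain ⟨y, hy, h3, h4⟩ := h1 r hr
      refine ⟨y, hy, h3, ?_⟩
      rw [h4]
      exact ncard_root 1771 _ PS 11 r (by norm_num) sx_injOn) h2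
  exact ⟨a, ha, b, hb, e, he, k0.trans cnt0, k1.trans cnt1, k2.trans cnt2, k3⟩

end Cfsg.Agent.S5617
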