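import Cfsg.Statements.S5618
import Cfsg.Agent.Lib.H33.M12b
import Cfsg.Agent.Lib.H32.Octad

set_option autoImplicit false
open scoped Pointwise
open Cfsg

namespace Cfsg.Agent.S5618

open H8.GolayCode H8.GolayCount H8.GolayBasic H8.M24Mem H8.M24Trans H32.M24Kit H32.Octad

theorem hexad_image {d C : Finset GolayPt} (hC : C ∈ hexadsOn d) {g : Equiv.Perm GolayPt} (hg : g ∈ M24)
    (hgd : d.image g = d) : C.image g ∈ hexadsOn d := by
  obtain ⟨h6, o, ho, rfl⟩ := hC
  refine ⟨?_, o.image g, (image_mem_octads hg).2 ho, ?_⟩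
  · rw [Finset.card_image_of_injective _ g.injective]; exact h6
  · rw [image_inter, hgd]

theorem hexad_unique {d C C' : Finset GolayPt} (hC : C ∈ hexadsOn d) (hC' : C' ∈ hexadsOn d) {u : Finset GolayPt}
    (hu : 5 ≤ u.card) (h : u ⊆ C) (h' : u ⊆ C') : C = C' := by
  obtain ⟨h6, o, ho, rfl⟩ := hC
  obtain ⟨h6', o', ho', rfl⟩ := hC'
  rw [octad_unique ho ho' hu (h.trans Finset.inter_subset_left) (h'.trans Finset.inter_subset_left)]

theorem hexad_subset {d C : Finset GolayPt} (hC : C ∈ hexadsOn d) : C ⊆ d := by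
  obtain ⟨h6, o, ho, rfl⟩ := hC
  exact Finset.inter_subset_right

theorem image_mem_iff {g : Equiv.Perm GolayPt} {C : Finset GolayPt} (h : C.image g = C) (p : GolayPt) :
    g p ∈ C ↔ p ∈ C := by
  constructor
  · intro hp
    rw [← h, Finset.mem_image] at hp
    obtain ⟨q, hq, hqp⟩ := hp
    rwa [← g.injective hqp]
  · intro hp
    rw [← h]; exact Finset.mem_image_of_mem _ hp

/-- elements fixing at least five points of a dodecad -/
theorem sharp {d s : Finset GolayPt} (hd : d ∈ dodecads) (hs : s ⊆ d) (h5 : 5 ≤ s.card) {g : Equiv.Perm GolayPt}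
    (hg : g ∈ M24) (hgd : d.image g = d) (h : ∀ p ∈ s, g p = p) : g = 1 :=
  H33.M12b.sharp12 hd s.toList s.nodup_toList (by rw [Finset.length_toList]; exact h5)
    (fun a ha => hs (Finset.mem_toList.1 ha)) hg hgd (fun a ha => h a (Finset.mem_toList.1 ha))


/-- For a dodecad d of the length-24 code and a hexad C on it (a 6-point intersection of d with an octad): the joint stabiliser of d and C in the code's group is isomorphic to the symmetric group of degree 6, and it acts faithfully both on the six points of C and on the six points of d outside C. -/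
theorem result (d : Finset Cfsg.GolayPt) (hd : d ∈ Cfsg.dodecads) (C : Finset Cfsg.GolayPt) (hC : C ∈ Cfsg.hexadsOn d) : Nonempty (↥(MulAction.stabilizer Cfsg.M24 d ⊓ MulAction.stabilizer Cfsg.M24 C) ≃* Equiv.Perm (Fin 6)) ∧ (∀ g ∈ MulAction.stabilizer Cfsg.M24 d ⊓ MulAction.stabilizer Cfsg.M24 C, (∀ p ∈ C, ((g : ↥Cfsg.M24) : Equiv.Perm Cfsg.GolayPt) p = p) → g = 1) ∧ ∀ g ∈ MulAction.stabilizer Cfsg.M24 d ⊓ MulAction.stabilizer Cfsg.M24 C, (∀ p ∈ d \ C, ((g : ↥Cfsg.M24) : Equiv.Perm Cfsg.GolayPt) p = p) → g = 1 := by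
  have hsub := hexad_subset hC
  have hc6 : C.card = 6 := hC.1
  have hf1 : ∀ g ∈ MulAction.stabilizer Cfsg.M24 d ⊓ MulAction.stabilizer Cfsg.M24 C,
      (∀ p ∈ C, ((g : ↥Cfsg.M24) : Equiv.Perm Cfsg.GolayPt) p = p) → g = 1 := by
    intro g hg h
    exact Subtype.ext (sharp hd hsub (by omega) g.2 hg.1 h)
  have hf2 : ∀ g ∈ MulAction.stabilizer Cfsg.M24 d ⊓ MulAction.stabilizer Cfsg.M24 C,
      (∀ p ∈ d \ C, ((g : ↥Cfsg.M24) : Equiv.Perm Cfsg.GolayPt) p = p) → g = 1 := by
    intro g hg h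
    refine Subtype.ext (sharp hd (s := d \ C) Finset.sdiff_subset ?_ g.2 hg.1 h)
    rw [Finset.card_sdiff_of_subset hsub, hc6, show d.card = 12 from hd.2]
    norm_num
  refine ⟨?_, hf1, hf2⟩
  let f : ↥(MulAction.stabilizer Cfsg.M24 d ⊓ MulAction.stabilizer Cfsg.M24 C) →* Equiv.Perm ↥C :=
    { toFun := fun g => ((g : M24) : Equiv.Perm GolayPt).subtypePerm (image_mem_iff g.2.2)
      map_one' := by ext x; rfl
      map_mul' := fun g h => by ext x; rfl }
  have hinj : Function.Injective f := by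
    rw [injective_iff_map_eq_one]
    intro g hg
    apply Subtype.ext
    apply hf1 g g.2
    intro p hp
    exact congrArg (fun e : Equiv.Perm ↥C => ((e ⟨p, hp⟩ : ↥C) : GolayPt)) hg
  have hsurj : Function.Surjective f := by
    intro σ
    obtain ⟨e, he⟩ : C.Nonempty := by rw [← Finset.card_pos]; omega
    have h5 : (C.erase e).card = 5 := by rw [Finset.card_erase_of_mem he, hc6]
    obtain ⟨l, hl⟩ : ∃ l, l = (C.erase e).toList := ⟨_, rfl⟩
    have hlC : ∀ a ∈ l, a ∈ C := fun a ha => by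
      rw [hl, Finset.mem_toList] at ha; exact Finset.mem_of_mem_erase ha
    -- images
    have hσ : ∀ a (ha : a ∈ l), ((σ ⟨a, hlC a ha⟩ : ↥C) : GolayPt) ∈ C := fun a ha => (σ _).2
    obtain ⟨τ, hτ⟩ : ∃ τ : Equiv.Perm GolayPt, ∀ p : ↥C, τ p = σ p :=
      ⟨Equiv.Perm.ofSubtype σ, fun p => Equiv.Perm.ofSubtype_apply_coe σ p⟩
    have hnd : l.Nodup := by rw [hl]; exact Finset.nodup_toList _
    have hlen : l.length = 5 := by rw [hl, Finset.length_toList, h5]
    obtain ⟨g, hg, hgl, hgd⟩ := H33.M12.move12 hd hd l (l.map τ) hnd (hnd.map τ.injective) (by simp) (by omega)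
      (fun a ha => hsub (hlC a ha)) (by
        intro a ha
        rw [List.mem_map] at ha
        obtain ⟨b, hb, rfl⟩ := ha
        rw [hτ ⟨b, hlC b hb⟩]
        exact hsub (σ _).2)
    have hgl' : ∀ a ∈ l, g a = τ a := List.map_inj_left.1 hgl
    have hgC : C.image g = C := by
      apply hexad_unique (hexad_image hC hg hgd) hC (u := (C.erase e).image g)
      · rw [Finset.card_image_of_injective _ g.injective, h5]
      · exact Finset.image_subset_image (Finset.erase_subset _ _)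
      · intro p hp
        rw [Finset.mem_image] at hp
        obtain ⟨q, hq, rfl⟩ := hp
        have hql : q ∈ l := by rw [hl, Finset.mem_toList]; exact hq
        rw [hgl' q hql, hτ ⟨q, hlC q hql⟩]
        exact (σ _).2
    refine ⟨⟨⟨g, hg⟩, hgd, hgC⟩, ?_⟩
    -- agree on `C.erase e`, hence on `C`
    have hag : ∀ p : ↥C, (p : GolayPt) ≠ e → (f ⟨⟨g, hg⟩, hgd, hgC⟩) p = σ p := by
      intro p hp
      apply Subtype.ext
      have hpl : (p : GolayPt) ∈ l := by rw [hl, Finset.mem_toList]; exact Finset.mem_erase.2 ⟨hp, p.2⟩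
      show g p = _
      rw [hgl' p hpl, hτ p]
    apply Equiv.ext
    intro p
    by_cases hp : (p : GolayPt) = e
    · -- the last point
      by_contra hne
      obtain ⟨q, hq⟩ := σ.surjective ((f ⟨⟨g, hg⟩, hgd, hgC⟩) p)
      have hqp : q ≠ p := by rintro rfl; exact hne hq.symm
      have hqe : (q : GolayPt) ≠ e := fun h => hqp (Subtype.ext (h.trans hp.symm))
      rw [← hag q hqe] at hq
      exact hqp ((f ⟨⟨g, hg⟩, hgd, hgC⟩).injective hq)
    · exact hag p hp
  exact ⟨(MulEquiv.ofBijective f ⟨hinj, hsurj⟩).trans (Equiv.permCongrHom (C.equivFinOfCardEq hc6))⟩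

end Cfsg.Agent.S5618
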