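import Cfsg.Statements.S5619
import Cfsg.Agent.Lib.H33.M12c
import Cfsg.Agent.Lib.H32.Dodecad
import Cfsg.Agent.Lib.H94.M24Enum
import Cfsg.Agent.Lib.H25.DQ

set_option autoImplicit false
open scoped Pointwise
open Cfsg

namespace Cfsg.Agent.S5619

open H8.GolayCode H8.GolayCount H8.GolayBasic H8.M24Mem H8.M24Trans H32.M24Kit H32.Dodecad H94.M24Enum
open scoped Pointwise

section Abstract
variable {Γ : Type*} [Group Γ]

/-- the data which determine the group of order 72 -/
def Data (Γ : Type*) [Group Γ] : Prop :=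
  (∃ a b : Γ, a * a ≠ 1 ∧ a * a * (a * a) = 1 ∧ b * b = a * a ∧ a * b * a = b) ∧
    ∃ S : Set Γ, S.Finite ∧ S.ncard ≤ 9 ∧ (∀ x : Γ, x ^ 9 = 1 → x ∈ S) ∧ ∀ x ∈ S, x ^ 3 = 1

theorem Data.transport {Γ Δ : Type*} [Group Γ] [Group Δ] (h : Data Γ) (e : Γ ≃* Δ) : Data Δ := by
  obtain ⟨⟨a, b, h1, h2, h3, h4⟩, S, hf, hS, h9, h33⟩ := h
  refine ⟨⟨e a, e b, ?_, ?_, ?_, ?_⟩, e '' S, hf.image _, ?_, ?_, ?_⟩
  · rw [← map_mul, Ne, MulEquiv.map_eq_one_iff]; exact h1
  · rw [← map_mul, ← map_mul, h2, map_one]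
  · rw [← map_mul, ← map_mul, h3]
  · rw [← map_mul, ← map_mul, h4]
  · rw [Set.ncard_image_of_injective _ e.injective]; exact hS
  · intro x hx
    refine ⟨e.symm x, h9 _ ?_, e.apply_symm_apply x⟩
    rw [← map_pow, hx, map_one]
  · rintro _ ⟨x, hx, rfl⟩
    rw [← map_pow, h33 x hx, map_one]

theorem Data.sylow3 [Finite Γ] (h : Data Γ) (h72 : Nat.card Γ = 72) (Q : Sylow 3 Γ) :
    (Q : Subgroup Γ).Normal ∧ Nat.card ↥Q = 9 ∧ ∀ x ∈ (Q : Subgroup Γ), x ^ 3 = 1 := by
  have : Fact (Nat.Prime 3) := ⟨Nat.prime_three⟩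
  obtain ⟨-, S, hf, hS, h9, h33⟩ := h
  have hc : Nat.card ↥Q = 9 := by
    have h1 := Q.card_eq_multiplicity
    rw [h72] at h1
    refine h1.trans ?_
    rw [show Nat.factorization 72 3 = 2 by
      rw [show 72 = 2 ^ 3 * 3 ^ 2 by norm_num, Nat.factorization_mul (by norm_num) (by norm_num),
        Nat.Prime.factorization_pow Nat.prime_two, Nat.Prime.factorization_pow Nat.prime_three]
      simp]
    norm_num
  have hsub : ((Q : Subgroup Γ) : Set Γ) ⊆ S := by
    intro x hx
    apply h9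
    have := pow_card_eq_one' (G := ↥Q) (x := ⟨x, hx⟩)
    rw [hc] at this
    exact congrArg Subtype.val this
  have heq : ((Q : Subgroup Γ) : Set Γ) = S := by
    apply Set.eq_of_subset_of_ncard_le hsub ?_ hf
    refine hS.trans ?_
    rw [← hc]
    exact le_of_eq rfl
  have hmem : ∀ x, x ∈ (Q : Subgroup Γ) ↔ x ∈ S := fun x => by rw [← heq]; rfl
  refine ⟨⟨?_⟩, hc, fun x hx => h33 x ((hmem x).1 hx)⟩
  intro x hx g
  rw [hmem]
  apply h9
  rw [conj_pow]
  have : x ^ 9 = 1 := by
    rw [show (9 : ℕ) = 3 * 3 by norm_num, pow_mul, h33 x ((hmem x).1 hx), one_pow]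
  rw [this, mul_one, mul_inv_cancel]

theorem Data.sylow2 [Finite Γ] (h : Data Γ) (h72 : Nat.card Γ = 72) (P : Sylow 2 Γ) :
    Nonempty (↥P ≃* QuaternionGroup 2) := by
  have : Fact (Nat.Prime 2) := ⟨Nat.prime_two⟩
  obtain ⟨⟨a, b, h1, h2, h3, h4⟩, -⟩ := h
  have ho : orderOf a = 2 * 2 := by
    have : orderOf a = 2 ^ (1 + 1) := by
      apply orderOf_eq_prime_pow
      · rw [pow_one, pow_two]; exact h1
      · rw [show 2 ^ (1 + 1) = 2 + 2 by norm_num, pow_add, pow_two]; exact h2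
    rw [this]
    norm_num
  have hab : b * a * b⁻¹ = a⁻¹ := by
    rw [mul_inv_eq_iff_eq_mul, eq_inv_mul_iff_mul_eq, ← mul_assoc]; exact h4
  have hb : b * b = a ^ 2 := by rw [h3, pow_two]
  have hnot : b ∉ Subgroup.zpowers a := by
    intro hmem
    obtain ⟨k, hk⟩ := Subgroup.mem_zpowers_iff.1 hmem
    have hcomm : b * a = a * b := by rw [← hk]; exact (Commute.zpow_self a k).eq
    apply h1
    have : a * a * b = b := by rw [mul_assoc, ← hcomm, ← mul_assoc]; exact h4
    exact mul_eq_right.1 this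
  have ha4 : a ^ (2 * 2) = 1 := by rw [← ho]; exact pow_orderOf_eq_one a
  have hinj := H25.DQ.quatHom_injective 2 a b ho ha4 hb hab hnot
  set f := H25.DQ.quatHom 2 a b ha4 hb hab with hf
  have hr8 : Nat.card ↥f.range = 8 := by
    rw [← Nat.card_congr (MonoidHom.ofInjective hinj).toEquiv, Nat.card_eq_fintype_card, QuaternionGroup.card]
  have hfac : Nat.factorization 72 2 = 3 := by
    rw [show 72 = 2 ^ 3 * 3 ^ 2 by norm_num, Nat.factorization_mul (by norm_num) (by norm_num),
      Nat.Prime.factorization_pow Nat.prime_two, Nat.Prime.factorization_pow Nat.prime_three]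
    simp
  let R : Sylow 2 Γ := Sylow.ofCard f.range (by rw [hr8, h72, hfac]; norm_num)
  have e1 : ↥P ≃* ↥R := Sylow.equiv P R
  have e2 : QuaternionGroup 2 ≃* ↥f.range := MonoidHom.ofInjective hinj
  exact ⟨e1.trans (show ↥R ≃* QuaternionGroup 2 from e2.symm)⟩

end Abstract

/-- iterates of a table -/
theorem pm_pow {c : ℕ} (h : okTab c = true) (i : ℕ) (hi : i < 24) (n : ℕ) :
    (pm c ^ n) (pt i) = pt ((tab c)^[n] i) ∧ (tab c)^[n] i < 24 := by
  induction n with
  | zero => exact ⟨rfl, hi⟩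
  | succ n ih =>
    rw [pow_succ', Equiv.Perm.mul_apply, ih.1, pm_pt h _ ih.2, Function.iterate_succ_apply']
    exact ⟨rfl, tab_lt h ih.2⟩

def L : List ℕ := [
  0x1b59624ef55ba904192f51cb288820,
  0x2587465677415b1799cb51d3090820,
  0x6508d1deb37a6d2598a851dd180820,
  0x85a5488d845a5b341caf329d7a8820,
  0x8d20d9106c43ad579d2b328b3b8820,
  0x93636830837969759dc83293598820,
  0x9d2edac251596c3429cf3992c20820,
  0xab676bc612426847a8ab399c360820,
  0xbdab49ca307b9ac5a928398a418820,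
  0x1a22bbd590b29f2a24cd2b8f320820,
  0x1beeb8c893b1d156a4d47155060820,
  0x19e46ac66c4a1572d96e6d1e480820,
  0x1ba69812b1350ac3aeca43db790820,
  0x1aaa695e044bcf175965a350c98820,
  0x196099b257335c452ec77a291a8820,
  0x1d09664232595b3799283a9d5b8820,
  0x22e6894195a1df7b38cd2a55118820,
  0x23e489dc71a29706b8d6494f560820,
  0x216ae8b2f2335233a28a7aed380820,
  0x21e06bcaa373d534d105b356c88820,
  0x235941c650426d5599cf3a8b798820,
  0x22ae684e2c72cf22d1096d9e3a8820,
  0x2262ea8e13358ac522875bdb2b8820,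
  0x62e0facc926a911b14d4724f718820,
  0x622af8447769d73a14d64b95220820,
  0x626e590e70359c43bdaa5a29588820,
  0x61e269c2e42ad55735e9a590390820,
  0x63a45b92353512353da742ed098820,
  0x6586d24a117ba97418ab3a933a8820,
  0x62a668d6432a0f04b5eeb5164b8820,
  0x81887bb2712bd554d16e6d91218820,
  0x83a651caec3d93132e8a7a1b520820,
  0x8363494eb75bac379ca85192460820,
  0x822ab61253a19f7694f67254388820,
  0x83d8bade23a2904b14ed4b8d390820,
  0x82ae7254722a0cc75169b35f198820,
  0x824659c4953b5d252e8643eccb8820,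
  0x8da4d856f34168459d2f519cc18820,
  0x8998798eb24ad5773505b51f020820,
  0x896a9242633d1d2321aa5bed760820,
  0x8ac68bce446a9eca24f6714d580820,
  0x8bee81b21569973b24f42b94490820,
  0x8b889ac9973d8b0521a67ae8398820,
  0x8aa6765c904bcc32b50ea5972a8820,
  0x926ee646a43b4b033eca42e9318820,
  0x952168de757a5ac41dcb518a320820,
  0x91867a92f0721532d9e9a357160820,
  0x92e6f20e37b1915a38ed4954c80820,
  0x9208f9d60cb29636b8f42a4d788820,
  0x9158ebc0733d13153ec65a1a4a8820,
  0x92aa71cd9172cc44d9e56d110b8820,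
  0x9998a89217720f24b565a59f518820,
  0x9960e1d6245593732da743e9260820,
  0x99e2a6487573cc42b569b511780820,
  0x9a46e85d92550b53ada67a2c488820,
  0x9daadb8c8c5a6907a9c831cb190820,
  0x9a08b946e369decb3954494d0a8820,
  0x9be4b232b069911a39562a4e3b8820,
  0xaa62525e4c551d3322c77adb018820,
  0xa986a932332bcf0759096d17720820,
  0xad2f699183439b15a8af31d3280820,
  0xa9e4a1c0972accc4d90ea35f388820,
  0xab8858cc70535373a2c65be8c90820,
  0xaae0860ef1b19f2695544b8e498820,
  0xabd8884a64b1d63a154d724d1b8820,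
  0xbba4964e03534b533e875a2d120820,
  0xb988a80e554acf12d1eeb351360820,
  0xb958995491559d33be8642da380820,
  0xbb674ab064796d24292b31dd088820,
  0xb9e0a245934a0c3751e56d97590820,
  0xbac6f8c2aca1d046a5562b8d298820,
  0xba22f19272a1970b254d714eca8820]

def okL (c : ℕ) : Bool :=
  okTab c && Nat.beq (actN (tab c) d0) d0 && Nat.beq (tab c 0) 0 && Nat.beq (tab c 1) 1 && Nat.beq (tab c 2) 2 &&
    Nat.blt c (2 ^ 120)

theorem okL_all : L.all okL = true := by decide +kernel

theorem key_nodup : (L.map fun c => tab c 3 * 32 + tab c 4).Nodup := by decide +kernel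

/-- the elements of the list outside its first nine entries have ninth power different from 1 -/
theorem ok9 : ((L.drop 9).all fun c => (List.range 24).any fun i => !Nat.beq ((tab c)^[9] i) i) = true := by
  decide +kernel

theorem ok3 : ((L.take 9).all fun c => (List.range 24).all fun i => Nat.beq ((tab c)^[3] i) i) = true := by
  decide +kernel

def A : ℕ := 0x1a22bbd590b29f2a24cd2b8f320820
def B : ℕ := 0x626e590e70359c43bdaa5a29588820

abbrev G3 (d : Finset GolayPt) (p q r : GolayPt) : Subgroup M24 :=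
  MulAction.stabilizer M24 d ⊓ MulAction.stabilizer M24 p ⊓ MulAction.stabilizer M24 q ⊓ MulAction.stabilizer M24 r

theorem mem_G3 {d : Finset GolayPt} {p q r : GolayPt} {g : M24} :
    g ∈ G3 d p q r ↔ d.image g.1 = d ∧ g.1 p = p ∧ g.1 q = q ∧ g.1 r = r := by
  rw [Subgroup.mem_inf, Subgroup.mem_inf, Subgroup.mem_inf, and_assoc, and_assoc]
  exact Iff.rfl

theorem okL_mem {c : ℕ} (h : okL c = true) : (⟨pm c, pm_mem c⟩ : M24) ∈ G3 (fs d0) (pt 0) (pt 1) (pt 2) := by
  unfold okL at h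
  simp only [Bool.and_eq_true] at h
  obtain ⟨⟨⟨⟨⟨h1, h2⟩, h3⟩, h4⟩, h5⟩, -⟩ := h
  rw [mem_G3]
  refine ⟨?_, ?_, ?_, ?_⟩
  · show (fs d0).image (pm c) = fs d0
    rw [image_fs h1, Nat.eq_of_beq_eq_true h2]
  · show pm c (pt 0) = pt 0
    rw [pm_pt h1 0 (by norm_num), Nat.eq_of_beq_eq_true h3]
  · show pm c (pt 1) = pt 1
    rw [pm_pt h1 1 (by norm_num), Nat.eq_of_beq_eq_true h4]
  · show pm c (pt 2) = pt 2
    rw [pm_pt h1 2 (by norm_num), Nat.eq_of_beq_eq_true h5]

theorem okL_of {c : ℕ} (h : c ∈ L) : okL c = true := List.all_eq_true.1 okL_all c h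

theorem okTab_of {c : ℕ} (h : c ∈ L) : okTab c = true := by
  have := okL_of h
  unfold okL at this
  simp only [Bool.and_eq_true] at this
  exact this.1.1.1.1.1

theorem pt_inj {i j : ℕ} (hi : i < 24) (hj : j < 24) (h : pt i = pt j) : i = j := by
  rw [← idx_pt i hi, ← idx_pt j hj, h]

theorem card0 : Nat.card ↥(G3 (fs d0) (pt 0) (pt 1) (pt 2)) = 72 := by
  apply H33.M12c.card_three d0_mem
  · rw [mem_fs, idx_pt 0 (by norm_num)]; decide
  · rw [mem_fs, idx_pt 1 (by norm_num)]; decide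
  · rw [mem_fs, idx_pt 2 (by norm_num)]; decide
  · intro h; have := pt_inj (by norm_num) (by norm_num) h; omega
  · intro h; have := pt_inj (by norm_num) (by norm_num) h; omega
  · intro h; have := pt_inj (by norm_num) (by norm_num) h; omega

theorem exhaust (g : M24) (hg : g ∈ G3 (fs d0) (pt 0) (pt 1) (pt 2)) : ∃ c ∈ L, g.1 = pm c := by
  classical
  have hinj : Set.InjOn pm {c | c ∈ L} := by
    intro c hc c' hc' h
    have h3 : pt (tab c 3) = pt (tab c' 3) := by
      rw [← pm_pt (okTab_of hc) 3 (by norm_num), ← pm_pt (okTab_of hc') 3 (by norm_num), h]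
    have h4 : pt (tab c 4) = pt (tab c' 4) := by
      rw [← pm_pt (okTab_of hc) 4 (by norm_num), ← pm_pt (okTab_of hc') 4 (by norm_num), h]
    have h3' := pt_inj (tab_lt (okTab_of hc) (by norm_num)) (tab_lt (okTab_of hc') (by norm_num)) h3
    have h4' := pt_inj (tab_lt (okTab_of hc) (by norm_num)) (tab_lt (okTab_of hc') (by norm_num)) h4
    exact List.inj_on_of_nodup_map key_nodup hc hc' (by simp only [h3', h4'])
  have hn : ({c | c ∈ L} : Set ℕ).ncard = 72 := by
    have : ({c | c ∈ L} : Set ℕ) = (L.toFinset : Set ℕ) := by ext c; simp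
    rw [this, Set.ncard_coe_finset, List.toFinset_card_of_nodup (List.Nodup.of_map _ key_nodup)]
    rfl
  let S : Set (Equiv.Perm GolayPt) := pm '' {c | c ∈ L}
  let T : Set (Equiv.Perm GolayPt) := Subtype.val '' ((G3 (fs d0) (pt 0) (pt 1) (pt 2) : Subgroup M24) : Set M24)
  have hST : S = T := by
    apply Set.eq_of_subset_of_ncard_le
    · rintro _ ⟨c, hc, rfl⟩
      exact ⟨⟨pm c, pm_mem c⟩, okL_mem (okL_of hc), rfl⟩
    · rw [hinj.ncard_image, hn, Set.ncard_image_of_injective _ Subtype.val_injective]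
      exact le_of_eq card0
    · exact Set.toFinite _
  have : g.1 ∈ S := by rw [hST]; exact ⟨g, hg, rfl⟩
  obtain ⟨c, hc, h⟩ := this
  exact ⟨c, hc, h.symm⟩

theorem data0 : Data ↥(G3 (fs d0) (pt 0) (pt 1) (pt 2)) := by
  classical
  have hA : okL A = true := by decide +kernel
  have hB : okL B = true := by decide +kernel
  have hA' : okTab A = true := by decide +kernel
  have hB' : okTab B = true := by decide +kernel
  have hval : ∀ x y : ↥(G3 (fs d0) (pt 0) (pt 1) (pt 2)), (x : M24).1 = (y : M24).1 → x = y :=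
    fun x y h => Subtype.ext (Subtype.ext h)
  have hext : ∀ u v : Equiv.Perm GolayPt, (∀ i < 24, u (pt i) = v (pt i)) → u = v := by
    intro u v h
    apply Equiv.ext
    intro p
    have := h (idx p) (idx_lt p)
    rwa [pt_idx] at this
  refine ⟨⟨⟨⟨pm A, pm_mem A⟩, okL_mem hA⟩, ⟨⟨pm B, pm_mem B⟩, okL_mem hB⟩, ?_, ?_, ?_, ?_⟩, ?_⟩
  · intro h
    have h1 : pm A * pm A = 1 := congrArg (fun x : ↥(G3 (fs d0) (pt 0) (pt 1) (pt 2)) => (x : M24).1) h
    have h2 := congrArg (fun u : Equiv.Perm GolayPt => u (pt 3)) h1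
    simp only [Equiv.Perm.mul_apply, Equiv.Perm.one_apply] at h2
    rw [pm_pt hA' 3 (by norm_num), pm_pt hA' _ (tab_lt hA' (by norm_num))] at h2
    have := pt_inj (tab_lt hA' (tab_lt hA' (by norm_num))) (by norm_num) h2
    revert this
    decide +kernel
  · apply hval
    show pm A * pm A * (pm A * pm A) = 1
    apply hext
    intro i hi
    simp only [Equiv.Perm.mul_apply, Equiv.Perm.one_apply]
    rw [pm_pt hA' i hi, pm_pt hA' _ (tab_lt hA' hi), pm_pt hA' _ (tab_lt hA' (tab_lt hA' hi)),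
      pm_pt hA' _ (tab_lt hA' (tab_lt hA' (tab_lt hA' hi)))]
    have : ∀ i < 24, tab A (tab A (tab A (tab A i))) = i := by decide +kernel
    rw [this i hi]
  · apply hval
    show pm B * pm B = pm A * pm A
    apply hext
    intro i hi
    simp only [Equiv.Perm.mul_apply]
    rw [pm_pt hA' i hi, pm_pt hA' _ (tab_lt hA' hi), pm_pt hB' i hi, pm_pt hB' _ (tab_lt hB' hi)]
    have : ∀ i < 24, tab B (tab B i) = tab A (tab A i) := by decide +kernel
    rw [this i hi]
  · apply hval
    show pm A * pm B * pm A = pm B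
    apply hext
    intro i hi
    simp only [Equiv.Perm.mul_apply]
    rw [pm_pt hA' i hi, pm_pt hB' _ (tab_lt hA' hi), pm_pt hA' _ (tab_lt hB' (tab_lt hA' hi)), pm_pt hB' i hi]
    have : ∀ i < 24, tab A (tab B (tab A i)) = tab B i := by decide +kernel
    rw [this i hi]
  · refine ⟨{x | ∃ c ∈ L.take 9, (x : M24).1 = pm c}, Set.toFinite _, ?_, ?_, ?_⟩
    · rw [← Set.ncard_image_of_injective _ (f := fun x : ↥(G3 (fs d0) (pt 0) (pt 1) (pt 2)) => (x : M24).1)
        (fun x y h => hval x y h)]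
      have hsub : (fun x : ↥(G3 (fs d0) (pt 0) (pt 1) (pt 2)) => (x : M24).1) ''
          {x | ∃ c ∈ L.take 9, (x : M24).1 = pm c} ⊆ (((L.take 9).map pm).toFinset : Set (Equiv.Perm GolayPt)) := by
        rintro _ ⟨x, ⟨c, hc, hx⟩, rfl⟩
        simp only [List.coe_toFinset, Set.mem_ofPred_eq]
        exact hx ▸ List.mem_map_of_mem hc
      refine (Set.ncard_le_ncard hsub (Finset.finite_toSet _)).trans ?_
      rw [Set.ncard_coe_finset]
      refine (List.toFinset_card_le _).trans ?_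
      rw [List.length_map]
      decide
    · intro x hx
      obtain ⟨c, hc, hxc⟩ := exhaust x.1 x.2
      by_contra hcon
      have hc' : c ∈ L.drop 9 := by
        have := (List.take_append_drop 9 L) ▸ hc
        rcases List.mem_append.1 this with h | h
        · exact absurd ⟨c, h, hxc⟩ hcon
        · exact h
      have h9 := List.all_eq_true.1 ok9 c hc'
      rw [List.any_eq_true] at h9
      obtain ⟨i, hi, h⟩ := h9
      rw [List.mem_range] at hi
      have hp := (pm_pow (okTab_of hc) i hi 9)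
      have hx' : (pm c) ^ 9 = 1 := by
        rw [← hxc]
        exact congrArg (fun x : ↥(G3 (fs d0) (pt 0) (pt 1) (pt 2)) => (x : M24).1) hx
      rw [hx'] at hp
      have := pt_inj hi hp.2 hp.1
      rw [← this] at h
      simp at h
    · rintro x ⟨c, hc, hxc⟩
      apply hval
      show ((x : M24).1) ^ 3 = 1
      rw [hxc]
      have hcL : c ∈ L := List.mem_of_mem_take hc
      apply hext
      intro i hi
      rw [(pm_pow (okTab_of hcL) i hi 3).1]
      have h3 := List.all_eq_true.1 ok3 c hc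
      rw [List.all_eq_true] at h3
      rw [Nat.eq_of_beq_eq_true (h3 i (List.mem_range.2 hi))]
      rfl

theorem data {d : Finset GolayPt} (hd : d ∈ dodecads) {p q r : GolayPt} (hp : p ∈ d) (hq : q ∈ d) (hr : r ∈ d)
    (hpq : p ≠ q) (hpr : p ≠ r) (hqr : q ≠ r) : Data ↥(G3 d p q r) := by
  obtain ⟨g, hg, hgl, hgd⟩ := H33.M12.move12 d0_mem hd [pt 0, pt 1, pt 2] [p, q, r]
    (by
      have h01 : pt 0 ≠ pt 1 := fun h => by have := pt_inj (by norm_num) (by norm_num) h; omega
      have h02 : pt 0 ≠ pt 2 := fun h => by have := pt_inj (by norm_num) (by norm_num) h; omega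
      have h12 : pt 1 ≠ pt 2 := fun h => by have := pt_inj (by norm_num) (by norm_num) h; omega
      simp [h01, h02, h12])
    (by simp [hpq, hpr, hqr]) rfl (by simp)
    (by
      intro a ha
      simp only [List.mem_cons, List.not_mem_nil, or_false] at ha
      rcases ha with rfl | rfl | rfl
      · rw [mem_fs, idx_pt 0 (by norm_num)]; decide
      · rw [mem_fs, idx_pt 1 (by norm_num)]; decide
      · rw [mem_fs, idx_pt 2 (by norm_num)]; decide)
    (by
      intro a ha
      simp only [List.mem_cons, List.not_mem_nil, or_false] at ha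
      rcases ha with rfl | rfl | rfl <;> assumption)
  simp only [List.map_cons, List.map_nil, List.cons.injEq, and_true] at hgl
  obtain ⟨g0, g1, g2⟩ := hgl
  let γ : M24 := ⟨g, hg⟩
  have hd' : γ • fs d0 = d := hgd
  have hp' : γ • pt 0 = p := g0
  have hq' : γ • pt 1 = q := g1
  have hr' : γ • pt 2 = r := g2
  have hmap : (G3 (fs d0) (pt 0) (pt 1) (pt 2)).map (MulAut.conj γ).toMonoidHom = G3 d p q r := by
    rw [← hd', ← hp', ← hq', ← hr']
    unfold G3
    rw [MulAction.stabilizer_smul_eq_stabilizer_map_conj, MulAction.stabilizer_smul_eq_stabilizer_map_conj,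
      MulAction.stabilizer_smul_eq_stabilizer_map_conj, MulAction.stabilizer_smul_eq_stabilizer_map_conj]
    rw [Subgroup.map_inf _ _ _ (MulAut.conj γ).injective, Subgroup.map_inf _ _ _ (MulAut.conj γ).injective,
      Subgroup.map_inf _ _ _ (MulAut.conj γ).injective]
  exact data0.transport (((MulAut.conj γ).subgroupMap _).trans (MulEquiv.subgroupCongr hmap))

/-- In the group of the length-24 code, the subgroup fixing a dodecad setwise and three of its points individually (a group of order 72) has a normal Sylow 3-subgroup that is elementary abelian of order 9, and its Sylow 2-subgroups are quaternion of order 8. -/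
theorem result (d : Finset Cfsg.GolayPt) (hd : d ∈ Cfsg.dodecads) (p q r : Cfsg.GolayPt) (hp : p ∈ d) (hq : q ∈ d) (hr : r ∈ d) (hpq : p ≠ q) (hpr : p ≠ r) (hqr : q ≠ r) : (∀ Q : Sylow 3 ↥(MulAction.stabilizer Cfsg.M24 d ⊓ MulAction.stabilizer Cfsg.M24 p ⊓ MulAction.stabilizer Cfsg.M24 q ⊓ MulAction.stabilizer Cfsg.M24 r), (Q : Subgroup ↥(MulAction.stabilizer Cfsg.M24 d ⊓ MulAction.stabilizer Cfsg.M24 p ⊓ MulAction.stabilizer Cfsg.M24 q ⊓ MulAction.stabilizer Cfsg.M24 r)).Normal ∧ Nat.card ↥Q = 9 ∧ ∀ x ∈ (Q : Subgroup ↥(MulAction.stabilizer Cfsg.M24 d ⊓ MulAction.stabilizer Cfsg.M24 p ⊓ MulAction.stabilizer Cfsg.M24 q ⊓ MulAction.stabilizer Cfsg.M24 r)), x ^ 3 = 1) ∧ ∀ P : Sylow 2 ↥(MulAction.stabilizer Cfsg.M24 d ⊓ MulAction.stabilizer Cfsg.M24 p ⊓ MulAction.stabilizer Cfsg.M24 q ⊓ MulAction.stabilizer Cfsg.M24 r), Nonempty (↥P ≃* QuaternionGroup 2) := by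
  have h72 := H33.M12c.card_three hd hp hq hr hpq hpr hqr
  have hD := data hd hp hq hr hpq hpr hqr
  exact ⟨fun Q => hD.sylow3 h72 Q, fun P => hD.sylow2 h72 P⟩

end Cfsg.Agent.S5619
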