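import Cfsg.Statements.S5620
import Cfsg.Agent.Lib.H32.Octad

set_option autoImplicit false
open scoped Pointwise
open Cfsg

namespace Cfsg.Agent.S5620

open H8.GolayCode H8.GolayCount H8.GolayBasic H8.M24Mem H8.M24Trans H32.M24Kit
open Cfsg.Spor

theorem sqd : squareDodecad = fs 0x5335f := by
  ext p
  rw [mem_fs]
  unfold squareDodecad support₂
  rw [Finset.mem_filter]
  have : ∀ p : GolayPt, (qrWord 0 p ≠ 0) ↔ Nat.testBit 0x5335f (idx p) = true := by decide +kernel
  constructor
  · rintro ⟨_, h⟩; exact (this p).1 h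
  · intro h; exact ⟨Finset.mem_univ _, (this p).2 h⟩

theorem mem_M12 {x : Equiv.Perm GolayPt} : x ∈ M12 ↔ x ∈ M24 ∧ squareDodecad.image x = squareDodecad := Iff.rfl

theorem mem_M11 {x : Equiv.Perm GolayPt} : x ∈ M11 ↔ x ∈ M12 ∧ x (some 0) = some 0 := Iff.rfl

theorem mem_M12n {x : Equiv.Perm GolayPt} :
    x ∈ M12 ⊓ MulAction.stabilizer (Equiv.Perm GolayPt) (none : GolayPt) ↔ x ∈ M12 ∧ x none = none := Iff.rfl

theorem projInv_image : squareDodecad.image projInv = Finset.univ \ squareDodecad := by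
  have h : ∀ p : GolayPt, (projInv.symm p ∈ squareDodecad ↔ p ∉ squareDodecad) := by
    rw [sqd]
    simp only [mem_fs]
    have : ∀ p : GolayPt, (Nat.testBit 0x5335f (idx (projInvFun p)) = true ↔ ¬ Nat.testBit 0x5335f (idx p) = true) := by
      decide +kernel
    exact this
  ext p
  rw [Finset.mem_image, Finset.mem_sdiff]
  constructor
  · rintro ⟨q, hq, rfl⟩
    refine ⟨Finset.mem_univ _, ?_⟩
    rw [← h, Equiv.symm_apply_apply]; exact hq
  · rintro ⟨_, hp⟩
    exact ⟨projInv.symm p, (h p).2 hp, Equiv.apply_symm_apply _ _⟩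

theorem image_compl' (x : Equiv.Perm GolayPt) (s : Finset GolayPt) :
    (Finset.univ \ s).image x = Finset.univ \ s.image x := by
  have := H32.Octad.image_compl x s
  rwa [Finset.compl_eq_univ_sdiff, Finset.compl_eq_univ_sdiff] at this

theorem compl_inj {s t : Finset GolayPt} (h : Finset.univ \ s = Finset.univ \ t) : s = t := by
  rw [← Finset.compl_eq_univ_sdiff, ← Finset.compl_eq_univ_sdiff] at h
  exact compl_injective h

theorem conj_eq : MulAut.conj projInv • M11 = M12 ⊓ MulAction.stabilizer (Equiv.Perm GolayPt) (none : GolayPt) := by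
  have hp0 : projInv (some 0) = none := rfl
  have hpn : projInv none = some 0 := rfl
  have hpn' : (projInv⁻¹ : Equiv.Perm GolayPt) none = some 0 := by rw [Equiv.Perm.inv_eq_iff_eq, hp0]
  have himg : (Finset.univ \ squareDodecad).image ⇑(projInv⁻¹) = squareDodecad := image_inv projInv_image
  ext x
  rw [Subgroup.mem_pointwise_smul_iff_inv_smul_mem, mem_M12n]
  have hx : (MulAut.conj projInv)⁻¹ • x = projInv⁻¹ * x * projInv := by
    rw [← map_inv]
    show projInv⁻¹ * x * projInv⁻¹⁻¹ = _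
    rw [inv_inv]
  rw [hx, mem_M11, mem_M12, mem_M12]
  constructor
  · rintro ⟨⟨h1, h2⟩, h3⟩
    have hxe : x = projInv * (projInv⁻¹ * x * projInv) * projInv⁻¹ := by group
    obtain ⟨y, hy⟩ : ∃ y, y = projInv⁻¹ * x * projInv := ⟨_, rfl⟩
    rw [← hy] at h1 h2 h3 hxe
    refine ⟨⟨?_, ?_⟩, ?_⟩
    · rw [hxe]; exact M24.mul_mem (M24.mul_mem γ_mem h1) (M24.inv_mem γ_mem)
    · apply compl_inj
      rw [← image_compl', hxe, image_mul, image_mul, himg, h2, projInv_image]
    · rw [hxe, Equiv.Perm.mul_apply, Equiv.Perm.mul_apply, hpn', h3, hp0]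
  · rintro ⟨⟨h1, h2⟩, h3⟩
    refine ⟨⟨M24.mul_mem (M24.mul_mem (M24.inv_mem γ_mem) h1) γ_mem, ?_⟩, ?_⟩
    · rw [image_mul, image_mul, projInv_image, image_compl', h2, himg]
    · rw [Equiv.Perm.mul_apply, Equiv.Perm.mul_apply, hp0, h3, hpn']

/-- an element of `M12` fixing the extra point and no point of the dodecad -/
def tE : ℕ := 0xb94f6a8229a28329b9a478d6261a08

theorem okE : okTab tE = true := by decide +kernel

theorem E_mem : pm tE ∈ M12 ⊓ MulAction.stabilizer (Equiv.Perm GolayPt) (none : GolayPt) := by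
  rw [mem_M12n, mem_M12]
  refine ⟨⟨pm_mem _, ?_⟩, ?_⟩
  · rw [sqd, image_fs okE]
    have : actN (tab tE) 0x5335f = 0x5335f := by decide +kernel
    rw [this]
  · apply idx_injective
    rw [pm_idx okE]; decide +kernel

theorem E_moves : ∀ p ∈ squareDodecad, pm tE p ≠ p := by
  rw [sqd]
  intro p hp h
  have h1 := congrArg idx h
  rw [pm_idx okE] at h1
  rw [mem_fs] at hp
  have : ∀ i < 24, Nat.testBit 0x5335f i = true → tab tE i ≠ i := by decide +kernel
  exact this _ (idx_lt p) hp h1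

theorem zero_mem : (some 0 : GolayPt) ∈ squareDodecad := by
  rw [sqd, mem_fs]; decide +kernel


/-- Inside the stabiliser of the dodecad of squares (a Mathieu group of degree 12), the stabiliser of the residue 0 (a point of the dodecad) and the stabiliser of the extra point (a point outside the dodecad) are isomorphic but not conjugate; conjugation by a suitable element of the code's group that maps the dodecad of squares onto its complement carries the first onto the second. -/
theorem result : Nonempty (↥(Cfsg.Spor.M12 ⊓ MulAction.stabilizer (Equiv.Perm Cfsg.GolayPt) (none : Cfsg.GolayPt)) ≃* ↥Cfsg.Spor.M11) ∧ (¬ ∃ k ∈ Cfsg.Spor.M12, MulAut.conj k • Cfsg.Spor.M11 = Cfsg.Spor.M12 ⊓ MulAction.stabilizer (Equiv.Perm Cfsg.GolayPt) (none : Cfsg.GolayPt)) ∧ ∃ g ∈ Cfsg.M24, g • Cfsg.Spor.squareDodecad = Finset.univ \ Cfsg.Spor.squareDodecad ∧ MulAut.conj g • Cfsg.Spor.M11 = Cfsg.Spor.M12 ⊓ MulAction.stabilizer (Equiv.Perm Cfsg.GolayPt) (none : Cfsg.GolayPt) := by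
  refine ⟨?_, ?_, projInv, γ_mem, projInv_image, conj_eq⟩
  · rw [← conj_eq]
    exact ⟨(Subgroup.equivSMul (MulAut.conj projInv) M11).symm⟩
  · rintro ⟨k, hk, hkM⟩
    have hE := E_mem
    rw [← hkM, Subgroup.mem_pointwise_smul_iff_inv_smul_mem] at hE
    have hx : (MulAut.conj k)⁻¹ • pm tE = k⁻¹ * pm tE * k := by
      rw [← map_inv]
      show k⁻¹ * pm tE * k⁻¹⁻¹ = _
      rw [inv_inv]
    rw [hx, mem_M11] at hE
    have h0 := hE.2
    rw [Equiv.Perm.mul_apply, Equiv.Perm.mul_apply, Equiv.Perm.inv_eq_iff_eq] at h0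
    refine E_moves (k (some 0)) ?_ h0
    have hk2 := (mem_M12.1 hk).2
    have := Finset.mem_image_of_mem k zero_mem
    rwa [hk2] at this

end Cfsg.Agent.S5620
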