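import Cfsg.Statements.S5625
import Cfsg.Agent.Lib.H9.Steiner24

set_option autoImplicit false
open Cfsg

namespace Cfsg.Agent.S5625

/-- In any Steiner system S(5, 8, 24) and for any set Y of three points, the blocks meeting Y in exactly 3, 2, 1 and 0 points number 21, 168, 360 and 210 respectively (so there are 759 blocks in all). -/
theorem result (α : Type*) [Fintype α] [DecidableEq α] (hα : Fintype.card α = 24) (B : Set (Finset α)) (hB : Cfsg.IsSteinerSystem 5 8 B) (Y : Finset α) (hY : Y.card = 3) : {b : Finset α | b ∈ B ∧ (b ∩ Y).card = 3}.ncard = 21 ∧ {b : Finset α | b ∈ B ∧ (b ∩ Y).card = 2}.ncard = 168 ∧ {b : Finset α | b ∈ B ∧ (b ∩ Y).card = 1}.ncard = 360 ∧ {b : Finset α | b ∈ B ∧ (b ∩ Y).card = 0}.ncard = 210 := by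
  classical
  have m3 := H9.Steiner.sum_choose_inter B Y (j := 3) (l := 21) (fun S hS => H9.Steiner24.lam3 hα hB S hS)
  have m2 := H9.Steiner.sum_choose_inter B Y (j := 2) (l := 77) (fun S hS => H9.Steiner24.lam2 hα hB S hS)
  have m1 := H9.Steiner.sum_choose_inter B Y (j := 1) (l := 253) (fun S hS => H9.Steiner24.lam1 hα hB S hS)
  have m0 := H9.Steiner24.card_blk hα hB
  rw [hY] at m3 m2 m1
  have hle : ∀ b ∈ H9.Steiner.blk B, (b ∩ Y).card ∈ Finset.range 4 := by
    intro b _
    have := Finset.card_le_card (Finset.inter_subset_right (s₁ := b) (s₂ := Y))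
    rw [Finset.mem_range]; omega
  set N : ℕ → ℕ := fun i => ((H9.Steiner.blk B).filter fun b => (b ∩ Y).card = i).card with hN
  have hs : ∀ f : ℕ → ℕ, ∑ b ∈ H9.Steiner.blk B, f (b ∩ Y).card = ∑ i ∈ Finset.range 4, N i * f i := by
    intro f
    rw [← Finset.sum_fiberwise_of_maps_to hle]
    refine Finset.sum_congr rfl fun i _ => ?_
    rw [Finset.sum_congr rfl (g := fun _ => f i) (fun b hb => by rw [(Finset.mem_filter.1 hb).2]),
      Finset.sum_const, smul_eq_mul]
  have e3 := hs (fun x => x.choose 3)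
  have e2 := hs (fun x => x.choose 2)
  have e1 := hs (fun x => x.choose 1)
  have e0 := hs (fun _ => 1)
  rw [m3] at e3
  rw [m2] at e2
  rw [m1] at e1
  rw [Finset.sum_const, smul_eq_mul, mul_one, m0] at e0
  simp only [Finset.sum_range_succ, Finset.sum_range_zero, zero_add] at e0 e1 e2 e3
  norm_num [Nat.choose] at e0 e1 e2 e3
  have hset : ∀ i, {b : Finset α | b ∈ B ∧ (b ∩ Y).card = i}.ncard = N i := by
    intro i
    show _ = ((H9.Steiner.blk B).filter fun b => (b ∩ Y).card = i).card
    rw [← Set.ncard_coe_finset]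
    congr 1
    ext b
    simp
  rw [hset, hset, hset, hset]
  omega

end Cfsg.Agent.S5625
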