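import Cfsg.Statements.S5628
import Cfsg.Agent.Lib.H94.PG24

set_option autoImplicit false
open Cfsg

namespace Cfsg.Agent.S5628

open scoped Pointwise in
theorem mem_aut {α : Type*} [DecidableEq α] {L : Set (Finset α)} {g : Equiv.Perm α} :
    g ∈ setSystemAut L ↔ (fun b : Finset α => b.image g) '' L = L := by
  rw [MulAction.mem_stabilizer_iff]
  exact Iff.rfl


/-- In a projective plane of order 4 (a Steiner system S(2, 5, 21)), every permutation of the six points of a hyperoval (a 6-set met by no line in more than two points) is the restriction of exactly one automorphism of the plane. In particular the stabiliser of a hyperoval in the automorphism group is isomorphic to the symmetric group of degree 6 acting faithfully on the hyperoval. -/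
theorem result {α : Type*} [Fintype α] [DecidableEq α] (hα : Fintype.card α = 21) (L : Set (Finset α)) (hL : Cfsg.IsSteinerSystem 2 5 L) (H : Finset α) (hH : (H.card = 6 ∧ ∀ l ∈ L, (l ∩ H).card ≤ 2)) (σ : Equiv.Perm ↥H) : ∃! g : Equiv.Perm α, g ∈ Cfsg.setSystemAut L ∧ ∀ p : ↥H, g p = σ p := by
  have h : H94.PG24.Plane L := ⟨hα, hL⟩
  have hH' : H94.PG24.Hyp L H := hH
  refine ⟨H94.PG24.eExt h hH' h hH' σ, ⟨?_, fun p => H94.PG24.eExt_mem h hH' h hH' σ p⟩, ?_⟩
  · rw [mem_aut]
    exact H94.PG24.image_eq h h fun l hl => H94.PG24.eExt_line h hH' h hH' σ hl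
  · rintro g ⟨hg, hgσ⟩
    rw [mem_aut] at hg
    apply H94.PG24.ext_unique h hH' h hH' σ
    · intro l hl
      rw [← hg]; exact ⟨l, hl, rfl⟩
    · exact fun l hl => H94.PG24.eExt_line h hH' h hH' σ hl
    · exact hgσ
    · exact fun p => H94.PG24.eExt_mem h hH' h hH' σ p

end Cfsg.Agent.S5628
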