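import Cfsg.Statements.S5632
import Cfsg.Agent.Lib.H94.Stab

set_option autoImplicit false
open Cfsg

namespace Cfsg.Agent.S5632

open H94.Transv H94.Stab Matrix

/-- For a finite field F and subspaces 0 < W < U of F^n with dim W + dim U = n, the elements of SL_n(F) stabilising both W and U form a subgroup that is not maximal in SL_n(F): some subgroup lies strictly between it and SL_n(F). -/
theorem result {F : Type*} [Field F] [Fintype F] (n : ℕ) (W U : Submodule F (Fin n → F)) (hW0 : W ≠ ⊥) (hWU : W < U) (hdim : Module.finrank F W + Module.finrank F U = n) : ∃ K : Subgroup (Matrix.GeneralLinearGroup (Fin n) F), Cfsg.Geo.subspaceStabilizer W ⊓ Cfsg.Geo.subspaceStabilizer U ⊓ Cfsg.Geo.specialLinear (Fin n) F < K ∧ K < Cfsg.Geo.specialLinear (Fin n) F := by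
  have hU1 : U ≠ ⊤ := by
    rintro rfl
    have h0 : Module.finrank F W ≠ 0 := by
      intro h0
      exact hW0 (Submodule.finrank_eq_zero.1 h0)
    rw [finrank_top] at hdim
    simp at hdim
    exact hW0 hdim
  have hW1 : W ≠ ⊤ := fun h => by
    rw [h] at hWU; exact not_top_lt hWU
  refine ⟨Cfsg.Geo.subspaceStabilizer W ⊓ Cfsg.Geo.specialLinear (Fin n) F, ?_, (stab_maximal hW0 hW1).1⟩
  refine lt_of_le_of_ne (inf_le_inf_right _ inf_le_left) ?_
  intro h
  obtain ⟨v, hv⟩ : ∃ u, u ∉ U := by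
    by_contra h
    push Not at h
    exact hU1 (eq_top_iff.2 fun x _ => h x)
  obtain ⟨u, hu, huW⟩ := Set.exists_of_ssubset hWU
  have hn : u ∉ W ⊔ Submodule.span F {v} := by
    intro hm
    obtain ⟨a, ha, b, hb, hab⟩ := Submodule.mem_sup.1 hm
    obtain ⟨c, rfl⟩ := Submodule.mem_span_singleton.1 hb
    by_cases hc : c = 0
    · rw [hc, zero_smul, add_zero] at hab
      exact huW (hab ▸ ha)
    · apply hv
      have : c • v = u - a := eq_sub_of_add_eq' hab
      have h3 : c • v ∈ U := by rw [this]; exact U.sub_mem hu (hWU.le ha)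
      have := U.smul_mem c⁻¹ h3
      rwa [smul_smul, inv_mul_cancel₀ hc, one_smul] at this
  obtain ⟨φ, h1, h2⟩ := exists_functional_submodule hn
  have hφ : φ ⬝ᵥ v = 0 := h1 _ (Submodule.mem_sup_right (Submodule.mem_span_singleton_self _))
  have hmem : tGL v φ hφ ∈ Cfsg.Geo.subspaceStabilizer W ⊓ Cfsg.Geo.specialLinear (Fin n) F :=
    ⟨tGL_mem_stab_of_ann hφ fun w hw => h1 w (Submodule.mem_sup_left hw), tGL_mem_specialLinear _ _ _⟩
  rw [← h] at hmem
  have := ((mem_stab_iff _ _).1 hmem.1.2 u).1 hu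
  rw [tGL_val, tm_mulVec, h2, one_smul] at this
  exact hv ((Submodule.add_mem_iff_right U hu).1 this)

end Cfsg.Agent.S5632
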