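import Cfsg.Statements.S5633
import Cfsg.Agent.Lib.H94.Stab

set_option autoImplicit false
open Cfsg

namespace Cfsg.Agent.S5633

open H94.Transv H94.Stab Matrix

/-- For a finite field F and complementary non-zero subspaces W ⊕ U = F^n with dim W < dim U, the elements of SL_n(F) stabilising both W and U form a subgroup that is not maximal in SL_n(F): some subgroup lies strictly between it and SL_n(F). -/
theorem result {F : Type*} [Field F] [Fintype F] (n : ℕ) (W U : Submodule F (Fin n → F)) (hW0 : W ≠ ⊥) (hWU : W ⊓ U = ⊥) (hWU' : W ⊔ U = ⊤) (hdim : Module.finrank F W < Module.finrank F U) : ∃ K : Subgroup (Matrix.GeneralLinearGroup (Fin n) F), Cfsg.Geo.subspaceStabilizer W ⊓ Cfsg.Geo.subspaceStabilizer U ⊓ Cfsg.Geo.specialLinear (Fin n) F < K ∧ K < Cfsg.Geo.specialLinear (Fin n) F := by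
  have hU0 : U ≠ ⊥ := by
    rintro rfl
    simp at hdim
  obtain ⟨v, hv, hv0⟩ := (Submodule.ne_bot_iff W).1 hW0
  obtain ⟨u, hu, hu0⟩ := (Submodule.ne_bot_iff U).1 hU0
  have hdisj : ∀ x, x ∈ W → x ∈ U → x = 0 := fun x h1 h2 => by
    have : x ∈ W ⊓ U := ⟨h1, h2⟩
    rw [hWU] at this
    exact (Submodule.mem_bot F).1 this
  have hW1 : W ≠ ⊤ := fun h => by
    apply hu0
    exact hdisj u (h ▸ Submodule.mem_top) hu
  refine ⟨Cfsg.Geo.subspaceStabilizer W ⊓ Cfsg.Geo.specialLinear (Fin n) F, ?_, (stab_maximal hW0 hW1).1⟩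
  refine lt_of_le_of_ne (inf_le_inf_right _ inf_le_left) ?_
  intro h
  have hn : u ∉ Submodule.span F {v} := by
    intro hm
    obtain ⟨c, rfl⟩ := Submodule.mem_span_singleton.1 hm
    exact hu0 (hdisj _ (W.smul_mem c hv) hu)
  obtain ⟨φ, h1, h2⟩ := exists_functional hn
  have hmem : tGL v φ h1 ∈ Cfsg.Geo.subspaceStabilizer W ⊓ Cfsg.Geo.specialLinear (Fin n) F :=
    ⟨tGL_mem_stab_of_mem h1 hv, tGL_mem_specialLinear _ _ _⟩
  rw [← h] at hmem
  have := ((mem_stab_iff _ _).1 hmem.1.2 u).1 hu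
  rw [tGL_val, tm_mulVec, h2, one_smul] at this
  exact hv0 (hdisj v hv ((Submodule.add_mem_iff_right U hu).1 this))

end Cfsg.Agent.S5633
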