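import Cfsg.Statements.S5638
import Cfsg.Agent.Lib.H94.TensorTwo

set_option autoImplicit false
open Cfsg

namespace Cfsg.Agent.S5638

/-- Over the field with 2 elements, for n = 2 n₂ ≥ 13, the stabiliser in SL_n of a tensor decomposition with factors of dimensions 2 and n₂ (the conjugate by any P of the Kronecker-product subgroup transported along any bijection Fin n ≃ Fin 2 × Fin n₂, intersected with SL_n) is not a maximal subgroup: some subgroup lies strictly between it and SL_n. -/
theorem result {F : Type*} [Field F] [Fintype F] (n : ℕ) (hn : 13 ≤ n) (hq : Fintype.card F = 2) (n₂ : ℕ) (e : Fin n ≃ Fin 2 × Fin n₂) (P : Matrix.GeneralLinearGroup (Fin n) F) : ∃ K : Subgroup (Matrix.GeneralLinearGroup (Fin n) F), Cfsg.Geo.tensorProductSubgroup 2 n₂ e P ⊓ Cfsg.Geo.specialLinear (Fin n) F < K ∧ K < Cfsg.Geo.specialLinear (Fin n) F := by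
  have hc : n = 2 * n₂ := by
    have := Fintype.card_congr e
    simpa using this
  have h2 : (2 : F) = 0 := by
    have h := Nat.cast_card_eq_zero F
    rw [hq] at h; exact_mod_cast h
  have h01 : ∀ a : F, a = 0 ∨ a = 1 := by
    intro a
    by_cases ha : a = 0
    · exact Or.inl ha
    · right
      have := FiniteField.pow_card_sub_one_eq_one a ha
      rw [hq] at this
      simpa using this
  have hlt : Cfsg.Geo.kroneckerSubgroup 2 n₂ F < H94.TensorTwo.K0 n₂ F := by
    refine lt_of_le_of_ne (H94.TensorTwo.kron_le n₂ h01 h2) fun h => ?_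
    obtain ⟨g, hg, hg'⟩ := H94.TensorTwo.exists_not_kron (F := F) n₂ (by omega) h2
    exact hg' (h ▸ hg)
  have hlt2 : H94.TensorTwo.K0 n₂ F < ⊤ := lt_top_iff_ne_top.2 (H94.TensorTwo.K0_ne_top n₂ (by omega))
  rw [H94.TensorTwo.sl_eq_top hq]
  have hinj1 : Function.Injective ((Cfsg.Geo.glReindex (F := F) e.symm).toMonoidHom) := (Cfsg.Geo.glReindex (F := F) e.symm).injective
  have hinj2 : Function.Injective ((MulAut.conj P).toMonoidHom) := (MulAut.conj P).injective
  refine ⟨((H94.TensorTwo.K0 n₂ F).map (Cfsg.Geo.glReindex e.symm).toMonoidHom).map (MulAut.conj P).toMonoidHom, ?_, ?_⟩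
  · rw [inf_top_eq, Cfsg.Geo.tensorProductSubgroup]
    exact (Subgroup.map_lt_map_iff_of_injective hinj2).2 ((Subgroup.map_lt_map_iff_of_injective hinj1).2 hlt)
  · have h3 := (Subgroup.map_lt_map_iff_of_injective hinj2).2 ((Subgroup.map_lt_map_iff_of_injective hinj1).2 hlt2)
    exact lt_of_lt_of_le h3 le_top

end Cfsg.Agent.S5638
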