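import Cfsg.Statements.S5645
import Cfsg.Agent.Lib.H95.Bridge
import Cfsg.Agent.Lib.H95.SpPar

set_option autoImplicit false
open Cfsg

namespace Cfsg.Agent.S5645

open H95.Bridge H95.SpBasic Module

theorem result {F : Type*} [Field F] [Fintype F] (m : ℕ) (hm : 7 ≤ m) (W : Submodule F (Fin m ⊕ Fin m → F)) (hW0 : W ≠ ⊥) (hW : Cfsg.Geo.IsTotallySingularFor (Cfsg.sympForm m F) W) : Cfsg.Geo.IsMaximalIn (Cfsg.spGL m F) (Cfsg.Geo.subspaceStabilizer W ⊓ Cfsg.spGL m F) := by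
  set B := spB m F with hBdef
  have hB : B.IsAlt := spB_isAlt m F
  have hndV : ∀ v, (∀ w, B v w = 0) → v = 0 := spB_nondeg m F
  have hWi : ∀ x ∈ W, ∀ y ∈ W, B x y = 0 := fun x hx y hy => by
    rw [hBdef, spB_apply]; exact hW x hx y hy
  have hmem : ∀ g : GL (Fin m ⊕ Fin m) F, g ∈ spGL m F ↔ toEq _ F g ∈ isom B := fun g => mem_spGL
  apply isMaximalIn_of
  · obtain ⟨g, hg, w, hw, hgw⟩ := H95.SpPar.exists_not hB hndV hWi hW0
    refine ⟨(toEq _ F).symm g, ?_, ?_⟩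
    · rw [hmem, MulEquiv.apply_symm_apply]; exact hg
    · rw [mem_subspaceStabilizer, MulEquiv.apply_symm_apply]
      intro h
      exact hgw ((h w).1 hw)
  · intro M hHM hMK ⟨g, hg, hgS⟩
    refine le_of_map hmem (H95.SpPar.overgroup hB hndV hWi ?_ ?_ ?_)
    · rintro _ ⟨x, hx, rfl⟩
      exact (hmem x).1 (hMK hx)
    · intro x hx hσ
      rw [mem_map_toEq]
      refine hHM ⟨?_, ?_⟩
      · exact mem_subspaceStabilizer_of (by rw [MulEquiv.apply_symm_apply]; exact hσ)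
      · exact (hmem _).2 (by rw [MulEquiv.apply_symm_apply]; exact hx)
    · refine ⟨toEq _ F g, ⟨g, hg, rfl⟩, ?_⟩
      by_contra hcon
      push Not at hcon
      exact hgS (mem_subspaceStabilizer_of hcon)

end Cfsg.Agent.S5645
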