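import Cfsg.Statements.S5647
import Cfsg.Agent.Lib.H95.Bridge
import Cfsg.Agent.Lib.H95.SpWreath

set_option autoImplicit false
open Cfsg

namespace Cfsg.Agent.S5647

open H95.Bridge H95.SpBasic Module

/-- For a finite field F with q elements and m ≥ 7, let D be a decomposition of F^(2m) into t ≥ 2 pairwise orthogonal subspaces of equal dimension k on each of which the standard alternating form is non-degenerate, spanning F^(2m). Unless k = 2 and q = 2, the elements of Sp_2m(F) permuting the members of D form a maximal subgroup of Sp_2m(F). -/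
theorem result {F : Type*} [Field F] [Fintype F] (m : ℕ) (hm : 7 ≤ m) {t : ℕ} (k : ℕ) (D : Fin t → Submodule F (Fin m ⊕ Fin m → F)) (hD : Cfsg.Geo.IsNondegenerateMDecomposition (Cfsg.sympForm m F) k D) (hex : ¬ (k = 2 ∧ Fintype.card F = 2)) : Cfsg.Geo.IsMaximalIn (Cfsg.spGL m F) (Cfsg.Geo.decompositionStabilizer D ⊓ Cfsg.spGL m F) := by
  set B := spB m F with hBdef
  have hB : B.IsAlt := spB_isAlt m F
  have hndV : ∀ v, (∀ w, B v w = 0) → v = 0 := spB_nondeg m F
  have hnd : ∀ i, ∀ v ∈ D i, (∀ w ∈ D i, B v w = 0) → v = 0 := fun i =>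
    spB_nondegOn (hD.nondegenerate i)
  have horth : ∀ i j, i ≠ j → ∀ u ∈ D i, ∀ v ∈ D j, B u v = 0 := by
    intro i j hij u hu v hv
    rw [hBdef, spB_apply]
    exact hD.orthogonal i j hij u hu v hv
  have hk : ∀ i, finrank F (D i) = k := hD.decomp.finrank_eq
  have hk0 : k ≠ 0 := hD.decomp.pos.ne'
  have ht := hD.decomp.two_le
  let i0 : Fin t := ⟨0, by omega⟩
  let i1 : Fin t := ⟨1, by omega⟩
  have hi : i0 ≠ i1 := by simp [i0, i1]
  have hne : ∀ i, D i ≠ ⊥ := fun i h0 => by
    have := hk i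
    rw [h0, finrank_bot] at this
    exact hk0 this.symm
  have hmem : ∀ g : GL (Fin m ⊕ Fin m) F, g ∈ spGL m F ↔ toEq _ F g ∈ isom B := fun g => mem_spGL
  apply isMaximalIn_of
  · obtain ⟨g, hg, x, hx, hgx⟩ := H95.SpWreath.exists_not_perm B hB D hnd horth hD.decomp.iSup_eq_top
      i0 i1 hi (hne _) (hne _)
    refine ⟨(toEq _ F).symm g, ?_, ?_⟩
    · rw [hmem, MulEquiv.apply_symm_apply]; exact hg
    · rw [mem_decompositionStabilizer, MulEquiv.apply_symm_apply]
      rintro ⟨σ, hσ⟩
      apply hgx (σ i0)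
      rw [← hσ i0]
      exact ⟨x, hx, rfl⟩
  · intro M hHM hMK ⟨g, hg, hgS⟩
    have hk3 : 3 ≤ k ∨ ∃ a : F, a ≠ 0 ∧ a ≠ 1 := by
      by_cases hq : Fintype.card F = 2
      · left
        have hk2 : k ≠ 2 := fun h => hex ⟨h, hq⟩
        have hk1 : k ≠ 1 := by
          intro h1
          obtain ⟨u, hu, v, hv, huv⟩ := H95.SpGeom.exists_hyp B (D i0) (hnd i0) (hne i0)
          have hu0 : u ≠ 0 := by rintro rfl; simp at huv
          have h2 := hk i0
          rw [h1] at h2
          obtain ⟨c, hc⟩ := exists_smul_eq_of_finrank_eq_one h2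
            (x := ⟨u, hu⟩) (by simpa using hu0) ⟨v, hv⟩
          have hc' : c • u = v := congrArg Subtype.val hc
          rw [← hc', map_smul, hB u, smul_zero] at huv
          exact zero_ne_one huv
        omega
      · right
        exact exists_ne01 hq
    have key := H95.SpWreath.overgroup B hB hndV D k hk hnd horth hD.decomp.iSup_eq_top hk0 hk3
      (M.map (toEq _ F).toMonoidHom) (by
        rintro _ ⟨x, hx, rfl⟩
        exact (hmem x).1 (hMK hx)) (by
        intro x hx hσ
        refine ⟨(toEq _ F).symm x, hHM ⟨?_, ?_⟩, ?_⟩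
        · exact mem_decompositionStabilizer.2 (by rw [MulEquiv.apply_symm_apply]; exact hσ)
        · exact (hmem _).2 (by rw [MulEquiv.apply_symm_apply]; exact hx)
        · exact MulEquiv.apply_symm_apply _ _) ⟨toEq _ F g, ⟨g, hg, rfl⟩, fun hσ =>
          hgS (mem_decompositionStabilizer.2 hσ)⟩
    intro x hx
    obtain ⟨y, hy, hyx⟩ := key ((hmem x).1 hx)
    have : y = x := (toEq _ F).injective hyx
    rwa [← this]

end Cfsg.Agent.S5647
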