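import Cfsg.Statements.S5648
import Cfsg.Agent.Lib.H95.NmSp2
import Cfsg.Agent.Lib.H95.F2
import Cfsg.Agent.Lib.H95.OImpB

set_option autoImplicit false
open Cfsg

namespace Cfsg.Agent.S5648

open H95.Bridge H95.SpBasic Module

/-- Over the field with 2 elements and for m ≥ 7, let D be a decomposition of F^(2m) into t pairwise orthogonal non-degenerate 2-dimensional subspaces for the standard alternating form (t = m ≥ 2). Then the elements of Sp_2m(2) permuting the members of D form a subgroup that is not maximal: some subgroup lies strictly between it and Sp_2m(2). -/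
theorem result {F : Type*} [Field F] [Fintype F] (m : ℕ) (hm : 7 ≤ m) (hq : Fintype.card F = 2) {t : ℕ} (D : Fin t → Submodule F (Fin m ⊕ Fin m → F)) (hD : Cfsg.Geo.IsNondegenerateMDecomposition (Cfsg.sympForm m F) 2 D) : ∃ K : Subgroup (Matrix.GeneralLinearGroup (Fin m ⊕ Fin m) F), Cfsg.Geo.decompositionStabilizer D ⊓ Cfsg.spGL m F < K ∧ K < Cfsg.spGL m F := by
  obtain ⟨hF, h2⟩ := H95.F2.two hq
  set B := spB m F with hBdef
  have hB : B.IsAlt := spB_isAlt m F
  have hnd : ∀ i, ∀ v ∈ D i, (∀ w ∈ D i, B v w = 0) → v = 0 := fun i =>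
    spB_nondegOn (hD.nondegenerate i)
  have horth : ∀ i j, i ≠ j → ∀ u ∈ D i, ∀ v ∈ D j, B u v = 0 := by
    intro i j hij u hu v hv
    rw [hBdef, spB_apply]
    exact hD.orthogonal i j hij u hu v hv
  have hk : ∀ i, finrank F (D i) = 2 := hD.decomp.finrank_eq
  obtain ⟨p, h⟩ := H95.SpMax.exists_OD B D hnd horth hD.decomp.iSup_eq_top
  have hcard := H95.OImpB.card_eq hD.decomp
  have hcard' : Fintype.card (Fin m ⊕ Fin m) = 2 * m := by simp; ring
  rw [hcard'] at hcard
  let i0 : Fin t := ⟨0, by omega⟩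
  let i1 : Fin t := ⟨1, by omega⟩
  let i2 : Fin t := ⟨2, by omega⟩
  obtain ⟨⟨g, hg, hgq, x, hx, hgx⟩, g', hg', v, hv⟩ := H95.NmSp2.not_max hF h2 hB h hk (i := i0)
    (j := i1) (k := i2) (by simp [i0, i1]) (by simp [i0, i2]) (by simp [i1, i2])
  have hmem : ∀ g : Matrix.GeneralLinearGroup (Fin m ⊕ Fin m) F, g ∈ spGL m F ↔
    toEq _ F g ∈ isom B := fun g => mem_spGL
  let T : Subgroup (Matrix.GeneralLinearGroup (Fin m ⊕ Fin m) F) :=
    { carrier := {g | ∀ v, H95.NmSp2.qf p (toEq _ F g v) = H95.NmSp2.qf p v}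
      mul_mem' := by
        intro a b ha hb v
        rw [map_mul, LinearEquiv.mul_apply, ha, hb]
      one_mem' := by
        intro v
        rw [map_one]; rfl
      inv_mem' := by
        intro a ha v
        rw [map_inv, ← ha ((toEq _ F a)⁻¹ v)]
        congr 1
        exact (toEq _ F a).apply_symm_apply v }
  refine not_max_of (T := T) ?_ ⟨(toEq _ F).symm g, ⟨fun v => ?_, ?_⟩, ?_⟩
    ⟨(toEq _ F).symm g', ?_, fun hT => ?_⟩
  · rintro y ⟨hy, -⟩ v
    obtain ⟨σ, hσ⟩ := mem_decompositionStabilizer.1 hy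
    apply H95.NmSp2.qf_perm h (σ := σ)
    intro i x hx
    rw [← hσ i]; exact ⟨x, hx, rfl⟩
  · rw [MulEquiv.apply_symm_apply]; exact hgq v
  · exact (hmem _).2 (by rw [MulEquiv.apply_symm_apply]; exact hg)
  · intro hS
    obtain ⟨σ, hσ⟩ := mem_decompositionStabilizer.1 hS
    rw [MulEquiv.apply_symm_apply] at hσ
    apply hgx (σ i0)
    rw [← hσ i0]
    exact ⟨x, hx, rfl⟩
  · exact (hmem _).2 (by rw [MulEquiv.apply_symm_apply]; exact hg')
  · have := hT v
    rw [MulEquiv.apply_symm_apply] at this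
    exact hv this


end Cfsg.Agent.S5648
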