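import Cfsg.Statements.S5649
import Cfsg.Agent.Lib.H95.Bridge2
import Cfsg.Agent.Lib.H95.SpSing

set_option autoImplicit false
open Cfsg

namespace Cfsg.Agent.S5649

open H95.Bridge H95.Bridge2 H95.SpBasic H95.SpSing Module

/-- For a finite field F of odd order and m ≥ 7, let D be a decomposition of F^(2m) into two complementary subspaces of dimension m on each of which the standard alternating form vanishes identically. Then the elements of Sp_2m(F) preserving or interchanging the two subspaces form a maximal subgroup of Sp_2m(F). -/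
theorem result {F : Type*} [Field F] [Fintype F] (m : ℕ) (hm : 7 ≤ m) (hodd : Odd (Fintype.card F)) (D : Fin 2 → Submodule F (Fin m ⊕ Fin m → F)) (hD : Cfsg.Geo.IsMDecomposition m D) (hts : ∀ i, Cfsg.Geo.IsTotallySingularFor (Cfsg.sympForm m F) (D i)) : Cfsg.Geo.IsMaximalIn (Cfsg.spGL m F) (Cfsg.Geo.decompositionStabilizer D ⊓ Cfsg.spGL m F) := by
  set B := spB m F with hBdef
  have hB : B.IsAlt := spB_isAlt m F
  have hndV : ∀ v, (∀ w, B v w = 0) → v = 0 := spB_nondeg m F
  have hmem : ∀ g : GL (Fin m ⊕ Fin m) F, g ∈ spGL m F ↔ toEq _ F g ∈ isom B := fun g => mem_spGL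
  have h0 := hD.finrank_eq 0
  have h1 := hD.finrank_eq 1
  have hr : finrank F (D 0) = finrank F (D 1) := by rw [h0, h1]
  have h2F : (2 : F) ≠ 0 := by
    intro h2
    have h3 : ringChar F = 2 := by
      have h4 : ringChar F ∣ 2 := (ringChar.spec F 2).1 (by exact_mod_cast h2)
      rcases (Nat.dvd_prime Nat.prime_two).1 h4 with h5 | h5
      · exact absurd h5 (CharP.ringChar_ne_one)
      · exact h5
    rw [FiniteField.even_card_iff_char_two] at h3
    rw [Nat.odd_iff] at hodd
    omega
  have hP : Pair B (D 0) (D 1) := by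
    refine ⟨fun x hx y hy => ?_, fun x hx y hy => ?_, iSup_two D hD.iSup_eq_top⟩
    · rw [hBdef, spB_apply]; exact hts 0 x hx y hy
    · rw [hBdef, spB_apply]; exact hts 1 x hx y hy
  apply isMaximalIn_of
  · obtain ⟨g, hg, hgp⟩ := hP.exists_not hB (by omega) hndV
    refine ⟨(toEq _ F).symm g, ?_, ?_⟩
    · rw [hmem, MulEquiv.apply_symm_apply]; exact hg
    · rw [mem_decomp_two hr, MulEquiv.apply_symm_apply]
      exact hgp
  · intro M hHM hMK ⟨g, hg, hgS⟩
    refine le_of_map hmem (hP.overgroup hB h2F (by omega) (by omega) hndV ?_ ?_ ?_)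
    · rintro _ ⟨x, hx, rfl⟩
      exact (hmem x).1 (hMK hx)
    · intro x hx hσ
      rw [mem_map_toEq]
      refine hHM ⟨?_, ?_⟩
      · exact (mem_decomp_two hr).2 (by rw [MulEquiv.apply_symm_apply]; exact hσ)
      · exact (hmem _).2 (by rw [MulEquiv.apply_symm_apply]; exact hx)
    · exact ⟨toEq _ F g, ⟨g, hg, rfl⟩, fun hp => hgS ((mem_decomp_two hr).2 hp)⟩

end Cfsg.Agent.S5649
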