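import Cfsg.Statements.S5650
import Cfsg.Agent.Lib.H95.RatBridge
import Cfsg.Agent.Lib.H95.SpBasic

set_option autoImplicit false
open Cfsg

namespace Cfsg.Agent.S5650

open H95.Bridge H95.UBasic H95.Pol H95.RatGeo H95.RatMain H95.RatBridge Module
open scoped Matrix

/-- Differences of squares in a finite field. -/
lemma diff_sq {F : Type*} [Field F] [Finite F] (c : F) : ∃ a b : F, c = a * a - b * b := by
  by_cases h2 : (2 : F) = 0
  · have : CharP F 2 := CharTwo.of_one_ne_zero_of_two_eq_zero one_ne_zero h2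
    have hinj : Function.Injective (frobenius F 2) := frobenius_inj F 2
    obtain ⟨a, ha⟩ := Finite.surjective_of_injective hinj c
    rw [frobenius_def] at ha
    exact ⟨a, 0, by rw [← ha]; ring⟩
  · exact ⟨(c + 1) / 2, (c - 1) / 2, by field_simp; ring⟩

/-- For m ≥ 7, let F₀ be a subfield of the finite field F with |F| = |F₀| ^ r, r prime, ζ a non-zero element of F, and P an invertible matrix such that ζ times the standard alternating form takes values in F₀ on the F₀-span of the columns of P. Then the elements of Sp_2m(F) lying in the subfield group of P (the conjugate by P of the product of GL_2m(F₀) with the scalars) form a maximal subgroup of Sp_2m(F). -/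
theorem result {F : Type*} [Field F] [Fintype F] (m : ℕ) (hm : 7 ≤ m) (F₀ : Subfield F) (r : ℕ) (hr : r.Prime) (hcard : Fintype.card F = Nat.card F₀ ^ r) (P : Matrix.GeneralLinearGroup (Fin m ⊕ Fin m) F) (ζ : F) (hζ : ζ ≠ 0) (hP : Cfsg.Geo.IsFormRationalStructure (Cfsg.sympForm m F) F₀ ζ P) : Cfsg.Geo.IsMaximalIn (Cfsg.spGL m F) (Cfsg.Geo.subfieldSubgroup F₀ P ⊓ Cfsg.spGL m F) := by
  have hcard' : Nat.card F = Nat.card F₀ ^ r := by rw [Nat.card_eq_fintype_card]; exact hcard
  -- the scaled form
  let h : (Fin m ⊕ Fin m → F) →ₗ[F] (Fin m ⊕ Fin m → F) →ₛₗ[RingHom.id F] F := ζ • spB m F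
  have hh : ∀ x y, h x y = ζ * spB m F x y := fun x y => rfl
  have hmem : ∀ g : Matrix.GeneralLinearGroup (Fin m ⊕ Fin m) F, g ∈ spGL m F ↔ toEq _ F g ∈ isom h := by
    intro g
    rw [mem_spGL, mem_isom]
    simp only [hh]
    constructor
    · intro h1 x y; rw [h1]
    · intro h1 x y; exact mul_left_cancel₀ hζ (h1 x y)
  have H : IsPol h := by
    refine ⟨fun a => rfl, fun x y => ?_, fun v hv => ?_⟩
    · rw [hh, hh, RingHom.id_apply, ← LinearMap.BilinForm.IsAlt.neg_eq (spB_isAlt m F) y x]; ring
    · apply spB_nondeg m F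
      intro w
      have := hv w
      rw [hh] at this
      exact (mul_eq_zero.1 this).resolve_left hζ
  have halt : ∀ x, h x x = 0 := fun x => by rw [hh, spB_isAlt m F x, mul_zero]
  have hrat : ∀ u v, h (jmap F₀ P u) (jmap F₀ P v) ∈ F₀ := by
    intro u v
    rw [hh, spB_apply]
    exact hP _ _ (fun i => (u i).2) (fun i => (v i).2)
  have R := mkRat (σ₀ := RingHom.id F₀) (hσ := fun c => rfl) (hr := hrat) hr hcard' H
    (by rw [Fintype.card_sum, Fintype.card_fin]; omega)
    (fun _ l x => ⟨x, Subtype.ext (halt _), fun i => rfl⟩)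
    (fun c _ => diff_sq c)
  apply isMaximalIn_of
  · -- a coefficient outside F₀
    have hex : ∃ c : F, ∀ k : F₀, algebraMap F₀ F k ≠ c := by
      by_contra hcon
      push Not at hcon
      have hsurj : Function.Surjective (algebraMap F₀ F) := hcon
      have h1 : Nat.card F ≤ Nat.card F₀ := Nat.card_le_card_of_surjective _ hsurj
      have h2 : 1 < Nat.card F₀ := Finite.one_lt_card
      rw [hcard'] at h1
      have h3 : Nat.card F₀ ^ 1 < Nat.card F₀ ^ r := Nat.pow_lt_pow_right h2 hr.one_lt
      rw [pow_one] at h3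
      omega
    obtain ⟨c, hc⟩ := hex
    obtain ⟨u, hu, hu'⟩ := not_rat R (c := c) rfl hc
    refine ⟨(toEq _ F).symm (rf h u c), ?_, ?_⟩
    · rw [hmem, MulEquiv.apply_symm_apply]; exact tr_mem H hu rfl
    · rw [mem_subfield, MulEquiv.apply_symm_apply]; exact hu'
  · intro M hHM hMK ⟨g, hg, hgS⟩
    have hMi : M.map (toEq _ F).toMonoidHom ≤ isom h := by
      rintro _ ⟨x, hx, rfl⟩
      exact (hmem x).1 (hMK hx)
    have hE : HasE (form₀ F₀ P h (RingHom.id F₀) (fun c => rfl) hrat) h (jmap F₀ P)
        (M.map (toEq _ F).toMonoidHom) := by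
      intro u y c hv
      obtain ⟨v1, v2⟩ := Eg_rat R hv
      rw [mem_map_toEq]
      refine hHM (Subgroup.mem_inf.2 ⟨?_, ?_⟩)
      · rw [mem_subfield, MulEquiv.apply_symm_apply]
        exact ⟨1, one_ne_zero, fun x => ⟨_, by rw [one_smul]; exact v2 x⟩⟩
      · rw [hmem, MulEquiv.apply_symm_apply]; exact Eg_isom H v1
    rcases dichotomy R hE hMi with h1 | h1
    · refine le_of_map hmem ?_
      have hle := H95.SpBasic.isom_le_of_tr (spB m F) (spB_isAlt m F) (spB_nondeg m F)
        (M.map (toEq _ F).toMonoidHom) (fun v c => by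
          have h2 := h1 v (halt v) (ζ⁻¹ * c) rfl
          have h3 : rf h v (ζ⁻¹ * c) = H95.SpBasic.tr (spB m F) (spB_isAlt m F) v c := by
            apply LinearEquiv.ext
            intro x
            rw [tr_apply (halt v) rfl, H95.SpBasic.tr_apply, hh]
            congr 2
            field_simp
          rwa [h3] at h2)
      intro x hx
      apply hle
      rw [H95.SpBasic.mem_isom]
      intro a b
      have := hx a b
      rw [hh, hh] at this
      exact mul_left_cancel₀ hζ this
    · exfalso
      apply hgS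
      rw [mem_subfield]
      exact h1 _ ⟨g, hg, rfl⟩

end Cfsg.Agent.S5650
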