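import Cfsg.Statements.S5652
import Cfsg.Agent.Lib.H95.Bridge
import Cfsg.Agent.Lib.H95.SpOrthEven

set_option autoImplicit false
open Cfsg

namespace Cfsg.Agent.S5652

open H95.Bridge H95.SpBasic Module

/-- For a finite field F of characteristic two and m ≥ 7, let Q be a non-degenerate quadratic form on F^(2m) whose polar form is the standard alternating form. Then the elements of Sp_2m(F) that are similarities of Q (they are exactly the isometries of Q) form a maximal subgroup of Sp_2m(F). -/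
theorem result {F : Type*} [Field F] [Fintype F] (m : ℕ) (hm : 7 ≤ m) (heven : ¬ Odd (Fintype.card F)) (Q : (Fin m ⊕ Fin m → F) → F) (hQ : Cfsg.Geo.IsNondegenerateQuadraticForm Q) (hpol : ∀ u v, QuadraticMap.polar Q u v = Cfsg.sympForm m F u v) : Cfsg.Geo.IsMaximalIn (Cfsg.spGL m F) (Cfsg.Geo.quadSimilarityGroup Q ⊓ Cfsg.spGL m F) := by
  set B := spB m F with hBdef
  have hB : B.IsAlt := spB_isAlt m F
  have hndV : ∀ v, (∀ w, B v w = 0) → v = 0 := spB_nondeg m F
  have hV : finrank F (Fin m ⊕ Fin m → F) = 2 * m := by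
    rw [finrank_fintype_fun_eq_card]; simp; omega
  have hmem : ∀ g : GL (Fin m ⊕ Fin m) F, g ∈ spGL m F ↔ toEq _ F g ∈ isom B := fun g => mem_spGL
  have hring : ringChar F = 2 := by
    rw [FiniteField.even_card_iff_char_two]
    rw [Nat.not_odd_iff_even, Nat.even_iff] at heven
    exact heven
  have hchar : CharP F 2 := hring ▸ ringChar.charP F
  have hsq : ∀ a : F, IsSquare a := fun a => FiniteField.isSquare_of_char_two hring a
  have hIsQ : H95.SpOrthEven.IsQ B Q := by
    refine ⟨hQ.smul, fun x y => ?_⟩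
    rw [hBdef, spB_apply, ← hpol, QuadraticMap.polar]
    ring
  have hsim : ∀ g : GL (Fin m ⊕ Fin m) F, (∀ v, Q (toEq _ F g v) = Q v) →
      g ∈ Cfsg.Geo.quadSimilarityGroup Q := by
    intro g hg
    refine ⟨1, fun v => ?_⟩
    rw [← toEq_apply, hg, Units.val_one, one_mul]
  apply isMaximalIn_of
  · obtain ⟨g, hg, hgc⟩ := H95.SpOrthEven.exists_not hB hsq hndV hIsQ (by omega)
    refine ⟨(toEq _ F).symm g, ?_, ?_⟩
    · rw [hmem, MulEquiv.apply_symm_apply]; exact hg
    · rintro ⟨c, hc⟩
      apply hgc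
      refine ⟨c, fun v => ?_⟩
      rw [← hc v, toEq_symm_mulVec]
  · intro M hHM hMK ⟨g, hg, hgS⟩
    refine le_of_map hmem (H95.SpOrthEven.overgroup hB hsq hndV hIsQ (by omega) ?_ ?_ ?_)
    · rintro _ ⟨x, hx, rfl⟩
      exact (hmem x).1 (hMK hx)
    · intro x hx hσ
      rw [mem_map_toEq]
      refine hHM ⟨?_, ?_⟩
      · exact hsim _ (by rw [MulEquiv.apply_symm_apply]; exact hσ)
      · exact (hmem _).2 (by rw [MulEquiv.apply_symm_apply]; exact hx)
    · refine ⟨toEq _ F g, ⟨g, hg, rfl⟩, ?_⟩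
      by_contra hcon
      push Not at hcon
      exact hgS (hsim g hcon)

end Cfsg.Agent.S5652
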