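import Cfsg.Statements.S5653
import Cfsg.Agent.Lib.H95.UBridge
import Cfsg.Agent.Lib.H95.UPar

set_option autoImplicit false
open Cfsg

namespace Cfsg.Agent.S5653

open H95.Bridge H95.UBridge H95.UBasic H95.UPar Module

/-- Let F be the field with q² elements and n ≥ 13, and let SU_n(q) be the group of matrices of determinant one preserving the standard unitary form Σ u_i v_i^q on F^n (the intersection of the unitary group GU_n with the kernel of the determinant). The elements of SU_n(q) stabilising a non-zero subspace on which the form vanishes identically form a maximal subgroup of SU_n(q). -/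
theorem result {F : Type*} [Field F] [Fintype F] (n q : ℕ) (hF : Fintype.card F = q ^ 2) (hn : 13 ≤ n) (W : Submodule F (Fin n → F)) (hW0 : W ≠ ⊥) (hW : Cfsg.Geo.IsTotallySingularFor (Cfsg.hermForm n F q) W) : Cfsg.Geo.IsMaximalIn (Cfsg.GU n F q ⊓ Cfsg.Geo.specialLinear (Fin n) F) (Cfsg.Geo.subspaceStabilizer W ⊓ (Cfsg.GU n F q ⊓ Cfsg.Geo.specialLinear (Fin n) F)) := by
  obtain ⟨σ, h, ζ, H, hζ, hσ, hζσ, hh⟩ := exists_form n hF
  have hmem := mem_SUn hζ hh
  have hfr : finrank F (Fin n → F) = n := by rw [Module.finrank_fintype_fun_eq_card, Fintype.card_fin]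
  have hW' : ∀ x ∈ W, ∀ y ∈ W, h x y = 0 := fun x hx y hy => by
    rw [hh, hW x hx y hy, mul_zero]
  apply isMaximalIn_of
  · obtain ⟨g, hg, hgp⟩ := exists_not H hW0 hW'
    refine ⟨(toEq _ F).symm g, ?_, ?_⟩
    · rw [hmem, MulEquiv.apply_symm_apply]; exact hg
    · rw [mem_subspaceStabilizer, MulEquiv.apply_symm_apply]
      exact fun hcon => hgp fun x hx => (hcon x).1 hx
  · intro M hHM hMK ⟨g, hg, hgS⟩
    refine le_of_map hmem (overgroup H (by omega) hW' _ ?_ ?_ ?_)
    · rintro _ ⟨x, hx, rfl⟩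
      exact (hmem x).1 (hMK hx)
    · intro x hx hσ
      rw [mem_map_toEq]
      refine hHM ⟨?_, ?_⟩
      · exact mem_subspaceStabilizer_of (by rw [MulEquiv.apply_symm_apply]; exact hσ)
      · exact (hmem _).2 (by rw [MulEquiv.apply_symm_apply]; exact hx)
    · exact ⟨toEq _ F g, ⟨g, hg, rfl⟩, fun hp => hgS (mem_subspaceStabilizer_of hp)⟩

end Cfsg.Agent.S5653
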