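import Cfsg.Statements.S5654
import Cfsg.Agent.Lib.H95.UBridge
import Cfsg.Agent.Lib.H95.UPair

set_option autoImplicit false
open Cfsg

namespace Cfsg.Agent.S5654

open H95.Bridge H95.UBridge H95.UBasic H95.UPair Module

/-- Let F be the field with q² elements and n ≥ 13. In SU_n(q) (determinant-one isometries of the standard unitary form on F^n) the stabiliser of a non-zero subspace W on which the form is non-degenerate and with 2 dim W < n is a maximal subgroup. -/
theorem result {F : Type*} [Field F] [Fintype F] (n q : ℕ) (hF : Fintype.card F = q ^ 2) (hn : 13 ≤ n) (W : Submodule F (Fin n → F)) (hW0 : W ≠ ⊥) (hW : Cfsg.Geo.IsNondegenerateOn (Cfsg.hermForm n F q) W) (hdim : 2 * Module.finrank F W < n) : Cfsg.Geo.IsMaximalIn (Cfsg.GU n F q ⊓ Cfsg.Geo.specialLinear (Fin n) F) (Cfsg.Geo.subspaceStabilizer W ⊓ (Cfsg.GU n F q ⊓ Cfsg.Geo.specialLinear (Fin n) F)) := by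
  obtain ⟨σ, h, ζ, H, hζ, hσ, hζσ, hh⟩ := exists_form n hF
  have hmem := mem_SUn hζ hh
  have hfr : finrank F (Fin n → F) = n := by rw [Module.finrank_fintype_fun_eq_card, Fintype.card_fin]
  have hW' : ∀ v ∈ W, (∀ w ∈ W, h v w = 0) → v = 0 := by
    intro v hv h0
    by_contra hne
    obtain ⟨x, hx, hx'⟩ := (hW v hv hne).2
    have := h0 x hx
    rw [hh] at this
    exact hx' ((mul_eq_zero.1 this).resolve_left hζ)
  obtain ⟨W', P⟩ := exists_OPair H hW'
  have hd := P.finrank H
  apply isMaximalIn_of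
  · obtain ⟨g, hg, hgp⟩ := exists_not H P hW0 (by omega)
    refine ⟨(toEq _ F).symm g, ?_, ?_⟩
    · rw [hmem, MulEquiv.apply_symm_apply]; exact hg
    · rw [mem_subspaceStabilizer, MulEquiv.apply_symm_apply]
      exact fun hcon => hgp fun x hx => (hcon x).1 hx
  · intro M hHM hMK ⟨g, hg, hgS⟩
    refine le_of_map hmem (overgroup H P (by omega) (by omega) _ ?_ ?_ ?_)
    · rintro _ ⟨x, hx, rfl⟩
      exact (hmem x).1 (hMK hx)
    · intro x hx hσ
      rw [mem_map_toEq]
      refine hHM ⟨?_, ?_⟩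
      · exact mem_subspaceStabilizer_of (by rw [MulEquiv.apply_symm_apply]; exact hσ)
      · exact (hmem _).2 (by rw [MulEquiv.apply_symm_apply]; exact hx)
    · exact ⟨toEq _ F g, ⟨g, hg, rfl⟩, fun hp => hgS (mem_subspaceStabilizer_of hp)⟩

end Cfsg.Agent.S5654
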