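import Cfsg.Statements.S5656
import Cfsg.Agent.Lib.H95.NmU2
import Cfsg.Agent.Lib.H95.UBridge
import Cfsg.Agent.Lib.H95.OImpB

set_option autoImplicit false
open Cfsg

namespace Cfsg.Agent.S5656

open H95.Bridge H95.UBridge H95.UBasic Module

/-- Let F be the field with 4 elements (q = 2) and n ≥ 13. Let D be a decomposition of F^n into t pairwise orthogonal 2-dimensional subspaces, each non-degenerate for the standard unitary form Σ u_i v_i². Then the elements of SU_n(2) permuting the members of D form a subgroup that is not maximal: some subgroup lies strictly between it and SU_n(2). -/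
theorem result {F : Type*} [Field F] [Fintype F] (n : ℕ) (hF : Fintype.card F = 4) (hn : 13 ≤ n) {t : ℕ} (D : Fin t → Submodule F (Fin n → F)) (hD : Cfsg.Geo.IsNondegenerateMDecomposition (Cfsg.hermForm n F 2) 2 D) : ∃ K : Subgroup (Matrix.GeneralLinearGroup (Fin n) F), Cfsg.Geo.decompositionStabilizer D ⊓ (Cfsg.GU n F 2 ⊓ Cfsg.Geo.specialLinear (Fin n) F) < K ∧ K < (Cfsg.GU n F 2 ⊓ Cfsg.Geo.specialLinear (Fin n) F) := by
  classical
  have hF2 : Fintype.card F = 2 ^ 2 := by rw [hF]; norm_num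
  obtain ⟨σ, hσ⟩ := exists_sigma hF2
  have h2 : (2 : F) = 0 := by
    have h4 : ((4 : ℕ) : F) = 0 := by rw [← hF]; exact FiniteField.cast_card_eq_zero F
    have : (2 : F) * 2 = 0 := by
      have e : ((4 : ℕ) : F) = 2 * 2 := by norm_num
      rw [← e, h4]
    rcases mul_eq_zero.1 this with h | h <;> exact h
  have hH := uForm_isSkew n hF2 hσ (ζ := 1) one_ne_zero (by rw [map_one]; linear_combination h2)
  set h := uForm n σ (1 : F) with hdef
  have hh : ∀ u v, h u v = 1 * hermForm n F 2 u v := by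
    intro u v
    rw [hdef, uForm_apply, hermForm]
    simp only [hσ]
  have hmem := mem_SUn (one_ne_zero) hh
  have hN : ∀ a : F, a ≠ 0 → a * σ a = 1 := by
    intro a ha
    rw [hσ]
    have h1 := FiniteField.pow_card_sub_one_eq_one a ha
    rw [hF] at h1
    rw [← pow_succ']; exact h1
  have hfix : ∀ b : F, σ b = b → b = 0 ∨ b = 1 := by
    intro b hb
    rw [hσ] at hb
    have h3 : b * (b - 1) = 0 := by linear_combination hb
    rcases mul_eq_zero.1 h3 with h | h
    · exact Or.inl h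
    · exact Or.inr (sub_eq_zero.1 h)
  have hnd : ∀ i, ∀ v ∈ D i, (∀ w ∈ D i, h v w = 0) → v = 0 := by
    intro i v hv h0
    by_contra hne
    obtain ⟨x, hx, hxv⟩ := ((hD.nondegenerate i) v hv hne).2
    apply hxv
    have := h0 x hx
    rwa [hh, one_mul] at this
  have horth : ∀ i j, i ≠ j → ∀ u ∈ D i, ∀ v ∈ D j, h u v = 0 := by
    intro i j hij u hu v hv
    rw [hh, hD.orthogonal i j hij u hu v hv, mul_zero]
  have hk : ∀ i, finrank F (D i) = 2 := hD.decomp.finrank_eq
  have ht := hD.decomp.two_le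
  let i0 : Fin t := ⟨0, by omega⟩
  let i1 : Fin t := ⟨1, by omega⟩
  obtain ⟨⟨g, hg, hg1, hg2, hg3⟩, g', hg', v, hv, hv'⟩ := H95.NmU2.not_max hH hN hfix h2 hnd horth hk
    (i := i0) (j := i1) (by simp [i0, i1])
  let T : Subgroup (Matrix.GeneralLinearGroup (Fin n) F) :=
    { carrier := {g | ∀ v, (∃ l, v ∈ D l ∧ h v v ≠ 0) ↔
        ∃ l, toEq _ F g v ∈ D l ∧ h (toEq _ F g v) (toEq _ F g v) ≠ 0}
      mul_mem' := by
        intro a b ha hb v
        rw [map_mul, LinearEquiv.mul_apply, hb, ha]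
      one_mem' := by
        intro v
        rw [map_one]; rfl
      inv_mem' := by
        intro a ha v
        have := ha (toEq _ F a⁻¹ v)
        have e : toEq _ F a (toEq _ F a⁻¹ v) = v := by
          rw [map_inv]; exact (toEq _ F a).apply_symm_apply v
        rw [e] at this
        exact this.symm }
  have key : ∀ y : Matrix.GeneralLinearGroup (Fin n) F, y ∈ Cfsg.Geo.decompositionStabilizer D →
      toEq _ F y ∈ H95.UBasic.SU h → ∀ v, (∃ l, v ∈ D l ∧ h v v ≠ 0) →
        ∃ l, toEq _ F y v ∈ D l ∧ h (toEq _ F y v) (toEq _ F y v) ≠ 0 := by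
    rintro y hy hyS v ⟨l, hl, hlv⟩
    obtain ⟨τ, hτ⟩ := mem_decompositionStabilizer.1 hy
    refine ⟨τ l, by rw [← hτ l]; exact ⟨v, hl, rfl⟩, ?_⟩
    rw [(mem_SU.1 hyS).1]; exact hlv
  refine not_max_of (T := T) ?_ ⟨(toEq _ F).symm g, ⟨fun v => ?_, ?_⟩, ?_⟩
    ⟨(toEq _ F).symm g', ?_, fun hT => ?_⟩
  · rintro y ⟨hy, hy'⟩ v
    have hyS := (hmem y).1 hy'
    refine ⟨key y hy hyS v, fun hv => ?_⟩
    have h5 := key y⁻¹ (Subgroup.inv_mem _ hy) (by rw [map_inv]; exact Subgroup.inv_mem _ hyS) _ hv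
    have e : toEq _ F y⁻¹ (toEq _ F y v) = v := by
      rw [map_inv]; exact (toEq _ F y).symm_apply_apply v
    rwa [e] at h5
  · rw [MulEquiv.apply_symm_apply]
    exact ⟨hg1 v, hg2 v⟩
  · exact (hmem _).2 (by rw [MulEquiv.apply_symm_apply]; exact hg)
  · intro hS
    obtain ⟨τ, hτ⟩ := mem_decompositionStabilizer.1 hS
    rw [MulEquiv.apply_symm_apply] at hτ
    apply hg3 (τ i0)
    intro x hx
    rw [← hτ i0]
    exact ⟨x, hx, rfl⟩
  · exact (hmem _).2 (by rw [MulEquiv.apply_symm_apply]; exact hg')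
  · obtain ⟨l, hl, -⟩ := (hT v).1 hv
    rw [MulEquiv.apply_symm_apply] at hl
    exact hv' l hl


end Cfsg.Agent.S5656
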