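import Cfsg.Statements.S5657
import Cfsg.Agent.Lib.H95.Bridge2
import Cfsg.Agent.Lib.H95.UBridge
import Cfsg.Agent.Lib.H95.USing

set_option autoImplicit false
open Cfsg

namespace Cfsg.Agent.S5657

open H95.Bridge H95.Bridge2 H95.UBridge H95.UBasic H95.USing Module

/-- Let F be the field with q² elements and n = 2k ≥ 13. Let D be a decomposition of F^n into two complementary subspaces of dimension k on each of which the standard unitary form vanishes identically. Then the elements of SU_n(q) preserving or interchanging the two subspaces form a maximal subgroup of SU_n(q). -/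
theorem result {F : Type*} [Field F] [Fintype F] (n q : ℕ) (hF : Fintype.card F = q ^ 2) (hn : 13 ≤ n) (k : ℕ) (hk : 2 * k = n) (D : Fin 2 → Submodule F (Fin n → F)) (hD : Cfsg.Geo.IsMDecomposition k D) (hts : ∀ i, Cfsg.Geo.IsTotallySingularFor (Cfsg.hermForm n F q) (D i)) : Cfsg.Geo.IsMaximalIn (Cfsg.GU n F q ⊓ Cfsg.Geo.specialLinear (Fin n) F) (Cfsg.Geo.decompositionStabilizer D ⊓ (Cfsg.GU n F q ⊓ Cfsg.Geo.specialLinear (Fin n) F)) := by
  obtain ⟨σ, h, ζ, H, hζ, hσ, hζσ, hh⟩ := exists_form n hF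
  have hmem := mem_SUn hζ hh
  have hfr : finrank F (Fin n → F) = n := by rw [Module.finrank_fintype_fun_eq_card, Fintype.card_fin]
  have h0 := hD.finrank_eq 0
  have h1 := hD.finrank_eq 1
  have hr : finrank F (D 0) = finrank F (D 1) := by rw [h0, h1]
  have P : Pair h (D 0) (D 1) := by
    refine ⟨fun x hx y hy => ?_, fun x hx y hy => ?_, iSup_two D hD.iSup_eq_top⟩
    · rw [hh, hts 0 x hx y hy, mul_zero]
    · rw [hh, hts 1 x hx y hy, mul_zero]
  apply isMaximalIn_of
  · obtain ⟨g, hg, hgp⟩ := P.exists_not H (by omega)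
    refine ⟨(toEq _ F).symm g, ?_, ?_⟩
    · rw [hmem, MulEquiv.apply_symm_apply]; exact hg
    · rw [mem_decomp_two hr, MulEquiv.apply_symm_apply]
      exact hgp
  · intro M hHM hMK ⟨g, hg, hgS⟩
    refine le_of_map hmem (P.overgroup H (by omega) (by omega) (by omega) ?_ ?_ ?_)
    · rintro _ ⟨x, hx, rfl⟩
      exact (hmem x).1 (hMK hx)
    · intro x hx hσ
      rw [mem_map_toEq]
      refine hHM ⟨?_, ?_⟩
      · exact (mem_decomp_two hr).2 (by rw [MulEquiv.apply_symm_apply]; exact hσ)
      · exact (hmem _).2 (by rw [MulEquiv.apply_symm_apply]; exact hx)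
    · exact ⟨toEq _ F g, ⟨g, hg, rfl⟩, fun hp => hgS ((mem_decomp_two hr).2 hp)⟩

end Cfsg.Agent.S5657
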