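import Cfsg.Statements.S5658
import Cfsg.Agent.Lib.H95.RatBridge
import Cfsg.Agent.Lib.H95.UBridge

set_option autoImplicit false
open Cfsg

namespace Cfsg.Agent.S5658

open H95.Bridge H95.UBridge H95.UBasic H95.Pol H95.RatGeo H95.RatMain H95.RatBridge Module
open scoped Matrix

/-- Let F be the field with q² elements, n ≥ 13, and F₀ a subfield with |F| = |F₀| ^ r for an odd prime r. Let P be an invertible matrix such that the standard unitary form takes values in F₀ on the F₀-span of the columns of P. Then the elements of SU_n(q) lying in the subfield group of P (the conjugate by P of the product of GL_n(F₀) with the scalars) form a maximal subgroup of SU_n(q). -/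
theorem result {F : Type*} [Field F] [Fintype F] (n q : ℕ) (hF : Fintype.card F = q ^ 2) (hn : 13 ≤ n) (F₀ : Subfield F) (r : ℕ) (hr : r.Prime) (hro : Odd r) (hcard : Fintype.card F = Nat.card F₀ ^ r) (P : Matrix.GeneralLinearGroup (Fin n) F) (hP : Cfsg.Geo.IsFormRationalStructure (Cfsg.hermForm n F q) F₀ 1 P) : Cfsg.Geo.IsMaximalIn (Cfsg.GU n F q ⊓ Cfsg.Geo.specialLinear (Fin n) F) (Cfsg.Geo.subfieldSubgroup F₀ P ⊓ (Cfsg.GU n F q ⊓ Cfsg.Geo.specialLinear (Fin n) F)) := by
  classical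
  have : Fintype F₀ := Fintype.ofFinite F₀
  have hcard' : Nat.card F = Nat.card F₀ ^ r := by rw [Nat.card_eq_fintype_card]; exact hcard
  obtain ⟨k, hk⟩ := hro
  -- q₀
  obtain ⟨t, ht1, ht2⟩ : ∃ t, Fintype.card F₀ = t ^ 2 ∧ q = t ^ r := by
    have hs : 0 < Nat.card F₀ := Nat.card_pos
    have h1 : q ^ 2 = Nat.card F₀ ^ r := by rw [← hF, hcard]
    have h1' : q ^ 2 = (Nat.card F₀ ^ k) ^ 2 * Nat.card F₀ := by rw [h1, hk]; ring
    replace h1 := h1'
    have h2 : (Nat.card F₀ ^ k) ^ 2 ∣ q ^ 2 := ⟨_, h1⟩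
    obtain ⟨t, ht⟩ := (Nat.pow_dvd_pow_iff two_ne_zero).1 h2
    rw [ht, mul_pow] at h1
    have h3 : t ^ 2 = Nat.card F₀ := Nat.eq_of_mul_eq_mul_left (by positivity) h1
    refine ⟨t, by rw [← Nat.card_eq_fintype_card, h3], ?_⟩
    rw [ht, ← h3, hk]; ring
  obtain ⟨σ, hσ⟩ := exists_sigma hF
  obtain ⟨σ₀, hσ₀⟩ := exists_sigma (F := F₀) ht1
  have hσσ : ∀ c : F₀, σ c = σ₀ c := by
    intro c
    rw [hσ, hσ₀, ht2]
    have h1 : ∀ i : ℕ, (c : F) ^ (t ^ (2 * i + 1)) = (c : F) ^ t := by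
      intro i
      induction i with
      | zero => simp
      | succ i ih =>
        have e : t ^ (2 * (i + 1) + 1) = t ^ 2 * t ^ (2 * i + 1) := by ring
        have h2 : (c : F) ^ (t ^ 2) = c := by
          rw [← ht1]
          have := FiniteField.pow_card c
          exact_mod_cast congrArg (fun x : F₀ => (x : F)) this
        rw [e, pow_mul, h2, ih]
    rw [hk, h1]
    simp
  obtain ⟨l, hl⟩ := sigma_ne ht1 hσ₀
  set ζ : F := (l : F) - σ l with hζd
  have hζm : ζ ∈ F₀ := by
    rw [hζd, hσσ]; exact F₀.sub_mem l.2 (σ₀ l).2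
  have hζ : ζ ≠ 0 := by
    intro h0
    rw [hζd, hσσ, sub_eq_zero] at h0
    exact hl (Subtype.ext h0.symm)
  have hζσ : σ ζ = -ζ := by rw [hζd, map_sub, sigma_inv hF hσ, neg_sub]
  set h := uForm n σ ζ with hhd
  have H : IsSkew h := uForm_isSkew n hF hσ hζ hζσ
  have hh : ∀ u v, h u v = ζ * hermForm n F q u v := by
    intro u v
    rw [hhd, uForm_apply, hermForm]
    simp only [hσ]
  have hmem := mem_SUn hζ hh
  have hfr : finrank F (Fin n → F) = n := by rw [Module.finrank_fintype_fun_eq_card, Fintype.card_fin]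
  have hrat : ∀ u v, h (jmap F₀ P u) (jmap F₀ P v) ∈ F₀ := by
    intro u v
    rw [hh]
    have := hP _ _ (fun i => (u i).2) (fun i => (v i).2)
    rw [one_mul] at this
    exact F₀.mul_mem hζm this
  have R := mkRat (σ₀ := σ₀) (hσ := hσσ) (hr := hrat) hr hcard' H.isPol
    (by rw [Fintype.card_fin]; omega)
    (fun H₀ l x => by
      have HS : IsSkew (form₀ F₀ P h σ₀ hσσ hrat) :=
        ⟨H₀.inv, sigma_ne ht1 hσ₀, sigma_norm ht1 hσ₀, H₀.skew, H₀.nd⟩
      have hge := finrank_perpF_ge (form₀ F₀ P h σ₀ hσσ hrat) ⊤ (Fin.cons x l : Fin 6 → (Fin n → F₀))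
      rw [Fintype.card_fin, finrank_top, Module.finrank_fintype_fun_eq_card, Fintype.card_fin] at hge
      obtain ⟨y, hy, hy2⟩ := exists_value HS (U := ⊤) (fun v _ hv => HS.nd v fun w => hv w trivial)
        (X := perpF (form₀ F₀ P h σ₀ hσσ hrat) ⊤ (Fin.cons x l : Fin 6 → (Fin n → F₀))) le_top (by
          rw [finrank_top, Module.finrank_fintype_fun_eq_card, Fintype.card_fin]; omega)
        (s := - form₀ F₀ P h σ₀ hσσ hrat x x) (by rw [map_neg, HS.self])
      have e0 : form₀ F₀ P h σ₀ hσσ hrat y x = 0 := by simpa using hy.2 0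
      have e1 : ∀ i, form₀ F₀ P h σ₀ hσσ hrat y (l i) = 0 := fun i => by simpa using hy.2 i.succ
      refine ⟨x + y, ?_, fun i => ?_⟩
      · simp only [map_add, LinearMap.add_apply, e0, HS.symm_zero e0, hy2]; ring
      · rw [map_add, LinearMap.add_apply, e1, add_zero])
    (fun c hc => by
      obtain ⟨a, ha⟩ := H.norm c hc
      exact ⟨a, 0, by rw [ha]; simp⟩)
  apply isMaximalIn_of
  · -- a coefficient outside F₀
    have hex : ∃ c : F, σ c = c ∧ ∀ k : F₀, algebraMap F₀ F k ≠ c := by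
      by_contra hcon
      push Not at hcon
      have hfix : ∀ c, σ c = c → c ∈ F₀ := by
        intro c hc
        obtain ⟨k, hk⟩ := hcon c hc
        rw [← hk]; exact k.2
      have hall : ∀ x : F, x ∈ F₀ := by
        intro x
        have hb : σ ((x - σ x) / ζ) = (x - σ x) / ζ := by
          rw [map_div₀, map_sub, H.inv, hζσ]; field_simp; ring
        have ha : σ (x - (x - σ x) / ζ * l) = x - (x - σ x) / ζ * l := by
          rw [map_sub, map_mul, hb]
          have e : (x - σ x) / ζ * ζ = x - σ x := div_mul_cancel₀ _ hζ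
          rw [hζd] at e ⊢
          linear_combination e
        have e : x = (x - (x - σ x) / ζ * l) + (x - σ x) / ζ * l := by ring
        rw [e]
        exact F₀.add_mem (hfix _ ha) (F₀.mul_mem (hfix _ hb) l.2)
      have hsurj : Function.Surjective (algebraMap F₀ F) := fun x => ⟨⟨x, hall x⟩, rfl⟩
      have h1 : Nat.card F ≤ Nat.card F₀ := Nat.card_le_card_of_surjective _ hsurj
      have h2 : 1 < Nat.card F₀ := Finite.one_lt_card
      rw [hcard'] at h1
      have h3 : Nat.card F₀ ^ 1 < Nat.card F₀ ^ r := Nat.pow_lt_pow_right h2 hr.one_lt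
      rw [pow_one] at h3
      omega
    obtain ⟨c, hcσ, hc⟩ := hex
    obtain ⟨u, hu, hu'⟩ := not_rat R (c := c) hcσ hc
    refine ⟨(toEq _ F).symm (rf h u c), ?_, ?_⟩
    · rw [hmem, MulEquiv.apply_symm_apply]; exact tr_mem_SU H hu hcσ
    · rw [mem_subfield, MulEquiv.apply_symm_apply]; exact hu'
  · intro M hHM hMK ⟨g, hg, hgS⟩
    have hMi : M.map (toEq _ F).toMonoidHom ≤ isom h := by
      rintro _ ⟨x, hx, rfl⟩
      exact SU_le h ((hmem x).1 (hMK hx))
    have hE : HasE (form₀ F₀ P h σ₀ hσσ hrat) h (jmap F₀ P)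
        (M.map (toEq _ F).toMonoidHom) := by
      intro u y c hv
      obtain ⟨v1, v2⟩ := Eg_rat R hv
      rw [mem_map_toEq]
      refine hHM (Subgroup.mem_inf.2 ⟨?_, ?_⟩)
      · rw [mem_subfield, MulEquiv.apply_symm_apply]
        exact ⟨1, one_ne_zero, fun x => ⟨_, by rw [one_smul]; exact v2 x⟩⟩
      · rw [hmem, MulEquiv.apply_symm_apply]; exact Eg_mem H _ _ _
    rcases dichotomy R hE hMi with h1 | h1
    · exact le_of_map hmem (SU_le_of_tr H (by omega) _ h1)
    · exfalso
      apply hgS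
      rw [mem_subfield]
      exact h1 _ ⟨g, hg, rfl⟩

end Cfsg.Agent.S5658
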