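import Cfsg.Statements.S5660
import Cfsg.Agent.Lib.H95.RatBridge
import Cfsg.Agent.Lib.H95.UBridge

set_option autoImplicit false
open Cfsg

namespace Cfsg.Agent.S5660

open H95.Bridge H95.UBridge H95.UBasic H95.Pol H95.RatGeo H95.RatMain H95.RatBridge Module
open scoped Matrix

/-- A short root element with non-rational coefficient is not rational. -/
lemma not_rat2 {K F W V : Type*} [Field K] [Field F] [Algebra K F] [AddCommGroup W] [Module K W]
    [AddCommGroup V] [Module F V] {σ₀ : K →+* K} {σ : F →+* F}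
    {h₀ : W →ₗ[K] W →ₛₗ[σ₀] K} {h : V →ₗ[F] V →ₛₗ[σ] F} {j : W →+ V} [FiniteDimensional K W]
    (R : Rat h₀ h j) {c : F} (hcK : ∀ k : K, algebraMap K F k ≠ c) :
    ∃ u z, IP h₀ u z ∧ ¬ ∃ l : F, l ≠ 0 ∧ ∀ x : W, ∃ y : W, Eg h (j u) (c • j z) 0 (j x) = l • j y := by
  obtain ⟨u, hu, -, hu'⟩ := R.perp_iso (k := 0) (by omega) ![]
  have hu0 : u ≠ 0 := by
    rintro rfl; exact hu' (Submodule.zero_mem _)
  obtain ⟨z, hz, hz', hli⟩ := R.perp_iso (k := 1) (by omega) ![u]
  have e1 : h₀ z u = 0 := hz' 0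
  have l1 : LinearIndependent K ![z, u] := li_cons2 hu0 hli
  have P : IP h₀ u z := ⟨hu, hz, R.pol₀.symm_zero e1, li_swap l1⟩
  obtain ⟨x, hx, hx'⟩ := R.dual_iso (k := 2) (by omega) l1 ![0, 1]
  have e3 : h₀ x z = 0 := hx' 0
  have e4 : h₀ x u = 1 := hx' 1
  refine ⟨u, z, P, ?_⟩
  rintro ⟨l, hl, h1⟩
  obtain ⟨y, hy⟩ := h1 x
  rw [Eg_apply R.pol (P.val R c), map_smulₛₗ, R.form_zero.2 e3, R.form, e4, map_one] at hy
  have hy' : j x + c • j z = l • j y := by rw [← hy]; simp
  have hli : LinearIndependent K ![z, x] := by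
    apply pair_indep (li_ne0 l1)
    intro a ha
    rw [ha, map_smul, LinearMap.smul_apply, e1, smul_zero] at e4
    exact zero_ne_one e4
  have hsum : ∑ i, ![c / l, 1 / l] i • j (![z, x] i) = j y := by
    rw [Fin.sum_univ_two]
    show (c / l) • j z + (1 / l) • j x = j y
    have : (c / l) • j z + (1 / l) • j x = l⁻¹ • (j x + c • j z) := by
      rw [smul_add, smul_smul, div_eq_inv_mul, one_div]; abel
    rw [this, hy', smul_smul, inv_mul_cancel₀ hl, one_smul]
  obtain ⟨a, ha⟩ := R.coeff hli hsum 0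
  obtain ⟨b, hb⟩ := R.coeff hli hsum 1
  have ha' : algebraMap K F a = c / l := ha
  have hb' : algebraMap K F b = 1 / l := hb
  apply hcK (a / b)
  rw [map_div₀, ha', hb']
  field_simp

/-- Let F be the field with q² elements, n ≥ 13 even, and F₀ the subfield with q elements. Let ζ be a non-zero element with ζ + ζ^q = 0 and P an invertible matrix such that ζ times the standard unitary form takes values in F₀ on the F₀-span of the columns of P and the form vanishes on every pair (u, u) of that span (so ζ times the form restricts to a non-degenerate alternating form there). Then the elements of SU_n(q) lying in the subfield group of P form a maximal subgroup of SU_n(q). -/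
theorem result {F : Type*} [Field F] [Fintype F] (n q : ℕ) (hF : Fintype.card F = q ^ 2) (hn : 13 ≤ n) (heven : Even n) (F₀ : Subfield F) (hcard : Fintype.card F = Nat.card F₀ ^ 2) (ζ : F) (hζ0 : ζ ≠ 0) (hζ : ζ + ζ ^ q = 0) (P : Matrix.GeneralLinearGroup (Fin n) F) (hP : Cfsg.Geo.IsFormRationalStructure (Cfsg.hermForm n F q) F₀ ζ P) (halt : ∀ u : Fin n → F, (∀ i, u i ∈ F₀) → Cfsg.hermForm n F q (Matrix.mulVec (P : Matrix (Fin n) (Fin n) F) u) (Matrix.mulVec (P : Matrix (Fin n) (Fin n) F) u) = 0) : Cfsg.Geo.IsMaximalIn (Cfsg.GU n F q ⊓ Cfsg.Geo.specialLinear (Fin n) F) (Cfsg.Geo.subfieldSubgroup F₀ P ⊓ (Cfsg.GU n F q ⊓ Cfsg.Geo.specialLinear (Fin n) F)) := by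
  classical
  have : Fintype F₀ := Fintype.ofFinite F₀
  have hcard' : Nat.card F = Nat.card F₀ ^ 2 := by rw [Nat.card_eq_fintype_card]; exact hcard
  have hq : Fintype.card F₀ = q := by
    rw [← Nat.card_eq_fintype_card]
    rw [hF] at hcard
    exact (Nat.pow_left_injective (n := 2) (by norm_num) hcard).symm
  obtain ⟨σ, hσ⟩ := exists_sigma hF
  have hσσ : ∀ c : F₀, σ c = (RingHom.id F₀ c : F₀) := by
    intro c
    rw [hσ, ← hq]
    have := FiniteField.pow_card c
    exact_mod_cast congrArg (fun x : F₀ => (x : F)) this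
  have hζσ : σ ζ = -ζ := by rw [hσ]; exact (neg_eq_of_add_eq_zero_right hζ).symm
  set h := uForm n σ ζ with hhd
  have H : IsSkew h := uForm_isSkew n hF hσ hζ0 hζσ
  have hh : ∀ u v, h u v = ζ * hermForm n F q u v := by
    intro u v
    rw [hhd, uForm_apply, hermForm]
    simp only [hσ]
  have hmem := mem_SUn hζ0 hh
  have hfr : finrank F (Fin n → F) = n := by rw [Module.finrank_fintype_fun_eq_card, Fintype.card_fin]
  have hrat : ∀ u v, h (jmap F₀ P u) (jmap F₀ P v) ∈ F₀ := by
    intro u v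
    rw [hh]
    exact hP _ _ (fun i => (u i).2) (fun i => (v i).2)
  have halt' : ∀ x, h (jmap F₀ P x) (jmap F₀ P x) = 0 := by
    intro x
    rw [hh, jmap_apply, halt _ (fun i => (x i).2), mul_zero]
  have R := mkRat (σ₀ := RingHom.id F₀) (hσ := hσσ) (hr := hrat) Nat.prime_two hcard' H.isPol
    (by rw [Fintype.card_fin]; omega)
    (fun _ l x => ⟨x, Subtype.ext (halt' _), fun i => rfl⟩)
    (fun c hc => by
      obtain ⟨a, ha⟩ := H.norm c hc
      exact ⟨a, 0, by rw [ha]; simp⟩)
  apply isMaximalIn_of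
  · -- a coefficient outside F₀
    have hex : ∃ c : F, ∀ k : F₀, algebraMap F₀ F k ≠ c := by
      by_contra hcon
      push Not at hcon
      have hsurj : Function.Surjective (algebraMap F₀ F) := hcon
      have h1 : Nat.card F ≤ Nat.card F₀ := Nat.card_le_card_of_surjective _ hsurj
      have h2 : 1 < Nat.card F₀ := Finite.one_lt_card
      rw [hcard'] at h1
      nlinarith
    obtain ⟨c, hc⟩ := hex
    obtain ⟨u, z, -, hu'⟩ := not_rat2 R (c := c) hc
    refine ⟨(toEq _ F).symm (Eg h (jmap F₀ P u) (c • jmap F₀ P z) 0), ?_, ?_⟩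
    · rw [hmem, MulEquiv.apply_symm_apply]; exact Eg_mem H _ _ _
    · rw [mem_subfield, MulEquiv.apply_symm_apply]; exact hu'
  · intro M hHM hMK ⟨g, hg, hgS⟩
    have hMi : M.map (toEq _ F).toMonoidHom ≤ isom h := by
      rintro _ ⟨x, hx, rfl⟩
      exact SU_le h ((hmem x).1 (hMK hx))
    have hE : HasE (form₀ F₀ P h (RingHom.id F₀) hσσ hrat) h (jmap F₀ P)
        (M.map (toEq _ F).toMonoidHom) := by
      intro u y c hv
      obtain ⟨v1, v2⟩ := Eg_rat R hv
      rw [mem_map_toEq]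
      refine hHM (Subgroup.mem_inf.2 ⟨?_, ?_⟩)
      · rw [mem_subfield, MulEquiv.apply_symm_apply]
        exact ⟨1, one_ne_zero, fun x => ⟨_, by rw [one_smul]; exact v2 x⟩⟩
      · rw [hmem, MulEquiv.apply_symm_apply]; exact Eg_mem H _ _ _
    rcases dichotomy R hE hMi with h1 | h1
    · exact le_of_map hmem (SU_le_of_tr H (by omega) _ h1)
    · exfalso
      apply hgS
      rw [mem_subfield]
      exact h1 _ ⟨g, hg, rfl⟩

end Cfsg.Agent.S5660
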