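import Cfsg.Statements.S5664
import Cfsg.Agent.Lib.H7.ExtSp3
import Cfsg.Agent.Lib.H7.ExtBr

set_option autoImplicit false
open Cfsg

namespace Cfsg.Agent.S5664


open H95.Bridge H95.SpBasic Module H7.ExtF H7.ExtSp H7.ExtBr
open scoped Matrix MatrixGroups

/-- For a finite field F and m ≥ 7, let K be a subfield of the algebra of 2m × 2m matrices over F containing the scalars, of prime degree r over F, whose elements k are self-adjoint for the standard alternating form f on F^(2m) (f(k u, v) = f(u, k v)) and satisfy f(k v, v) = 0 for all v. Then the elements of Sp_2m(F) normalising K form a maximal subgroup of Sp_2m(F). -/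
theorem result {F : Type*} [Field F] [Fintype F] (m : ℕ) (hm : 7 ≤ m) (r : ℕ) (hr : r.Prime) (K : Subalgebra F (Matrix (Fin m ⊕ Fin m) (Fin m ⊕ Fin m) F)) (hK : Cfsg.Geo.IsFieldSubalgebra r K) (hsa : Cfsg.Geo.IsSelfAdjointFor (Cfsg.sympForm m F) K) (halt : ∀ k ∈ K, ∀ v : (Fin m ⊕ Fin m → F), Cfsg.sympForm m F (Matrix.mulVec k v) v = 0) : Cfsg.Geo.IsMaximalIn (Cfsg.spGL m F) (Cfsg.Geo.subalgebraNormalizer K ⊓ Cfsg.spGL m F) := by
  obtain ⟨B, hBdef⟩ : ∃ B, B = spB m F := ⟨_, rfl⟩
  have hB : B.IsAlt := by rw [hBdef]; exact spB_isAlt m F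
  have hndV : ∀ v, (∀ w, B v w = 0) → v = 0 := by rw [hBdef]; exact spB_nondeg m F
  have hV : finrank F (Fin m ⊕ Fin m → F) = 2 * m := by
    rw [finrank_fintype_fun_eq_card]; simp; omega
  have hmem : ∀ g : GL (Fin m ⊕ Fin m) F, g ∈ spGL m F ↔ toEq _ F g ∈ isom B := fun g => by
    rw [hBdef]; exact mem_spGL
  have hform : sympForm m F = fun u v => B u v := by
    funext u v
    rw [hBdef, spB_apply]
  rw [hform] at hsa halt
  obtain ⟨E, i1, i2, i3, i4, φ, h1, h2, h3, hEr⟩ := exists_model hK hr.pos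
  have : FiniteDimensional F E := Module.finite_of_finrank_pos (by rw [hEr]; exact hr.pos)
  have : FiniteDimensional E (Fin m ⊕ Fin m → F) := FiniteDimensional.right F E _
  have hfr := Module.finrank_mul_finrank F E (Fin m ⊕ Fin m → F)
  rw [hEr, hV] at hfr
  obtain ⟨κ, l0, h⟩ := exists_SE (F := F) (K := E) (V := Fin m ⊕ Fin m → F) (B := B) hndV
    (fun k x y => by rw [h1, h1]; exact hsa _ (h2 k) x y) (fun k x => by rw [h1]; exact halt _ (h2 k) x)
  -- the dimension over the extension is at least two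
  have hev : 2 ≤ finrank E (Fin m ⊕ Fin m → F) := by
    obtain ⟨x, hx⟩ : ∃ x : Fin m ⊕ Fin m → F, x ≠ 0 := ⟨fun _ => 1, fun h0 =>
      one_ne_zero (congrFun h0 (Sum.inl ⟨0, by omega⟩))⟩
    obtain ⟨y, hy⟩ : ∃ y, κ x y ≠ 0 := by
      by_contra hcon
      push Not at hcon
      exact hx (h.nd x hcon)
    have hli : LinearIndependent E ![x, y] := by
      rw [LinearIndependent.pair_iff]
      intro s t hst
      have e1 := congrArg (fun z => κ z y) hst
      simp only [map_add, map_smul, LinearMap.add_apply, LinearMap.smul_apply, h.alt y, smul_zero, add_zero, map_zero,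
        LinearMap.zero_apply, smul_eq_mul, mul_zero] at e1
      have hs : s = 0 := (mul_eq_zero.1 e1).resolve_right hy
      rw [hs, zero_smul, zero_add] at hst
      have hy0 : y ≠ 0 := by rintro rfl; rw [map_zero] at hy; exact hy rfl
      exact ⟨hs, (smul_eq_zero.1 hst).resolve_right hy0⟩
    have := hli.fintype_card_le_finrank
    simpa using this
  have hcase : (2 : F) ≠ 0 ∨ 3 ≤ finrank F E ∨ 3 ≤ finrank E (Fin m ⊕ Fin m → F) := by
    right
    rw [hEr]
    by_contra hcon
    push Not at hcon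
    obtain ⟨c1, c2⟩ := hcon
    have : r * finrank E (Fin m ⊕ Fin m → F) ≤ 2 * 2 := Nat.mul_le_mul (by omega) (by omega)
    omega
  have hsymm : ∀ x : (Fin m ⊕ Fin m → F) ≃ₗ[F] (Fin m ⊕ Fin m → F), toEq (Fin m ⊕ Fin m) F ((toEq _ F).symm x) = x :=
    fun x => by rw [MulEquiv.apply_symm_apply]
  apply isMaximalIn_of
  · obtain ⟨z, hz⟩ : ∃ z : Fin m ⊕ Fin m → F, z ≠ 0 := ⟨fun _ => 1, fun h0 =>
      one_ne_zero (congrFun h0 (Sum.inl ⟨0, by omega⟩))⟩
    refine ⟨(toEq _ F).symm (tr B hB z 1), ?_, ?_⟩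
    · rw [hmem, hsymm]; exact tr_mem_isom _ _ _ _
    · apply tr_not_mem (F := F) h1 h2 h3 (by rw [hEr]; exact hr.two_le) (by simp; omega) hz (f := B.flip z)
      · intro h0
        apply hz
        apply hndV
        intro w
        have := congrArg (fun t => t w) h0
        have h5 : B w z = 0 := this
        rw [← LinearMap.BilinForm.IsAlt.neg_eq hB w z, h5, neg_zero]
      · intro v
        rw [hsymm, tr_apply, one_mul]
        rfl
  · intro M hHM hMK ⟨g, hg, hgS⟩
    have hMB : M.map (toEq (Fin m ⊕ Fin m) F).toMonoidHom ≤ isom B := by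
      rintro _ ⟨x, hx, rfl⟩
      exact (hmem x).1 (hMK hx)
    refine le_of_map hmem (overgroup h (by rw [hEr]; exact hr) ?_ hMB ?_ hcase)
    · intro x hx
      rw [mem_map_toEq]
      refine hHM ⟨?_, ?_⟩
      · exact comm_mem_normalizer h1 h2 h3 (fun v e => by rw [hsymm]; exact hx.1 e v)
      · exact (hmem _).2 (by rw [hsymm]; exact h.HK_isom hx)
    · refine ⟨toEq _ F g, ⟨g, hg, rfl⟩, ?_⟩
      by_contra hcon
      push Not at hcon
      exact hgS (mem_normalizer h1 h2 h3 hev hcon)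

end Cfsg.Agent.S5664
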