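import Cfsg.Statements.S5665
import Cfsg.Agent.Lib.H7.SpUniB

set_option autoImplicit false
open Cfsg

namespace Cfsg.Agent.S5665


open H95.Bridge H95.SpBasic Module QuadraticMap H48.QuadSplit H48.QuadWitt H95.OGeo H7.OAUni H7.SpUni
open scoped Matrix MatrixGroups

/-- For a finite field F of odd order and m ≥ 7, let K be a subfield of the algebra of 2m × 2m matrices over F containing the scalars, of degree 2 over F, that is closed under adjoints for the standard alternating form on F^(2m) but whose elements are not all self-adjoint (so the adjoint map induces the automorphism of order two of K). Then the elements of Sp_2m(F) normalising K form a maximal subgroup of Sp_2m(F). -/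
theorem result {F : Type*} [Field F] [Fintype F] (m : ℕ) (hm : 7 ≤ m) (hodd : Odd (Fintype.card F)) (K : Subalgebra F (Matrix (Fin m ⊕ Fin m) (Fin m ⊕ Fin m) F)) (hK : Cfsg.Geo.IsFieldSubalgebra 2 K) (hac : Cfsg.Geo.IsAdjointClosedFor (Cfsg.sympForm m F) K) (hnsa : ¬ Cfsg.Geo.IsSelfAdjointFor (Cfsg.sympForm m F) K) : Cfsg.Geo.IsMaximalIn (Cfsg.spGL m F) (Cfsg.Geo.subalgebraNormalizer K ⊓ Cfsg.spGL m F) := by
  obtain ⟨B, hBdef⟩ : ∃ B, B = spB m F := ⟨_, rfl⟩
  have hB : B.IsAlt := by rw [hBdef]; exact spB_isAlt m F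
  have hndV : ∀ v, (∀ w, B v w = 0) → v = 0 := by rw [hBdef]; exact spB_nondeg m F
  have hV : finrank F (Fin m ⊕ Fin m → F) = 2 * m := by
    rw [finrank_fintype_fun_eq_card]; simp; omega
  have hmem : ∀ g : GL (Fin m ⊕ Fin m) F, g ∈ spGL m F ↔ toEq _ F g ∈ isom B := fun g => by
    rw [hBdef]; exact mem_spGL
  have hform : sympForm m F = fun u v => B u v := by
    funext u v
    rw [hBdef, spB_apply]
  have h2 : (2 : F) ≠ 0 := by
    intro h0
    have h1 : ringChar F = 2 := by
      apply CharP.ringChar_of_prime_eq_zero Nat.prime_two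
      exact_mod_cast h0
    have h3 := FiniteField.even_card_iff_char_two.1 h1
    rw [Nat.odd_iff] at hodd
    omega
  rw [hform] at hac hnsa
  have : Nonempty (Fin m ⊕ Fin m) := ⟨Sum.inl ⟨0, by omega⟩⟩
  obtain ⟨W, hW, a, ε, hgen, hli, hind, h⟩ := data_of hB hndV h2 hK hac hnsa
  obtain ⟨J, hJd⟩ : ∃ J : (Fin m ⊕ Fin m → F) →ₗ[F] (Fin m ⊕ Fin m → F),
    J = (2 : F) • Matrix.toLin' W - a • LinearMap.id := ⟨_, rfl⟩
  rw [← hJd] at h
  have hJ : ∀ v, J v = (2 : F) • (Matrix.toLin' W v) - a • v := fun v => by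
    rw [hJd, LinearMap.sub_apply, LinearMap.smul_apply, LinearMap.smul_apply, LinearMap.id_apply]
  have hW' : ∀ v, Matrix.toLin' W v = (2 : F)⁻¹ • J v + ((2 : F)⁻¹ * a) • v := by
    intro v
    rw [hJ]
    match_scalars <;> field_simp
    ring
  have hfin : Finite F := inferInstance
  have hcomm : ∀ g : (Fin m ⊕ Fin m → F) ≃ₗ[F] (Fin m ⊕ Fin m → F), (∀ v, g (J v) = J (g v)) →
      NJ (Matrix.toLin' W) g := by
    intro g hg
    refine ⟨0, 1, fun v => ?_⟩
    rw [hW', hW', map_add, map_smul, map_smul, hg]; module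
  have hanti : ∀ g : (Fin m ⊕ Fin m → F) ≃ₗ[F] (Fin m ⊕ Fin m → F), (∀ v, g (J v) = - J (g v)) →
      NJ (Matrix.toLin' W) g := by
    intro g hg
    refine ⟨a, -1, fun v => ?_⟩
    rw [hW', hW', map_add, map_smul, map_smul, hg]
    match_scalars <;> field_simp
    ring
  have hnorm := mem_normalizer_iff hW hgen hli
  have hsymm : ∀ x : (Fin m ⊕ Fin m → F) ≃ₗ[F] (Fin m ⊕ Fin m → F), toEq (Fin m ⊕ Fin m) F ((toEq _ F).symm x) = x :=
    fun x => by rw [MulEquiv.apply_symm_apply]
  apply isMaximalIn_of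
  · obtain ⟨z, hz⟩ : ∃ z : Fin m ⊕ Fin m → F, z ≠ 0 := ⟨fun _ => 1, fun h0 =>
      one_ne_zero (congrFun h0 (Sum.inl ⟨0, by omega⟩))⟩
    refine ⟨(toEq _ F).symm (tr B hB z 1), ?_, ?_⟩
    · rw [hmem, hsymm]; exact tr_mem_isom _ _ _ _
    · rw [hnorm, hsymm]
      rintro ⟨a', b', hab⟩
      obtain ⟨y, hy, hy', hyT⟩ := perp_val (nd_NQ h) (k := 2) (by omega) ![z, J z]
        (T := (⊥ : Submodule F (Fin m ⊕ Fin m → F))) (by rw [finrank_bot]; omega) 0
      have hy0 : y ≠ 0 := fun h0 => hyT ((Submodule.mem_bot F).2 h0)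
      have e1 : polar (NQ B J) y z = 0 := hy' 0
      have e2 : polar (NQ B J) y (J z) = 0 := hy' 1
      rw [polar_NQ h] at e1 e2
      rw [h.sq, map_smul, smul_eq_mul] at e2
      have e3 : B y z = 0 := (mul_eq_zero.1 ((mul_eq_zero.1 e2).resolve_left h.two)).resolve_left h.e0
      have e4 : B (J y) z = 0 := by
        rw [h.adj, (mul_eq_zero.1 e1).resolve_left h.two, neg_zero]
      have t1 : tr B hB z 1 y = y := by rw [tr_apply, e3, mul_zero, zero_smul, add_zero]
      have t2 : tr B hB z 1 (J y) = J y := by rw [tr_apply, e4, mul_zero, zero_smul, add_zero]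
      have t3 : tr B hB z 1 (Matrix.toLin' W y) = Matrix.toLin' W y := by
        rw [hW', map_add, map_smul, map_smul, t1, t2]
      have t4 := hab y
      rw [t3, t1] at t4
      obtain ⟨u1, u2⟩ := hind y hy0 a' (b' - 1) (by
        rw [Matrix.toLin'_apply] at t4
        rw [sub_smul, one_smul, add_sub, ← t4, sub_self])
      have hcm : ∀ v, tr B hB z 1 (J v) = J (tr B hB z 1 v) := by
        intro v
        have := hab v
        rw [u1, sub_eq_zero.1 u2, zero_smul, zero_add, one_smul] at this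
        rw [hJ, hJ, map_sub, map_smul, map_smul, this]
      obtain ⟨v, hv⟩ : ∃ v, B z v ≠ 0 := by
        by_contra hcon
        push Not at hcon
        exact hz (hndV z hcon)
      have h5 := hcm v
      rw [tr_apply, tr_apply, map_add, map_smul, one_mul, one_mul, add_right_inj] at h5
      have h6 := h.ind hz (a := B (J v) z) (b := - B v z) (by rw [h5]; module)
      apply hv
      rw [h.sw]
      exact h6.2
  · intro M hHM hMK ⟨g, hg, hgS⟩
    have hMB : M.map (toEq (Fin m ⊕ Fin m) F).toMonoidHom ≤ isom B := by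
      rintro _ ⟨x, hx, rfl⟩
      exact (hmem x).1 (hMK hx)
    refine le_of_map hmem (overgroup h ?_ hMB (by omega) ?_)
    · intro x hx hxJ
      rw [mem_map_toEq]
      refine hHM ⟨?_, ?_⟩
      · exact (hnorm _).2 (by rw [hsymm]; exact hcomm x hxJ)
      · exact (hmem _).2 (by rw [hsymm]; exact hx)
    · refine ⟨toEq _ F g, ⟨g, hg, rfl⟩, ?_, ?_⟩
      · by_contra hcon
        push Not at hcon
        exact hgS ((hnorm g).2 (hcomm _ hcon))
      · by_contra hcon
        push Not at hcon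
        exact hgS ((hnorm g).2 (hanti _ hcon))

end Cfsg.Agent.S5665
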