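import Cfsg.Statements.S5666
import Cfsg.Agent.Lib.H96.TeBr

set_option autoImplicit false
open Cfsg

namespace Cfsg.Agent.S5666

/-- For a finite field F of odd order q and m ≥ 7, suppose the standard alternating form on F^(2m) is similar, through a change of basis P and a bijection of index sets e, to the tensor product of a non-degenerate symplectic form f₁ on F^(n₁) and a non-degenerate symmetric bilinear form f₂ on F^(n₂) with n₂ ≥ 3. Unless q = 3 and n₂ = 3, the elements of Sp_2m(F) in the stabiliser of this tensor decomposition (the conjugate by P of the Kronecker-product subgroup transported along e) form a maximal subgroup of Sp_2m(F). -/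
theorem result {F : Type*} [Field F] [Fintype F] (m : ℕ) (hm : 7 ≤ m) (hodd : Odd (Fintype.card F)) (n₁ n₂ : ℕ) (hn₂ : 3 ≤ n₂) (hex : ¬ (Fintype.card F = 3 ∧ n₂ = 3)) (e : (Fin m ⊕ Fin m) ≃ Fin n₁ × Fin n₂) (P : Matrix.GeneralLinearGroup (Fin m ⊕ Fin m) F) (f₁ : (Fin n₁ → F) → (Fin n₁ → F) → F) (f₂ : (Fin n₂ → F) → (Fin n₂ → F) → F) (hf₁ : Cfsg.Geo.IsSymplecticForm f₁) (hf₂ : Cfsg.Geo.IsSymmetricForm f₂) (hT : Cfsg.Geo.IsTensorFormStructure id (Cfsg.sympForm m F) f₁ f₂ e P) : Cfsg.Geo.IsMaximalIn (Cfsg.spGL m F) (Cfsg.Geo.tensorProductSubgroup n₁ n₂ e P ⊓ Cfsg.spGL m F) := by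
  have hcard := Fintype.card_congr e
  rw [Fintype.card_prod, Fintype.card_fin, Fintype.card_fin, Fintype.card_sum, Fintype.card_fin] at hcard
  have hev := H97.AschLinear.even_of_symplectic hf₁
  rw [Fintype.card_fin] at hev
  have hcase : (4 ≤ n₁ ∧ n₂ ≤ 2 * n₁) ∨ (2 * n₁ < n₂ ∧ 2 ≤ n₁) := by
    obtain ⟨k, hk⟩ := hev
    rcases Nat.lt_or_ge n₁ 4 with h4 | h4
    · rcases Nat.lt_or_ge n₁ 2 with h2 | h2
      · exfalso
        have : n₁ = 0 := by omega
        rw [this, zero_mul] at hcard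
        omega
      · have h3 : n₁ = 2 := by omega
        rw [h3] at hcard
        omega
    · omega
  exact H96.TeBr.tensor_maximal hodd hn₂ hex hcase e P f₁ f₂ hf₁ hf₂ hT


end Cfsg.Agent.S5666
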