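import Cfsg.Statements.S5667
import Cfsg.Agent.Lib.H95.NmTens
import Cfsg.Agent.Lib.H95.F2
import Cfsg.Agent.Lib.H95.OImpB
import Cfsg.Agent.Lib.H7.Tens
import Cfsg.Agent.Lib.H7.Tens3B

set_option autoImplicit false
open Cfsg

namespace Cfsg.Agent.S5667

open H95.Bridge H95.SpBasic Module QuadraticMap H7.Tens H7.Tens3 H7.ONonmax H95.NmTens

/-- Over the field with 3 elements and for m ≥ 7, suppose the standard alternating form on F^(2m) is similar, through P and e, to the tensor product of a non-degenerate symplectic form f₁ on F^(n₁) and a non-degenerate symmetric bilinear form f₂ on F^3. Then the elements of Sp_2m(3) in the stabiliser of this tensor decomposition form a subgroup that is not maximal: some subgroup lies strictly between it and Sp_2m(3). -/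
theorem result {F : Type*} [Field F] [Fintype F] (m : ℕ) (hm : 7 ≤ m) (hq : Fintype.card F = 3) (n₁ : ℕ) (e : (Fin m ⊕ Fin m) ≃ Fin n₁ × Fin 3) (P : Matrix.GeneralLinearGroup (Fin m ⊕ Fin m) F) (f₁ : (Fin n₁ → F) → (Fin n₁ → F) → F) (f₂ : (Fin 3 → F) → (Fin 3 → F) → F) (hf₁ : Cfsg.Geo.IsSymplecticForm f₁) (hf₂ : Cfsg.Geo.IsSymmetricForm f₂) (hT : Cfsg.Geo.IsTensorFormStructure id (Cfsg.sympForm m F) f₁ f₂ e P) : ∃ K : Subgroup (Matrix.GeneralLinearGroup (Fin m ⊕ Fin m) F), Cfsg.Geo.tensorProductSubgroup n₁ 3 e P ⊓ Cfsg.spGL m F < K ∧ K < Cfsg.spGL m F := by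
  obtain ⟨hF, h3⟩ := H95.F2.three hq
  have h2 : (2 : F) ≠ 0 := by
    intro h; apply one_ne_zero (α := F); linear_combination h3 - h
  set B := spB m F with hBdef
  have hB : B.IsAlt := spB_isAlt m F
  have hmem : ∀ g : Matrix.GeneralLinearGroup (Fin m ⊕ Fin m) F, g ∈ spGL m F ↔
    toEq _ F g ∈ isom B := fun g => mem_spGL
  obtain ⟨c, hc, hτ⟩ := form_tau hf₁.bilinear hf₂.bilinear hT
  have hn1 : 2 * m = 3 * n₁ := by
    have h1 := Fintype.card_congr e
    simp only [Fintype.card_sum, Fintype.card_fin, Fintype.card_prod] at h1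
    omega
  have hT' : TS (fun x y => B x y) (fun x y => polar (halfQ f₂ hf₂ h2) x y) f₁ (tau e P).flip c :=
    { c0 := hc
      pair := fun a b a' b' => by
        show B (tau e P b a) (tau e P b' a') = _
        rw [hBdef, spB_apply, hτ, polar_halfQ, mul_comm (f₂ a a')]
      add := fun x y z => by rw [map_add, LinearMap.add_apply]
      add₁ := fun x y z => by rw [polar_halfQ, polar_halfQ, polar_halfQ, hf₂.bilinear.add_left]
      add₁' := fun x y z => by rw [polar_halfQ, polar_halfQ, polar_halfQ, hf₂.bilinear.add_right]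
      smul₁ := fun k x z => by rw [polar_halfQ, polar_halfQ, hf₂.bilinear.smul_left]
      add₂ := fun x y z => hf₁.bilinear.add_left x y z
      smul₂ := fun k x z => hf₁.bilinear.smul_left k x z
      nd₂ := fun b hb => by
        by_contra hne
        obtain ⟨x, hx⟩ := (hf₁.nondegenerate b hne).2
        exact hx (hb x) }
  obtain ⟨x, y, hxA, hx, hy, hxy, hyx, hA⟩ := three (Q1 := halfQ f₂ hf₂ h2) hF h3 (nd_halfQ _ _ _)
    (by simp)
  let i0 : Fin n₁ := ⟨0, by omega⟩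
  have hb0 : (Pi.single i0 1 : Fin n₁ → F) ≠ 0 := by
    intro h; have := congrFun h i0; simp at this
  obtain ⟨b, hb⟩ := (hf₁.nondegenerate _ hb0).1
  obtain ⟨c1, ⟨g, hg, hgT, hgp⟩, g', hg', hg'T⟩ := common hT' (G := isom B) hxA hx hy hxy hyx hA hb0
    (hf₁.alternating _) hb (fun a => ⟨tr B hB ((tau e P).flip a (Pi.single i0 1)) 1, tr_mem_isom _ _ _ _, 1,
      one_ne_zero, fun v => by rw [tr_apply]⟩) (by
    rintro g hg ⟨α, β, hp⟩ _ ⟨a, ⟨ha0, ha⟩, d, rfl⟩
    refine ⟨α a, ⟨by rwa [Ne, LinearEquiv.map_eq_zero_iff], fun v hv hvq => ?_⟩, β d, hp a d⟩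
    have nt : ∃ b b', f₁ b b' ≠ 0 := ⟨b, _, hb⟩
    obtain ⟨v', rfl⟩ := α.surjective v
    have h6 : polar (halfQ f₂ hf₂ h2) v' v' = 0 := orth_of_pure hT' (mem_isom.1 hg) hp nt (by
      rw [H95.OGeo.p_self, hvq, mul_zero])
    rw [H95.OGeo.p_self] at h6
    have h7 : polar (halfQ f₂ hf₂ h2) a v' = 0 := orth_of_pure hT' (mem_isom.1 hg) hp nt hv
    rw [ha v' h7 ((mul_eq_zero.1 h6).resolve_left h2), map_zero])
  have hpure : ∀ g : Matrix.GeneralLinearGroup (Fin m ⊕ Fin m) F,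
      g ∈ Cfsg.Geo.tensorProductSubgroup n₁ 3 e P → PureP (tau e P).flip (toEq _ F g) := by
    intro g hg
    obtain ⟨α, β, h⟩ := mem_tps hg
    exact ⟨β, α, fun a b => h b a⟩
  refine not_max_of (T := (setStab F (ST (AA (halfQ f₂ hf₂ h2)) (tau e P).flip)).comap
    (toEq _ F).toMonoidHom) ?_ ⟨(toEq _ F).symm g, ⟨?_, ?_⟩, ?_⟩
    ⟨(toEq _ F).symm g', ?_, fun hT => ?_⟩
  · rintro y ⟨hy, hy'⟩
    exact c1 _ ((hmem y).1 hy') (hpure y hy)
  · show toEq _ F ((toEq _ F).symm g) ∈ setStab F (ST (AA (halfQ f₂ hf₂ h2)) (tau e P).flip)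
    rw [MulEquiv.apply_symm_apply]; exact hgT
  · exact (hmem _).2 (by rw [MulEquiv.apply_symm_apply]; exact hg)
  · intro hS
    have := hpure _ hS
    rw [MulEquiv.apply_symm_apply] at this
    exact hgp this
  · exact (hmem _).2 (by rw [MulEquiv.apply_symm_apply]; exact hg')
  · have h9 : toEq _ F ((toEq _ F).symm g') ∈ setStab F (ST (AA (halfQ f₂ hf₂ h2)) (tau e P).flip) := hT
    rw [MulEquiv.apply_symm_apply] at h9
    exact hg'T h9


end Cfsg.Agent.S5667
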