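import Cfsg.Statements.S5671
import Cfsg.Agent.Lib.H95.NmTensU
import Cfsg.Agent.Lib.H95.OImpB

set_option autoImplicit false
open Cfsg

namespace Cfsg.Agent.S5671

open H95.Bridge H95.UBridge H95.UBasic Module H7.Tens H7.Tens3 H7.ONonmax H95.NmTens H95.NmTensU

/-- Let F be the field with 4 elements (q = 2) and n = 2 n₂ ≥ 13. Suppose the standard unitary form Σ u_i v_i² on F^n is similar, through P and e, to the tensor product of non-degenerate unitary forms f₁ on F^2 and f₂ on F^(n₂). Then the elements of SU_n(2) in the stabiliser of this tensor decomposition form a subgroup that is not maximal: some subgroup lies strictly between it and SU_n(2). -/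
theorem result {F : Type*} [Field F] [Fintype F] (n : ℕ) (hF : Fintype.card F = 4) (hn : 13 ≤ n) (n₂ : ℕ) (e : Fin n ≃ Fin 2 × Fin n₂) (P : Matrix.GeneralLinearGroup (Fin n) F) (f₁ : (Fin 2 → F) → (Fin 2 → F) → F) (f₂ : (Fin n₂ → F) → (Fin n₂ → F) → F) (hf₁ : Cfsg.Geo.IsUnitaryFormPow 2 f₁) (hf₂ : Cfsg.Geo.IsUnitaryFormPow 2 f₂) (hT : Cfsg.Geo.IsTensorFormStructure (fun x : F => x ^ 2) (Cfsg.hermForm n F 2) f₁ f₂ e P) : ∃ K : Subgroup (Matrix.GeneralLinearGroup (Fin n) F), Cfsg.Geo.tensorProductSubgroup 2 n₂ e P ⊓ (Cfsg.GU n F 2 ⊓ Cfsg.Geo.specialLinear (Fin n) F) < K ∧ K < (Cfsg.GU n F 2 ⊓ Cfsg.Geo.specialLinear (Fin n) F) := by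
  classical
  have hF2 : Fintype.card F = 2 ^ 2 := by rw [hF]; norm_num
  obtain ⟨σ, hσ⟩ := exists_sigma hF2
  have h2 : (2 : F) = 0 := by
    have h4 : ((4 : ℕ) : F) = 0 := by rw [← hF]; exact FiniteField.cast_card_eq_zero F
    have : (2 : F) * 2 = 0 := by
      have e : ((4 : ℕ) : F) = 2 * 2 := by norm_num
      rw [← e, h4]
    rcases mul_eq_zero.1 this with h | h <;> exact h
  have hneg : ∀ a : F, -a = a := fun a => by linear_combination (-a) * h2
  have hH := uForm_isSkew n hF2 hσ (ζ := 1) one_ne_zero (by rw [map_one]; linear_combination h2)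
  set h := uForm n σ (1 : F) with hdef
  have hh : ∀ u v, h u v = 1 * hermForm n F 2 u v := by
    intro u v
    rw [hdef, uForm_apply, hermForm]
    simp only [hσ]
  have hmem := mem_SUn (one_ne_zero) hh
  have hN : ∀ a : F, a ≠ 0 → a * σ a = 1 := by
    intro a ha
    rw [hσ]
    have h1 := FiniteField.pow_card_sub_one_eq_one a ha
    rw [hF] at h1
    rw [← pow_succ']; exact h1
  have hfix : ∀ b : F, σ b = b → b = 0 ∨ b = 1 := by
    intro b hb
    rw [hσ] at hb
    have h3 : b * (b - 1) = 0 := by linear_combination hb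
    rcases mul_eq_zero.1 h3 with h | h
    · exact Or.inl h
    · exact Or.inr (sub_eq_zero.1 h)
  have hsk : ∀ (k : ℕ) (f : (Fin k → F) → (Fin k → F) → F) (hf : Cfsg.Geo.IsUnitaryFormPow 2 f),
      IsSkew (sesq hσ f hf) := fun k f hf =>
    { inv := hH.inv
      ne := hH.ne
      norm := hH.norm
      skew := fun x y => by
        rw [sesq_apply, sesq_apply, hneg, hσ]; exact hf.herm y x
      nd := fun v hv => by
        by_contra hne
        obtain ⟨x, hx⟩ := (hf.nondegenerate v hne).2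
        exact hx (hv x) }
  obtain ⟨c, hc, hτ⟩ := form_tau_u hσ hf₁ hf₂ hT
  have hn2 : n = 2 * n₂ := by
    have h1 := Fintype.card_congr e
    simp only [Fintype.card_fin, Fintype.card_prod] at h1
    omega
  have H1 := hsk 2 f₁ hf₁
  have H2 := hsk n₂ f₂ hf₂
  set h₁ := sesq hσ f₁ hf₁ with h₁def
  set h₂ := sesq hσ f₂ hf₂ with h₂def
  have hT' : TS (fun x y => h x y) (fun x y => h₁ x y) (fun x y => h₂ x y) (tau e P) c :=
    { c0 := hc
      pair := fun a b a' b' => by
        show h (tau e P a b) (tau e P a' b') = _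
        rw [hh, one_mul, hτ]; rfl
      add := fun x y z => by rw [map_add, LinearMap.add_apply]
      add₁ := fun x y z => by rw [map_add, LinearMap.add_apply]
      add₁' := fun x y z => by rw [map_add]
      smul₁ := fun k x z => hf₁.smul_left k x z
      add₂ := fun x y z => by rw [map_add, LinearMap.add_apply]
      smul₂ := fun k x z => hf₂.smul_left k x z
      nd₂ := H2.nd }
  obtain ⟨x, -, y, -, hx, hy, hxy, hfr⟩ := H95.NmU2.frame H1 hN hfix h2 (U := ⊤)
    (fun v _ hv => H1.nd v fun w => hv w Submodule.mem_top) (by rw [finrank_top]; simp)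
  have hyx := H1.symm_zero hxy
  -- an isotropic vector
  obtain ⟨b0, hb0, hb00⟩ : ∃ b0 : Fin n₂ → F, b0 ≠ 0 ∧ h₂ b0 b0 = 0 := by
    by_contra hcon
    push Not at hcon
    have hone : ∀ b, b ≠ 0 → h₂ b b = 1 := by
      intro b hb
      have h1 := H2.self b
      rw [hneg] at h1
      exact (hfix _ h1).resolve_left (hcon b hb)
    let i0 : Fin n₂ := ⟨0, by omega⟩
    let i1 : Fin n₂ := ⟨1, by omega⟩
    have h01 : i0 ≠ i1 := by simp [i0, i1]
    set u : Fin n₂ → F := Pi.single i0 1 with hu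
    set v : Fin n₂ → F := Pi.single i1 1 with hv
    have hu0 : u ≠ 0 := by intro h; have := congrFun h i0; simp [hu] at this
    set w := v - h₂ v u • u with hw
    have hwu : h₂ w u = 0 := by
      rw [hw, map_sub, LinearMap.sub_apply]
      have : h₂ (h₂ v u • u) u = h₂ v u * h₂ u u := hf₂.smul_left _ _ _
      rw [this, hone u hu0, mul_one, sub_self]
    have hw0 : w ≠ 0 := by
      intro h0
      have := congrFun h0 i1
      rw [hw] at this
      simp [hu, hv, h01.symm] at this
    have hsum : u + w ≠ 0 := by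
      intro h0
      have h1 : h₂ (u + w) u = 0 := by rw [h0]; simp
      rw [map_add, LinearMap.add_apply, hwu, hone u hu0, add_zero] at h1
      exact one_ne_zero h1
    have h1 : h₂ (u + w) (u + w) = 0 := by
      simp only [map_add, LinearMap.add_apply, hwu, H2.symm_zero hwu, hone u hu0, hone w hw0]
      linear_combination h2
    exact hcon _ hsum h1
  obtain ⟨b, hb⟩ : ∃ b, h₂ b b0 ≠ 0 := by
    obtain ⟨b, hb⟩ := (hf₂.nondegenerate b0 hb0).1
    exact ⟨b, hb⟩
  set A : Set (Fin 2 → F) := {a | h₁ a a ≠ 0} with hAdef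
  obtain ⟨c1, ⟨g, hg, hgT, hgp⟩, g', hg', hg'T⟩ := common hT' (G := H95.UBasic.SU h) (A := A) (x := x)
    (y := y) (by show h₁ x x ≠ 0; rw [hx]; exact one_ne_zero) (by rw [hx]; exact one_ne_zero)
    (by rw [hy]; exact one_ne_zero) hxy hyx (by
      intro a ha
      rcases hfr a Submodule.mem_top ha with h | ⟨β, hβ⟩
      · exact Or.inl h
      · right
        rw [hβ]
        have : h₁ (β • y) x = β * h₁ y x := hf₁.smul_left _ _ _
        rw [this, hyx, mul_zero]) hb0
    hb00 hb (fun a => by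
      have hz : h (tau e P a b0) (tau e P a b0) = 0 := by
        rw [hT'.pair, hb00, mul_zero, mul_zero]
      refine ⟨rf h (tau e P a b0) 1, tr_mem_SU hH hz (map_one σ), 1, one_ne_zero, fun v => ?_⟩
      rw [rf_apply (tr_good hz (map_one σ))]) (by
    rintro g hg ⟨α, β, hp⟩ _ ⟨a, ha, d, rfl⟩
    refine ⟨α a, ?_, β d, hp a d⟩
    show h₁ (α a) (α a) ≠ 0
    intro h0
    exact ha (orth_of_pure hT' (mem_isom.1 (mem_SU.1 hg).1) hp ⟨b, b0, hb⟩ h0))
  have hpure : ∀ g : Matrix.GeneralLinearGroup (Fin n) F,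
      g ∈ Cfsg.Geo.tensorProductSubgroup 2 n₂ e P → PureP (tau e P) (toEq _ F g) := by
    intro g hg
    obtain ⟨α, β, h⟩ := mem_tps hg
    exact ⟨α, β, h⟩
  refine not_max_of (T := (setStab F (ST A (tau e P))).comap
    (toEq _ F).toMonoidHom) ?_ ⟨(toEq _ F).symm g, ⟨?_, ?_⟩, ?_⟩
    ⟨(toEq _ F).symm g', ?_, fun hT => ?_⟩
  · rintro y ⟨hy, hy'⟩
    exact c1 _ ((hmem y).1 hy') (hpure y hy)
  · show toEq _ F ((toEq _ F).symm g) ∈ setStab F (ST A (tau e P))
    rw [MulEquiv.apply_symm_apply]; exact hgT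
  · exact (hmem _).2 (by rw [MulEquiv.apply_symm_apply]; exact hg)
  · intro hS
    have := hpure _ hS
    rw [MulEquiv.apply_symm_apply] at this
    exact hgp this
  · exact (hmem _).2 (by rw [MulEquiv.apply_symm_apply]; exact hg')
  · have h9 : toEq _ F ((toEq _ F).symm g') ∈ setStab F (ST A (tau e P)) := hT
    rw [MulEquiv.apply_symm_apply] at h9
    exact hg'T h9


end Cfsg.Agent.S5671
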