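import Cfsg.Statements.S5674
import Cfsg.Agent.Lib.H7.OAPar

set_option autoImplicit false
open Cfsg

namespace Cfsg.Agent.S5674

/-- Let F be a finite field of odd order, m ≥ 6, Q the standard quadratic form x₀² + Σ x_i y_i on F^(2m+1) and Ω the commutator subgroup of its isometry group inside GL_(2m+1)(F). The elements of Ω stabilising a non-zero subspace on which Q vanishes form a maximal subgroup of Ω. -/
theorem result {F : Type*} [Field F] [Fintype F] (hodd : Odd (Fintype.card F)) (m : ℕ) (hm : 6 ≤ m) (W : Submodule F (Unit ⊕ (Fin m ⊕ Fin m) → F)) (hW0 : W ≠ ⊥) (hW : Cfsg.Geo.IsTotallySingularQuad (Cfsg.quadFormOdd m F) W) : Cfsg.Geo.IsMaximalIn (Cfsg.Geo.omegaGL (Cfsg.quadFormOdd m F)) (Cfsg.Geo.subspaceStabilizer W ⊓ Cfsg.Geo.omegaGL (Cfsg.quadFormOdd m F)) := by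
  have hfr : Module.finrank F (Unit ⊕ (Fin m ⊕ Fin m) → F) = 2 * m + 1 := by simp; ring
  have h2 : (2 : F) ≠ 0 := H7.OmegaIso.two_ne_zero_of_odd hodd
  have hQ : (H48.QuadStd.qOdd m F 1 : (Unit ⊕ (Fin m ⊕ Fin m) → F) → F) = Cfsg.quadFormOdd m F := H48.QuadStd.coe_qOdd m
  have hnd : H48.QuadSplit.ND (H48.QuadStd.qOdd m F 1) := H48.QuadStd.nd_qOdd m h2 one_ne_zero
  have hW' : H7.OAPar.TS (H48.QuadStd.qOdd m F 1) W := by
    intro w hw; rw [hQ]; exact hW w hw
  refine H7.OABridge.isMaximalIn_omegaGL hQ (H7.OABridge.mem_stab (W := W)) ?_ ?_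
  · exact H7.OAPar.exists_not_stab hnd (by omega) hW' hW0
  · intro M h1 h2 h3
    refine H7.OAPar.maximal hnd (by omega) hW' ?_ h1 h2 h3
    intro U hU hU' h
    omega

end Cfsg.Agent.S5674
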