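import Cfsg.Statements.S5675
import Cfsg.Agent.Lib.H7.OANd2

set_option autoImplicit false
open Cfsg

namespace Cfsg.Agent.S5675

/-- Let F be a finite field of odd order q, m ≥ 6, Q the standard quadratic form on F^(2m+1) and Ω the commutator subgroup of its isometry group. Let W be a non-zero subspace of even dimension on which the polar form of Q is non-degenerate; exclude the case q = 3, dim W = 2 with Q vanishing on some line of W (a plus-type plane). Then the elements of Ω stabilising W (equivalently, stabilising its orthogonal complement, of odd dimension) form a maximal subgroup of Ω. -/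
theorem result {F : Type*} [Field F] [Fintype F] (hodd : Odd (Fintype.card F)) (m : ℕ) (hm : 6 ≤ m) (W : Submodule F (Unit ⊕ (Fin m ⊕ Fin m) → F)) (hW0 : W ≠ ⊥) (hev : Even (Module.finrank F W)) (hW : Cfsg.Geo.IsNondegenerateOn (QuadraticMap.polar (Cfsg.quadFormOdd m F)) W) (hex : ¬ (Fintype.card F = 3 ∧ Module.finrank F W = 2 ∧ Cfsg.Geo.IsPlusTypeOn (Cfsg.quadFormOdd m F) W)) : Cfsg.Geo.IsMaximalIn (Cfsg.Geo.omegaGL (Cfsg.quadFormOdd m F)) (Cfsg.Geo.subspaceStabilizer W ⊓ Cfsg.Geo.omegaGL (Cfsg.quadFormOdd m F)) := by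
  have hfr : Module.finrank F (Unit ⊕ (Fin m ⊕ Fin m) → F) = 2 * m + 1 := by simp; ring
  have h2 : (2 : F) ≠ 0 := H7.OmegaIso.two_ne_zero_of_odd hodd
  have hQ : (H48.QuadStd.qOdd m F 1 : (Unit ⊕ (Fin m ⊕ Fin m) → F) → F) = Cfsg.quadFormOdd m F := H48.QuadStd.coe_qOdd m
  have hnd : H48.QuadSplit.ND (H48.QuadStd.qOdd m F 1) := H48.QuadStd.nd_qOdd m h2 one_ne_zero
  have hcard : Nat.card F = Fintype.card F := Nat.card_eq_fintype_card
  rw [← hQ] at hW hex
  have hnd' := H7.OANd.nd_of_on hW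
  have hW1 : W ≠ ⊤ := by
    rintro rfl
    rw [finrank_top, hfr] at hev
    exact (Nat.not_even_iff_odd.2 ⟨m, rfl⟩) hev
  have hpar := H48.QuadSplit.finrank_orth hnd W
  obtain ⟨r, hr⟩ := hev
  have key := H7.OANd.max_nd hnd (by omega) hnd' hW0 hW1 ?_ ?_ (fun h => by omega)
  · exact H7.OABridge.isMaximalIn_omegaGL hQ (H7.OABridge.mem_stab (W := W)) key.1 key.2
  · rintro ⟨h3, x, hx, hx0, hxQ⟩
    by_contra hlt
    apply hex
    refine ⟨?_, h3, H7.OANd.plus_of_vec h3 hx hx0 hxQ⟩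
    have h4 : 1 < Fintype.card F := Fintype.one_lt_card
    obtain ⟨c, hc⟩ := hodd
    omega
  · rintro ⟨h3, -⟩
    omega

end Cfsg.Agent.S5675
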