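import Cfsg.Statements.S5676
import Cfsg.Agent.Lib.H7.OAPoint

set_option autoImplicit false
open Cfsg

namespace Cfsg.Agent.S5676

/-- Let F be the field with 3 elements, m ≥ 6, Q the standard quadratic form on F^(2m+1) and Ω the commutator subgroup of its isometry group. Let W be a 2-dimensional subspace on which the polar form is non-degenerate and which contains a line on which Q vanishes. Then the elements of Ω stabilising W form a subgroup that is not maximal: some subgroup lies strictly between it and Ω. -/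
theorem result {F : Type*} [Field F] [Fintype F] (hq : Fintype.card F = 3) (m : ℕ) (hm : 6 ≤ m) (W : Submodule F (Unit ⊕ (Fin m ⊕ Fin m) → F)) (hdim : Module.finrank F W = 2) (hW : Cfsg.Geo.IsNondegenerateOn (QuadraticMap.polar (Cfsg.quadFormOdd m F)) W) (hplus : Cfsg.Geo.IsPlusTypeOn (Cfsg.quadFormOdd m F) W) : ∃ K : Subgroup (Matrix.GeneralLinearGroup (Unit ⊕ (Fin m ⊕ Fin m)) F), Cfsg.Geo.subspaceStabilizer W ⊓ Cfsg.Geo.omegaGL (Cfsg.quadFormOdd m F) < K ∧ K < Cfsg.Geo.omegaGL (Cfsg.quadFormOdd m F) := by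
  have hfr : Module.finrank F (Unit ⊕ (Fin m ⊕ Fin m) → F) = 2 * m + 1 := by simp; ring
  have hodd : Odd (Fintype.card F) := by rw [hq]; decide
  have h2 : (2 : F) ≠ 0 := H7.OmegaIso.two_ne_zero_of_odd hodd
  have hQ : (H48.QuadStd.qOdd m F 1 : (Unit ⊕ (Fin m ⊕ Fin m) → F) → F) = Cfsg.quadFormOdd m F := H48.QuadStd.coe_qOdd m
  have hnd : H48.QuadSplit.ND (H48.QuadStd.qOdd m F 1) := H48.QuadStd.nd_qOdd m h2 one_ne_zero
  have hcard : Nat.card F = Fintype.card F := Nat.card_eq_fintype_card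
  rw [← hQ] at hW hplus
  obtain ⟨T, h3, h4, h5⟩ := H7.OAPoint.plane hnd (by omega) (by omega) (H7.OANd.nd_of_on hW) hdim
    (H7.OANd.vec_of_plus hdim hplus)
  exact H7.OABridge.not_maximal_omegaGL hQ (H7.OABridge.mem_stab (W := W)) T h3 h4 h5

end Cfsg.Agent.S5676
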