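import Cfsg.Statements.S5677
import Cfsg.Agent.Lib.H95.OImpB

set_option autoImplicit false
open Cfsg

namespace Cfsg.Agent.S5677

open Module H95.OImpB H95.OBridge

/-- Let F be a finite field of odd order q, m ≥ 6, Q the standard quadratic form on F^(2m+1) and Ω the commutator subgroup of its isometry group. Let D be a decomposition of F^(2m+1) into t ≥ 2 pairwise orthogonal, pairwise Q-isometric subspaces of equal dimension k > 1 on which the polar form is non-degenerate. Unless q = 3 and k = 3, the elements of Ω permuting the members of D form a maximal subgroup of Ω. -/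
theorem result {F : Type*} [Field F] [Fintype F] (hodd : Odd (Fintype.card F)) (m : ℕ) (hm : 6 ≤ m) {t : ℕ} (k : ℕ) (hk : 1 < k) (D : Fin t → Submodule F (Unit ⊕ (Fin m ⊕ Fin m) → F)) (hD : Cfsg.Geo.IsOrthogonalMDecomposition (Cfsg.quadFormOdd m F) k D) (hex : ¬ (Fintype.card F = 3 ∧ k = 3)) : Cfsg.Geo.IsMaximalIn (Cfsg.Geo.omegaGL (Cfsg.quadFormOdd m F)) (Cfsg.Geo.decompositionStabilizer D ⊓ Cfsg.Geo.omegaGL (Cfsg.quadFormOdd m F)) := by
  have h2 : (2 : F) ≠ 0 := two_ne hodd
  obtain ⟨Q', hQ', hnd⟩ := quad_odd (F := F) m h2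
  rw [← hQ'] at hD ⊢
  have hcard := card_eq hD.decomp.decomp
  have hcard' : Fintype.card (Unit ⊕ (Fin m ⊕ Fin m)) = 2 * m + 1 := by simp; ring
  rw [hcard'] at hcard
  have hk2 : k ≠ 2 := by
    rintro rfl; omega
  refine max_odd3 hnd h2 (by omega) hD ?_
  rw [Nat.card_eq_fintype_card]
  by_cases h4 : 4 ≤ k
  · exact Or.inl h4
  · right
    have h3 : k = 3 := by omega
    refine ⟨?_, h3⟩
    have h5 : Fintype.card F ≠ 3 := fun h => hex ⟨h, h3⟩
    have h6 : 1 < Fintype.card F := Fintype.one_lt_card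
    obtain ⟨a, ha⟩ := hodd
    omega


end Cfsg.Agent.S5677
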