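import Cfsg.Statements.S5686
import Cfsg.Agent.Lib.H7.OAPair2

set_option autoImplicit false
open Cfsg

namespace Cfsg.Agent.S5686

/-- Let F be a finite field with q elements, n ≥ 13 even, Q a non-degenerate quadratic form on F^n of plus type (some subspace of dimension n/2 is totally singular), and Ω the commutator subgroup of the isometry group of Q, viewed inside GL_n(F). The elements of Ω stabilising a subspace of dimension n/2 − 1 on which Q vanishes form a subgroup that is not maximal: some subgroup lies strictly between it and Ω. -/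
theorem result {F : Type*} [Field F] [Fintype F] {n : ℕ} (hn : 13 ≤ n) (heven : Even n) (Q : (Fin n → F) → F) (hQ : Cfsg.Geo.IsNondegenerateQuadraticForm Q) (hplus : Cfsg.Geo.IsPlusTypeOn Q ⊤) (W : Submodule F (Fin n → F)) (hW : Cfsg.Geo.IsTotallySingularQuad Q W) (hdim : 2 * (Module.finrank F W + 1) = n) : ∃ K : Subgroup (Matrix.GeneralLinearGroup (Fin n) F), Cfsg.Geo.subspaceStabilizer W ⊓ Cfsg.Geo.omegaGL Q < K ∧ K < Cfsg.Geo.omegaGL Q := by
  have hfr : Module.finrank F (Fin n → F) = n := by simp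
  obtain ⟨q, rfl⟩ : ∃ q : QuadraticForm F (Fin n → F), ⇑q = Q := ⟨H7.OABridge.ofFun hQ, rfl⟩
  have hnd : H48.QuadSplit.ND q := H7.OABridge.nd_of rfl hQ
  obtain ⟨r, hr⟩ := heven
  obtain ⟨X, -, hX, hXd⟩ := hplus
  rw [finrank_top] at hXd
  obtain ⟨W1, hm, hWW1, hd⟩ := H7.OAPair.exists_max hnd (X := X) ⟨hX, hXd⟩ hW (by omega)
  refine H7.OABridge.not_maximal_omegaGL (Q := q) rfl (H7.OABridge.mem_stab (W := W)) (H7.OAPoint.stabGp W1) ?_ ?_ ?_
  · intro g hg hst
    exact H7.OAPair.map_eq_of_parity hnd (by omega) hm hg hWW1 hd hst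
  · exact H7.OAPair.exists_move_hyperplane hnd (by omega) hm hWW1 hd
  · refine H7.OAPar.exists_not_stab hnd (by omega) hm.ts ?_
    intro h
    rw [h, finrank_bot] at hd
    omega

end Cfsg.Agent.S5686
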