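import Cfsg.Statements.S5687
import Cfsg.Agent.Lib.H7.OAPar

set_option autoImplicit false
open Cfsg

namespace Cfsg.Agent.S5687

/-- Let F be a finite field with q elements, n ≥ 13 even, Q a non-degenerate quadratic form on F^n of minus type (no subspace of dimension n/2 is totally singular), and Ω the commutator subgroup of the isometry group of Q, viewed inside GL_n(F). The elements of Ω stabilising a non-zero subspace on which Q vanishes form a maximal subgroup of Ω. -/
theorem result {F : Type*} [Field F] [Fintype F] {n : ℕ} (hn : 13 ≤ n) (heven : Even n) (Q : (Fin n → F) → F) (hQ : Cfsg.Geo.IsNondegenerateQuadraticForm Q) (hminus : ¬ Cfsg.Geo.IsPlusTypeOn Q ⊤) (W : Submodule F (Fin n → F)) (hW0 : W ≠ ⊥) (hW : Cfsg.Geo.IsTotallySingularQuad Q W) : Cfsg.Geo.IsMaximalIn (Cfsg.Geo.omegaGL Q) (Cfsg.Geo.subspaceStabilizer W ⊓ Cfsg.Geo.omegaGL Q) := by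
  have hfr : Module.finrank F (Fin n → F) = n := by simp
  refine H7.OABridge.isMaximalIn_omegaGL (Q := H7.OABridge.ofFun hQ) rfl (H7.OABridge.mem_stab (W := W)) ?_ ?_
  · exact H7.OAPar.exists_not_stab (H7.OABridge.nd_ofFun hQ) (by omega) hW hW0
  · intro M h1 h2 h3
    refine H7.OAPar.maximal (H7.OABridge.nd_ofFun hQ) (by omega) hW ?_ h1 h2 h3
    intro U hU hU'
    exact absurd ⟨U, le_top, hU, by rw [hU', finrank_top]⟩ hminus

end Cfsg.Agent.S5687
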