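import Cfsg.Statements.S5689
import Cfsg.Agent.Lib.H7.OANd2

set_option autoImplicit false
open Cfsg

namespace Cfsg.Agent.S5689

/-- Let F be a finite field with q elements, n ≥ 13 even, Q a non-degenerate quadratic form on F^n of minus type (no subspace of dimension n/2 is totally singular), and Ω the commutator subgroup of the isometry group of Q, viewed inside GL_n(F). Let W be a non-zero proper subspace on which the polar form of Q is non-degenerate, not of odd dimension n/2. Exclude the case q ≤ 3 in which W, or its orthogonal complement, is a plane containing a line on which Q vanishes. Then the elements of Ω stabilising W form a maximal subgroup of Ω. -/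
theorem result {F : Type*} [Field F] [Fintype F] {n : ℕ} (hn : 13 ≤ n) (heven : Even n) (Q : (Fin n → F) → F) (hQ : Cfsg.Geo.IsNondegenerateQuadraticForm Q) (hminus : ¬ Cfsg.Geo.IsPlusTypeOn Q ⊤) (W : Submodule F (Fin n → F)) (hW0 : W ≠ ⊥) (hW1 : W ≠ ⊤) (hdim : ¬ (2 * Module.finrank F W = n ∧ Odd (Module.finrank F W))) (hW : Cfsg.Geo.IsNondegenerateOn (QuadraticMap.polar Q) W) (hex : ¬ (Fintype.card F ≤ 3 ∧ (∃ U : Submodule F (Fin n → F), Module.finrank F U = 2 ∧ Cfsg.Geo.IsNondegenerateOn (QuadraticMap.polar Q) U ∧ Cfsg.Geo.IsPlusTypeOn Q U ∧ (U = W ∨ (Cfsg.Geo.AreOrthogonalFor (QuadraticMap.polar Q) U W ∧ Module.finrank F U + Module.finrank F W = n))))) : Cfsg.Geo.IsMaximalIn (Cfsg.Geo.omegaGL Q) (Cfsg.Geo.subspaceStabilizer W ⊓ Cfsg.Geo.omegaGL Q) := by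
  have hfr : Module.finrank F (Fin n → F) = n := by simp
  have hcard : Nat.card F = Fintype.card F := Nat.card_eq_fintype_card
  obtain ⟨q, rfl⟩ : ∃ q : QuadraticForm F (Fin n → F), ⇑q = Q := ⟨H7.OABridge.ofFun hQ, rfl⟩
  have hnd : H48.QuadSplit.ND q := H7.OABridge.nd_of rfl hQ
  have hnd' : H48.QuadSplit.ND (q.restrict W) := H7.OANd.nd_of_on hW
  have hpar := H48.QuadSplit.finrank_orth hnd W
  have key := H7.OANd.max_nd hnd (by omega) hnd' hW0 hW1 ?_ ?_ ?_
  · exact H7.OABridge.isMaximalIn_omegaGL rfl (H7.OABridge.mem_stab (W := W)) key.1 key.2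
  · rintro ⟨h3, x, hx, hx0, hxQ⟩
    by_contra hlt
    exact hex ⟨by omega, W, h3, hW, H7.OANd.plus_of_vec h3 hx hx0 hxQ, Or.inl rfl⟩
  · rintro ⟨h3, x, hx, hx0, hxQ⟩
    by_contra hlt
    refine hex ⟨by omega, H48.QuadSplit.orth q W, h3, H7.OANd.on_of_nd (H48.QuadSplit.nd_orth hnd hnd'),
      H7.OANd.plus_of_vec h3 hx hx0 hxQ, Or.inr ⟨?_, by omega⟩⟩
    intro u hu v hv
    have := hu v hv
    rw [QuadraticMap.polar_comm] at this
    exact this
  · intro hhalf g hg hgU
    rcases Nat.even_or_odd (Module.finrank F W) with he | ho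
    · obtain ⟨k, hk⟩ := he
      obtain ⟨T, hT, hT'⟩ := H7.OANd.plus_of_halves hnd hnd' (k := k) (by omega) hhalf hg hgU
      exact hminus ⟨T, le_top, hT, by rw [hT', finrank_top]⟩
    · exact hdim ⟨by omega, ho⟩

end Cfsg.Agent.S5689
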