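import Cfsg.Statements.S5692
import Cfsg.Agent.Lib.H95.OIf

set_option autoImplicit false
open Cfsg

namespace Cfsg.Agent.S5692

open H95.OBridge H95.OIf

lemma card_ne_six (F : Type*) [Field F] [Fintype F] : Fintype.card F ≠ 6 := by
  intro h6
  obtain ⟨p, _, n, hp, hc⟩ := FiniteField.card' F
  rw [h6] at hc
  have hp6 : p ∣ 6 := by rw [hc]; exact dvd_pow_self p n.ne_zero
  have h1 : p ≤ 6 := Nat.le_of_dvd (by norm_num) hp6
  have hn : (n : ℕ) < 3 := by
    by_contra hcon
    push Not at hcon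
    have h2 : 2 ^ 3 ≤ p ^ (n : ℕ) :=
      (Nat.pow_le_pow_left hp.two_le 3).trans (Nat.pow_le_pow_right hp.pos hcon)
    omega
  have hn0 : (n : ℕ) ≠ 0 := n.ne_zero
  have hn12 : (n : ℕ) = 1 ∨ (n : ℕ) = 2 := by omega
  rcases hn12 with h | h
  · rw [h, pow_one] at hc
    rw [← hc] at hp
    exact absurd hp (by norm_num)
  · rw [h] at hc
    have h3 : p ≤ 2 := by nlinarith
    have h4 := hp.two_le
    have h5 : p = 2 := le_antisymm h3 h4
    rw [h5] at hc
    norm_num at hc

/-- Let F be a finite field with q elements, n ≥ 13 even, Q a non-degenerate quadratic form on F^n of plus type (some subspace of dimension n/2 is totally singular), and Ω the commutator subgroup of the isometry group of Q, viewed inside GL_n(F). Let D be a decomposition of F^n into t ≥ 2 pairwise orthogonal, pairwise Q-isometric subspaces of equal dimension k ≥ 2 on which the polar form is non-degenerate, such that: if k is even, either every member is of plus type or t is even; if k is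 odd, q is odd and the discriminant of Q is a square. Exclude the cases k = 2 with q = 3, k = 2 with plus-type members and q ∈ {2, 4, 5}, k = 3 with q = 3, and k = 4 with plus-type members and q = 2. Then the elements of Ω permuting the members of D form a maximal subgroup of Ω. -/
theorem result {F : Type*} [Field F] [Fintype F] {n : ℕ} (hn : 13 ≤ n) (heven : Even n) (Q : (Fin n → F) → F) (hQ : Cfsg.Geo.IsNondegenerateQuadraticForm Q) (hplus : Cfsg.Geo.IsPlusTypeOn Q ⊤) {t : ℕ} (k : ℕ) (hk : 2 ≤ k) (D : Fin t → Submodule F (Fin n → F)) (hD : Cfsg.Geo.IsOrthogonalMDecomposition Q k D) (hke : Even k → ((∀ i, Cfsg.Geo.IsPlusTypeOn Q (D i)) ∨ Even t)) (hko : Odd k → (Odd (Fintype.card F) ∧ Cfsg.Geo.HasSquareDiscriminant Q)) (hex : ¬ ((k = 2 ∧ (Fintype.card F = 3 ∨ ((∀ i, Cfsg.Geo.IsPlusTypeOn Q (D i)) ∧ (Fintype.card F = 2 ∨ Fintype.card F = 4 ∨ Fintype.card F = 5)))) ∨ (k = 3 ∧ Fintype.card F = 3) ∨ (k = 4 ∧ Fintype.card F = 2 ∧ ∀ i, Cfsg.Geo.IsPlusTypeOn Q (D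 i)))) : Cfsg.Geo.IsMaximalIn (Cfsg.Geo.omegaGL Q) (Cfsg.Geo.decompositionStabilizer D ⊓ Cfsg.Geo.omegaGL Q) := by
  obtain ⟨Q', hQ', hnd⟩ := exists_quad hQ
  rw [← hQ'] at hD hke hex ⊢
  have h1F : 1 < Fintype.card F := Fintype.one_lt_card
  refine max_all hnd (by rw [Fintype.card_fin]; exact hn) hk hD (fun h => (hko h).1) ?_ ?_ ?_
  · intro h2
    refine ⟨fun h => hex (Or.inl ⟨h2, Or.inl h⟩), fun hp => ?_⟩
    have h3 : Fintype.card F ≠ 3 := fun h => hex (Or.inl ⟨h2, Or.inl h⟩)
    have h4 : ¬ (Fintype.card F = 2 ∨ Fintype.card F = 4 ∨ Fintype.card F = 5) := fun h =>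
      hex (Or.inl ⟨h2, Or.inr ⟨hp, h⟩⟩)
    have h6 := card_ne_six F
    omega
  · intro h3 h
    exact hex (Or.inr (Or.inl ⟨h3, h⟩))
  · intro h4 h hp
    exact hex (Or.inr (Or.inr ⟨h4, h, hp⟩))


end Cfsg.Agent.S5692
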