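import Cfsg.Statements.S5697
import Cfsg.Agent.Lib.H7.OAPair2

set_option autoImplicit false
open Cfsg

namespace Cfsg.Agent.S5697

/-- Let F be a finite field with q elements, n ≥ 13 even, Q a non-degenerate quadratic form on F^n of plus type (some subspace of dimension n/2 is totally singular), and Ω the commutator subgroup of the isometry group of Q, viewed inside GL_n(F). Suppose n/2 is even and let D be a decomposition of F^n into two complementary subspaces of dimension n/2 on each of which Q vanishes. Then the elements of Ω preserving or interchanging the two subspaces form a maximal subgroup of Ω. -/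
theorem result {F : Type*} [Field F] [Fintype F] {n : ℕ} (hn : 13 ≤ n) (heven : Even n) (Q : (Fin n → F) → F) (hQ : Cfsg.Geo.IsNondegenerateQuadraticForm Q) (hplus : Cfsg.Geo.IsPlusTypeOn Q ⊤) (k : ℕ) (hk : 2 * k = n) (hke : Even k) (D : Fin 2 → Submodule F (Fin n → F)) (hD : Cfsg.Geo.IsMDecomposition k D) (hts : ∀ i, Cfsg.Geo.IsTotallySingularQuad Q (D i)) : Cfsg.Geo.IsMaximalIn (Cfsg.Geo.omegaGL Q) (Cfsg.Geo.decompositionStabilizer D ⊓ Cfsg.Geo.omegaGL Q) := by
  have hfr : Module.finrank F (Fin n → F) = n := by simp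
  obtain ⟨q, rfl⟩ : ∃ q : QuadraticForm F (Fin n → F), ⇑q = Q := ⟨H7.OABridge.ofFun hQ, rfl⟩
  have hnd : H48.QuadSplit.ND q := H7.OABridge.nd_of rfl hQ
  have h0 : Module.finrank F (D 0) = k := hD.finrank_eq 0
  have h1 : Module.finrank F (D 1) = k := hD.finrank_eq 1
  have m0 : H7.OAParity.MTS q (D 0) := ⟨hts 0, by omega⟩
  have m1 : H7.OAParity.MTS q (D 1) := ⟨hts 1, by omega⟩
  obtain ⟨r, hr⟩ := id hke
  have hc : IsCompl (D 0) (D 1) := by
    refine ⟨?_, ?_⟩
    · exact hD.indep.pairwiseDisjoint (by decide : (0 : Fin 2) ≠ 1)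
    · rw [codisjoint_iff]; exact H95.Bridge2.iSup_two D hD.iSup_eq_top
  have hP : ∀ g : (Fin n → F) ≃ₗ[F] (Fin n → F), H95.Bridge2.Perm2' (D 0) (D 1) g ↔ H7.OAPair.PP (D 0) (D 1) g :=
    fun g => H7.OAPair.perm_iff (by omega)
  refine H7.OABridge.isMaximalIn_omegaGL (Q := q) rfl (P := H7.OAPair.PP (D 0) (D 1))
    (fun g => (H95.Bridge2.mem_decomp_two (by omega)).trans (hP _)) ?_ ?_
  · obtain ⟨g, hg, -, hgP⟩ := H7.OAPair.exists_not_PP hnd m0 m1 hc (by omega)
    exact ⟨g, hg, hgP⟩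
  · intro M h2 h3 h4
    have S : H7.OAPair.Sit q (D 0) (D 1) M := ⟨hnd, m0, m1, hc, by omega, h2, h3⟩
    obtain ⟨s, hs, hs1, hs2⟩ := S.exists_swap (by rw [h0]; exact hke)
    exact S.maximal hs hs1 hs2 h4

end Cfsg.Agent.S5697
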