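import Cfsg.Statements.S5699
import Cfsg.Agent.Lib.H7.OANd2

set_option autoImplicit false
open Cfsg

namespace Cfsg.Agent.S5699

/-- Let F be a finite field with q elements, n ≥ 13 even, Q a non-degenerate quadratic form on F^n (of either type), and Ω the commutator subgroup of the isometry group of Q, viewed inside GL_n(F). Let D be a decomposition of F^n into two orthogonal subspaces of odd dimension n/2 on which the polar form is non-degenerate and which are not Q-isometric to each other. Then the elements of Ω permuting (necessarily fixing) the two subspaces form a maximal subgroup of Ω. -/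
theorem result {F : Type*} [Field F] [Fintype F] {n : ℕ} (hn : 13 ≤ n) (heven : Even n) (Q : (Fin n → F) → F) (hQ : Cfsg.Geo.IsNondegenerateQuadraticForm Q) (k : ℕ) (hk : 2 * k = n) (hko : Odd k) (D : Fin 2 → Submodule F (Fin n → F)) (hD : Cfsg.Geo.IsNondegenerateMDecomposition (QuadraticMap.polar Q) k D) (hni : ¬ Cfsg.Geo.AreIsometricFor Q (D 0) (D 1)) : Cfsg.Geo.IsMaximalIn (Cfsg.Geo.omegaGL Q) (Cfsg.Geo.decompositionStabilizer D ⊓ Cfsg.Geo.omegaGL Q) := by
  have hfr : Module.finrank F (Fin n → F) = n := by simp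
  have hcard : Nat.card F = Fintype.card F := Nat.card_eq_fintype_card
  obtain ⟨q, rfl⟩ : ∃ q : QuadraticForm F (Fin n → F), ⇑q = Q := ⟨H7.OABridge.ofFun hQ, rfl⟩
  have hnd : H48.QuadSplit.ND q := H7.OABridge.nd_of rfl hQ
  have hnd' : H48.QuadSplit.ND (q.restrict (D 0)) := H7.OANd.nd_of_on (hD.nondegenerate 0)
  have hpar := H48.QuadSplit.finrank_orth hnd (D 0)
  have h0 : Module.finrank F (D 0) = k := hD.decomp.finrank_eq 0
  have h1 : Module.finrank F (D 1) = k := hD.decomp.finrank_eq 1
  have hD1 : D 1 = H48.QuadSplit.orth q (D 0) := by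
    apply Submodule.eq_of_le_of_finrank_eq
    · intro x hx u hu
      exact hD.orthogonal 0 1 (by decide) u hu x hx
    · omega
  have hno : ∀ g ∈ H7.OA.O q, ¬ ∀ x ∈ D 1, g x ∈ D 0 := by
    intro g hg h
    apply hni
    have hinj : Function.Injective ((g : (Fin n → F) →ₗ[F] (Fin n → F)).restrict h) := by
      intro x y hxy
      exact Subtype.ext (g.injective (congrArg Subtype.val hxy))
    let e : D 1 ≃ₗ[F] D 0 := LinearEquiv.ofInjectiveOfFinrankEq _ hinj (by omega)
    have he : ∀ x : D 1, ((e x : D 0) : Fin n → F) = g x := fun x => rfl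
    refine ⟨e.symm, fun w => ?_⟩
    have := he (e.symm w)
    rw [LinearEquiv.apply_symm_apply] at this
    rw [this, H7.OA.mem_O.1 hg]
  have hno' : ∀ g ∈ H7.OA.O q, ¬ ∀ x ∈ D 0, g x ∈ D 1 := by
    intro g hg h
    apply hno g⁻¹ ((H7.OA.O q).inv_mem hg)
    intro x hx
    have hmap : (D 0).map (g : (Fin n → F) →ₗ[F] (Fin n → F)) = D 1 := by
      apply Submodule.eq_of_le_of_finrank_eq
      · rintro _ ⟨y, hy, rfl⟩; exact h y hy
      · rw [h1, ← h0]; exact LinearEquiv.finrank_map_eq g _
    rw [← hmap] at hx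
    obtain ⟨y, hy, rfl⟩ := hx
    have : g⁻¹ (g y) = y := H7.OA.inv_apply_apply g y
    change g⁻¹ (g y) ∈ D 0
    rw [this]; exact hy
  -- the decomposition stabiliser
  have hP : ∀ g ∈ H7.OA.Om q, (∃ σ : Equiv.Perm (Fin 2), ∀ i, (D i).map (g : (Fin n → F) →ₗ[F] (Fin n → F)) = D (σ i)) ↔
      H7.OABridge.Stab (D 0) g := by
    intro g hg
    have hgO := H7.OA.Om_le q hg
    constructor
    · rintro ⟨σ, hσ⟩
      have hs : σ 0 = 0 := by
        by_contra hne
        have h2 : σ 0 = 1 := by
          generalize σ 0 = i at hne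
          fin_cases i
          · exact absurd rfl hne
          · rfl
        refine hno' g hgO fun x hx => ?_
        have := hσ 0
        rw [h2] at this
        rw [← this]
        exact ⟨x, hx, rfl⟩
      apply H7.OAPar.stab_of
      intro x hx
      have := hσ 0
      rw [hs] at this
      rw [← this]
      exact ⟨x, hx, rfl⟩
    · intro hst
      have hst' := H7.OANd.stab_orth hgO hst
      rw [← hD1] at hst'
      have key : ∀ W : Submodule F (Fin n → F), H7.OABridge.Stab W g → W.map (g : (Fin n → F) →ₗ[F] (Fin n → F)) = W := by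
        intro W hW
        apply Submodule.eq_of_le_of_finrank_eq
        · rintro _ ⟨y, hy, rfl⟩; exact (hW y).1 hy
        · exact LinearEquiv.finrank_map_eq g _
      refine ⟨1, fun i => ?_⟩
      fin_cases i
      · exact key _ hst
      · exact key _ hst'
  have key := H7.OANd.max_nd hnd (by omega) hnd' ?_ ?_ (fun h => by omega) (fun h => by omega)
    (fun _ => by rw [← hD1]; exact hno)
  · refine H7.OABridge.isMaximalIn_omegaGL (Q := q) rfl
      (P := fun g => ∃ σ : Equiv.Perm (Fin 2), ∀ i, (D i).map (g : (Fin n → F) →ₗ[F] (Fin n → F)) = D (σ i))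
      (fun g => H95.Bridge.mem_decompositionStabilizer (D := D)) ?_ ?_
    · obtain ⟨g, hg, hgP⟩ := key.1
      exact ⟨g, hg, fun h => hgP ((hP g hg).1 h)⟩
    · intro M h2 h3 h4
      refine key.2 M (fun g hg hgS => h2 g hg ((hP g hg).2 hgS)) h3 ?_
      obtain ⟨g, hg, hgP⟩ := h4
      exact ⟨g, hg, fun h => hgP ((hP g (h3 hg)).2 h)⟩
  · intro h
    rw [h, finrank_bot] at h0
    omega
  · intro h
    rw [h, finrank_top] at h0
    omega

end Cfsg.Agent.S5699
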