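import Cfsg.Statements.S5701
import Cfsg.Agent.Lib.H7.ExtOBr
import Cfsg.Agent.Lib.H7.ExtBr
import Cfsg.Agent.Lib.H95.OBridge

set_option autoImplicit false
open Cfsg

namespace Cfsg.Agent.S5701


open H95.Bridge Module H7.ExtF H7.ExtO H7.ExtBr H95.OGeo H17.OrthAbs H48.QuadSplit H7.OLow H95.OSie
open scoped Matrix MatrixGroups

/-- Let F be a finite field with q elements, n ≥ 13 even, Q a non-degenerate quadratic form on F^n (of either type), and Ω the commutator subgroup of the isometry group of Q, viewed inside GL_n(F). Suppose q is odd. Let K be a subfield of the algebra of n × n matrices over F containing the scalars, of prime degree r over F with n/r ≥ 3, whose elements are self-adjoint for the polar form of Q. Then the elements of Ω normalising K form a maximal subgroup of Ω. -/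
theorem result {F : Type*} [Field F] [Fintype F] {n : ℕ} (hn : 13 ≤ n) (heven : Even n) (Q : (Fin n → F) → F) (hQ : Cfsg.Geo.IsNondegenerateQuadraticForm Q) (hodd : Odd (Fintype.card F)) (r : ℕ) (hr : r.Prime) (hnr : 3 * r ≤ n) (K : Subalgebra F (Matrix (Fin n) (Fin n) F)) (hK : Cfsg.Geo.IsFieldSubalgebra r K) (hsa : Cfsg.Geo.IsSelfAdjointFor (QuadraticMap.polar Q) K) : Cfsg.Geo.IsMaximalIn (Cfsg.Geo.omegaGL Q) (Cfsg.Geo.subalgebraNormalizer K ⊓ Cfsg.Geo.omegaGL Q) := by
  obtain ⟨Q', hQ'def, hQ'⟩ := H95.OBridge.exists_quad hQ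
  subst hQ'def
  have h2 : (2 : F) ≠ 0 := H95.OBridge.two_ne hodd
  have hV : finrank F (Fin n → F) = n := by
    rw [finrank_fintype_fun_eq_card]; simp
  obtain ⟨E, i1, i2, i3, i4, φ, h1, h2', h3, hEr⟩ := exists_model hK hr.pos
  have : FiniteDimensional F E := Module.finite_of_finrank_pos (by rw [hEr]; exact hr.pos)
  have : FiniteDimensional E (Fin n → F) := FiniteDimensional.right F E _
  have hfr := Module.finrank_mul_finrank F E (Fin n → F)
  rw [hEr, hV] at hfr
  obtain ⟨R, l0, h⟩ := exists_OE (F := F) (K := E) (V := Fin n → F) h2 hQ'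
    (fun k x y => by rw [h1, h1]; exact hsa _ (h2' k) x y)
  have hr2 := hr.two_le
  have hk : 4 ≤ finrank E (Fin n → F) := by
    by_contra hcon
    push Not at hcon
    have hk3 : finrank E (Fin n → F) = 3 := by
      have : 3 ≤ finrank E (Fin n → F) := by
        by_contra hcon'
        push Not at hcon'
        have : r * finrank E (Fin n → F) ≤ r * 2 := Nat.mul_le_mul_left _ (by omega)
        omega
      omega
    rw [hk3] at hfr
    have hev : Even r := by
      have h5 : Even (r * 3) := by rw [hfr]; exact heven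
      rcases Nat.even_mul.1 h5 with h6 | h6
      · exact h6
      · exact absurd h6 (by decide)
    have := (Nat.Prime.even_iff hr).1 hev
    omega
  have hcase : 3 ≤ finrank F E ∨ 7 ≤ finrank E (Fin n → F) := by
    rw [hEr]
    by_contra hcon
    push Not at hcon
    have hr' : r = 2 := by omega
    rw [hr'] at hfr
    omega
  have hsymm : ∀ x : (Fin n → F) ≃ₗ[F] (Fin n → F), toEq (Fin n) F ((toEq _ F).symm x) = x :=
    fun x => by rw [MulEquiv.apply_symm_apply]
  have hmem := H95.OBridge.mem_omegaGL Q'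
  apply isMaximalIn_of
  · obtain ⟨g, hg, e, he⟩ := h.exists_not_semi h2 hk (by rw [hEr]; exact hr2)
    refine ⟨(toEq _ F).symm g, ?_, ?_⟩
    · rw [hmem, hsymm]; exact hg
    · intro hn'
      obtain ⟨e', he'⟩ := semilin h1 h2' h3 hn' e
      obtain ⟨v, hv⟩ := he e'
      rw [hsymm] at he'
      exact hv (he' v)
  · intro M hHM hMK ⟨g, hg, hgS⟩
    have hMO : M.map (toEq (Fin n) F).toMonoidHom ≤ O Q' := by
      rintro _ ⟨x, hx, rfl⟩
      exact omega_le_O Q' ((hmem x).1 (hMK hx))
    refine le_of_map hmem (h.overgroup h2 hk (by rw [hEr]; exact hr) hcase ?_ hMO ?_)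
    · intro x hx
      rw [mem_map_toEq]
      refine hHM ⟨?_, ?_⟩
      · exact comm_mem_normalizer h1 h2' h3 (fun v e => by rw [hsymm]; exact HK_smul hx e v)
      · exact (hmem _).2 (by rw [hsymm]; exact h.HK_om hx)
    · refine ⟨toEq _ F g, ⟨g, hg, rfl⟩, ?_⟩
      by_contra hcon
      push Not at hcon
      exact hgS (mem_normalizer h1 h2' h3 (by omega) hcon)

end Cfsg.Agent.S5701
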