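import Cfsg.Statements.S5702
import Cfsg.Agent.Lib.H95.RatQB

set_option autoImplicit false
open Cfsg

namespace Cfsg.Agent.S5702

open H95.Bridge H95.OBridge H95.OGeo H95.RatQB H48.QuadSplit Module QuadraticMap


/-- Let F be a finite field with q elements, n ≥ 13 even, Q a non-degenerate quadratic form on F^n (of either type), and Ω the commutator subgroup of the isometry group of Q, viewed inside GL_n(F). Let F₀ be a subfield with |F| = |F₀| ^ r for a prime r, ζ a non-zero scalar and P an invertible matrix such that ζ·Q takes values in F₀ on the F₀-span of the columns of P. Then the elements of Ω lying in the subfield group of P (the conjugate by P of the product of GL_n(F₀) with the scalars) form a maximal subgroup of Ω. -/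
theorem result {F : Type*} [Field F] [Fintype F] {n : ℕ} (hn : 13 ≤ n) (heven : Even n) (Q : (Fin n → F) → F) (hQ : Cfsg.Geo.IsNondegenerateQuadraticForm Q) (F₀ : Subfield F) (r : ℕ) (hr : r.Prime) (hcard : Fintype.card F = Nat.card F₀ ^ r) (P : Matrix.GeneralLinearGroup (Fin n) F) (ζ : F) (hζ : ζ ≠ 0) (hP : Cfsg.Geo.IsQuadFormRationalStructure (fun v : Fin n → F => ζ * Q v) F₀ P) : Cfsg.Geo.IsMaximalIn (Cfsg.Geo.omegaGL Q) (Cfsg.Geo.subfieldSubgroup F₀ P ⊓ Cfsg.Geo.omegaGL Q) := by
  obtain ⟨Q', rfl, hnd⟩ := exists_quad hQ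
  have hnd' : ND (ζ • Q') := by
    intro x hx
    apply hnd
    intro w
    have h1 := hx w
    rw [coeFn_smul, polar_smul, smul_eq_mul] at h1
    exact (mul_eq_zero.1 h1).resolve_left hζ
  have e : Cfsg.Geo.omegaGL (⇑Q') = Cfsg.Geo.omegaGL (⇑(ζ • Q')) := by
    have e1 : Cfsg.isometryGroup F (⇑Q') = Cfsg.isometryGroup F (⇑(ζ • Q')) := by
      ext g
      rw [mem_iso, mem_iso, H17.OrthAbs.mem_O, H17.OrthAbs.mem_O]
      constructor
      · intro h x
        rw [coeFn_smul, Pi.smul_apply, Pi.smul_apply, h]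
      · intro h x
        have h1 := h x
        rw [coeFn_smul, Pi.smul_apply, Pi.smul_apply, smul_eq_mul, smul_eq_mul] at h1
        exact mul_left_cancel₀ hζ h1
    rw [omegaGL_eq, omegaGL_eq, e1]
  rw [e]
  exact rat_max hnd' (by rw [Fintype.card_fin]; omega) hr
    (by rw [Nat.card_eq_fintype_card]; exact hcard) hP


end Cfsg.Agent.S5702
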