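import Cfsg.Statements.S5775
import Cfsg.Agent.Lib.H97.AschElim
import Cfsg.Agent.Lib.H97.AschArith
import Cfsg.Agent.Lib.H61.AschE8

set_option autoImplicit false
open Cfsg

namespace Cfsg.Agent.S5775

/-- Every maximal subgroup of SL_3(q) is of one of the listed geometric types or lies in the residual class. Let F be a finite field with q elements and H a maximal subgroup of SL_3(F) (viewed inside GL_3(F)). Then H is the intersection with SL_3(F) of one of: the stabiliser of a proper non-zero subspace; for q ≥ 5, the stabiliser of a decomposition of F^3 into three independent lines; for q ≠ 4, the normaliser of a degree-3 subfield of the matrix algebra; a subfield group for a subfield F₀ with |F| = |F₀|^r, r prime; for q = p ≡ 1 mod 3 prime, the normaliser of an absolutely irreducible 3-subgroup R of exponent 3 with centre of order 3, all of whose characteristic abelian subgroups are cyclic, of order 3^(1+2m) for some m ≥ 1, with F the smallest field of characteristic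 p containing the cube roots of unity (so R is extraspecial of order 27); for q odd, the similarity group of a non-degenerate quadratic form; the similarity group of a non-degenerate unitary form — or else H lies in the residual class of the linear case (modulo scalars H is almost simple, with absolutely irreducible perfect socle preimage realisable over no proper subfield and fixing no non-degenerate quadratic, symplectic or unitary form). -/
theorem result {F : Type*} [Field F] [Fintype F] (H : Subgroup (Matrix.GeneralLinearGroup (Fin 3) F)) (hH : Cfsg.Geo.IsMaximalIn (Cfsg.Geo.specialLinear (Fin 3) F) H) :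
    (∃ W : Submodule F (Fin 3 → F), W ≠ ⊥ ∧ W ≠ ⊤ ∧ H = Cfsg.Geo.subspaceStabilizer W ⊓ Cfsg.Geo.specialLinear (Fin 3) F) ∨
    (5 ≤ Fintype.card F ∧ ∃ D : Fin 3 → Submodule F (Fin 3 → F), Cfsg.Geo.IsMDecomposition 1 D ∧ H = Cfsg.Geo.decompositionStabilizer D ⊓ Cfsg.Geo.specialLinear (Fin 3) F) ∨
    (Fintype.card F ≠ 4 ∧ ∃ K : Subalgebra F (Matrix (Fin 3) (Fin 3) F), Cfsg.Geo.IsFieldSubalgebra 3 K ∧ H = Cfsg.Geo.subalgebraNormalizer K ⊓ Cfsg.Geo.specialLinear (Fin 3) F) ∨
    (∃ (F₀ : Subfield F) (r : ℕ) (P : Matrix.GeneralLinearGroup (Fin 3) F), r.Prime ∧ Fintype.card F = Nat.card F₀ ^ r ∧ H = Cfsg.Geo.subfieldSubgroup F₀ P ⊓ Cfsg.Geo.specialLinear (Fin 3) F) ∨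
    (∃ (p : ℕ) (R : Subgroup (Matrix.GeneralLinearGroup (Fin 3) F)), p.Prime ∧ Fintype.card F = p ∧ p % 3 = 1 ∧ Cfsg.Geo.IsLinearSymplecticTypeData 3 R ∧ H = Cfsg.Geo.subgroupNormalizer R ⊓ Cfsg.Geo.specialLinear (Fin 3) F) ∨
    (Odd (Fintype.card F) ∧ ∃ Q : (Fin 3 → F) → F, Cfsg.Geo.IsNondegenerateQuadraticForm Q ∧ H = Cfsg.Geo.quadSimilarityGroup Q ⊓ Cfsg.Geo.specialLinear (Fin 3) F) ∨
    (∃ (σ : F ≃+* F) (f : (Fin 3 → F) → (Fin 3 → F) → F), Cfsg.Geo.IsUnitaryForm σ f ∧ H = Cfsg.Geo.similarityGroup f ⊓ Cfsg.Geo.specialLinear (Fin 3) F) ∨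
    Cfsg.Geo.InLinearResidualClass H := by
  have h3n : 3 ≤ 3 := le_refl 3
  rcases H97.AschCases.max_cases h3n hH with
    ⟨W, h1, h2, h3⟩ | ⟨t, m, D, hD, ht, hm, htm, hHD⟩ | ⟨r, K, hr, hrn, hK, hHK⟩ | ⟨n₁, n₂, e, P, h1, h2, h3, h4⟩ |
    ⟨F₀, r, P, hr, h1, h2⟩ | ⟨r, R, h1, ⟨k, hk, hrk⟩, h2⟩ | ⟨m, t, e, P, h1, h2, h3, h4⟩ | ⟨f, h1, h2, h3⟩ | ⟨σ, f, h1, h2⟩ |
    ⟨hodd, Q, h1, h2⟩ | h
  · exact Or.inl ⟨W, h1, h2, h3⟩
  · have hm' : m ≤ 1 := by nlinarith
    obtain rfl : m = 1 := by omega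
    obtain rfl : t = 3 := by omega
    rcases H97.AschCases.lines_small h3n hH hD hHD with h | h | ⟨σ, f, h1, h2⟩ | ⟨hodd, Q, h1, h2⟩
    · exact Or.inl h
    · exact Or.inr (Or.inl ⟨h, D, hD, hHD⟩)
    · iterate 6 right
      left
      exact ⟨σ, f, h1, h2⟩
    · iterate 5 right
      left
      exact ⟨hodd, Q, h1, h2⟩
  · obtain rfl : r = 3 := (Nat.prime_dvd_prime_iff_eq hr Nat.prime_three).mp hrn
    by_cases hq : Fintype.card F = 4
    · obtain ⟨F₀, P, h0, hc, hle⟩ := H61.AschE8.field_le_subfield hq hK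
      iterate 3 right
      left
      refine ⟨F₀, 2, P, Nat.prime_two, hc, ?_⟩
      exact H97.AschCases.eq_of_max hH (by rw [hHK]; exact hle)
        (H97.AschSL3.not_le_subfield (by rw [Fintype.card_fin]; norm_num) h0 P)
    · exact Or.inr (Or.inr (Or.inl ⟨hq, K, hK, hHK⟩))
  · exfalso; nlinarith
  · iterate 3 right
    left
    exact ⟨F₀, r, P, hr, h1, h2⟩
  · have hr3 : r = 3 := by
      have hd : r ∣ 3 := by rw [hrk]; exact dvd_pow_self r (by omega)
      exact (Nat.prime_dvd_prime_iff_eq h1.symplecticType.prime Nat.prime_three).mp hd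
    subst hr3
    obtain ⟨p, hp1, hp2, hp3⟩ := H97.AschArith.arith_three h1
    iterate 4 right
    left
    exact ⟨p, R, hp1, hp2, hp3, h1, h2⟩
  · exfalso
    have h5 : m ^ 2 ≤ m ^ t := Nat.pow_le_pow_right (by omega) h2
    nlinarith
  · exfalso
    exact absurd h2 (by decide)
  · iterate 6 right
    left
    exact ⟨σ, f, h1, h2⟩
  · iterate 5 right
    left
    exact ⟨hodd, Q, h1, h2⟩
  · iterate 7 right
    exact h

end Cfsg.Agent.S5775
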