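import Cfsg.Statements.S5778
import Cfsg.Agent.Lib.H97.Asch3Type
import Cfsg.Agent.Lib.H97.Asch3Fld2
import Cfsg.Agent.Lib.H17.U35A
import Cfsg.Agent.Lib.H25.U35B
import Cfsg.Agent.Lib.H19.U35C
import Cfsg.Agent.Lib.H51.U3Sub

set_option autoImplicit false
open Cfsg

namespace Cfsg.Agent.S5778

/-- Every maximal subgroup of SU_3(q), q ≥ 3, is of one of the listed geometric types or lies in the residual class. Let F be the field with q² elements, f the standard unitary form Σ u_i v_i^q on F^3, and H a maximal subgroup of SU_3(q) (the determinant-one isometries of f, inside GL_3(F)). Then H is the intersection with SU_3(q) of one of: the stabiliser of a non-zero subspace on which f vanishes; the stabiliser of a non-degenerate 1-space; for q ≠ 5, the stabiliser of a decomposition into three mutually orthogonal non-degenerate 1-spaces; for q ≠ 3, 5, the normaliser of an adjoint-closed degree-3 subfield of the matrix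 algebra; a subfield group of odd prime index whose F₀-structure carries f; for q odd, q ≥ 7, a subfield group of index 2 whose F₀-structure carries f; for q = p ≡ 2 mod 3 prime with p ≥ 11, the normaliser of an absolutely irreducible subgroup of order 27 with centre of order 3, exponent 3 and all characteristic abelian subgroups cyclic, contained in the similarity group of f — or else H lies in the residual class of the unitary case. -/
theorem result {F : Type*} [Field F] [Fintype F] (q : ℕ) (hF : Fintype.card F = q ^ 2) (hq : 3 ≤ q) (H : Subgroup (Matrix.GeneralLinearGroup (Fin 3) F)) (hH : Cfsg.Geo.IsMaximalIn (Cfsg.GU 3 F q ⊓ Cfsg.Geo.specialLinear (Fin 3) F) H) :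
    (∃ W : Submodule F (Fin 3 → F), W ≠ ⊥ ∧ Cfsg.Geo.IsTotallySingularFor (Cfsg.hermForm 3 F q) W ∧ H = Cfsg.Geo.subspaceStabilizer W ⊓ (Cfsg.GU 3 F q ⊓ Cfsg.Geo.specialLinear (Fin 3) F)) ∨
    (∃ W : Submodule F (Fin 3 → F), W ≠ ⊥ ∧ Cfsg.Geo.IsNondegenerateOn (Cfsg.hermForm 3 F q) W ∧ 2 * Module.finrank F W < 3 ∧ H = Cfsg.Geo.subspaceStabilizer W ⊓ (Cfsg.GU 3 F q ⊓ Cfsg.Geo.specialLinear (Fin 3) F)) ∨
    (q ≠ 5 ∧ ∃ D : Fin 3 → Submodule F (Fin 3 → F), Cfsg.Geo.IsNondegenerateMDecomposition (Cfsg.hermForm 3 F q) 1 D ∧ H = Cfsg.Geo.decompositionStabilizer D ⊓ (Cfsg.GU 3 F q ⊓ Cfsg.Geo.specialLinear (Fin 3) F)) ∨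
    (q ≠ 3 ∧ q ≠ 5 ∧ ∃ K : Subalgebra F (Matrix (Fin 3) (Fin 3) F), Cfsg.Geo.IsFieldSubalgebra 3 K ∧ Cfsg.Geo.IsAdjointClosedFor (Cfsg.hermForm 3 F q) K ∧ H = Cfsg.Geo.subalgebraNormalizer K ⊓ (Cfsg.GU 3 F q ⊓ Cfsg.Geo.specialLinear (Fin 3) F)) ∨
    (∃ (F₀ : Subfield F) (r : ℕ) (P : Matrix.GeneralLinearGroup (Fin 3) F), r.Prime ∧ Odd r ∧ Fintype.card F = Nat.card F₀ ^ r ∧ Cfsg.Geo.IsFormRationalStructure (Cfsg.hermForm 3 F q) F₀ 1 P ∧ H = Cfsg.Geo.subfieldSubgroup F₀ P ⊓ (Cfsg.GU 3 F q ⊓ Cfsg.Geo.specialLinear (Fin 3) F)) ∨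
    (Odd q ∧ 7 ≤ q ∧ ∃ (F₀ : Subfield F) (P : Matrix.GeneralLinearGroup (Fin 3) F), Fintype.card F = Nat.card F₀ ^ 2 ∧ Cfsg.Geo.IsFormRationalStructure (Cfsg.hermForm 3 F q) F₀ 1 P ∧ H = Cfsg.Geo.subfieldSubgroup F₀ P ⊓ (Cfsg.GU 3 F q ⊓ Cfsg.Geo.specialLinear (Fin 3) F)) ∨
    (∃ (p : ℕ) (R : Subgroup (Matrix.GeneralLinearGroup (Fin 3) F)), p.Prime ∧ q = p ∧ p % 3 = 2 ∧ 11 ≤ p ∧ Cfsg.Geo.IsSymplecticTypeGroup 3 R ∧ Cfsg.Geo.ActsAbsolutelyIrreducibly (Cfsg.Geo.matrixSet R) ∧ R ≤ Cfsg.Geo.similarityGroup (Cfsg.hermForm 3 F q) ∧ Nat.card R = 27 ∧ Nat.card (Subgroup.center R) = 3 ∧ H = Cfsg.Geo.subgroupNormalizer R ⊓ (Cfsg.GU 3 F q ⊓ Cfsg.Geo.specialLinear (Fin 3) F)) ∨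
    Cfsg.Geo.InUnitaryResidualClass H := by
  obtain ⟨σ, hctx⟩ := H97.AschNCU.exists_ctx (F := F) hF 3
  have key : ∀ {X : Subgroup (Matrix.GeneralLinearGroup (Fin 3) F)}, H ≤ X →
      ¬ Cfsg.GU 3 F q ⊓ Cfsg.Geo.specialLinear (Fin 3) F ≤ X →
      H = X ⊓ (Cfsg.GU 3 F q ⊓ Cfsg.Geo.specialLinear (Fin 3) F) :=
    fun hle hnot => H97.AschCases.eq_of_max hH hle hnot
  rcases H97.Asch3Cases.gu3_cases hF hq hH with ⟨W, h1, h2, h3⟩ | ⟨W, h1, h2, h3, h4⟩ |
    ⟨D, h1, h2⟩ | ⟨K, h1, h2, h3⟩ | ⟨F₀, r, P, h1, h2, h3, h4, h5⟩ | ⟨h1, F₀, P, h2, h3, h4⟩ |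
    ⟨p, R, h1, hc, h2, h3, h4, h5, h6, h7, h8, h9⟩ | h
  · left
    exact ⟨W, h1, h2, h3⟩
  · right; left
    exact ⟨W, h1, h2, h3, h4⟩
  · by_cases hq5 : q = 5
    · exact (H17.U35A.no_lines hctx hq5 h1 hH (h2.le.trans inf_le_left)).elim
    · iterate 2 right
      left
      exact ⟨hq5, D, h1, h2⟩
  · by_cases hq35 : q = 3 ∨ q = 5
    · exact (H97.Asch3Fld2.no_field hctx hq35 h1 h2 hH h3).elim
    · iterate 3 right
      left
      push Not at hq35
      exact ⟨hq35.1, hq35.2, K, h1, h2, h3⟩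
  · iterate 4 right
    left
    exact ⟨F₀, r, P, h1, h2, h3, h4, h5⟩
  · by_cases hq5 : q = 5
    · exact (H25.U35B.no_subfield hctx hq5 h2 h3 hH (h4.le.trans inf_le_left)).elim
    · by_cases hq3 : q = 3
      · obtain ⟨D, hD, hle⟩ := H51.U3Sub.subfield_lines hctx hq3 h2 h3
        iterate 2 right
        left
        exact ⟨hq5, D, hD, key (h4.le.trans hle) (hctx.not_lines (by norm_num) (Or.inl hq) hD)⟩
      · iterate 5 right
        left
        refine ⟨h1, ?_, F₀, P, h2, h3, h4⟩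
        obtain ⟨k, hk⟩ := h1
        omega
  · by_cases hq5 : q = 5
    · exact (H19.U35C.no_type hctx hq5 h4 h5 h6 h7 h8 hH h9).elim
    · iterate 6 right
      left
      have hp11 : 11 ≤ p := by
        rw [h2] at hq hq5
        by_contra hlt
        have hp10 : p < 11 := by omega
        interval_cases p
        all_goals first
          | omega
          | exact absurd h1 (by decide)
      exact ⟨p, R, h1, h2, h3, hp11, h4, h5, h6, h7, h8, key h9
        (H97.Asch3Type.not_type3 hctx h1 (by omega) h3 h5 h7)⟩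
  · iterate 7 right
    exact h

end Cfsg.Agent.S5778
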