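import Cfsg.Statements.S5781
import Cfsg.Agent.Lib.H97.AschElim
import Cfsg.Agent.Lib.H97.AschArith
import Cfsg.Agent.Lib.H61.AschE6

set_option autoImplicit false
open Cfsg

namespace Cfsg.Agent.S5781

/-- Every maximal subgroup of SL_4(q) is of one of the listed geometric types or lies in the residual class. Let F be a finite field with q elements and H a maximal subgroup of SL_4(F) (inside GL_4(F)). Then H is the intersection with SL_4(F) of one of: the stabiliser of a proper non-zero subspace; for q ≥ 7, the stabiliser of a decomposition into four independent lines; for q ≥ 4, the stabiliser of a decomposition into two independent planes; the normaliser of a degree-2 subfield of the matrix algebra; a subfield group for a subfield F₀ with |F| = |F₀|^r, r prime; for q = p ≡ 1 mod 4 prime, the normaliser of an absolutely irreducible 2-subgroup R of exponent 4 with centre of order 4, all of whose characteristic abelian subgroups are cyclic, of order 2^(2+2m) for some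 m (here |R| = 64), with 4 dividing p − 1; for q odd, the similarity group of a non-degenerate quadratic form; the similarity group of a non-degenerate symplectic form; the similarity group of a non-degenerate unitary form — or else H lies in the residual class of the linear case. -/
theorem result {F : Type*} [Field F] [Fintype F] (H : Subgroup (Matrix.GeneralLinearGroup (Fin 4) F)) (hH : Cfsg.Geo.IsMaximalIn (Cfsg.Geo.specialLinear (Fin 4) F) H) :
    (∃ W : Submodule F (Fin 4 → F), W ≠ ⊥ ∧ W ≠ ⊤ ∧ H = Cfsg.Geo.subspaceStabilizer W ⊓ Cfsg.Geo.specialLinear (Fin 4) F) ∨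
    (7 ≤ Fintype.card F ∧ ∃ D : Fin 4 → Submodule F (Fin 4 → F), Cfsg.Geo.IsMDecomposition 1 D ∧ H = Cfsg.Geo.decompositionStabilizer D ⊓ Cfsg.Geo.specialLinear (Fin 4) F) ∨
    (4 ≤ Fintype.card F ∧ ∃ D : Fin 2 → Submodule F (Fin 4 → F), Cfsg.Geo.IsMDecomposition 2 D ∧ H = Cfsg.Geo.decompositionStabilizer D ⊓ Cfsg.Geo.specialLinear (Fin 4) F) ∨
    (∃ K : Subalgebra F (Matrix (Fin 4) (Fin 4) F), Cfsg.Geo.IsFieldSubalgebra 2 K ∧ H = Cfsg.Geo.subalgebraNormalizer K ⊓ Cfsg.Geo.specialLinear (Fin 4) F) ∨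
    (∃ (F₀ : Subfield F) (r : ℕ) (P : Matrix.GeneralLinearGroup (Fin 4) F), r.Prime ∧ Fintype.card F = Nat.card F₀ ^ r ∧ H = Cfsg.Geo.subfieldSubgroup F₀ P ⊓ Cfsg.Geo.specialLinear (Fin 4) F) ∨
    (∃ (p : ℕ) (R : Subgroup (Matrix.GeneralLinearGroup (Fin 4) F)), p.Prime ∧ Fintype.card F = p ∧ p % 4 = 1 ∧ Cfsg.Geo.IsLinearSymplecticTypeData 2 R ∧ H = Cfsg.Geo.subgroupNormalizer R ⊓ Cfsg.Geo.specialLinear (Fin 4) F) ∨
    (Odd (Fintype.card F) ∧ ∃ Q : (Fin 4 → F) → F, Cfsg.Geo.IsNondegenerateQuadraticForm Q ∧ H = Cfsg.Geo.quadSimilarityGroup Q ⊓ Cfsg.Geo.specialLinear (Fin 4) F) ∨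
    (∃ f : (Fin 4 → F) → (Fin 4 → F) → F, Cfsg.Geo.IsSymplecticForm f ∧ H = Cfsg.Geo.similarityGroup f ⊓ Cfsg.Geo.specialLinear (Fin 4) F) ∨
    (∃ (σ : F ≃+* F) (f : (Fin 4 → F) → (Fin 4 → F) → F), Cfsg.Geo.IsUnitaryForm σ f ∧ H = Cfsg.Geo.similarityGroup f ⊓ Cfsg.Geo.specialLinear (Fin 4) F) ∨
    Cfsg.Geo.InLinearResidualClass H := by
  have h3n : 3 ≤ 4 := by norm_num
  rcases H97.AschCases.max_cases h3n hH with
    ⟨W, h1, h2, h3⟩ | ⟨t, m, D, hD, ht, hm, htm, hHD⟩ | ⟨r, K, hr, hrn, hK, hHK⟩ | ⟨n₁, n₂, e, P, h1, h2, h3, h4⟩ |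
    ⟨F₀, r, P, hr, h1, h2⟩ | ⟨r, R, h1, ⟨k, hk, hrk⟩, h2⟩ | ⟨m, t, e, P, h1, h2, h3, h4⟩ | ⟨f, h1, h2, h3⟩ | ⟨σ, f, h1, h2⟩ |
    ⟨hodd, Q, h1, h2⟩ | h
  · exact Or.inl ⟨W, h1, h2, h3⟩
  · have hm' : m ≤ 2 := by nlinarith
    interval_cases m
    · obtain rfl : t = 4 := by omega
      rcases H97.AschCases.lines_small h3n hH hD hHD with h | h | ⟨σ, f, h1, h2⟩ | ⟨hodd, Q, h1, h2⟩
      · exact Or.inl h
      · by_cases h7 : 7 ≤ Fintype.card F
        · exact Or.inr (Or.inl ⟨h7, D, hD, hHD⟩)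
        · have h56 : Fintype.card F = 5 ∨ Fintype.card F = 6 := by omega
          rcases h56 with hq | hq
          · obtain ⟨R, hR, hle, hnot⟩ := H61.AschE6.frame_le hq hD
            iterate 5 right
            left
            exact ⟨5, R, by norm_num, hq, by norm_num, hR, H97.AschCases.eq_of_max hH (by rw [hHD]; exact hle) hnot⟩
          · exfalso
            obtain ⟨p, hp⟩ := CharP.exists F
            obtain ⟨m, hpp, hcard⟩ := FiniteField.card F p
            rw [hq] at hcard
            have h2 : 2 ∣ p ^ (m : ℕ) := by rw [← hcard]; norm_num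
            have h3 : 3 ∣ p ^ (m : ℕ) := by rw [← hcard]; norm_num
            have h2' := (Nat.prime_dvd_prime_iff_eq Nat.prime_two hpp).mp (Nat.prime_two.dvd_of_dvd_pow h2)
            have h3' := (Nat.prime_dvd_prime_iff_eq Nat.prime_three hpp).mp (Nat.prime_three.dvd_of_dvd_pow h3)
            omega
      · iterate 8 right
        left
        exact ⟨σ, f, h1, h2⟩
      · iterate 6 right
        left
        exact ⟨hodd, Q, h1, h2⟩
    · obtain rfl : t = 2 := by omega
      rcases H97.AschElim.planes_four hH hD hHD with h | ⟨f, h1, h2⟩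
      · exact Or.inr (Or.inr (Or.inl ⟨h, D, hD, hHD⟩))
      · iterate 7 right
        left
        exact ⟨f, h1, h2⟩
  · have hr2 : r = 2 := by
      have : r ∣ 2 ^ 2 := by simpa using hrn
      exact (Nat.prime_dvd_prime_iff_eq hr Nat.prime_two).mp (hr.dvd_of_dvd_pow this)
    subst hr2
    iterate 3 right
    left
    exact ⟨K, hK, hHK⟩
  · exfalso; nlinarith
  · iterate 4 right
    left
    exact ⟨F₀, r, P, hr, h1, h2⟩
  · have hr2 : r = 2 := by
      have hd : r ∣ 2 ^ 2 := by
        have : r ∣ 4 := by rw [hrk]; exact dvd_pow_self r (by omega)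
        simpa using this
      exact (Nat.prime_dvd_prime_iff_eq h1.symplecticType.prime Nat.prime_two).mp (h1.symplecticType.prime.dvd_of_dvd_pow hd)
    subst hr2
    obtain ⟨p, hp1, hp2, hp3⟩ := H97.AschArith.data_two (by rw [Fintype.card_fin]; norm_num) h1
    iterate 5 right
    left
    exact ⟨p, R, hp1, hp2, hp3, h1, h2⟩
  · exfalso
    have h5 : m ^ 2 ≤ m ^ t := Nat.pow_le_pow_right (by omega) h2
    nlinarith
  · iterate 7 right
    left
    exact ⟨f, h1, h3⟩
  · iterate 8 right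
    left
    exact ⟨σ, f, h1, h2⟩
  · iterate 6 right
    left
    exact ⟨hodd, Q, h1, h2⟩
  · iterate 9 right
    exact h

end Cfsg.Agent.S5781
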