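import Cfsg.Statements.S5784
import Cfsg.Agent.Lib.H97.AschPauli
import Cfsg.Agent.Lib.H97.AschRow
import Cfsg.Agent.Lib.H97.AschURow

set_option autoImplicit false
open Cfsg

namespace Cfsg.Agent.S5784

/-- Every maximal subgroup of SU_4(q) is of one of the listed geometric types or lies in the residual class. Let F be the field with q² elements, f the standard unitary form Σ u_i v_i^q on F^4, and H a maximal subgroup of SU_4(q) (inside GL_4(F)). Then H is the intersection with SU_4(q) of one of: the stabiliser of a non-zero subspace on which f vanishes; the stabiliser of a non-degenerate 1-space; for q ≠ 3, the stabiliser of a decomposition into four mutually orthogonal non-degenerate 1-spaces; for q ≥ 3, of a decomposition into two orthogonal non-degenerate 2-spaces; for q ≥ 4, of a decomposition into two totally isotropic 2-spaces; a subfield group of odd prime index whose F₀-structure carries f; a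 subfield group of index 2 whose F₀-structure carries ζ f, vanishing on pairs (u, u), for some non-zero ζ with ζ + ζ^q = 0; for q odd, a subfield group of index 2 whose F₀-structure carries f; for q = p ≡ 3 mod 4 prime, the normaliser of an absolutely irreducible symplectic-type 2-group of exponent 4, order 64 and centre of order 4 inside the similarity group of f — or else H lies in the residual class of the unitary case. -/
theorem result {F : Type*} [Field F] [Fintype F] (q : ℕ) (hF : Fintype.card F = q ^ 2) (H : Subgroup (Matrix.GeneralLinearGroup (Fin 4) F)) (hH : Cfsg.Geo.IsMaximalIn (Cfsg.GU 4 F q ⊓ Cfsg.Geo.specialLinear (Fin 4) F) H) :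
    (∃ W : Submodule F (Fin 4 → F), W ≠ ⊥ ∧ Cfsg.Geo.IsTotallySingularFor (Cfsg.hermForm 4 F q) W ∧ H = Cfsg.Geo.subspaceStabilizer W ⊓ (Cfsg.GU 4 F q ⊓ Cfsg.Geo.specialLinear (Fin 4) F)) ∨
    (∃ W : Submodule F (Fin 4 → F), W ≠ ⊥ ∧ Cfsg.Geo.IsNondegenerateOn (Cfsg.hermForm 4 F q) W ∧ 2 * Module.finrank F W < 4 ∧ H = Cfsg.Geo.subspaceStabilizer W ⊓ (Cfsg.GU 4 F q ⊓ Cfsg.Geo.specialLinear (Fin 4) F)) ∨
    (q ≠ 3 ∧ ∃ D : Fin 4 → Submodule F (Fin 4 → F), Cfsg.Geo.IsNondegenerateMDecomposition (Cfsg.hermForm 4 F q) 1 D ∧ H = Cfsg.Geo.decompositionStabilizer D ⊓ (Cfsg.GU 4 F q ⊓ Cfsg.Geo.specialLinear (Fin 4) F)) ∨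
    (3 ≤ q ∧ ∃ D : Fin 2 → Submodule F (Fin 4 → F), Cfsg.Geo.IsNondegenerateMDecomposition (Cfsg.hermForm 4 F q) 2 D ∧ H = Cfsg.Geo.decompositionStabilizer D ⊓ (Cfsg.GU 4 F q ⊓ Cfsg.Geo.specialLinear (Fin 4) F)) ∨
    (4 ≤ q ∧ ∃ D : Fin 2 → Submodule F (Fin 4 → F), Cfsg.Geo.IsMDecomposition 2 D ∧ (∀ i, Cfsg.Geo.IsTotallySingularFor (Cfsg.hermForm 4 F q) (D i)) ∧ H = Cfsg.Geo.decompositionStabilizer D ⊓ (Cfsg.GU 4 F q ⊓ Cfsg.Geo.specialLinear (Fin 4) F)) ∨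
    (∃ (F₀ : Subfield F) (r : ℕ) (P : Matrix.GeneralLinearGroup (Fin 4) F), r.Prime ∧ Odd r ∧ Fintype.card F = Nat.card F₀ ^ r ∧ Cfsg.Geo.IsFormRationalStructure (Cfsg.hermForm 4 F q) F₀ 1 P ∧ H = Cfsg.Geo.subfieldSubgroup F₀ P ⊓ (Cfsg.GU 4 F q ⊓ Cfsg.Geo.specialLinear (Fin 4) F)) ∨
    (∃ (F₀ : Subfield F) (P : Matrix.GeneralLinearGroup (Fin 4) F) (ζ : F), Fintype.card F = Nat.card F₀ ^ 2 ∧ ζ ≠ 0 ∧ ζ + ζ ^ q = 0 ∧ Cfsg.Geo.IsFormRationalStructure (Cfsg.hermForm 4 F q) F₀ ζ P ∧ (∀ u : Fin 4 → F, (∀ i, u i ∈ F₀) → (Cfsg.hermForm 4 F q) (Matrix.mulVec (P : Matrix (Fin 4) (Fin 4) F) u) (Matrix.mulVec (P : Matrix (Fin 4) (Fin 4) F) u) = 0) ∧ H = Cfsg.Geo.subfieldSubgroup F₀ P ⊓ (Cfsg.GU 4 F q ⊓ Cfsg.Geo.specialLinear (Fin 4) F)) ∨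
    (Odd q ∧ ∃ (F₀ : Subfield F) (P : Matrix.GeneralLinearGroup (Fin 4) F), Fintype.card F = Nat.card F₀ ^ 2 ∧ Cfsg.Geo.IsFormRationalStructure (Cfsg.hermForm 4 F q) F₀ 1 P ∧ H = Cfsg.Geo.subfieldSubgroup F₀ P ⊓ (Cfsg.GU 4 F q ⊓ Cfsg.Geo.specialLinear (Fin 4) F)) ∨
    (∃ (p : ℕ) (R : Subgroup (Matrix.GeneralLinearGroup (Fin 4) F)), p.Prime ∧ q = p ∧ p % 4 = 3 ∧ Cfsg.Geo.IsSymplecticTypeGroup 2 R ∧ Cfsg.Geo.ActsAbsolutelyIrreducibly (Cfsg.Geo.matrixSet R) ∧ R ≤ Cfsg.Geo.similarityGroup (Cfsg.hermForm 4 F q) ∧ Nat.card R = 64 ∧ Nat.card (Subgroup.center R) = 4 ∧ H = Cfsg.Geo.subgroupNormalizer R ⊓ (Cfsg.GU 4 F q ⊓ Cfsg.Geo.specialLinear (Fin 4) F)) ∨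
    Cfsg.Geo.InUnitaryResidualClass H := by
  obtain ⟨σ, hctx⟩ := H97.AschNCU.exists_ctx (F := F) hF 4
  have hq2 := hctx.two_le
  rcases H97.AschUCases.gu_cases hF (by norm_num) hH with ⟨W, h1, h2, h3⟩ | ⟨W, h1, h2, h3, h4⟩ |
    ⟨t, k, D, h1, h2, h3, h4, h5⟩ | ⟨k, D, h1, h2, h3, h4⟩ | ⟨r, K, h1, h2, h3, h4, h5, h6⟩ |
    ⟨n₁, n₂, e, P, f₁, f₂, h1, h2, h3, h4, h5, h6, h7⟩ |
    ⟨F₀, r, P, h1, h2, h3, h4, h5⟩ | ⟨h1, F₀, P, h2, h3, h4⟩ | ⟨h1, F₀, P, ζ, h2, h3, h4, h5, h6, h7⟩ |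
    ⟨r, R, p, j, k, h1, h2, h3, h4, h5, h6, h7, h8, h9, h10⟩ |
    ⟨k, t, e, P, f₁, h1, h2, h3, h4, h5, h6, h7⟩ | h
  · left
    exact ⟨W, h1, h2, h3⟩
  · iterate 1 right
    left
    exact ⟨W, h1, h2, h3, h4⟩
  · have key : ∀ {X : Subgroup (Matrix.GeneralLinearGroup (Fin 4) F)}, H ≤ X →
        ¬ Cfsg.GU 4 F q ⊓ Cfsg.Geo.specialLinear (Fin 4) F ≤ X →
        H = X ⊓ (Cfsg.GU 4 F q ⊓ Cfsg.Geo.specialLinear (Fin 4) F) :=
      fun hle hnot => H97.AschCases.eq_of_max hH hle hnot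
    have hlines : ∀ {D : Fin 4 → Submodule F (Fin 4 → F)},
        Cfsg.Geo.IsNondegenerateMDecomposition (Cfsg.hermForm 4 F q) 1 D → H ≤ Cfsg.Geo.decompositionStabilizer D →
        (q ≠ 3 ∧ ∃ D : Fin 4 → Submodule F (Fin 4 → F), Cfsg.Geo.IsNondegenerateMDecomposition (Cfsg.hermForm 4 F q) 1 D ∧ H = Cfsg.Geo.decompositionStabilizer D ⊓ (Cfsg.GU 4 F q ⊓ Cfsg.Geo.specialLinear (Fin 4) F)) ∨
        (∃ (p : ℕ) (R : Subgroup (Matrix.GeneralLinearGroup (Fin 4) F)), p.Prime ∧ q = p ∧ p % 4 = 3 ∧ Cfsg.Geo.IsSymplecticTypeGroup 2 R ∧ Cfsg.Geo.ActsAbsolutelyIrreducibly (Cfsg.Geo.matrixSet R) ∧ R ≤ Cfsg.Geo.similarityGroup (Cfsg.hermForm 4 F q) ∧ Nat.card R = 64 ∧ Nat.card (Subgroup.center R) = 4 ∧ H = Cfsg.Geo.subgroupNormalizer R ⊓ (Cfsg.GU 4 F q ⊓ Cfsg.Geo.specialLinear (Fin 4) F)) := by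
      intro D hD hle
      by_cases hq3 : q = 3
      · right
        obtain ⟨R, r1, r2, r3, r4, r5, r6⟩ := H97.AschPauli.lines_type hctx hq3 hD
        exact ⟨3, R, Nat.prime_three, hq3, by norm_num, r1, r2, r3, r4, r5,
          key ((le_inf hle hH.1.le).trans r6) (hctx.not_type (by norm_num) r1 r2)⟩
      · left
        exact ⟨hq3, D, hD, key hle (hctx.not_lines (by norm_num) (Or.inr (by norm_num)) hD)⟩
    have hkt : (k = 1 ∧ t = 4) ∨ (k = 2 ∧ t = 2) := by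
      have h7 : k ≤ 2 := by nlinarith
      interval_cases k
      · left; omega
      · right; omega
    rcases hkt with ⟨rfl, rfl⟩ | ⟨rfl, rfl⟩
    · rcases hlines h1 (h5.le.trans inf_le_left) with h6 | h6
      · iterate 2 right
        left
        exact h6
      · iterate 8 right
        left
        exact h6
    · by_cases hq : q = 2
      · obtain ⟨D', hD', hle⟩ := H97.AschUElim.planes_lines hctx hq h1
        rcases hlines hD' ((le_inf (h5.le.trans inf_le_left) (hH.1.le.trans inf_le_left)).trans hle) with h6 | h6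
        · iterate 2 right
          left
          exact h6
        · iterate 8 right
          left
          exact h6
      · iterate 3 right
        left
        exact ⟨by omega, D, h1, h5⟩
  · obtain rfl : k = 2 := by omega
    by_cases hq : q = 2 ∨ q = 3
    · obtain ⟨F₀, P, ζ, r1, r2, r3, r4, r5, r6⟩ := H97.AschUPair.pair_symp hctx hq h2 h3
      iterate 6 right
      left
      exact ⟨F₀, P, ζ, r1, r2, r3, r4, r5, H97.AschCases.eq_of_max hH (h4.le.trans r6)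
        (hctx.not_subfield (by norm_num) Nat.prime_two r1)⟩
    · iterate 4 right
      left
      exact ⟨by omega, D, h2, h3, h4⟩
  · exfalso
    have h7 : r = 2 := by
      have : r ∣ 2 ^ 2 := by simpa using h3
      exact (Nat.prime_dvd_prime_iff_eq h1 Nat.prime_two).mp (h1.dvd_of_dvd_pow this)
    rw [h7] at h2
    exact absurd h2 (by decide)
  · exfalso
    nlinarith
  · iterate 5 right
    left
    exact ⟨F₀, r, P, h1, h2, h3, h4, h5⟩
  · iterate 7 right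
    left
    exact ⟨h1, F₀, P, h2, h3, h4⟩
  · iterate 6 right
    left
    exact ⟨F₀, P, ζ, h2, h3, h4, h5, h6, h7⟩
  · have hr2 : r = 2 ∧ k = 2 := by
      have h11 : r ∣ 2 ^ 2 := by
        have : r ∣ 4 := by
          have hk0 : k ≠ 0 := by rintro rfl; norm_num at h8
          rw [h8]; exact dvd_pow_self r hk0
        simpa using this
      have h12 : r = 2 := (Nat.prime_dvd_prime_iff_eq h1.prime Nat.prime_two).mp (h1.prime.dvd_of_dvd_pow h11)
      subst h12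
      have : (2 : ℕ) ^ k = 2 ^ 2 := by rw [← h8]; norm_num
      exact ⟨rfl, Nat.pow_right_injective (le_refl 2) this⟩
    obtain ⟨rfl, rfl⟩ := hr2
    rcases h9 with ⟨h11, -⟩ | ⟨-, h11, h12, h13, h14⟩
    · exact absurd h11 (by decide)
    · iterate 8 right
      left
      exact ⟨p, R, h4, by rw [h6, h11, pow_one], h12, h1, h2, h3, by rw [h14]; norm_num, h13, h10⟩
  · exfalso
    have : 3 ^ 2 ≤ k ^ t := (Nat.pow_le_pow_left h1 2).trans (Nat.pow_le_pow_right (by omega) h2)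
    omega
  · iterate 9 right
    exact h

end Cfsg.Agent.S5784
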