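import Cfsg.Statements.S5787
import Cfsg.Agent.Lib.H61.SpQ4d
import Cfsg.Agent.Lib.H61.SpQ4e
-- import your own Cfsg.Agent.* helpers here

set_option autoImplicit false
open Cfsg

namespace Cfsg.Agent.S5787

/-- Every maximal subgroup of Sp_4(q), q odd, is of one of the listed geometric types or lies in the residual class. Let F be a finite field of odd order q, f the standard alternating form on F^4 (coordinates Fin 2 ⊕ Fin 2), and H a maximal subgroup of the isometry group Sp_4(F) (inside GL_4(F)). Then H is the intersection with Sp_4(F) of one of: the stabiliser of a non-zero totally isotropic subspace; the stabiliser of a decomposition into two orthogonal non-degenerate 2-spaces; for q ≥ 5, of a decomposition into two totally isotropic 2-spaces; the normaliser of a degree-2 subfield K of the matrix algebra, self-adjoint with f(k v, v) = 0; for q ≥ 5, the normaliser of a degree-2 subfield closed under adjoints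 but not self-adjoint; a subfield group whose F₀-structure carries a non-zero multiple of f, |F| = |F₀|^r with r prime; for q = p prime, the normaliser of an absolutely irreducible symplectic-type 2-group of exponent 4, order 32, centre of order 2 and minus type inside the similarity group of f — or else H lies in the residual class of the symplectic case. -/
theorem result {F : Type*} [Field F] [Fintype F] (hodd : Odd (Fintype.card F)) (H : Subgroup (Matrix.GeneralLinearGroup (Fin 2 ⊕ Fin 2) F)) (hH : Cfsg.Geo.IsMaximalIn (Cfsg.spGL 2 F) H) :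
    (∃ W : Submodule F (Fin 2 ⊕ Fin 2 → F), W ≠ ⊥ ∧ Cfsg.Geo.IsTotallySingularFor (Cfsg.sympForm 2 F) W ∧ H = Cfsg.Geo.subspaceStabilizer W ⊓ Cfsg.spGL 2 F) ∨
    (∃ D : Fin 2 → Submodule F (Fin 2 ⊕ Fin 2 → F), Cfsg.Geo.IsNondegenerateMDecomposition (Cfsg.sympForm 2 F) 2 D ∧ H = Cfsg.Geo.decompositionStabilizer D ⊓ Cfsg.spGL 2 F) ∨
    (5 ≤ Fintype.card F ∧ ∃ D : Fin 2 → Submodule F (Fin 2 ⊕ Fin 2 → F), Cfsg.Geo.IsMDecomposition 2 D ∧ (∀ i, Cfsg.Geo.IsTotallySingularFor (Cfsg.sympForm 2 F) (D i)) ∧ H = Cfsg.Geo.decompositionStabilizer D ⊓ Cfsg.spGL 2 F) ∨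
    (∃ K : Subalgebra F (Matrix (Fin 2 ⊕ Fin 2) (Fin 2 ⊕ Fin 2) F), Cfsg.Geo.IsFieldSubalgebra 2 K ∧ Cfsg.Geo.IsSelfAdjointFor (Cfsg.sympForm 2 F) K ∧ (∀ k ∈ K, ∀ v : (Fin 2 ⊕ Fin 2 → F), (Cfsg.sympForm 2 F) (Matrix.mulVec k v) v = 0) ∧ H = Cfsg.Geo.subalgebraNormalizer K ⊓ Cfsg.spGL 2 F) ∨
    (5 ≤ Fintype.card F ∧ ∃ K : Subalgebra F (Matrix (Fin 2 ⊕ Fin 2) (Fin 2 ⊕ Fin 2) F), Cfsg.Geo.IsFieldSubalgebra 2 K ∧ Cfsg.Geo.IsAdjointClosedFor (Cfsg.sympForm 2 F) K ∧ ¬ Cfsg.Geo.IsSelfAdjointFor (Cfsg.sympForm 2 F) K ∧ H = Cfsg.Geo.subalgebraNormalizer K ⊓ Cfsg.spGL 2 F) ∨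
    (∃ (F₀ : Subfield F) (r : ℕ) (P : Matrix.GeneralLinearGroup (Fin 2 ⊕ Fin 2) F) (ζ : F), r.Prime ∧ Fintype.card F = Nat.card F₀ ^ r ∧ ζ ≠ 0 ∧ Cfsg.Geo.IsFormRationalStructure (Cfsg.sympForm 2 F) F₀ ζ P ∧ H = Cfsg.Geo.subfieldSubgroup F₀ P ⊓ Cfsg.spGL 2 F) ∨
    (∃ (p : ℕ) (R : Subgroup (Matrix.GeneralLinearGroup (Fin 2 ⊕ Fin 2) F)), p.Prime ∧ Fintype.card F = p ∧ Cfsg.Geo.IsSymplecticTypeGroup 2 R ∧ Cfsg.Geo.ActsAbsolutelyIrreducibly (Cfsg.Geo.matrixSet R) ∧ R ≤ Cfsg.Geo.similarityGroup (Cfsg.sympForm 2 F) ∧ Nat.card R = 32 ∧ Nat.card (Subgroup.center R) = 2 ∧ Cfsg.Geo.IsOfMinusType 2 R ∧ H = Cfsg.Geo.subgroupNormalizer R ⊓ Cfsg.spGL 2 F) ∨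
    Cfsg.Geo.InSymplecticResidualClass H := by
  rcases H97.AschSpCases.sp_cases (m := 2) (by norm_num) hH with ⟨W, h1, h2, h3⟩ | ⟨W, h1, h2, h3, h4⟩ |
    ⟨t, k, D, h1, h2, h3, h4, h5, h6⟩ | ⟨ho, D, h1, h2, h3⟩ | ⟨r, K, h1, h2, h3, h4, h5, h6⟩ | ⟨ho, K, h1, h2, h3, h4⟩ |
    ⟨ho, n₁, n₂, e, P, f₁, f₂, h1, h2, h3, h4, h5, h6, h7, h8⟩ |
    ⟨F₀, r, P, ζ, h1, h2, h3, h4, h5⟩ | ⟨R, p, k, h1, h2, h3, h4, h5, h6, h7, h8, h9, h10, h11⟩ |
    ⟨ho, k, t, e, P, f₁, h1, h2, h3, h4, h5, -⟩ | ⟨ho, Q, h1, h2, h3⟩ | h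
  · exact Or.inl ⟨W, h1, h2, h3⟩
  · exfalso
    have e1 := H97.AschNCSp.two_le_of_nondeg (H96.AschSp.sympForm_symplectic 2 F) h2
      (by rw [Module.finrank_pos_iff, Submodule.nontrivial_iff_ne_bot]; exact h1)
    omega
  · right; left
    have h7 : k = 2 := by
      have : k ≤ 2 := by nlinarith
      omega
    subst h7
    have h8 : t = 2 := by omega
    subst h8
    exact ⟨D, h1, h6⟩
  · by_cases hq : 5 ≤ Fintype.card F
    · iterate 2 right
      left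
      exact ⟨hq, D, h1, h2, h3⟩
    · have hq1 : 1 < Fintype.card F := Fintype.one_lt_card
      have hq2 : Fintype.card F = 3 := by
        obtain ⟨c, hc⟩ := ho
        omega
      obtain ⟨D', hD1, hD2⟩ := H61.SpQ4e.ts_case hq2 h1 h2
      right; left
      refine ⟨D', hD1, H97.AschCases.eq_of_max hH ?_ (H97.AschNCSp.sp_not_decomp (by norm_num) hD1.decomp)⟩
      rw [h3]
      exact hD2
  · iterate 3 right
    left
    have h7 : r = 2 := (Nat.prime_dvd_prime_iff_eq h1 Nat.prime_two).mp h2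
    subst h7
    exact ⟨K, h3, h4, h5, h6⟩
  · by_cases hq : 5 ≤ Fintype.card F
    · iterate 4 right
      left
      exact ⟨hq, K, h1, h2, h3, h4⟩
    · have hq1 : 1 < Fintype.card F := Fintype.one_lt_card
      have hq2 : Fintype.card F = 3 := by
        obtain ⟨c, hc⟩ := ho
        omega
      obtain ⟨R, r1, r2, r3, r4, r5, r6, r7⟩ := H61.SpQ4d.field_case hq2 h1 h2 h3
      iterate 6 right
      left
      refine ⟨3, R, by norm_num, hq2, r1, r2, r3, r4, r5, r6, H97.AschCases.eq_of_max hH ?_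
        (H97.AschNCSp.sp_not_type (by norm_num) r1 r2)⟩
      rw [h4]
      exact r7
  · exfalso
    have : 3 * 2 ≤ n₁ * n₂ := by nlinarith
    omega
  · iterate 5 right
    left
    exact ⟨F₀, r, P, ζ, h1, h2, h3, h4, h5⟩
  · iterate 6 right
    left
    have hk : k = 2 := by
      have e1 : 2 ^ 2 = 2 ^ k := by omega
      exact (Nat.pow_right_injective le_rfl e1).symm
    subst hk
    exact ⟨p, R, h4, h6, h1, h2, h3, by rw [h7]; norm_num, h8, h9, h11⟩
  · exfalso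
    have h8 : 2 ^ 3 ≤ k ^ t := (Nat.pow_le_pow_left h2 3).trans (Nat.pow_le_pow_right (by omega) h4)
    omega
  · exact absurd hodd ho
  · iterate 7 right
    exact h

end Cfsg.Agent.S5787
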