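import Cfsg.Statements.S5799
import Cfsg.Agent.Lib.H97.AschElim
import Cfsg.Agent.Lib.H97.AschArith

set_option autoImplicit false
open Cfsg

namespace Cfsg.Agent.S5799

/-- Every maximal subgroup of SL_6(q) is of one of the listed geometric types or lies in the residual class. Let F be a finite field with q elements (p its characteristic) and H a maximal subgroup of SL_6(F) (inside GL_6(F)). Then H is the intersection with SL_6(F) of one of: the stabiliser of a proper non-zero subspace; for q ≥ 5, the stabiliser of a decomposition into 6 independent 1-spaces; for q ≥ 3, the stabiliser of a decomposition into 3 independent 2-spaces; the stabiliser of a decomposition into 2 independent 3-spaces; the normaliser of a degree-2 subfield of the matrix algebra; the normaliser of a degree-3 subfield of the matrix algebra; for q ≥ 3, the stabiliser of a tensor decomposition F^2 ⊗ F^3; a subfield group for a subfield F₀ with |F|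 = |F₀|^r, r prime; for q odd, the similarity group of a non-degenerate quadratic form; the similarity group of a non-degenerate symplectic form; the similarity group of a non-degenerate unitary form — or else H lies in the residual class of the linear case (modulo scalars H is almost simple, with absolutely irreducible perfect socle preimage realisable over no proper subfield and fixing no non-degenerate quadratic, symplectic or unitary form). -/
theorem result {F : Type*} [Field F] [Fintype F] (H : Subgroup (Matrix.GeneralLinearGroup (Fin 6) F)) (hH : Cfsg.Geo.IsMaximalIn (Cfsg.Geo.specialLinear (Fin 6) F) H) :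
    (∃ W : Submodule F (Fin 6 → F), W ≠ ⊥ ∧ W ≠ ⊤ ∧ H = Cfsg.Geo.subspaceStabilizer W ⊓ Cfsg.Geo.specialLinear (Fin 6) F) ∨
    (5 ≤ Fintype.card F ∧ ∃ D : Fin 6 → Submodule F (Fin 6 → F), Cfsg.Geo.IsMDecomposition 1 D ∧ H = Cfsg.Geo.decompositionStabilizer D ⊓ Cfsg.Geo.specialLinear (Fin 6) F) ∨
    (3 ≤ Fintype.card F ∧ ∃ D : Fin 3 → Submodule F (Fin 6 → F), Cfsg.Geo.IsMDecomposition 2 D ∧ H = Cfsg.Geo.decompositionStabilizer D ⊓ Cfsg.Geo.specialLinear (Fin 6) F) ∨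
    (∃ D : Fin 2 → Submodule F (Fin 6 → F), Cfsg.Geo.IsMDecomposition 3 D ∧ H = Cfsg.Geo.decompositionStabilizer D ⊓ Cfsg.Geo.specialLinear (Fin 6) F) ∨
    (∃ K : Subalgebra F (Matrix (Fin 6) (Fin 6) F), Cfsg.Geo.IsFieldSubalgebra 2 K ∧ H = Cfsg.Geo.subalgebraNormalizer K ⊓ Cfsg.Geo.specialLinear (Fin 6) F) ∨
    (∃ K : Subalgebra F (Matrix (Fin 6) (Fin 6) F), Cfsg.Geo.IsFieldSubalgebra 3 K ∧ H = Cfsg.Geo.subalgebraNormalizer K ⊓ Cfsg.Geo.specialLinear (Fin 6) F) ∨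
    (3 ≤ Fintype.card F ∧ ∃ (e : Fin 6 ≃ Fin 2 × Fin 3) (P : Matrix.GeneralLinearGroup (Fin 6) F), H = Cfsg.Geo.tensorProductSubgroup 2 3 e P ⊓ Cfsg.Geo.specialLinear (Fin 6) F) ∨
    (∃ (F₀ : Subfield F) (r : ℕ) (P : Matrix.GeneralLinearGroup (Fin 6) F), r.Prime ∧ Fintype.card F = Nat.card F₀ ^ r ∧ H = Cfsg.Geo.subfieldSubgroup F₀ P ⊓ Cfsg.Geo.specialLinear (Fin 6) F) ∨
    (Odd (Fintype.card F) ∧ ∃ Q : (Fin 6 → F) → F, Cfsg.Geo.IsNondegenerateQuadraticForm Q ∧ H = Cfsg.Geo.quadSimilarityGroup Q ⊓ Cfsg.Geo.specialLinear (Fin 6) F) ∨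
    (∃ f : (Fin 6 → F) → (Fin 6 → F) → F, Cfsg.Geo.IsSymplecticForm f ∧ H = Cfsg.Geo.similarityGroup f ⊓ Cfsg.Geo.specialLinear (Fin 6) F) ∨
    (∃ (σ : F ≃+* F) (f : (Fin 6 → F) → (Fin 6 → F) → F), Cfsg.Geo.IsUnitaryForm σ f ∧ H = Cfsg.Geo.similarityGroup f ⊓ Cfsg.Geo.specialLinear (Fin 6) F) ∨
    Cfsg.Geo.InLinearResidualClass H := by
  have h3n : 3 ≤ 6 := by norm_num
  rcases H97.AschCases.max_cases h3n hH with
    ⟨W, h1, h2, h3⟩ | ⟨t, m, D, hD, ht, hm, htm, hHD⟩ | ⟨r, K, hr, hrn, hK, hHK⟩ | ⟨n₁, n₂, e, P, h1, h2, h3, h4⟩ |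
    ⟨F₀, r, P, hr, h1, h2⟩ | ⟨r, R, h1, ⟨k, hk, hrk⟩, h2⟩ | ⟨m, t, e, P, h1, h2, h3, h4⟩ | ⟨f, h1, h2, h3⟩ | ⟨σ, f, h1, h2⟩ |
    ⟨hodd, Q, h1, h2⟩ | h
  · exact Or.inl ⟨W, h1, h2, h3⟩
  · have hm' : m ≤ 3 := by nlinarith
    interval_cases m
    · obtain rfl : t = 6 := by omega
      rcases H97.AschCases.lines_small h3n hH hD hHD with h | h | ⟨σ, f, h1, h2⟩ | ⟨hodd, Q, h1, h2⟩
      · exact Or.inl (h)
      · exact Or.inr (Or.inl ⟨h, D, hD, hHD⟩)
      · exact Or.inr (Or.inr (Or.inr (Or.inr (Or.inr (Or.inr (Or.inr (Or.inr (Or.inr (Or.inr (Or.inl ⟨σ, f, h1, h2⟩))))))))))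
      · exact Or.inr (Or.inr (Or.inr (Or.inr (Or.inr (Or.inr (Or.inr (Or.inr (Or.inl ⟨hodd, Q, h1, h2⟩))))))))
    · obtain rfl : t = 3 := by omega
      rcases H97.AschCases.planes_small h3n hH hD hHD with h | ⟨f, h1, h2⟩
      · exact Or.inr (Or.inr (Or.inl ⟨h, D, hD, hHD⟩))
      · exact Or.inr (Or.inr (Or.inr (Or.inr (Or.inr (Or.inr (Or.inr (Or.inr (Or.inr (Or.inl ⟨f, h1, h2⟩)))))))))
    · obtain rfl : t = 2 := by omega
      exact Or.inr (Or.inr (Or.inr (Or.inl ⟨D, hD, hHD⟩)))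
  · have hr' : r ≤ 6 := Nat.le_of_dvd (by norm_num) hrn
    interval_cases r <;> first | (exfalso; revert hr; norm_num; done) | (exfalso; revert hrn; norm_num; done) | exact Or.inr (Or.inr (Or.inr (Or.inr (Or.inl ⟨K, hK, hHK⟩)))) | exact Or.inr (Or.inr (Or.inr (Or.inr (Or.inr (Or.inl ⟨K, hK, hHK⟩)))))
  · have hn1 : n₁ ≤ 3 := by nlinarith
    interval_cases n₁
    · obtain rfl : n₂ = 3 := by omega
      rcases H97.AschElim.tensor_small h3n hH (by norm_num) e P h4 with h | ⟨K, h5, h6⟩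
      · exact Or.inr (Or.inr (Or.inr (Or.inr (Or.inr (Or.inr (Or.inl ⟨h, e, P, h4⟩))))))
      · exact Or.inr (Or.inr (Or.inr (Or.inr (Or.inl ⟨K, h5, h6⟩))))
    · exfalso; omega
  · exact Or.inr (Or.inr (Or.inr (Or.inr (Or.inr (Or.inr (Or.inr (Or.inl ⟨F₀, r, P, hr, h1, h2⟩)))))))
  · have hrp := h1.symplecticType.prime
    have hk4 : k < 4 := by
      have h5 : 2 ^ k ≤ 6 := by rw [hrk]; exact Nat.pow_le_pow_left hrp.two_le k
      have h6 : 2 ^ k < 2 ^ 4 := lt_of_le_of_lt h5 (by norm_num)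
      exact (Nat.pow_lt_pow_iff_right (by norm_num)).mp h6
    have hr' : r ≤ 6 := by rw [hrk]; exact Nat.le_self_pow (by omega) r
    exfalso
    interval_cases k <;> interval_cases r <;> first | (revert hrk; norm_num; done) | (revert hrp; norm_num; done)
  · exfalso
    have h5 : m ^ 2 ≤ m ^ t := Nat.pow_le_pow_right (by omega) h2
    nlinarith
  · exact Or.inr (Or.inr (Or.inr (Or.inr (Or.inr (Or.inr (Or.inr (Or.inr (Or.inr (Or.inl ⟨f, h1, h3⟩)))))))))
  · exact Or.inr (Or.inr (Or.inr (Or.inr (Or.inr (Or.inr (Or.inr (Or.inr (Or.inr (Or.inr (Or.inl ⟨σ, f, h1, h2⟩))))))))))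
  · exact Or.inr (Or.inr (Or.inr (Or.inr (Or.inr (Or.inr (Or.inr (Or.inr (Or.inl ⟨hodd, Q, h1, h2⟩))))))))
  · exact Or.inr (Or.inr (Or.inr (Or.inr (Or.inr (Or.inr (Or.inr (Or.inr (Or.inr (Or.inr (Or.inr (h)))))))))))

end Cfsg.Agent.S5799
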