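import Cfsg.Statements.S5802
import Cfsg.Agent.Lib.H97.AschTri3
import Cfsg.Agent.Lib.H97.AschRow
import Cfsg.Agent.Lib.H97.AschURow

set_option autoImplicit false
open Cfsg

namespace Cfsg.Agent.S5802

/-- Every maximal subgroup of SU_6(q) is of one of the listed geometric types or lies in the residual class. Let F be the field with q² elements, f the standard unitary form Σ u_i v_i^q on F^6, and H a maximal subgroup of SU_6(q) (inside GL_6(F)). Then H is the intersection with SU_6(q) of one of: the stabiliser of a non-zero totally isotropic subspace; the stabiliser of a non-degenerate 1- or 2-space; for q ≥ 3, the stabiliser of a decomposition into six mutually orthogonal non-degenerate 1-spaces; for q ≥ 3, of a decomposition into three mutually orthogonal non-degenerate 2-spaces; of a decomposition into two orthogonal non-degenerate 3-spaces; of a decomposition into two totally isotropic 3-spaces;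 for q ≥ 3, the normaliser of an adjoint-closed degree-3 subfield of the matrix algebra; for q ≥ 3, the stabiliser of a tensor decomposition of f into unitary forms on F^2 and F^3; a subfield group of odd prime index whose F₀-structure carries f; a subfield group of index 2 and symplectic type; for q odd, a subfield group of index 2 and orthogonal type — or else H lies in the residual class of the unitary case. -/
theorem result {F : Type*} [Field F] [Fintype F] (q : ℕ) (hF : Fintype.card F = q ^ 2) (H : Subgroup (Matrix.GeneralLinearGroup (Fin 6) F)) (hH : Cfsg.Geo.IsMaximalIn (Cfsg.GU 6 F q ⊓ Cfsg.Geo.specialLinear (Fin 6) F) H) :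
    (∃ W : Submodule F (Fin 6 → F), W ≠ ⊥ ∧ Cfsg.Geo.IsTotallySingularFor (Cfsg.hermForm 6 F q) W ∧ H = Cfsg.Geo.subspaceStabilizer W ⊓ (Cfsg.GU 6 F q ⊓ Cfsg.Geo.specialLinear (Fin 6) F)) ∨
    (∃ W : Submodule F (Fin 6 → F), W ≠ ⊥ ∧ Cfsg.Geo.IsNondegenerateOn (Cfsg.hermForm 6 F q) W ∧ 2 * Module.finrank F W < 6 ∧ H = Cfsg.Geo.subspaceStabilizer W ⊓ (Cfsg.GU 6 F q ⊓ Cfsg.Geo.specialLinear (Fin 6) F)) ∨
    (3 ≤ q ∧ ∃ D : Fin 6 → Submodule F (Fin 6 → F), Cfsg.Geo.IsNondegenerateMDecomposition (Cfsg.hermForm 6 F q) 1 D ∧ H = Cfsg.Geo.decompositionStabilizer D ⊓ (Cfsg.GU 6 F q ⊓ Cfsg.Geo.specialLinear (Fin 6) F)) ∨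
    (3 ≤ q ∧ ∃ D : Fin 3 → Submodule F (Fin 6 → F), Cfsg.Geo.IsNondegenerateMDecomposition (Cfsg.hermForm 6 F q) 2 D ∧ H = Cfsg.Geo.decompositionStabilizer D ⊓ (Cfsg.GU 6 F q ⊓ Cfsg.Geo.specialLinear (Fin 6) F)) ∨
    (∃ D : Fin 2 → Submodule F (Fin 6 → F), Cfsg.Geo.IsNondegenerateMDecomposition (Cfsg.hermForm 6 F q) 3 D ∧ H = Cfsg.Geo.decompositionStabilizer D ⊓ (Cfsg.GU 6 F q ⊓ Cfsg.Geo.specialLinear (Fin 6) F)) ∨
    (∃ D : Fin 2 → Submodule F (Fin 6 → F), Cfsg.Geo.IsMDecomposition 3 D ∧ (∀ i, Cfsg.Geo.IsTotallySingularFor (Cfsg.hermForm 6 F q) (D i)) ∧ H = Cfsg.Geo.decompositionStabilizer D ⊓ (Cfsg.GU 6 F q ⊓ Cfsg.Geo.specialLinear (Fin 6) F)) ∨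
    (3 ≤ q ∧ ∃ K : Subalgebra F (Matrix (Fin 6) (Fin 6) F), Cfsg.Geo.IsFieldSubalgebra 3 K ∧ Cfsg.Geo.IsAdjointClosedFor (Cfsg.hermForm 6 F q) K ∧ H = Cfsg.Geo.subalgebraNormalizer K ⊓ (Cfsg.GU 6 F q ⊓ Cfsg.Geo.specialLinear (Fin 6) F)) ∨
    (3 ≤ q ∧ ∃ (e : Fin 6 ≃ Fin 2 × Fin 3) (P : Matrix.GeneralLinearGroup (Fin 6) F) (f₁ : (Fin 2 → F) → (Fin 2 → F) → F) (f₂ : (Fin 3 → F) → (Fin 3 → F) → F), Cfsg.Geo.IsUnitaryFormPow q f₁ ∧ Cfsg.Geo.IsUnitaryFormPow q f₂ ∧ Cfsg.Geo.IsTensorFormStructure (fun x : F => x ^ q) (Cfsg.hermForm 6 F q) f₁ f₂ e P ∧ H = Cfsg.Geo.tensorProductSubgroup 2 3 e P ⊓ (Cfsg.GU 6 F q ⊓ Cfsg.Geo.specialLinear (Fin 6) F)) ∨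
    (∃ (F₀ : Subfield F) (r : ℕ) (P : Matrix.GeneralLinearGroup (Fin 6) F), r.Prime ∧ Odd r ∧ Fintype.card F = Nat.card F₀ ^ r ∧ Cfsg.Geo.IsFormRationalStructure (Cfsg.hermForm 6 F q) F₀ 1 P ∧ H = Cfsg.Geo.subfieldSubgroup F₀ P ⊓ (Cfsg.GU 6 F q ⊓ Cfsg.Geo.specialLinear (Fin 6) F)) ∨
    (∃ (F₀ : Subfield F) (P : Matrix.GeneralLinearGroup (Fin 6) F) (ζ : F), Fintype.card F = Nat.card F₀ ^ 2 ∧ ζ ≠ 0 ∧ ζ + ζ ^ q = 0 ∧ Cfsg.Geo.IsFormRationalStructure (Cfsg.hermForm 6 F q) F₀ ζ P ∧ (∀ u : Fin 6 → F, (∀ i, u i ∈ F₀) → (Cfsg.hermForm 6 F q) (Matrix.mulVec (P : Matrix (Fin 6) (Fin 6) F) u) (Matrix.mulVec (P : Matrix (Fin 6) (Fin 6) F) u) = 0) ∧ H = Cfsg.Geo.subfieldSubgroup F₀ P ⊓ (Cfsg.GU 6 F q ⊓ Cfsg.Geo.specialLinear (Fin 6) F)) ∨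
    (Odd q ∧ ∃ (F₀ : Subfield F) (P : Matrix.GeneralLinearGroup (Fin 6) F), Fintype.card F = Nat.card F₀ ^ 2 ∧ Cfsg.Geo.IsFormRationalStructure (Cfsg.hermForm 6 F q) F₀ 1 P ∧ H = Cfsg.Geo.subfieldSubgroup F₀ P ⊓ (Cfsg.GU 6 F q ⊓ Cfsg.Geo.specialLinear (Fin 6) F)) ∨
    Cfsg.Geo.InUnitaryResidualClass H := by
  obtain ⟨σ, hctx⟩ := H97.AschNCU.exists_ctx (F := F) hF 6
  have hq2 := hctx.two_le
  rcases H97.AschUCases.gu_cases hF (by norm_num) hH with ⟨W, h1, h2, h3⟩ | ⟨W, h1, h2, h3, h4⟩ |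
    ⟨t, k, D, h1, h2, h3, h4, h5⟩ | ⟨k, D, h1, h2, h3, h4⟩ | ⟨r, K, h1, h2, h3, h4, h5, h6⟩ |
    ⟨n₁, n₂, e, P, f₁, f₂, h1, h2, h3, h4, h5, h6, h7⟩ |
    ⟨F₀, r, P, h1, h2, h3, h4, h5⟩ | ⟨h1, F₀, P, h2, h3, h4⟩ | ⟨h1, F₀, P, ζ, h2, h3, h4, h5, h6, h7⟩ |
    ⟨r, R, p, j, k, h1, h2, h3, h4, h5, h6, h7, h8, h9, h10⟩ |
    ⟨k, t, e, P, f₁, h1, h2, h3, h4, h5, h6, h7⟩ | h
  · left
    exact ⟨W, h1, h2, h3⟩
  · iterate 1 right
    left
    exact ⟨W, h1, h2, h3, h4⟩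
  · have hkt : (k = 1 ∧ t = 6) ∨ (k = 2 ∧ t = 3) ∨ (k = 3 ∧ t = 2) := by
      have h7 : k ≤ 3 := by nlinarith
      interval_cases k
      · left; omega
      · right; left; omega
      · right; right; omega
    rcases hkt with ⟨rfl, rfl⟩ | ⟨rfl, rfl⟩ | ⟨rfl, rfl⟩
    · by_cases hq : q = 2
      · exact (H97.AschHex2.no_lines hctx hq hH h1 (h5.le.trans inf_le_left)).elim
      · iterate 2 right
        left
        exact ⟨by omega, D, h1, h5⟩
    · by_cases hq : q = 2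
      · obtain ⟨D', hD', hle⟩ := H97.AschUElim.planes_lines hctx hq h1
        exact (H97.AschHex2.no_lines hctx hq hH hD'
          ((le_inf (h5.le.trans inf_le_left) (hH.1.le.trans inf_le_left)).trans hle)).elim
      · iterate 3 right
        left
        exact ⟨by omega, D, h1, h5⟩
    · iterate 4 right
      left
      exact ⟨D, h1, h5⟩
  · obtain rfl : k = 3 := by omega
    iterate 5 right
    left
    exact ⟨D, h2, h3, h4⟩
  · have h7 : r = 3 := by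
      have h8 : r ∣ 2 * 3 := h3
      rcases h1.dvd_mul.mp h8 with h9 | h9
      · rw [(Nat.prime_dvd_prime_iff_eq h1 Nat.prime_two).mp h9] at h2
        exact absurd h2 (by decide)
      · exact (Nat.prime_dvd_prime_iff_eq h1 Nat.prime_three).mp h9
    subst h7
    by_cases hq : q = 2
    · obtain ⟨F₀, P, ζ, r1, r2, r3, r4, r5, r6⟩ := H97.AschTri3.field_subfield hctx hq h4 h5 hH.1.le (h6.le.trans inf_le_left)
      iterate 9 right
      left
      exact ⟨F₀, P, ζ, r1, r2, r3, r4, r5, H97.AschCases.eq_of_max hH r6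
        (hctx.not_subfield (by norm_num) Nat.prime_two r1)⟩
    · iterate 6 right
      left
      exact ⟨by omega, K, h4, h5, h6⟩
  · have h8 : n₁ = 2 ∧ n₂ = 3 := by
      have h9 : n₁ ≤ 2 := by nlinarith
      have h10 : n₁ = 2 := by omega
      subst h10
      exact ⟨rfl, by omega⟩
    obtain ⟨rfl, rfl⟩ := h8
    by_cases hq : q = 2
    · obtain ⟨D, hD, hle⟩ := H97.AschUElim.tensor_two hctx hq (hH.1.le.trans inf_le_left) (by norm_num)
        (h7.le.trans inf_le_left) h4 h5 h6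
      iterate 4 right
      left
      exact ⟨D, hD, H97.AschCases.eq_of_max hH hle (hctx.not_decomp (by norm_num) (by norm_num) hD.decomp)⟩
    · iterate 7 right
      left
      exact ⟨by omega, e, P, f₁, f₂, h4, h5, h6, h7⟩
  · iterate 8 right
    left
    exact ⟨F₀, r, P, h1, h2, h3, h4, h5⟩
  · iterate 10 right
    left
    exact ⟨h1, F₀, P, h2, h3, h4⟩
  · iterate 9 right
    left
    exact ⟨F₀, P, ζ, h2, h3, h4, h5, h6, h7⟩
  · exact (H97.AschRow.not_pow h1.prime Nat.prime_two Nat.prime_three (by norm_num) (by norm_num) (by norm_num) h8).elim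
  · exfalso
    rcases H97.AschRow.pow_cases h1 h2 h3 with ⟨-, -, h8⟩ | h8 <;> omega
  · iterate 11 right
    exact h

end Cfsg.Agent.S5802
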