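import Cfsg.Statements.S5808
import Cfsg.Agent.Lib.H97.AschElim
import Cfsg.Agent.Lib.H97.AschArith

set_option autoImplicit false
open Cfsg

namespace Cfsg.Agent.S5808

/-- Every maximal subgroup of SL_7(q) is of one of the listed geometric types or lies in the residual class. Let F be a finite field with q elements (p its characteristic) and H a maximal subgroup of SL_7(F) (inside GL_7(F)). Then H is the intersection with SL_7(F) of one of: the stabiliser of a proper non-zero subspace; for q ≥ 5, the stabiliser of a decomposition into 7 independent 1-spaces; the normaliser of a degree-7 subfield of the matrix algebra; a subfield group for a subfield F₀ with |F| = |F₀|^r, r prime; for q = p prime with p ≡ 1 mod 7, or q = p³ with p ≡ 2 or 4 mod 7, the normaliser of an absolutely irreducible 7-subgroup R of exponent 7 and order 7^(1+2m) with centre of order 7, all of whose characteristic abelian subgroups are cyclic, F being the smallest field of characteristic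 p containing the seventh roots of unity (here R is extraspecial of order 343); for q odd, the similarity group of a non-degenerate quadratic form; the similarity group of a non-degenerate unitary form — or else H lies in the residual class of the linear case (modulo scalars H is almost simple, with absolutely irreducible perfect socle preimage realisable over no proper subfield and fixing no non-degenerate quadratic, symplectic or unitary form). -/
theorem result {F : Type*} [Field F] [Fintype F] (H : Subgroup (Matrix.GeneralLinearGroup (Fin 7) F)) (hH : Cfsg.Geo.IsMaximalIn (Cfsg.Geo.specialLinear (Fin 7) F) H) :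
    (∃ W : Submodule F (Fin 7 → F), W ≠ ⊥ ∧ W ≠ ⊤ ∧ H = Cfsg.Geo.subspaceStabilizer W ⊓ Cfsg.Geo.specialLinear (Fin 7) F) ∨
    (5 ≤ Fintype.card F ∧ ∃ D : Fin 7 → Submodule F (Fin 7 → F), Cfsg.Geo.IsMDecomposition 1 D ∧ H = Cfsg.Geo.decompositionStabilizer D ⊓ Cfsg.Geo.specialLinear (Fin 7) F) ∨
    (∃ K : Subalgebra F (Matrix (Fin 7) (Fin 7) F), Cfsg.Geo.IsFieldSubalgebra 7 K ∧ H = Cfsg.Geo.subalgebraNormalizer K ⊓ Cfsg.Geo.specialLinear (Fin 7) F) ∨
    (∃ (F₀ : Subfield F) (r : ℕ) (P : Matrix.GeneralLinearGroup (Fin 7) F), r.Prime ∧ Fintype.card F = Nat.card F₀ ^ r ∧ H = Cfsg.Geo.subfieldSubgroup F₀ P ⊓ Cfsg.Geo.specialLinear (Fin 7) F) ∨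
    ((∃ p : ℕ, p.Prime ∧ CharP F p ∧ ((Fintype.card F = p ∧ p % 7 = 1) ∨ (Fintype.card F = p ^ 3 ∧ (p % 7 = 2 ∨ p % 7 = 4)))) ∧ ∃ R : Subgroup (Matrix.GeneralLinearGroup (Fin 7) F), Cfsg.Geo.IsLinearSymplecticTypeData 7 R ∧ H = Cfsg.Geo.subgroupNormalizer R ⊓ Cfsg.Geo.specialLinear (Fin 7) F) ∨
    (Odd (Fintype.card F) ∧ ∃ Q : (Fin 7 → F) → F, Cfsg.Geo.IsNondegenerateQuadraticForm Q ∧ H = Cfsg.Geo.quadSimilarityGroup Q ⊓ Cfsg.Geo.specialLinear (Fin 7) F) ∨
    (∃ (σ : F ≃+* F) (f : (Fin 7 → F) → (Fin 7 → F) → F), Cfsg.Geo.IsUnitaryForm σ f ∧ H = Cfsg.Geo.similarityGroup f ⊓ Cfsg.Geo.specialLinear (Fin 7) F) ∨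
    Cfsg.Geo.InLinearResidualClass H := by
  have h3n : 3 ≤ 7 := by norm_num
  rcases H97.AschCases.max_cases h3n hH with
    ⟨W, h1, h2, h3⟩ | ⟨t, m, D, hD, ht, hm, htm, hHD⟩ | ⟨r, K, hr, hrn, hK, hHK⟩ | ⟨n₁, n₂, e, P, h1, h2, h3, h4⟩ |
    ⟨F₀, r, P, hr, h1, h2⟩ | ⟨r, R, h1, ⟨k, hk, hrk⟩, h2⟩ | ⟨m, t, e, P, h1, h2, h3, h4⟩ | ⟨f, h1, h2, h3⟩ | ⟨σ, f, h1, h2⟩ |
    ⟨hodd, Q, h1, h2⟩ | h
  · exact Or.inl ⟨W, h1, h2, h3⟩
  · have hm' : m ≤ 3 := by nlinarith
    interval_cases m
    · obtain rfl : t = 7 := by omega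
      rcases H97.AschCases.lines_small h3n hH hD hHD with h | h | ⟨σ, f, h1, h2⟩ | ⟨hodd, Q, h1, h2⟩
      · exact Or.inl (h)
      · exact Or.inr (Or.inl ⟨h, D, hD, hHD⟩)
      · exact Or.inr (Or.inr (Or.inr (Or.inr (Or.inr (Or.inr (Or.inl ⟨σ, f, h1, h2⟩))))))
      · exact Or.inr (Or.inr (Or.inr (Or.inr (Or.inr (Or.inl ⟨hodd, Q, h1, h2⟩)))))
    · exfalso; omega
    · exfalso; omega
  · have hr' : r ≤ 7 := Nat.le_of_dvd (by norm_num) hrn
    interval_cases r <;> first | (exfalso; revert hr; norm_num; done) | (exfalso; revert hrn; norm_num; done) | exact Or.inr (Or.inr (Or.inl ⟨K, hK, hHK⟩))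
  · have hn1 : n₁ ≤ 3 := by nlinarith
    interval_cases n₁
    · exfalso; omega
    · exfalso; omega
  · exact Or.inr (Or.inr (Or.inr (Or.inl ⟨F₀, r, P, hr, h1, h2⟩)))
  · have hrp := h1.symplecticType.prime
    have hk4 : k < 4 := by
      have h5 : 2 ^ k ≤ 7 := by rw [hrk]; exact Nat.pow_le_pow_left hrp.two_le k
      have h6 : 2 ^ k < 2 ^ 4 := lt_of_le_of_lt h5 (by norm_num)
      exact (Nat.pow_lt_pow_iff_right (by norm_num)).mp h6
    have hr' : r ≤ 7 := by rw [hrk]; exact Nat.le_self_pow (by omega) r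
    have hr2 : r = 7 := by
      interval_cases k <;> interval_cases r <;> first | rfl | (exfalso; revert hrk; norm_num; done) | (exfalso; revert hrp; norm_num; done)
    subst hr2
    have h5 := H97.AschArith.arith_seven h1
    exact Or.inr (Or.inr (Or.inr (Or.inr (Or.inl ⟨h5, R, h1, h2⟩))))
  · exfalso
    have h5 : m ^ 2 ≤ m ^ t := Nat.pow_le_pow_right (by omega) h2
    nlinarith
  · exact absurd h2 (by decide)
  · exact Or.inr (Or.inr (Or.inr (Or.inr (Or.inr (Or.inr (Or.inl ⟨σ, f, h1, h2⟩))))))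
  · exact Or.inr (Or.inr (Or.inr (Or.inr (Or.inr (Or.inl ⟨hodd, Q, h1, h2⟩)))))
  · exact Or.inr (Or.inr (Or.inr (Or.inr (Or.inr (Or.inr (Or.inr (h)))))))

end Cfsg.Agent.S5808
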