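import Cfsg.Statements.S5820
import Cfsg.Agent.Lib.H97.AschUElim
import Cfsg.Agent.Lib.H97.AschRow

set_option autoImplicit false
open Cfsg

namespace Cfsg.Agent.S5820

/-- Every maximal subgroup of SU_8(q) is of one of the listed geometric types or lies in the residual class. Let F be the field with q² elements, f the standard unitary form Σ u_i v_i^q on F^8, and H a maximal subgroup of SU_8(q) (inside GL_8(F)). Then H is the intersection with SU_8(q) of one of: the stabiliser of a non-zero totally isotropic subspace; the stabiliser of a non-degenerate 1-, 2- or 3-space; the stabiliser of a decomposition into eight mutually orthogonal non-degenerate 1-spaces; for q ≥ 3, of a decomposition into four mutually orthogonal non-degenerate 2-spaces; of a decomposition into two orthogonal non-degenerate 4-spaces; of a decomposition into two totally isotropic 4-spaces; for q ≥ 3, the stabiliser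 of a tensor decomposition of f into unitary forms on F^2 and F^4; a subfield group of odd prime index whose F₀-structure carries f; a subfield group of index 2 and symplectic type; for q odd, a subfield group of index 2 and orthogonal type; for q = p ≡ 3 mod 4 prime, the normaliser of an absolutely irreducible symplectic-type 2-group of order 2^8 with centre of order 4 inside the similarity group of f — or else H lies in the residual class of the unitary case. -/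
theorem result {F : Type*} [Field F] [Fintype F] (q : ℕ) (hF : Fintype.card F = q ^ 2) (H : Subgroup (Matrix.GeneralLinearGroup (Fin 8) F)) (hH : Cfsg.Geo.IsMaximalIn (Cfsg.GU 8 F q ⊓ Cfsg.Geo.specialLinear (Fin 8) F) H) :
    (∃ W : Submodule F (Fin 8 → F), W ≠ ⊥ ∧ Cfsg.Geo.IsTotallySingularFor (Cfsg.hermForm 8 F q) W ∧ H = Cfsg.Geo.subspaceStabilizer W ⊓ (Cfsg.GU 8 F q ⊓ Cfsg.Geo.specialLinear (Fin 8) F)) ∨
    (∃ W : Submodule F (Fin 8 → F), W ≠ ⊥ ∧ Cfsg.Geo.IsNondegenerateOn (Cfsg.hermForm 8 F q) W ∧ 2 * Module.finrank F W < 8 ∧ H = Cfsg.Geo.subspaceStabilizer W ⊓ (Cfsg.GU 8 F q ⊓ Cfsg.Geo.specialLinear (Fin 8) F)) ∨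
    (∃ D : Fin 8 → Submodule F (Fin 8 → F), Cfsg.Geo.IsNondegenerateMDecomposition (Cfsg.hermForm 8 F q) 1 D ∧ H = Cfsg.Geo.decompositionStabilizer D ⊓ (Cfsg.GU 8 F q ⊓ Cfsg.Geo.specialLinear (Fin 8) F)) ∨
    (3 ≤ q ∧ ∃ D : Fin 4 → Submodule F (Fin 8 → F), Cfsg.Geo.IsNondegenerateMDecomposition (Cfsg.hermForm 8 F q) 2 D ∧ H = Cfsg.Geo.decompositionStabilizer D ⊓ (Cfsg.GU 8 F q ⊓ Cfsg.Geo.specialLinear (Fin 8) F)) ∨
    (∃ D : Fin 2 → Submodule F (Fin 8 → F), Cfsg.Geo.IsNondegenerateMDecomposition (Cfsg.hermForm 8 F q) 4 D ∧ H = Cfsg.Geo.decompositionStabilizer D ⊓ (Cfsg.GU 8 F q ⊓ Cfsg.Geo.specialLinear (Fin 8) F)) ∨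
    (∃ D : Fin 2 → Submodule F (Fin 8 → F), Cfsg.Geo.IsMDecomposition 4 D ∧ (∀ i, Cfsg.Geo.IsTotallySingularFor (Cfsg.hermForm 8 F q) (D i)) ∧ H = Cfsg.Geo.decompositionStabilizer D ⊓ (Cfsg.GU 8 F q ⊓ Cfsg.Geo.specialLinear (Fin 8) F)) ∨
    (3 ≤ q ∧ ∃ (e : Fin 8 ≃ Fin 2 × Fin 4) (P : Matrix.GeneralLinearGroup (Fin 8) F) (f₁ : (Fin 2 → F) → (Fin 2 → F) → F) (f₂ : (Fin 4 → F) → (Fin 4 → F) → F), Cfsg.Geo.IsUnitaryFormPow q f₁ ∧ Cfsg.Geo.IsUnitaryFormPow q f₂ ∧ Cfsg.Geo.IsTensorFormStructure (fun x : F => x ^ q) (Cfsg.hermForm 8 F q) f₁ f₂ e P ∧ H = Cfsg.Geo.tensorProductSubgroup 2 4 e P ⊓ (Cfsg.GU 8 F q ⊓ Cfsg.Geo.specialLinear (Fin 8) F)) ∨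
    (∃ (F₀ : Subfield F) (r : ℕ) (P : Matrix.GeneralLinearGroup (Fin 8) F), r.Prime ∧ Odd r ∧ Fintype.card F = Nat.card F₀ ^ r ∧ Cfsg.Geo.IsFormRationalStructure (Cfsg.hermForm 8 F q) F₀ 1 P ∧ H = Cfsg.Geo.subfieldSubgroup F₀ P ⊓ (Cfsg.GU 8 F q ⊓ Cfsg.Geo.specialLinear (Fin 8) F)) ∨
    (∃ (F₀ : Subfield F) (P : Matrix.GeneralLinearGroup (Fin 8) F) (ζ : F), Fintype.card F = Nat.card F₀ ^ 2 ∧ ζ ≠ 0 ∧ ζ + ζ ^ q = 0 ∧ Cfsg.Geo.IsFormRationalStructure (Cfsg.hermForm 8 F q) F₀ ζ P ∧ (∀ u : Fin 8 → F, (∀ i, u i ∈ F₀) → (Cfsg.hermForm 8 F q) (Matrix.mulVec (P : Matrix (Fin 8) (Fin 8) F) u) (Matrix.mulVec (P : Matrix (Fin 8) (Fin 8) F) u) = 0) ∧ H = Cfsg.Geo.subfieldSubgroup F₀ P ⊓ (Cfsg.GU 8 F q ⊓ Cfsg.Geo.specialLinear (Fin 8) F)) ∨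
    (Odd q ∧ ∃ (F₀ : Subfield F) (P : Matrix.GeneralLinearGroup (Fin 8) F), Fintype.card F = Nat.card F₀ ^ 2 ∧ Cfsg.Geo.IsFormRationalStructure (Cfsg.hermForm 8 F q) F₀ 1 P ∧ H = Cfsg.Geo.subfieldSubgroup F₀ P ⊓ (Cfsg.GU 8 F q ⊓ Cfsg.Geo.specialLinear (Fin 8) F)) ∨
    (∃ (p : ℕ) (R : Subgroup (Matrix.GeneralLinearGroup (Fin 8) F)), p.Prime ∧ q = p ∧ p % 4 = 3 ∧ Cfsg.Geo.IsSymplecticTypeGroup 2 R ∧ Cfsg.Geo.ActsAbsolutelyIrreducibly (Cfsg.Geo.matrixSet R) ∧ R ≤ Cfsg.Geo.similarityGroup (Cfsg.hermForm 8 F q) ∧ Nat.card R = 256 ∧ Nat.card (Subgroup.center R) = 4 ∧ H = Cfsg.Geo.subgroupNormalizer R ⊓ (Cfsg.GU 8 F q ⊓ Cfsg.Geo.specialLinear (Fin 8) F)) ∨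
    Cfsg.Geo.InUnitaryResidualClass H := by
  obtain ⟨σ, hctx⟩ := H97.AschNCU.exists_ctx (F := F) hF 8
  have hq2 := hctx.two_le
  rcases H97.AschUCases.gu_cases hF (by norm_num) hH with ⟨W, h1, h2, h3⟩ | ⟨W, h1, h2, h3, h4⟩ |
    ⟨t, k, D, h1, h2, h3, h4, h5⟩ | ⟨k, D, h1, h2, h3, h4⟩ | ⟨r, K, h1, h2, h3, h4, h5, h6⟩ |
    ⟨n₁, n₂, e, P, f₁, f₂, h1, h2, h3, h4, h5, h6, h7⟩ |
    ⟨F₀, r, P, h1, h2, h3, h4, h5⟩ | ⟨h1, F₀, P, h2, h3, h4⟩ | ⟨h1, F₀, P, ζ, h2, h3, h4, h5, h6, h7⟩ |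
    ⟨r, R, p, j, k, h1, h2, h3, h4, h5, h6, h7, h8, h9, h10⟩ |
    ⟨k, t, e, P, f₁, h1, h2, h3, h4, h5, h6, h7⟩ | h
  · left
    exact ⟨W, h1, h2, h3⟩
  · iterate 1 right
    left
    exact ⟨W, h1, h2, h3, h4⟩
  · have h6 : (k = 1 ∧ t = 8) ∨ (k = 2 ∧ t = 4) ∨ (k = 4 ∧ t = 2) := by
      have h7 : k ≤ 4 := by nlinarith
      interval_cases k
      · omega
      · omega
      · omega
      · omega
    rcases h6 with ⟨rfl, rfl⟩ | ⟨rfl, rfl⟩ | ⟨rfl, rfl⟩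
    ·
      iterate 2 right
      left
      exact ⟨D, h1, h5⟩
    · by_cases hq3 : 3 ≤ q
      ·
        iterate 3 right
        left
        exact ⟨hq3, D, h1, h5⟩
      · obtain ⟨D', hD1, hD2⟩ := H97.AschUElim.planes_lines hctx (by omega) h1
        iterate 2 right
        left
        exact ⟨D', hD1, H97.AschCases.eq_of_max hH ((le_inf (h5.le.trans inf_le_left)
          (hH.1.le.trans inf_le_left)).trans hD2) (hctx.not_lines (by norm_num) (Or.inr (by norm_num)) hD1)⟩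
    ·
      iterate 4 right
      left
      exact ⟨D, h1, h5⟩
  · have h5 : k = 4 := by omega
    subst h5
    iterate 5 right
    left
    exact ⟨D, h2, h3, h4⟩
  · exfalso
    have h7 : r ∣ 2 ^ 3 := h3
    have h8 := (Nat.prime_dvd_prime_iff_eq h1 Nat.prime_two).mp (h1.dvd_of_dvd_pow h7)
    rw [h8] at h2
    exact absurd h2 (by decide)
  · have h8 : n₁ = 2 ∧ n₂ = 4 := by
      have h9 : n₁ ≤ 2 := by nlinarith
      have h10 : n₁ = 2 := by omega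
      subst h10
      omega
    obtain ⟨rfl, rfl⟩ := h8
    by_cases hq3 : 3 ≤ q
    ·
      iterate 6 right
      left
      exact ⟨hq3, e, P, f₁, f₂, h4, h5, h6, h7⟩
    · obtain ⟨D, hD1, hD2⟩ := H97.AschUElim.tensor_two hctx (by omega) (hH.1.le.trans inf_le_left) (by norm_num)
        (h7.le.trans inf_le_left) h4 h5 h6
      iterate 4 right
      left
      exact ⟨D, hD1, H97.AschCases.eq_of_max hH hD2 (hctx.not_decomp (by norm_num) (by norm_num) hD1.decomp)⟩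
  · iterate 7 right
    left
    exact ⟨F₀, r, P, h1, h2, h3, h4, h5⟩
  · iterate 9 right
    left
    exact ⟨h1, F₀, P, h2, h3, h4⟩
  · iterate 8 right
    left
    exact ⟨F₀, P, ζ, h2, h3, h4, h5, h6, h7⟩
  · obtain ⟨rfl, rfl⟩ := H97.AschRow.pow_of (l := 3) h1.prime Nat.prime_two (by norm_num) (by norm_num) h8
    rcases h9 with ⟨h11, -⟩ | ⟨-, rfl, h12, h13, h14⟩
    · exact absurd h11 (by decide)
    ·
      iterate 10 right
      left
      exact ⟨p, R, h4, by rw [h6, pow_one], h12, h1, h2, h3, by rw [h14]; norm_num, h13, h10⟩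
  · exfalso
    rcases H97.AschRow.pow_cases h1 h2 h3 with ⟨-, -, h8⟩ | h8 <;> omega
  · iterate 11 right
    exact h

end Cfsg.Agent.S5820
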