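import Cfsg.Statements.S5835
import Cfsg.Agent.Lib.H61.AschNCO5

set_option autoImplicit false
open Cfsg

namespace Cfsg.Agent.S5835

/-- Every maximal subgroup of Ω_9(q), q odd, is of one of the listed geometric types or lies in the residual class. Let F be a finite field of odd order q, Q the standard quadratic form x₀² + Σ x_i y_i on F^9 (coordinates Unit ⊕ (Fin 4 ⊕ Fin 4)), Ω the commutator subgroup of its isometry group, and H a maximal subgroup of Ω (inside GL_9(F)). Then H is the intersection with Ω of one of: the stabiliser of a non-zero totally singular subspace; the stabiliser of a non-zero non-degenerate subspace of even dimension (not a plus-type plane when q = 3); for q prime, the stabiliser of a decomposition into nine pairwise orthogonal, pairwise isometric non-degenerate 1-spaces; for q ≥ 5, the stabiliser of a decomposition into three pairwise orthogonal, pairwise isometric non-degenerate 3-spaces; the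 normaliser of a degree-3 subfield of the matrix algebra, self-adjoint for the polar form; a subfield group (|F| = |F₀|^r, r prime) whose F₀-structure carries Q; for q ≥ 5, the stabiliser of a tensor decomposition of the polar form as a tensor square of a symmetric form on F^3 — or else H lies in the residual class of the orthogonal case (modulo scalars H is almost simple, with absolutely irreducible perfect socle preimage realisable over no proper subfield and fixing no non-degenerate unitary form). -/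
theorem result {F : Type*} [Field F] [Fintype F] (hodd : Odd (Fintype.card F)) (H : Subgroup (Matrix.GeneralLinearGroup (Unit ⊕ (Fin 4 ⊕ Fin 4)) F)) (hH : Cfsg.Geo.IsMaximalIn (Cfsg.Geo.omegaGL (Cfsg.quadFormOdd 4 F)) H) :
    (∃ W : Submodule F (Unit ⊕ (Fin 4 ⊕ Fin 4) → F), W ≠ ⊥ ∧ Cfsg.Geo.IsTotallySingularQuad (Cfsg.quadFormOdd 4 F) W ∧ H = Cfsg.Geo.subspaceStabilizer W ⊓ Cfsg.Geo.omegaGL (Cfsg.quadFormOdd 4 F)) ∨
    (∃ W : Submodule F (Unit ⊕ (Fin 4 ⊕ Fin 4) → F), W ≠ ⊥ ∧ Even (Module.finrank F W) ∧ Cfsg.Geo.IsNondegenerateOn (QuadraticMap.polar (Cfsg.quadFormOdd 4 F)) W ∧ ¬ (Fintype.card F = 3 ∧ Module.finrank F W = 2 ∧ Cfsg.Geo.IsPlusTypeOn (Cfsg.quadFormOdd 4 F) W) ∧ H = Cfsg.Geo.subspaceStabilizer W ⊓ Cfsg.Geo.omegaGL (Cfsg.quadFormOdd 4 F)) ∨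
    ((Fintype.card F).Prime ∧ ∃ D : Fin 9 → Submodule F (Unit ⊕ (Fin 4 ⊕ Fin 4) → F), Cfsg.Geo.IsOrthogonalMDecomposition (Cfsg.quadFormOdd 4 F) 1 D ∧ H = Cfsg.Geo.decompositionStabilizer D ⊓ Cfsg.Geo.omegaGL (Cfsg.quadFormOdd 4 F)) ∨
    (5 ≤ Fintype.card F ∧ ∃ D : Fin 3 → Submodule F (Unit ⊕ (Fin 4 ⊕ Fin 4) → F), Cfsg.Geo.IsOrthogonalMDecomposition (Cfsg.quadFormOdd 4 F) 3 D ∧ H = Cfsg.Geo.decompositionStabilizer D ⊓ Cfsg.Geo.omegaGL (Cfsg.quadFormOdd 4 F)) ∨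
    (∃ K : Subalgebra F (Matrix (Unit ⊕ (Fin 4 ⊕ Fin 4)) (Unit ⊕ (Fin 4 ⊕ Fin 4)) F), Cfsg.Geo.IsFieldSubalgebra 3 K ∧ Cfsg.Geo.IsSelfAdjointFor (QuadraticMap.polar (Cfsg.quadFormOdd 4 F)) K ∧ H = Cfsg.Geo.subalgebraNormalizer K ⊓ Cfsg.Geo.omegaGL (Cfsg.quadFormOdd 4 F)) ∨
    (∃ (F₀ : Subfield F) (r : ℕ) (P : Matrix.GeneralLinearGroup (Unit ⊕ (Fin 4 ⊕ Fin 4)) F), r.Prime ∧ Fintype.card F = Nat.card F₀ ^ r ∧ Cfsg.Geo.IsQuadFormRationalStructure (Cfsg.quadFormOdd 4 F) F₀ P ∧ H = Cfsg.Geo.subfieldSubgroup F₀ P ⊓ Cfsg.Geo.omegaGL (Cfsg.quadFormOdd 4 F)) ∨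
    (5 ≤ Fintype.card F ∧ ∃ (e : (Unit ⊕ (Fin 4 ⊕ Fin 4)) ≃ (Fin 2 → Fin 3)) (P : Matrix.GeneralLinearGroup (Unit ⊕ (Fin 4 ⊕ Fin 4)) F) (f₁ : (Fin 3 → F) → (Fin 3 → F) → F), Cfsg.Geo.IsSymmetricForm f₁ ∧ Cfsg.Geo.IsTensorPowerFormStructure id (QuadraticMap.polar (Cfsg.quadFormOdd 4 F)) f₁ e P ∧ H = Cfsg.Geo.tensorWreathSubgroup 3 2 e P ⊓ Cfsg.Geo.omegaGL (Cfsg.quadFormOdd 4 F)) ∨
    Cfsg.Geo.InOrthogonalResidualClass H := by
  have h1lt : 1 < Fintype.card F := Fintype.one_lt_card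
  have h5or : Fintype.card F = 3 ∨ 5 ≤ Fintype.card F := by
    obtain ⟨k, hk⟩ := hodd
    omega
  rcases H61.AschNCO.om_cases hodd (m := 4) (by norm_num) (by norm_num) hH with
    h | h | ⟨t, k, D, ht, hk, htk, h1, h2⟩ | ⟨t, D, rfl, h1, h2, h3⟩ | ⟨r, K, h1, h2, h3, h4, h5, h6⟩ |
    ⟨n₁, n₂, e, P, f₁, f₂, h1, h2, h3, -⟩ | h | ⟨k, e, P, f₁, h1, h2, h3, h4, h5, h6⟩ | h
  · exact Or.inl h
  · exact Or.inr (Or.inl h)
  · have h9 : 9 = t * k := by omega
    have hk3 : k = 3 := by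
      have hkd : k ∣ 3 ^ 2 := by
        have : k ∣ 9 := by rw [h9]; exact Dvd.intro_left t rfl
        simpa using this
      obtain ⟨j, hj, hj2⟩ := (Nat.dvd_prime_pow Nat.prime_three).1 hkd
      interval_cases j
      · simp at hj2; omega
      · simpa using hj2
      · have hk9 : k = 9 := by simpa using hj2
        rw [hk9] at h9
        omega
    subst hk3
    have ht3 : t = 3 := by omega
    subst ht3
    rcases h5or with hq | hq
    · have h2n := H95.OBridge.two_ne hodd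
      obtain ⟨Q, hQeq, hQ⟩ := H95.OBridge.quad_odd (F := F) 4 h2n
      rw [← hQeq] at h1 h2 hH ⊢
      have hΩI : Cfsg.Geo.omegaGL (⇑Q) ≤ isometryGroup F (⇑Q) := by
        intro g hg
        rw [H95.OBridge.mem_omegaGL] at hg
        rw [H95.OBridge.mem_iso]
        exact H95.OSie.omega_le_O Q hg
      obtain ⟨D', h3, h4⟩ := H61.AschNCO.blocks_three hq h1
      refine Or.inr (Or.inr (Or.inl ⟨by rw [hq]; norm_num, D', h3, ?_⟩))
      refine H97.AschCases.eq_of_max hH ?_ (H61.AschNCO.not_le_decomposition hQ (by simp) h2n h3.decomp.decomp)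
      rw [h2]
      exact fun g hg => h4 ⟨hg.1, hΩI hg.2⟩
    · exact Or.inr (Or.inr (Or.inr (Or.inl ⟨hq, D, h1, h2⟩)))
  · exact Or.inr (Or.inr (Or.inl ⟨h1, D, h2, h3⟩))
  · have hr : r = 3 := by
      have : r ∣ 3 ^ 2 := by simpa using h3
      exact (Nat.prime_dvd_prime_iff_eq h1 Nat.prime_three).mp (h1.dvd_of_dvd_pow this)
    subst hr
    exact Or.inr (Or.inr (Or.inr (Or.inr (Or.inl ⟨K, h4, h5, h6⟩))))
  · exfalso
    have h4 : 9 = n₁ * n₂ := by omega
    nlinarith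
  · exact Or.inr (Or.inr (Or.inr (Or.inr (Or.inr (Or.inl h)))))
  · have h4' : 9 = k ^ 2 := by omega
    have hk3 : k ≤ 3 := by nlinarith
    have hk3' : k = 3 := by omega
    subst hk3'
    have hq : 5 ≤ Fintype.card F := by
      rcases h5or with hq | hq
      · exact absurd ⟨hq, rfl⟩ h3
      · exact hq
    exact Or.inr (Or.inr (Or.inr (Or.inr (Or.inr (Or.inr (Or.inl ⟨hq, e, P, f₁, h4, h5, h6⟩))))))
  · exact Or.inr (Or.inr (Or.inr (Or.inr (Or.inr (Or.inr (Or.inr h))))))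

end Cfsg.Agent.S5835
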