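import Cfsg.Statements.S5844
import Cfsg.Agent.Lib.H97.AschSpElim

set_option autoImplicit false
open Cfsg

namespace Cfsg.Agent.S5844

/-- Every maximal subgroup of Sp_10(q) is of one of the listed geometric types or lies in the residual class. Let F be a finite field with q elements (characteristic p), f the standard alternating form on F^10 (coordinates Fin 5 ⊕ Fin 5), and H a maximal subgroup of Sp_10(F) (inside GL_10(F)). Then H is the intersection with Sp_10(F) of one of: the stabiliser of a non-zero totally isotropic subspace; the stabiliser of a non-zero non-degenerate subspace of dimension less than 5; for q ≥ 3, the stabiliser of a decomposition into 5 mutually orthogonal non-degenerate 2-spaces; for q odd, of a decomposition into two totally isotropic 5-spaces; the normaliser of a degree-5 subfield K of the matrix algebra, self-adjoint with f(k v, v) = 0; for q odd, the normaliser of a degree-2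 subfield closed under adjoints but not self-adjoint; for q odd, the stabiliser of a tensor decomposition of f into an alternating form on F^2 and a symmetric form on F^5; a subfield group (|F| = |F₀|^r, r prime) whose F₀-structure carries a non-zero multiple of f; for q even, the similarity group of a non-degenerate quadratic form polarising to f — or else H lies in the residual class of the symplectic case (modulo scalars H is almost simple, with absolutely irreducible perfect socle preimage realisable over no proper subfield and fixing no non-degenerate quadratic or unitary form). -/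
theorem result {F : Type*} [Field F] [Fintype F] (H : Subgroup (Matrix.GeneralLinearGroup (Fin 5 ⊕ Fin 5) F)) (hH : Cfsg.Geo.IsMaximalIn (Cfsg.spGL 5 F) H) :
    (∃ W : Submodule F (Fin 5 ⊕ Fin 5 → F), W ≠ ⊥ ∧ Cfsg.Geo.IsTotallySingularFor (Cfsg.sympForm 5 F) W ∧ H = Cfsg.Geo.subspaceStabilizer W ⊓ Cfsg.spGL 5 F) ∨
    (∃ W : Submodule F (Fin 5 ⊕ Fin 5 → F), W ≠ ⊥ ∧ Cfsg.Geo.IsNondegenerateOn (Cfsg.sympForm 5 F) W ∧ Module.finrank F W < 5 ∧ H = Cfsg.Geo.subspaceStabilizer W ⊓ Cfsg.spGL 5 F) ∨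
    (3 ≤ Fintype.card F ∧ ∃ D : Fin 5 → Submodule F (Fin 5 ⊕ Fin 5 → F), Cfsg.Geo.IsNondegenerateMDecomposition (Cfsg.sympForm 5 F) 2 D ∧ H = Cfsg.Geo.decompositionStabilizer D ⊓ Cfsg.spGL 5 F) ∨
    (Odd (Fintype.card F) ∧ ∃ D : Fin 2 → Submodule F (Fin 5 ⊕ Fin 5 → F), Cfsg.Geo.IsMDecomposition 5 D ∧ (∀ i, Cfsg.Geo.IsTotallySingularFor (Cfsg.sympForm 5 F) (D i)) ∧ H = Cfsg.Geo.decompositionStabilizer D ⊓ Cfsg.spGL 5 F) ∨
    (∃ K : Subalgebra F (Matrix (Fin 5 ⊕ Fin 5) (Fin 5 ⊕ Fin 5) F), Cfsg.Geo.IsFieldSubalgebra 5 K ∧ Cfsg.Geo.IsSelfAdjointFor (Cfsg.sympForm 5 F) K ∧ (∀ k ∈ K, ∀ v : (Fin 5 ⊕ Fin 5 → F), (Cfsg.sympForm 5 F) (Matrix.mulVec k v) v = 0) ∧ H = Cfsg.Geo.subalgebraNormalizer K ⊓ Cfsg.spGL 5 F) ∨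
    (Odd (Fintype.card F) ∧ ∃ K : Subalgebra F (Matrix (Fin 5 ⊕ Fin 5) (Fin 5 ⊕ Fin 5) F), Cfsg.Geo.IsFieldSubalgebra 2 K ∧ Cfsg.Geo.IsAdjointClosedFor (Cfsg.sympForm 5 F) K ∧ ¬ Cfsg.Geo.IsSelfAdjointFor (Cfsg.sympForm 5 F) K ∧ H = Cfsg.Geo.subalgebraNormalizer K ⊓ Cfsg.spGL 5 F) ∨
    (Odd (Fintype.card F) ∧ ∃ (e : (Fin 5 ⊕ Fin 5) ≃ Fin 2 × Fin 5) (P : Matrix.GeneralLinearGroup (Fin 5 ⊕ Fin 5) F) (f₁ : (Fin 2 → F) → (Fin 2 → F) → F) (f₂ : (Fin 5 → F) → (Fin 5 → F) → F), Cfsg.Geo.IsSymplecticForm f₁ ∧ Cfsg.Geo.IsSymmetricForm f₂ ∧ Cfsg.Geo.IsTensorFormStructure id (Cfsg.sympForm 5 F) f₁ f₂ e P ∧ H = Cfsg.Geo.tensorProductSubgroup 2 5 e P ⊓ Cfsg.spGL 5 F) ∨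
    (∃ (F₀ : Subfield F) (r : ℕ) (P : Matrix.GeneralLinearGroup (Fin 5 ⊕ Fin 5) F) (ζ : F), r.Prime ∧ Fintype.card F = Nat.card F₀ ^ r ∧ ζ ≠ 0 ∧ Cfsg.Geo.IsFormRationalStructure (Cfsg.sympForm 5 F) F₀ ζ P ∧ H = Cfsg.Geo.subfieldSubgroup F₀ P ⊓ Cfsg.spGL 5 F) ∨
    (¬ Odd (Fintype.card F) ∧ ∃ Q : (Fin 5 ⊕ Fin 5 → F) → F, Cfsg.Geo.IsNondegenerateQuadraticForm Q ∧ (∀ u v : (Fin 5 ⊕ Fin 5 → F), QuadraticMap.polar Q u v = (Cfsg.sympForm 5 F) u v) ∧ H = Cfsg.Geo.quadSimilarityGroup Q ⊓ Cfsg.spGL 5 F) ∨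
    Cfsg.Geo.InSymplecticResidualClass H := by
  rcases H97.AschSpCases.sp_cases (m := 5) (by norm_num) hH with ⟨W, h1, h2, h3⟩ | ⟨W, h1, h2, h3, h4⟩ |
    ⟨t, k, D, h1, h2, h3, h4, h5, h6⟩ | ⟨ho, D, h1, h2, h3⟩ | ⟨r, K, h1, h2, h3, h4, h5, h6⟩ | ⟨ho, K, h1, h2, h3, h4⟩ |
    ⟨ho, n₁, n₂, e, P, f₁, f₂, h1, h2, h3, h4, h5, h6, h7, h8⟩ |
    ⟨F₀, r, P, ζ, h1, h2, h3, h4, h5⟩ | ⟨R, p, k, -, -, -, -, -, -, -, -, -, h5, -⟩ |
    ⟨ho, k, t, e, P, f₁, h1, h2, h3, h4, h5, -⟩ | ⟨ho, Q, h1, h2, h3⟩ | h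
  · exact Or.inl ⟨W, h1, h2, h3⟩
  · right; left
    exact ⟨W, h1, h2, h3, h4⟩
  · -- t * k = 10, k even
    have h7 : k ≤ 5 := by nlinarith
    have h8 : k = 2 ∧ t = 5 := by
      obtain ⟨c, hc⟩ := h4
      interval_cases k
      · omega
      · omega
      · omega
      · omega
    obtain ⟨rfl, rfl⟩ := h8
    by_cases hq : 3 ≤ Fintype.card F
    · iterate 2 right
      left
      exact ⟨hq, D, h1, h6⟩
    · have hq1 : 1 < Fintype.card F := Fintype.one_lt_card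
      have hq2 : Fintype.card F = 2 := by omega
      obtain ⟨Q, hQ1, hQ2, hQ3⟩ := H97.AschSpElim.planes_quad hq2 (H96.AschSp.sympForm_symplectic 5 F) h1
      iterate 8 right
      left
      refine ⟨by rw [hq2]; decide, Q, hQ1, hQ2, H97.AschCases.eq_of_max hH ?_ (H97.AschNCSp.sp_not_quad
        (H96.AschSp.two_eq_zero_of_even (by rw [hq2]; decide)) (by norm_num) hQ1 hQ2)⟩
      rw [h6]
      exact inf_le_left.trans hQ3
  · iterate 3 right
    left
    exact ⟨ho, D, h1, h2, h3⟩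
  · iterate 4 right
    left
    have h7 : r = 5 := (Nat.prime_dvd_prime_iff_eq h1 (by norm_num)).mp h2
    subst h7
    exact ⟨K, h3, h4, h5, h6⟩
  · iterate 5 right
    left
    exact ⟨ho, K, h1, h2, h3, h4⟩
  · iterate 6 right
    left
    have h9 : n₁ = 2 ∧ n₂ = 5 := by
      have h10 : n₁ ≤ 3 := by nlinarith
      obtain ⟨c, hc⟩ := h1
      interval_cases n₁
      · omega
      · omega
    obtain ⟨rfl, rfl⟩ := h9
    exact ⟨ho, e, P, f₁, f₂, h5, h6, h7, h8⟩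
  · iterate 7 right
    left
    exact ⟨F₀, r, P, ζ, h1, h2, h3, h4, h5⟩
  · exfalso
    have h6 : 5 ∣ 2 ^ k := ⟨2, by omega⟩
    have h7 := (Nat.Prime.dvd_of_dvd_pow (by norm_num) h6)
    omega
  · exfalso
    have h6 : k ≤ 2 := by
      by_contra h7
      have h8 : 3 ^ 3 ≤ k ^ t := (Nat.pow_le_pow_left (by omega) 3).trans (Nat.pow_le_pow_right (by omega) h4)
      omega
    have h7 : k = 2 := by omega
    subst h7
    have h6 : 5 ∣ 2 ^ t := ⟨2, by omega⟩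
    have h7 := (Nat.Prime.dvd_of_dvd_pow (by norm_num) h6)
    omega
  · iterate 8 right
    left
    exact ⟨ho, Q, h1, h2, h3⟩
  · iterate 9 right
    exact h

end Cfsg.Agent.S5844
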