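import Cfsg.Statements.S5876
import Cfsg.Agent.Lib.H98.PrimSol
import Cfsg.Agent.Lib.H97.AschDecomp

set_option autoImplicit false
open Cfsg

namespace Cfsg.Agent.S5876

/-- Fixed-point spaces in primitive soluble linear groups. Let F be a finite field and G a soluble subgroup of GL_n(F) that acts irreducibly on F^n and primitively (G preserves no decomposition of F^n into two or more independent subspaces of equal dimension). Then every non-identity element g of G has fixed-point space {v : g v = v} of dimension at most 3n/4. -/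
theorem result {F : Type*} [Field F] [Fintype F] {n : ℕ} (G : Subgroup (Matrix.GeneralLinearGroup (Fin n) F)) (hsol : IsSolvable G) (hirr : Cfsg.Geo.ActsIrreducibly (Cfsg.Geo.matrixSet G)) (hprim : ∀ (m t : ℕ) (D : Fin t → Submodule F (Fin n → F)), 2 ≤ t → Cfsg.Geo.IsMDecomposition m D → ¬ G ≤ Cfsg.Geo.decompositionStabilizer D) (g : Matrix.GeneralLinearGroup (Fin n) F) (hg : g ∈ G) (hg1 : g ≠ 1) :
    4 * Module.finrank F (Module.End.eigenspace (Matrix.toLin' (g : Matrix (Fin n) (Fin n) F)) 1) ≤ 3 * n := by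
  classical
  haveI : Finite F := Finite.of_fintype F
  rcases Nat.eq_zero_or_pos n with rfl | hn
  · exact absurd (Units.ext (Matrix.ext fun i => i.elim0)) hg1
  haveI : Nonempty (Fin n) := ⟨⟨0, hn⟩⟩
  haveI : Finite G := inferInstance
  let ρ : G →* ((Fin n → F) →ₗ[F] (Fin n → F)) :=
    { toFun := fun g => Matrix.toLin' ((g : Matrix.GeneralLinearGroup (Fin n) F) : Matrix (Fin n) (Fin n) F)
      map_one' := by
        show Matrix.toLin' (1 : Matrix (Fin n) (Fin n) F) = 1
        rw [Matrix.toLin'_one]; rfl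
      map_mul' := by
        intro a b
        show Matrix.toLin' (((a : Matrix.GeneralLinearGroup (Fin n) F) : Matrix (Fin n) (Fin n) F) *
          ((b : Matrix.GeneralLinearGroup (Fin n) F) : Matrix (Fin n) (Fin n) F)) = _
        rw [Matrix.toLin'_mul]; rfl }
  have hmain := H98.PrimSol.main (Γ := G) hsol ρ ?_ ⟨g, hg⟩ (fun h => hg1 (congrArg Subtype.val h))
  · rw [Module.finrank_fin_fun] at hmain
    exact hmain
  · rintro A ⟨hAn, hAc⟩ z hz hz1 v hv
    -- the algebra generated by A
    let Z : Subalgebra F (Matrix (Fin n) (Fin n) F) := Algebra.adjoin F (Cfsg.Geo.matrixSet (A.map G.subtype))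
    have hcomm : ∀ x ∈ Z, ∀ y ∈ Z, x * y = y * x := by
      have hc : ∀ x ∈ Cfsg.Geo.matrixSet (A.map G.subtype), ∀ y ∈ Cfsg.Geo.matrixSet (A.map G.subtype), x * y = y * x := by
        rintro _ ⟨_, ⟨a, ha, rfl⟩, rfl⟩ _ ⟨_, ⟨b, hb, rfl⟩, rfl⟩
        have := hAc a ha b hb
        exact congrArg (fun c : G => ((c : Matrix.GeneralLinearGroup (Fin n) F) : Matrix (Fin n) (Fin n) F)) this
      have := Algebra.isMulCommutative_adjoin F hc
      intro x hx y hy
      exact setLike_mul_comm hx hy
    have hnorm : H97.AschRad.NormSet G (Z : Set (Matrix (Fin n) (Fin n) F)) := by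
      intro h hh x hx
      have hx' : x ∈ Algebra.adjoin F (Cfsg.Geo.matrixSet (A.map G.subtype)) := hx
      show (h : Matrix (Fin n) (Fin n) F) * x * ((h⁻¹ : Matrix.GeneralLinearGroup (Fin n) F) : Matrix (Fin n) (Fin n) F) ∈ Z
      induction hx' using Algebra.adjoin_induction with
      | mem a ha =>
        apply Algebra.subset_adjoin
        obtain ⟨_, ⟨a, ha, rfl⟩, rfl⟩ := ha
        refine ⟨_, ⟨⟨h, hh⟩ * a * ⟨h, hh⟩⁻¹, hAn.conj_mem a ha ⟨h, hh⟩, rfl⟩, rfl⟩
      | algebraMap c =>
        rw [← Algebra.commutes, mul_assoc, Units.mul_inv, mul_one]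
        exact Z.algebraMap_mem c
      | add a b _ _ iha ihb =>
        rw [mul_add, add_mul]
        exact Z.add_mem (iha (by assumption)) (ihb (by assumption))
      | mul a b _ _ iha ihb =>
        have : (h : Matrix (Fin n) (Fin n) F) * (a * b) * ((h⁻¹ : Matrix.GeneralLinearGroup (Fin n) F) : Matrix (Fin n) (Fin n) F) =
            ((h : Matrix (Fin n) (Fin n) F) * a * ((h⁻¹ : Matrix.GeneralLinearGroup (Fin n) F) : Matrix (Fin n) (Fin n) F)) *
            ((h : Matrix (Fin n) (Fin n) F) * b * ((h⁻¹ : Matrix.GeneralLinearGroup (Fin n) F) : Matrix (Fin n) (Fin n) F)) := by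
          have h1 : ((h⁻¹ : Matrix.GeneralLinearGroup (Fin n) F) : Matrix (Fin n) (Fin n) F) * (h : Matrix (Fin n) (Fin n) F) = 1 := Units.inv_mul h
          simp only [mul_assoc]
          rw [← mul_assoc ((h⁻¹ : Matrix.GeneralLinearGroup (Fin n) F) : Matrix (Fin n) (Fin n) F) (h : Matrix (Fin n) (Fin n) F), h1, one_mul]
        rw [this]
        exact Z.mul_mem (iha (by assumption)) (ihb (by assumption))
    rcases H97.AschDecomp.comm_dichotomy Z hcomm G hnorm hirr with ⟨t, m, D, hD, hle⟩ | hfield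
    · exact absurd hle (hprim m t D hD.two_le hD)
    · have hzZ : (((z : Matrix.GeneralLinearGroup (Fin n) F) : Matrix (Fin n) (Fin n) F)) ∈ Z :=
        Algebra.subset_adjoin ⟨_, ⟨z, hz, rfl⟩, rfl⟩
      have hz1Z : (((z : Matrix.GeneralLinearGroup (Fin n) F) : Matrix (Fin n) (Fin n) F)) - 1 ∈ Z := Z.sub_mem hzZ Z.one_mem
      have hne : (((z : Matrix.GeneralLinearGroup (Fin n) F) : Matrix (Fin n) (Fin n) F)) - 1 ≠ 0 := by
        intro h
        apply hz1
        apply Subtype.ext
        apply Units.ext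
        exact sub_eq_zero.mp h
      obtain ⟨y, hyZ, hy⟩ := hfield.inv _ hz1Z hne
      have hy' := hcomm _ hz1Z _ hyZ
      rw [hy] at hy'
      have h3 : Matrix.mulVec ((((z : Matrix.GeneralLinearGroup (Fin n) F) : Matrix (Fin n) (Fin n) F)) - 1) v = 0 := by
        rw [Matrix.sub_mulVec, Matrix.one_mulVec]
        have hv' : Matrix.mulVec (((z : Matrix.GeneralLinearGroup (Fin n) F) : Matrix (Fin n) (Fin n) F)) v = v := hv
        rw [hv', sub_self]
      have h4 : v = Matrix.mulVec (y * ((((z : Matrix.GeneralLinearGroup (Fin n) F) : Matrix (Fin n) (Fin n) F)) - 1)) v := by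
        rw [← hy', Matrix.one_mulVec]
      rw [h4, ← Matrix.mulVec_mulVec, h3, Matrix.mulVec_zero]

end Cfsg.Agent.S5876
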