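import Cfsg.Statements.S5877
import Cfsg.Agent.Lib.H98.ExED

set_option autoImplicit false
open Cfsg

namespace Cfsg.Agent.S5877

open scoped commutatorElement
open Cfsg.Geo

section
variable {F : Type*} [Field F] {n : ℕ}

/-- the natural representation -/
noncomputable def rho (n : ℕ) (F : Type*) [Field F] : Matrix.GeneralLinearGroup (Fin n) F →* Module.End F (Fin n → F) where
  toFun g := Matrix.toLin' (g : Matrix (Fin n) (Fin n) F)
  map_one' := by rw [Units.val_one, Matrix.toLin'_one]; rfl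
  map_mul' x y := by rw [Units.val_mul, Matrix.toLin'_mul]; rfl

theorem rho_apply (g : Matrix.GeneralLinearGroup (Fin n) F) : rho n F g = Matrix.toLin' (g : Matrix (Fin n) (Fin n) F) := rfl

theorem setup [Finite F] {r : ℕ} (R : Subgroup (Matrix.GeneralLinearGroup (Fin n) F)) (hr : r.Prime)
    (hZ : Nat.card (Subgroup.center R) = r) (hext : commutator R = Subgroup.center R)
    (hirr : Cfsg.Geo.ActsAbsolutelyIrreducibly (Cfsg.Geo.matrixSet R)) (g : Matrix.GeneralLinearGroup (Fin n) F)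
    (hg : g ∈ Cfsg.Geo.subgroupNormalizer (R ⊔ Cfsg.Geo.scalars (Fin n) F)) :
    H98.ExED.Setup (rho n F) (R ⊔ Cfsg.Geo.scalars (Fin n) F) (Cfsg.Geo.scalars (Fin n) F) r g := by
  set Z := Cfsg.Geo.scalars (Fin n) F with hZdef
  have hcen : Z ≤ Subgroup.center _ := by
    intro z hz
    rw [Subgroup.mem_center_iff]
    intro x
    rw [hZdef, mem_scalars_iff] at hz
    obtain ⟨c, hc⟩ := hz
    apply Units.ext
    rw [Units.val_mul, Units.val_mul, hc]
    simp
  have hZs : ∀ z ∈ Z, ∃ c : F, c ≠ 0 ∧ ∀ v, rho n F z v = c • v := by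
    intro z hz
    rw [hZdef, mem_scalars_iff] at hz
    obtain ⟨c, hc⟩ := hz
    refine ⟨c, c.ne_zero, fun v => ?_⟩
    rw [rho_apply, hc]
    simp
  have hfaith : ∀ z, (∀ v, rho n F z v = v) → z = 1 := by
    intro z hz
    apply Units.ext
    apply Matrix.toLin'.injective
    apply LinearMap.ext
    intro v
    rw [Units.val_one, Matrix.toLin'_one]
    exact hz v
  have hC : ∀ x, (∀ y ∈ R, x * y = y * x) → x ∈ Z := by
    intro x hx
    obtain ⟨c, hc⟩ := hirr.2 (x : Matrix (Fin n) (Fin n) F) (by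
      rintro _ ⟨y, hy, rfl⟩
      have := hx y hy
      show (x : Matrix (Fin n) (Fin n) F) * (y : Matrix (Fin n) (Fin n) F) = (y : Matrix (Fin n) (Fin n) F) * (x : Matrix (Fin n) (Fin n) F)
      rw [← Units.val_mul, ← Units.val_mul, this])
    rw [hZdef, mem_scalars_iff]
    rcases Nat.eq_zero_or_pos n with hn | hn
    · subst hn
      exact ⟨1, Subsingleton.elim _ _⟩
    · have hc0 : c ≠ 0 := by
        rintro rfl
        rw [zero_smul] at hc
        haveI : Nonempty (Fin n) := ⟨⟨0, hn⟩⟩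
        exact x.ne_zero hc
      exact ⟨Units.mk0 c hc0, hc⟩
  have hcR : ∀ z : R, z ∈ Subgroup.center R → (z : Matrix.GeneralLinearGroup (Fin n) F) ∈ Z := by
    intro z hz
    apply hC
    intro y hy
    exact (congrArg Subtype.val (Subgroup.mem_center_iff.mp hz ⟨y, hy⟩)).symm
  have hRc : ∀ a b : R, ⁅a, b⁆ ∈ Subgroup.center R := by
    intro a b
    rw [← hext]
    exact Subgroup.commutator_mem_commutator (Subgroup.mem_top _) (Subgroup.mem_top _)
  have hRR : ∀ a ∈ R, ∀ b ∈ R, ⁅a, b⁆ ∈ Z := by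
    intro a ha b hb
    exact hcR _ (hRc ⟨a, ha⟩ ⟨b, hb⟩)
  have hRR' : ∀ a ∈ R, ∀ b ∈ R, ⁅a, b⁆ ^ r = 1 := by
    intro a ha b hb
    have h1 : (⟨⁅(⟨a, ha⟩ : R), (⟨b, hb⟩ : R)⁆, hRc ⟨a, ha⟩ ⟨b, hb⟩⟩ : Subgroup.center R) ^ r = 1 := by
      rw [← hZ]; exact pow_card_eq_one'
    have h2 := congrArg (fun t : Subgroup.center R => ((t : R) : Matrix.GeneralLinearGroup (Fin n) F)) h1
    exact h2
  have hsup : ∀ x, x ∈ R ⊔ Z ↔ ∃ a ∈ R, ∃ s ∈ Z, a * s = x := by
    intro x
    exact Subgroup.mem_sup_of_normal_right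
  have hcm : ∀ s ∈ Z, ∀ x, x * s = s * x := fun s hs x => Subgroup.mem_center_iff.mp (hcen hs) x
  have hred : ∀ x ∈ R ⊔ Z, ∀ y ∈ R ⊔ Z, ∃ a ∈ R, ∃ b ∈ R, ⁅x, y⁆ = ⁅a, b⁆ := by
    intro x hx y hy
    obtain ⟨a, ha, s, hs, rfl⟩ := (hsup x).mp hx
    obtain ⟨b, hb, t, ht, rfl⟩ := (hsup y).mp hy
    refine ⟨a, ha, b, hb, ?_⟩
    have e1 : ⁅s, b * t⁆ = 1 := commutatorElement_eq_one_iff_mul_comm.mpr (hcm s hs _).symm
    have e2 : ⁅a, t⁆ = 1 := commutatorElement_eq_one_iff_mul_comm.mpr (hcm t ht _)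
    rw [H98.ExEC.comm_mul_left hcen (by rw [e1]; exact Z.one_mem), e1, mul_one,
      H98.ExEC.comm_mul_right hcen (hRR a ha b hb) (by rw [e2]; exact Z.one_mem), e2, mul_one]
  have hMM : ∀ x ∈ R ⊔ Z, ∀ y ∈ R ⊔ Z, ⁅x, y⁆ ∈ Z := by
    intro x hx y hy
    obtain ⟨a, ha, b, hb, h⟩ := hred x hx y hy
    rw [h]; exact hRR a ha b hb
  have hMM' : ∀ x ∈ R ⊔ Z, ∀ y ∈ R ⊔ Z, ⁅x, y⁆ ^ r = 1 := by
    intro x hx y hy
    obtain ⟨a, ha, b, hb, h⟩ := hred x hx y hy
    rw [h]; exact hRR' a ha b hb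
  refine ⟨hr, hcen, le_sup_right, hMM, hMM', ?_, ?_, hZs, hfaith, ?_, ?_⟩
  · intro x hx
    apply hC
    intro y hy
    have hy' : y ∈ R ⊔ Z := Subgroup.mem_sup_left hy
    rw [← commutatorElement_eq_one_iff_mul_comm, ← hMM' x hx y hy']
    have h1 : ∀ k : ℕ, ⁅x ^ k, y⁆ = ⁅x, y⁆ ^ k := by
      intro k
      induction k with
      | zero => simp
      | succ k ih => rw [pow_succ, H98.ExEC.comm_mul_left hcen (hMM x hx y hy'), ih, ← pow_succ]
    exact h1 r
  · intro x hx
    exact hC x (fun y hy => hx y (Subgroup.mem_sup_left hy))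
  · intro x hx
    exact (Subgroup.mem_normalizer_iff.mp hg x).mp hx
  · intro x hx
    have h1 := (Subgroup.mem_normalizer_iff.mp ((Cfsg.Geo.subgroupNormalizer (R ⊔ Z)).inv_mem hg) x).mp hx
    rwa [inv_inv] at h1

end

/-- Eigenspaces of elements normalising an absolutely irreducible extraspecial group. Let F be a finite field, r a prime, and R ≤ GL_n(F) an absolutely irreducible extraspecial r-group (an r-group whose centre equals its derived subgroup and has order r) of exponent r or 4. Let g ∈ GL_n(F) normalise the product of R with the scalar matrices, have prime order ϖ and not be scalar, and let W be the eigenspace of g for any c ∈ F (W may be the zero subspace). Then dim W ≤ 3n/4 if ϖ = 2, dim W ≤ 2n/3 if ϖ = 3, and dim W ≤ n/2 if ϖ > 3; moreover if ϖ = 3 and 3 does not divide n then dim W ≤ n/2. -/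
theorem result {F : Type*} [Field F] [Fintype F] {n r ϖ : ℕ} (R : Subgroup (Matrix.GeneralLinearGroup (Fin n) F)) (hr : r.Prime) (hR : IsPGroup r R) (hZ : Nat.card (Subgroup.center R) = r) (hext : commutator R = Subgroup.center R) (hexp : Monoid.exponent R = r ∨ Monoid.exponent R = 4) (hirr : Cfsg.Geo.ActsAbsolutelyIrreducibly (Cfsg.Geo.matrixSet R)) (g : Matrix.GeneralLinearGroup (Fin n) F) (hg : g ∈ Cfsg.Geo.subgroupNormalizer (R ⊔ Cfsg.Geo.scalars (Fin n) F)) (hϖ : ϖ.Prime) (hord : orderOf g = ϖ) (hns : g ∉ Cfsg.Geo.scalars (Fin n) F) (c : F) :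
    (ϖ = 2 → 4 * Module.finrank F (Module.End.eigenspace (Matrix.toLin' (g : Matrix (Fin n) (Fin n) F)) c) ≤ 3 * n) ∧
    (ϖ = 3 → 3 * Module.finrank F (Module.End.eigenspace (Matrix.toLin' (g : Matrix (Fin n) (Fin n) F)) c) ≤ 2 * n) ∧
    (3 < ϖ → 2 * Module.finrank F (Module.End.eigenspace (Matrix.toLin' (g : Matrix (Fin n) (Fin n) F)) c) ≤ n) ∧
    (ϖ = 3 → ¬ 3 ∣ n → 2 * Module.finrank F (Module.End.eigenspace (Matrix.toLin' (g : Matrix (Fin n) (Fin n) F)) c) ≤ n) := by
  classical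
  set d := Module.finrank F (Module.End.eigenspace (Matrix.toLin' (g : Matrix (Fin n) (Fin n) F)) c) with hd
  have hS := setup R hr hZ hext hirr g hg
  have hgp : g ^ ϖ = 1 := by rw [← hord]; exact pow_orderOf_eq_one g
  have hn : Module.finrank F (Fin n → F) = n := by simp
  by_cases hc : c = 0
  · have hd0 : d = 0 := by
      rw [hd, hc]
      have : Module.End.eigenspace (Matrix.toLin' (g : Matrix (Fin n) (Fin n) F)) 0 = ⊥ := by
        rw [eq_bot_iff]
        intro v hv
        rw [Module.End.mem_eigenspace_iff, zero_smul] at hv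
        have h1 := H98.ExEA.rho_inv (rho n F) g v
        rw [rho_apply g, hv, map_zero] at h1
        exact h1.symm
      rw [this, finrank_bot]
    rw [hd0]
    simp
  have hA : (∀ x ∈ R ⊔ Cfsg.Geo.scalars (Fin n) F, x⁻¹ * (g * x * g⁻¹) ∈ Cfsg.Geo.scalars (Fin n) F) → 2 * d ≤ n := by
    intro h1
    have hex : ∃ x ∈ R ⊔ Cfsg.Geo.scalars (Fin n) F, x⁻¹ * (g * x * g⁻¹) ≠ 1 := by
      by_contra hcon
      push Not at hcon
      apply hns
      apply hS.hC
      intro y hy
      have := hcon y hy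
      rw [inv_mul_eq_one, eq_mul_inv_iff_mul_eq] at this
      exact this.symm
    obtain ⟨x, hx, hne⟩ := hex
    have := hS.caseA hc (h1 x hx) hne
    rw [hn] at this
    exact this
  have hB : 2 * d ≤ n ∨ ∃ f : ℕ, 2 * d ≤ n + f ∧ r * f ≤ n := by
    by_cases h1 : ∀ x ∈ R ⊔ Cfsg.Geo.scalars (Fin n) F, x⁻¹ * (g * x * g⁻¹) ∈ Cfsg.Geo.scalars (Fin n) F
    · exact Or.inl (hA h1)
    · push Not at h1
      obtain ⟨x, hx, hne⟩ := h1
      have := hS.caseB hx hc hne
      rw [hn] at this
      exact Or.inr this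
  have hCo : ϖ ≠ 2 → r ≠ ϖ → 2 * d ≤ n := by
    intro h1 h2
    have := hS.coprime hϖ h1 h2 hgp hns hc
    rw [hn] at this
    exact this
  have hr2 := hr.two_le
  refine ⟨?_, ?_, ?_, ?_⟩
  · intro _
    rcases hB with h1 | ⟨f, h1, h2⟩
    · omega
    · have : 2 * f ≤ r * f := Nat.mul_le_mul_right _ hr2
      omega
  · intro h3
    rcases Nat.lt_or_ge r 3 with h4 | h4
    · have := hCo (by omega) (by omega)
      omega
    · rcases hB with h1 | ⟨f, h1, h2⟩
      · omega
      · have : 3 * f ≤ r * f := Nat.mul_le_mul_right _ h4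
        omega
  · intro h3
    by_cases hrϖ : r = ϖ
    · have hr5 : 5 ≤ r := by
        have h4 : r ≠ 4 := by rintro rfl; exact absurd hr (by norm_num)
        omega
      have hexp' : Monoid.exponent R = r := by
        rcases hexp with h5 | h5
        · exact h5
        · exfalso
          have h6 : r ∣ Monoid.exponent R := by
            haveI : Fact r.Prime := ⟨hr⟩
            have h7 : r ∣ Nat.card R := by
              rw [← hZ]; exact Subgroup.card_subgroup_dvd_card _
            obtain ⟨x, hx⟩ := exists_prime_orderOf_dvd_card' r h7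
            rw [← hx]
            exact Monoid.order_dvd_exponent x
          rw [h5] at h6
          have := Nat.le_of_dvd (by norm_num) h6
          omega
      have hRr : ∀ a ∈ R, a ^ r = 1 := by
        intro a ha
        have := Monoid.pow_exponent_eq_one (⟨a, ha⟩ : R)
        rw [hexp'] at this
        exact congrArg Subtype.val this
      have hE : ∀ x ∈ R ⊔ Cfsg.Geo.scalars (Fin n) F, (x⁻¹ * (g * x * g⁻¹)) ^ r = 1 := by
        intro x hx
        obtain ⟨a, ha, s, hs, rfl⟩ := Subgroup.mem_sup_of_normal_right.mp hx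
        have hcs := fun y => Subgroup.mem_center_iff.mp (hS.hZ hs) y
        have e1 : (a * s)⁻¹ * (g * (a * s) * g⁻¹) = a⁻¹ * (g * a * g⁻¹) := by
          have : g * (a * s) * g⁻¹ = s * (g * a * g⁻¹) := by
            rw [hcs a, ← mul_assoc, hcs g]
            group
          rw [this, mul_inv_rev, mul_assoc, ← mul_assoc a⁻¹ s, hcs a⁻¹, mul_assoc s, inv_mul_cancel_left]
        rw [e1]
        obtain ⟨b, hb, t, ht, hbt⟩ := Subgroup.mem_sup_of_normal_right.mp (hS.hg a (Subgroup.mem_sup_left ha))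
        have hct := fun y => Subgroup.mem_center_iff.mp (hS.hZ ht) y
        have htr : t ^ r = 1 := by
          have e2 : (g * a * g⁻¹) ^ r = 1 := by
            rw [conj_pow, hRr a ha, mul_one, mul_inv_cancel]
          rw [← hbt, (show Commute b t from hct b).mul_pow, hRr b hb, one_mul] at e2
          exact e2
        rw [← hbt, ← mul_assoc, (show Commute (a⁻¹ * b) t from hct _).mul_pow, htr, mul_one]
        exact hRr _ (R.mul_mem (R.inv_mem ha) hb)
      have hgr : g ^ r = 1 := by rw [hrϖ]; exact hgp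
      have := hS.equal hr5 hgr hE hns hc
      rw [hn] at this
      exact this
    · exact hCo (by omega) hrϖ
  · intro h3 h4
    by_cases hr3 : r = 3
    · -- 3 ∣ n
      by_cases h1 : ∀ x ∈ R ⊔ Cfsg.Geo.scalars (Fin n) F, x⁻¹ * (g * x * g⁻¹) ∈ Cfsg.Geo.scalars (Fin n) F
      · exact hA h1
      · exfalso
        push Not at h1
        obtain ⟨x, hx, hne⟩ := h1
        have hex : ∃ z ∈ R ⊔ Cfsg.Geo.scalars (Fin n) F, (x⁻¹ * (g * x * g⁻¹)) * z ≠ z * (x⁻¹ * (g * x * g⁻¹)) := by
          by_contra hcon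
          push Not at hcon
          exact hne (hS.hC _ hcon)
        obtain ⟨z, hz, hyz⟩ := hex
        obtain ⟨ω, hω, hωv⟩ := hS.scal (hS.YM hx) hz hyz
        apply h4
        rw [← hr3]
        have e1 : (⁅x⁻¹ * (g * x * g⁻¹), z⁆ : Matrix.GeneralLinearGroup (Fin n) F).val = ω • (1 : Matrix (Fin n) (Fin n) F) := by
          apply Matrix.toLin'.injective
          apply LinearMap.ext
          intro v
          have := hωv v
          rw [rho_apply] at this
          rw [this]
          simp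
        have e2 : Matrix.det (⁅x⁻¹ * (g * x * g⁻¹), z⁆ : Matrix.GeneralLinearGroup (Fin n) F).val = 1 := by
          have : Matrix.GeneralLinearGroup.det ⁅x⁻¹ * (g * x * g⁻¹), z⁆ = 1 := by
            rw [map_commutatorElement, commutatorElement_eq_one_iff_mul_comm, mul_comm]
          exact congrArg Units.val this
        rw [e1, Matrix.det_smul, Matrix.det_one, mul_one, Fintype.card_fin] at e2
        exact (hω.pow_eq_one_iff_dvd n).mp e2
    · exact hCo (by omega) (by omega)

end Cfsg.Agent.S5877
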