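import Cfsg.Statements.S5942
import Cfsg.Agent.Lib.H98.DicksonSub

set_option autoImplicit false
open Cfsg

namespace Cfsg.Agent.S5942

/-- Let K and F be finite fields of odd characteristic with #F = (#K)^r for an odd prime r. Then PSL_2(F) has a maximal subgroup isomorphic to PSL_2(K). -/
theorem result {F K : Type*} [Field F] [Fintype F] [Field K] [Fintype K] (q r : ℕ) (hK : Fintype.card K = q) (hF : Fintype.card F = q ^ r) (hq : Odd q) (hr : r.Prime) (hr2 : r ≠ 2) : ∃ H : Subgroup (Matrix.ProjectiveSpecialLinearGroup (Fin 2) F), IsCoatom H ∧ Nonempty (H ≃* Matrix.ProjectiveSpecialLinearGroup (Fin 2) K) := by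
  classical
  haveI hfG : Finite (Matrix.ProjectiveSpecialLinearGroup (Fin 2) F) := inferInstanceAs (Finite (_ ⧸ _))
  have hK' : Nat.card K = q := by rw [Nat.card_eq_fintype_card, hK]
  have hF' : Nat.card F = q ^ r := by rw [Nat.card_eq_fintype_card, hF]
  have h1K : 1 < Nat.card K := Finite.one_lt_card
  have hFK : Nat.card F = Nat.card K ^ r := by rw [hF', hK']
  have hKo : Odd (Nat.card K) := by rw [hK']; exact hq
  have hFo : Odd (Nat.card F) := by rw [hF']; exact hq.pow
  have h1F : 1 < Nat.card F := Finite.one_lt_card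
  obtain ⟨f⟩ := H98.DicksonSub.exists_ringHom K F r hFK
  let ψ := H98.DicksonSub.pslMap f
  have hψ : Function.Injective ψ := H98.DicksonSub.pslMap_injective f
  obtain ⟨p, hpc⟩ := CharP.exists F
  haveI hpp : Fact p.Prime := ⟨CharP.char_is_prime F p⟩
  have hpsl := H98.DicksonPGL.card_psl_eq K
  rw [H98.DicksonIdx.gcd_odd hKo] at hpsl
  have hpF := H98.DicksonPGL.card_psl_eq F
  rw [H98.DicksonIdx.gcd_odd hFo] at hpF
  have hc : 2 * Nat.card ψ.range = (Nat.card K + 1) * (Nat.card K * (Nat.card K - 1)) := by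
    rw [← hpsl]
    congr 1
    exact (Nat.card_congr (MonoidHom.ofInjective hψ).toEquiv).symm
  have hro : Odd r := hr.odd_of_ne_two hr2
  refine ⟨ψ.range, ?_, ⟨(MonoidHom.ofInjective hψ).symm⟩⟩
  have hlt : Nat.card K < Nat.card F := by
    rw [hFK]
    calc Nat.card K = Nat.card K ^ 1 := (pow_one _).symm
      _ < Nat.card K ^ r := Nat.pow_lt_pow_right h1K hr.one_lt
  apply H98.DicksonMax.coatom_of
  · intro htop
    rw [htop, Subgroup.card_top, hpF] at hc
    have h2 : (Nat.card K + 1) * (Nat.card K * (Nat.card K - 1)) < (Nat.card F + 1) * (Nat.card F * (Nat.card F - 1)) :=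
      Nat.mul_lt_mul_of_lt_of_le (by omega) (Nat.mul_le_mul hlt.le (by omega)) (Nat.mul_pos (by omega) (by omega))
    omega
  · intro M hle hM
    have hMG : 2 * Nat.card M ∣ (Nat.card F + 1) * (Nat.card F * (Nat.card F - 1)) := by
      rw [← hpF]; exact Nat.mul_dvd_mul_left 2 (Subgroup.card_subgroup_dvd_card M)
    have hdM : Nat.card ψ.range ∣ Nat.card M := Subgroup.card_dvd_of_le hle
    have hleM := Nat.le_of_dvd Nat.card_pos hdM
    have hK3 : 3 ≤ Nat.card K := by obtain ⟨s, hs⟩ := hKo; omega
    rcases H98.DicksonSub.sub_list p K r hr hFK (by omega) ψ hψ M hM hle with h | ⟨-, h⟩ | ⟨h2, h3, h⟩ | ⟨h2, h5, h⟩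
    · exfalso
      rw [h] at hMG
      -- 2 (q^2 - 1) divides Q (Q^2-1)
      set N := Nat.card K ^ 2 - 1 with hN
      have hNe : Nat.card K ^ 2 = N + 1 := by
        have : 1 ≤ Nat.card K ^ 2 := Nat.one_le_pow _ _ (by omega)
        omega
      have e1 : 2 * ((Nat.card K + 1) * (Nat.card K * (Nat.card K - 1))) = (2 * N) * Nat.card K := by
        rw [hN, ← H98.DicksonSub.sq_sub_one _ h1K.le]; ring
      have e2 : (Nat.card F + 1) * (Nat.card F * (Nat.card F - 1)) = (Nat.card F ^ 2 - 1) * Nat.card F := by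
        rw [← H98.DicksonSub.sq_sub_one _ h1F.le]; ring
      rw [e1, e2] at hMG
      have hN2 : 2 ∣ N := by
        obtain ⟨s, hs⟩ := hKo
        rw [hN, hs]
        refine ⟨2 * s * s + 2 * s, ?_⟩
        have : (2 * s + 1) ^ 2 = 2 * (2 * s * s + 2 * s) + 1 := by ring
        omega
      have hcop : Nat.Coprime (2 * N) (Nat.card F) := by
        rw [hFK]
        apply Nat.Coprime.pow_right
        apply Nat.Coprime.mul_left
        · exact Nat.coprime_two_left.mpr hKo
        · have h1 : Nat.Coprime N (N + 1) := by simp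
          rw [← hNe] at h1
          exact Nat.Coprime.coprime_dvd_right (dvd_pow_self _ (by norm_num)) h1
      have h1 : 2 * N ∣ Nat.card F ^ 2 - 1 := hcop.dvd_of_dvd_mul_right ((Dvd.intro _ rfl).trans hMG)
      -- x^r = 1 + r N mod 2 N
      have key : ∀ j : ℕ, (N + 1) ^ j ≡ 1 + j * N [MOD (2 * N)] := by
        intro j
        induction j with
        | zero => simp; exact Nat.ModEq.refl _
        | succ j ih =>
          rw [pow_succ]
          refine (ih.mul_right (N + 1)).trans ?_
          obtain ⟨c, hc⟩ := hN2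
          have hNN : N * N = N * (2 * c) := congrArg (fun z => N * z) hc
          have e3 : (1 + j * N) * (N + 1) = 1 + (j + 1) * N + (2 * N) * (j * c) := by
            have h1 : (1 + j * N) * (N + 1) = 1 + (j + 1) * N + j * (N * N) := by ring
            rw [h1, hNN]; ring
          rw [e3]
          exact (Nat.modEq_iff_dvd' (by omega)).mpr (by simp) |>.symm
      have h2 : (N + 1) ^ r = Nat.card F ^ 2 := by
        rw [← hNe, hFK, ← pow_mul, ← pow_mul, mul_comm]
      have h3 := key r
      rw [h2] at h3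
      have h4 : Nat.card F ^ 2 ≡ 1 [MOD (2 * N)] :=
        ((Nat.modEq_iff_dvd' (Nat.one_le_pow _ _ (by omega))).mpr h1).symm
      have h5 := h4.symm.trans h3
      have h6 : 2 * N ∣ r * N := by
        have := (Nat.modEq_iff_dvd' (by omega)).mp h5
        simpa using this
      have hNpos : 0 < N := by
        have : 3 ^ 2 ≤ Nat.card K ^ 2 := Nat.pow_le_pow_left hK3 2
        omega
      have h7 := Nat.dvd_of_mul_dvd_mul_right hNpos h6
      rw [Nat.odd_iff] at hro
      omega
    · omega
    · exfalso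
      obtain ⟨a, ha1, ha⟩ := H98.DicksonIdx.char_dvd (F := F) p
      have hK5 : 5 ≤ Nat.card K := by
        by_contra hlt
        have hK3' : Nat.card K = 3 := by obtain ⟨s, hs⟩ := hKo; omega
        rw [hFK, hK3'] at ha
        have : p ∣ 3 ^ r := by rw [ha]; exact dvd_pow_self p (by omega)
        exact h3 ((Nat.prime_dvd_prime_iff_eq hpp.out Nat.prime_three).mp (hpp.out.dvd_of_dvd_pow this))
      have : 6 * (5 * 4) ≤ (Nat.card K + 1) * (Nat.card K * (Nat.card K - 1)) :=
        Nat.mul_le_mul (by omega) (Nat.mul_le_mul hK5 (by omega))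
      omega
    · exfalso
      obtain ⟨a, ha1, ha⟩ := H98.DicksonIdx.char_dvd (F := F) p
      have hK7 : Nat.card K < 7 := by
        by_contra hge
        have : 8 * (7 * 6) ≤ (Nat.card K + 1) * (Nat.card K * (Nat.card K - 1)) :=
          Nat.mul_le_mul (by omega) (Nat.mul_le_mul (by omega) (by omega))
        omega
      have hK5 : Nat.card K ≠ 5 := by
        intro hK5
        rw [hFK, hK5] at ha
        have : p ∣ 5 ^ r := by rw [ha]; exact dvd_pow_self p (by omega)
        exact h5 ((Nat.prime_dvd_prime_iff_eq hpp.out Nat.prime_five).mp (hpp.out.dvd_of_dvd_pow this))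
      have hK3' : Nat.card K = 3 := by obtain ⟨s, hs⟩ := hKo; omega
      rw [h] at hMG
      have h5G : 5 ∣ (Nat.card F + 1) * (Nat.card F * (Nat.card F - 1)) := (by norm_num : 5 ∣ 2 * 60).trans hMG
      have e2 : (Nat.card F + 1) * (Nat.card F * (Nat.card F - 1)) = (Nat.card F ^ 2 - 1) * Nat.card F := by
        rw [← H98.DicksonSub.sq_sub_one _ h1F.le]; ring
      rw [e2] at h5G
      have h5F : ¬ 5 ∣ Nat.card F := by
        rw [hFK, hK3']
        intro h6
        have := Nat.prime_five.dvd_of_dvd_pow h6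
        omega
      have h6 : 5 ∣ Nat.card F ^ 2 - 1 := ((Nat.Prime.dvd_mul Nat.prime_five).mp h5G).resolve_right h5F
      have h7 : Nat.card F ^ 2 ≡ 1 [MOD 5] := ((Nat.modEq_iff_dvd' (Nat.one_le_pow _ _ (by omega))).mpr h6).symm
      have h8 : ∀ s : ℕ, (3 ^ (2 * s + 1)) ^ 2 % 5 = 4 := by
        intro s
        induction s with
        | zero => norm_num
        | succ s ih =>
          have : (3 ^ (2 * (s + 1) + 1)) ^ 2 = 81 * (3 ^ (2 * s + 1)) ^ 2 := by ring
          rw [this, Nat.mul_mod, ih]
      obtain ⟨s, hs⟩ := hro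
      rw [hFK, hK3', hs] at h7
      have h9 := h8 s
      unfold Nat.ModEq at h7
      omega

end Cfsg.Agent.S5942
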