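import Cfsg.Statements.S5943
import Cfsg.Agent.Lib.H98.DicksonSub

set_option autoImplicit false
open Cfsg

namespace Cfsg.Agent.S5943

/-- Let K and F be finite fields of characteristic 2 with #K = q > 2 and #F = q^r for a prime r. Then PSL_2(F) has a maximal subgroup isomorphic to PSL_2(K) (which equals PGL_2(K) in characteristic 2). -/
theorem result {F K : Type*} [Field F] [Fintype F] [Field K] [Fintype K] (q r : ℕ) (hK : Fintype.card K = q) (hF : Fintype.card F = q ^ r) (hq : Even q) (hq2 : q ≠ 2) (hr : r.Prime) : ∃ H : Subgroup (Matrix.ProjectiveSpecialLinearGroup (Fin 2) F), IsCoatom H ∧ Nonempty (H ≃* Matrix.ProjectiveSpecialLinearGroup (Fin 2) K) := by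
  classical
  haveI hfG : Finite (Matrix.ProjectiveSpecialLinearGroup (Fin 2) F) := inferInstanceAs (Finite (_ ⧸ _))
  have hK' : Nat.card K = q := by rw [Nat.card_eq_fintype_card, hK]
  have hF' : Nat.card F = q ^ r := by rw [Nat.card_eq_fintype_card, hF]
  have h1K : 1 < Nat.card K := Finite.one_lt_card
  have hFK : Nat.card F = Nat.card K ^ r := by rw [hF', hK']
  obtain ⟨f⟩ := H98.DicksonSub.exists_ringHom K F r hFK
  let ψ := H98.DicksonSub.pslMap f
  have hψ : Function.Injective ψ := H98.DicksonSub.pslMap_injective f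
  haveI : CharP K 2 := H98.DicksonDih.charP_two_of_even (by rw [hK']; exact hq)
  haveI : CharP F 2 := (RingHom.charP_iff f f.injective 2).mp inferInstance
  haveI : Fact (Nat.Prime 2) := ⟨Nat.prime_two⟩
  have hpsl := H98.DicksonPGL.card_psl_eq K
  rw [H98.DicksonIdx.gcd_even (by rw [hK']; exact hq) (by omega), one_mul] at hpsl
  have hc : Nat.card ψ.range = (Nat.card K + 1) * (Nat.card K * (Nat.card K - 1)) := by
    rw [← hpsl]; exact (Nat.card_congr (MonoidHom.ofInjective hψ).toEquiv).symm
  refine ⟨ψ.range, ?_, ⟨(MonoidHom.ofInjective hψ).symm⟩⟩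
  have hFe : Even (Nat.card F) := H98.DicksonIdx.even_of_two
  apply H98.DicksonMax.coatom_of
  · intro htop
    have hpF := H98.DicksonPGL.card_psl_eq F
    have h1F : 1 < Nat.card F := Finite.one_lt_card
    rw [H98.DicksonIdx.gcd_even hFe (by omega), one_mul] at hpF
    rw [htop, Subgroup.card_top, hpF] at hc
    have hlt : Nat.card K < Nat.card F := by
      rw [hFK]
      calc Nat.card K = Nat.card K ^ 1 := (pow_one _).symm
        _ < Nat.card K ^ r := Nat.pow_lt_pow_right h1K hr.one_lt
    have h2 : (Nat.card K + 1) * (Nat.card K * (Nat.card K - 1)) < (Nat.card F + 1) * (Nat.card F * (Nat.card F - 1)) :=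
      Nat.mul_lt_mul_of_lt_of_le (by omega) (Nat.mul_le_mul hlt.le (by omega)) (Nat.mul_pos (by omega) (by omega))
    omega
  · intro M hle hM
    rcases H98.DicksonSub.sub_list 2 K r hr hFK (by rw [hK']; exact hq2) ψ hψ M hM hle with h | ⟨h, -⟩ | ⟨h, -⟩ | ⟨h, -⟩
    · rw [h, hc]
    · rw [hK'] at h; exact absurd hq (Nat.not_even_iff_odd.mpr h)
    · exact absurd rfl h
    · exact absurd rfl h

end Cfsg.Agent.S5943
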