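import Cfsg.Statements.S5944

set_option autoImplicit false
open Cfsg

namespace Cfsg.Agent.S5944

theorem result (n : ℕ) (hn : n ≠ 4) (H : Subgroup (Equiv.Perm (Fin n))) (hH : H ≠ ⊤) (hA : H ≠ alternatingGroup (Fin n)) : n ≤ H.index := by
  by_contra hlt
  push Not at hlt
  have hi0 : H.index ≠ 0 := Subgroup.index_ne_zero_of_finite
  have hi1 : H.index ≠ 1 := fun h => hH (Subgroup.index_eq_one.mp h)
  have hA2 : H.index ≠ 2 := fun h => hA (Equiv.Perm.eq_alternatingGroup_of_index_eq_two h)
  have h5 : 5 ≤ n := by omega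
  -- the core of H is trivial
  have hcore : H.normalCore = ⊥ := by
    by_contra hne
    have hnt : Nontrivial H.normalCore := (Subgroup.nontrivial_iff_ne_bot _).mpr hne
    have hle := Equiv.Perm.alternatingGroup_le_of_normal (α := Fin n) (by simpa using h5) hnt
    have hle' : alternatingGroup (Fin n) ≤ H := hle.trans H.normalCore_le
    haveI : Nontrivial (Fin n) := Fin.nontrivial_iff_two_le.mpr (by omega)
    have hidx : (alternatingGroup (Fin n)).index = 2 := alternatingGroup.index_eq_two
    have hdvd : H.index ∣ 2 := hidx ▸ Subgroup.index_dvd_of_le hle'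
    have := (Nat.dvd_prime Nat.prime_two).mp hdvd
    rcases this with h | h
    · exact hi1 h
    · exact hA2 h
  have hinj : Function.Injective (MulAction.toPermHom (Equiv.Perm (Fin n)) (Equiv.Perm (Fin n) ⧸ H)) := by
    rw [← MonoidHom.ker_eq_bot_iff, ← Subgroup.normalCore_eq_ker, hcore]
  have hcard := Nat.card_le_card_of_injective _ hinj
  rw [Nat.card_perm, Nat.card_perm] at hcard
  have h6 : Nat.card (Equiv.Perm (Fin n) ⧸ H) = H.index := rfl
  rw [h6, Nat.card_fin] at hcard
  have h7 : (H.index).factorial < n.factorial := (Nat.factorial_lt (by omega)).mpr hlt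
  omega

end Cfsg.Agent.S5944
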