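import Cfsg.Statements.S5950
import Cfsg.Agent.Lib.H85.PrimeSub6

set_option autoImplicit false
open scoped MatrixGroups
open Cfsg

namespace Cfsg.Agent.S5950

/-- Elements of prime order of PSL_n(q) fixing no decomposition `F^n = U ⊕ W` with `dim U = m`. Here `T = PSL_n(F)` for a field `F` with `q = p^f` elements (`n ≥ 2`, `(n, q) ≠ (2, 2), (2, 3)`); an element of `T` of prime order `r` is represented by a matrix `x` of determinant 1 with `x^r` scalar and `x` not scalar; `i` denotes the multiplicative order of `q` modulo `r` (when `r ≠ p`), and `(a)_r` the `r`-part of `a`. Let `n ≥ 3`, `1 ≤ m < n/2`, and let `r` be a prime dividing the number of such decompositions (unordered pairs `{U, W}` of complementary subspaces with `dim U = m`; since `m ≠ n − m` these are the ordered pairs with `dim U = m`). Then every element of `T` of order `r` fixes such a pair (fixes both `U` and `W` for some complementary `U, W` with `dim U = m`) if and only if one of: (i) `r = p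 > 2` and every partition of `n` into parts of size at most `p` contains, as a sub-multiset, a partition of `m`; (ii) `r = p = 2` and `n` is odd or `m` is even; (iii) `r ≠ p`, `i = 1`, and `r ∣ m` or `(q−1)_r ≥ (n)_r` (with `q ≡ 1 (mod 4)` required when `r = 2` and `n` is even); (iv) `r ≠ p`, `2 ≤ i ≤ m` and `n mod i ≥ m mod i`. -/
theorem result {F : Type*} [Field F] [Fintype F] {p : ℕ} [Fact p.Prime] [CharP F p] {q : ℕ} (hq : Fintype.card F = q)
    (n m : ℕ) (hn : 3 ≤ n) (hm : 1 ≤ m) (hmn : 2 * m < n)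
    (r : ℕ) [Fact r.Prime]
    (hrΩ : r ∣ Nat.card {P : Submodule F (Fin n → F) × Submodule F (Fin n → F) // IsCompl P.1 P.2 ∧ Module.finrank F ↥P.1 = m}) :
    (∀ x : Matrix.SpecialLinearGroup (Fin n) F,
      (∃ c : F, ((x ^ r : Matrix.SpecialLinearGroup (Fin n) F) : Matrix (Fin n) (Fin n) F) = c • (1 : Matrix (Fin n) (Fin n) F)) →
      (∀ c : F, (x : Matrix (Fin n) (Fin n) F) ≠ c • (1 : Matrix (Fin n) (Fin n) F)) →
      ∃ U W : Submodule F (Fin n → F), IsCompl U W ∧ Module.finrank F ↥U = m ∧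
        U.map (Matrix.toLin' (x : Matrix (Fin n) (Fin n) F)) ≤ U ∧ W.map (Matrix.toLin' (x : Matrix (Fin n) (Fin n) F)) ≤ W) ↔
    ((r = p ∧ 2 < p ∧ (∀ μ : Multiset ℕ, (∀ a ∈ μ, 0 < a ∧ a ≤ p) → μ.sum = n → ∃ ν : Multiset ℕ, ν ≤ μ ∧ ν.sum = m)) ∨
     (r = p ∧ p = 2 ∧ (Odd n ∨ Even m)) ∨
     (r ≠ p ∧
      ((orderOf (q : ZMod r) = 1 ∧ (r ∣ m ∨ (padicValNat r n ≤ padicValNat r (q - 1) ∧ (r = 2 → Even n → q % 4 = 1)))) ∨
       (2 ≤ orderOf (q : ZMod r) ∧ orderOf (q : ZMod r) ≤ m ∧ m % orderOf (q : ZMod r) ≤ n % orderOf (q : ZMod r))))) := by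
  classical
  subst hq
  have hr : r.Prime := Fact.out
  have hfr : Module.finrank F (Fin n → F) = n := by rw [Module.finrank_fintype_fun_eq_card, Fintype.card_fin]
  have toM : ∀ (x : Matrix.SpecialLinearGroup (Fin n) F) (c : F),
      ((x ^ r : Matrix.SpecialLinearGroup (Fin n) F) : Matrix (Fin n) (Fin n) F) = c • (1 : Matrix (Fin n) (Fin n) F) →
      (x : Matrix (Fin n) (Fin n) F) ^ r = c • (1 : Matrix (Fin n) (Fin n) F) := fun x c h => by
    rw [← h]; exact (Matrix.SpecialLinearGroup.coe_pow x r).symm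
  have toSL : (∀ x : Matrix.SpecialLinearGroup (Fin n) F,
      (∃ c : F, ((x ^ r : Matrix.SpecialLinearGroup (Fin n) F) : Matrix (Fin n) (Fin n) F) = c • (1 : Matrix (Fin n) (Fin n) F)) →
      (∀ c : F, (x : Matrix (Fin n) (Fin n) F) ≠ c • (1 : Matrix (Fin n) (Fin n) F)) →
      ∃ U W : Submodule F (Fin n → F), IsCompl U W ∧ Module.finrank F ↥U = m ∧
        U.map (Matrix.toLin' (x : Matrix (Fin n) (Fin n) F)) ≤ U ∧ W.map (Matrix.toLin' (x : Matrix (Fin n) (Fin n) F)) ≤ W) →
      ∀ x : Matrix (Fin n) (Fin n) F, x.det = 1 → (∃ c : F, x ^ r = c • (1 : Matrix (Fin n) (Fin n) F)) →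
      (∀ z : F, x ≠ z • (1 : Matrix (Fin n) (Fin n) F)) →
      ∃ U W : Submodule F (Fin n → F), IsCompl U W ∧ Module.finrank F ↥U = m ∧
        U.map (Matrix.toLin' x) ≤ U ∧ W.map (Matrix.toLin' x) ≤ W := by
    intro h x hdet hx hns
    obtain ⟨c, hc⟩ := hx
    let X : Matrix.SpecialLinearGroup (Fin n) F := ⟨x, hdet⟩
    exact h X ⟨c, by rw [Matrix.SpecialLinearGroup.coe_pow]; exact hc⟩ hns
  by_cases hrp : r = p
  · subst hrp
    have key : (∀ x : Matrix.SpecialLinearGroup (Fin n) F,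
      (∃ c : F, ((x ^ r : Matrix.SpecialLinearGroup (Fin n) F) : Matrix (Fin n) (Fin n) F) = c • (1 : Matrix (Fin n) (Fin n) F)) →
      (∀ c : F, (x : Matrix (Fin n) (Fin n) F) ≠ c • (1 : Matrix (Fin n) (Fin n) F)) →
      ∃ U W : Submodule F (Fin n → F), IsCompl U W ∧ Module.finrank F ↥U = m ∧
        U.map (Matrix.toLin' (x : Matrix (Fin n) (Fin n) F)) ≤ U ∧ W.map (Matrix.toLin' (x : Matrix (Fin n) (Fin n) F)) ≤ W) ↔
        H85.PrimeSub.PartCond r n m := by
      constructor
      · intro h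
        exact H85.PrimeSub.cond_of_part (F := F) (by omega) (fun x hdet hxp hns => toSL h x hdet ⟨1, by rw [hxp, one_smul]⟩ hns)
      · rintro h x ⟨c, hc⟩ -
        exact (H85.PrimeSub.part_of_cond (by omega) h (x : Matrix (Fin n) (Fin n) F) x.det_coe c (toM x c hc)).compl
    rw [key]
    constructor
    · intro h
      rcases lt_or_eq_of_le hr.two_le with h2 | h2
      · exact Or.inl ⟨rfl, h2, h⟩
      · subst h2
        exact Or.inr (Or.inl ⟨rfl, rfl, (H85.PrimeSub.partCond_two hmn).1 h⟩)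
    · rintro (⟨-, -, h⟩ | ⟨-, h2, h⟩ | ⟨h, -⟩)
      · exact h
      · subst h2
        exact (H85.PrimeSub.partCond_two hmn).2 h
      · exact absurd rfl h
  have hrem : ∀ P Q R : Prop, ((r = p ∧ P) ∨ (r = p ∧ Q) ∨ (r ≠ p ∧ R)) ↔ R := by
    intro P Q R
    constructor
    · rintro (⟨h, -⟩ | ⟨h, -⟩ | ⟨-, h⟩)
      · exact absurd h hrp
      · exact absurd h hrp
      · exact h
    · intro h
      exact Or.inr (Or.inr ⟨hrp, h⟩)
  rw [hrem]
  rw [H85.PrimeSub.card_pairs hfr, hr.dvd_mul] at hrΩ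
  have hrΩ' : r ∣ Nat.card {W : Submodule F (Fin n → F) // Module.finrank F W = m} := by
    rcases hrΩ with h | h
    · exact h
    · exfalso
      obtain ⟨f, hpf, hcardF⟩ := FiniteField.card F p
      have h1 := hr.dvd_of_dvd_pow h
      rw [hcardF] at h1
      exact hrp ((Nat.prime_dvd_prime_iff_eq hr hpf).1 (hr.dvd_of_dvd_pow h1))
  by_cases hrq : r ∣ Fintype.card F - 1
  · have ho := H85.PrimeSub.ord_eq_one (F := F) hrq
    rw [ho]
    constructor
    · intro h
      refine Or.inl ⟨rfl, ?_⟩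
      by_contra hcond
      obtain ⟨x, hdet, hx, hns, hU⟩ := H85.PrimeSub.nec_one (F := F) hrq (by omega) hcond
      obtain ⟨U, W, -, h1, h2, -⟩ := toSL h x hdet hx hns
      exact hU U h2 h1
    · rintro (⟨-, hcond⟩ | ⟨h, -⟩)
      · rintro x ⟨c, hc⟩ -
        exact (H85.PrimeSub.hasBlk_one hrp hrq (by omega) (by omega) hcond
          (x : Matrix (Fin n) (Fin n) F) x.det_coe c (toM x c hc)).compl
      · omega
  · have ho := H85.PrimeSub.ord_ge_two (F := F) hrp hrq
    set i := orderOf ((Fintype.card F : ℕ) : ZMod r) with hi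
    have hnd : ∀ e, ¬ i ∣ e → ¬ r ∣ (Fintype.card F) ^ e - 1 := fun e he h => he ((H85.PrimeSub.dvd_iff_ord e).1 h)
    constructor
    · intro h
      refine Or.inr ⟨ho, ?_⟩
      have hin : i ≤ n := by
        by_contra hlt
        refine H85.PrimeSub.not_dvd_card hr hfr (by omega) (fun e he1 he2 => hnd e ?_) hrΩ'
        intro hd
        have := Nat.le_of_dvd (by omega) hd
        omega
      obtain ⟨x, hdet, hx, hns, hU⟩ := H85.PrimeSub.nec_two (F := F) hrp hrq hin
      obtain ⟨W, W', -, hW, hWT, -⟩ := toSL h x hdet hx hns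
      obtain ⟨b, hb, hle⟩ := hU W hWT
      rw [← hi] at hb hle
      rw [hW] at hb
      have hlt : n % i < i := Nat.mod_lt _ (by omega)
      have hmi : m % i = Module.finrank F (W ⊓ LinearMap.ker (Matrix.toLin' x - 1) : Submodule F (Fin n → F)) := by
        conv_lhs => rw [hb]
        rw [Nat.add_mul_mod_self_right, Nat.mod_eq_of_lt (by omega)]
      have hmi' : m % i ≤ n % i := by rw [hmi]; exact hle
      refine ⟨?_, hmi'⟩
      by_contra hlt2
      rw [Nat.mod_eq_of_lt (by omega)] at hmi'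
      refine H85.PrimeSub.not_dvd_card hr hfr (by omega) (fun e he1 he2 => hnd e ?_) hrΩ'
      rintro ⟨t, rfl⟩
      have h1 : i * (n / i) + n % i = n := Nat.div_add_mod n i
      have h2 : t ≤ n / i := by
        rw [Nat.le_div_iff_mul_le (by omega), mul_comm]; exact he2
      have h3 : i * t ≤ i * (n / i) := Nat.mul_le_mul le_rfl h2
      omega
    · rintro (⟨h, -⟩ | ⟨-, him, hcond⟩)
      · omega
      · rintro x ⟨c, hc⟩ -
        exact (H85.PrimeSub.hasBlk_two hrp hrq (n := n) (m := m) (by omega)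
          (x : Matrix (Fin n) (Fin n) F) x.det_coe c (toM x c hc) 0 (Or.inl ⟨rfl, by omega, hcond⟩)).compl

end Cfsg.Agent.S5950
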