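import Cfsg.Statements.S5951
import Cfsg.Agent.Lib.H85.PrimeSub4

set_option autoImplicit false
open scoped MatrixGroups
open Cfsg

namespace Cfsg.Agent.S5951

/-- Elements of prime order of PSL_n(q) fixing no pair of subspaces `U < W` with `dim U = m`, `dim W = n − m`. Here `T = PSL_n(F)` for a field `F` with `q = p^f` elements (`n ≥ 2`, `(n, q) ≠ (2, 2), (2, 3)`); an element of `T` of prime order `r` is represented by a matrix `x` of determinant 1 with `x^r` scalar and `x` not scalar; `i` denotes the multiplicative order of `q` modulo `r` (when `r ≠ p`), and `(a)_r` the `r`-part of `a`. Let `1 ≤ m < n/2` and let `r` be a prime dividing the number of such pairs. Then every element of `T` of order `r` fixes such a pair (both `U` and `W`) if and only if `r ≠ p` and either (i) `i = 1` and (`r ∣ m`, or `(q−1)_r ≥ (n)_r` with `q ≡ 1 (mod 4)` required when `r = 2` and `n` is even), or (ii) `2 ≤ i ≤ m` and `n mod i ≥ 2 (m mod i)`. -/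
theorem result {F : Type*} [Field F] [Fintype F] {p : ℕ} [Fact p.Prime] [CharP F p] {q : ℕ} (hq : Fintype.card F = q)
    (n m : ℕ) (hn : 2 ≤ n) (hT : (n, q) ≠ (2, 2) ∧ (n, q) ≠ (2, 3)) (hm : 1 ≤ m) (hmn : 2 * m < n)
    (r : ℕ) [Fact r.Prime]
    (hrΩ : r ∣ Nat.card {P : Submodule F (Fin n → F) × Submodule F (Fin n → F) //
        P.1 ≤ P.2 ∧ Module.finrank F ↥P.1 = m ∧ Module.finrank F ↥P.2 = n - m}) :
    (∀ x : Matrix.SpecialLinearGroup (Fin n) F,
      (∃ c : F, ((x ^ r : Matrix.SpecialLinearGroup (Fin n) F) : Matrix (Fin n) (Fin n) F) = c • (1 : Matrix (Fin n) (Fin n) F)) →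
      (∀ c : F, (x : Matrix (Fin n) (Fin n) F) ≠ c • (1 : Matrix (Fin n) (Fin n) F)) →
      ∃ U W : Submodule F (Fin n → F), U ≤ W ∧ Module.finrank F ↥U = m ∧ Module.finrank F ↥W = n - m ∧
        U.map (Matrix.toLin' (x : Matrix (Fin n) (Fin n) F)) ≤ U ∧ W.map (Matrix.toLin' (x : Matrix (Fin n) (Fin n) F)) ≤ W) ↔
    (r ≠ p ∧
      ((orderOf (q : ZMod r) = 1 ∧ (r ∣ m ∨ (padicValNat r n ≤ padicValNat r (q - 1) ∧ (r = 2 → Even n → q % 4 = 1)))) ∨
       (2 ≤ orderOf (q : ZMod r) ∧ orderOf (q : ZMod r) ≤ m ∧ 2 * (m % orderOf (q : ZMod r)) ≤ n % orderOf (q : ZMod r)))) := by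
  classical
  subst hq
  have hr : r.Prime := Fact.out
  have hfr : Module.finrank F (Fin n → F) = n := by rw [Module.finrank_fintype_fun_eq_card, Fintype.card_fin]
  have hfr' : Module.finrank F (Fin (n - m) → F) = n - m := by rw [Module.finrank_fintype_fun_eq_card, Fintype.card_fin]
  have toM : ∀ (x : Matrix.SpecialLinearGroup (Fin n) F) (c : F),
      ((x ^ r : Matrix.SpecialLinearGroup (Fin n) F) : Matrix (Fin n) (Fin n) F) = c • (1 : Matrix (Fin n) (Fin n) F) →
      (x : Matrix (Fin n) (Fin n) F) ^ r = c • (1 : Matrix (Fin n) (Fin n) F) := fun x c h => by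
    rw [← h]; exact (Matrix.SpecialLinearGroup.coe_pow x r).symm
  rw [H85.PrimeSub.card_flags hfr (show m ≤ n by omega) (show m ≤ n - m by omega), hr.dvd_mul] at hrΩ
  have hcount : ∀ (_ : ∀ e, n - 2 * m < e → e ≤ n → ¬ r ∣ Fintype.card F ^ e - 1), False := by
    intro h
    rcases hrΩ with h1 | h1
    · exact H85.PrimeSub.not_dvd_card hr hfr (by omega) (fun e he1 he2 => h e (by omega) (by omega)) h1
    · exact H85.PrimeSub.not_dvd_card' hr hfr' (by omega) (fun e he1 he2 => h e (by omega) (by omega)) h1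
  by_cases hrp : r = p
  · exfalso
    subst hrp
    exact hcount (fun e he _ => H85.PrimeSub.char_not_dvd (by omega))
  have toSL : (∀ x : Matrix.SpecialLinearGroup (Fin n) F,
      (∃ c : F, ((x ^ r : Matrix.SpecialLinearGroup (Fin n) F) : Matrix (Fin n) (Fin n) F) = c • (1 : Matrix (Fin n) (Fin n) F)) →
      (∀ c : F, (x : Matrix (Fin n) (Fin n) F) ≠ c • (1 : Matrix (Fin n) (Fin n) F)) →
      ∃ U W : Submodule F (Fin n → F), U ≤ W ∧ Module.finrank F ↥U = m ∧ Module.finrank F ↥W = n - m ∧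
        U.map (Matrix.toLin' (x : Matrix (Fin n) (Fin n) F)) ≤ U ∧ W.map (Matrix.toLin' (x : Matrix (Fin n) (Fin n) F)) ≤ W) →
      ∀ x : Matrix (Fin n) (Fin n) F, x.det = 1 → (∃ c : F, x ^ r = c • (1 : Matrix (Fin n) (Fin n) F)) →
      (∀ z : F, x ≠ z • (1 : Matrix (Fin n) (Fin n) F)) →
      ∃ U W : Submodule F (Fin n → F), U ≤ W ∧ Module.finrank F ↥U = m ∧ Module.finrank F ↥W = n - m ∧
        U.map (Matrix.toLin' x) ≤ U ∧ W.map (Matrix.toLin' x) ≤ W := by
    intro h x hdet hx hns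
    obtain ⟨c, hc⟩ := hx
    let X : Matrix.SpecialLinearGroup (Fin n) F := ⟨x, hdet⟩
    exact h X ⟨c, by rw [Matrix.SpecialLinearGroup.coe_pow]; exact hc⟩ hns
  by_cases hrq : r ∣ Fintype.card F - 1
  · have ho := H85.PrimeSub.ord_eq_one (F := F) hrq
    rw [ho]
    constructor
    · intro h
      refine ⟨hrp, Or.inl ⟨rfl, ?_⟩⟩
      by_contra hcond
      obtain ⟨x, hdet, hx, hns, hU⟩ := H85.PrimeSub.nec_one (F := F) hrq hn hcond
      obtain ⟨U, W, -, h1, -, h2, -⟩ := toSL h x hdet hx hns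
      exact hU U h2 h1
    · rintro ⟨-, ⟨-, hcond⟩ | ⟨h, -⟩⟩
      · rintro x ⟨c, hc⟩ -
        obtain ⟨U, W, h1, h2, h3, h4, h5⟩ := (H85.PrimeSub.hasBlk_one hrp hrq (n := n) (m := m) (by omega) (by omega) hcond
          (x : Matrix (Fin n) (Fin n) F) x.det_coe c (toM x c hc)).flag
        exact ⟨U, W, h1, h2, by rw [h3, hfr], h4, h5⟩
      · omega
  · have ho := H85.PrimeSub.ord_ge_two (F := F) hrp hrq
    set i := orderOf ((Fintype.card F : ℕ) : ZMod r) with hi
    have hnd : ∀ e, ¬ i ∣ e → ¬ r ∣ (Fintype.card F) ^ e - 1 := fun e he h => he ((H85.PrimeSub.dvd_iff_ord e).1 h)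
    constructor
    · intro h
      refine ⟨hrp, Or.inr ⟨ho, ?_⟩⟩
      have hin : i ≤ n := by
        by_contra hlt
        refine hcount (fun e he1 he2 => hnd e ?_)
        intro hd
        have := Nat.le_of_dvd (by omega) hd
        omega
      obtain ⟨x, hdet, hx, hns, hU⟩ := H85.PrimeSub.nec_two (F := F) hrp hrq hin
      obtain ⟨U, W, hUW, hU1, hW1, hUT, hWT⟩ := toSL h x hdet hx hns
      obtain ⟨b, hb, hle⟩ := hU U hUT
      obtain ⟨b', hb', hle'⟩ := hU W hWT
      rw [← hi] at hb hle hb' hle'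
      rw [hU1] at hb
      rw [hW1] at hb'
      have hmono := Submodule.finrank_mono (inf_le_inf_right (LinearMap.ker (Matrix.toLin' x - 1)) hUW)
      set a := Module.finrank F (U ⊓ LinearMap.ker (Matrix.toLin' x - 1) : Submodule F (Fin n → F)) with ha
      set a' := Module.finrank F (W ⊓ LinearMap.ker (Matrix.toLin' x - 1) : Submodule F (Fin n → F)) with ha'
      have hlt : n % i < i := Nat.mod_lt _ (by omega)
      have hmi : m % i = a := by
        rw [hb, Nat.add_mul_mod_self_right, Nat.mod_eq_of_lt (by omega)]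
      have hni : n % i = (a + a') % i := by
        have h1 : n = (a + a') + (b + b') * i := by rw [add_mul]; omega
        conv_lhs => rw [h1]
        rw [Nat.add_mul_mod_self_right]
      have hmi' : 2 * (m % i) ≤ n % i := by
        rw [hmi]
        rcases Nat.lt_or_ge (a + a') i with h1 | h1
        · rw [hni, Nat.mod_eq_of_lt h1]; omega
        · exfalso
          have h2 : (a + a') % i = a + a' - i := by
            rw [Nat.mod_eq_sub_mod h1, Nat.mod_eq_of_lt (by omega)]
          omega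
      refine ⟨?_, hmi'⟩
      by_contra hlt2
      rw [Nat.mod_eq_of_lt (by omega)] at hmi'
      refine hcount (fun e he1 he2 => hnd e ?_)
      rintro ⟨t, rfl⟩
      have h1 : i * (n / i) + n % i = n := Nat.div_add_mod n i
      have h2 : t ≤ n / i := by
        rw [Nat.le_div_iff_mul_le (by omega), mul_comm]; exact he2
      have h3 : i * t ≤ i * (n / i) := Nat.mul_le_mul le_rfl h2
      omega
    · rintro ⟨-, ⟨h, -⟩ | ⟨-, him, hcond⟩⟩
      · omega
      · rintro x ⟨c, hc⟩ -
        obtain ⟨U, W, h1, h2, h3, h4, h5⟩ := (H85.PrimeSub.hasBlk_two hrp hrq (n := n) (m := m) (by omega)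
          (x : Matrix (Fin n) (Fin n) F) x.det_coe c (toM x c hc) m (Or.inr ⟨rfl, by omega, hcond⟩)).flag
        exact ⟨U, W, h1, h2, by rw [h3, hfr], h4, h5⟩

end Cfsg.Agent.S5951
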