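import Cfsg.Statements.S5952

set_option autoImplicit false
open Cfsg

namespace Cfsg.Agent.S5952

open Module

theorem step {F V : Type*} [Field F] [AddCommGroup V] [Module F V]
    [FiniteDimensional F V] (f : V →ₗ[F] V) {a : ℕ} (A U W : Submodule F V)
    (hA : A.map f ≤ A) (hU : U.map f ≤ U) (hW : W.map f ≤ W)
    (hUdim : finrank F U = a) (hUirr : ∀ W : Submodule F V, W ≤ U → W.map f ≤ W → W = ⊥ ∨ W = U)
    (hdisj : Disjoint A U) (hle : W ≤ A ⊔ U) :
    finrank F W = finrank F ↥(W ⊓ A) ∨ finrank F W = finrank F ↥(W ⊓ A) + a := by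
  have h1 := Submodule.finrank_sup_add_finrank_inf_eq W A
  have hmod : W ⊔ A = A ⊔ (U ⊓ (W ⊔ A)) := by
    have h2 : A ≤ W ⊔ A := le_sup_right
    have h3 := (sup_inf_assoc_of_le U h2 : (A ⊔ U) ⊓ (W ⊔ A) = A ⊔ U ⊓ (W ⊔ A))
    rw [← h3]
    exact (inf_eq_right.mpr (sup_le hle le_sup_left)).symm
  have hinv : (U ⊓ (W ⊔ A)).map f ≤ U ⊓ (W ⊔ A) := by
    refine le_inf ((Submodule.map_mono inf_le_left).trans hU) ((Submodule.map_mono inf_le_right).trans ?_)
    rw [Submodule.map_sup]
    exact sup_le_sup hW hA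
  rcases hUirr _ inf_le_left hinv with h | h
  · rw [h, sup_bot_eq] at hmod
    left
    rw [hmod] at h1
    omega
  · rw [h] at hmod
    right
    have h4 := Submodule.finrank_sup_add_finrank_inf_eq A U
    rw [disjoint_iff.mp hdisj, finrank_bot, hUdim] at h4
    rw [hmod] at h1
    omega

theorem result {F V : Type*} [Field F] [AddCommGroup V] [Module F V]
    [FiniteDimensional F V] (f : V →ₗ[F] V) (hf : Function.Bijective f) (hss : Module.End.IsSemisimple f)
    {s a : ℕ} (ha : 1 ≤ a) (U : Fin s → Submodule F V)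
    (hUinv : ∀ j, (U j).map f ≤ U j) (hUdim : ∀ j, Module.finrank F ↥(U j) = a)
    (hUirr : ∀ j, ∀ W : Submodule F V, W ≤ U j → W.map f ≤ W → W = ⊥ ∨ W = U j)
    (hdec : DirectSum.IsInternal (fun o : Option (Fin s) => o.elim (Module.End.eigenspace f 1) U))
    (m : ℕ) (hm : 0 < m) (hmV : m < Module.finrank F V) :
    (∃ W : Submodule F V, Module.finrank F ↥W = m ∧ W.map f ≤ W) ↔
    (m ≤ Module.finrank F ↥(Module.End.eigenspace f 1) ∨
      (a ≤ m ∧ m % a ≤ Module.finrank F ↥(Module.End.eigenspace f 1))) := by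
  classical
  set C := Module.End.eigenspace f 1 with hC
  have hind : iSupIndep (fun o : Option (Fin s) => o.elim C U) := hdec.submodule_iSupIndep
  have htop : (⨆ o : Option (Fin s), o.elim C U) = ⊤ := hdec.submodule_iSup_eq_top
  have htop' : C ⊔ ⨆ j, U j = ⊤ := by
    rw [← htop, iSup_option]; rfl
  -- partial sums
  have hdis : ∀ (J : Finset (Fin s)) (j : Fin s), j ∉ J → Disjoint (C ⊔ ⨆ i ∈ J, U i) (U j) := by
    intro J j hj
    have h1 := hind (some j)
    refine (Disjoint.mono_right ?_ h1).symm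
    refine sup_le ?_ (iSup₂_le fun i hi => ?_)
    · exact le_iSup₂_of_le (none : Option (Fin s)) (by simp) le_rfl
    · exact le_iSup₂_of_le (some i : Option (Fin s)) (by intro h; exact hj (Option.some_injective _ h ▸ hi)) le_rfl
  have hCfix : ∀ (W : Submodule F V), W ≤ C → W.map f ≤ W := by
    rintro W hW _ ⟨x, hx, rfl⟩
    have : f x = x := by simpa using Module.End.mem_eigenspace_iff.mp (hW hx)
    rw [this]; exact hx
  have hinvJ : ∀ (J : Finset (Fin s)) (D : Submodule F V), D ≤ C → (D ⊔ ⨆ i ∈ J, U i).map f ≤ D ⊔ ⨆ i ∈ J, U i := by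
    intro J D hD
    rw [Submodule.map_sup]
    refine sup_le_sup (hCfix D hD) ?_
    rw [Submodule.map_iSup]
    refine iSup_mono fun i => ?_
    rw [Submodule.map_iSup]
    exact iSup_mono fun _ => hUinv i
  have hdim : ∀ (J : Finset (Fin s)) (D : Submodule F V), D ≤ C → finrank F ↥(D ⊔ ⨆ i ∈ J, U i) = finrank F D + J.card * a := by
    intro J D hD
    induction J using Finset.induction with
    | empty =>
      have e : (D ⊔ ⨆ i ∈ (∅ : Finset (Fin s)), U i) = D := by simp
      rw [e]; simp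
    | insert j J hj ih =>
      have h1 : D ⊔ ⨆ i ∈ insert j J, U i = (D ⊔ ⨆ i ∈ J, U i) ⊔ U j := by
        rw [Finset.iSup_insert, sup_comm (U j), sup_assoc]
      have h2 := Submodule.finrank_sup_add_finrank_inf_eq (D ⊔ ⨆ i ∈ J, U i) (U j)
      have h3 : Disjoint (D ⊔ ⨆ i ∈ J, U i) (U j) := (hdis J j hj).mono_left (sup_le_sup_right hD _)
      rw [disjoint_iff.mp h3, finrank_bot, hUdim, ih] at h2
      rw [h1, Finset.card_insert_of_notMem hj, add_mul]
      omega
  have hVdim : finrank F V = finrank F C + s * a := by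
    have h1 := hdim Finset.univ C le_rfl
    have e : (C ⊔ ⨆ i ∈ (Finset.univ : Finset (Fin s)), U i) = ⊤ := by
      rw [← htop']; simp
    rw [e, finrank_top, Finset.card_univ, Fintype.card_fin] at h1
    exact h1
  constructor
  · rintro ⟨W, hWm, hW⟩
    have key : ∀ (J : Finset (Fin s)) (W : Submodule F V), W.map f ≤ W → W ≤ C ⊔ ⨆ i ∈ J, U i →
        ∃ c t : ℕ, c ≤ finrank F C ∧ finrank F W = c + a * t := by
      intro J
      induction J using Finset.induction with
      | empty =>
        intro W _ hle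
        simp only [Finset.notMem_empty, not_false_eq_true, iSup_neg, iSup_bot, sup_bot_eq] at hle
        exact ⟨finrank F W, 0, Submodule.finrank_mono hle, by simp⟩
      | insert j J hj ih =>
        intro W hW hle
        have h1 : C ⊔ ⨆ i ∈ insert j J, U i = (C ⊔ ⨆ i ∈ J, U i) ⊔ U j := by
          rw [Finset.iSup_insert, sup_comm (U j), sup_assoc]
        rw [h1] at hle
        have h2 := step f (C ⊔ ⨆ i ∈ J, U i) (U j) W (hinvJ J C le_rfl) (hUinv j) hW (hUdim j) (hUirr j) (hdis J j hj) hle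
        obtain ⟨c, t, hc, ht⟩ := ih (W ⊓ (C ⊔ ⨆ i ∈ J, U i))
          (le_inf ((Submodule.map_mono inf_le_left).trans hW) ((Submodule.map_mono inf_le_right).trans (hinvJ J C le_rfl))) inf_le_right
        rcases h2 with h2 | h2
        · exact ⟨c, t, hc, by rw [h2, ht]⟩
        · exact ⟨c, t + 1, hc, by rw [h2, ht]; ring⟩
    obtain ⟨c, t, hc, ht⟩ := key Finset.univ W hW (by
      simp only [Finset.mem_univ, iSup_pos]; rw [htop']; exact le_top)
    rw [hWm] at ht
    rcases Nat.eq_zero_or_pos t with rfl | htpos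
    · left; omega
    · right
      have : a ≤ a * t := Nat.le_mul_of_pos_right a htpos
      refine ⟨by omega, ?_⟩
      rw [ht, Nat.add_mul_mod_self_left]
      exact (Nat.mod_le _ _).trans hc
  · intro h
    -- find c and t
    obtain ⟨c, t, hc, ht, hct⟩ : ∃ c t : ℕ, c ≤ finrank F C ∧ t ≤ s ∧ m = c + t * a := by
      rcases h with h | ⟨h1, h2⟩
      · exact ⟨m, 0, h, Nat.zero_le _, by simp⟩
      · by_cases hs : m / a ≤ s
        · refine ⟨m % a, m / a, h2, hs, ?_⟩
          rw [mul_comm]; exact (Nat.mod_add_div m a).symm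
        · push Not at hs
          have h3 : (m / a) * a ≤ m := Nat.div_mul_le_self m a
          have h4 : s * a ≤ (m / a) * a := Nat.mul_le_mul_right a hs.le
          exact ⟨m - s * a, s, by omega, le_rfl, by omega⟩
    obtain ⟨D', hD'⟩ : ∃ D' : Submodule F C, finrank F D' = c := by
      obtain ⟨s', hs', hli⟩ := exists_finset_linearIndependent_of_le_finrank hc
      exact ⟨Submodule.span F (s' : Set C), by rw [finrank_span_finset_eq_card hli, hs']⟩
    have hD : finrank F ↥(D'.map C.subtype) = c := by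
      rw [Submodule.finrank_map_subtype_eq]; exact hD'
    obtain ⟨J, hJ⟩ : ∃ J : Finset (Fin s), J.card = t := by
      obtain ⟨J, _, hJ⟩ := Finset.exists_subset_card_eq (s := (Finset.univ : Finset (Fin s))) (n := t) (by simpa using ht)
      exact ⟨J, hJ⟩
    refine ⟨D'.map C.subtype ⊔ ⨆ i ∈ J, U i, ?_, hinvJ J _ (Submodule.map_subtype_le _ _)⟩
    rw [hdim J _ (Submodule.map_subtype_le _ _), hD, hJ, hct]

end Cfsg.Agent.S5952
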