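import Cfsg.Statements.S5953
import Cfsg.Agent.Lib.H99.Un12

set_option autoImplicit false
set_option linter.unusedSimpArgs false
open scoped MatrixGroups
open Cfsg

namespace Cfsg.Agent.S5953


open H99.Un in
theorem rq {F : Type*} [Field F] [Fintype F] {p q r : ℕ} [Fact p.Prime] [hcp : CharP F p] (hK : Nat.card F = q ^ 2) (hr : r.Prime) (hrp : r ≠ p) : ¬ r ∣ q := by
  intro h
  obtain ⟨ℓ, k, h1, h2, rfl⟩ := exists_l hK
  have h3 : ℓ = p := CharP.eq F h2 hcp
  subst h3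
  exact hrp ((Nat.prime_dvd_prime_iff_eq hr (Fact.out : ℓ.Prime)).1 (hr.dvd_of_dvd_pow h))

theorem i_two {q r : ℕ} (hr : r.Prime) (hr2 : r ≠ 2) : orderOf (q : ZMod r) = 2 ↔ r ∣ q + 1 := by
  have : Fact r.Prime := ⟨hr⟩
  constructor
  · intro h
    have h1 : (q : ZMod r) ^ 2 = 1 := by rw [← h]; exact pow_orderOf_eq_one _
    have h2 : (q : ZMod r) ≠ 1 := by
      intro h3
      rw [h3, orderOf_one] at h
      exact absurd h (by norm_num)
    have h3 : ((q : ZMod r) - 1) * ((q : ZMod r) + 1) = 0 := by linear_combination h1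
    have h4 := (mul_eq_zero.1 h3).resolve_left (sub_ne_zero.2 h2)
    rw [← ZMod.natCast_eq_zero_iff]
    push_cast
    exact h4
  · intro h
    have h1 : (q : ZMod r) = -1 := by
      have := (ZMod.natCast_eq_zero_iff (q + 1) r).2 h
      push_cast at this
      linear_combination this
    apply orderOf_eq_prime
    · rw [h1]; ring
    · rw [h1]
      intro h2
      have h3 : ((2 : ℕ) : ZMod r) = 0 := by push_cast; linear_combination -h2
      exact hr2 ((Nat.prime_dvd_prime_iff_eq hr Nat.prime_two).1 ((ZMod.natCast_eq_zero_iff 2 r).1 h3))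

/-- Elements of prime order of PSU_n(q) with no fixed totally isotropic `m`-space. Here `T = PSU_n(q)` (`n ≥ 3`, `(n, q) ≠ (3, 2)`), realised through the matrices of determinant 1 over the field `F` with `q²` elements preserving the Hermitian form `h(u, v) = Σ u_i v_i^q`; an element of `T` of prime order `r` is such a matrix `x` with `x^r` scalar and `x` not scalar. For `r ≠ p` let `i` be the multiplicative order of `q` modulo `r`, `b = i/2` for `i` even and `b = i` for `i` odd, `c = i, i/2, 2i` according as `i ≡ 0, 2 (mod 4)` or `i` odd, and write `k = n mod c`, `ℓ = m mod b`, `ℓ' = m mod c`, `n' = ⌊n/b⌋`, `m' = ⌊m/b⌋`, `s = (r−1)/b`; `(a)_r` is the `r`-part of `a`. Let `1 ≤ m ≤ n/2` and let `r` be a prime dividing the number of totally isotropic `m`-spaces. Then every element of `T` of order `r` fixes a totally isotropic `m`-space if and only if either (i) `r = 2`, `p ≠ 2`, and (`m < n/2` or `(q+1)_2 ≤ (n)_2`); or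 (ii) `r ≠ p`, `r > 2`, `b ≤ m`, `k ≥ 2ℓ`, and either `i ≢ 2 (mod 4)`, or `i ≡ 2 (mod 4)`, `n' − 2m' ≥ s` and (`i > 2`, or `i = 2` and (`r ∣ m` or `(q+1)_r ≥ (n)_r`)). -/
theorem result {F : Type*} [Field F] [Fintype F] {p : ℕ} [Fact p.Prime] [CharP F p] {q : ℕ} (hq : Fintype.card F = q ^ 2)
    (n m : ℕ) (hn : 3 ≤ n) (hT : (n, q) ≠ (3, 2)) (hm : 1 ≤ m) (hmn : 2 * m ≤ n)
    (r : ℕ) [Fact r.Prime]
    (hrΩ : r ∣ Nat.card {W : Submodule F (Fin n → F) // Module.finrank F ↥W = m ∧ (∀ u ∈ W, ∀ v ∈ W, Cfsg.hermForm n F q u v = 0)})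
    (i b c : ℕ) (hi : i = orderOf (q : ZMod r)) (hb : b = if Even i then i / 2 else i)
    (hc : c = if i % 4 = 0 then i else if i % 4 = 2 then i / 2 else 2 * i) :
    (∀ x : Matrix.SpecialLinearGroup (Fin n) F, x ∈ Cfsg.SU n F q →
      (∃ z : F, ((x ^ r : Matrix.SpecialLinearGroup (Fin n) F) : Matrix (Fin n) (Fin n) F) = z • (1 : Matrix (Fin n) (Fin n) F)) →
      (∀ z : F, (x : Matrix (Fin n) (Fin n) F) ≠ z • (1 : Matrix (Fin n) (Fin n) F)) →
      ∃ W : Submodule F (Fin n → F), Module.finrank F ↥W = m ∧ (∀ u ∈ W, ∀ v ∈ W, Cfsg.hermForm n F q u v = 0) ∧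
        W.map (Matrix.toLin' (x : Matrix (Fin n) (Fin n) F)) ≤ W) ↔
    ((r = 2 ∧ p ≠ 2 ∧ (2 * m < n ∨ padicValNat 2 (q + 1) ≤ padicValNat 2 n)) ∨
     (r ≠ p ∧ 2 < r ∧ b ≤ m ∧ 2 * (m % b) ≤ n % c ∧
       (i % 4 ≠ 2 ∨ (i % 4 = 2 ∧ (r - 1) / b + 2 * (m / b) ≤ n / b ∧
         (2 < i ∨ (i = 2 ∧ (r ∣ m ∨ padicValNat r n ≤ padicValNat r (q + 1)))))))) := by

  have hK : Nat.card F = q ^ 2 := by rw [Nat.card_eq_fintype_card, hq]
  have hr : r.Prime := Fact.out
  have hΩ : r ∣ Nat.card (H99.Un.TIset (Cfsg.hermForm n F q) m) := hrΩ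
  have hP : (∀ x : Matrix.SpecialLinearGroup (Fin n) F, x ∈ Cfsg.SU n F q →
      (∃ z : F, ((x ^ r : Matrix.SpecialLinearGroup (Fin n) F) : Matrix (Fin n) (Fin n) F) = z • (1 : Matrix (Fin n) (Fin n) F)) →
      (∀ z : F, (x : Matrix (Fin n) (Fin n) F) ≠ z • (1 : Matrix (Fin n) (Fin n) F)) →
      ∃ W : Submodule F (Fin n → F), Module.finrank F ↥W = m ∧ (∀ u ∈ W, ∀ v ∈ W, Cfsg.hermForm n F q u v = 0) ∧
        W.map (Matrix.toLin' (x : Matrix (Fin n) (Fin n) F)) ≤ W) ↔ H99.Un.AllFix F n q r (fun W => W ∈ H99.Un.TIset (Cfsg.hermForm n F q) m) := by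
    constructor
    · intro H x hx hz hns
      obtain ⟨W, a1, a2, a3⟩ := H x hx hz hns
      exact ⟨W, ⟨a1, a2⟩, a3⟩
    · intro H x hx hz hns
      obtain ⟨W, ⟨a1, a2⟩, a3⟩ := H x hx hz hns
      exact ⟨W, a1, a2, a3⟩
  rw [hP]
  by_cases hrp : r = p
  · exfalso
    subst hrp
    exact H99.Un.ti_not_p hK hmn hΩ
  have hrq := rq hK hr hrp
  by_cases hr2 : r = 2
  · subst hr2
    rw [H99.Un.ti_case_inv hK hm hmn hrq]
    constructor
    · intro h
      exact Or.inl ⟨rfl, fun h => hrp h.symm, h⟩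
    · rintro (⟨-, -, h⟩ | ⟨-, h, -⟩)
      · exact h
      · exact absurd h (by norm_num)
  have hr2' : 2 < r := by have := hr.two_le; omega
  have hcc : c = orderOf (-((q : ℕ) : ZMod r)) := by rw [H99.Un.ord_c hr hr2 hrq, hc, hi]
  have hbb : b = orderOf ((Fintype.card F : ℕ) : ZMod r) := by rw [H99.Un.ord_b hK hr hrq, hb, hi]
  by_cases hd : r ∣ q + 1
  · have hi2 : i = 2 := by rw [hi]; exact (i_two hr hr2).2 hd
    have hb1 : b = 1 := by rw [hb, hi2]; rfl
    have hc1 : c = 1 := by rw [hc, hi2]; rfl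
    rw [H99.Un.ti_case_two hK hm hmn hn hr hr2 hd, hb1, hc1, hi2]
    simp only [Nat.div_one, Nat.mod_one]
    constructor
    · rintro ⟨h1, h2⟩
      exact Or.inr ⟨hrp, hr2', hm, by norm_num, Or.inr ⟨by norm_num, h1, Or.inr ⟨trivial, h2⟩⟩⟩
    · rintro (⟨h, -⟩ | ⟨-, -, -, -, h | ⟨-, h1, h | ⟨-, h2⟩⟩⟩)
      · exact absurd h hr2
      · exact absurd rfl h
      · exact absurd h (by norm_num)
      · exact ⟨h1, h2⟩
  · have hi2 : i ≠ 2 := by rw [hi]; exact fun h => hd ((i_two hr hr2).1 h)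
    have hodd : Odd c ↔ i % 4 = 2 := by
      rw [hc, Nat.odd_iff]
      split_ifs with a1 a2 <;> omega
    rw [H99.Un.ti_case_gen hK hm hmn hr hrq hd hΩ, ← hcc, ← hbb, hodd]
    constructor
    · rintro ⟨h1, h2, h3⟩
      refine Or.inr ⟨hrp, hr2', h1, h2, ?_⟩
      by_cases hi4 : i % 4 = 2
      · exact Or.inr ⟨hi4, h3 hi4, Or.inl (by omega)⟩
      · exact Or.inl hi4
    · rintro (⟨h, -⟩ | ⟨-, -, h1, h2, h3⟩)
      · exact absurd h hr2
      · refine ⟨h1, h2, fun hi4 => ?_⟩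
        rcases h3 with h | ⟨-, h, -⟩
        · exact absurd hi4 h
        · exact h

end Cfsg.Agent.S5953
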