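import Cfsg.Statements.S5954
import Cfsg.Agent.Lib.H99.Un14
import Cfsg.Agent.Lib.H99.Un15

set_option autoImplicit false
set_option linter.unusedSimpArgs false
open scoped MatrixGroups
open Cfsg

namespace Cfsg.Agent.S5954


open H99.Un in
theorem rq {F : Type*} [Field F] [Fintype F] {p q r : ℕ} [Fact p.Prime] [hcp : CharP F p] (hK : Nat.card F = q ^ 2) (hr : r.Prime) (hrp : r ≠ p) : ¬ r ∣ q := by
  intro h
  obtain ⟨ℓ, k, h1, h2, rfl⟩ := exists_l hK
  have h3 : ℓ = p := CharP.eq F h2 hcp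
  subst h3
  exact hrp ((Nat.prime_dvd_prime_iff_eq hr (Fact.out : ℓ.Prime)).1 (hr.dvd_of_dvd_pow h))

theorem i_two {q r : ℕ} (hr : r.Prime) (hr2 : r ≠ 2) : orderOf (q : ZMod r) = 2 ↔ r ∣ q + 1 := by
  have : Fact r.Prime := ⟨hr⟩
  constructor
  · intro h
    have h1 : (q : ZMod r) ^ 2 = 1 := by rw [← h]; exact pow_orderOf_eq_one _
    have h2 : (q : ZMod r) ≠ 1 := by
      intro h3
      rw [h3, orderOf_one] at h
      exact absurd h (by norm_num)
    have h3 : ((q : ZMod r) - 1) * ((q : ZMod r) + 1) = 0 := by linear_combination h1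
    have h4 := (mul_eq_zero.1 h3).resolve_left (sub_ne_zero.2 h2)
    rw [← ZMod.natCast_eq_zero_iff]
    push_cast
    exact h4
  · intro h
    have h1 : (q : ZMod r) = -1 := by
      have := (ZMod.natCast_eq_zero_iff (q + 1) r).2 h
      push_cast at this
      linear_combination this
    apply orderOf_eq_prime
    · rw [h1]; ring
    · rw [h1]
      intro h2
      have h3 : ((2 : ℕ) : ZMod r) = 0 := by push_cast; linear_combination -h2
      exact hr2 ((Nat.prime_dvd_prime_iff_eq hr Nat.prime_two).1 ((ZMod.natCast_eq_zero_iff 2 r).1 h3))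

/-- Elements of prime order of PSU_n(q) with no fixed nondegenerate `m`-space. Here `T = PSU_n(q)` (`n ≥ 3`, `(n, q) ≠ (3, 2)`), realised through the matrices of determinant 1 over the field `F` with `q²` elements preserving the Hermitian form `h(u, v) = Σ u_i v_i^q`; an element of `T` of prime order `r` is such a matrix `x` with `x^r` scalar and `x` not scalar. For `r ≠ p` let `i` be the multiplicative order of `q` modulo `r`, `b = i/2` for `i` even and `b = i` for `i` odd, `c = i, i/2, 2i` according as `i ≡ 0, 2 (mod 4)` or `i` odd, and write `k = n mod c`, `ℓ = m mod b`, `ℓ' = m mod c`, `n' = ⌊n/b⌋`, `m' = ⌊m/b⌋`, `s = (r−1)/b`; `(a)_r` is the `r`-part of `a`. Let `1 ≤ m < n/2` and let `r` be a prime dividing the number of nondegenerate `m`-spaces. Then every element of `T` of order `r` fixes a nondegenerate `m`-space if and only if one of: (i) `r = p > 2` and every partition of `n` into parts of size at most `p`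 contains (as a sub-multiset) a partition of `m`; (ii) `r = p = 2` and (`n` is odd or `m` is even); (iii) `r = 2 ≠ p` and (`n` is odd, or `m` is even, or `(q+1)_2 ≥ (n)_2` and `q ≡ 3 (mod 4)`); (iv) `r ≠ p`, `r > 2`, and either `i ≠ 2`, `c ≤ m` and `k ≥ ℓ'`, or `i = 2` and (`r ∣ m` or `(q+1)_r ≥ (n)_r`). -/
theorem result {F : Type*} [Field F] [Fintype F] {p : ℕ} [Fact p.Prime] [CharP F p] {q : ℕ} (hq : Fintype.card F = q ^ 2)
    (n m : ℕ) (hn : 3 ≤ n) (hT : (n, q) ≠ (3, 2)) (hm : 1 ≤ m) (hmn : 2 * m < n)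
    (r : ℕ) [Fact r.Prime]
    (hrΩ : r ∣ Nat.card {W : Submodule F (Fin n → F) // Module.finrank F ↥W = m ∧ (∀ u ∈ W, u ≠ 0 → ∃ v ∈ W, Cfsg.hermForm n F q u v ≠ 0)})
    (i b c : ℕ) (hi : i = orderOf (q : ZMod r)) (hb : b = if Even i then i / 2 else i)
    (hc : c = if i % 4 = 0 then i else if i % 4 = 2 then i / 2 else 2 * i) :
    (∀ x : Matrix.SpecialLinearGroup (Fin n) F, x ∈ Cfsg.SU n F q →
      (∃ z : F, ((x ^ r : Matrix.SpecialLinearGroup (Fin n) F) : Matrix (Fin n) (Fin n) F) = z • (1 : Matrix (Fin n) (Fin n) F)) →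
      (∀ z : F, (x : Matrix (Fin n) (Fin n) F) ≠ z • (1 : Matrix (Fin n) (Fin n) F)) →
      ∃ W : Submodule F (Fin n → F), Module.finrank F ↥W = m ∧ (∀ u ∈ W, u ≠ 0 → ∃ v ∈ W, Cfsg.hermForm n F q u v ≠ 0) ∧
        W.map (Matrix.toLin' (x : Matrix (Fin n) (Fin n) F)) ≤ W) ↔
    ((r = p ∧ 2 < p ∧ (∀ μ : Multiset ℕ, (∀ a ∈ μ, 0 < a ∧ a ≤ p) → μ.sum = n → ∃ ν : Multiset ℕ, ν ≤ μ ∧ ν.sum = m)) ∨
     (r = p ∧ p = 2 ∧ (Odd n ∨ Even m)) ∨
     (r = 2 ∧ p ≠ 2 ∧ (Odd n ∨ Even m ∨ (padicValNat 2 n ≤ padicValNat 2 (q + 1) ∧ q % 4 = 3))) ∨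
     (r ≠ p ∧ 2 < r ∧ ((i ≠ 2 ∧ c ≤ m ∧ m % c ≤ n % c) ∨ (i = 2 ∧ (r ∣ m ∨ padicValNat r n ≤ padicValNat r (q + 1)))))) := by

  have hK : Nat.card F = q ^ 2 := by rw [Nat.card_eq_fintype_card, hq]
  have hr : r.Prime := Fact.out
  have hn0 : 0 < n := by omega
  have hmn' : m ≤ n := by omega
  have hnd : ∀ W : Submodule F (Fin n → F), (∀ u ∈ W, u ≠ 0 → ∃ v ∈ W, Cfsg.hermForm n F q u v ≠ 0) ↔ H99.Un.NDg (Cfsg.hermForm n F q) W := by
    intro W
    constructor
    · intro H x hx hh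
      by_contra hne
      obtain ⟨v, hv, hv'⟩ := H x hx hne
      exact hv' (hh v hv)
    · intro H u hu hu0
      by_contra hcon
      push Not at hcon
      exact hu0 (H u hu hcon)
  have hΩ : r ∣ Nat.card (H99.Un.NDset (Cfsg.hermForm n F q) m) := by
    have : Nat.card {W : Submodule F (Fin n → F) // Module.finrank F ↥W = m ∧ (∀ u ∈ W, u ≠ 0 → ∃ v ∈ W, Cfsg.hermForm n F q u v ≠ 0)} =
        Nat.card (H99.Un.NDset (Cfsg.hermForm n F q) m) :=
      Nat.card_congr (Equiv.subtypeEquivRight fun W => and_congr_right fun _ => hnd W)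
    rw [← this]; exact hrΩ
  have hP : (∀ x : Matrix.SpecialLinearGroup (Fin n) F, x ∈ Cfsg.SU n F q →
      (∃ z : F, ((x ^ r : Matrix.SpecialLinearGroup (Fin n) F) : Matrix (Fin n) (Fin n) F) = z • (1 : Matrix (Fin n) (Fin n) F)) →
      (∀ z : F, (x : Matrix (Fin n) (Fin n) F) ≠ z • (1 : Matrix (Fin n) (Fin n) F)) →
      ∃ W : Submodule F (Fin n → F), Module.finrank F ↥W = m ∧ (∀ u ∈ W, u ≠ 0 → ∃ v ∈ W, Cfsg.hermForm n F q u v ≠ 0) ∧
        W.map (Matrix.toLin' (x : Matrix (Fin n) (Fin n) F)) ≤ W) ↔ H99.Un.AllFix F n q r (fun W => W ∈ H99.Un.NDset (Cfsg.hermForm n F q) m) := by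
    constructor
    · intro H x hx hz hns
      obtain ⟨W, a1, a2, a3⟩ := H x hx hz hns
      exact ⟨W, ⟨a1, (hnd W).1 a2⟩, a3⟩
    · intro H x hx hz hns
      obtain ⟨W, ⟨a1, a2⟩, a3⟩ := H x hx hz hns
      exact ⟨W, a1, (hnd W).2 a2, a3⟩
  rw [hP]
  by_cases hrp : r = p
  · subst hrp
    rw [H99.Un.nd_case_p hK hn0 hmn']
    by_cases hr2 : r = 2
    · subst hr2
      rw [H99.Un.part_two hmn]
      constructor
      · intro h
        exact Or.inr (Or.inl ⟨rfl, rfl, h⟩)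
      · rintro (⟨-, h, -⟩ | ⟨-, -, h⟩ | ⟨-, h, -⟩ | ⟨h, -⟩)
        · exact absurd h (lt_irrefl 2)
        · exact h
        · exact absurd rfl h
        · exact absurd rfl h
    · have hr2' : 2 < r := by have := hr.two_le; omega
      constructor
      · intro h
        exact Or.inl ⟨rfl, hr2', h⟩
      · rintro (⟨-, -, h⟩ | ⟨-, h, -⟩ | ⟨h, -⟩ | ⟨h, -⟩)
        · exact h
        · exact absurd h hr2
        · exact absurd h hr2
        · exact absurd rfl h
  have hrq := rq hK hr hrp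
  by_cases hr2 : r = 2
  · subst hr2
    rw [H99.Un.nd_case_inv hK hn hmn' hrq]
    constructor
    · intro h
      exact Or.inr (Or.inr (Or.inl ⟨rfl, fun h => hrp h.symm, h⟩))
    · rintro (⟨h, -⟩ | ⟨h, -⟩ | ⟨-, -, h⟩ | ⟨-, h, -⟩)
      · exact absurd h hrp
      · exact absurd h hrp
      · exact h
      · exact absurd h (lt_irrefl 2)
  have hr2' : 2 < r := by have := hr.two_le; omega
  have hcc : c = orderOf (-((q : ℕ) : ZMod r)) := by rw [H99.Un.ord_c hr hr2 hrq, hc, hi]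
  by_cases hd : r ∣ q + 1
  · have hi2 : i = 2 := by rw [hi]; exact (i_two hr hr2).2 hd
    rw [H99.Un.nd_case_two hK hn0 hmn' hr hr2 hd]
    constructor
    · intro h
      exact Or.inr (Or.inr (Or.inr ⟨hrp, hr2', Or.inr ⟨hi2, h⟩⟩))
    · rintro (⟨h, -⟩ | ⟨h, -⟩ | ⟨h, -⟩ | ⟨-, -, ⟨h, -⟩ | ⟨-, h⟩⟩)
      · exact absurd h hrp
      · exact absurd h hrp
      · exact absurd h hr2
      · exact absurd hi2 h
      · exact h
  · have hi2 : i ≠ 2 := by rw [hi]; exact fun h => hd ((i_two hr hr2).1 h)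
    rw [H99.Un.nd_case_gen hK hn0 hmn' hr hrq hd hΩ, ← hcc]
    constructor
    · rintro ⟨h1, h2⟩
      exact Or.inr (Or.inr (Or.inr ⟨hrp, hr2', Or.inl ⟨hi2, h1, h2⟩⟩))
    · rintro (⟨h, -⟩ | ⟨h, -⟩ | ⟨h, -⟩ | ⟨-, -, ⟨-, h1, h2⟩ | ⟨h, -⟩⟩)
      · exact absurd h hrp
      · exact absurd h hrp
      · exact absurd h hr2
      · exact ⟨h1, h2⟩
      · exact absurd h hi2

end Cfsg.Agent.S5954
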