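import Cfsg.Statements.S5955
import Cfsg.Agent.Lib.H99.SpTi4
import Cfsg.Agent.Lib.H99.SpTi5

set_option autoImplicit false
set_option linter.unusedSimpArgs false
open scoped MatrixGroups
open Cfsg

namespace Cfsg.Agent.S5955


open Module H99 H99.SpTi

/-- Elements of prime order of PSp_n(q) with no fixed totally isotropic `m`-space. Here `T = PSp_n(q)` with `n = 2d ≥ 4`, `(n, q) ≠ (4, 2)`, realised through the symplectic matrices over the field `F` with `q` elements (preserving the standard alternating form); an element of `T` of prime order `r` is such a matrix `x` with `x^r` scalar and `x` not scalar. For `r ≠ p` let `i` be the multiplicative order of `q` modulo `r`, `c = i` for `i` even and `c = 2i` for `i` odd, and write `k = n mod c`, `ℓ = m mod i`, `ℓ' = m mod c`, `n' = ⌊n/i⌋`, `m' = ⌊m/i⌋`, `t = (r−1)/i`. Let `1 ≤ m ≤ n/2` and let `r` be a prime dividing the number of totally isotropic `m`-spaces. Then every element of `T` of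 order `r` fixes a totally isotropic `m`-space if and only if either (i) `r = 2 ≠ p` and (`m` is even or `q ≡ 1 (mod 4)`); or (ii) `r ≠ p`, `r > 2`, `i ≤ m`, `k ≥ 2ℓ`, and (`i` is odd or `n' − 2m' ≥ t`). -/
theorem result {F : Type*} [Field F] [Fintype F] {p : ℕ} [Fact p.Prime] [CharP F p] {q : ℕ} (hq : Fintype.card F = q)
    (d m : ℕ) (hd : 2 ≤ d) (hT : (d, q) ≠ (2, 2)) (hm : 1 ≤ m) (hmd : m ≤ d)
    (r : ℕ) [Fact r.Prime]
    (hrΩ : r ∣ Nat.card {W : Submodule F (Fin d ⊕ Fin d → F) // Module.finrank F ↥W = m ∧ (∀ u ∈ W, ∀ v ∈ W, Cfsg.sympForm d F u v = 0)})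
    (i c : ℕ) (hi : i = orderOf (q : ZMod r)) (hc : c = if Even i then i else 2 * i) :
    (∀ x : ↥(Matrix.symplecticGroup (Fin d) F),
      (∃ z : F, ((x ^ r : ↥(Matrix.symplecticGroup (Fin d) F)) : Matrix (Fin d ⊕ Fin d) (Fin d ⊕ Fin d) F) = z • (1 : Matrix (Fin d ⊕ Fin d) (Fin d ⊕ Fin d) F)) →
      (∀ z : F, (x : Matrix (Fin d ⊕ Fin d) (Fin d ⊕ Fin d) F) ≠ z • (1 : Matrix (Fin d ⊕ Fin d) (Fin d ⊕ Fin d) F)) →
      ∃ W : Submodule F (Fin d ⊕ Fin d → F), Module.finrank F ↥W = m ∧ (∀ u ∈ W, ∀ v ∈ W, Cfsg.sympForm d F u v = 0) ∧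
        W.map (Matrix.toLin' (x : Matrix (Fin d ⊕ Fin d) (Fin d ⊕ Fin d) F)) ≤ W) ↔
    ((r = 2 ∧ p ≠ 2 ∧ (Even m ∨ q % 4 = 1)) ∨
     (r ≠ p ∧ 2 < r ∧ i ≤ m ∧ 2 * (m % i) ≤ (2 * d) % c ∧ (Odd i ∨ (r - 1) / i + 2 * (m / i) ≤ (2 * d) / i))) := by

  have hr := (Fact.out : r.Prime)
  have hA : ∀ v, RElt.sympB d F v v = 0 := fun v => RElt.sympB_alt d v
  have hN := Iso.sympB_top (F := F) d
  have hfr : finrank F (Fin d ⊕ Fin d → F) = 2 * d := by
    rw [finrank_fintype_fun_eq_card, Fintype.card_sum, Fintype.card_fin]; ring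
  have hTS : {W : Submodule F (Fin d ⊕ Fin d → F) // finrank F ↥W = m ∧ (∀ u ∈ W, ∀ v ∈ W, Cfsg.sympForm d F u v = 0)} = TIs (RElt.sympB d F) m := rfl
  rw [hTS] at hrΩ
  by_cases hrp : r = p
  · subst hrp
    exact absurd hrΩ (ti_not_p (p := r) hA hN (by rw [hfr]; omega))
  have hLHS : (∀ x : ↥(Matrix.symplecticGroup (Fin d) F),
      (∃ z : F, ((x ^ r : ↥(Matrix.symplecticGroup (Fin d) F)) : Matrix (Fin d ⊕ Fin d) (Fin d ⊕ Fin d) F) = z • (1 : Matrix (Fin d ⊕ Fin d) (Fin d ⊕ Fin d) F)) →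
      (∀ z : F, (x : Matrix (Fin d ⊕ Fin d) (Fin d ⊕ Fin d) F) ≠ z • (1 : Matrix (Fin d ⊕ Fin d) (Fin d ⊕ Fin d) F)) →
      ∃ W : Submodule F (Fin d ⊕ Fin d → F), Module.finrank F ↥W = m ∧ (∀ u ∈ W, ∀ v ∈ W, Cfsg.sympForm d F u v = 0) ∧
        W.map (Matrix.toLin' (x : Matrix (Fin d ⊕ Fin d) (Fin d ⊕ Fin d) F)) ≤ W) ↔
    (∀ x : ↥(Matrix.symplecticGroup (Fin d) F),
      (∃ z : F, ((x ^ r : ↥(Matrix.symplecticGroup (Fin d) F)) : Matrix (Fin d ⊕ Fin d) (Fin d ⊕ Fin d) F) = z • (1 : Matrix (Fin d ⊕ Fin d) (Fin d ⊕ Fin d) F)) →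
      (∀ z : F, (x : Matrix (Fin d ⊕ Fin d) (Fin d ⊕ Fin d) F) ≠ z • (1 : Matrix (Fin d ⊕ Fin d) (Fin d ⊕ Fin d) F)) →
      ∃ W : Submodule F (Fin d ⊕ Fin d → F), (finrank F W = m ∧ ∀ u ∈ W, ∀ v ∈ W, RElt.sympB d F u v = 0) ∧
        W.map (Matrix.toLin' (x : Matrix (Fin d ⊕ Fin d) (Fin d ⊕ Fin d) F)) ≤ W) := by
    constructor
    · intro H x h1 h3
      obtain ⟨W, w1, w2, w3⟩ := H x h1 h3
      exact ⟨W, ⟨w1, w2⟩, w3⟩
    · intro H x h1 h3
      obtain ⟨W, ⟨w1, w2⟩, w3⟩ := H x h1 h3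
      exact ⟨W, w1, w2, w3⟩
  rw [hLHS]
  clear hLHS
  by_cases hr2 : r = 2
  · subst hr2
    have h2 : (2 : F) ≠ 0 := by
      intro h
      have h3 : p ∣ 2 := (CharP.cast_eq_zero_iff F p 2).1 (by exact_mod_cast h)
      exact hrp ((Nat.prime_dvd_prime_iff_eq (Fact.out : p.Prime) Nat.prime_two).1 h3).symm
    have hqodd : q % 2 = 1 := by
      rw [← hq]
      rw [← Nat.odd_iff]
      by_contra hev
      rw [Nat.not_odd_iff_even] at hev
      have h3 : ringChar F = 2 := FiniteField.even_card_iff_char_two.2 (Nat.even_iff.1 hev)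
      exact Ring.two_ne_zero (by
        intro h4
        apply h2
        have := ringChar.Nat.cast_ringChar (R := F)
        rw [h4] at this
        exact_mod_cast this) (by
        have := ringChar.Nat.cast_ringChar (R := F)
        rw [h3] at this
        exact_mod_cast this)
    have hq4 : IsSquare (-1 : F) ↔ q % 4 = 1 := by
      rw [FiniteField.isSquare_neg_one_iff, hq]
      omega
    constructor
    · intro H
      left
      refine ⟨rfl, fun h => hrp h.symm, ?_⟩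
      by_contra hcon
      push Not at hcon
      obtain ⟨h5, h6⟩ := hcon
      have hsq : ¬ IsSquare (-1 : F) := fun h => h6 (hq4.1 h)
      have hJ : Matrix.J (Fin d) F ∈ Matrix.symplecticGroup (Fin d) F := SymplecticGroup.J_mem _ _
      have hJJ : ∀ v, Matrix.toLin' (Matrix.J (Fin d) F) (Matrix.toLin' (Matrix.J (Fin d) F) v) = -v := by
        intro v
        rw [← LinearMap.comp_apply, ← Matrix.toLin'_mul, Matrix.J_squared, _root_.map_neg, Matrix.toLin'_one]; rfl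
      obtain ⟨W, ⟨w1, w2⟩, w3⟩ := H ⟨Matrix.J (Fin d) F, hJ⟩ ⟨-1, by
        rw [SubmonoidClass.coe_pow, pow_two, Matrix.J_squared, neg_smul, one_smul]⟩ (by
        intro z hz
        apply hsq
        refine ⟨z, ?_⟩
        have h7 := hJJ (fun _ => 1)
        rw [smul_mat hz, smul_mat hz, smul_smul] at h7
        have h8 := congrFun h7 (Sum.inl ⟨0, by omega⟩)
        simpa using h8.symm)
      have h9 := OrthTi.J_even hsq hJJ (inv_map'.1 w3)
      rw [w1] at h9
      exact h5 h9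
    · rintro (⟨-, -, h⟩ | ⟨-, h, -⟩)
      · rintro x ⟨z, hz⟩ hnz
        set f := Matrix.toLin' (x : Matrix (Fin d ⊕ Fin d) (Fin d ⊕ Fin d) F) with hf
        have hiso : ∀ u v, RElt.sympB d F (f u) (f v) = RElt.sympB d F u v := sp_isom x
        have hff : ∀ v, f (f v) = z • v := by
          intro v
          have h3 : (f ^ 2) v = z • v := by
            rw [hf, ← Matrix.toLin'_pow, ← SubmonoidClass.coe_pow]
            exact smul_mat hz v
          rw [pow_two] at h3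
          exact h3
        have : Nonempty (Fin d) := ⟨⟨0, by omega⟩⟩
        have : Nontrivial (Fin d ⊕ Fin d → F) := inferInstance
        have h3 := sc_sq hN (f := f * f) (fun u v => by
          rw [Module.End.mul_apply, Module.End.mul_apply, hiso, hiso]) hff
        have hconv : (∃ W : Submodule F (Fin d ⊕ Fin d → F), finrank F W = m ∧ (∀ u ∈ W, ∀ v ∈ W, RElt.sympB d F u v = 0) ∧ ∀ v ∈ W, f v ∈ W) →
            ∃ W : Submodule F (Fin d ⊕ Fin d → F), (finrank F W = m ∧ ∀ u ∈ W, ∀ v ∈ W, RElt.sympB d F u v = 0) ∧ W.map f ≤ W := by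
          rintro ⟨W, w1, w2, w3⟩
          exact ⟨W, ⟨w1, w2⟩, inv_map'.2 w3⟩
        apply hconv
        rcases mul_self_eq_one_iff.1 h3 with rfl | rfl
        · exact inv_ti h2 hA hN hiso (fun v => by rw [hff, one_smul]) (by rw [hfr]; omega)
        · have hff' : ∀ v, f (f v) = -v := fun v => by rw [hff, neg_smul, one_smul]
          by_cases hsq : IsSquare (-1 : F)
          · exact J_ti_sq h2 hsq hiso hff' (by rw [hfr]; omega)
          · have hme : Even m := h.resolve_right (fun h => hsq (hq4.2 h))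
            obtain ⟨j, hj⟩ := hme
            have := J_ti h2 hsq hA hN hiso hff' (j := j) (by rw [hfr]; omega)
            rw [← two_mul] at hj
            rw [hj]
            exact this
      · omega
  · have hrq : ¬ r ∣ Fintype.card F := by
      intro h
      obtain ⟨n, -, hn⟩ := FiniteField.card F p
      rw [hn] at h
      exact hrp ((Nat.prime_dvd_prime_iff_eq hr (Fact.out : p.Prime)).1 (hr.dvd_of_dvd_pow h))
    rw [sp_iff (by omega) (hr.odd_of_ne_two hr2) (fun W => finrank F W = m ∧ ∀ u ∈ W, ∀ v ∈ W, RElt.sympB d F u v = 0)]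
    rw [crit_sp hr hr2 hrq hA hN hfr (by omega) hrΩ (i := i) (c := c) (by rw [hi, ← hq]) hc]
    constructor
    · rintro ⟨h1, h3, h4⟩
      exact Or.inr ⟨hrp, lt_of_le_of_ne hr.two_le (Ne.symm hr2), h1, h3, h4⟩
    · rintro (⟨h1, -⟩ | ⟨-, -, h1, h3, h4⟩)
      · exact absurd h1 hr2
      · exact ⟨h1, h3, h4⟩

end Cfsg.Agent.S5955
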