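import Cfsg.Statements.S5956
import Cfsg.Agent.Lib.H99.SpNd4

set_option autoImplicit false
set_option linter.unusedSimpArgs false
open scoped MatrixGroups
open Cfsg

namespace Cfsg.Agent.S5956


open Module H99 H99.SpTi H99.Iso

/-- Elements of prime order of PSp_n(q) with no fixed nondegenerate `m`-space. Here `T = PSp_n(q)` with `n = 2d ≥ 4`, `(n, q) ≠ (4, 2)`, realised through the symplectic matrices over the field `F` with `q` elements (preserving the standard alternating form); an element of `T` of prime order `r` is such a matrix `x` with `x^r` scalar and `x` not scalar. For `r ≠ p` let `i` be the multiplicative order of `q` modulo `r`, `c = i` for `i` even and `c = 2i` for `i` odd, and write `k = n mod c`, `ℓ = m mod i`, `ℓ' = m mod c`, `n' = ⌊n/i⌋`, `m' = ⌊m/i⌋`, `t = (r−1)/i`. Let `m` be even with `2 ≤ m < n/2` and let `r` be a prime dividing the number of nondegenerate `m`-spaces. Then every element of `T` of order `r` fixes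 a nondegenerate `m`-space if and only if one of: (i) `r = p > 2` and every partition of `n` into parts of size at most `p` in which every odd part has even multiplicity contains (as a sub-multiset) a partition of `m` in which every odd part has even multiplicity; (ii) `r = p = 2` and (`n ≡ 2 (mod 4)` or `m ≡ 0 (mod 4)`); (iii) `r = 2 ≠ p`; (iv) `r ≠ p`, `r > 2`, `c ≤ m` and `k ≥ ℓ'`. -/
theorem result {F : Type*} [Field F] [Fintype F] {p : ℕ} [Fact p.Prime] [CharP F p] {q : ℕ} (hq : Fintype.card F = q)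
    (d m : ℕ) (hd : 2 ≤ d) (hT : (d, q) ≠ (2, 2)) (hm : 2 ≤ m) (hme : Even m) (hmd : m < d)
    (r : ℕ) [Fact r.Prime]
    (hrΩ : r ∣ Nat.card {W : Submodule F (Fin d ⊕ Fin d → F) // Module.finrank F ↥W = m ∧ (∀ u ∈ W, u ≠ 0 → ∃ v ∈ W, Cfsg.sympForm d F u v ≠ 0)})
    (i c : ℕ) (hi : i = orderOf (q : ZMod r)) (hc : c = if Even i then i else 2 * i) :
    (∀ x : ↥(Matrix.symplecticGroup (Fin d) F),
      (∃ z : F, ((x ^ r : ↥(Matrix.symplecticGroup (Fin d) F)) : Matrix (Fin d ⊕ Fin d) (Fin d ⊕ Fin d) F) = z • (1 : Matrix (Fin d ⊕ Fin d) (Fin d ⊕ Fin d) F)) →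
      (∀ z : F, (x : Matrix (Fin d ⊕ Fin d) (Fin d ⊕ Fin d) F) ≠ z • (1 : Matrix (Fin d ⊕ Fin d) (Fin d ⊕ Fin d) F)) →
      ∃ W : Submodule F (Fin d ⊕ Fin d → F), Module.finrank F ↥W = m ∧ (∀ u ∈ W, u ≠ 0 → ∃ v ∈ W, Cfsg.sympForm d F u v ≠ 0) ∧
        W.map (Matrix.toLin' (x : Matrix (Fin d ⊕ Fin d) (Fin d ⊕ Fin d) F)) ≤ W) ↔
    ((r = p ∧ 2 < p ∧ (∀ μ : Multiset ℕ, (∀ a ∈ μ, 0 < a ∧ a ≤ p) → (∀ a : ℕ, Odd a → Even (μ.count a)) → μ.sum = 2 * d →
        ∃ ν : Multiset ℕ, ν ≤ μ ∧ ν.sum = m ∧ ∀ a : ℕ, Odd a → Even (ν.count a))) ∨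
     (r = p ∧ p = 2 ∧ ((2 * d) % 4 = 2 ∨ m % 4 = 0)) ∨
     (r = 2 ∧ p ≠ 2) ∨
     (r ≠ p ∧ 2 < r ∧ c ≤ m ∧ m % c ≤ (2 * d) % c)) := by

  have hr := (Fact.out : r.Prime)
  have hA : ∀ v, RElt.sympB d F v v = 0 := fun v => RElt.sympB_alt d v
  have hN := Iso.sympB_top (F := F) d
  have hfr : finrank F (Fin d ⊕ Fin d → F) = 2 * d := by
    rw [finrank_fintype_fun_eq_card, Fintype.card_sum, Fintype.card_fin]; ring
  have hND : ∀ W : Submodule F (Fin d ⊕ Fin d → F), (∀ u ∈ W, u ≠ 0 → ∃ v ∈ W, Cfsg.sympForm d F u v ≠ 0) ↔ ND (RElt.sympB d F) W :=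
    fun W => (nd_iff' (B := RElt.sympB d F)).symm
  have hcard : Nat.card {W : Submodule F (Fin d ⊕ Fin d → F) // finrank F ↥W = m ∧ (∀ u ∈ W, u ≠ 0 → ∃ v ∈ W, Cfsg.sympForm d F u v ≠ 0)} =
      Nat.card (NDs (RElt.sympB d F) m) := Nat.card_congr (Equiv.subtypeEquivRight fun W => and_congr_right fun _ => hND W)
  rw [hcard] at hrΩ
  clear hcard
  have hLHS : (∀ x : ↥(Matrix.symplecticGroup (Fin d) F),
      (∃ z : F, ((x ^ r : ↥(Matrix.symplecticGroup (Fin d) F)) : Matrix (Fin d ⊕ Fin d) (Fin d ⊕ Fin d) F) = z • (1 : Matrix (Fin d ⊕ Fin d) (Fin d ⊕ Fin d) F)) →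
      (∀ z : F, (x : Matrix (Fin d ⊕ Fin d) (Fin d ⊕ Fin d) F) ≠ z • (1 : Matrix (Fin d ⊕ Fin d) (Fin d ⊕ Fin d) F)) →
      ∃ W : Submodule F (Fin d ⊕ Fin d → F), Module.finrank F ↥W = m ∧ (∀ u ∈ W, u ≠ 0 → ∃ v ∈ W, Cfsg.sympForm d F u v ≠ 0) ∧
        W.map (Matrix.toLin' (x : Matrix (Fin d ⊕ Fin d) (Fin d ⊕ Fin d) F)) ≤ W) ↔
    (∀ x : ↥(Matrix.symplecticGroup (Fin d) F),
      (∃ z : F, ((x ^ r : ↥(Matrix.symplecticGroup (Fin d) F)) : Matrix (Fin d ⊕ Fin d) (Fin d ⊕ Fin d) F) = z • (1 : Matrix (Fin d ⊕ Fin d) (Fin d ⊕ Fin d) F)) →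
      (∀ z : F, (x : Matrix (Fin d ⊕ Fin d) (Fin d ⊕ Fin d) F) ≠ z • (1 : Matrix (Fin d ⊕ Fin d) (Fin d ⊕ Fin d) F)) →
      ∃ W : Submodule F (Fin d ⊕ Fin d → F), (finrank F W = m ∧ ND (RElt.sympB d F) W) ∧
        W.map (Matrix.toLin' (x : Matrix (Fin d ⊕ Fin d) (Fin d ⊕ Fin d) F)) ≤ W) := by
    constructor
    · intro H x h1 h3
      obtain ⟨W, w1, w2, w3⟩ := H x h1 h3
      exact ⟨W, ⟨w1, (hND W).1 w2⟩, w3⟩
    · intro H x h1 h3
      obtain ⟨W, ⟨w1, w2⟩, w3⟩ := H x h1 h3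
      exact ⟨W, w1, (hND W).2 w2, w3⟩
  rw [hLHS]
  clear hLHS
  by_cases hr2 : r = 2
  · subst hr2
    have hsq : ∀ x : ↥(Matrix.symplecticGroup (Fin d) F), (∃ z : F, ((x ^ 2 : ↥(Matrix.symplecticGroup (Fin d) F)) : Matrix (Fin d ⊕ Fin d) (Fin d ⊕ Fin d) F) =
        z • (1 : Matrix (Fin d ⊕ Fin d) (Fin d ⊕ Fin d) F)) → ∃ z : F, z * z = 1 ∧
        ∀ v, Matrix.toLin' (x : Matrix (Fin d ⊕ Fin d) (Fin d ⊕ Fin d) F) (Matrix.toLin' (x : Matrix (Fin d ⊕ Fin d) (Fin d ⊕ Fin d) F) v) = z • v := by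
      rintro x ⟨z, hz⟩
      set f := Matrix.toLin' (x : Matrix (Fin d ⊕ Fin d) (Fin d ⊕ Fin d) F) with hf
      have hff : ∀ v, f (f v) = z • v := by
        intro v
        have h3 : (f ^ 2) v = z • v := by
          rw [hf, ← Matrix.toLin'_pow, ← SubmonoidClass.coe_pow]
          exact smul_mat hz v
        rw [pow_two] at h3
        exact h3
      have : Nonempty (Fin d) := ⟨⟨0, by omega⟩⟩
      have : Nontrivial (Fin d ⊕ Fin d → F) := inferInstance
      exact ⟨z, sc_sq hN (f := f * f) (fun u v => by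
        rw [Module.End.mul_apply, Module.End.mul_apply, sp_isom, sp_isom]) hff, hff⟩
    obtain ⟨j, hj⟩ := hme
    by_cases hp2 : p = 2
    · subst hp2
      have h2 : (2 : F) = 0 := by exact_mod_cast CharP.cast_eq_zero F 2
      constructor
      · intro H
        right; left
        refine ⟨rfl, rfl, ?_⟩
        by_contra hcon
        push Not at hcon
        obtain ⟨h5, h6⟩ := hcon
        obtain ⟨f, f1, f2, f3, f4, f5⟩ := exists_a h2 hA hN (D := d) hfr (Nat.even_iff.2 (by omega)) (by omega)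
        obtain ⟨x, hx⟩ := Iso.exists_sp_of_isom f f1
        obtain ⟨W, ⟨w1, w2⟩, w3⟩ := H x ⟨1, by
          apply Matrix.toLin'.injective
          rw [one_smul, SubmonoidClass.coe_pow, Matrix.toLin'_pow, hx, Matrix.toLin'_one, pow_two]
          apply LinearMap.ext
          intro v
          exact f2 v⟩ (by
          intro z hz
          apply f5
          have h7 : ∀ v, f v = z • v := fun v => by rw [← hx]; exact smul_mat hz v
          have : Nonempty (Fin d) := ⟨⟨0, by omega⟩⟩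
          have : Nontrivial (Fin d ⊕ Fin d → F) := inferInstance
          have h8 := sc_sq hN f1 h7
          have h9 : z = 1 := by
            rcases mul_self_eq_one_iff.1 h8 with h | h
            · exact h
            · rw [h]; linear_combination -h2
          apply LinearMap.ext
          intro v
          rw [h7, h9, one_smul]; rfl)
        have h10 := c2_nec h2 hA hN f1 f2 f3 hfr f4 w2 (by rw [← hx]; exact inv_map'.1 w3) (M := j) (by rw [w1, hj]; ring)
        obtain ⟨k, hk⟩ := h10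
        omega
      · rintro (⟨-, h, -⟩ | ⟨-, -, h⟩ | ⟨-, h⟩ | ⟨h, -⟩)
        · omega
        · rintro x hz hnz
          obtain ⟨z, z1, z2⟩ := hsq x hz
          have h9 : z = 1 := by
            rcases mul_self_eq_one_iff.1 z1 with h | h
            · exact h
            · rw [h]; linear_combination -h2
          obtain ⟨W, -, w1, w2, w3⟩ := c2_suf h2 hA (f := Matrix.toLin' (x : Matrix (Fin d ⊕ Fin d) (Fin d ⊕ Fin d) F)) (sp_isom x)
            (fun v => by rw [z2, h9, one_smul]) d ⊤ (by rw [finrank_top, hfr]) (fun v _ => trivial) hN j (by omega) (by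
            rcases h with h | h
            · left; rw [Nat.odd_iff]; omega
            · right; rw [Nat.even_iff]; omega)
          exact ⟨W, ⟨by rw [w3, hj]; ring, w2⟩, inv_map'.2 w1⟩
        · exact absurd rfl h
        · exact absurd rfl h
    · have h2 : (2 : F) ≠ 0 := OrthUni3.two_ne' p hp2
      constructor
      · intro _
        right; right; left
        exact ⟨rfl, hp2⟩
      · rintro - x hz hnz
        obtain ⟨z, z1, z2⟩ := hsq x hz
        have hconv : (∃ W : Submodule F (Fin d ⊕ Fin d → F), finrank F W = 2 * j ∧ ND (RElt.sympB d F) W ∧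
            ∀ v ∈ W, Matrix.toLin' (x : Matrix (Fin d ⊕ Fin d) (Fin d ⊕ Fin d) F) v ∈ W) →
            ∃ W : Submodule F (Fin d ⊕ Fin d → F), (finrank F W = m ∧ ND (RElt.sympB d F) W) ∧
              W.map (Matrix.toLin' (x : Matrix (Fin d ⊕ Fin d) (Fin d ⊕ Fin d) F)) ≤ W := by
          rintro ⟨W, w1, w2, w3⟩
          exact ⟨W, ⟨by rw [w1, hj]; ring, w2⟩, inv_map'.2 w3⟩
        apply hconv
        rcases mul_self_eq_one_iff.1 z1 with rfl | rfl
        · exact inv_nd h2 hA hN (sp_isom x) (fun v => by rw [z2, one_smul]) (by rw [hfr]; omega)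
        · exact J_nd h2 hA hN (sp_isom x) (fun v => by rw [z2, neg_smul, one_smul]) j (by rw [hfr]; omega)
  · rw [sp_iff (by omega) (hr.odd_of_ne_two hr2) (fun W => finrank F W = m ∧ ND (RElt.sympB d F) W)]
    have hr3 : 2 < r := lt_of_le_of_ne hr.two_le (Ne.symm hr2)
    by_cases hrp : r = p
    · subst hrp
      rw [crit_p r hr2 hA hN hfr (by omega) hme]
      constructor
      · intro H
        exact Or.inl ⟨rfl, hr3, H⟩
      · rintro (⟨-, -, H⟩ | ⟨-, h, -⟩ | ⟨h, -⟩ | ⟨h, -⟩)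
        · exact H
        · exact absurd h hr2
        · exact absurd h hr2
        · exact absurd rfl h
    · have hrq : ¬ r ∣ Fintype.card F := by
        intro h
        obtain ⟨n, -, hn⟩ := FiniteField.card F p
        rw [hn] at h
        exact hrp ((Nat.prime_dvd_prime_iff_eq hr (Fact.out : p.Prime)).1 (hr.dvd_of_dvd_pow h))
      rw [crit_nd hr hr2 hrq hA hN hfr hme (by omega) hrΩ (i := i) (c := c) (by rw [hi, ← hq]) hc]
      constructor
      · rintro ⟨h1, h3⟩
        exact Or.inr (Or.inr (Or.inr ⟨hrp, hr3, h1, h3⟩))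
      · rintro (⟨h, -⟩ | ⟨h, -⟩ | ⟨h, -⟩ | ⟨-, -, h1, h3⟩)
        · exact absurd h hrp
        · exact absurd h hrp
        · exact absurd h hr2
        · exact ⟨h1, h3⟩

end Cfsg.Agent.S5956
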