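import Cfsg.Statements.S5958
import Cfsg.Agent.Lib.H99.Imp3

set_option autoImplicit false
set_option linter.unusedSimpArgs false
open scoped MatrixGroups
open Cfsg

namespace Cfsg.Agent.S5958


/-- Elements of odd prime order of PSL_n(q) and imprimitive subgroups. Here `T = PSL_n(F)` for a field `F` with `q = p^f` elements (`n ≥ 2`, `(n, q) ≠ (2, 2), (2, 3)`), `n = a·t` with `t ≥ 2`, and Ω is the set of direct-sum decompositions of `F^n` into `t` subspaces of dimension `a` (unordered; their number is the number of ordered ones divided by `t!`), whose stabilizers are the imprimitive subgroups of type GL_a(q) ≀ S_t (maximal except in some small cases; maximality is not assumed); an element of `T` of prime order `r` (a matrix `x` of determinant 1 with `x^r` scalar, `x` not scalar) fixes a point of Ω when it permutes the summands of some such decomposition. Let `r ≠ p` be an odd prime dividing the number of such decompositions, let `c` be the multiplicative order of `q` modulo `r`, and write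 `k = n mod c`, `ℓ = a mod c`. Then every element of `T` of order `r` stabilizes such a decomposition if and only if either `a = 1`, `c = r − 1 > 1` and `n ≤ k·r`, or `c ≤ a` and `k = t·ℓ`. -/
theorem result {F : Type*} [Field F] [Fintype F] {p : ℕ} [Fact p.Prime] [CharP F p] {q : ℕ} (hq : Fintype.card F = q)
    (n a t : ℕ) (hn : 2 ≤ n) (hT : (n, q) ≠ (2, 2) ∧ (n, q) ≠ (2, 3)) (hat : n = a * t) (ha : 1 ≤ a) (ht : 2 ≤ t)
    (r : ℕ) [Fact r.Prime] (hr2 : r ≠ 2) (hrp : r ≠ p) (hΩ : r ∣ Nat.card {D : Fin t → Submodule F (Fin n → F) // Cfsg.Geo.IsMDecomposition a D} / Nat.factorial t)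
    (c : ℕ) (hc : c = orderOf (q : ZMod r)) :
    (∀ x : Matrix.SpecialLinearGroup (Fin n) F,
      (∃ z : F, ((x ^ r : Matrix.SpecialLinearGroup (Fin n) F) : Matrix (Fin n) (Fin n) F) = z • (1 : Matrix (Fin n) (Fin n) F)) →
      (∀ z : F, (x : Matrix (Fin n) (Fin n) F) ≠ z • (1 : Matrix (Fin n) (Fin n) F)) →
      ∃ D : Fin t → Submodule F (Fin n → F), Cfsg.Geo.IsMDecomposition a D ∧
        ∃ σ : Equiv.Perm (Fin t), ∀ j, (D j).map (Matrix.toLin' (x : Matrix (Fin n) (Fin n) F)) = D (σ j)) ↔
    ((a = 1 ∧ 1 < c ∧ c = r - 1 ∧ n ≤ (n % c) * r) ∨ (c ≤ a ∧ n % c = t * (a % c))) := by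

  have hr := (Fact.out : r.Prime)
  have hn' : n = t * a := by rw [hat, mul_comm]
  have hrq : ¬ r ∣ Fintype.card F := by
    intro h
    obtain ⟨k, -, hk⟩ := FiniteField.card F p
    rw [hk] at h
    exact hrp ((Nat.prime_dvd_prime_iff_eq hr (Fact.out : p.Prime)).1 (hr.dvd_of_dvd_pow h))
  have hcF : c = orderOf ((Fintype.card F : ℕ) : ZMod r) := by rw [hc, hq]
  have hc0 : 0 < c := by
    have h1 : ((Fintype.card F : ℕ) : ZMod r) ≠ 0 := by
      intro h; exact hrq ((ZMod.natCast_eq_zero_iff _ _).1 h)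
    have := orderOf_pos (Units.mk0 _ h1)
    rw [hcF]
    rwa [← orderOf_units, Units.val_mk0] at this
  by_cases hc1 : c = 1
  · have hR : ((a = 1 ∧ 1 < c ∧ c = r - 1 ∧ n ≤ (n % c) * r) ∨ (c ≤ a ∧ n % c = t * (a % c))) := by
      right
      rw [hc1, Nat.mod_one, Nat.mod_one, mul_zero]
      exact ⟨ha, rfl⟩
    refine ⟨fun _ => hR, fun _ x hz _ => ?_⟩
    obtain ⟨z, hz⟩ := hz
    exact H99.Imp.case_one ha ht hn' hr hrq (by rw [← hcF, hc1]) x hz
  · have hcn := H99.Imp.le_of_dvd ha ht hn' hr hrq hΩ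
    rw [← hcF] at hcn
    have hr1 : ¬ r ∣ Fintype.card F - 1 := by
      intro h
      apply hc1
      rw [hcF, orderOf_eq_one_iff]
      have h1 : (1 : ℕ) ≡ Fintype.card F [MOD r] := (Nat.modEq_iff_dvd' Fintype.card_pos).2 h
      have h2 := (ZMod.natCast_eq_natCast_iff _ _ _).2 h1
      rw [Nat.cast_one] at h2
      exact h2.symm
    exact (H99.Imp.sl_iff (a := a) (t := t) (by omega) hr hr1).trans (H99.Imp.crit ha ht hn' hr hrq hcF (by omega) hcn hr1)

end Cfsg.Agent.S5958
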