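import Cfsg.Statements.S5959
import Mathlib

set_option autoImplicit false
set_option linter.unusedSimpArgs false
open scoped MatrixGroups
open Cfsg

namespace Cfsg.Agent.S5959


open Module Submodule in
theorem rank_step {F V : Type*} [Field F] [AddCommGroup V] [Module F V] [FiniteDimensional F V] (N : V →ₗ[F] V)
    (U : Submodule F V) (k : ℕ) :
    finrank F (U.map (N ^ k)) = finrank F (U.map (N ^ (k + 1))) + finrank F (LinearMap.ker N ⊓ U.map (N ^ k) : Submodule F V) := by
  have h1 := LinearMap.finrank_range_add_finrank_ker (N.domRestrict (U.map (N ^ k)))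
  have h2 : LinearMap.range (N.domRestrict (U.map (N ^ k))) = U.map (N ^ (k + 1)) := by
    rw [LinearMap.range_domRestrict, ← Submodule.map_comp, pow_succ']
    rfl
  have h3 : finrank F (LinearMap.ker (N.domRestrict (U.map (N ^ k)))) =
      finrank F (LinearMap.ker N ⊓ U.map (N ^ k) : Submodule F V) := by
    rw [LinearMap.ker_domRestrict, ← Submodule.finrank_map_subtype_eq (U.map (N ^ k)),
      Submodule.map_comap_subtype, inf_comm]
  rw [h2, h3] at h1
  exact h1.symm

open Module Submodule in
theorem map_le_self {F V : Type*} [Field F] [AddCommGroup V] [Module F V] (N : V →ₗ[F] V)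
    (U : Submodule F V) (hU : U.map N ≤ U) (k : ℕ) : U.map (N ^ (k + 1)) ≤ U.map (N ^ k) := by
  rintro _ ⟨u, hu, rfl⟩
  refine ⟨N u, hU ⟨u, hu, rfl⟩, ?_⟩
  rw [pow_succ]; rfl

open Module Submodule in
theorem map_le_self' {F V : Type*} [Field F] [AddCommGroup V] [Module F V] (N : V →ₗ[F] V)
    (U : Submodule F V) (hU : U.map N ≤ U) (k : ℕ) : U.map (N ^ k) ≤ U := by
  induction k with
  | zero => rw [pow_zero]; exact (Submodule.map_id U).le
  | succ k ih => exact (map_le_self N U hU k).trans ih

open Module Submodule in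
/-- combinatorial core: an invariant direct summand has Jordan type contained in that of the space -/
theorem core {F V : Type*} [Field F] [AddCommGroup V] [Module F V] [FiniteDimensional F V] (N : V →ₗ[F] V)
    (p : ℕ) (hN : N ^ p = 0) (m : ℕ) (d : Fin m → ℕ) (hd : ∀ i, 0 < d i ∧ d i ≤ p)
    (hr : ∀ k, finrank F (LinearMap.range (N ^ k)) = ∑ i, (d i - k))
    (U W : Submodule F V) (hUW : IsCompl U W) (hU : U.map N ≤ U) (hW : W.map N ≤ W) (a : ℕ) (ha : finrank F U = a)
    (μ : Multiset ℕ) (hμ : μ = Multiset.map d (Finset.univ : Finset (Fin m)).val) :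
    ∃ ν : Multiset ℕ, ν ≤ μ ∧ ν.sum = a := by
  classical
  -- ranks
  let r : Submodule F V → ℕ → ℤ := fun X k => (finrank F (X.map (N ^ k)) : ℤ)
  let g : Submodule F V → ℕ → ℤ := fun X k => (finrank F (LinearMap.ker N ⊓ X.map (N ^ k) : Submodule F V) : ℤ)
  have hrg : ∀ X k, r X k = r X (k + 1) + g X k := by
    intro X k
    have := rank_step N X k
    simp only [r, g]
    exact_mod_cast this
  have hanti : ∀ X : Submodule F V, X.map N ≤ X → ∀ k, g X (k + 1) ≤ g X k := by
    intro X hX k
    simp only [g]
    exact_mod_cast Submodule.finrank_mono (inf_le_inf_left _ (map_le_self N X hX k))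
  have hsum : ∀ k, (∑ i, (d i - k) : ℕ) = r U k + r W k := by
    intro k
    rw [← hr k]
    have h1 : U.map (N ^ k) ⊔ W.map (N ^ k) = LinearMap.range (N ^ k) := by
      rw [← Submodule.map_sup, hUW.sup_eq_top, Submodule.map_top]
    have h2 : U.map (N ^ k) ⊓ W.map (N ^ k) = ⊥ := by
      rw [eq_bot_iff, ← hUW.inf_eq_bot]
      exact inf_le_inf (map_le_self' N U hU k) (map_le_self' N W hW k)
    have h3 := Submodule.finrank_sup_add_finrank_inf_eq (U.map (N ^ k)) (W.map (N ^ k))
    rw [h1, h2, finrank_bot, add_zero] at h3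
    rw [h3]
    simp only [r]
    push_cast
    rfl
  have hgd : ∀ k, g U k + g W k = (Finset.univ.filter (fun i => k < d i)).card := by
    intro k
    have h1 := hrg U k
    have h2 := hrg W k
    have h3 := hsum k
    have h4 := hsum (k + 1)
    have h5 : (∑ i, (d i - k) : ℕ) = (∑ i, (d i - (k + 1)) : ℕ) + (Finset.univ.filter (fun i => k < d i)).card := by
      rw [Finset.card_filter, ← Finset.sum_add_distrib]
      refine Finset.sum_congr rfl fun i _ => ?_
      split_ifs <;> omega
    rw [h5] at h3
    push_cast at h3 h4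
    push_cast
    linarith
  let c : ℕ → ℕ := fun k => (g U (k - 1) - g U k).toNat
  have hc : ∀ k, 1 ≤ k → (c k : ℤ) = g U (k - 1) - g U k := by
    intro k hk
    obtain ⟨k', rfl⟩ : ∃ k', k = k' + 1 := ⟨k - 1, by omega⟩
    rw [Int.toNat_of_nonneg]
    have := hanti U hU k'
    simp only [Nat.add_sub_cancel]
    linarith
  refine ⟨∑ k ∈ Finset.Icc 1 p, Multiset.replicate (c k) k, ?_, ?_⟩
  · rw [Multiset.le_iff_count]
    intro k'
    rw [Multiset.count_sum']
    simp only [Multiset.count_replicate]
    rw [Finset.sum_ite_eq' (Finset.Icc 1 p) k' c]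
    split_ifs with hk'
    · rw [Finset.mem_Icc] at hk'
      obtain ⟨k, rfl⟩ : ∃ k, k' = k + 1 := ⟨k' - 1, by omega⟩
      have h1 : Multiset.count (k + 1) μ = (Finset.univ.filter (fun i => d i = k + 1)).card := by
        rw [hμ, Multiset.count_map]
        rw [Finset.card_def, Finset.filter_val]
        congr 1
        apply Multiset.filter_congr
        intro i _
        exact eq_comm
      rw [h1]
      have h2 := hc (k + 1) (by omega)
      have h3 := hgd k
      have h4 := hgd (k + 1)
      have h5 := hanti W hW k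
      have h6 : (Finset.univ.filter (fun i => k < d i)).card =
          (Finset.univ.filter (fun i => k + 1 < d i)).card + (Finset.univ.filter (fun i => d i = k + 1)).card := by
        rw [← Finset.card_union_of_disjoint]
        · congr 1
          ext i
          simp only [Finset.mem_filter, Finset.mem_univ, true_and, Finset.mem_union]
          omega
        · rw [Finset.disjoint_filter]
          intro i _ h1 h2
          omega
      rw [h6] at h3
      push_cast at h3 h4
      simp only [Nat.add_sub_cancel] at h2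
      have : (c (k + 1) : ℤ) ≤ ((Finset.univ.filter (fun i => d i = k + 1)).card : ℤ) := by
        rw [h2]; linarith
      exact_mod_cast this
    · exact Nat.zero_le _
  · rw [Multiset.sum_sum]
    simp only [Multiset.sum_replicate, smul_eq_mul]
    have h1 : ∀ P : ℕ, ((∑ k ∈ Finset.Icc 1 P, c k * k : ℕ) : ℤ) = r U 0 - r U P - P * g U P := by
      intro P
      induction P with
      | zero => simp
      | succ P ih =>
        rw [← Finset.insert_Icc_right_eq_Icc_add_one (by omega), Finset.sum_insert (by simp)]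
        push_cast at ih ⊢
        rw [ih, hc (P + 1) (by omega), Nat.add_sub_cancel, hrg U P]
        ring
    have h2 := h1 p
    have h3 : r U p = 0 := by
      simp only [r]
      rw [hN, Submodule.map_zero, finrank_bot]; rfl
    have h4 : g U p = 0 := by
      simp only [g]
      rw [hN, Submodule.map_zero, inf_bot_eq, finrank_bot]; rfl
    have h5 : r U 0 = a := by
      simp only [r]
      rw [pow_zero, ← ha]
      congr 1
      exact congrArg (fun X : Submodule F V => finrank F X) (Submodule.map_id U)
    rw [h3, h4, h5] at h2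
    have : ((∑ k ∈ Finset.Icc 1 p, c k * k : ℕ) : ℤ) = (a : ℤ) := by rw [h2]; ring
    exact_mod_cast this

open Module Submodule in
theorem exists_nilp {F : Type*} [Field F] {V : Type*} [AddCommGroup V] [Module F V] [FiniteDimensional F V] (m : ℕ) (d : Fin m → ℕ)
    (b : Basis (Σ i : Fin m, Fin (d i)) F V) :
    ∃ N : V →ₗ[F] V, (∀ k i (j : Fin (d i)), (N ^ k) (b ⟨i, j⟩) = if h : (j : ℕ) + k < d i then b ⟨i, ⟨j + k, h⟩⟩ else 0) ∧
      ∀ k, finrank F (LinearMap.range (N ^ k)) = ∑ i, (d i - k) := by
  classical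
  let N : V →ₗ[F] V := b.constr F (fun x => if h : (x.2 : ℕ) + 1 < d x.1 then b ⟨x.1, ⟨x.2 + 1, h⟩⟩ else 0)
  have h1 : ∀ i (j : Fin (d i)), N (b ⟨i, j⟩) = if h : (j : ℕ) + 1 < d i then b ⟨i, ⟨j + 1, h⟩⟩ else 0 := by
    intro i j
    exact b.constr_basis F _ _
  have hk : ∀ k i (j : Fin (d i)), (N ^ k) (b ⟨i, j⟩) = if h : (j : ℕ) + k < d i then b ⟨i, ⟨j + k, h⟩⟩ else 0 := by
    intro k
    induction k with
    | zero =>
      intro i j
      rw [pow_zero, dif_pos (by simp)]
      simp
    | succ k ih =>
      intro i j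
      rw [pow_succ', Module.End.mul_apply, ih]
      by_cases h2 : (j : ℕ) + k < d i
      · rw [dif_pos h2, h1]
        by_cases h3 : (j : ℕ) + (k + 1) < d i
        · rw [dif_pos h3, dif_pos (by simp only; omega)]
          simp only [add_assoc]
        · rw [dif_neg h3, dif_neg (by simp only; omega)]
      · rw [dif_neg h2, map_zero, dif_neg (by omega)]
  refine ⟨N, hk, fun k => ?_⟩
  have h2 : LinearMap.range (N ^ k) = span F (Set.range (fun x : {x : (Σ i : Fin m, Fin (d i)) // k ≤ x.2} => b x)) := by
    rw [LinearMap.range_eq_map, ← b.span_eq, Submodule.map_span]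
    apply le_antisymm
    · rw [span_le]
      rintro _ ⟨_, ⟨⟨i, j⟩, rfl⟩, rfl⟩
      rw [hk]
      split_ifs with h
      · exact subset_span ⟨⟨⟨i, ⟨j + k, h⟩⟩, by simp⟩, rfl⟩
      · exact zero_mem _
    · rw [span_le]
      rintro _ ⟨⟨⟨i, j⟩, hj⟩, rfl⟩
      apply subset_span
      simp only at hj
      refine ⟨b ⟨i, ⟨j - k, by omega⟩⟩, ⟨_, rfl⟩, ?_⟩
      rw [hk, dif_pos (by simp only; omega)]
      congr 3
      simp only; omega
  have h3 : finrank F (span F (Set.range (fun x : {x : (Σ i : Fin m, Fin (d i)) // k ≤ x.2} => b x))) = _ :=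
    finrank_span_eq_card (b.linearIndependent.comp _ Subtype.val_injective)
  rw [h2, h3, Fintype.card_subtype, Finset.card_filter, Fintype.sum_sigma]
  refine Finset.sum_congr rfl fun i _ => ?_
  simp only
  rw [Fin.sum_univ_eq_sum_range (fun j => if k ≤ j then 1 else 0) (d i), ← Finset.card_filter]
  have : (Finset.range (d i)).filter (fun j => k ≤ j) = Finset.Ico k (d i) := by
    ext j; simp only [Finset.mem_filter, Finset.mem_range, Finset.mem_Ico]; omega
  rw [this, Nat.card_Ico]

open Module Submodule Polynomial in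
theorem sub_one_pow {F : Type*} [Field F] {V : Type*} [AddCommGroup V] [Module F V] (p : ℕ) [Fact p.Prime] [CharP F p]
    (x : V →ₗ[F] V) : (x - 1) ^ (p - 1) = ∑ k ∈ Finset.range p, x ^ k := by
  have hp := (Fact.out : p.Prime).pos
  have h1 : (X - 1 : F[X]) ^ (p - 1) = ∑ k ∈ Finset.range p, X ^ k := by
    have h2 : (X - 1 : F[X]) ≠ 0 := by
      have := Polynomial.X_sub_C_ne_zero (1 : F)
      simpa using this
    apply mul_right_cancel₀ h2
    rw [geom_sum_mul, ← pow_succ, Nat.sub_add_cancel hp, sub_pow_char, one_pow]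
  have h3 := congrArg (aeval x) h1
  simpa using h3

open Module Submodule in
theorem perm_fixed {F : Type*} [Field F] {V : Type*} [AddCommGroup V] [Module F V] [FiniteDimensional F V]
    (p : ℕ) [hpf : Fact p.Prime] [CharP F p] (x : V →ₗ[F] V) (hx : x ^ p = 1) {t : ℕ} (D : Fin t → Submodule F V)
    (hD : iSupIndep D) (σ : Equiv.Perm (Fin t)) (hσ : ∀ j, (D j).map x = D (σ j)) (a : ℕ) (ha : 0 < a)
    (hfin : ∀ j, finrank F (D j) = a) (hrank : finrank F (LinearMap.range ((x - 1) ^ (p - 1))) < a) (j : Fin t) :
    σ j = j := by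
  by_contra hj
  have hp := hpf.out
  have hne : ∀ j, D j ≠ ⊥ := by
    intro j h
    have := hfin j
    rw [h, finrank_bot] at this
    omega
  have hinj : Function.Injective D := hD.injective hne
  have hit : ∀ k : ℕ, (D j).map (x ^ k) = D (σ^[k] j) := by
    intro k
    induction k with
    | zero => rw [pow_zero]; exact Submodule.map_id _
    | succ k ih =>
      rw [pow_succ', Function.iterate_succ_apply', ← hσ, ← ih, ← Submodule.map_comp]
      rfl
  have hper : Function.IsPeriodicPt σ p j := by
    apply hinj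
    rw [← hit, hx]
    exact Submodule.map_id _
  have hmin : Function.minimalPeriod σ j = p := by
    rcases (Nat.dvd_prime hp).1 hper.minimalPeriod_dvd with h | h
    · exfalso
      exact hj (Function.minimalPeriod_eq_one_iff_isFixedPt.1 h)
    · exact h
  have hinj2 : Function.Injective (((x - 1) ^ (p - 1)).domRestrict (D j)) := by
    rw [← LinearMap.ker_eq_bot, eq_bot_iff]
    rintro ⟨u, hu⟩ hu0
    rw [LinearMap.mem_ker, LinearMap.domRestrict_apply, sub_one_pow p x, LinearMap.sum_apply] at hu0
    simp only at hu0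
    obtain ⟨p', rfl⟩ : ∃ p', p = p' + 1 := ⟨p - 1, by have := hp.pos; omega⟩
    rw [Finset.sum_range_succ', pow_zero, Module.End.one_apply] at hu0
    have h1 : ∑ k ∈ Finset.range p', (x ^ (k + 1)) u ∈ ⨆ i, ⨆ (_ : i ≠ j), D i := by
      refine Submodule.sum_mem _ fun k hk => ?_
      have h2 : (x ^ (k + 1)) u ∈ D (σ^[k + 1] j) := by
        rw [← hit]; exact ⟨u, hu, rfl⟩
      have h3 : σ^[k + 1] j ≠ j := by
        intro h
        have h4 : Function.IsPeriodicPt σ (k + 1) j := h
        have h5 := h4.minimalPeriod_dvd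
        rw [hmin] at h5
        have := Nat.le_of_dvd (by omega) h5
        rw [Finset.mem_range] at hk
        omega
      exact (le_iSup₂_of_le (f := fun i (_ : i ≠ j) => D i) (σ^[k + 1] j) h3 le_rfl) h2
    have h6 : u ∈ ⨆ i, ⨆ (_ : i ≠ j), D i := by
      have : u = - ∑ k ∈ Finset.range p', (x ^ (k + 1)) u := by
        rw [eq_neg_iff_add_eq_zero, add_comm]; exact hu0
      rw [this]
      exact neg_mem h1
    have h7 := (Submodule.disjoint_def.1 (hD j)) u hu h6
    rw [Submodule.mem_bot]
    exact Subtype.ext h7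
  have h8 := LinearMap.finrank_range_of_inj hinj2
  rw [hfin] at h8
  have h9 : finrank F (LinearMap.range (((x - 1) ^ (p - 1)).domRestrict (D j))) ≤
      finrank F (LinearMap.range ((x - 1) ^ (p - 1))) := by
    apply Submodule.finrank_mono
    rw [LinearMap.range_domRestrict]
    exact LinearMap.map_le_range
  omega

open Module Submodule in
theorem sum_parts (μ : Multiset ℕ) : ∃ (m : ℕ) (d : Fin m → ℕ), μ = Multiset.map d (Finset.univ : Finset (Fin m)).val := by
  refine ⟨μ.toList.length, μ.toList.get, ?_⟩
  have h1 : (Finset.univ : Finset (Fin μ.toList.length)).val = (List.finRange μ.toList.length : Multiset _) := rfl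
  rw [h1, Multiset.map_coe, List.map_get_finRange, Multiset.coe_toList]

/-- Elements of order `p` of PSL_n(q) and imprimitive subgroups: a necessary condition. Here `T = PSL_n(F)` for a field `F` with `q = p^f` elements (`n ≥ 2`, `(n, q) ≠ (2, 2), (2, 3)`), `n = a·t` with `t ≥ 2`, and Ω is the set of direct-sum decompositions of `F^n` into `t` subspaces of dimension `a` (unordered; their number is the number of ordered ones divided by `t!`), whose stabilizers are the imprimitive subgroups of type GL_a(q) ≀ S_t (maximal except in some small cases; maximality is not assumed); an element of `T` of prime order `r` (a matrix `x` of determinant 1 with `x^r` scalar, `x` not scalar) fixes a point of Ω when it permutes the summands of some such decomposition. Suppose `p > 2` divides the number of such decompositions. If every element of `T` of order `p` stabilizes such a decomposition, then every partition of `n` into parts of size at most `p` in which the part `p` occurs fewer than `a` times contains (as a sub-multiset) a partition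 of `a`. -/
theorem result {F : Type*} [Field F] [Fintype F] {p : ℕ} [Fact p.Prime] [CharP F p] {q : ℕ} (hq : Fintype.card F = q)
    (n a t : ℕ) (hn : 2 ≤ n) (hT : (n, q) ≠ (2, 2) ∧ (n, q) ≠ (2, 3)) (hat : n = a * t) (ha : 1 ≤ a) (ht : 2 ≤ t)
    (hp : 2 < p) (hΩ : p ∣ Nat.card {D : Fin t → Submodule F (Fin n → F) // Cfsg.Geo.IsMDecomposition a D} / Nat.factorial t)
    (h : ∀ x : Matrix.SpecialLinearGroup (Fin n) F,
      (∃ z : F, ((x ^ p : Matrix.SpecialLinearGroup (Fin n) F) : Matrix (Fin n) (Fin n) F) = z • (1 : Matrix (Fin n) (Fin n) F)) →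
      (∀ z : F, (x : Matrix (Fin n) (Fin n) F) ≠ z • (1 : Matrix (Fin n) (Fin n) F)) →
      ∃ D : Fin t → Submodule F (Fin n → F), Cfsg.Geo.IsMDecomposition a D ∧
        ∃ σ : Equiv.Perm (Fin t), ∀ j, (D j).map (Matrix.toLin' (x : Matrix (Fin n) (Fin n) F)) = D (σ j)) :
    (∀ μ : Multiset ℕ, (∀ b ∈ μ, 0 < b ∧ b ≤ p) → μ.sum = n → μ.count p < a → ∃ ν : Multiset ℕ, ν ≤ μ ∧ ν.sum = a) := by
  classical
  intro μ hμ hsum hcount
  obtain ⟨m, d, hd⟩ := sum_parts μ
  have hpp := (Fact.out : p.Prime)
  have hdp : ∀ i, 0 < d i ∧ d i ≤ p := by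
    intro i
    apply hμ
    rw [hd]
    exact Multiset.mem_map_of_mem _ (Finset.mem_univ i)
  have hdsum : ∑ i, d i = n := by
    rw [← hsum, hd]; rfl
  have han : a ≤ n := by
    rw [hat]; nlinarith
  by_cases hone : ∀ i, d i = 1
  · refine ⟨Multiset.replicate a 1, ?_, by simp⟩
    have h1 : μ = Multiset.replicate n 1 := by
      rw [Multiset.eq_replicate]
      constructor
      · rw [hd, Multiset.card_map, ← hdsum]
        simp [hone]
      · intro b hb
        rw [hd, Multiset.mem_map] at hb
        obtain ⟨i, _, rfl⟩ := hb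
        exact hone i
    rw [h1]
    exact Multiset.replicate_le_replicate 1 |>.2 han
  push Not at hone
  obtain ⟨i1, hi1⟩ := hone
  have hi1' : 2 ≤ d i1 := by have := (hdp i1).1; omega
  have hcard : Fintype.card (Σ i : Fin m, Fin (d i)) = n := by
    rw [Fintype.card_sigma, ← hdsum]; simp
  let e : (Σ i : Fin m, Fin (d i)) ≃ Fin n := Fintype.equivFinOfCardEq hcard
  let b : Module.Basis (Σ i : Fin m, Fin (d i)) F (Fin n → F) := (Pi.basisFun F (Fin n)).reindex e.symm
  obtain ⟨N, hN, hrank⟩ := exists_nilp m d b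
  have hNp : N ^ p = 0 := by
    apply b.ext
    rintro ⟨i, j⟩
    rw [hN, dif_neg (by have := (hdp i).2; omega), LinearMap.zero_apply]
  let X : Matrix (Fin n) (Fin n) F := LinearMap.toMatrix' (1 + N)
  have hXlin : Matrix.toLin' X = 1 + N := Matrix.toLin'_toMatrix' _
  have hpow : (1 + N) ^ p = 1 := by
    have : CharP (Module.End F (Fin n → F)) p := by
      have : Nonempty (Fin n) := ⟨⟨0, by omega⟩⟩
      exact charP_of_injective_algebraMap (algebraMap F (Module.End F (Fin n → F))).injective p
    rw [add_pow_char_of_commute p (Commute.one_left _), hNp, one_pow, add_zero]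
  have hXp : X ^ p = 1 := by
    apply Matrix.toLin'.injective
    rw [Matrix.toLin'_pow, hXlin, hpow, Matrix.toLin'_one]
    rfl
  have hdet : X.det = 1 := by
    have h1 := congrArg Matrix.det hXp
    rw [Matrix.det_pow, Matrix.det_one] at h1
    have : ExpChar F p := ExpChar.prime hpp
    apply (frobenius_inj F p)
    rw [frobenius_def, frobenius_def, one_pow, h1]
  let x' : Matrix.SpecialLinearGroup (Fin n) F := ⟨X, hdet⟩
  obtain ⟨D, hD, σ, hσ⟩ := h x' ⟨1, by rw [Matrix.SpecialLinearGroup.coe_pow, one_smul]; exact hXp⟩ (by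
    intro z hz
    have hz' : X = z • (1 : Matrix (Fin n) (Fin n) F) := hz
    have h1 : (1 + N) = z • (1 : (Fin n → F) →ₗ[F] (Fin n → F)) := by
      rw [← hXlin, hz', map_smul, Matrix.toLin'_one]; rfl
    have h2 := LinearMap.congr_fun h1 (b ⟨i1, ⟨0, by omega⟩⟩)
    have h3 := hN 1 i1 ⟨0, by omega⟩
    rw [pow_one, dif_pos (by simp only; omega)] at h3
    rw [LinearMap.add_apply, h3, Module.End.one_apply, LinearMap.smul_apply, Module.End.one_apply] at h2
    have h4 := congrArg (fun v => b.repr v ⟨i1, ⟨1, by omega⟩⟩) h2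
    simp only [map_add, map_smul, Finsupp.add_apply, Finsupp.smul_apply, Module.Basis.repr_self] at h4
    rw [Finsupp.single_eq_of_ne (by simp)] at h4
    simp at h4)
  have hσ' : ∀ j, (D j).map (1 + N) = D (σ j) := by
    intro j
    rw [← hσ j, ← hXlin]
  have hfix : ∀ j, σ j = j := by
    intro j
    apply perm_fixed p (1 + N) hpow D hD.indep σ hσ' a ha hD.finrank_eq
    rw [add_sub_cancel_left, hrank]
    refine lt_of_le_of_lt ?_ hcount
    rw [hd, Multiset.count_map]
    have h1 : (Multiset.filter (fun i => p = d i) (Finset.univ : Finset (Fin m)).val).card =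
        (Finset.univ.filter (fun i => p = d i)).card := rfl
    rw [h1, Finset.card_filter]
    apply Finset.sum_le_sum
    intro i _
    have := hdp i
    split_ifs <;> omega
  have hinv : ∀ j, (D j).map N ≤ D j := by
    intro j
    rintro _ ⟨u, hu, rfl⟩
    have h1 : (1 + N) u ∈ D j := by
      have : (1 + N) u ∈ (D j).map (1 + N) := ⟨u, hu, rfl⟩
      rw [hσ' j, hfix j] at this
      exact this
    have h2 : N u = (1 + N) u - u := by
      rw [LinearMap.add_apply, Module.End.one_apply, add_sub_cancel_left]
    rw [h2]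
    exact sub_mem h1 hu
  let j0 : Fin t := ⟨0, by omega⟩
  let W := ⨆ i, ⨆ (_ : i ≠ j0), D i
  have hcompl : IsCompl (D j0) W := by
    refine ⟨hD.indep j0, ?_⟩
    rw [codisjoint_iff, eq_top_iff, ← hD.iSup_eq_top]
    apply iSup_le
    intro i
    by_cases hi : i = j0
    · rw [hi]; exact le_sup_left
    · exact (le_iSup₂_of_le (f := fun i (_ : i ≠ j0) => D i) i hi le_rfl).trans le_sup_right
  have hWinv : W.map N ≤ W := by
    show Submodule.map N (⨆ i, ⨆ (_ : i ≠ j0), D i) ≤ _
    rw [Submodule.map_iSup]
    apply iSup_le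
    intro i
    rw [Submodule.map_iSup]
    apply iSup_le
    intro hi
    exact (hinv i).trans (le_iSup₂_of_le (f := fun i (_ : i ≠ j0) => D i) i hi le_rfl)
  exact core N p hNp m d hdp hrank (D j0) W hcompl (hinv j0) hWinv a (hD.finrank_eq j0) μ hd

end Cfsg.Agent.S5959
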