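import Cfsg.Statements.S5960
import Cfsg.Agent.Lib.H99.OrthDec
import Cfsg.Agent.Lib.H99.Iso4

set_option autoImplicit false
set_option linter.unusedSimpArgs false
open scoped MatrixGroups
open Cfsg

namespace Cfsg.Agent.S5960


/-- Involutions of PSp_n(q) and imprimitive subgroups. Here `T = PSp_n(q)`, `n = 2d ≥ 4`, `(n, q) ≠ (4, 2)`, realised through the symplectic matrices over the field `F` with `q` elements and the standard alternating form; `n = a·t` with `a` even and `t ≥ 2`, and Ω is the (nonempty) set of orthogonal decompositions of `F^n` into `t` nondegenerate subspaces of dimension `a` (unordered; counted as ordered ones divided by `t!`), whose stabilizers are the imprimitive subgroups of type Sp_a(q) ≀ S_t (maximality is not assumed); an element of `T` of prime order `r` (a symplectic matrix `x` with `x^r` scalar, `x` not scalar) fixes a point of Ω when it permutes the summands of some such decomposition. If the number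 of such decompositions is even, then every involution of `T` stabilizes one of them (the action is 2-elusive). -/
theorem result {F : Type*} [Field F] [Fintype F] {p : ℕ} [Fact p.Prime] [CharP F p] {q : ℕ} (hq : Fintype.card F = q)
    (d : ℕ) (hd : 2 ≤ d) (hT : (d, q) ≠ (2, 2))
    (a t : ℕ) (hat : 2 * d = a * t) (ha : 2 ≤ a) (hae : Even a) (ht : 2 ≤ t) (hΩ : 2 ∣ Nat.card {D : Fin t → Submodule F (Fin d ⊕ Fin d → F) // (Cfsg.Geo.IsMDecomposition a D ∧ (∀ j, ∀ u ∈ D j, u ≠ 0 → ∃ v ∈ D j, Cfsg.sympForm d F u v ≠ 0) ∧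
          (∀ j j', j ≠ j' → ∀ u ∈ D j, ∀ v ∈ D j', Cfsg.sympForm d F u v = 0))} / Nat.factorial t)
    (x : ↥(Matrix.symplecticGroup (Fin d) F))
    (hx1 : ∃ z : F, ((x ^ 2 : ↥(Matrix.symplecticGroup (Fin d) F)) : Matrix (Fin d ⊕ Fin d) (Fin d ⊕ Fin d) F) = z • (1 : Matrix (Fin d ⊕ Fin d) (Fin d ⊕ Fin d) F))
    (hx2 : ∀ z : F, (x : Matrix (Fin d ⊕ Fin d) (Fin d ⊕ Fin d) F) ≠ z • (1 : Matrix (Fin d ⊕ Fin d) (Fin d ⊕ Fin d) F)) :
    ∃ D : Fin t → Submodule F (Fin d ⊕ Fin d → F), (Cfsg.Geo.IsMDecomposition a D ∧ (∀ j, ∀ u ∈ D j, u ≠ 0 → ∃ v ∈ D j, Cfsg.sympForm d F u v ≠ 0) ∧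
          (∀ j j', j ≠ j' → ∀ u ∈ D j, ∀ v ∈ D j', Cfsg.sympForm d F u v = 0)) ∧
        ∃ σ : Equiv.Perm (Fin t), ∀ j, (D j).map (Matrix.toLin' (x : Matrix (Fin d ⊕ Fin d) (Fin d ⊕ Fin d) F)) = D (σ j) := by
  classical
  open H99.Iso in
  obtain ⟨z, hz⟩ := hx1
  obtain ⟨h, hh⟩ := hae
  have hh0 : 0 < h := by omega
  have hiso : ∀ u v, H99.RElt.sympB d F (Matrix.toLin' (x : Matrix (Fin d ⊕ Fin d) (Fin d ⊕ Fin d) F) u)
      (Matrix.toLin' (x : Matrix (Fin d ⊕ Fin d) (Fin d ⊕ Fin d) F) v) = H99.RElt.sympB d F u v := fun u v => H6.Symp.bf_smul x u v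
  have hinj : Function.Injective (Matrix.toLin' (x : Matrix (Fin d ⊕ Fin d) (Fin d ⊕ Fin d) F)) := by
    intro u v huv
    have h1 : x.1.mulVec u = x.1.mulVec v := huv
    rw [← H6.Symp.inv_mulVec_self x u, h1, H6.Symp.inv_mulVec_self]
  have hT : ∀ v, Matrix.toLin' (x : Matrix (Fin d ⊕ Fin d) (Fin d ⊕ Fin d) F)
      (Matrix.toLin' (x : Matrix (Fin d ⊕ Fin d) (Fin d ⊕ Fin d) F) v) = z • v := by
    intro v
    rw [← Matrix.toLin'_mul_apply]
    have h2 : (x : Matrix (Fin d ⊕ Fin d) (Fin d ⊕ Fin d) F) * (x : Matrix (Fin d ⊕ Fin d) (Fin d ⊕ Fin d) F) = z • 1 := by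
      rw [← hz, pow_two]; rfl
    rw [h2, Matrix.toLin'_apply, Matrix.smul_mulVec, Matrix.one_mulVec]
  have hz0 : z ≠ 0 := by
    rintro rfl
    have : ∀ v : Fin d ⊕ Fin d → F, v = 0 := fun v => hinj (hinj (by rw [hT, map_zero, map_zero, zero_smul]))
    have h3 := congrFun (this (fun _ => 1)) (Sum.inl ⟨0, by omega⟩)
    exact one_ne_zero h3
  obtain ⟨D, σ, h1, h2, h3, h4, h5⟩ := H99.OrthDec.exists_dec (H99.RElt.sympB_alt d) hiso hT hz0 hinj (H99.Iso.sympB_top d) h t hh0 (by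
    rw [Module.finrank_fintype_fun_eq_card, Fintype.card_sum, Fintype.card_fin, ← two_mul, hat, hh]; ring)
  refine ⟨D, ⟨⟨ht, by omega, fun j => by rw [h1]; omega, H99.Iso.indep_of_orth (H99.Iso.sympB_refl d) D h2 h3, h4⟩, fun j u hu hne => ?_, h3⟩, σ, h5⟩
  by_contra hcon
  push Not at hcon
  exact hne (h2 j u hu hcon)

end Cfsg.Agent.S5960
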