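import Cfsg.Statements.S5961
import Cfsg.Agent.Lib.H99.Iso4

set_option autoImplicit false
set_option linter.unusedSimpArgs false
open scoped MatrixGroups
open Cfsg

namespace Cfsg.Agent.S5961


open Matrix Module H99.Iso in
/-- the predicate on ordered decompositions -/
def PD (d a t : ℕ) (F : Type*) [Field F] (D : Fin t → Submodule F (Fin d ⊕ Fin d → F)) : Prop :=
  Cfsg.Geo.IsMDecomposition a D ∧ (∀ j, ∀ u ∈ D j, u ≠ 0 → ∃ v ∈ D j, Cfsg.sympForm d F u v ≠ 0) ∧
          (∀ j j', j ≠ j' → ∀ u ∈ D j, ∀ v ∈ D j', Cfsg.sympForm d F u v = 0)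

open Matrix Module H99.Iso in
theorem PD_iff {d a t : ℕ} (ha : 0 < a) (ht : 2 ≤ t) {F : Type*} [Field F] [Fintype F] (D : Fin t → Submodule F (Fin d ⊕ Fin d → F)) :
    PD d a t F D ↔ (∀ j, finrank F (D j) = a) ∧ (∀ j, ND (H99.RElt.sympB d F) (D j)) ∧
      (∀ j j', j ≠ j' → ∀ u ∈ D j, ∀ v ∈ D j', H99.RElt.sympB d F u v = 0) ∧ iSup D = ⊤ := by
  constructor
  · rintro ⟨h1, h2, h3⟩
    refine ⟨h1.finrank_eq, fun j u hu h => ?_, h3, h1.iSup_eq_top⟩
    by_contra hne
    obtain ⟨v, hv, hv'⟩ := h2 j u hu hne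
    exact hv' (h v hv)
  · rintro ⟨h1, h2, h3, h4⟩
    refine ⟨⟨ht, ha, h1, indep_of_orth (sympB_refl d) D h2 h3, h4⟩, fun j u hu hne => ?_, h3⟩
    by_contra h
    push Not at h
    exact hne (h2 j u hu h)

open Matrix Module H99.Iso in
theorem PD_dvd {d a t : ℕ} (ha : 0 < a) (hae : Even a) (ht : 2 ≤ t) (hat : 2 * d = a * t) {F : Type*} [Field F] [Fintype F] {r : ℕ}
    (hr : r.Prime) (hΩ : r ∣ Nat.card {D : Fin t → Submodule F (Fin d ⊕ Fin d → F) // PD d a t F D} / Nat.factorial t) :
    r ∣ Nat.card (symplecticGroup (Fin d) F) := by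
  classical
  have hB := sympB_refl (F := F) d
  have hA : ∀ v, H99.RElt.sympB d F v v = 0 := fun v => H99.RElt.sympB_alt d v
  have h1 : t.factorial ∣ Nat.card {D : Fin t → Submodule F (Fin d ⊕ Fin d → F) // PD d a t F D} := by
    apply factorial_dvd
    · intro D hD
      apply iSupIndep.injective hD.1.indep
      intro j h
      have := hD.1.finrank_eq j
      rw [h, finrank_bot] at this; omega
    · intro D σ hD
      rw [PD_iff ha ht] at hD ⊢
      obtain ⟨h1, h2, h3, h4⟩ := hD
      refine ⟨fun j => h1 _, fun j => h2 _, fun j j' hj => h3 _ _ (fun h => hj (σ.injective h)), ?_⟩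
      rw [← h4]
      exact Equiv.iSup_comp (g := D) σ
  have h2 : r ∣ Nat.card {D : Fin t → Submodule F (Fin d ⊕ Fin d → F) // PD d a t F D} := by
    obtain ⟨k, hk⟩ := h1
    rw [hk, Nat.mul_div_cancel_left _ (Nat.factorial_pos t)] at hΩ
    rw [hk]; exact hΩ.mul_left _
  refine h2.trans ?_
  -- a decomposition exists
  have hX0 : ∃ D : Fin t → Submodule F (Fin d ⊕ Fin d → F), PD d a t F D := by
    obtain ⟨r', hr'1, hr'2⟩ := Nat.exists_infinite_primes (Fintype.card F + 3)
    have hnd : ¬ r' ∣ Fintype.card F := fun h => by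
      have := Nat.le_of_dvd Fintype.card_pos h; omega
    have : Fact r'.Prime := ⟨hr'2⟩
    have hq0 : ((Fintype.card F : ℕ) : ZMod r') ≠ 0 := by
      rw [Ne, ZMod.natCast_eq_zero_iff]; exact hnd
    have hi0 : 0 < orderOf ((Fintype.card F : ℕ) : ZMod r') := by
      rw [orderOf_pos_iff, isOfFinOrder_iff_pow_eq_one]
      exact ⟨r' - 1, by omega, ZMod.pow_card_sub_one_eq_one hq0⟩
    obtain ⟨D, hD1, hD2, hD3⟩ := exists_dec hr'2 (by omega) hnd hB hA (T := 1) (one_pow r') (fun _ _ => rfl) (a := a) rfl hae (by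
      rw [blk]; split_ifs <;> omega) t ⊤ (fun _ _ => trivial) (sympB_top d) (by
        rw [finrank_top, Module.finrank_fintype_fun_eq_card, Fintype.card_sum, Fintype.card_fin]; linarith) (by
        rw [sub_self, LinearMap.range_zero, inf_bot_eq, finrank_bot]; exact Nat.zero_le _)
    exact ⟨D, (PD_iff ha ht D).2 ⟨fun j => (hD1 j).2.2.2, fun j => (hD1 j).2.2.1, hD2, hD3⟩⟩
  obtain ⟨D0, hD0⟩ := hX0
  -- transitivity
  have hbij : ∀ g : symplecticGroup (Fin d) F, Function.Bijective (Matrix.toLin' (g : Matrix (Fin d ⊕ Fin d) (Fin d ⊕ Fin d) F)) := by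
    intro g
    constructor
    · intro u v huv
      have h1 : g.1 *ᵥ u = g.1 *ᵥ v := huv
      rw [← H6.Symp.inv_mulVec_self g u, h1, H6.Symp.inv_mulVec_self]
    · intro u
      exact ⟨(g⁻¹).1 *ᵥ u, H6.Symp.mulVec_inv_self g u⟩
  have hact : ∀ (g : symplecticGroup (Fin d) F) (D : Fin t → Submodule F (Fin d ⊕ Fin d → F)), PD d a t F D →
      PD d a t F (fun j => (D j).map (Matrix.toLin' (g : Matrix (Fin d ⊕ Fin d) (Fin d ⊕ Fin d) F))) := by
    intro g D hD
    rw [PD_iff ha ht] at hD ⊢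
    obtain ⟨h1, h2, h3, h4⟩ := hD
    have hg : ∀ u v, H99.RElt.sympB d F (Matrix.toLin' (g : Matrix (Fin d ⊕ Fin d) (Fin d ⊕ Fin d) F) u)
      (Matrix.toLin' (g : Matrix (Fin d ⊕ Fin d) (Fin d ⊕ Fin d) F) v) = H99.RElt.sympB d F u v := fun u v => H6.Symp.bf_smul g u v
    refine ⟨fun j => ?_, ?_, ?_, ?_⟩
    · rw [← h1 j]
      exact LinearEquiv.finrank_map_eq (LinearEquiv.ofBijective _ (hbij g)) (D j)
    · rintro j _ ⟨u, hu, rfl⟩ h
      rw [h2 j u hu (fun v hv => by rw [← hg]; exact h _ ⟨v, hv, rfl⟩), map_zero]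
    · rintro j j' hj _ ⟨u, hu, rfl⟩ _ ⟨v, hv, rfl⟩
      rw [hg]; exact h3 j j' hj u hu v hv
    · rw [← Submodule.map_iSup, h4, Submodule.map_top, LinearMap.range_eq_top]
      exact (hbij g).2
  refine card_dvd_of_transitive (fun g D => ⟨_, hact g D.1 D.2⟩) ?_ ?_ ⟨D0, hD0⟩ ?_
  · rintro ⟨D, hD⟩
    apply Subtype.ext
    funext j
    show (D j).map (Matrix.toLin' (1 : Matrix (Fin d ⊕ Fin d) (Fin d ⊕ Fin d) F)) = D j
    rw [Matrix.toLin'_one, Submodule.map_id]
  · rintro g h ⟨D, hD⟩
    apply Subtype.ext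
    funext j
    show (D j).map (Matrix.toLin' ((g : Matrix (Fin d ⊕ Fin d) (Fin d ⊕ Fin d) F) * (h : Matrix (Fin d ⊕ Fin d) (Fin d ⊕ Fin d) F))) = _
    rw [Matrix.toLin'_mul, Submodule.map_comp]
  · rintro ⟨D, hD⟩
    obtain ⟨h1, h2, h3, h4⟩ := (PD_iff ha ht D0).1 hD0
    obtain ⟨k1, k2, k3, k4⟩ := (PD_iff ha ht D).1 hD
    have hf : ∀ j, ∃ f : D0 j ≃ₗ[F] D j, ∀ u v : D0 j, H99.RElt.sympB d F (f u) (f v) = H99.RElt.sympB d F u v :=
      fun j => exists_isometry hB hA (h2 j) (k2 j) (by rw [h1, k1])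
    choose f hf using hf
    obtain ⟨g, hg⟩ := glue D0 D hD0.1.indep h4 k4 f
    have hgi := glue_isom D0 h4 D h3 k3 f hf g hg
    obtain ⟨x, hx⟩ := exists_sp_of_isom g.toLinearMap hgi
    refine ⟨x, ?_⟩
    apply Subtype.ext
    funext j
    show (D0 j).map (Matrix.toLin' (x : Matrix (Fin d ⊕ Fin d) (Fin d ⊕ Fin d) F)) = D j
    rw [hx]
    apply Submodule.eq_of_le_of_finrank_eq
    · rintro _ ⟨v, hv, rfl⟩
      have := hg j ⟨v, hv⟩
      show g v ∈ D j
      rw [show g v = _ from this]
      exact (f j _).2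
    · rw [k1 j, ← h1 j]
      exact LinearEquiv.finrank_map_eq g (D0 j)

open Matrix Module H99.Iso in
theorem not_scalar {d : ℕ} (hd : 0 < d) {F : Type*} [Field F] {r : ℕ} (hodd : Odd r) (T : (Fin d ⊕ Fin d → F) →ₗ[F] (Fin d ⊕ Fin d → F))
    (hT : ∀ u v, H99.RElt.sympB d F (T u) (T v) = H99.RElt.sympB d F u v) (hTr : T ^ r = 1) (hT1 : T ≠ 1) (z : F) (hz : ∀ v, T v = z • v) : False := by
  have h10 : ∀ u v, H99.RElt.sympB d F u v = 0 ∨ z * z = 1 := by
    intro u v
    have := hT u v
    rw [hz, hz, map_smul, map_smul, LinearMap.smul_apply, smul_eq_mul, smul_eq_mul, ← mul_assoc] at this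
    by_cases h0 : H99.RElt.sympB d F u v = 0
    · left; exact h0
    · right
      exact (mul_eq_right₀ h0).1 this
  have hzz : z * z = 1 := by
    by_contra hne
    let i0 : Fin d := ⟨0, by omega⟩
    have h11 : (Pi.single (Sum.inl i0) 1 : Fin d ⊕ Fin d → F) = 0 := by
      apply H99.RElt.sympB_nd d
      intro y
      rcases h10 (Pi.single (Sum.inl i0) 1) y with h | h
      · exact h
      · exact absurd h hne
    have := congrFun h11 (Sum.inl i0)
    simp at this
  have hzr : z ^ r = 1 := by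
    let i0 : Fin d := ⟨0, by omega⟩
    have h11 : ∀ k : ℕ, (T ^ k) (Pi.single (Sum.inl i0) 1 : Fin d ⊕ Fin d → F) = z ^ k • (Pi.single (Sum.inl i0) 1) := by
      intro k
      induction k with
      | zero => simp
      | succ k ih => rw [pow_succ', Module.End.mul_apply, ih, map_smul, hz, smul_smul, pow_succ]
    have h12 := h11 r
    rw [hTr] at h12
    have := congrFun h12 (Sum.inl i0)
    simp at this
    exact this.symm
  obtain ⟨s, hs⟩ := hodd
  rw [hs, pow_add, pow_mul, pow_one, pow_two, hzz, one_pow, one_mul] at hzr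
  apply hT1
  apply LinearMap.ext
  intro v
  rw [hz, hzr, one_smul]; rfl

/-- Elements of odd prime order of PSp_n(q) and imprimitive subgroups. Here `T = PSp_n(q)`, `n = 2d ≥ 4`, `(n, q) ≠ (4, 2)`, realised through the symplectic matrices over the field `F` with `q` elements and the standard alternating form; `n = a·t` with `a` even and `t ≥ 2`, and Ω is the (nonempty) set of orthogonal decompositions of `F^n` into `t` nondegenerate subspaces of dimension `a` (unordered; counted as ordered ones divided by `t!`), whose stabilizers are the imprimitive subgroups of type Sp_a(q) ≀ S_t (maximality is not assumed); an element of `T` of prime order `r` (a symplectic matrix `x` with `x^r` scalar, `x` not scalar) fixes a point of Ω when it permutes the summands of some such decomposition. Let `r ≠ p` be an odd prime dividing the number of such decompositions, let `i` be the multiplicative order of `q` modulo `r`, `c = i` if `i` is even and `c = 2i` if `i` is odd, and write `k = n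 mod c`, `ℓ = a mod c`. Then every element of `T` of order `r` stabilizes such a decomposition if and only if `c ≤ a` and `k = t·ℓ`. -/
theorem result {F : Type*} [Field F] [Fintype F] {p : ℕ} [Fact p.Prime] [CharP F p] {q : ℕ} (hq : Fintype.card F = q)
    (d : ℕ) (hd : 2 ≤ d) (hT : (d, q) ≠ (2, 2))
    (a t : ℕ) (hat : 2 * d = a * t) (ha : 2 ≤ a) (hae : Even a) (ht : 2 ≤ t)
    (r : ℕ) [Fact r.Prime] (hr2 : r ≠ 2) (hrp : r ≠ p) (hΩ : r ∣ Nat.card {D : Fin t → Submodule F (Fin d ⊕ Fin d → F) // (Cfsg.Geo.IsMDecomposition a D ∧ (∀ j, ∀ u ∈ D j, u ≠ 0 → ∃ v ∈ D j, Cfsg.sympForm d F u v ≠ 0) ∧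
          (∀ j j', j ≠ j' → ∀ u ∈ D j, ∀ v ∈ D j', Cfsg.sympForm d F u v = 0))} / Nat.factorial t)
    (i c : ℕ) (hi : i = orderOf (q : ZMod r)) (hc : c = if Even i then i else 2 * i) :
    (∀ x : ↥(Matrix.symplecticGroup (Fin d) F),
      (∃ z : F, ((x ^ r : ↥(Matrix.symplecticGroup (Fin d) F)) : Matrix (Fin d ⊕ Fin d) (Fin d ⊕ Fin d) F) = z • (1 : Matrix (Fin d ⊕ Fin d) (Fin d ⊕ Fin d) F)) →
      (∀ z : F, (x : Matrix (Fin d ⊕ Fin d) (Fin d ⊕ Fin d) F) ≠ z • (1 : Matrix (Fin d ⊕ Fin d) (Fin d ⊕ Fin d) F)) →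
      ∃ D : Fin t → Submodule F (Fin d ⊕ Fin d → F), (Cfsg.Geo.IsMDecomposition a D ∧ (∀ j, ∀ u ∈ D j, u ≠ 0 → ∃ v ∈ D j, Cfsg.sympForm d F u v ≠ 0) ∧
          (∀ j j', j ≠ j' → ∀ u ∈ D j, ∀ v ∈ D j', Cfsg.sympForm d F u v = 0)) ∧
        ∃ σ : Equiv.Perm (Fin t), ∀ j, (D j).map (Matrix.toLin' (x : Matrix (Fin d ⊕ Fin d) (Fin d ⊕ Fin d) F)) = D (σ j)) ↔
    (c ≤ a ∧ (2 * d) % c = t * (a % c)) := by
  classical
  have hr : r.Prime := Fact.out
  have hp : p.Prime := Fact.out
  have hq1 : 1 < q := by rw [← hq]; exact Fintype.one_lt_card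
  have hrq : ¬ r ∣ Fintype.card F := by
    obtain ⟨k, -, hk⟩ := FiniteField.card F p
    rw [hk]
    intro h
    exact hrp ((Nat.prime_dvd_prime_iff_eq hr hp).1 (hr.dvd_of_dvd_pow h))
  have hrodd := hr.odd_of_ne_two hr2
  have hq0 : ((q : ℕ) : ZMod r) ≠ 0 := by
    rw [Ne, ZMod.natCast_eq_zero_iff, ← hq]; exact hrq
  have hqr : ((q : ℕ) : ZMod r) ^ (r - 1) = 1 := ZMod.pow_card_sub_one_eq_one hq0
  have hr3 : 3 ≤ r := by have := hr.two_le; omega
  have hidvd : i ∣ r - 1 := by rw [hi]; exact orderOf_dvd_of_pow_eq_one hqr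
  have hi0 : 0 < i := Nat.pos_of_dvd_of_pos hidvd (by omega)
  have hr1even : Even (r - 1) := hrodd.tsub_odd odd_one
  have hcr : c ≤ r - 1 := by
    rw [hc]
    split_ifs with he
    · exact Nat.le_of_dvd (by omega) hidvd
    · apply Nat.le_of_dvd (by omega)
      exact Nat.Coprime.mul_dvd_of_dvd_of_dvd (Nat.coprime_two_left.2 (Nat.not_even_iff_odd.1 he)) hr1even.two_dvd hidvd
  have hc0 : 0 < c := by rw [hc]; split_ifs <;> omega
  have hce : Even c := by
    rw [hc]; split_ifs with he
    · exact he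
    · exact even_two_mul _
  have hic : i ∣ c := by
    rw [hc]; split_ifs
    · exact dvd_rfl
    · exact Dvd.intro_left 2 rfl
  have hrc : r ∣ Fintype.card F ^ c - 1 := by
    rw [← ZMod.natCast_eq_zero_iff, Nat.cast_sub (Nat.one_le_pow _ _ Fintype.card_pos), hq]
    obtain ⟨m, hm⟩ := hic
    push_cast
    rw [hm, pow_mul, hi, pow_orderOf_eq_one, one_pow, sub_self]
  have hcblk : c = H99.Iso.blk (orderOf ((Fintype.card F : ℕ) : ZMod r)) := by
    rw [hc, H99.Iso.blk, hq, ← hi]
  have hB := H99.Iso.sympB_refl (F := F) d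
  have hA : ∀ v, H99.RElt.sympB d F v v = 0 := fun v => H99.RElt.sympB_alt d v
  have hN := H99.Iso.sympB_top (F := F) d
  have ha0 : 0 < a := by omega
  have hfr : Module.finrank F (Fin d ⊕ Fin d → F) = 2 * d := by
    rw [Module.finrank_fintype_fun_eq_card, Fintype.card_sum, Fintype.card_fin]; ring
  have hcard := PD_dvd (F := F) (d := d) ha0 hae ht hat hr hΩ
  have hcd : c ≤ 2 * d := by
    rw [H6.SympCard.card_symplecticGroup, Nat.card_eq_fintype_card, Fintype.card_fin] at hcard
    rcases (Nat.Prime.dvd_mul hr).1 hcard with h6 | h6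
    · exact absurd (hr.dvd_of_dvd_pow h6) hrq
    obtain ⟨j, hjd, hj⟩ := (hr.prime.dvd_finsetProd_iff _).1 h6
    rw [Finset.mem_range] at hjd
    have h7 : i ∣ 2 * (j + 1) := by
      rw [hi]
      apply orderOf_dvd_of_pow_eq_one
      rw [← ZMod.natCast_eq_zero_iff, Nat.cast_sub (Nat.one_le_pow _ _ Fintype.card_pos), sub_eq_zero, hq] at hj
      push_cast at hj
      exact hj
    have h8 : c ∣ 2 * (j + 1) := by
      rw [hc]
      split_ifs with he
      · exact h7
      · exact Nat.Coprime.mul_dvd_of_dvd_of_dvd (Nat.coprime_two_left.2 (Nat.not_even_iff_odd.1 he)) (Dvd.intro _ rfl) h7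
    have := Nat.le_of_dvd (by omega) h8
    omega
  -- the invariant pieces
  have hdvdfr : ∀ (T : (Fin d ⊕ Fin d → F) →ₗ[F] (Fin d ⊕ Fin d → F)), (∀ u v, H99.RElt.sympB d F (T u) (T v) = H99.RElt.sympB d F u v) →
      T ^ r = 1 → ∀ X : Submodule F (Fin d ⊕ Fin d → F), (∀ v ∈ X, T v ∈ X) → H99.Iso.ND (H99.RElt.sympB d F) X →
      c ∣ Module.finrank F (X ⊓ LinearMap.range (T - 1) : Submodule F (Fin d ⊕ Fin d → F)) := by
    intro T hT hTr X hX hXn
    rw [hcblk]
    exact H99.Iso.dvd_finrank hr hr2 hrq hB hA hTr hT _ _ rfl (H99.Iso.mov_inv hX) (H99.Iso.mov_fpf hr hrq hTr)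
      (H99.Iso.nd_mov hr hrq hB hTr hT hX hXn).1
  constructor
  · intro H
    -- consequences of the existence of a stabilized decomposition
    have hmain : ∀ (T : (Fin d ⊕ Fin d → F) →ₗ[F] (Fin d ⊕ Fin d → F)), (∀ u v, H99.RElt.sympB d F (T u) (T v) = H99.RElt.sympB d F u v) →
        T ^ r = 1 → T ≠ 1 → ∃ D : Fin t → Submodule F (Fin d ⊕ Fin d → F), PD d a t F D ∧
        ∃ σ : Equiv.Perm (Fin t), ∀ j, (D j).map T = D (σ j) := by
      intro T hT hTr hT1
      obtain ⟨x, hx⟩ := H99.Iso.exists_sp_of_isom T hT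
      have hxr : x ^ r = 1 := by
        apply Subtype.ext
        apply Matrix.toLin'.injective
        show Matrix.toLin' ((x : Matrix (Fin d ⊕ Fin d) (Fin d ⊕ Fin d) F) ^ r) = Matrix.toLin' (1 : Matrix (Fin d ⊕ Fin d) (Fin d ⊕ Fin d) F)
        rw [Matrix.toLin'_pow, hx, hTr, Matrix.toLin'_one]; rfl
      obtain ⟨D, hD, σ, hσ⟩ := H x ⟨1, by rw [hxr, one_smul]; rfl⟩ (by
        intro z hz
        apply not_scalar (by omega) hrodd T hT hTr hT1 z
        intro v
        rw [← hx, hz]; simp)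
      exact ⟨D, hD, σ, fun j => by rw [← hx]; exact hσ j⟩
    by_contra hcon
    by_cases hca : c ≤ a
    · -- the maximal element
      have hne : (2 * d) % c ≠ t * (a % c) := fun h => hcon ⟨hca, h⟩
      obtain ⟨T, hT, hTr, hTk⟩ := H99.Iso.exists_max hr hr2 hrq hB hA hN hce hc0 hrc _ 1 (fun _ _ => rfl) (one_pow r) rfl
      have hsum := LinearMap.finrank_range_add_finrank_ker (T - 1)
      rw [hfr] at hsum
      have hT1 : T ≠ 1 := by
        rintro rfl
        rw [sub_self, LinearMap.ker_zero, finrank_top, hfr] at hTk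
        omega
      obtain ⟨D, hD, σ, hσ⟩ := hmain T hT hTr hT1
      obtain ⟨h1, h2, h3, h4⟩ := (PD_iff ha0 ht D).1 hD
      have hσ1 : ∀ j, σ j = j := by
        intro j
        by_contra hj
        have := (H99.Iso.perm_fix hr hTr D hD.1.indep h4 h1 ha0 σ hσ j hj).1
        omega
      have hinv : ∀ j, ∀ v ∈ D j, T v ∈ D j := by
        intro j v hv
        have h5 := hσ j
        rw [hσ1] at h5
        rw [← h5]; exact ⟨v, hv, rfl⟩
      obtain ⟨π, p1, p2, p3, p4⟩ := H99.Iso.exists_proj D hD.1.indep h4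
      have hcomm : ∀ l v, π l (T v) = T (π l v) := by
        intro l v
        conv_lhs => rw [← p2 v, map_sum, map_sum]
        rw [Finset.sum_eq_single l]
        · exact p3 l _ (hinv l _ (p1 l v))
        · intro k _ hk
          exact p4 l k (Ne.symm hk) _ (hinv k _ (p1 k v))
        · intro h; exact absurd (Finset.mem_univ _) h
      let L : LinearMap.range (T - 1) →ₗ[F] (∀ l : Fin t, (D l ⊓ LinearMap.range (T - 1) : Submodule F (Fin d ⊕ Fin d → F))) :=
        LinearMap.pi fun l => LinearMap.codRestrict (D l ⊓ LinearMap.range (T - 1)) ((π l) ∘ₗ (LinearMap.range (T - 1)).subtype) (by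
          rintro ⟨w, v, rfl⟩
          refine ⟨p1 l _, π l v, ?_⟩
          show T (π l v) - π l v = π l (T v - v)
          rw [map_sub, hcomm])
      have hL : Function.Injective L := by
        rw [← LinearMap.ker_eq_bot, LinearMap.ker_eq_bot']
        intro v hv
        apply Subtype.ext
        rw [← p2 v]
        apply Finset.sum_eq_zero
        intro l _
        have := congrFun hv l
        exact congrArg Subtype.val this
      have h5 := LinearMap.finrank_le_finrank_of_injective hL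
      rw [Module.finrank_pi_fintype] at h5
      have h6 : ∀ l, Module.finrank F (D l ⊓ LinearMap.range (T - 1) : Submodule F (Fin d ⊕ Fin d → F)) ≤ a / c * c := by
        intro l
        obtain ⟨s, hs⟩ := hdvdfr T hT hTr (D l) (hinv l) (h2 l)
        have h7 := Submodule.finrank_mono (inf_le_left : D l ⊓ LinearMap.range (T - 1) ≤ D l)
        rw [h1 l, hs] at h7
        rw [hs, mul_comm c s]
        apply Nat.mul_le_mul_right
        rw [Nat.le_div_iff_mul_le hc0, mul_comm]
        exact h7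
      have h7 := h5.trans (Finset.sum_le_sum fun l _ => h6 l)
      rw [Finset.sum_const, Finset.card_univ, Fintype.card_fin, smul_eq_mul] at h7
      have h8 := Nat.div_add_mod (2 * d) c
      have h9 := Nat.div_add_mod a c
      obtain ⟨s, hs⟩ : c ∣ Module.finrank F (LinearMap.range (T - 1)) := by
        have := hdvdfr T hT hTr ⊤ (fun _ _ => trivial) hN
        rwa [top_inf_eq] at this
      rw [hs] at h7 hsum
      have h10 : s = 2 * d / c := by
        rw [← hsum, Nat.mul_add_div hc0, Nat.div_eq_of_lt hTk, add_zero]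
      rw [h10] at h7
      have h11 : t * (a / c) ≤ 2 * d / c := by
        rw [Nat.le_div_iff_mul_le hc0, hat]
        calc t * (a / c) * c = t * (c * (a / c)) := by ring
          _ ≤ t * a := Nat.mul_le_mul_left t (Nat.mul_div_le a c)
          _ = a * t := mul_comm _ _
      have h12 : 2 * d / c ≤ t * (a / c) := by
        have : c * (2 * d / c) ≤ c * (t * (a / c)) := by
          calc c * (2 * d / c) ≤ t * (a / c * c) := h7
            _ = _ := by ring
        exact Nat.le_of_mul_le_mul_left this hc0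
      have h13 : 2 * d / c = t * (a / c) := le_antisymm h12 h11
      apply hne
      rw [h13] at h8
      have h14 : t * (c * (a / c) + a % c) = 2 * d := by rw [h9, hat, mul_comm]
      have h15 : c * (t * (a / c)) + t * (a % c) = 2 * d := by rw [← h14]; ring
      omega
    · -- an element with minimal support
      obtain ⟨l, hl⟩ := hce
      obtain ⟨X, -, hXn, hXd⟩ := H99.Iso.exists_even hB hA l ⊤ (by rw [finrank_top, hfr]; omega) hN
      obtain ⟨T, hT, hTr, hT1, hTo, -⟩ := H99.Iso.exists_isom_on hr hB hA hXn (j := l) (l := l) hXd (by omega) le_rfl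
        (by rw [show 2 * l = c by omega]; exact hrc)
      have hsum := LinearMap.finrank_range_add_finrank_ker (T - 1)
      rw [hfr] at hsum
      have hker : 2 * d - c ≤ Module.finrank F (LinearMap.ker (T - 1)) := by
        obtain ⟨-, h1, -, -⟩ := H99.Iso.split hB hN hXn le_top
        rw [finrank_top, hfr, hXd, top_inf_eq] at h1
        have h2 : (H99.RElt.sympB d F).orthogonal X ≤ LinearMap.ker (T - 1) := by
          intro v hv
          rw [LinearMap.mem_ker]
          exact sub_eq_zero.2 (hTo v hv)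
        have := Submodule.finrank_mono h2
        omega
      obtain ⟨D, hD, σ, hσ⟩ := hmain T hT hTr hT1
      obtain ⟨h1, h2, h3, h4⟩ := (PD_iff ha0 ht D).1 hD
      have hσ1 : ∀ j, σ j = j := by
        intro j
        by_contra hj
        obtain ⟨-, h5, h6⟩ := H99.Iso.perm_fix hr hTr D hD.1.indep h4 h1 ha0 σ hσ j hj
        obtain ⟨t', rfl⟩ : ∃ t', t = t' + (r - 1) := ⟨t - (r - 1), by omega⟩
        rw [Nat.add_sub_cancel] at h6
        have h7 : 2 * d = t' * a + (r - 1) * a := by rw [hat]; ring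
        have h8 : (r - 1) * 2 ≤ (r - 1) * a := Nat.mul_le_mul_left _ ha
        omega
      apply hT1
      apply LinearMap.ext
      intro v
      have hv : v ∈ iSup D := by rw [h4]; trivial
      have hle : iSup D ≤ LinearMap.ker (T - 1) := by
        apply iSup_le
        intro j
        have hinv : ∀ v ∈ D j, T v ∈ D j := by
          intro v hv
          have h5 := hσ j
          rw [hσ1] at h5
          rw [← h5]; exact ⟨v, hv, rfl⟩
        obtain ⟨s, hs⟩ := hdvdfr T hT hTr (D j) hinv (h2 j)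
        have h7 := Submodule.finrank_mono (inf_le_left : D j ⊓ LinearMap.range (T - 1) ≤ D j)
        rw [h1 j, hs] at h7
        have hs0 : s = 0 := by
          by_contra hs0
          have : c * 1 ≤ c * s := Nat.mul_le_mul_left c (Nat.pos_of_ne_zero hs0)
          omega
        rw [hs0, mul_zero] at hs
        have h8 := (H99.Iso.nd_mov hr hrq hB hTr hT hinv (h2 j)).2.2
        rw [hs, zero_add] at h8
        have h9 := Submodule.eq_of_le_of_finrank_eq inf_le_left h8
        rw [← h9]; exact inf_le_right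
      have := hle hv
      rw [LinearMap.mem_ker] at this
      exact sub_eq_zero.1 this
  · rintro ⟨hca, hmod⟩ x ⟨z, hz⟩ -
    set X := Matrix.toLin' (x : Matrix (Fin d ⊕ Fin d) (Fin d ⊕ Fin d) F) with hX
    have hXi : ∀ u v, H99.RElt.sympB d F (X u) (X v) = H99.RElt.sympB d F u v := fun u v => H6.Symp.bf_smul x u v
    have hXr : ∀ v, (X ^ r) v = z • v := by
      intro v
      rw [hX, ← Matrix.toLin'_pow, Matrix.toLin'_apply]
      have : (x : Matrix (Fin d ⊕ Fin d) (Fin d ⊕ Fin d) F) ^ r = z • 1 := hz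
      rw [this, Matrix.smul_mulVec, Matrix.one_mulVec]
    have hXk : ∀ (k : ℕ) u v, H99.RElt.sympB d F ((X ^ k) u) ((X ^ k) v) = H99.RElt.sympB d F u v := by
      intro k
      induction k with
      | zero => intro u v; rfl
      | succ k ih => intro u v; rw [pow_succ', Module.End.mul_apply, Module.End.mul_apply, hXi, ih]
    have hzz : z * z = 1 := by
      by_contra hne
      let i0 : Fin d := ⟨0, by omega⟩
      have h11 : (Pi.single (Sum.inl i0) 1 : Fin d ⊕ Fin d → F) = 0 := by
        apply H99.RElt.sympB_nd d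
        intro y
        have h12 := hXk r (Pi.single (Sum.inl i0) 1) y
        rw [hXr, hXr, map_smul, map_smul, LinearMap.smul_apply, smul_eq_mul, smul_eq_mul, ← mul_assoc] at h12
        by_contra h0
        exact hne ((mul_eq_right₀ h0).1 h12)
      have := congrFun h11 (Sum.inl i0)
      simp at this
    let T : (Fin d ⊕ Fin d → F) →ₗ[F] (Fin d ⊕ Fin d → F) := z • X
    have hTk : ∀ k : ℕ, T ^ k = z ^ k • X ^ k := fun k => _root_.smul_pow z X k
    have hTr : T ^ r = 1 := by
      rw [hTk]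
      apply LinearMap.ext
      intro v
      rw [LinearMap.smul_apply, hXr, smul_smul, ← pow_succ]
      obtain ⟨s, hs⟩ := hrodd.add_one
      rw [hs, ← two_mul, pow_mul, pow_two, hzz, one_pow, one_smul]; rfl
    have hT : ∀ u v, H99.RElt.sympB d F (T u) (T v) = H99.RElt.sympB d F u v := by
      intro u v
      show H99.RElt.sympB d F (z • X u) (z • X v) = _
      rw [map_smul, map_smul, LinearMap.smul_apply, smul_eq_mul, smul_eq_mul, ← mul_assoc, hzz, one_mul, hXi]
    have h8 := Nat.div_add_mod (2 * d) c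
    have h9 := Nat.div_add_mod a c
    have h14 : t * (c * (a / c) + a % c) = 2 * d := by rw [h9, hat, mul_comm]
    have h15 : c * (t * (a / c)) + t * (a % c) = 2 * d := by rw [← h14]; ring
    have h16 : 2 * d / c = t * (a / c) := by
      apply Nat.eq_of_mul_eq_mul_left hc0
      omega
    obtain ⟨D, hD1, hD2, hD3⟩ := H99.Iso.exists_dec hr hr2 hrq hB hA hTr hT hcblk hae hc0 t ⊤ (fun _ _ => trivial) hN (by
        rw [finrank_top, hfr, hat, mul_comm]) (by
        obtain ⟨s, hs⟩ := hdvdfr T hT hTr ⊤ (fun _ _ => trivial) hN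
        rw [hs, ← h16, mul_comm c s]
        apply Nat.mul_le_mul_right
        rw [Nat.le_div_iff_mul_le hc0, mul_comm, ← hs, ← hfr, ← finrank_top F (Fin d ⊕ Fin d → F)]
        exact Submodule.finrank_mono le_top)
    refine ⟨D, (PD_iff ha0 ht D).2 ⟨fun j => (hD1 j).2.2.2, fun j => (hD1 j).2.2.1, hD2, hD3⟩, 1, fun j => ?_⟩
    rw [Equiv.Perm.one_apply]
    have hbij : Function.Bijective X := by
      constructor
      · intro u v huv
        have h1 : Matrix.mulVec x.1 u = Matrix.mulVec x.1 v := huv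
        rw [← H6.Symp.inv_mulVec_self x u, h1, H6.Symp.inv_mulVec_self]
      · intro u
        exact ⟨Matrix.mulVec (x⁻¹).1 u, H6.Symp.mulVec_inv_self x u⟩
    apply Submodule.eq_of_le_of_finrank_eq
    · rintro _ ⟨v, hv, rfl⟩
      have h1 := (hD1 j).2.1 v hv
      have h2 : X v = z • T v := by
        show X v = z • (z • X v)
        rw [smul_smul, hzz, one_smul]
      rw [h2]
      exact (D j).smul_mem _ h1
    · exact LinearEquiv.finrank_map_eq (LinearEquiv.ofBijective X hbij) (D j)

end Cfsg.Agent.S5961
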