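import Cfsg.Statements.S5962
import Cfsg.Agent.Lib.H99.Alt
import Cfsg.Agent.Lib.H16.Symp

set_option autoImplicit false
set_option linter.unusedSimpArgs false
open scoped MatrixGroups
open Cfsg

namespace Cfsg.Agent.S5962


open Module Submodule in
theorem main {F : Type*} [Field F] [Fintype F] (h2 : (2 : F) ≠ 0) (d : ℕ)
    (T : (Fin d ⊕ Fin d → F) →ₗ[F] (Fin d ⊕ Fin d → F))
    (hiso : ∀ u v, H16.Symp.sympBilin d F (T u) (T v) = H16.Symp.sympBilin d F u v)
    (hT : (∀ x, T (T x) = x) ∨ (∀ x, T (T x) = -x)) :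
    ∃ U W : Submodule F (Fin d ⊕ Fin d → F), IsCompl U W ∧
      (∀ u ∈ U, ∀ v ∈ U, Cfsg.sympForm d F u v = 0) ∧ (∀ u ∈ W, ∀ v ∈ W, Cfsg.sympForm d F u v = 0) ∧
        ((U.map T = U ∧ W.map T = W) ∨ (U.map T = W ∧ W.map T = U)) := by
  have hA := H16.Symp.sympBilin_isAlt (m := d) (F := F)
  have hN : H99.Alt.ND (H16.Symp.sympBilin d F) := fun x hx => H16.Symp.sympBilin_nondegenerate.1 x hx
  rcases hT with hT | hT
  · obtain ⟨ι, fι, dι, bs, h1, h2, h3, h4⟩ := H99.Alt.exists_symp_basis_pos h2 _ _ hA hN T hiso hT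
    refine ⟨_, _, H99.Alt.isCompl_halves bs, H99.Alt.isotropic_span _ _ _ h1, H99.Alt.isotropic_span _ _ _ h2, Or.inl ⟨?_, ?_⟩⟩
    · apply H99.Alt.map_span_of_smul
      intro i
      obtain ⟨a, ha, h5, h6⟩ := h4 i
      refine ⟨a, ?_, h5⟩
      rcases ha with rfl | rfl
      · exact one_ne_zero
      · exact neg_ne_zero.2 one_ne_zero
    · apply H99.Alt.map_span_of_smul
      intro i
      obtain ⟨a, ha, h5, h6⟩ := h4 i
      refine ⟨a, ?_, h6⟩
      rcases ha with rfl | rfl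
      · exact one_ne_zero
      · exact neg_ne_zero.2 one_ne_zero
  · obtain ⟨ι, fι, dι, bs, h1, h2, h3, h4⟩ := H99.Alt.exists_symp_basis_neg h2 _ _ hA hN T hiso hT
    refine ⟨_, _, H99.Alt.isCompl_halves bs, H99.Alt.isotropic_span _ _ _ h1, H99.Alt.isotropic_span _ _ _ h2, Or.inr ⟨?_, ?_⟩⟩
    · apply H99.Alt.map_span_of_smul
      intro i
      exact ⟨1, one_ne_zero, by rw [one_smul]; exact (h4 i).1⟩
    · apply H99.Alt.map_span_of_smul
      intro i
      exact ⟨-1, neg_ne_zero.2 one_ne_zero, by rw [neg_smul, one_smul]; exact (h4 i).2⟩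

/-- Involutions of PSp_n(q), q odd, and the subgroups GL_{n/2}(q).2. Here `T = PSp_n(q)`, `n = 2d ≥ 4`, `q` odd, realised through the symplectic matrices over the field `F` with `q` elements; Ω is the set of unordered pairs `{U, W}` of complementary totally isotropic `d`-spaces (`F^n = U ⊕ W`), whose stabilizers are the subgroups of type GL_d(q).2 (maximal except in some small cases; maximality is not assumed); an element of `T` of prime order `r` (a symplectic matrix `x` with `x^r` scalar, `x` not scalar) fixes such a pair when it fixes or interchanges `U` and `W`. If the number of such pairs is even, every involution of `T` fixes one of them (the action is 2-elusive). -/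
theorem result {F : Type*} [Field F] [Fintype F] {p : ℕ} [Fact p.Prime] [CharP F p] {q : ℕ} (hq : Fintype.card F = q)
    (d : ℕ) (hd : 2 ≤ d) (hT : (d, q) ≠ (2, 2)) (hodd : Odd q)
    (hΩ : 2 ∣ Nat.card {P : Submodule F (Fin d ⊕ Fin d → F) × Submodule F (Fin d ⊕ Fin d → F) // IsCompl P.1 P.2 ∧ (∀ u ∈ P.1, ∀ v ∈ P.1, Cfsg.sympForm d F u v = 0) ∧ (∀ u ∈ P.2, ∀ v ∈ P.2, Cfsg.sympForm d F u v = 0)} / 2)
    (x : ↥(Matrix.symplecticGroup (Fin d) F))
    (hx1 : ∃ z : F, ((x ^ 2 : ↥(Matrix.symplecticGroup (Fin d) F)) : Matrix (Fin d ⊕ Fin d) (Fin d ⊕ Fin d) F) = z • (1 : Matrix (Fin d ⊕ Fin d) (Fin d ⊕ Fin d) F))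
    (hx2 : ∀ z : F, (x : Matrix (Fin d ⊕ Fin d) (Fin d ⊕ Fin d) F) ≠ z • (1 : Matrix (Fin d ⊕ Fin d) (Fin d ⊕ Fin d) F)) :
    ∃ U W : Submodule F (Fin d ⊕ Fin d → F), IsCompl U W ∧ (∀ u ∈ U, ∀ v ∈ U, Cfsg.sympForm d F u v = 0) ∧ (∀ u ∈ W, ∀ v ∈ W, Cfsg.sympForm d F u v = 0) ∧
        ((U.map (Matrix.toLin' (x : Matrix (Fin d ⊕ Fin d) (Fin d ⊕ Fin d) F)) = U ∧ W.map (Matrix.toLin' (x : Matrix (Fin d ⊕ Fin d) (Fin d ⊕ Fin d) F)) = W) ∨
         (U.map (Matrix.toLin' (x : Matrix (Fin d ⊕ Fin d) (Fin d ⊕ Fin d) F)) = W ∧ W.map (Matrix.toLin' (x : Matrix (Fin d ⊕ Fin d) (Fin d ⊕ Fin d) F)) = U)) := by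
  have h2 : (2 : F) ≠ 0 := by
    apply Ring.two_ne_zero
    intro h'
    have := FiniteField.even_card_iff_char_two.1 h'
    rw [hq] at this
    rcases hodd with ⟨k, hk⟩
    omega
  obtain ⟨z, hz⟩ := hx1
  set X : Matrix (Fin d ⊕ Fin d) (Fin d ⊕ Fin d) F := (x : Matrix (Fin d ⊕ Fin d) (Fin d ⊕ Fin d) F) with hX
  have hXX : X * X = z • (1 : Matrix (Fin d ⊕ Fin d) (Fin d ⊕ Fin d) F) := by
    rw [← sq, hX, ← hz]; rfl
  have hmem := (H16.Symp.mem_symplecticGroup_iff X).1 x.2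
  have hT : ∀ v, Matrix.toLin' X (Matrix.toLin' X v) = z • v := by
    intro v
    rw [← LinearMap.comp_apply, ← Matrix.toLin'_mul, hXX]; simp
  have hiso : ∀ u v, H16.Symp.sympBilin d F (Matrix.toLin' X u) (Matrix.toLin' X v) = H16.Symp.sympBilin d F u v := by
    intro u v
    simp only [Matrix.toLin'_apply, H16.Symp.sympBilin_apply]
    exact hmem u v
  have hz2 : z * z = 1 := by
    let i0 : Fin d := ⟨0, by omega⟩
    have h5 := hiso (Matrix.toLin' X (Pi.single (Sum.inr i0) 1)) (Matrix.toLin' X (Pi.single (Sum.inl i0) 1))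
    rw [hT, hT, hiso] at h5
    simp only [map_smul, LinearMap.smul_apply, H16.Symp.sympBilin_apply, H16.Symp.sympForm_single_inl, smul_eq_mul] at h5
    simp at h5
    exact h5
  have hz1 : z = 1 ∨ z = -1 := mul_self_eq_one_iff.1 hz2
  apply main h2 d (Matrix.toLin' X) hiso
  rcases hz1 with rfl | rfl
  · left; intro v; rw [hT, one_smul]
  · right; intro v; rw [hT, neg_smul, one_smul]

end Cfsg.Agent.S5962
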