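import Cfsg.Statements.S5963
import Cfsg.Agent.Lib.H99.RElt
import Cfsg.Agent.Lib.H99.SpIdx

set_option autoImplicit false
set_option linter.unusedSimpArgs false
open scoped MatrixGroups
open Cfsg

namespace Cfsg.Agent.S5963


open Matrix Module in
abbrev LP (d : ℕ) (F : Type*) [Field F] := {P : Submodule F (Fin d ⊕ Fin d → F) × Submodule F (Fin d ⊕ Fin d → F) //
  IsCompl P.1 P.2 ∧ (∀ u ∈ P.1, ∀ v ∈ P.1, Cfsg.sympForm d F u v = 0) ∧ (∀ u ∈ P.2, ∀ v ∈ P.2, Cfsg.sympForm d F u v = 0)}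

open Matrix Module in
/-- a pair of complementary totally isotropic subspaces has dual bases -/
theorem exists_bases {F : Type*} [Field F] {d : ℕ} (P : LP d F) :
    ∃ (u w : Fin d → (Fin d ⊕ Fin d → F)), (∀ i, u i ∈ P.1.1) ∧ (∀ i, w i ∈ P.1.2) ∧
      (∀ i j, H6.Symp.bf (w i) (u j) = if i = j then 1 else 0) := by
  classical
  obtain ⟨⟨U, W⟩, hc, hU, hW⟩ := P
  simp only at hc hU hW ⊢
  have hU' : ∀ u ∈ U, ∀ v ∈ U, H6.Symp.bf u v = 0 := hU
  have hW' : ∀ u ∈ W, ∀ v ∈ W, H6.Symp.bf u v = 0 := hW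
  let B := H99.RElt.sympB d F
  have hB : ∀ u v, B u v = H6.Symp.bf u v := fun _ _ => rfl
  let φ : W →ₗ[F] Module.Dual F U := (LinearMap.domRestrict B W).compr₂ LinearMap.id |>.compl₂ U.subtype
  have hφ : ∀ (w : W) (u : U), φ w u = H6.Symp.bf (w : Fin d ⊕ Fin d → F) u := fun _ _ => rfl
  let ψ : U →ₗ[F] Module.Dual F W := (LinearMap.domRestrict B U).compr₂ LinearMap.id |>.compl₂ W.subtype
  have hψ : ∀ (u : U) (w : W), ψ u w = H6.Symp.bf (u : Fin d ⊕ Fin d → F) w := fun _ _ => rfl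
  have hφi : Function.Injective φ := by
    rw [← LinearMap.ker_eq_bot, LinearMap.ker_eq_bot']
    intro w hw
    apply Subtype.ext
    apply H6.Symp.eq_zero_of_forall_bf
    intro v
    obtain ⟨a, b, ha, hb, rfl⟩ := (Submodule.codisjoint_iff_exists_add_eq.1 hc.codisjoint) v
    rw [H6.Symp.bf_add_right, hW' _ w.2 _ hb, add_zero]
    have := congrArg (fun g => g ⟨a, ha⟩) hw
    exact this
  have hψi : Function.Injective ψ := by
    rw [← LinearMap.ker_eq_bot, LinearMap.ker_eq_bot']
    intro w hw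
    apply Subtype.ext
    apply H6.Symp.eq_zero_of_forall_bf
    intro v
    obtain ⟨a, b, ha, hb, rfl⟩ := (Submodule.codisjoint_iff_exists_add_eq.1 hc.codisjoint) v
    rw [H6.Symp.bf_add_right, hU' _ w.2 _ ha, zero_add]
    have := congrArg (fun g => g ⟨b, hb⟩) hw
    exact this
  have h1 := LinearMap.finrank_le_finrank_of_injective hφi
  have h2 := LinearMap.finrank_le_finrank_of_injective hψi
  rw [Subspace.dual_finrank_eq] at h1 h2
  have h3 := Submodule.finrank_add_eq_of_isCompl hc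
  rw [Module.finrank_fintype_fun_eq_card, Fintype.card_sum, Fintype.card_fin] at h3
  have hUd : finrank F U = d := by omega
  have hWd : finrank F W = d := by omega
  let bU := Module.finBasisOfFinrankEq F U hUd
  have hbij : Function.Surjective φ := by
    have h4 : finrank F W = finrank F (Module.Dual F U) := by rw [Subspace.dual_finrank_eq, hUd, hWd]
    exact (LinearMap.injective_iff_surjective_of_finrank_eq_finrank h4).1 hφi
  choose w hw using fun i => hbij (bU.coord i)
  refine ⟨fun i => bU i, fun i => w i, fun i => (bU i).2, fun i => (w i).2, fun i j => ?_⟩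
  rw [← hφ, hw, Module.Basis.coord_apply, Module.Basis.repr_self, Finsupp.single_apply]
  by_cases h : i = j
  · subst h; simp
  · rw [if_neg h, if_neg (Ne.symm h)]

open Matrix Module in
/-- the standard pair -/
def U0 (d : ℕ) (F : Type*) [Field F] : Submodule F (Fin d ⊕ Fin d → F) where
  carrier := {v | ∀ i, v (.inr i) = 0}
  add_mem' := by intro a b ha hb i; rw [Pi.add_apply, ha, hb, add_zero]
  zero_mem' := fun _ => rfl
  smul_mem' := by intro c a ha i; rw [Pi.smul_apply, ha, smul_zero]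

open Matrix Module in
def W0 (d : ℕ) (F : Type*) [Field F] : Submodule F (Fin d ⊕ Fin d → F) where
  carrier := {v | ∀ i, v (.inl i) = 0}
  add_mem' := by intro a b ha hb i; rw [Pi.add_apply, ha, hb, add_zero]
  zero_mem' := fun _ => rfl
  smul_mem' := by intro c a ha i; rw [Pi.smul_apply, ha, smul_zero]

open Matrix Module in
theorem std_prop (d : ℕ) (F : Type*) [Field F] : IsCompl (U0 d F) (W0 d F) ∧
    (∀ u ∈ U0 d F, ∀ v ∈ U0 d F, Cfsg.sympForm d F u v = 0) ∧ (∀ u ∈ W0 d F, ∀ v ∈ W0 d F, Cfsg.sympForm d F u v = 0) := by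
  refine ⟨⟨?_, ?_⟩, ?_, ?_⟩
  · rw [Submodule.disjoint_def]
    intro v h1 h2
    ext k
    rcases k with k | k
    · exact h2 k
    · exact h1 k
  · rw [Submodule.codisjoint_iff_exists_add_eq]
    intro v
    refine ⟨Sum.elim (fun i => v (.inl i)) 0, Sum.elim 0 (fun i => v (.inr i)), fun i => rfl, fun i => rfl, ?_⟩
    ext k
    rcases k with k | k <;> simp
  · intro u hu v hv
    show H6.Symp.bf u v = 0
    rw [H6.Symp.bf_eq_sum]
    exact Finset.sum_eq_zero fun i _ => by rw [hu, hv]; ring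
  · intro u hu v hv
    show H6.Symp.bf u v = 0
    rw [H6.Symp.bf_eq_sum]
    exact Finset.sum_eq_zero fun i _ => by rw [hu, hv]; ring

open Matrix Module in
/-- action on pairs -/
def act {d : ℕ} {F : Type*} [Field F] (g : symplecticGroup (Fin d) F) (P : LP d F) : LP d F :=
  ⟨(P.1.1.map (Matrix.toLin' (g : Matrix (Fin d ⊕ Fin d) (Fin d ⊕ Fin d) F)),
    P.1.2.map (Matrix.toLin' (g : Matrix (Fin d ⊕ Fin d) (Fin d ⊕ Fin d) F))), by
    have hbij : Function.Bijective (Matrix.toLin' (g : Matrix (Fin d ⊕ Fin d) (Fin d ⊕ Fin d) F)) := by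
      constructor
      · intro u v huv
        have h1 : g.1 *ᵥ u = g.1 *ᵥ v := huv
        rw [← H6.Symp.inv_mulVec_self g u, h1, H6.Symp.inv_mulVec_self]
      · intro u
        exact ⟨(g⁻¹).1 *ᵥ u, H6.Symp.mulVec_inv_self g u⟩
    let E := LinearEquiv.ofBijective _ hbij
    refine ⟨?_, ?_, ?_⟩
    · exact P.2.1.map (Submodule.orderIsoMapComap E)
    · rintro _ ⟨u, hu, rfl⟩ _ ⟨v, hv, rfl⟩
      exact (H6.Symp.bf_smul g u v).trans (P.2.2.1 u hu v hv)
    · rintro _ ⟨u, hu, rfl⟩ _ ⟨v, hv, rfl⟩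
      exact (H6.Symp.bf_smul g u v).trans (P.2.2.2 u hu v hv)⟩

open Matrix Module in
theorem act_mul {d : ℕ} {F : Type*} [Field F] (g h : symplecticGroup (Fin d) F) (P : LP d F) : act (g * h) P = act g (act h P) := by
  apply Subtype.ext
  have h1 : Matrix.toLin' ((g * h : symplecticGroup (Fin d) F) : Matrix (Fin d ⊕ Fin d) (Fin d ⊕ Fin d) F) =
      Matrix.toLin' (g : Matrix (Fin d ⊕ Fin d) (Fin d ⊕ Fin d) F) ∘ₗ Matrix.toLin' (h : Matrix (Fin d ⊕ Fin d) (Fin d ⊕ Fin d) F) := by
    rw [← Matrix.toLin'_mul]; rfl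
  show (_, _) = ((_ : Submodule F _), (_ : Submodule F _))
  rw [h1, Submodule.map_comp, Submodule.map_comp]
  rfl

open Matrix Module in
theorem act_one {d : ℕ} {F : Type*} [Field F] (P : LP d F) : act 1 P = P := by
  apply Subtype.ext
  have h1 : Matrix.toLin' ((1 : symplecticGroup (Fin d) F) : Matrix (Fin d ⊕ Fin d) (Fin d ⊕ Fin d) F) = LinearMap.id := by
    rw [show ((1 : symplecticGroup (Fin d) F) : Matrix (Fin d ⊕ Fin d) (Fin d ⊕ Fin d) F) = 1 from rfl, Matrix.toLin'_one]
  show ((_ : Submodule F _), (_ : Submodule F _)) = _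
  rw [h1, Submodule.map_id, Submodule.map_id]

open Matrix Module in
theorem transitive {d : ℕ} {F : Type*} [Field F] (P : LP d F) : ∃ g : symplecticGroup (Fin d) F, act g ⟨(U0 d F, W0 d F), std_prop d F⟩ = P := by
  classical
  obtain ⟨u, w, hu, hw, huw⟩ := exists_bases P
  let M : Matrix (Fin d ⊕ Fin d) (Fin d ⊕ Fin d) F := fun a b => Sum.elim (fun i => u i a) (fun i => w i a) b
  have hMl : ∀ i, M *ᵥ Pi.single (.inl i) 1 = u i := by
    intro i; rw [Matrix.mulVec_single_one]; rfl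
  have hMr : ∀ i, M *ᵥ Pi.single (.inr i) 1 = w i := by
    intro i; rw [Matrix.mulVec_single_one]; rfl
  have hMv : ∀ v, M *ᵥ v = ∑ i, v (.inl i) • u i + ∑ i, v (.inr i) • w i := by
    intro v
    ext a
    simp only [Matrix.mulVec, dotProduct, Fintype.sum_sum_type, M, Sum.elim_inl, Sum.elim_inr, Pi.add_apply, Finset.sum_apply,
      Pi.smul_apply, smul_eq_mul]
    congr 1
    · exact Finset.sum_congr rfl fun i _ => mul_comm _ _
    · exact Finset.sum_congr rfl fun i _ => mul_comm _ _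
  have huu : ∀ i j, H6.Symp.bf (u i) (u j) = 0 := fun i j => P.2.2.1 _ (hu i) _ (hu j)
  have hww : ∀ i j, H6.Symp.bf (w i) (w j) = 0 := fun i j => P.2.2.2 _ (hw i) _ (hw j)
  have huw' : ∀ i j, H6.Symp.bf (u i) (w j) = - if j = i then 1 else 0 := fun i j => by rw [H6.Symp.bf_swap, huw]
  have hM : M ∈ symplecticGroup (Fin d) F := by
    rw [H6.Symp.mem_iff_bf]
    intro x y
    let B := H99.RElt.sympB d F
    have hB : ∀ x y, H6.Symp.bf x y = B x y := fun _ _ => rfl
    rw [hMv, hMv, hB]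
    simp only [map_add, map_sum, map_smul, LinearMap.add_apply, LinearMap.sum_apply, LinearMap.smul_apply, smul_eq_mul]
    simp only [← hB, huu, hww, huw, huw', mul_zero, Finset.sum_const_zero, zero_add, add_zero, mul_neg, mul_ite, mul_one,
      Finset.sum_neg_distrib, Finset.sum_ite_eq, Finset.sum_ite_eq', Finset.mem_univ, if_true]
    rw [H6.Symp.bf_eq_sum, ← sub_eq_add_neg, ← Finset.sum_sub_distrib]
    refine Finset.sum_congr rfl fun i _ => ?_
    ring
  let g : symplecticGroup (Fin d) F := ⟨M, hM⟩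
  refine ⟨g, ?_⟩
  have h1 : (U0 d F).map (Matrix.toLin' M) ≤ P.1.1 := by
    rintro _ ⟨v, hv, rfl⟩
    rw [Matrix.toLin'_apply, hMv]
    have : ∀ i, v (.inr i) = 0 := hv
    simp only [this, zero_smul, Finset.sum_const_zero, add_zero]
    exact Submodule.sum_mem _ fun i _ => Submodule.smul_mem _ _ (hu i)
  have h2 : (W0 d F).map (Matrix.toLin' M) ≤ P.1.2 := by
    rintro _ ⟨v, hv, rfl⟩
    rw [Matrix.toLin'_apply, hMv]
    have : ∀ i, v (.inl i) = 0 := hv
    simp only [this, zero_smul, Finset.sum_const_zero, zero_add]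
    exact Submodule.sum_mem _ fun i _ => Submodule.smul_mem _ _ (hw i)
  have h3 := (act g ⟨(U0 d F, W0 d F), std_prop d F⟩).2.1
  have h3' : IsCompl ((U0 d F).map (Matrix.toLin' M)) ((W0 d F).map (Matrix.toLin' M)) := h3
  -- equality of complementary subspaces contained in complementary subspaces
  have key : ∀ A B A' B' : Submodule F (Fin d ⊕ Fin d → F), IsCompl A B → IsCompl A' B' → A ≤ A' → B ≤ B' → A' ≤ A := by
    intro A B A' B' hc hc' hA hB v hv
    obtain ⟨a, b, ha, hb, rfl⟩ := (Submodule.codisjoint_iff_exists_add_eq.1 hc.codisjoint) v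
    have hbA : b ∈ A' := by
      have := A'.sub_mem hv (hA ha)
      simpa using this
    have hb0 := (Submodule.disjoint_def.1 hc'.disjoint) b hbA (hB hb)
    rw [hb0, add_zero]; exact ha
  apply Subtype.ext
  apply Prod.ext
  · exact le_antisymm h1 (key _ _ _ _ h3' P.2.1 h1 h2)
  · exact le_antisymm h2 (key _ _ _ _ h3'.symm P.2.1.symm h2 h1)

open Matrix Module in
/-- the Levi subgroup -/
def levi {d : ℕ} {F : Type*} [Field F] (A : GL (Fin d) F) : symplecticGroup (Fin d) F :=
  ⟨Matrix.fromBlocks (A : Matrix (Fin d) (Fin d) F) 0 0 ((A⁻¹ : GL (Fin d) F) : Matrix (Fin d) (Fin d) F)ᵀ, by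
    rw [SymplecticGroup.mem_iff, Matrix.J, Matrix.fromBlocks_multiply, Matrix.fromBlocks_transpose, Matrix.fromBlocks_multiply]
    simp only [Matrix.mul_zero, Matrix.zero_mul, add_zero, zero_add, Matrix.transpose_transpose, Matrix.mul_neg, Matrix.mul_one,
      Matrix.neg_mul, Matrix.transpose_zero, ← Matrix.transpose_mul, neg_zero]
    rw [← Units.val_mul, mul_inv_cancel, Units.val_one, Matrix.transpose_one]⟩

open Matrix Module in
theorem card_LP {d : ℕ} {F : Type*} [Field F] [Finite F] :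
    Nat.card (symplecticGroup (Fin d) F) = Nat.card (LP d F) * Nat.card (GL (Fin d) F) := by
  classical
  let P0 : LP d F := ⟨(U0 d F, W0 d F), std_prop d F⟩
  let K : Subgroup (symplecticGroup (Fin d) F) :=
    { carrier := {g | act g P0 = P0}
      one_mem' := act_one P0
      mul_mem' := by
        intro a b ha hb
        show act (a * b) P0 = P0
        rw [act_mul, hb, ha]
      inv_mem' := by
        intro a ha
        show act a⁻¹ P0 = P0
        have : act a P0 = P0 := ha
        conv_lhs => rw [← this]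
        rw [← act_mul, inv_mul_cancel, act_one] }
  have h1 := H6.SympCard.card_eq_of_fiber K (fun g => act g P0) (fun P => transitive P) (by
    intro g h
    constructor
    · intro heq
      show act (g⁻¹ * h) P0 = P0
      have heq' : act g P0 = act h P0 := heq
      rw [act_mul, ← heq', ← act_mul, inv_mul_cancel, act_one]
    · intro heq
      have heq' : act (g⁻¹ * h) P0 = P0 := heq
      show act g P0 = act h P0
      conv_lhs => rw [← heq', ← act_mul, mul_inv_cancel_left])
  rw [h1]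
  congr 1
  symm
  refine Nat.card_congr (Equiv.ofBijective (fun A : GL (Fin d) F => (⟨levi A, ?_⟩ : K)) ⟨?_, ?_⟩)
  · -- levi stabilizes the standard pair
    have hU : ∀ (A : GL (Fin d) F), (U0 d F).map (Matrix.toLin' (levi A : Matrix (Fin d ⊕ Fin d) (Fin d ⊕ Fin d) F)) ≤ U0 d F := by
      rintro A _ ⟨v, hv, rfl⟩ i
      have hv' : ∀ i, v (.inr i) = 0 := hv
      show ((levi A : Matrix (Fin d ⊕ Fin d) (Fin d ⊕ Fin d) F) *ᵥ v) (.inr i) = 0
      have : v ∘ Sum.inr = 0 := by funext i; exact hv' i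
      rw [levi, Matrix.fromBlocks_mulVec, this]
      simp
    have hW : ∀ (A : GL (Fin d) F), (W0 d F).map (Matrix.toLin' (levi A : Matrix (Fin d ⊕ Fin d) (Fin d ⊕ Fin d) F)) ≤ W0 d F := by
      rintro A _ ⟨v, hv, rfl⟩ i
      have hv' : ∀ i, v (.inl i) = 0 := hv
      show ((levi A : Matrix (Fin d ⊕ Fin d) (Fin d ⊕ Fin d) F) *ᵥ v) (.inl i) = 0
      have : v ∘ Sum.inl = 0 := by funext i; exact hv' i
      rw [levi, Matrix.fromBlocks_mulVec, this]
      simp
    have key : ∀ A B A' B' : Submodule F (Fin d ⊕ Fin d → F), IsCompl A B → IsCompl A' B' → A ≤ A' → B ≤ B' → A' ≤ A := by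
      intro A B A' B' hc hc' hA hB v hv
      obtain ⟨a, b, ha, hb, rfl⟩ := (Submodule.codisjoint_iff_exists_add_eq.1 hc.codisjoint) v
      have hbA : b ∈ A' := by
        have := A'.sub_mem hv (hA ha)
        simpa using this
      have hb0 := (Submodule.disjoint_def.1 hc'.disjoint) b hbA (hB hb)
      rw [hb0, add_zero]; exact ha
    have h3 := (act (levi A) P0).2.1
    have h3' : IsCompl ((U0 d F).map (Matrix.toLin' (levi A : Matrix (Fin d ⊕ Fin d) (Fin d ⊕ Fin d) F)))
      ((W0 d F).map (Matrix.toLin' (levi A : Matrix (Fin d ⊕ Fin d) (Fin d ⊕ Fin d) F))) := h3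
    show act (levi A) P0 = P0
    apply Subtype.ext
    apply Prod.ext
    · exact le_antisymm (hU A) (key _ _ _ _ h3' P0.2.1 (hU A) (hW A))
    · exact le_antisymm (hW A) (key _ _ _ _ h3'.symm P0.2.1.symm (hW A) (hU A))
  · intro A B hAB
    have h2 : (levi A : symplecticGroup (Fin d) F) = levi B := congrArg Subtype.val hAB
    have h3 : (levi A : Matrix (Fin d ⊕ Fin d) (Fin d ⊕ Fin d) F) = levi B := congrArg Subtype.val h2
    exact Units.ext (Matrix.fromBlocks_inj.1 h3).1
  · rintro ⟨g, hg⟩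
    have hg' : act g P0 = P0 := hg
    have hg1 : (U0 d F).map (Matrix.toLin' (g : Matrix (Fin d ⊕ Fin d) (Fin d ⊕ Fin d) F)) = U0 d F := congrArg (fun P => P.1.1) hg'
    have hg2 : (W0 d F).map (Matrix.toLin' (g : Matrix (Fin d ⊕ Fin d) (Fin d ⊕ Fin d) F)) = W0 d F := congrArg (fun P => P.1.2) hg'
    set M := (g : Matrix (Fin d ⊕ Fin d) (Fin d ⊕ Fin d) F) with hM
    have e1 : ∀ i j, M (.inr i) (.inl j) = 0 := by
      intro i j
      have h4 : Matrix.toLin' M (Pi.single (.inl j) 1) ∈ U0 d F := by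
        rw [← hg1]
        exact ⟨_, fun i => by simp, rfl⟩
      have h5 := h4 i
      rw [Matrix.toLin'_apply, Matrix.mulVec_single_one] at h5
      exact h5
    have e2 : ∀ i j, M (.inl i) (.inr j) = 0 := by
      intro i j
      have h4 : Matrix.toLin' M (Pi.single (.inr j) 1) ∈ W0 d F := by
        rw [← hg2]
        exact ⟨_, fun i => by simp, rfl⟩
      have h5 := h4 i
      rw [Matrix.toLin'_apply, Matrix.mulVec_single_one] at h5
      exact h5
    have hMb : M = Matrix.fromBlocks M.toBlocks₁₁ 0 0 M.toBlocks₂₂ := by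
      rw [← Matrix.fromBlocks_toBlocks M]
      have h12 : M.toBlocks₁₂ = 0 := by ext i j; exact e2 i j
      have h21 : M.toBlocks₂₁ = 0 := by ext i j; exact e1 i j
      rw [h12, h21]
      simp
    have hsymp := g.2
    rw [SymplecticGroup.mem_iff, ← hM, hMb, Matrix.J, Matrix.fromBlocks_multiply, Matrix.fromBlocks_transpose, Matrix.fromBlocks_multiply] at hsymp
    simp only [Matrix.mul_zero, Matrix.zero_mul, add_zero, zero_add, Matrix.mul_neg, Matrix.mul_one, Matrix.neg_mul,
      Matrix.transpose_zero, neg_zero] at hsymp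
    have h6 := (Matrix.fromBlocks_inj.1 hsymp).2.1
    have h7 : M.toBlocks₁₁ * M.toBlocks₂₂ᵀ = 1 := neg_injective h6
    have h8 : M.toBlocks₂₂ᵀ * M.toBlocks₁₁ = 1 := mul_eq_one_comm.1 h7
    let A : GL (Fin d) F := ⟨M.toBlocks₁₁, M.toBlocks₂₂ᵀ, h7, h8⟩
    refine ⟨A, ?_⟩
    apply Subtype.ext
    apply Subtype.ext
    show Matrix.fromBlocks M.toBlocks₁₁ 0 0 (M.toBlocks₂₂ᵀ)ᵀ = M
    rw [Matrix.transpose_transpose, ← hMb]

/-- Derangements of odd prime order of PSp_n(q), q odd, on pairs of complementary totally isotropic subspaces. Here `T = PSp_n(q)`, `n = 2d ≥ 4`, `q` odd, realised through the symplectic matrices over the field `F` with `q` elements; Ω is the set of unordered pairs `{U, W}` of complementary totally isotropic `d`-spaces (`F^n = U ⊕ W`), whose stabilizers are the subgroups of type GL_d(q).2 (maximal except in some small cases; maximality is not assumed); an element of `T` of prime order `r` (a symplectic matrix `x` with `x^r` scalar, `x` not scalar)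 fixes such a pair when it fixes or interchanges `U` and `W`. For every odd prime `r ≠ p` dividing the number of such pairs, some element of `T` of order `r` fixes no such pair (the action is never `r`-elusive for odd `r ≠ p`). -/
theorem result {F : Type*} [Field F] [Fintype F] {p : ℕ} [Fact p.Prime] [CharP F p] {q : ℕ} (hq : Fintype.card F = q)
    (d : ℕ) (hd : 2 ≤ d) (hT : (d, q) ≠ (2, 2)) (hodd : Odd q)
    (r : ℕ) [Fact r.Prime] (hr2 : r ≠ 2) (hrp : r ≠ p) (hΩ : r ∣ Nat.card {P : Submodule F (Fin d ⊕ Fin d → F) × Submodule F (Fin d ⊕ Fin d → F) // IsCompl P.1 P.2 ∧ (∀ u ∈ P.1, ∀ v ∈ P.1, Cfsg.sympForm d F u v = 0) ∧ (∀ u ∈ P.2, ∀ v ∈ P.2, Cfsg.sympForm d F u v = 0)} / 2) :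
    ∃ x : ↥(Matrix.symplecticGroup (Fin d) F),
      (∃ z : F, ((x ^ r : ↥(Matrix.symplecticGroup (Fin d) F)) : Matrix (Fin d ⊕ Fin d) (Fin d ⊕ Fin d) F) = z • (1 : Matrix (Fin d ⊕ Fin d) (Fin d ⊕ Fin d) F)) ∧
      (∀ z : F, (x : Matrix (Fin d ⊕ Fin d) (Fin d ⊕ Fin d) F) ≠ z • (1 : Matrix (Fin d ⊕ Fin d) (Fin d ⊕ Fin d) F)) ∧
      ¬ (∃ U W : Submodule F (Fin d ⊕ Fin d → F), IsCompl U W ∧ (∀ u ∈ U, ∀ v ∈ U, Cfsg.sympForm d F u v = 0) ∧ (∀ u ∈ W, ∀ v ∈ W, Cfsg.sympForm d F u v = 0) ∧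
        ((U.map (Matrix.toLin' (x : Matrix (Fin d ⊕ Fin d) (Fin d ⊕ Fin d) F)) = U ∧ W.map (Matrix.toLin' (x : Matrix (Fin d ⊕ Fin d) (Fin d ⊕ Fin d) F)) = W) ∨
         (U.map (Matrix.toLin' (x : Matrix (Fin d ⊕ Fin d) (Fin d ⊕ Fin d) F)) = W ∧ W.map (Matrix.toLin' (x : Matrix (Fin d ⊕ Fin d) (Fin d ⊕ Fin d) F)) = U))) := by
  classical
  have hr : r.Prime := Fact.out
  have hp : p.Prime := Fact.out
  have hq1 : 1 < q := by rw [← hq]; exact Fintype.one_lt_card
  have hrq : ¬ r ∣ Fintype.card F := by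
    obtain ⟨k, -, hk⟩ := FiniteField.card F p
    rw [hk]
    intro h
    exact hrp ((Nat.prime_dvd_prime_iff_eq hr hp).1 (hr.dvd_of_dvd_pow h))
  have hrF : ((r : ℕ) : F) ≠ 0 := H99.Blk.natCast_ne (p := p) hr hrp
  have hcount := card_LP (d := d) (F := F)
  obtain ⟨a, ha⟩ := H99.SpIdx.card_GL (F := F) d
  rw [H6.SympCard.card_symplecticGroup, ha, Nat.card_eq_fintype_card, Fintype.card_fin, hq] at hcount
  set N := Nat.card (LP d F) with hN
  have hsplit : ∀ j, q ^ (2 * (j + 1)) - 1 = (q ^ (j + 1) - 1) * (q ^ (j + 1) + 1) := by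
    intro j
    obtain ⟨b, hb⟩ : ∃ b, q ^ (j + 1) = b + 1 := ⟨q ^ (j + 1) - 1, (Nat.sub_add_cancel (Nat.one_le_pow _ _ (by omega))).symm⟩
    rw [mul_comm 2, pow_mul, hb]
    simp only [Nat.add_sub_cancel]
    have : (b + 1) ^ 2 = b * (b + 1 + 1) + 1 := by ring
    rw [this, Nat.add_sub_cancel]
  rw [Finset.prod_congr rfl (fun j _ => hsplit j), Finset.prod_mul_distrib] at hcount
  have hA0 : ∏ j ∈ Finset.range d, (q ^ (j + 1) - 1) ≠ 0 := by
    rw [Finset.prod_ne_zero_iff]
    intro j _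
    have : 1 < q ^ (j + 1) := Nat.one_lt_pow (by omega) hq1
    omega
  have h3 : (N * q ^ a) * ∏ j ∈ Finset.range d, (q ^ (j + 1) - 1) =
      (q ^ d ^ 2 * ∏ j ∈ Finset.range d, (q ^ (j + 1) + 1)) * ∏ j ∈ Finset.range d, (q ^ (j + 1) - 1) := by
    linear_combination -hcount
  have h4 := Nat.eq_of_mul_eq_mul_right (Nat.pos_of_ne_zero hA0) h3
  have hNeven : 2 ∣ N := by
    have h5 : 2 ∣ N * q ^ a := by
      rw [h4]
      apply Dvd.dvd.mul_left
      obtain ⟨d', rfl⟩ : ∃ d', d = d' + 1 := ⟨d - 1, by omega⟩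
      rw [Finset.prod_range_succ]
      apply Dvd.dvd.mul_left
      exact (hodd.pow.add_one).two_dvd
    rcases (Nat.Prime.dvd_mul Nat.prime_two).1 h5 with h | h
    · exact h
    · exact absurd (hodd.pow) (Nat.not_odd_iff_even.2 (even_iff_two_dvd.2 h))
  have hrN : r ∣ N := by
    have : r ∣ N / 2 := hΩ
    obtain ⟨k, hk⟩ := hNeven
    rw [hk] at this ⊢
    rw [Nat.mul_div_cancel_left _ (by norm_num)] at this
    exact this.mul_left 2
  have h5 : r ∣ q ^ d ^ 2 * ∏ j ∈ Finset.range d, (q ^ (j + 1) + 1) := by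
    rw [← h4]; exact hrN.mul_right _
  rcases (Nat.Prime.dvd_mul hr).1 h5 with h6 | h6
  · exact absurd (hr.dvd_of_dvd_pow h6) (by rw [← hq]; exact hrq)
  obtain ⟨j, hjd, hj⟩ := (hr.prime.dvd_finsetProd_iff _).1 h6
  rw [Finset.mem_range] at hjd
  set i := orderOf ((q : ℕ) : ZMod r) with hi
  have h7 : ((q : ℕ) : ZMod r) ^ (j + 1) = -1 := by
    have h8 : ((q ^ (j + 1) + 1 : ℕ) : ZMod r) = 0 := (ZMod.natCast_eq_zero_iff _ _).2 hj
    push_cast at h8
    exact eq_neg_of_add_eq_zero_left h8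
  have h8 : ((q : ℕ) : ZMod r) ^ ((j + 1) * 2) = 1 := by rw [pow_mul, h7]; norm_num
  have hidvd := orderOf_dvd_of_pow_eq_one h8
  have hieven : Even i := by
    rw [← Nat.not_odd_iff_even]
    intro hio
    have h10 : i ∣ j + 1 := (Nat.Coprime.dvd_mul_right (Nat.coprime_two_right.2 hio)).1 hidvd
    rw [hi, orderOf_dvd_iff_pow_eq_one, h7] at h10
    have h11 : (2 : ZMod r) = 0 := by linear_combination -h10
    have h12 : ((2 : ℕ) : ZMod r) = 0 := by exact_mod_cast h11
    rw [ZMod.natCast_eq_zero_iff] at h12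
    exact hr2 ((Nat.prime_dvd_prime_iff_eq hr Nat.prime_two).1 h12)
  obtain ⟨k, hk⟩ := hieven
  have hile : i ≤ (j + 1) * 2 := Nat.le_of_dvd (by omega) hidvd
  have hi0 : 0 < i := Nat.pos_of_dvd_of_pos hidvd (by omega)
  have hrd : r ∣ Fintype.card F ^ (2 * k) - 1 := by
    rw [← ZMod.natCast_eq_zero_iff, Nat.cast_sub (Nat.one_le_pow _ _ Fintype.card_pos), hq]
    push_cast
    rw [show 2 * k = i by omega, hi, pow_orderOf_eq_one, sub_self]
  obtain ⟨x, hx1, hx2, hx3⟩ := H99.RElt.exists_sp (F := F) hr (d := d) (j := k) (by omega) (by omega) hrd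
  set T := Matrix.toLin' (x : Matrix (Fin d ⊕ Fin d) (Fin d ⊕ Fin d) F) with hT
  have hTr : T ^ r = 1 := by
    rw [hT, ← Matrix.toLin'_pow]
    have : (x : Matrix (Fin d ⊕ Fin d) (Fin d ⊕ Fin d) F) ^ r = 1 := congrArg Subtype.val hx1
    rw [this, Matrix.toLin'_one]; rfl
  have hT1 : T ≠ 1 := by
    intro h
    apply hx2
    apply Subtype.ext
    apply Matrix.toLin'.injective
    show T = Matrix.toLin' (1 : Matrix (Fin d ⊕ Fin d) (Fin d ⊕ Fin d) F)
    rw [Matrix.toLin'_one]; exact h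
  have hTB : ∀ u v, H99.RElt.sympB d F (T u) (T v) = H99.RElt.sympB d F u v := fun u v => H6.Symp.bf_smul x u v
  refine ⟨x, ⟨1, by rw [hx1, one_smul]; rfl⟩, ?_, ?_⟩
  · intro z hz
    have hTz : ∀ v, T v = z • v := by
      intro v
      rw [hT, hz]; simp
    -- then T - 1 is scalar, of small rank or zero
    by_cases hz1 : z = 1
    · apply hT1
      apply LinearMap.ext
      intro v
      rw [hTz, hz1, one_smul]; rfl
    · have h10 : ∀ u v, H99.RElt.sympB d F u v = 0 ∨ z * z = 1 := by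
        intro u v
        have := hTB u v
        rw [hTz, hTz, map_smul, map_smul, LinearMap.smul_apply, smul_eq_mul, smul_eq_mul, ← mul_assoc] at this
        by_cases h0 : H99.RElt.sympB d F u v = 0
        · left; exact h0
        · right
          exact (mul_eq_right₀ h0).1 this
      have hzz : z * z = 1 := by
        by_contra hne
        let i0 : Fin d := ⟨0, by omega⟩
        have h11 : (Pi.single (Sum.inl i0) 1 : Fin d ⊕ Fin d → F) = 0 := by
          apply H99.RElt.sympB_nd d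
          intro y
          rcases h10 (Pi.single (Sum.inl i0) 1) y with h | h
          · exact h
          · exact absurd h hne
        have := congrFun h11 (Sum.inl i0)
        simp at this
      have hzr : z ^ r = 1 := by
        let i0 : Fin d := ⟨0, by omega⟩
        have h11 : ∀ k : ℕ, (T ^ k) (Pi.single (Sum.inl i0) 1 : Fin d ⊕ Fin d → F) = z ^ k • (Pi.single (Sum.inl i0) 1) := by
          intro k
          induction k with
          | zero => simp
          | succ k ih => rw [pow_succ', Module.End.mul_apply, ih, map_smul, hTz, smul_smul, pow_succ]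
        have h12 := h11 r
        rw [hTr] at h12
        have := congrFun h12 (Sum.inl i0)
        simp at this
        exact this.symm
      obtain ⟨s, hs⟩ := hr.odd_of_ne_two hr2
      rw [hs, pow_add, pow_mul, pow_one, pow_two, hzz, one_pow, one_mul] at hzr
      exact hz1 hzr
  · rintro ⟨U, W, hUW, hU, hW, hcase⟩
    have hdim : Module.finrank F (LinearMap.range (T - 1)) ≤ orderOf ((Fintype.card F : ℕ) : ZMod r) := by
      rw [hq, ← hi]; omega
    rcases hcase with ⟨h1, h2⟩ | ⟨h1, h2⟩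
    · exact H99.RElt.no_pair hr hrq hrF (H99.RElt.sympB_nd d) T hTB hTr hT1 hdim U W hUW hU hW
        (fun v hv => by rw [← h1]; exact ⟨v, hv, rfl⟩) (fun v hv => by rw [← h2]; exact ⟨v, hv, rfl⟩)
    · -- swapping is impossible
      have hk : ∀ k : ℕ, U.map (T ^ (2 * k + 1)) = W := by
        intro k
        induction k with
        | zero => rw [mul_zero, zero_add, pow_one]; exact h1
        | succ k ih =>
          have : T ^ (2 * (k + 1) + 1) = T ∘ₗ (T ∘ₗ T ^ (2 * k + 1)) := by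
            rw [show 2 * (k + 1) + 1 = (2 * k + 1) + 1 + 1 by ring, pow_succ', pow_succ']; rfl
          rw [this, Submodule.map_comp, Submodule.map_comp, ih, h2, h1]
      obtain ⟨s, hs⟩ := hr.odd_of_ne_two hr2
      have h3 := hk s
      rw [← hs, hTr] at h3
      have h4 : U = W := by
        rw [← h3]
        exact (Submodule.map_id U).symm
      subst h4
      have h5 := hUW.disjoint
      rw [disjoint_self] at h5
      have h6 := hUW.codisjoint
      rw [codisjoint_self, h5] at h6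
      have h7 : (Pi.single (Sum.inl ⟨0, by omega⟩) 1 : Fin d ⊕ Fin d → F) ∈ (⊥ : Submodule F (Fin d ⊕ Fin d → F)) := by
        rw [h6]; trivial
      rw [Submodule.mem_bot] at h7
      have := congrFun h7 (Sum.inl ⟨0, by omega⟩)
      simp at this

end Cfsg.Agent.S5963
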