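import Cfsg.Statements.S5964
import Cfsg.Agent.Lib.H99.Subfield
import Cfsg.Agent.Lib.H99.PowNegOne

set_option autoImplicit false
set_option linter.unusedSimpArgs false
open scoped MatrixGroups
open Cfsg

namespace Cfsg.Agent.S5964


open Matrix in
theorem isSquare_of_mem {F : Type*} [Field F] [Fintype F] (hodd : Odd (Fintype.card F)) (F₀ : Subfield F) (q₀ : ℕ)
    (hF₀ : Nat.card F₀ = q₀) (hq : Fintype.card F = q₀ ^ 2) (a : F₀) : IsSquare (a : F) := by
  classical
  by_cases ha : a = 0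
  · rw [ha]; exact ⟨0, by simp⟩
  have hfin : Fintype F₀ := Fintype.ofFinite F₀
  have ha' : (a : F) ≠ 0 := by
    intro h; apply ha; exact Subtype.ext h
  have h2c : ringChar F ≠ 2 := by
    intro h'
    have := FiniteField.even_card_iff_char_two.1 h'
    rcases hodd with ⟨k, hk⟩
    omega
  rw [FiniteField.isSquare_iff h2c ha']
  have hq0 : Odd q₀ := by
    rw [hq] at hodd
    exact (Nat.odd_pow_iff (by norm_num)).1 hodd
  have e : Fintype.card F / 2 = (q₀ - 1) * ((q₀ + 1) / 2) := by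
    obtain ⟨t, rfl⟩ := hq0
    rw [hq]
    have e1 : (2 * t + 1 - 1) = 2 * t := by omega
    have e2 : (2 * t + 1 + 1) / 2 = t + 1 := by omega
    rw [e1, e2]
    have e3 : (2 * t + 1) ^ 2 = 2 * (2 * t * (t + 1)) + 1 := by ring
    omega
  rw [e, pow_mul]
  have h1 : a ^ (q₀ - 1) = 1 := by
    have := FiniteField.pow_card_sub_one_eq_one a ha
    rwa [← Nat.card_eq_fintype_card, hF₀] at this
  have h2 : (a : F) ^ (q₀ - 1) = 1 := by
    have := congrArg (fun t : F₀ => (t : F)) h1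
    simpa using this
  rw [h2, one_pow]

open Matrix in
theorem close {F : Type*} [Field F] [Fintype F] {n : ℕ} (hn : 2 ≤ n) (F₀ : Subfield F)
    (x : Matrix.SpecialLinearGroup (Fin n) F) (z : F) (hz : z ≠ 0)
    (hX : (x : Matrix (Fin n) (Fin n) F) * (x : Matrix (Fin n) (Fin n) F) = z • (1 : Matrix (Fin n) (Fin n) F))
    (y : Matrix (Fin n) (Fin n) F₀) (hy : y.det ≠ 0) (R : Matrix (Fin n) (Fin n) F) (hR : R.det ≠ 0) (c : F) (hc : c ≠ 0)
    (h : (x : Matrix (Fin n) (Fin n) F) * R = R * (c • y.map (F₀.subtype : F₀ →+* F))) :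
    ∃ P : Matrix.SpecialLinearGroup (Fin n) F, P⁻¹ * x * P ∈ ((Cfsg.Geo.subfieldSubgroup F₀ 1).comap
      (Matrix.SpecialLinearGroup.toGL : Matrix.SpecialLinearGroup (Fin n) F →* GL (Fin n) F)) := by
  have : Nonempty (Fin n) := ⟨⟨0, by omega⟩⟩
  obtain ⟨R', hR', hxR'⟩ := H99.SqScalar.exists_det_one_conj _ _ R z hz hX hR h
  let R'' : Matrix.SpecialLinearGroup (Fin n) F := ⟨R', hR'⟩
  have hR'' : (R'' : Matrix (Fin n) (Fin n) F) = R' := rfl
  refine ⟨R'', ?_⟩
  rw [Subgroup.mem_comap, H99.Subfield.mem_subfield]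
  refine ⟨Matrix.GeneralLinearGroup.mkOfDetNeZero y hy, Units.mk0 c hc, ?_⟩
  rw [mul_assoc]
  show ((R''⁻¹ * (x * R'') : Matrix.SpecialLinearGroup (Fin n) F) : Matrix (Fin n) (Fin n) F) = c • y.map (F₀.subtype : F₀ →+* F)
  rw [Matrix.SpecialLinearGroup.coe_mul, Matrix.SpecialLinearGroup.coe_mul, hR'', hxR', ← Matrix.mul_assoc]
  have e3 : ((R''⁻¹ : Matrix.SpecialLinearGroup (Fin n) F) : Matrix (Fin n) (Fin n) F) * R' = 1 := by
    have := congrArg (fun g : Matrix.SpecialLinearGroup (Fin n) F => (g : Matrix (Fin n) (Fin n) F))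
      (inv_mul_cancel R'')
    simpa only [Matrix.SpecialLinearGroup.coe_mul, Matrix.SpecialLinearGroup.coe_one] using this
  rw [e3, Matrix.one_mul]

open Matrix in
theorem std_map {F : Type*} [Field F] (F₀ : Subfield F) (s m : ℕ) (z μ : F₀) {α : Type} [Fintype α] [DecidableEq α]
    (e : ((Fin 2 × Fin s) ⊕ Fin m) ≃ α) :
    (Matrix.reindex e e (H99.SqScalar.std s m z μ)).map (F₀.subtype : F₀ →+* F) =
      Matrix.reindex e e (H99.SqScalar.std s m (z : F) (μ : F)) := by
  ext i j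
  simp only [Matrix.map_apply, Matrix.reindex_apply, Matrix.submatrix_apply]
  generalize e.symm i = i'
  generalize e.symm j = j'
  rcases i' with ⟨a, i'⟩ | i' <;> rcases j' with ⟨b, j'⟩ | j'
  · simp only [H99.SqScalar.std, Matrix.fromBlocks_apply₁₁, Matrix.blockDiagonal_apply]
    split_ifs with h
    · fin_cases a <;> fin_cases b <;> simp
    · simp
  · simp [H99.SqScalar.std]
  · simp [H99.SqScalar.std]
  · simp only [H99.SqScalar.std, Matrix.fromBlocks_apply₂₂, Matrix.diagonal_apply]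
    split_ifs with h
    · rfl
    · simp

open Matrix in
theorem fwd {F : Type*} [Field F] [Fintype F] {n : ℕ} (hn : 2 ≤ n) (F₀ : Subfield F) (q₀ : ℕ)
    (hF₀ : Nat.card F₀ = q₀) (hq : Fintype.card F = q₀ ^ 2) (hodd : Odd (Fintype.card F))
    (hv : padicValNat 2 (Fintype.card F - 1) < padicValNat 2 n) :
    ∃ (x : Matrix.SpecialLinearGroup (Fin n) F) (z : F),
      ((x ^ 2 : Matrix.SpecialLinearGroup (Fin n) F) : Matrix (Fin n) (Fin n) F) = z • (1 : Matrix (Fin n) (Fin n) F) ∧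
      (∀ z : F, (x : Matrix (Fin n) (Fin n) F) ≠ z • (1 : Matrix (Fin n) (Fin n) F)) ∧
      ∀ P : Matrix.SpecialLinearGroup (Fin n) F, P⁻¹ * x * P ∉ ((Cfsg.Geo.subfieldSubgroup F₀ 1).comap
        (Matrix.SpecialLinearGroup.toGL : Matrix.SpecialLinearGroup (Fin n) F →* GL (Fin n) F)) := by
  obtain ⟨w, hw, hw1⟩ := H99.PowNegOne.exists_nonsquare_pow hodd
  have hn0 : n ≠ 0 := by omega
  set b := padicValNat 2 (Fintype.card F - 1) with hb
  obtain ⟨t, ht⟩ := H99.PowNegOne.dvd_of_val_le (show b + 1 ≤ padicValNat 2 n from hv)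
  set s := 2 ^ b * t with hs
  have hns : n = 2 * s := by rw [ht, hs]; ring
  have hws : w ^ s = 1 := by rw [hs, pow_mul, hw1, one_pow]
  have hsq : IsSquare (-1 : F) := by
    have := isSquare_of_mem hodd F₀ q₀ hF₀ hq (-1)
    simpa using this
  have hz : ¬ IsSquare (-w) := by
    intro h
    apply hw
    have := h.mul hsq
    simpa using this
  have hs0 : 0 < s := by omega
  have hcard : Fintype.card ((Fin 2 × Fin s) ⊕ Fin 0) = Fintype.card (Fin n) := by simp [hns]
  let e : ((Fin 2 × Fin s) ⊕ Fin 0) ≃ Fin n := Fintype.equivOfCardEq hcard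
  let X : Matrix (Fin n) (Fin n) F := Matrix.reindex e e (H99.SqScalar.std s 0 (-w) 0)
  have hXX : X * X = (-w) • (1 : Matrix (Fin n) (Fin n) F) := by
    have e1 : H99.SqScalar.std s 0 (-w) 0 * H99.SqScalar.std s 0 (-w) 0 = (-w) • (1 : Matrix ((Fin 2 × Fin s) ⊕ Fin 0) ((Fin 2 × Fin s) ⊕ Fin 0) F) := by
      rw [H99.SqScalar.std, Matrix.fromBlocks_multiply, ← Matrix.blockDiagonal_mul]
      ext i j
      rcases i with ⟨a, i'⟩ | i' <;> rcases j with ⟨b, j'⟩ | j'
      · simp only [Matrix.fromBlocks_apply₁₁, Matrix.add_apply, Matrix.blockDiagonal_apply, Matrix.smul_apply,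
          Matrix.one_apply, Sum.inl.injEq, Prod.mk.injEq]
        by_cases h : i' = j'
        · subst h
          fin_cases a <;> fin_cases b <;> simp [Matrix.mul_apply, Fin.sum_univ_two]
        · simp [h]
      · exact j'.elim0
      · exact i'.elim0
      · exact i'.elim0
    show Matrix.reindex e e _ * Matrix.reindex e e _ = _
    rw [Matrix.reindex_apply, Matrix.submatrix_mul_equiv, e1]
    ext i j
    simp only [Matrix.submatrix_apply, Matrix.smul_apply, Matrix.one_apply, Equiv.apply_eq_iff_eq]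
  have hdet : X.det = 1 := by
    show (Matrix.reindex e e _).det = 1
    rw [Matrix.det_reindex_self, H99.SqScalar.det_std, neg_neg, hws, pow_zero, one_mul]
  let x' : Matrix.SpecialLinearGroup (Fin n) F := ⟨X, hdet⟩
  refine ⟨x', -w, ?_, ?_, ?_⟩
  · rw [pow_two, Matrix.SpecialLinearGroup.coe_mul]
    exact hXX
  · intro c hc
    have h1 : X (e (.inl (1, ⟨0, hs0⟩))) (e (.inl (0, ⟨0, hs0⟩))) = 1 := by
      show (Matrix.reindex e e _) _ _ = 1
      rw [Matrix.reindex_apply, Matrix.submatrix_apply, Equiv.symm_apply_apply, Equiv.symm_apply_apply]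
      simp [H99.SqScalar.std, Matrix.blockDiagonal_apply]
    have hc' : X = c • (1 : Matrix (Fin n) (Fin n) F) := hc
    rw [hc', Matrix.smul_apply, Matrix.one_apply_ne (by simp), smul_zero] at h1
    exact zero_ne_one h1
  · intro P hP
    rw [Subgroup.mem_comap, H99.Subfield.mem_subfield] at hP
    obtain ⟨g0, c, hg⟩ := hP
    have hg' : ((P⁻¹ * x' * P : Matrix.SpecialLinearGroup (Fin n) F) : Matrix (Fin n) (Fin n) F) = (c : F) • (g0 : Matrix (Fin n) (Fin n) F₀).map (F₀.subtype : F₀ →+* F) := hg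
    have e1 : (P⁻¹ * x' * P) * (P⁻¹ * x' * P) = P⁻¹ * (x' * x') * P := by group
    have e2 : ((P⁻¹ * (x' * x') * P : Matrix.SpecialLinearGroup (Fin n) F) : Matrix (Fin n) (Fin n) F) = (-w) • (1 : Matrix (Fin n) (Fin n) F) := by
      rw [Matrix.SpecialLinearGroup.coe_mul, Matrix.SpecialLinearGroup.coe_mul, Matrix.SpecialLinearGroup.coe_mul]
      show ((P⁻¹ : Matrix.SpecialLinearGroup (Fin n) F) : Matrix (Fin n) (Fin n) F) * (X * X) * (P : Matrix (Fin n) (Fin n) F) = _
      rw [hXX, Matrix.mul_smul, Matrix.mul_one, Matrix.smul_mul, ← Matrix.SpecialLinearGroup.coe_mul, inv_mul_cancel,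
        Matrix.SpecialLinearGroup.coe_one]
    have e3 : ((P⁻¹ * x' * P * (P⁻¹ * x' * P) : Matrix.SpecialLinearGroup (Fin n) F) : Matrix (Fin n) (Fin n) F) =
        ((P⁻¹ * (x' * x') * P : Matrix.SpecialLinearGroup (Fin n) F) : Matrix (Fin n) (Fin n) F) := by rw [e1]
    rw [e2, Matrix.SpecialLinearGroup.coe_mul, hg', Matrix.smul_mul, Matrix.mul_smul, smul_smul] at e3
    let i0 : Fin n := ⟨0, by omega⟩
    have e4 := congrFun (congrFun e3 i0) i0
    rw [← Matrix.map_mul, Matrix.smul_apply, Matrix.smul_apply, Matrix.map_apply, Matrix.one_apply_eq] at e4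
    apply hz
    have e5 : -w = (c : F) * c * (((g0 : Matrix (Fin n) (Fin n) F₀) * (g0 : Matrix (Fin n) (Fin n) F₀)) i0 i0 : F₀) := by
      have : -w • (1 : F) = -w := by simp
      rw [← this, ← e4]; rfl
    rw [e5]
    exact (IsSquare.mul_self _).mul (isSquare_of_mem hodd F₀ q₀ hF₀ hq _)

open Matrix in
theorem bwd {F : Type*} [Field F] [Fintype F] {n : ℕ} (hn : 2 ≤ n) (F₀ : Subfield F) (q₀ k : ℕ)
    (hF₀ : Nat.card F₀ = q₀) (hq : Fintype.card F = q₀ ^ k)
    (h : Odd (Fintype.card F) → (k = 2 ∧ padicValNat 2 n ≤ padicValNat 2 (Fintype.card F - 1)))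
    (x : Matrix.SpecialLinearGroup (Fin n) F) (z : F)
    (hx : ((x ^ 2 : Matrix.SpecialLinearGroup (Fin n) F) : Matrix (Fin n) (Fin n) F) = z • (1 : Matrix (Fin n) (Fin n) F)) :
    ∃ P : Matrix.SpecialLinearGroup (Fin n) F, P⁻¹ * x * P ∈ ((Cfsg.Geo.subfieldSubgroup F₀ 1).comap
      (Matrix.SpecialLinearGroup.toGL : Matrix.SpecialLinearGroup (Fin n) F →* GL (Fin n) F)) := by
  have hX : (x : Matrix (Fin n) (Fin n) F) * (x : Matrix (Fin n) (Fin n) F) = z • (1 : Matrix (Fin n) (Fin n) F) := by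
    rw [← hx, pow_two, Matrix.SpecialLinearGroup.coe_mul]
  have : Nonempty (Fin n) := ⟨⟨0, by omega⟩⟩
  have hz : z ≠ 0 := by
    rintro rfl
    have := congrArg Matrix.det hX
    rw [Matrix.det_mul, zero_smul, Matrix.det_zero, x.2] at this
    norm_num at this
  have hsq : IsSquare z := by
    rcases Nat.even_or_odd (Fintype.card F) with he | ho
    · exact FiniteField.isSquare_of_char_two (FiniteField.even_card_iff_char_two.2 (Nat.even_iff.1 he)) z
    · obtain ⟨hk2, hv⟩ := h ho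
      subst hk2
      by_contra hns
      obtain ⟨s, m, μ, h1, h2, h3, h4, h5⟩ := H99.SqScalar.exists_std_matrix (x : Matrix (Fin n) (Fin n) F) z hX
      have hm : m = 0 := by
        by_contra hm
        exact hns ⟨μ, by rw [← pow_two]; exact (h2 (Nat.pos_of_ne_zero hm)).symm⟩
      subst hm
      rw [pow_zero, mul_one, x.2] at h4
      have hs1 : IsSquare (-1 : F) := by
        have := isSquare_of_mem ho F₀ q₀ hF₀ hq (-1)
        simpa using this
      have hz' : ¬ IsSquare (-z) := by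
        intro h
        apply hns
        have := h.mul hs1
        simpa using this
      rw [Fintype.card_fin, add_zero] at h1
      have hs0 : s ≠ 0 := by omega
      have h6 := H99.PowNegOne.val_le_of_nonsquare ho (-z) hz' s hs0 h4.symm
      have h7 : padicValNat 2 n = padicValNat 2 s + 1 := by
        rw [← h1, padicValNat.mul (by norm_num) hs0]
        simp [add_comm]
      omega
  obtain ⟨μ, hμ⟩ := hsq
  have hμ0 : μ ≠ 0 := by rintro rfl; apply hz; rw [hμ]; ring
  have hY : (μ⁻¹ • (x : Matrix (Fin n) (Fin n) F)) * (μ⁻¹ • (x : Matrix (Fin n) (Fin n) F)) = (1 : F) • (1 : Matrix (Fin n) (Fin n) F) := by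
    rw [Matrix.smul_mul, Matrix.mul_smul, hX, smul_smul, smul_smul, hμ]
    congr 1
    field_simp
  obtain ⟨s, m, μ', h1, h2, h3, h4, h5⟩ := H99.SqScalar.exists_std_matrix _ 1 hY
  have hcard : Fintype.card ((Fin 2 × Fin s) ⊕ Fin m) = Fintype.card (Fin n) := by
    rw [← h1]; simp
  let e : ((Fin 2 × Fin s) ⊕ Fin m) ≃ Fin n := Fintype.equivOfCardEq hcard
  obtain ⟨R, hR, hRR⟩ := h5 e
  obtain ⟨μ0, hμ00, hμ0'⟩ : ∃ μ0 : F₀, μ0 ≠ 0 ∧ H99.SqScalar.std s m 1 μ' = H99.SqScalar.std s m 1 (μ0 : F) := by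
    rcases Nat.eq_zero_or_pos m with rfl | hm
    · refine ⟨1, one_ne_zero, ?_⟩
      rw [H99.SqScalar.std, H99.SqScalar.std]
      congr 1
      ext i
      exact i.elim0
    · have := h2 hm
      have h' : (μ' - 1) * (μ' + 1) = 0 := by linear_combination this
      rcases mul_eq_zero.1 h' with h | h
      · exact ⟨1, one_ne_zero, by rw [sub_eq_zero.1 h]; rfl⟩
      · exact ⟨-1, by simp, by rw [eq_neg_of_add_eq_zero_left h]; rfl⟩
  refine close hn F₀ x z hz hX (Matrix.reindex e e (H99.SqScalar.std s m 1 μ0)) ?_ R hR μ hμ0 ?_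
  · rw [Matrix.det_reindex_self, H99.SqScalar.det_std]
    exact mul_ne_zero (pow_ne_zero _ (by simp)) (pow_ne_zero _ hμ00)
  · rw [std_map, Matrix.mul_smul]
    have e1 : (((1 : F₀) : F₀) : F) = 1 := rfl
    rw [e1, ← hμ0', ← hRR, Matrix.smul_mul, smul_smul, mul_inv_cancel₀ hμ0, one_smul]

/-- Involutions of PSL_n(q) and subfield subgroups. Here `T = PSL_n(F)` for a field `F` with `q = p^f` elements (`n ≥ 2`, `(n, q) ≠ (2, 2), (2, 3)`), `F₀` is the subfield with `q₀` elements where `q = q₀^k` for a prime `k`, and `H` is the subgroup of matrices of determinant 1 lying in the subfield group of `F₀` (invertible matrices over `F₀` times scalars) — a maximal subgroup of type GL_n(q₀) (the case `n = 2`, `q₀ = 2` is excluded); Ω is the set of `T`-conjugates of `H` (cosets of `H`), so an element of `T` of prime order `r` (a matrix `x` of determinant 1 with `x^r` scalar, `x` not scalar) fixes a point of Ω when some conjugate of `x` by a matrix of determinant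 1 lies in `H`. Suppose the index of `H` is even. Then every involution of `T` is conjugate in `T` into `H` if and only if either `q` is even, or `k = 2` and `(n)_2 ≤ (q − 1)_2`. (For `q` odd and `k` odd the index of `H` is odd, so that case does not arise.) -/
theorem result {F : Type*} [Field F] [Fintype F] {p : ℕ} [Fact p.Prime] [CharP F p] {q : ℕ} (hq : Fintype.card F = q)
    (n : ℕ) (hn : 2 ≤ n) (hT : (n, q) ≠ (2, 2) ∧ (n, q) ≠ (2, 3))
    (F₀ : Subfield F) (k q₀ : ℕ) (hk : k.Prime) (hF₀ : Nat.card ↥F₀ = q₀) (hqk : q = q₀ ^ k) (hC5 : ¬ (n = 2 ∧ q₀ = 2)) (hΩ : 2 ∣ ((Cfsg.Geo.subfieldSubgroup F₀ 1).comap (Matrix.SpecialLinearGroup.toGL : Matrix.SpecialLinearGroup (Fin n) F →* GL (Fin n) F)).index) :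
    (∀ x : Matrix.SpecialLinearGroup (Fin n) F,
      (∃ z : F, ((x ^ 2 : Matrix.SpecialLinearGroup (Fin n) F) : Matrix (Fin n) (Fin n) F) = z • (1 : Matrix (Fin n) (Fin n) F)) →
      (∀ z : F, (x : Matrix (Fin n) (Fin n) F) ≠ z • (1 : Matrix (Fin n) (Fin n) F)) →
      ∃ P : Matrix.SpecialLinearGroup (Fin n) F, P⁻¹ * x * P ∈ ((Cfsg.Geo.subfieldSubgroup F₀ 1).comap (Matrix.SpecialLinearGroup.toGL : Matrix.SpecialLinearGroup (Fin n) F →* GL (Fin n) F))) ↔
    (Odd q → (k = 2 ∧ padicValNat 2 n ≤ padicValNat 2 (q - 1))) := by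
  subst hq
  constructor
  · intro H ho
    have hk2 : k = 2 := by
      rcases hk.eq_two_or_odd' with h | h
      · exact h
      · exact absurd hΩ (H99.Subfield.index_odd F₀ k q₀ h hF₀ hqk ho)
    refine ⟨hk2, ?_⟩
    subst hk2
    by_contra hv
    push Not at hv
    obtain ⟨x, z, h1, h2, h3⟩ := fwd hn F₀ q₀ hF₀ hqk ho hv
    obtain ⟨P, hP⟩ := H x ⟨z, h1⟩ h2
    exact h3 P hP
  · rintro H x ⟨z, hz⟩ _
    exact bwd hn F₀ q₀ k hF₀ hqk H x z hz

end Cfsg.Agent.S5964
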