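import Cfsg.Statements.S5965
import Cfsg.Agent.Lib.H99.Sub3
import Cfsg.Agent.Lib.H99.Elts
import Cfsg.Agent.Lib.H99.NoForm

set_option autoImplicit false
set_option linter.unusedSimpArgs false
open scoped MatrixGroups
open Cfsg

namespace Cfsg.Agent.S5965


set_option maxHeartbeats 400000

open Matrix in
/-- the exceptional case -/
theorem exc {F : Type*} [Field F] [Fintype F] {n : ℕ} [Fact n.Prime] (hn : n = 3 ∨ n = 5) (F₀ : Subfield F) [Fintype F₀]
    (hq : Fintype.card F = Fintype.card F₀ ^ 2) (hdvd : n ∣ Fintype.card F₀ + 1) (hv : padicValNat n (Fintype.card F - 1) = 1)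
    (hnF : ((n : ℕ) : F) ≠ 0) (x : Matrix.SpecialLinearGroup (Fin n) F) (z : F)
    (hx : (x : Matrix (Fin n) (Fin n) F) ^ n = z • (1 : Matrix (Fin n) (Fin n) F)) :
    ∃ P : Matrix.SpecialLinearGroup (Fin n) F, P⁻¹ * x * P ∈ ((Cfsg.Geo.subfieldSubgroup F₀ 1).comap
      (Matrix.SpecialLinearGroup.toGL : Matrix.SpecialLinearGroup (Fin n) F →* GL (Fin n) F)) := by
  classical
  have hodd : Odd n := by rcases hn with rfl | rfl <;> decide
  have hpos : 0 < n := by omega
  obtain ⟨ω, hω, P, l, hP, hXP, hsum⟩ := H99.Eig.exists_diag_sl hodd hv hnF (x : Matrix (Fin n) (Fin n) F) x.2 z hx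
  obtain ⟨m, hm, e, he⟩ := H99.Eig.exists_pairing hn l hsum
  have hω0 : ω ≠ 0 := hω.ne_zero hpos.ne'
  set q₀ := Fintype.card F₀ with hq₀
  set w : F := ω ^ (l (e.symm (.inl ())) : ℕ) with hw
  have hw0 : w ≠ 0 := pow_ne_zero _ hω0
  let al : Fin m → F := fun j => w⁻¹ * ω ^ (l (e.symm (.inr (.inl j))) : ℕ)
  let be : Fin m → F := fun j => w⁻¹ * ω ^ (l (e.symm (.inr (.inr j))) : ℕ)
  have hab : ∀ j, al j * be j = 1 := by
    intro j
    have h1 := H99.Eig.pow_mul_eq hω (he j)
    show w⁻¹ * _ * (w⁻¹ * _) = 1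
    have h2 : ω ^ (l (e.symm (.inr (.inl j))) : ℕ) * ω ^ (l (e.symm (.inr (.inr j))) : ℕ) = w * w := h1
    calc w⁻¹ * ω ^ (l (e.symm (.inr (.inl j))) : ℕ) * (w⁻¹ * ω ^ (l (e.symm (.inr (.inr j))) : ℕ)) =
        w⁻¹ * w⁻¹ * (ω ^ (l (e.symm (.inr (.inl j))) : ℕ) * ω ^ (l (e.symm (.inr (.inr j))) : ℕ)) := by ring
      _ = 1 := by rw [h2]; field_simp
  have hωn : ω ^ n = 1 := hω.pow_eq_one
  have hpn : ∀ k : ℕ, (ω ^ k) ^ n = 1 := fun k => by rw [← pow_mul, mul_comm, pow_mul, hωn, one_pow]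
  have han : ∀ j, al j ^ n = 1 := by
    intro j
    show (w⁻¹ * _) ^ n = 1
    rw [mul_pow, inv_pow, hpn, hpn, inv_one, one_mul]
  have haq : ∀ a : F, a ^ n = 1 → a ^ (q₀ + 1) = 1 := by
    intro a ha
    obtain ⟨t, ht⟩ := hdvd
    rw [ht, pow_mul, ha, one_pow]
  have haq' : ∀ j, al j ^ q₀ = be j := by
    intro j
    have h1 := haq _ (han j)
    rw [pow_succ] at h1
    have h2 : al j ≠ 0 := fun h => by have := hab j; rw [h, zero_mul] at this; exact zero_ne_one this
    apply mul_right_cancel₀ h2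
    rw [h1, mul_comm, hab]
  have hbq' : ∀ j, be j ^ q₀ = al j := by
    intro j
    rw [← haq', ← pow_mul, ← pow_two, ← hq, FiniteField.pow_card]
  let φ : F →ₐ[F₀] F := FiniteField.frobeniusAlgHom F₀ F
  have hφ : ∀ a, φ a = a ^ q₀ := fun a => rfl
  have htF : ∀ j, al j + be j ∈ F₀ := by
    intro j
    apply H99.Sub3.mem_of_fix
    have h1 := _root_.map_add φ (al j) (be j)
    rw [hφ, hφ, hφ, haq', hbq'] at h1
    rw [← hq₀, h1, add_comm]
  have heq : ∀ j, al j = be j → al j = 1 := by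
    intro j h
    have h1 := hab j
    rw [← h] at h1
    obtain ⟨t, ht⟩ := hodd
    have h2 := han j
    rw [ht, pow_succ, pow_mul, pow_two, h1, one_pow, one_mul] at h2
    exact h2
  -- the matrices
  let b : Fin m → F := fun j => if al j = be j then 0 else al j
  let c : Fin m → F := fun j => if al j = be j then 0 else 1
  let d : Fin m → F := fun j => if al j = be j then 1 else be j
  let y11 : Fin m → F₀ := fun j => if al j = be j then 1 else 0
  let y12 : Fin m → F₀ := fun j => if al j = be j then 0 else -1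
  let y21 : Fin m → F₀ := fun j => if al j = be j then 0 else 1
  let y22 : Fin m → F₀ := fun j => if al j = be j then 1 else ⟨al j + be j, htF j⟩
  let R0 : Matrix (Fin m ⊕ Fin m) (Fin m ⊕ Fin m) F := Matrix.fromBlocks 1 (Matrix.diagonal b) (Matrix.diagonal c) (Matrix.diagonal d)
  let Y0 : Matrix (Fin m ⊕ Fin m) (Fin m ⊕ Fin m) F₀ := Matrix.fromBlocks (Matrix.diagonal y11) (Matrix.diagonal y12) (Matrix.diagonal y21) (Matrix.diagonal y22)
  let R1 : Matrix (Unit ⊕ (Fin m ⊕ Fin m)) (Unit ⊕ (Fin m ⊕ Fin m)) F := Matrix.fromBlocks 1 0 0 R0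
  let Y1 : Matrix (Unit ⊕ (Fin m ⊕ Fin m)) (Unit ⊕ (Fin m ⊕ Fin m)) F₀ := Matrix.fromBlocks 1 0 0 Y0
  let D0 : Matrix (Fin m ⊕ Fin m) (Fin m ⊕ Fin m) F := Matrix.fromBlocks (Matrix.diagonal al) 0 0 (Matrix.diagonal be)
  let D1 : Matrix (Unit ⊕ (Fin m ⊕ Fin m)) (Unit ⊕ (Fin m ⊕ Fin m)) F := Matrix.fromBlocks 1 0 0 D0
  have hdm : ∀ y : Fin m → F₀, (Matrix.diagonal y).map (F₀.subtype : F₀ →+* F) = Matrix.diagonal (fun j => ((y j : F₀) : F)) := by
    intro y
    rw [Matrix.diagonal_map (map_zero _)]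
    rfl
  have hR0det : R0.det ≠ 0 := by
    show (Matrix.fromBlocks 1 (Matrix.diagonal b) (Matrix.diagonal c) (Matrix.diagonal d)).det ≠ 0
    rw [Matrix.det_fromBlocks_one₁₁, Matrix.diagonal_mul_diagonal, Matrix.diagonal_sub, Matrix.det_diagonal, Finset.prod_ne_zero_iff]
    intro j _
    simp only [b, c, d]
    split_ifs with h
    · simp
    · rw [one_mul]
      exact sub_ne_zero.2 (Ne.symm h)
  have h0 : D0 * R0 = R0 * Y0.map (F₀.subtype : F₀ →+* F) := by
    show Matrix.fromBlocks (Matrix.diagonal al) 0 0 (Matrix.diagonal be) * Matrix.fromBlocks 1 (Matrix.diagonal b) (Matrix.diagonal c) (Matrix.diagonal d) =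
      Matrix.fromBlocks 1 (Matrix.diagonal b) (Matrix.diagonal c) (Matrix.diagonal d) *
        (Matrix.fromBlocks (Matrix.diagonal y11) (Matrix.diagonal y12) (Matrix.diagonal y21) (Matrix.diagonal y22)).map (F₀.subtype : F₀ →+* F)
    rw [Matrix.fromBlocks_map, hdm, hdm, hdm, hdm, Matrix.fromBlocks_multiply, Matrix.fromBlocks_multiply]
    simp only [Matrix.mul_one, Matrix.one_mul, Matrix.zero_mul, add_zero, zero_add, Matrix.diagonal_mul_diagonal, Matrix.diagonal_add]
    congr 1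
    · congr 1; funext j
      simp only [b, c, d, y11, y12, y21, y22]
      split_ifs with h
      · simp [heq j h]
      · simp
    · congr 1; funext j
      simp only [b, c, d, y11, y12, y21, y22]
      split_ifs with h
      · simp
      · push_cast
        have := hab j
        linear_combination -this
    · congr 1; funext j
      simp only [b, c, d, y11, y12, y21, y22]
      split_ifs with h
      · simp
      · simp
    · congr 1; funext j
      simp only [b, c, d, y11, y12, y21, y22]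
      split_ifs with h
      · rw [← h, heq j h]; simp
      · push_cast
        have := hab j
        linear_combination -this
  have h1 : D1 * R1 = R1 * Y1.map (F₀.subtype : F₀ →+* F) := by
    have key : ∀ A B : Matrix (Fin m ⊕ Fin m) (Fin m ⊕ Fin m) F, (Matrix.fromBlocks 1 0 0 A : Matrix (Unit ⊕ (Fin m ⊕ Fin m)) (Unit ⊕ (Fin m ⊕ Fin m)) F) *
        Matrix.fromBlocks 1 0 0 B = Matrix.fromBlocks 1 0 0 (A * B) := by
      intro A B
      rw [Matrix.fromBlocks_multiply]
      simp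
    have hY1 : Y1.map (F₀.subtype : F₀ →+* F) = Matrix.fromBlocks 1 0 0 (Y0.map (F₀.subtype : F₀ →+* F)) := by
      show (Matrix.fromBlocks 1 0 0 Y0).map (F₀.subtype : F₀ →+* F) = _
      rw [Matrix.fromBlocks_map, Matrix.map_one _ (map_zero _) (map_one _), Matrix.map_zero _ (map_zero _), Matrix.map_zero _ (map_zero _)]
    rw [hY1]
    show (Matrix.fromBlocks 1 0 0 D0 : Matrix (Unit ⊕ (Fin m ⊕ Fin m)) (Unit ⊕ (Fin m ⊕ Fin m)) F) * Matrix.fromBlocks 1 0 0 R0 = Matrix.fromBlocks 1 0 0 R0 * Matrix.fromBlocks 1 0 0 (Y0.map (F₀.subtype : F₀ →+* F))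
    rw [key, key, h0]
  have hR1det : R1.det ≠ 0 := by
    show (Matrix.fromBlocks 1 0 0 R0).det ≠ 0
    rw [Matrix.det_fromBlocks_zero₂₁, Matrix.det_one, one_mul]
    exact hR0det
  have hD : Matrix.diagonal (fun i => ω ^ (l i : ℕ)) = w • Matrix.reindex e.symm e.symm D1 := by
    ext i j
    obtain ⟨i', rfl⟩ := e.symm.surjective i
    obtain ⟨j', rfl⟩ := e.symm.surjective j
    rw [Matrix.smul_apply, Matrix.reindex_apply, Matrix.submatrix_apply, Equiv.symm_symm, Equiv.apply_symm_apply, Equiv.apply_symm_apply,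
      Matrix.diagonal_apply]
    have hij : (e.symm i' = e.symm j') = (i' = j') := propext e.symm.apply_eq_iff_eq
    simp only [hij]
    show _ = w • (Matrix.fromBlocks 1 0 0 (Matrix.fromBlocks (Matrix.diagonal al) 0 0 (Matrix.diagonal be)) : Matrix (Unit ⊕ (Fin m ⊕ Fin m)) (Unit ⊕ (Fin m ⊕ Fin m)) F) i' j'
    have hwa : ∀ a : F, w * (w⁻¹ * a) = a := fun a => by rw [← mul_assoc, mul_inv_cancel₀ hw0, one_mul]
    rcases i' with i' | i' | i' <;> rcases j' with j' | j' | j'
    · simp [hw]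
    · simp
    · simp
    · simp
    · by_cases hh : i' = j'
      · subst hh; simp [al, hwa]
      · simp [hh]
    · simp
    · simp
    · simp
    · by_cases hh : i' = j'
      · subst hh; simp [be, hwa]
      · simp [hh]
  set Rn := Matrix.reindex e.symm e.symm R1 with hRn
  set Yn := Matrix.reindex e.symm e.symm Y1 with hYn
  have hYnm : Yn.map (F₀.subtype : F₀ →+* F) = Matrix.reindex e.symm e.symm (Y1.map (F₀.subtype : F₀ →+* F)) := by
    ext i j; rfl
  have h2 : Matrix.reindex e.symm e.symm D1 * Rn = Rn * Yn.map (F₀.subtype : F₀ →+* F) := by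
    rw [hYnm, hRn]
    show (Matrix.reindexAlgEquiv F F e.symm D1) * (Matrix.reindexAlgEquiv F F e.symm R1) = (Matrix.reindexAlgEquiv F F e.symm R1) * (Matrix.reindexAlgEquiv F F e.symm (Y1.map (F₀.subtype : F₀ →+* F)))
    rw [← _root_.map_mul, ← _root_.map_mul, h1]
  have hRndet : Rn.det ≠ 0 := by
    rw [hRn, Matrix.det_reindex_self]; exact hR1det
  have hX : (x : Matrix (Fin n) (Fin n) F) * (P * Rn) = (P * Rn) * (w • Yn.map (F₀.subtype : F₀ →+* F)) := by
    rw [← Matrix.mul_assoc, hXP, hD, Matrix.mul_assoc, Matrix.smul_mul, h2, Matrix.mul_smul, Matrix.mul_smul, Matrix.mul_assoc]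
  obtain ⟨R', hR', hRY'⟩ := H99.Eig.det_one_of_diag hpos (x : Matrix (Fin n) (Fin n) F) P _ hP hXP (P * Rn) _ (by
    rw [Matrix.det_mul]; exact mul_ne_zero hP hRndet) hX
  have hYdet : Yn.det ≠ 0 := by
    intro h3
    have h4 := congrArg Matrix.det hX
    have h5 : (Yn.map (F₀.subtype : F₀ →+* F)).det = 0 := by
      have := RingHom.map_det (F₀.subtype : F₀ →+* F) Yn
      rw [h3, map_zero] at this
      exact this.symm
    rw [Matrix.det_mul (x : Matrix (Fin n) (Fin n) F), x.2, one_mul, Matrix.det_mul (P * Rn), Matrix.det_smul, h5, mul_zero, mul_zero, Matrix.det_mul] at h4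
    exact mul_ne_zero hP hRndet h4
  refine ⟨⟨R', hR'⟩, H99.Sub1.mem_of_conj F₀ x ⟨R', hR'⟩ Yn hYdet hw0 ?_⟩
  exact hRY'

open Matrix in
theorem bad {F : Type*} [Field F] [Fintype F] {n : ℕ} {F₀ : Subfield F} {r : ℕ}
    (H : ∀ x : Matrix.SpecialLinearGroup (Fin n) F,
      (∃ z : F, ((x ^ r : Matrix.SpecialLinearGroup (Fin n) F) : Matrix (Fin n) (Fin n) F) = z • (1 : Matrix (Fin n) (Fin n) F)) →
      (∀ z : F, (x : Matrix (Fin n) (Fin n) F) ≠ z • (1 : Matrix (Fin n) (Fin n) F)) →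
      ∃ P : Matrix.SpecialLinearGroup (Fin n) F, P⁻¹ * x * P ∈ ((Cfsg.Geo.subfieldSubgroup F₀ 1).comap (Matrix.SpecialLinearGroup.toGL : Matrix.SpecialLinearGroup (Fin n) F →* GL (Fin n) F)))
    (X : Matrix (Fin n) (Fin n) F) (hdet : X.det = 1) (z : F) (hz : X ^ r = z • (1 : Matrix (Fin n) (Fin n) F))
    (hns : ∀ z : F, X ≠ z • (1 : Matrix (Fin n) (Fin n) F)) :
    ∃ (P : Matrix (Fin n) (Fin n) F) (Y : Matrix (Fin n) (Fin n) F₀) (c : F), P.det ≠ 0 ∧ c ≠ 0 ∧
      X * P = P * (c • Y.map (F₀.subtype : F₀ →+* F)) := by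
  let x : Matrix.SpecialLinearGroup (Fin n) F := ⟨X, hdet⟩
  obtain ⟨P, hP⟩ := H x ⟨z, by rw [Matrix.SpecialLinearGroup.coe_pow]; exact hz⟩ hns
  obtain ⟨Y, c, h1, h2, h3⟩ := H99.Sub1.conj_of_mem F₀ x P hP
  exact ⟨(P : Matrix (Fin n) (Fin n) F), Y, c, by rw [P.2]; exact one_ne_zero, h2, h3⟩

/-- Elements of odd prime order r ≠ p of PSL_n(q) and subfield subgroups. Here `T = PSL_n(F)` for a field `F` with `q = p^f` elements (`n ≥ 2`, `(n, q) ≠ (2, 2), (2, 3)`), `F₀` is the subfield with `q₀` elements where `q = q₀^k` for a prime `k`, and `H` is the subgroup of matrices of determinant 1 lying in the subfield group of `F₀` (invertible matrices over `F₀` times scalars) — a maximal subgroup of type GL_n(q₀) (the case `n = 2`, `q₀ = 2` is excluded); Ω is the set of `T`-conjugates of `H` (cosets of `H`), so an element of `T` of prime order `r` (a matrix `x` of determinant 1 with `x^r` scalar, `x` not scalar) fixes a point of Ω when some conjugate of `x` by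 a matrix of determinant 1 lies in `H`. Let `r ≠ p` be an odd prime dividing the index of `H`, with `(n, r) ≠ (6, 3)` and, when `r = k` divides `q₀ − 1`, with `(n)_r ≤ (q − 1)_r`. Then every element of `T` of order `r` is conjugate in `T` into `H` if and only if `r = k`, or `k = 2`, `r = n ∈ {3, 5}` and `(q₀ + 1)_r = r`. The two excluded cases, `(n, r) = (6, 3)` and `r = k ∣ q₀ − 1` with `(n)_r > (q − 1)_r`, are ones where this criterion can fail, so they are left out. -/
theorem result {F : Type*} [Field F] [Fintype F] {p : ℕ} [Fact p.Prime] [CharP F p] {q : ℕ} (hq : Fintype.card F = q)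
    (n : ℕ) (hn : 2 ≤ n) (hT : (n, q) ≠ (2, 2) ∧ (n, q) ≠ (2, 3))
    (F₀ : Subfield F) (k q₀ : ℕ) (hk : k.Prime) (hF₀ : Nat.card ↥F₀ = q₀) (hqk : q = q₀ ^ k) (hC5 : ¬ (n = 2 ∧ q₀ = 2)) (r : ℕ) [Fact r.Prime] (hr2 : r ≠ 2) (hrp : r ≠ p) (hgap : ¬ (n = 6 ∧ r = 3)) (hgapk : r = k → r ∣ q₀ - 1 → padicValNat r n ≤ padicValNat r (q - 1)) (hΩ : r ∣ ((Cfsg.Geo.subfieldSubgroup F₀ 1).comap (Matrix.SpecialLinearGroup.toGL : Matrix.SpecialLinearGroup (Fin n) F →* GL (Fin n) F)).index) :
    (∀ x : Matrix.SpecialLinearGroup (Fin n) F,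
      (∃ z : F, ((x ^ r : Matrix.SpecialLinearGroup (Fin n) F) : Matrix (Fin n) (Fin n) F) = z • (1 : Matrix (Fin n) (Fin n) F)) →
      (∀ z : F, (x : Matrix (Fin n) (Fin n) F) ≠ z • (1 : Matrix (Fin n) (Fin n) F)) →
      ∃ P : Matrix.SpecialLinearGroup (Fin n) F, P⁻¹ * x * P ∈ ((Cfsg.Geo.subfieldSubgroup F₀ 1).comap (Matrix.SpecialLinearGroup.toGL : Matrix.SpecialLinearGroup (Fin n) F →* GL (Fin n) F))) ↔
    (r = k ∨ (k = 2 ∧ r = n ∧ (n = 3 ∨ n = 5) ∧ padicValNat r (q₀ + 1) = 1)) := by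

  classical
  have hr' : r.Prime := Fact.out
  have hp : p.Prime := Fact.out
  have hfin : Fintype F₀ := Fintype.ofFinite F₀
  have hF₀' : Fintype.card F₀ = q₀ := by rw [← Nat.card_eq_fintype_card, hF₀]
  have hqF : Fintype.card F = q₀ ^ k := by rw [hq, hqk]
  have hq₀1 : 1 < q₀ := by rw [← hF₀']; exact Fintype.one_lt_card
  have hrodd : Odd r := hr'.odd_of_ne_two hr2
  have hr3 : 3 ≤ r := by have := hr'.two_le; omega
  have hnpos : 0 < n := by omega
  have hne : Nonempty (Fin n) := ⟨⟨0, hnpos⟩⟩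
  have hrq : ¬ r ∣ Fintype.card F := by
    intro h
    obtain ⟨f, -, hf⟩ := FiniteField.card F p
    rw [hf] at h
    exact hrp ((Nat.prime_dvd_prime_iff_eq hr' hp).1 (hr'.dvd_of_dvd_pow h))
  have hrq₀ : ¬ r ∣ q₀ := by
    intro h
    apply hrq
    rw [hqF]; exact dvd_pow h hk.ne_zero
  have hrq₀' : ¬ r ∣ Fintype.card F₀ := by rw [hF₀']; exact hrq₀
  have hrF : ((r : ℕ) : F) ≠ 0 := H99.Iso.natCast_ne_zero hr' hrq
  have hz0 : ∀ x : Matrix.SpecialLinearGroup (Fin n) F, ∀ z : F, (x : Matrix (Fin n) (Fin n) F) ^ r = z • (1 : Matrix (Fin n) (Fin n) F) → z ≠ 0 := by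
    rintro x z hz rfl
    have := congrArg Matrix.det hz
    rw [Matrix.det_pow, x.2, one_pow, zero_smul, Matrix.det_zero] at this
    exact one_ne_zero this
  have hordF : ((Fintype.card F : ℕ) : ZMod r) = ((q₀ : ℕ) : ZMod r) ^ k := by rw [hqF]; push_cast; rfl
  have hq₀unit : ((q₀ : ℕ) : ZMod r) ≠ 0 := fun h => hrq₀ ((ZMod.natCast_eq_zero_iff _ _).1 h)
  have hi₀pos : 0 < orderOf ((q₀ : ℕ) : ZMod r) := by
    have := orderOf_pos (Units.mk0 _ hq₀unit)
    rwa [← orderOf_units, Units.val_mk0] at this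
  constructor
  · intro H
    by_contra hcon
    push Not at hcon
    obtain ⟨hrk, hcon⟩ := hcon
    by_cases hki : k ∣ orderOf ((q₀ : ℕ) : ZMod r)
    swap
    · exact H99.Sub3.index_nd hr' F₀ k q₀ hk.pos hF₀ hqF hrq₀ (fun m _ _ => H99.Sub3.geom_nd hr' hk hrk hki m) hΩ
    by_cases hdvd : r ∣ Fintype.card F - 1
    swap
    · -- block elements
      obtain ⟨i, Cc, G, hi, hi2, hGirr, hGmon, hGdeg, hCG, hCr, hC1⟩ := H99.Blk.exists_comp_block (F := F) (p := p) hr' hrp hdvd
      have hcardSL : r ∣ Nat.card (GL (Fin n) F) := by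
        have h1 := hΩ.trans (Subgroup.index_dvd_card _)
        refine h1.trans ?_
        exact Subgroup.card_dvd_of_injective (Matrix.SpecialLinearGroup.toGL : Matrix.SpecialLinearGroup (Fin n) F →* GL (Fin n) F)
          (fun a b h => Matrix.SpecialLinearGroup.toGL_injective h)
      have hin : i ≤ n := by
        rw [hi]
        exact H99.Blk.orderOf_le_of_dvd_card hr' hrq n hcardSL
      have hlt : i < orderOf ((Fintype.card F₀ : ℕ) : ZMod r) := by
        rw [hF₀', hi, hordF, orderOf_pow' _ hk.ne_zero, Nat.gcd_eq_right hki]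
        exact Nat.div_lt_self hi₀pos hk.one_lt
      let e : (Fin i ⊕ Fin (n - i)) ≃ Fin n := finSumFinEquiv.trans (finCongr (by omega))
      obtain ⟨P, Y, c, h1, h2, h3⟩ := bad H (H99.Blk.emb e Cc) (by
        rw [H99.Blk.emb_det]; exact H99.Blk.det_eq_one_of_pow hr' hdvd Cc hCr) 1
        (by rw [one_smul, H99.Blk.emb_pow, hCr, H99.Blk.emb_one]) (H99.NoForm.emb_ne_scalar' e hGirr hGdeg hi2 hCG)
      exact H99.Sub2.block_bad hr' hrq hdvd F₀ hrq₀' hin hi2 hlt hGirr hGmon hGdeg hCG hCr e h1 h2 h3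
    · -- diagonal elements
      have hord : orderOf ((q₀ : ℕ) : ZMod r) = k := by
        have h1 : ((q₀ : ℕ) : ZMod r) ^ k = 1 := by
          rw [← hordF]
          have h2 := (ZMod.natCast_eq_zero_iff _ r).2 hdvd
          rw [Nat.cast_sub Fintype.one_lt_card.le, Nat.cast_one, sub_eq_zero] at h2
          exact h2
        exact Nat.dvd_antisymm (orderOf_dvd_of_pow_eq_one h1) hki
      obtain ⟨ω, hω⟩ := H99.Elts.exists_root (F := F) r hr'.pos hdvd
      have hω0 : ω ≠ 0 := hω.ne_zero hr'.ne_zero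
      have hωr : ω ^ r = 1 := hω.pow_eq_one
      have hω1 : ω ≠ 1 := by have := hω.pow_ne_one_of_pos_of_lt (l := 1) (by norm_num) hr'.one_lt; simpa using this
      by_cases hk2 : k = 2
      swap
      · -- odd degree
        obtain ⟨P, Y, c, h1, h2, h3⟩ := bad H (Matrix.diagonal (H99.Sub3.d2 n ω)) (by
          rw [Matrix.det_diagonal, H99.Sub3.prod_d2 hω0 hn]) 1 (by
          rw [one_smul, Matrix.diagonal_pow, ← Matrix.diagonal_one]
          congr 1
          funext j
          simp only [Pi.pow_apply, H99.Sub3.d2]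
          split_ifs
          · exact hωr
          · rw [inv_pow, hωr, inv_one]
          · exact one_pow _) (H99.Elts.diagonal_ne_scalar _ ⟨0, by omega⟩ ⟨1, by omega⟩ (by
          show ω ≠ ω⁻¹
          intro h
          have h4 : ω ^ 2 = 1 := by rw [pow_two]; nth_rewrite 1 [h]; exact inv_mul_cancel₀ hω0
          exact hω.pow_ne_one_of_pos_of_lt (by norm_num) (by omega) h4))
        obtain ⟨l, σ, hl, hσ⟩ := H99.Sub2.diag_conj F₀ h1 h2 h3
        rw [hF₀'] at hσ
        exact H99.Sub3.d2_bad hr' hk hk2 hord hn hω l σ hl hσ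
      subst hk2
      -- quadratic extensions
      have hrq1 : r ∣ q₀ + 1 := by
        have h1 : ((q₀ : ℕ) : ZMod r) ^ 2 = 1 := by rw [← hord]; exact pow_orderOf_eq_one _
        rcases sq_eq_one_iff.1 h1 with h2 | h2
        · rw [h2, orderOf_one] at hord; omega
        · rw [← ZMod.natCast_eq_zero_iff]
          push_cast
          rw [h2]; ring
      have hq1 : Fintype.card F - 1 = (q₀ - 1) * (q₀ + 1) := by
        obtain ⟨b, rfl⟩ : ∃ b, q₀ = b + 1 := ⟨q₀ - 1, by omega⟩
        rw [hqF]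
        simp only [Nat.add_sub_cancel]
        have : (b + 1) ^ 2 = b * (b + 1 + 1) + 1 := by ring
        rw [this, Nat.add_sub_cancel]
      have hsq : padicValNat r (q₀ + 1) ≠ 1 → r ^ 2 ∣ q₀ + 1 := by
        intro h
        rw [padicValNat_dvd_iff_le (by omega)]
        have : padicValNat r (q₀ + 1) ≠ 0 := by
          have := one_le_padicValNat_of_dvd (by omega) hrq1
          omega
        omega
      have hfr : ∀ (m : ℕ) (ζ : F), m ∣ q₀ + 1 → ζ ^ m = 1 → ζ ^ (Fintype.card F₀ + 1) = 1 := by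
        intro m ζ hm hζ
        obtain ⟨t, ht⟩ := hm
        rw [hF₀', ht, pow_mul, hζ, one_pow]
      have hfin : ∀ (D : Fin n → F) (z : F), (Matrix.diagonal D).det = 1 → (Matrix.diagonal D) ^ r = z • (1 : Matrix (Fin n) (Fin n) F) →
          (∀ z : F, Matrix.diagonal D ≠ z • (1 : Matrix (Fin n) (Fin n) F)) → (∀ i, D i ^ (Fintype.card F₀ + 1) = 1) →
          H99.NoForm.NF (RingHom.id F) (Matrix.diagonal D) → False := by
        intro D z h1 h2 h3 h4 h5
        obtain ⟨P, Y, c, g1, g2, g3⟩ := bad H (Matrix.diagonal D) h1 z h2 h3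
        exact H99.Sub2.nf_bad hnpos F₀ h4 h5 g1 g2 g3
      have hd3 : ∀ (a b c : F), a ^ (Fintype.card F₀ + 1) = 1 → b ^ (Fintype.card F₀ + 1) = 1 → c ^ (Fintype.card F₀ + 1) = 1 →
          ∀ i, H99.Elts.d3 n a b c i ^ (Fintype.card F₀ + 1) = 1 := by
        intro a b c ha hb hc i
        rw [H99.Elts.d3]
        split_ifs
        · exact ha
        · exact hb
        · exact hc
        · exact one_pow _
      have hinv : ∀ a : F, a ^ (Fintype.card F₀ + 1) = 1 → ((a ^ 2)⁻¹) ^ (Fintype.card F₀ + 1) = 1 := by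
        intro a ha
        rw [inv_pow, ← pow_mul, mul_comm, pow_mul, ha, one_pow, inv_one]
      rcases (by omega : n = 2 ∨ 3 ≤ n) with hn2 | hn3
      · subst hn2
        exact H99.Sub3.index_two hr' hr2 F₀ q₀ hF₀ hqF hrq1 hΩ
      by_cases hr3' : r = 3
      · subst hr3'
        by_cases hn3' : n = 3
        · subst hn3'
          have h9 : 3 ^ 2 ∣ q₀ + 1 := hsq (hcon rfl rfl (Or.inl rfl))
          have h9' : 9 ∣ Fintype.card F - 1 := by rw [hq1]; exact h9.mul_left _
          obtain ⟨ζ, hζ⟩ := H99.Elts.exists_root (F := F) 9 (by norm_num) h9'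
          have hζ0 : ζ ≠ 0 := hζ.ne_zero (by norm_num)
          have hζ9 : ζ ^ 9 = 1 := hζ.pow_eq_one
          have hζ3 : ζ ^ 3 ≠ 1 := hζ.pow_ne_one_of_pos_of_lt (by norm_num) (by norm_num)
          have hζn := hfr 9 ζ h9 hζ9
          refine hfin (H99.Elts.d3 3 ζ ζ (ζ ^ 2)⁻¹) (ζ ^ 3) ?_ ?_ ?_ (hd3 _ _ _ hζn hζn (hinv _ hζn)) (H99.NoForm.nf_nine _ hζ rfl)
          · rw [H99.Elts.det_d3 (by omega)]; field_simp
          · rw [Matrix.diagonal_pow, Matrix.smul_one_eq_diagonal]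
            congr 1
            funext j
            have e1 : ((ζ ^ 2)⁻¹) ^ 3 = ζ ^ 3 := by
              rw [inv_pow, inv_eq_iff_eq_inv]
              apply eq_inv_of_mul_eq_one_left
              calc (ζ ^ 2) ^ 3 * ζ ^ 3 = ζ ^ 9 := by ring
                _ = 1 := hζ9
            simp only [Pi.pow_apply]
            rcases H99.NoForm.vals3 ζ (ζ ^ 2)⁻¹ j with ⟨-, h⟩ | ⟨-, h⟩ | ⟨h, -⟩
            · rw [h]
            · rw [h, e1]
            · omega
          · refine H99.Elts.diagonal_ne_scalar _ ⟨0, by omega⟩ ⟨2, by omega⟩ ?_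
            intro h
            have h' : ζ = (ζ ^ 2)⁻¹ := h
            apply hζ3
            calc ζ ^ 3 = ζ * ζ ^ 2 := by ring
              _ = (ζ ^ 2)⁻¹ * ζ ^ 2 := by rw [← h']
              _ = 1 := inv_mul_cancel₀ (pow_ne_zero _ hζ0)
        · have hωn := hfr 3 ω hrq1 hωr
          refine hfin (H99.Elts.d3 n ω ω ω) 1 ?_
            (by rw [one_smul]; exact H99.Elts.d3_pow _ _ _ _ hωr hωr hωr) ?_ (hd3 _ _ _ hωn hωn hωn)
            (H99.NoForm.nf_three _ (by omega) (fun h => hgap ⟨h, rfl⟩) hω rfl)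
          · rw [H99.Elts.det_d3 (by omega)]; linear_combination hωr
          · exact H99.Elts.diagonal_ne_scalar _ ⟨0, by omega⟩ ⟨3, by omega⟩ (by simpa [H99.Elts.d3] using hω1)
      · have hr5 : 5 ≤ r := by
          have h1 := hr'.two_le
          by_contra h
          have h4 : r = 4 := by omega
          rw [h4] at hr'
          exact absurd hr' (by norm_num)
        by_cases hn5 : n = 5 ∧ r = 5
        · obtain ⟨rfl, rfl⟩ := hn5
          have h9 : 5 ^ 2 ∣ q₀ + 1 := hsq (hcon rfl rfl (Or.inr rfl))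
          have h9' : 25 ∣ Fintype.card F - 1 := by rw [hq1]; exact h9.mul_left _
          obtain ⟨ζ, hζ⟩ := H99.Elts.exists_root (F := F) 25 (by norm_num) h9'
          have hζ0 : ζ ≠ 0 := hζ.ne_zero (by norm_num)
          have hζ9 : ζ ^ 25 = 1 := hζ.pow_eq_one
          have hζ3 : ζ ^ 5 ≠ 1 := hζ.pow_ne_one_of_pos_of_lt (by norm_num) (by norm_num)
          have hζn := hfr 25 ζ h9 hζ9
          refine hfin (H99.NoForm.d5 ζ) (ζ ^ 5) ?_ ?_ ?_ ?_ (H99.NoForm.nf_25 _ hζ rfl)
          · rw [Matrix.det_diagonal, Fin.prod_univ_five]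
            show ζ * (ζ ^ 5)⁻¹ * ζ * ζ * ζ * ζ = 1
            field_simp
          · rw [Matrix.diagonal_pow, Matrix.smul_one_eq_diagonal]
            congr 1
            funext j
            simp only [Pi.pow_apply, H99.NoForm.d5]
            by_cases hj : j = 0
            · rw [if_pos hj, mul_pow, inv_pow, ← pow_mul, hζ9, inv_one, mul_one]
            · rw [if_neg hj]
          · refine H99.Elts.diagonal_ne_scalar _ 0 1 ?_
            intro h
            have h' : ζ * (ζ ^ 5)⁻¹ = ζ := h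
            have h3 : (ζ ^ 5)⁻¹ = 1 := (mul_eq_left₀ hζ0).1 h'
            exact hζ3 (inv_eq_one.1 h3)
          · intro i
            rw [H99.NoForm.d5]
            split_ifs
            · rw [mul_pow, inv_pow, ← pow_mul, mul_comm 5, pow_mul, hζn, one_pow, inv_one, mul_one]
            · exact hζn
        · have hωn := hfr r ω hrq1 hωr
          refine hfin (H99.Elts.d3 n ω ω (ω ^ 2)⁻¹) 1 ?_ ?_ ?_ (hd3 _ _ _ hωn hωn (hinv _ hωn))
            (H99.NoForm.nf_five _ hn3 hr5 hr' hn5 hω rfl)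
          · rw [H99.Elts.det_d3 (by omega)]
            field_simp
          · rw [one_smul]
            exact H99.Elts.d3_pow _ _ _ _ hωr hωr (by rw [inv_pow, ← pow_mul, mul_comm, pow_mul, hωr, one_pow, inv_one])
          · refine H99.Elts.diagonal_ne_scalar _ ⟨0, by omega⟩ ⟨2, by omega⟩ ?_
            intro h
            have h' : ω = (ω ^ 2)⁻¹ := h
            have h3 : ω ^ 3 = 1 := by
              calc ω ^ 3 = ω * ω ^ 2 := by ring
                _ = (ω ^ 2)⁻¹ * ω ^ 2 := by rw [← h']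
                _ = 1 := inv_mul_cancel₀ (pow_ne_zero _ hω0)
            exact hω.pow_ne_one_of_pos_of_lt (by norm_num) (by omega) h3
  · rintro hcond x ⟨z, hz⟩ -
    rw [Matrix.SpecialLinearGroup.coe_pow] at hz
    have hzne := hz0 x z hz
    rcases hcond with hrk | ⟨hk2, hrn, hn35, hv⟩
    · -- r = k
      subst hrk
      have hqq : ((Fintype.card F : ℕ) : ZMod r) = ((q₀ : ℕ) : ZMod r) := by
        rw [hordF, ZMod.pow_card]
      obtain ⟨w, hw0, hw⟩ := H99.Sub2.exists_root hr' hrodd hnpos x hzne hz (by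
        intro h
        rw [hq] at h ⊢
        apply hgapk rfl
        have h2 := (ZMod.natCast_eq_zero_iff _ r).2 h
        rw [Nat.cast_sub (by rw [← hq]; exact Fintype.one_lt_card.le), Nat.cast_one, sub_eq_zero, ← hq, hqq] at h2
        rw [← ZMod.natCast_eq_zero_iff, Nat.cast_sub hq₀1.le, h2]; simp)
      exact H99.Sub1.good hnpos hr' hrq F₀ hrq₀' (by rw [hF₀', hqq]) x hw0 (by rw [hw]; exact hz)
    · subst hk2
      subst hrn
      have hrq1 : r ∣ q₀ + 1 := by
        by_contra h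
        rw [padicValNat.eq_zero_of_not_dvd h] at hv
        exact zero_ne_one hv
      have hq1 : Fintype.card F - 1 = (q₀ - 1) * (q₀ + 1) := by
        obtain ⟨b, rfl⟩ : ∃ b, q₀ = b + 1 := ⟨q₀ - 1, by omega⟩
        rw [hqF]
        simp only [Nat.add_sub_cancel]
        have : (b + 1) ^ 2 = b * (b + 1 + 1) + 1 := by ring
        rw [this, Nat.add_sub_cancel]
      have hnd : ¬ r ∣ q₀ - 1 := by
        intro h
        have h2 : r ∣ 2 := by
          have := Nat.dvd_sub hrq1 h
          have h4 : q₀ + 1 - (q₀ - 1) = 2 := by omega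
          rwa [h4] at this
        exact hr2 ((Nat.prime_dvd_prime_iff_eq hr' Nat.prime_two).1 h2)
      have hvF : padicValNat r (Fintype.card F - 1) = 1 := by
        rw [hq1, padicValNat.mul (by omega) (by omega), padicValNat.eq_zero_of_not_dvd hnd, zero_add, hv]
      exact exc hn35 F₀ (by rw [hF₀']; exact hqF) (by rw [hF₀']; exact hrq1) hvF hrF x z hz

end Cfsg.Agent.S5965
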