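import Cfsg.Statements.S5966
import Cfsg.Agent.Lib.H99.Subfield
import Cfsg.Agent.Lib.H99.PowNegOne
import Cfsg.Agent.Lib.H99.Cyclic

set_option autoImplicit false
set_option linter.unusedSimpArgs false
open scoped MatrixGroups
open Cfsg

namespace Cfsg.Agent.S5966


open Matrix in
theorem isSquare_of_mem {F : Type*} [Field F] [Fintype F] (hodd : Odd (Fintype.card F)) (F₀ : Subfield F) (q₀ : ℕ)
    (hF₀ : Nat.card F₀ = q₀) (hq : Fintype.card F = q₀ ^ 2) (a : F₀) : IsSquare (a : F) := by
  classical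
  by_cases ha : a = 0
  · rw [ha]; exact ⟨0, by simp⟩
  have hfin : Fintype F₀ := Fintype.ofFinite F₀
  have ha' : (a : F) ≠ 0 := by
    intro h; apply ha; exact Subtype.ext h
  have h2c : ringChar F ≠ 2 := by
    intro h'
    have := FiniteField.even_card_iff_char_two.1 h'
    rcases hodd with ⟨k, hk⟩
    omega
  rw [FiniteField.isSquare_iff h2c ha']
  have hq0 : Odd q₀ := by
    rw [hq] at hodd
    exact (Nat.odd_pow_iff (by norm_num)).1 hodd
  have e : Fintype.card F / 2 = (q₀ - 1) * ((q₀ + 1) / 2) := by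
    obtain ⟨t, rfl⟩ := hq0
    rw [hq]
    have e1 : (2 * t + 1 - 1) = 2 * t := by omega
    have e2 : (2 * t + 1 + 1) / 2 = t + 1 := by omega
    rw [e1, e2]
    have e3 : (2 * t + 1) ^ 2 = 2 * (2 * t * (t + 1)) + 1 := by ring
    omega
  rw [e, pow_mul]
  have h1 : a ^ (q₀ - 1) = 1 := by
    have := FiniteField.pow_card_sub_one_eq_one a ha
    rwa [← Nat.card_eq_fintype_card, hF₀] at this
  have h2 : (a : F) ^ (q₀ - 1) = 1 := by
    have := congrArg (fun t : F₀ => (t : F)) h1
    simpa using this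
  rw [h2, one_pow]

open Matrix in
theorem exists_adjust {F : Type*} [Field F] [Fintype F] (hodd : Odd (Fintype.card F)) (F₀ : Subfield F) (q₀ k : ℕ) (hk : Odd k)
    (hF₀ : Nat.card F₀ = q₀) (hq : Fintype.card F = q₀ ^ k) (a : F) (ha : a ≠ 0) :
    ∃ (e : F₀) (c : F), e ≠ 0 ∧ c ^ 2 * (e : F) = a := by
  classical
  have hfin : Fintype F₀ := Fintype.ofFinite F₀
  have h2c : ringChar F ≠ 2 := by
    intro h'
    have := FiniteField.even_card_iff_char_two.1 h'
    rcases hodd with ⟨k, hk⟩
    omega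
  have hq0 : Odd q₀ := by
    rw [hq] at hodd
    exact (Nat.odd_pow_iff (by rintro rfl; simp at hk)).1 hodd
  have h2c' : ringChar F₀ ≠ 2 := by
    intro h'
    have := FiniteField.even_card_iff_char_two.1 h'
    rw [← Nat.card_eq_fintype_card, hF₀] at this
    rcases hq0 with ⟨k, hk⟩
    omega
  by_cases hs : IsSquare a
  · obtain ⟨c, hc⟩ := hs
    exact ⟨1, c, one_ne_zero, by rw [hc]; push_cast; ring⟩
  obtain ⟨e, he⟩ := FiniteField.exists_nonsquare h2c'
  have he0 : e ≠ 0 := by rintro rfl; exact he ⟨0, by simp⟩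
  have he0' : (e : F) ≠ 0 := fun h => he0 (Subtype.ext h)
  have h1 : e ^ (q₀ / 2) = -1 := by
    have := FiniteField.pow_dichotomy h2c' he0
    rw [← Nat.card_eq_fintype_card, hF₀] at this
    rcases this with h | h
    · exfalso; apply he
      rw [FiniteField.isSquare_iff h2c' he0, ← Nat.card_eq_fintype_card, hF₀]; exact h
    · exact h
  have h1' : (e : F) ^ (q₀ / 2) = -1 := by
    have := congrArg (fun t : F₀ => (t : F)) h1
    simpa using this
  have h2 : Fintype.card F / 2 = (q₀ / 2) * ∑ j ∈ Finset.range k, q₀ ^ j := by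
    have hg := geom_sum_mul_of_one_le (show 1 ≤ q₀ from hq0.pos) k
    rw [← hq] at hg
    obtain ⟨t, ht⟩ := hq0
    have e1 : q₀ - 1 = 2 * (q₀ / 2) := by omega
    rw [e1] at hg
    have e2 : Fintype.card F - 1 = 2 * (Fintype.card F / 2) := by
      obtain ⟨t, ht⟩ := hodd
      omega
    rw [e2] at hg
    have e3 : 2 * (Fintype.card F / 2) = 2 * ((q₀ / 2) * ∑ j ∈ Finset.range k, q₀ ^ j) := by
      rw [← hg]; ring
    omega
  have h3 : (e : F) ^ (Fintype.card F / 2) = -1 := by
    rw [h2, pow_mul, h1']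
    apply Odd.neg_one_pow
    rw [Finset.odd_sum_iff_odd_card_odd]
    have : (Finset.range k).filter (fun j => Odd (q₀ ^ j)) = Finset.range k :=
      Finset.filter_true_of_mem (fun j _ => hq0.pow)
    rw [this, Finset.card_range]
    exact hk
  have h4 : a ^ (Fintype.card F / 2) = -1 := by
    rcases FiniteField.pow_dichotomy h2c ha with h | h
    · exact absurd ((FiniteField.isSquare_iff h2c ha).2 h) hs
    · exact h
  have h5 : IsSquare (a / e) := by
    rw [FiniteField.isSquare_iff h2c (div_ne_zero ha he0'), div_pow, h3, h4]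
    norm_num
  obtain ⟨c, hc⟩ := h5
  refine ⟨e, c, he0, ?_⟩
  rw [pow_two, ← hc, div_mul_cancel₀ _ he0']

open Matrix in
theorem cube_bij {F : Type*} [Field F] [Finite F] [CharP F 3] : Function.Bijective (fun a : F => a ^ 3) := by
  have : Fact (Nat.Prime 3) := ⟨by norm_num⟩
  have : ExpChar F 3 := ExpChar.prime (by norm_num)
  exact bijective_frobenius F 3

open Matrix in
theorem bwd {F : Type*} [Field F] [Fintype F] [CharP F 3] {n : ℕ} (hn : 2 ≤ n) (F₀ : Subfield F) (q₀ k : ℕ)
    (hk : k.Prime) (hF₀ : Nat.card F₀ = q₀) (hq : Fintype.card F = q₀ ^ k)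
    (h : Odd n ∨ (Even n ∧ 2 < k))
    (x : Matrix.SpecialLinearGroup (Fin n) F) (z : F)
    (hx : ((x ^ 3 : Matrix.SpecialLinearGroup (Fin n) F) : Matrix (Fin n) (Fin n) F) = z • (1 : Matrix (Fin n) (Fin n) F)) :
    ∃ P : Matrix.SpecialLinearGroup (Fin n) F, P⁻¹ * x * P ∈ ((Cfsg.Geo.subfieldSubgroup F₀ 1).comap
      (Matrix.SpecialLinearGroup.toGL : Matrix.SpecialLinearGroup (Fin n) F →* GL (Fin n) F)) := by
  classical
  have h3p : Fact (Nat.Prime 3) := ⟨by norm_num⟩
  have hodd : Odd (Fintype.card F) := by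
    rw [← Nat.not_even_iff_odd, Nat.even_iff]
    intro h
    have h1 := FiniteField.even_card_iff_char_two.2 h
    have h2 := ringChar.eq F 3
    omega
  have : Nonempty (Fin n) := ⟨⟨0, by omega⟩⟩
  obtain ⟨μ, hμ⟩ := (cube_bij (F := F)).2 z
  simp only at hμ
  set X := (x : Matrix (Fin n) (Fin n) F) with hXdef
  have hX : X ^ 3 = z • (1 : Matrix (Fin n) (Fin n) F) := by
    rw [← hx, hXdef, Matrix.SpecialLinearGroup.coe_pow]
  have hz : z ≠ 0 := by
    rintro rfl
    have := congrArg Matrix.det hX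
    rw [Matrix.det_pow, zero_smul, Matrix.det_zero, x.2] at this
    norm_num at this
  have hμ0 : μ ≠ 0 := by rintro rfl; apply hz; rw [← hμ]; ring
  have hch : CharP (Matrix (Fin n) (Fin n) F) 3 := inferInstance
  set N := μ⁻¹ • X - 1 with hNdef
  have hN : N ^ 3 = 0 := by
    rw [hNdef, sub_pow_char_of_commute 3 (Commute.one_right _), smul_pow, hX, smul_smul, inv_pow, hμ,
      inv_mul_cancel₀ hz, one_smul, one_pow, sub_self]
  obtain ⟨m, d, e, R, hd, hR, hNR⟩ := H99.Cyclic.exists_jordan_matrix N 3 hN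
  have hcard : ∑ i, d i = n := by
    have := Fintype.card_congr e
    rw [Fintype.card_sigma, Fintype.card_fin] at this
    simpa using this
  have hm : 0 < m := by
    rcases Nat.eq_zero_or_pos m with rfl | hm
    · simp at hcard; omega
    · exact hm
  -- choose block and adjustments
  obtain ⟨i0, c, e0, he0, hce⟩ : ∃ (i0 : Fin m) (c : F) (e0 : F₀), e0 ≠ 0 ∧ c ^ (d i0) * (e0 : F) = (R.det)⁻¹ := by
    by_cases hex : ∃ i, Odd (d i)
    · obtain ⟨i, hi⟩ := hex
      have h1 := hd i
      have : d i = 1 ∨ d i = 3 := by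
        obtain ⟨t, ht⟩ := hi
        omega
      rcases this with h2 | h2
      · exact ⟨i, (R.det)⁻¹, 1, one_ne_zero, by rw [h2]; push_cast; ring⟩
      · obtain ⟨c, hc⟩ := (cube_bij (F := F)).2 (R.det)⁻¹
        exact ⟨i, c, 1, one_ne_zero, by rw [h2]; simp only at hc; rw [hc]; push_cast; ring⟩
    · push Not at hex
      have hall : ∀ i, d i = 2 := by
        intro i
        have h1 := hd i
        obtain ⟨t, ht⟩ := Nat.not_odd_iff_even.1 (hex i)
        omega
      have hev : Even n := by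
        rw [← hcard, Finset.sum_congr rfl (fun i _ => hall i)]
        simp
      have hk2 : 2 < k := by
        rcases h with h | h
        · exact absurd hev (Nat.not_even_iff_odd.2 h)
        · exact h.2
      have hkodd : Odd k := hk.odd_of_ne_two (by omega)
      obtain ⟨e0, c, he0, hce⟩ := exists_adjust hodd F₀ q₀ k hkodd hF₀ hq (R.det)⁻¹ (inv_ne_zero hR)
      exact ⟨⟨0, hm⟩, c, e0, he0, by rw [hall]; exact hce⟩
  set J : Matrix (Σ i : Fin m, Fin (d i)) (Σ i : Fin m, Fin (d i)) F := Matrix.blockDiagonal' (fun i => H99.Cyclic.jb (d i) F) with hJ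
  set J0 : Matrix (Σ i : Fin m, Fin (d i)) (Σ i : Fin m, Fin (d i)) F₀ := Matrix.blockDiagonal' (fun i => H99.Cyclic.jb (d i) F₀) with hJ0
  have hJJ0 : J0.map (F₀.subtype : F₀ →+* F) = J := by
    ext ⟨i, a⟩ ⟨i', b⟩
    rw [Matrix.map_apply, hJ0, hJ, Matrix.blockDiagonal'_apply, Matrix.blockDiagonal'_apply]
    split_ifs with h1
    · simp only at h1
      subst h1
      simp only [cast_eq, H99.Cyclic.jb]
      split_ifs <;> simp
    · simp
  set C : Matrix (Σ i : Fin m, Fin (d i)) (Σ i : Fin m, Fin (d i)) F :=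
    Matrix.diagonal (fun x => if x.1 = i0 then c else 1) with hC
  have hCdet : C.det = c ^ (d i0) := by
    rw [hC, Matrix.det_diagonal, Fintype.prod_sigma, Finset.prod_eq_single i0]
    · simp
    · intro i _ hi
      refine Finset.prod_eq_one fun j _ => ?_
      rw [if_neg hi]
    · intro h; exact absurd (Finset.mem_univ _) h
  have hCJ : J * C = C * J := by
    ext x y
    rw [hC, Matrix.mul_diagonal, Matrix.diagonal_mul, hJ]
    obtain ⟨i, a⟩ := x
    obtain ⟨i', b⟩ := y
    rw [Matrix.blockDiagonal'_apply]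
    split_ifs with h1 h2 h3 h3
    · ring
    · exact absurd (h1.trans h2) h3
    · exact absurd (h1.symm.trans h3) h2
    · ring
    · ring
    · ring
    · ring
    · ring
  set H : Matrix (Fin n) (Fin n) F₀ := Matrix.diagonal (fun i => if i = ⟨0, by omega⟩ then e0 else 1) with hH
  have hHdet : H.det = e0 := by
    rw [hH, Matrix.det_diagonal, Finset.prod_ite_eq' Finset.univ _ (fun _ => e0)]
    simp
  set C' := Matrix.reindex e e C with hC'
  set J' := Matrix.reindex e e J with hJ'
  have hCJ' : J' * C' = C' * J' := by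
    rw [hJ', hC', Matrix.reindex_apply, Matrix.reindex_apply, Matrix.submatrix_mul_equiv, Matrix.submatrix_mul_equiv, hCJ]
  set Hm := H.map (F₀.subtype : F₀ →+* F) with hHm
  have hHmdet : Hm.det = e0 := by
    rw [hHm]
    have := RingHom.map_det (F₀.subtype : F₀ →+* F) H
    rw [hHdet] at this
    rw [RingHom.mapMatrix_apply] at this
    rw [← this]; rfl
  set H' := (H⁻¹).map (F₀.subtype : F₀ →+* F) with hH'
  have hHH : H * H⁻¹ = 1 := Matrix.mul_nonsing_inv _ (by rw [hHdet]; exact isUnit_iff_ne_zero.2 he0)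
  have hHH' : Hm * H' = 1 := by
    rw [hHm, hH', ← Matrix.map_mul, hHH, Matrix.map_one]
    · simp
    · simp
  set Rr : Matrix (Fin n) (Fin n) F := R * C' * Hm with hRr
  have hRrdet : Rr.det = 1 := by
    rw [hRr, Matrix.det_mul, Matrix.det_mul, hC', Matrix.det_reindex_self, hCdet, hHmdet, mul_assoc, hce,
      mul_inv_cancel₀ hR]
  -- the matrix over F₀
  set Y0 : Matrix (Fin n) (Fin n) F₀ := H⁻¹ * (1 + Matrix.reindex e e J0) * H with hY0
  have hY0m : Y0.map (F₀.subtype : F₀ →+* F) = H' * (1 + J') * Hm := by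
    rw [hY0, Matrix.map_mul, Matrix.map_mul, ← hHm, ← hH']
    congr 2
    rw [hJ', ← hJJ0]
    ext i j
    simp only [Matrix.map_apply, Matrix.add_apply, Matrix.reindex_apply, Matrix.submatrix_apply, map_add]
    congr 1
    rw [Matrix.one_apply, Matrix.one_apply]
    split_ifs <;> simp
  have hkey : X * Rr = Rr * (μ • Y0.map (F₀.subtype : F₀ →+* F)) := by
    have e1 : X = μ • (1 + N) := by
      rw [hNdef, add_sub_cancel, smul_smul, mul_inv_cancel₀ hμ0, one_smul]
    have e2 : (1 + N) * (R * C') = R * C' * (1 + J') := by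
      rw [Matrix.add_mul, Matrix.one_mul, Matrix.mul_add, Matrix.mul_one, ← Matrix.mul_assoc, hNR, Matrix.mul_assoc R, hCJ',
        ← Matrix.mul_assoc]
    rw [hY0m, e1, Matrix.smul_mul, Matrix.mul_smul, hRr]
    congr 1
    calc (1 + N) * (R * C' * Hm) = ((1 + N) * (R * C')) * Hm := by rw [← Matrix.mul_assoc]
      _ = R * C' * (1 + J') * Hm := by rw [e2]
      _ = R * C' * (Hm * H') * (1 + J') * Hm := by rw [hHH', Matrix.mul_one]
      _ = _ := by simp only [Matrix.mul_assoc]
  have hY0det : Y0.det ≠ 0 := by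
    intro h0
    have e1 : (Y0.map (F₀.subtype : F₀ →+* F)).det = 0 := by
      have := RingHom.map_det (F₀.subtype : F₀ →+* F) Y0
      rw [h0, map_zero] at this
      rw [RingHom.mapMatrix_apply] at this
      rw [← this]
    have := congrArg Matrix.det hkey
    rw [Matrix.det_mul X Rr, Matrix.det_mul Rr, hRrdet, hXdef, x.2, Matrix.det_smul, e1] at this
    norm_num at this
  let R'' : Matrix.SpecialLinearGroup (Fin n) F := ⟨Rr, hRrdet⟩
  have hR'' : (R'' : Matrix (Fin n) (Fin n) F) = Rr := rfl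
  refine ⟨R'', ?_⟩
  rw [Subgroup.mem_comap, H99.Subfield.mem_subfield]
  refine ⟨Matrix.GeneralLinearGroup.mkOfDetNeZero Y0 hY0det, Units.mk0 μ hμ0, ?_⟩
  rw [mul_assoc]
  show ((R''⁻¹ * (x * R'') : Matrix.SpecialLinearGroup (Fin n) F) : Matrix (Fin n) (Fin n) F) = μ • Y0.map (F₀.subtype : F₀ →+* F)
  rw [Matrix.SpecialLinearGroup.coe_mul, Matrix.SpecialLinearGroup.coe_mul, hR'', ← hXdef, hkey, ← Matrix.mul_assoc]
  have e3 : ((R''⁻¹ : Matrix.SpecialLinearGroup (Fin n) F) : Matrix (Fin n) (Fin n) F) * Rr = 1 := by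
    have := congrArg (fun g : Matrix.SpecialLinearGroup (Fin n) F => (g : Matrix (Fin n) (Fin n) F))
      (inv_mul_cancel R'')
    simpa only [Matrix.SpecialLinearGroup.coe_mul, Matrix.SpecialLinearGroup.coe_one] using this
  rw [e3, Matrix.one_mul]

open Matrix in
theorem det_comm_sq {F : Type*} [Field F] (s n : ℕ) (e : ((Fin 2 × Fin s) ⊕ Fin 0) ≃ Fin n) (E : Matrix (Fin n) (Fin n) F)
    (hE : E * Matrix.reindex e e (H99.SqScalar.std s 0 0 0) = Matrix.reindex e e (H99.SqScalar.std s 0 0 0) * E) :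
    IsSquare E.det := by
  let h : (Fin s ⊕ Fin s) → ((Fin 2 × Fin s) ⊕ Fin 0) := Sum.elim (fun i => .inl (0, i)) (fun i => .inl (1, i))
  have hb : Function.Bijective h := by
    constructor
    · rintro (i | i) (j | j) hij <;> simp_all [h]
    · rintro (⟨a, i⟩ | i)
      · fin_cases a
        · exact ⟨.inl i, rfl⟩
        · exact ⟨.inr i, rfl⟩
      · exact i.elim0
  let h' := (Equiv.ofBijective h hb).trans e
  set E' := E.submatrix h' h' with hE'
  set S' := (Matrix.reindex e e (H99.SqScalar.std s 0 (0 : F) 0)).submatrix h' h' with hS'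
  have h1 : E' * S' = S' * E' := by
    rw [hE', hS', Matrix.submatrix_mul_equiv, Matrix.submatrix_mul_equiv, hE]
  have h2 : S' = Matrix.fromBlocks 0 0 1 0 := by
    have e0 : ∀ i, e.symm (h' i) = h i := by
      intro i
      show e.symm (e (h i)) = h i
      rw [Equiv.symm_apply_apply]
    ext i j
    rw [hS', Matrix.submatrix_apply, Matrix.reindex_apply, Matrix.submatrix_apply, e0, e0]
    rcases i with i | i <;> rcases j with j | j
    · simp [h, H99.SqScalar.std, Matrix.blockDiagonal_apply]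
    · simp [h, H99.SqScalar.std, Matrix.blockDiagonal_apply]
    · simp [h, H99.SqScalar.std, Matrix.blockDiagonal_apply, Matrix.one_apply]
    · simp [h, H99.SqScalar.std, Matrix.blockDiagonal_apply]
  have h3 : E.det = E'.det := by
    rw [hE', Matrix.det_submatrix_equiv_self]
  rw [h3]
  have h4 : E' = Matrix.fromBlocks E'.toBlocks₁₁ E'.toBlocks₁₂ E'.toBlocks₂₁ E'.toBlocks₂₂ := (Matrix.fromBlocks_toBlocks E').symm
  rw [h4, h2, Matrix.fromBlocks_multiply, Matrix.fromBlocks_multiply] at h1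
  simp only [Matrix.mul_zero, Matrix.mul_one, Matrix.zero_mul, Matrix.one_mul, zero_add, add_zero] at h1
  obtain ⟨h5, h6, h7, h8⟩ := Matrix.fromBlocks_inj.1 h1
  rw [h4, h5, h7, Matrix.det_fromBlocks_zero₁₂]
  exact ⟨_, rfl⟩

open Matrix in
theorem fwd {F : Type*} [Field F] [Fintype F] [CharP F 3] {n : ℕ} (hn : 2 ≤ n) (F₀ : Subfield F) (q₀ : ℕ)
    (hF₀ : Nat.card F₀ = q₀) (hq : Fintype.card F = q₀ ^ 2) (hev : Even n) :
    ∃ (x : Matrix.SpecialLinearGroup (Fin n) F) (z : F),
      ((x ^ 3 : Matrix.SpecialLinearGroup (Fin n) F) : Matrix (Fin n) (Fin n) F) = z • (1 : Matrix (Fin n) (Fin n) F) ∧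
      (∀ z : F, (x : Matrix (Fin n) (Fin n) F) ≠ z • (1 : Matrix (Fin n) (Fin n) F)) ∧
      ∀ P : Matrix.SpecialLinearGroup (Fin n) F, P⁻¹ * x * P ∉ ((Cfsg.Geo.subfieldSubgroup F₀ 1).comap
        (Matrix.SpecialLinearGroup.toGL : Matrix.SpecialLinearGroup (Fin n) F →* GL (Fin n) F)) := by
  classical
  have h3p : Fact (Nat.Prime 3) := ⟨by norm_num⟩
  have h2c : ringChar F ≠ 2 := by
    intro h
    have h2 := ringChar.eq F 3
    omega
  have hodd : Odd (Fintype.card F) := by
    rw [← Nat.not_even_iff_odd, Nat.even_iff]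
    intro h
    exact h2c (FiniteField.even_card_iff_char_two.2 h)
  obtain ⟨w, hw⟩ := FiniteField.exists_nonsquare h2c
  have hw0 : w ≠ 0 := by rintro rfl; exact hw ⟨0, by simp⟩
  obtain ⟨s, hs⟩ := hev
  have hns : n = 2 * s := by omega
  have hs0 : 0 < s := by omega
  have : Nonempty (Fin n) := ⟨⟨0, by omega⟩⟩
  have hch : CharP (Matrix (Fin n) (Fin n) F) 3 := inferInstance
  have hcard : Fintype.card ((Fin 2 × Fin s) ⊕ Fin 0) = Fintype.card (Fin n) := by simp [hns]
  let e : ((Fin 2 × Fin s) ⊕ Fin 0) ≃ Fin n := Fintype.equivOfCardEq hcard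
  set S : Matrix (Fin n) (Fin n) F := Matrix.reindex e e (H99.SqScalar.std s 0 0 0) with hS
  have hstd : H99.SqScalar.std s 0 (0 : F) 0 * H99.SqScalar.std s 0 0 0 = 0 := by
    rw [H99.SqScalar.std, Matrix.fromBlocks_multiply, ← Matrix.blockDiagonal_mul]
    ext i j
    rcases i with ⟨a, i'⟩ | i' <;> rcases j with ⟨b, j'⟩ | j'
    · simp only [Matrix.fromBlocks_apply₁₁, Matrix.add_apply, Matrix.blockDiagonal_apply, Matrix.smul_apply,
        Matrix.one_apply, Sum.inl.injEq, Prod.mk.injEq]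
      by_cases h : i' = j'
      · subst h
        fin_cases a <;> fin_cases b <;> simp [Matrix.mul_apply, Fin.sum_univ_two]
      · simp [h]
    · exact j'.elim0
    · exact i'.elim0
    · exact i'.elim0
  have hSS : S * S = 0 := by
    rw [hS, Matrix.reindex_apply, Matrix.submatrix_mul_equiv, hstd]
    rfl
  -- the complementing matrix
  obtain ⟨C, hC⟩ : ∃ C : Matrix (Fin n) (Fin n) F, S * C + C * S = 1 := by
    let C0 : Matrix ((Fin 2 × Fin s) ⊕ Fin 0) ((Fin 2 × Fin s) ⊕ Fin 0) F :=
      Matrix.fromBlocks (Matrix.blockDiagonal fun _ : Fin s => !![0, 1; 0, 0]) 0 0 0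
    have h0 : H99.SqScalar.std s 0 (0 : F) 0 * C0 + C0 * H99.SqScalar.std s 0 (0 : F) 0 = 1 := by
      simp only [C0, H99.SqScalar.std]
      rw [Matrix.fromBlocks_multiply, Matrix.fromBlocks_multiply, ← Matrix.blockDiagonal_mul, ← Matrix.blockDiagonal_mul,
        Matrix.fromBlocks_add]
      ext i j
      rcases i with ⟨a, i'⟩ | i' <;> rcases j with ⟨b, j'⟩ | j'
      · simp only [Matrix.fromBlocks_apply₁₁, Matrix.add_apply, Matrix.blockDiagonal_apply, Matrix.smul_apply,
          Matrix.one_apply, Sum.inl.injEq, Prod.mk.injEq]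
        by_cases h : i' = j'
        · subst h
          fin_cases a <;> fin_cases b <;> simp [Matrix.mul_apply, Fin.sum_univ_two]
        · simp [h]
      · exact j'.elim0
      · exact i'.elim0
      · exact i'.elim0
    refine ⟨Matrix.reindex e e C0, ?_⟩
    rw [hS, Matrix.reindex_apply, Matrix.reindex_apply, Matrix.submatrix_mul_equiv, Matrix.submatrix_mul_equiv]
    have h1 : (H99.SqScalar.std s 0 (0 : F) 0 * C0).submatrix e.symm e.symm +
      (C0 * H99.SqScalar.std s 0 (0 : F) 0).submatrix e.symm e.symm =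
      (H99.SqScalar.std s 0 (0 : F) 0 * C0 + C0 * H99.SqScalar.std s 0 (0 : F) 0).submatrix e.symm e.symm := rfl
    rw [h1, h0, Matrix.submatrix_one_equiv]
  set D : Matrix (Fin n) (Fin n) F := Matrix.diagonal (fun i => if i = ⟨0, by omega⟩ then w else 1) with hD
  have hDdet : D.det = w := by
    rw [hD, Matrix.det_diagonal, Finset.prod_ite_eq' Finset.univ _ (fun _ => w)]
    simp
  have hDu : IsUnit D.det := by rw [hDdet]; exact isUnit_iff_ne_zero.2 hw0
  have hDD : D * D⁻¹ = 1 := Matrix.mul_nonsing_inv _ hDu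
  have hDD' : D⁻¹ * D = 1 := Matrix.nonsing_inv_mul _ hDu
  set X : Matrix (Fin n) (Fin n) F := D * (1 + S) * D⁻¹ with hX
  have h1S : (1 + S) ^ 3 = 1 := by
    rw [add_pow_char_of_commute 3 (Commute.one_left _), one_pow, pow_succ, pow_two, hSS, Matrix.zero_mul, add_zero]
  have hX3 : X ^ 3 = 1 := by
    have e1 : X ^ 3 = D * (1 + S) ^ 3 * D⁻¹ := by
      have : ∀ A : Matrix (Fin n) (Fin n) F, D * (A * D⁻¹ * D) = D * A := fun A => by
        rw [Matrix.mul_assoc A, hDD', Matrix.mul_one]
      calc X ^ 3 = D * (1 + S) * D⁻¹ * (D * (1 + S) * D⁻¹) * (D * (1 + S) * D⁻¹) := by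
            rw [hX, pow_succ, pow_two]
        _ = D * (1 + S) * (D⁻¹ * D) * (1 + S) * (D⁻¹ * D) * (1 + S) * D⁻¹ := by simp only [Matrix.mul_assoc]
        _ = _ := by rw [hDD']; simp only [Matrix.mul_one, Matrix.mul_assoc, pow_succ, pow_zero, Matrix.one_mul]
    rw [e1, h1S, Matrix.mul_one, hDD]
  have hdet : X.det = 1 := by
    have e1 := congrArg Matrix.det hX3
    rw [Matrix.det_pow, Matrix.det_one] at e1
    apply (cube_bij (F := F)).1
    simp only [one_pow]
    exact e1
  let x' : Matrix.SpecialLinearGroup (Fin n) F := ⟨X, hdet⟩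
  refine ⟨x', 1, ?_, ?_, ?_⟩
  · rw [Matrix.SpecialLinearGroup.coe_pow, one_smul]
    exact hX3
  · intro c hc
    have hc' : X = c • (1 : Matrix (Fin n) (Fin n) F) := hc
    have e1 : 1 + S = c • (1 : Matrix (Fin n) (Fin n) F) := by
      calc 1 + S = D⁻¹ * X * D := by
            rw [hX]
            calc 1 + S = (D⁻¹ * D) * (1 + S) * (D⁻¹ * D) := by rw [hDD', Matrix.one_mul, Matrix.mul_one]
              _ = _ := by simp only [Matrix.mul_assoc]
        _ = _ := by rw [hc', Matrix.mul_smul, Matrix.mul_one, Matrix.smul_mul, hDD']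
    have h1 : S (e (.inl (1, ⟨0, hs0⟩))) (e (.inl (0, ⟨0, hs0⟩))) = 1 := by
      show (Matrix.reindex e e _) _ _ = 1
      rw [Matrix.reindex_apply, Matrix.submatrix_apply, Equiv.symm_apply_apply, Equiv.symm_apply_apply]
      simp [H99.SqScalar.std, Matrix.blockDiagonal_apply]
    have h2 := congrFun (congrFun e1 (e (.inl (1, ⟨0, hs0⟩)))) (e (.inl (0, ⟨0, hs0⟩)))
    rw [Matrix.add_apply, h1, Matrix.smul_apply, Matrix.one_apply_ne (by simp), smul_zero, zero_add] at h2
    exact one_ne_zero h2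
  · intro P hP
    rw [Subgroup.mem_comap, H99.Subfield.mem_subfield] at hP
    obtain ⟨g0, c, hg⟩ := hP
    set Pm := (P : Matrix (Fin n) (Fin n) F) with hPm
    set Pi' := ((P⁻¹ : Matrix.SpecialLinearGroup (Fin n) F) : Matrix (Fin n) (Fin n) F) with hPi'
    have hPP : Pm * Pi' = 1 := by
      rw [hPm, hPi', ← Matrix.SpecialLinearGroup.coe_mul, mul_inv_cancel, Matrix.SpecialLinearGroup.coe_one]
    have hPP' : Pi' * Pm = 1 := by
      rw [hPm, hPi', ← Matrix.SpecialLinearGroup.coe_mul, inv_mul_cancel, Matrix.SpecialLinearGroup.coe_one]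
    have hg' : Pi' * X * Pm = (c : F) • (g0 : Matrix (Fin n) (Fin n) F₀).map (F₀.subtype : F₀ →+* F) := by
      rw [← hg]
      show _ = ((P⁻¹ * x' * P : Matrix.SpecialLinearGroup (Fin n) F) : Matrix (Fin n) (Fin n) F)
      rw [Matrix.SpecialLinearGroup.coe_mul, Matrix.SpecialLinearGroup.coe_mul]
    set G := (g0 : Matrix (Fin n) (Fin n) F₀) with hG
    have hcube : (c : F) ^ 3 • (G ^ 3).map (F₀.subtype : F₀ →+* F) = 1 := by
      have e1 : (Pi' * X * Pm) ^ 3 = 1 := by
        calc (Pi' * X * Pm) ^ 3 = Pi' * X * (Pm * Pi') * X * (Pm * Pi') * X * Pm := by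
              rw [pow_succ, pow_two]; simp only [Matrix.mul_assoc]
          _ = Pi' * X ^ 3 * Pm := by rw [hPP]; simp only [Matrix.mul_one, Matrix.mul_assoc, pow_succ, pow_zero, Matrix.one_mul]
          _ = 1 := by rw [hX3, Matrix.mul_one, hPP']
      have e2 : (G ^ 3).map (F₀.subtype : F₀ →+* F) = (G.map (F₀.subtype : F₀ →+* F)) ^ 3 := by
        have := map_pow (RingHom.mapMatrix (F₀.subtype : F₀ →+* F) (m := Fin n)) G 3
        exact this
      rw [hg', smul_pow] at e1
      rw [e2, e1]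
    let i0 : Fin n := ⟨0, by omega⟩
    have e4 := congrFun (congrFun hcube i0) i0
    rw [Matrix.smul_apply, Matrix.map_apply, Matrix.one_apply_eq, smul_eq_mul] at e4
    obtain ⟨b, hb⟩ := (cube_bij (F := F₀)).2 ((G ^ 3) i0 i0)
    simp only at hb
    rw [← hb] at e4
    have e5 : (c : F) * (b : F) = 1 := by
      apply (cube_bij (F := F)).1
      simp only [one_pow]
      rw [mul_pow, ← e4]; rfl
    have hb0 : b ≠ 0 := by
      rintro rfl
      norm_num at e5
    set G' := b⁻¹ • G with hG'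
    have hGG' : Pi' * X * Pm = G'.map (F₀.subtype : F₀ →+* F) := by
      rw [hg']
      ext i j
      rw [Matrix.smul_apply, Matrix.map_apply, Matrix.map_apply, hG', Matrix.smul_apply, smul_eq_mul, smul_eq_mul, map_mul,
        map_inv₀]
      congr 1
      exact eq_inv_of_mul_eq_one_left e5
    set N0 := G' - 1 with hN0
    have hQ : Pi' * (D * S * D⁻¹) * Pm = N0.map (F₀.subtype : F₀ →+* F) := by
      have e1 : N0.map (F₀.subtype : F₀ →+* F) = G'.map (F₀.subtype : F₀ →+* F) - 1 := by
        rw [hN0, Matrix.map_sub _ (by simp), Matrix.map_one _ (by simp) (by simp)]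
      have e2 : D * S * D⁻¹ = X - 1 := by
        rw [hX, Matrix.mul_add, Matrix.add_mul, Matrix.mul_one, hDD, add_sub_cancel_left]
      rw [e1, ← hGG', e2, Matrix.mul_sub, Matrix.sub_mul, Matrix.mul_one, hPP']
    have hN0sq : N0 * N0 = (0 : F₀) • 1 := by
      rw [zero_smul]
      have e1 : (N0 * N0).map (F₀.subtype : F₀ →+* F) = 0 := by
        rw [Matrix.map_mul, ← hQ]
        calc Pi' * (D * S * D⁻¹) * Pm * (Pi' * (D * S * D⁻¹) * Pm)
            = Pi' * D * S * (D⁻¹ * (Pm * Pi') * D) * S * D⁻¹ * Pm := by simp only [Matrix.mul_assoc]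
          _ = Pi' * D * (S * S) * D⁻¹ * Pm := by rw [hPP, Matrix.mul_one, hDD', Matrix.mul_one]; simp only [Matrix.mul_assoc]
          _ = 0 := by rw [hSS]; simp
      ext i j
      have := congrFun (congrFun e1 i) j
      simpa using this
    obtain ⟨s', m', μ', g1, g2, g3, g4, g5⟩ := H99.SqScalar.exists_std_matrix N0 0 hN0sq
    have hcard' : Fintype.card ((Fin 2 × Fin s') ⊕ Fin m') = Fintype.card (Fin n) := by
      rw [← g1]; simp
    have hm' : m' = 0 := by
      by_contra hm'
      have hm'' : 0 < m' := Nat.pos_of_ne_zero hm'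
      have hμ' : μ' = 0 := pow_eq_zero_iff (by norm_num) |>.1 (g2 hm'')
      let e' : ((Fin 2 × Fin s') ⊕ Fin m') ≃ Fin n := Fintype.equivOfCardEq hcard'
      obtain ⟨P0, hP0, hNP0⟩ := g5 e'
      set P1 := P0.map (F₀.subtype : F₀ →+* F) with hP1
      set P2 := (P0⁻¹).map (F₀.subtype : F₀ →+* F) with hP2
      have hP12 : P2 * P1 = 1 := by
        rw [hP1, hP2, ← Matrix.map_mul, Matrix.nonsing_inv_mul _ (isUnit_iff_ne_zero.2 hP0), Matrix.map_one _ (by simp) (by simp)]
      have hP21 : P1 * P2 = 1 := by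
        rw [hP1, hP2, ← Matrix.map_mul, Matrix.mul_nonsing_inv _ (isUnit_iff_ne_zero.2 hP0), Matrix.map_one _ (by simp) (by simp)]
      set S0 := (Matrix.reindex e' e' (H99.SqScalar.std s' m' 0 μ')).map (F₀.subtype : F₀ →+* F) with hS0
      have hMP : N0.map (F₀.subtype : F₀ →+* F) * P1 = P1 * S0 := by
        rw [hP1, hS0, ← Matrix.map_mul, hNP0, Matrix.map_mul]
      -- conjugate C
      have e1 : S0 = P2 * (Pi' * D) * S * (D⁻¹ * Pm) * P1 := by
        calc S0 = P2 * (P1 * S0) := by rw [← Matrix.mul_assoc, hP12, Matrix.one_mul]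
          _ = P2 * (Pi' * (D * S * D⁻¹) * Pm * P1) := by rw [← hMP, ← hQ]
          _ = _ := by simp only [Matrix.mul_assoc]
      set A := P2 * (Pi' * D) with hA
      set B := (D⁻¹ * Pm) * P1 with hB
      have hAB : A * B = 1 := by
        calc A * B = P2 * (Pi' * (D * D⁻¹) * Pm) * P1 := by rw [hA, hB]; simp only [Matrix.mul_assoc]
          _ = 1 := by rw [hDD, Matrix.mul_one, hPP', Matrix.mul_one, hP12]
      have hBA : B * A = 1 := mul_eq_one_comm.1 hAB
      have e2 : S0 = A * S * B := by rw [e1, hA, hB]; simp only [Matrix.mul_assoc]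
      have e3 : S0 * (A * C * B) + (A * C * B) * S0 = 1 := by
        rw [e2]
        calc A * S * B * (A * C * B) + A * C * B * (A * S * B)
            = A * S * (B * A) * C * B + A * C * (B * A) * S * B := by simp only [Matrix.mul_assoc]
          _ = A * (S * C + C * S) * B := by
            rw [hBA]; simp only [Matrix.mul_one, Matrix.mul_add, Matrix.add_mul, Matrix.mul_assoc]
          _ = 1 := by rw [hC, Matrix.mul_one, hAB]
      let k0 : Fin n := e' (.inr ⟨0, hm''⟩)
      have hrow : ∀ j, S0 k0 j = 0 := by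
        intro j
        rw [hS0, Matrix.map_apply, Matrix.reindex_apply, Matrix.submatrix_apply, Equiv.symm_apply_apply]
        rcases e'.symm j with j' | j'
        · simp [H99.SqScalar.std]
        · simp [H99.SqScalar.std, hμ', Matrix.diagonal_apply]
      have hcol : ∀ j, S0 j k0 = 0 := by
        intro j
        rw [hS0, Matrix.map_apply, Matrix.reindex_apply, Matrix.submatrix_apply, Equiv.symm_apply_apply]
        rcases e'.symm j with j' | j'
        · simp [H99.SqScalar.std]
        · simp [H99.SqScalar.std, hμ', Matrix.diagonal_apply]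
      have e6 := congrFun (congrFun e3 k0) k0
      rw [Matrix.add_apply, Matrix.mul_apply, Matrix.mul_apply, Matrix.one_apply_eq] at e6
      simp only [hrow, hcol, zero_mul, mul_zero, Finset.sum_const_zero, add_zero] at e6
      exact zero_ne_one e6
    subst hm'
    have hss : s' = s := by
      rw [Fintype.card_fin] at g1; omega
    subst hss
    obtain ⟨P0, hP0, hNP0⟩ := g5 e
    set P1 := P0.map (F₀.subtype : F₀ →+* F) with hP1
    have hMP : N0.map (F₀.subtype : F₀ →+* F) * P1 = P1 * S := by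
      have e0 : S = (Matrix.reindex e e (H99.SqScalar.std s' 0 0 μ')).map (F₀.subtype : F₀ →+* F) := by
        ext i j
        rw [hS, Matrix.map_apply, Matrix.reindex_apply, Matrix.submatrix_apply, Matrix.reindex_apply, Matrix.submatrix_apply]
        generalize e.symm i = i'
        generalize e.symm j = j'
        rcases i' with ⟨a, i'⟩ | i' <;> rcases j' with ⟨b, j'⟩ | j'
        · simp only [H99.SqScalar.std, Matrix.fromBlocks_apply₁₁, Matrix.blockDiagonal_apply]
          split_ifs with h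
          · fin_cases a <;> fin_cases b <;> simp
          · simp
        · exact j'.elim0
        · exact i'.elim0
        · exact i'.elim0
      rw [hP1, e0, ← Matrix.map_mul, hNP0, Matrix.map_mul]
    have hE : (D⁻¹ * Pm * P1) * S = S * (D⁻¹ * Pm * P1) := by
      calc (D⁻¹ * Pm * P1) * S = D⁻¹ * Pm * (P1 * S) := by rw [Matrix.mul_assoc (D⁻¹ * Pm)]
        _ = D⁻¹ * Pm * (Pi' * (D * S * D⁻¹) * Pm * P1) := by rw [← hMP, hQ]
        _ = D⁻¹ * (Pm * Pi') * D * S * D⁻¹ * Pm * P1 := by simp only [Matrix.mul_assoc]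
        _ = _ := by rw [hPP, Matrix.mul_one, hDD', Matrix.one_mul]; simp only [Matrix.mul_assoc]
    have hsq := det_comm_sq s' n e _ hE
    rw [Matrix.det_mul, Matrix.det_mul, hPm, P.2, mul_one, Matrix.det_nonsing_inv, hDdet] at hsq
    have hP1det : P1.det = (P0.det : F) := by
      have := RingHom.map_det (F₀.subtype : F₀ →+* F) P0
      rw [RingHom.mapMatrix_apply] at this
      rw [hP1, ← this]; rfl
    have hP1sq : IsSquare P1.det := by
      rw [hP1det]; exact isSquare_of_mem hodd F₀ q₀ hF₀ hq _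
    have hP1ne : P1.det ≠ 0 := by
      rw [hP1det]
      intro h
      exact hP0 (Subtype.ext h)
    apply hw
    have h1 : w = ((Ring.inverse w * P1.det) * (P1.det)⁻¹)⁻¹ := by
      rw [mul_assoc, mul_inv_cancel₀ hP1ne, mul_one, Ring.inverse_eq_inv, inv_inv]
    rw [h1]
    exact (hsq.mul hP1sq.inv).inv

/-- Elements of order 3 of PSL_n(q) in characteristic 3 and subfield subgroups. Here `T = PSL_n(F)` for a field `F` with `q` elements, `q` a power of 3 (`n ≥ 2`, `(n, q) ≠ (2, 2), (2, 3)`), `F₀` is the subfield with `q₀` elements where `q = q₀^k` for a prime `k`, and `H` is the subgroup of matrices of determinant 1 lying in the subfield group of `F₀` (invertible matrices over `F₀` times scalars) — a maximal subgroup of type GL_n(q₀) (the case `n = 2`, `q₀ = 2` is excluded); Ω is the set of `T`-conjugates of `H` (cosets of `H`), so an element of `T` of prime order `r` (a matrix `x` of determinant 1 with `x^r` scalar, `x` not scalar) fixes a point of Ω when some conjugate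 of `x` by a matrix of determinant 1 lies in `H`. Suppose 3 divides the index of `H`. Then every element of `T` of order 3 is conjugate in `T` into `H` if and only if `n` is odd, or `n` is even and `k > 2`. -/
theorem result {F : Type*} [Field F] [Fintype F] [CharP F 3] {q : ℕ} (hq : Fintype.card F = q)
    (n : ℕ) (hn : 2 ≤ n) (hT : (n, q) ≠ (2, 3))
    (F₀ : Subfield F) (k q₀ : ℕ) (hk : k.Prime) (hF₀ : Nat.card ↥F₀ = q₀) (hqk : q = q₀ ^ k) (hC5 : ¬ (n = 2 ∧ q₀ = 2)) (hΩ : 3 ∣ ((Cfsg.Geo.subfieldSubgroup F₀ 1).comap (Matrix.SpecialLinearGroup.toGL : Matrix.SpecialLinearGroup (Fin n) F →* GL (Fin n) F)).index) :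
    (∀ x : Matrix.SpecialLinearGroup (Fin n) F,
      (∃ z : F, ((x ^ 3 : Matrix.SpecialLinearGroup (Fin n) F) : Matrix (Fin n) (Fin n) F) = z • (1 : Matrix (Fin n) (Fin n) F)) →
      (∀ z : F, (x : Matrix (Fin n) (Fin n) F) ≠ z • (1 : Matrix (Fin n) (Fin n) F)) →
      ∃ P : Matrix.SpecialLinearGroup (Fin n) F, P⁻¹ * x * P ∈ ((Cfsg.Geo.subfieldSubgroup F₀ 1).comap (Matrix.SpecialLinearGroup.toGL : Matrix.SpecialLinearGroup (Fin n) F →* GL (Fin n) F))) ↔
    (Odd n ∨ (Even n ∧ 2 < k)) := by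
  subst hq
  constructor
  · intro H
    by_contra hcon
    push Not at hcon
    have hev : Even n := Nat.not_odd_iff_even.1 hcon.1
    have hk2 : k = 2 := le_antisymm (hcon.2 hev) hk.two_le
    subst hk2
    obtain ⟨x, z, h1, h2, h3⟩ := fwd hn F₀ q₀ hF₀ hqk hev
    obtain ⟨P, hP⟩ := H x ⟨z, h1⟩ h2
    exact h3 P hP
  · rintro H x ⟨z, hz⟩ _
    exact bwd hn F₀ q₀ k hk hF₀ hqk H x z hz

end Cfsg.Agent.S5966
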