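import Cfsg.Statements.S5967
import Cfsg.Agent.Lib.H99.Frame
import Cfsg.Agent.Lib.H99.Diag
import Cfsg.Agent.Lib.H99.PowNegOne

set_option autoImplicit false
set_option linter.unusedSimpArgs false
open scoped MatrixGroups
open Cfsg

namespace Cfsg.Agent.S5967


open Matrix in
/-- equivalence of index sets putting pairs of scalar coordinates into planes -/
def tau (s m' : ℕ) : ((Fin 2 × Fin s) ⊕ Fin (2 * m')) ≃ (Fin 2 × (Fin s ⊕ Fin m')) :=
  (Equiv.sumCongr (Equiv.refl _) finProdFinEquiv.symm).trans (Equiv.prodSumDistrib _ _ _).symm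

open Matrix in
theorem tau_std {F : Type*} [Field F] (s m' : ℕ) (z μ : F) :
    Matrix.reindex (tau s m') (tau s m') (H99.SqScalar.std s (2 * m') z μ) =
      Matrix.blockDiagonal (Sum.elim (fun _ => !![0, z; 1, 0]) (fun _ => !![μ, 0; 0, μ])) := by
  rw [← Equiv.eq_symm_apply]
  ext x y
  simp only [Matrix.reindex_symm, Matrix.reindex_apply, Equiv.symm_symm, Matrix.submatrix_apply, tau, H99.SqScalar.std,
    Matrix.blockDiagonal_apply]
  rcases x with ⟨a, i⟩ | x <;> rcases y with ⟨b, j⟩ | y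
  · simp [Matrix.blockDiagonal_apply]
  · simp
  · simp
  · simp only [Equiv.trans_apply, Equiv.sumCongr_apply, Sum.map_inr, Equiv.prodSumDistrib_symm_apply_right,
      Sum.inr.injEq, Sum.elim_inr, Matrix.fromBlocks_apply₂₂, Matrix.diagonal_apply]
    have h : x = y ↔ finProdFinEquiv.symm x = finProdFinEquiv.symm y := (Equiv.injective _).eq_iff.symm
    rw [Prod.ext_iff] at h
    generalize finProdFinEquiv.symm x = p at *
    generalize finProdFinEquiv.symm y = p' at *
    obtain ⟨a, i⟩ := p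
    obtain ⟨b, j⟩ := p'
    simp only at h
    by_cases hij : i = j
    · rw [if_pos hij]
      by_cases hab : a = b
      · rw [if_pos (h.2 ⟨hab, hij⟩)]
        subst hab
        fin_cases a <;> rfl
      · rw [if_neg (fun h' => hab (h.1 h').1)]
        fin_cases a <;> fin_cases b
        · exact absurd rfl hab
        · rfl
        · rfl
        · exact absurd rfl hab
    · rw [if_neg hij, if_neg (fun h' => hij (h.1 h').2)]

open Matrix in
def tau2 (k' m' : ℕ) : (Fin (2 * k') ⊕ Fin (2 * m')) ≃ (Fin 2 × (Fin k' ⊕ Fin m')) :=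
  (Equiv.sumCongr finProdFinEquiv.symm finProdFinEquiv.symm).trans (Equiv.prodSumDistrib _ _ _).symm

open Matrix in
theorem tau2_dg {F : Type*} [Field F] (k' m' : ℕ) (μ : F) :
    Matrix.reindex (tau2 k' m') (tau2 k' m') (H99.Diag.dg (2 * k') (2 * m') μ) =
      Matrix.blockDiagonal (Sum.elim (fun _ => !![-μ, 0; 0, -μ]) (fun _ => !![μ, 0; 0, μ])) := by
  rw [← Equiv.eq_symm_apply]
  ext x y
  simp only [Matrix.reindex_symm, Matrix.reindex_apply, Equiv.symm_symm, Matrix.submatrix_apply, tau2, H99.Diag.dg,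
    Matrix.blockDiagonal_apply, Matrix.diagonal_apply]
  rcases x with x | x <;> rcases y with y | y
  · simp only [Equiv.trans_apply, Equiv.sumCongr_apply, Sum.map_inl, Equiv.prodSumDistrib_symm_apply_left,
      Sum.inl.injEq, Sum.elim_inl]
    have h : x = y ↔ finProdFinEquiv.symm x = finProdFinEquiv.symm y := (Equiv.injective _).eq_iff.symm
    rw [Prod.ext_iff] at h
    generalize finProdFinEquiv.symm x = p at *
    generalize finProdFinEquiv.symm y = p' at *
    obtain ⟨a, i⟩ := p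
    obtain ⟨b, j⟩ := p'
    simp only at h
    by_cases hij : i = j
    · rw [if_pos hij]
      by_cases hab : a = b
      · rw [if_pos (h.2 ⟨hab, hij⟩)]
        subst hab
        fin_cases a <;> rfl
      · rw [if_neg (fun h' => hab (h.1 h').1)]
        fin_cases a <;> fin_cases b
        · exact absurd rfl hab
        · rfl
        · rfl
        · exact absurd rfl hab
    · rw [if_neg hij, if_neg (fun h' => hij (h.1 h').2)]
  · simp
  · simp
  · simp only [Equiv.trans_apply, Equiv.sumCongr_apply, Sum.map_inr, Equiv.prodSumDistrib_symm_apply_right,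
      Sum.inr.injEq, Sum.elim_inr]
    have h : x = y ↔ finProdFinEquiv.symm x = finProdFinEquiv.symm y := (Equiv.injective _).eq_iff.symm
    rw [Prod.ext_iff] at h
    generalize finProdFinEquiv.symm x = p at *
    generalize finProdFinEquiv.symm y = p' at *
    obtain ⟨a, i⟩ := p
    obtain ⟨b, j⟩ := p'
    simp only at h
    by_cases hij : i = j
    · rw [if_pos hij]
      by_cases hab : a = b
      · rw [if_pos (h.2 ⟨hab, hij⟩)]
        subst hab
        fin_cases a <;> rfl
      · rw [if_neg (fun h' => hab (h.1 h').1)]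
        fin_cases a <;> fin_cases b
        · exact absurd rfl hab
        · rfl
        · rfl
        · exact absurd rfl hab
    · rw [if_neg hij, if_neg (fun h' => hij (h.1 h').2)]

open Matrix in
theorem close {F : Type*} [Field F] [Fintype F] {n : ℕ} (hn : 4 ≤ n) (f : (Fin n → F) → (Fin n → F) → F)
    (x : Matrix.SpecialLinearGroup (Fin n) F) (z : F) (hz : z ≠ 0)
    (hX : (x : Matrix (Fin n) (Fin n) F) * (x : Matrix (Fin n) (Fin n) F) = z • (1 : Matrix (Fin n) (Fin n) F))
    (y R : Matrix (Fin n) (Fin n) F) (hR : R.det ≠ 0) (h : (x : Matrix (Fin n) (Fin n) F) * R = R * y)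
    (c : F) (hc : c ≠ 0) (hy : ∀ u v, f (y *ᵥ u) (y *ᵥ v) = c * f u v) :
    ∃ P : Matrix.SpecialLinearGroup (Fin n) F, P⁻¹ * x * P ∈ ((Cfsg.Geo.similarityGroup f).comap
      (Matrix.SpecialLinearGroup.toGL : Matrix.SpecialLinearGroup (Fin n) F →* GL (Fin n) F)) := by
  have : Nonempty (Fin n) := ⟨⟨0, by omega⟩⟩
  obtain ⟨R', hR', hxR'⟩ := H99.SqScalar.exists_det_one_conj _ y R z hz hX hR h
  let R'' : Matrix.SpecialLinearGroup (Fin n) F := ⟨R', hR'⟩
  have hR'' : (R'' : Matrix (Fin n) (Fin n) F) = R' := rfl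
  refine ⟨R'', ?_⟩
  rw [Subgroup.mem_comap]
  refine ⟨Units.mk0 c hc, fun u v => ?_⟩
  have e1 : ((Matrix.SpecialLinearGroup.toGL (R''⁻¹ * x * R'') : GL (Fin n) F) : Matrix (Fin n) (Fin n) F) = y := by
    rw [mul_assoc]
    show ((R''⁻¹ * (x * R'') : Matrix.SpecialLinearGroup (Fin n) F) : Matrix (Fin n) (Fin n) F) = y
    rw [Matrix.SpecialLinearGroup.coe_mul, Matrix.SpecialLinearGroup.coe_mul, hR'', hxR', ← Matrix.mul_assoc]
    have e3 : ((R''⁻¹ : Matrix.SpecialLinearGroup (Fin n) F) : Matrix (Fin n) (Fin n) F) * R' = 1 := by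
      have := congrArg (fun g : Matrix.SpecialLinearGroup (Fin n) F => (g : Matrix (Fin n) (Fin n) F))
        (inv_mul_cancel R'')
      simpa only [Matrix.SpecialLinearGroup.coe_mul, Matrix.SpecialLinearGroup.coe_one] using this
    rw [e3, Matrix.one_mul]
  rw [e1]
  exact hy u v

open Matrix in
theorem close_block {F : Type*} [Field F] [Fintype F] {n : ℕ} (hn : 4 ≤ n) (f : (Fin n → F) → (Fin n → F) → F)
    (hf : Cfsg.Geo.IsSymplecticForm f)
    (x : Matrix.SpecialLinearGroup (Fin n) F) (z : F) (hz : z ≠ 0)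
    (hX : (x : Matrix (Fin n) (Fin n) F) * (x : Matrix (Fin n) (Fin n) F) = z • (1 : Matrix (Fin n) (Fin n) F))
    {ι : Type} [Fintype ι] [DecidableEq ι] (e : (Fin 2 × ι) ≃ Fin n)
    (A : ι → Matrix (Fin 2) (Fin 2) F) (c : F) (hc : c ≠ 0) (hA : ∀ i, (A i).det = c)
    (P : Matrix (Fin n) (Fin n) F) (hP : P.det ≠ 0)
    (hxP : (x : Matrix (Fin n) (Fin n) F) * P = P * Matrix.reindex e e (Matrix.blockDiagonal A)) :
    ∃ P : Matrix.SpecialLinearGroup (Fin n) F, P⁻¹ * x * P ∈ ((Cfsg.Geo.similarityGroup f).comap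
      (Matrix.SpecialLinearGroup.toGL : Matrix.SpecialLinearGroup (Fin n) F →* GL (Fin n) F)) := by
  obtain ⟨Q, hQ⟩ := H99.Frame.exists_simil f hf e
  refine close hn f x z hz hX _ (P * ((Q⁻¹ : GL (Fin n) F) : Matrix (Fin n) (Fin n) F)) ?_ ?_ c hc (hQ A c hA)
  · rw [Matrix.det_mul]
    refine mul_ne_zero hP ?_
    intro h
    have h1 : ((Q⁻¹ : GL (Fin n) F) : Matrix (Fin n) (Fin n) F).det * (Q : Matrix (Fin n) (Fin n) F).det = 1 := by
      rw [← Matrix.det_mul, ← Units.val_mul, inv_mul_cancel, Units.val_one, Matrix.det_one]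
    rw [h, zero_mul] at h1
    exact zero_ne_one h1
  · rw [← Matrix.mul_assoc, hxP]
    have h2 : ((Q⁻¹ : GL (Fin n) F) : Matrix (Fin n) (Fin n) F) * (Q : Matrix (Fin n) (Fin n) F) = 1 := by
      rw [← Units.val_mul, inv_mul_cancel, Units.val_one]
    have h3 : P * ((Q⁻¹ : GL (Fin n) F) : Matrix (Fin n) (Fin n) F) * ((Q : Matrix (Fin n) (Fin n) F) *
        Matrix.reindex e e (Matrix.blockDiagonal A) * ((Q⁻¹ : GL (Fin n) F) : Matrix (Fin n) (Fin n) F)) =
        P * (((Q⁻¹ : GL (Fin n) F) : Matrix (Fin n) (Fin n) F) * (Q : Matrix (Fin n) (Fin n) F)) *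
        Matrix.reindex e e (Matrix.blockDiagonal A) * ((Q⁻¹ : GL (Fin n) F) : Matrix (Fin n) (Fin n) F) := by
      simp only [Matrix.mul_assoc]
    rw [h3, h2, Matrix.mul_one]

open Matrix in
theorem fwd {F : Type*} [Field F] [Fintype F] {q : ℕ} (hq : Fintype.card F = q)
    (n : ℕ) (hn : 4 ≤ n) (he : Even n) (f : (Fin n → F) → (Fin n → F) → F) (hf : Cfsg.Geo.IsSymplecticForm f)
    (H : ∀ x : Matrix.SpecialLinearGroup (Fin n) F,
      (∃ z : F, ((x ^ 2 : Matrix.SpecialLinearGroup (Fin n) F) : Matrix (Fin n) (Fin n) F) = z • (1 : Matrix (Fin n) (Fin n) F)) →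
      (∀ z : F, (x : Matrix (Fin n) (Fin n) F) ≠ z • (1 : Matrix (Fin n) (Fin n) F)) →
      ∃ P : Matrix.SpecialLinearGroup (Fin n) F, P⁻¹ * x * P ∈ ((Cfsg.Geo.similarityGroup f).comap (Matrix.SpecialLinearGroup.toGL : Matrix.SpecialLinearGroup (Fin n) F →* GL (Fin n) F))) :
    padicValNat 2 (q - 1) ≤ padicValNat 2 n := by
  classical
  by_contra hlt
  push Not at hlt
  have hodd : Odd (Fintype.card F) := by
    rw [← Nat.not_even_iff_odd]
    intro he
    rw [hq] at he
    have : ¬ 2 ∣ q - 1 := by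
      obtain ⟨k, hk⟩ := he
      have := Fintype.card_pos (α := F)
      omega
    rw [padicValNat.eq_zero_of_not_dvd this] at hlt
    omega
  have h2 : (2 : F) ≠ 0 := H99.PowNegOne.two_ne_zero_of_neg_one_ne_one (H99.PowNegOne.neg_one_ne_one hodd)
  obtain ⟨μ, hμ⟩ := H99.PowNegOne.exists_pow_eq_neg_one hodd n (by omega) (by rw [hq]; exact hlt)
  have hμ0 : μ ≠ 0 := by
    rintro rfl
    rw [zero_pow (by omega)] at hμ
    exact one_ne_zero (α := F) (by linear_combination hμ)
  set i0 : Fin n := ⟨0, by omega⟩ with hi0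
  set D : Matrix (Fin n) (Fin n) F := Matrix.diagonal (fun i => if i = i0 then -μ else μ) with hD
  have hdet : D.det = 1 := by
    rw [hD, Matrix.det_diagonal]
    have h3 : ∀ i : Fin n, (if i = i0 then -μ else μ) = μ * (if i = i0 then -1 else 1) := by
      intro i; by_cases h : i = i0 <;> simp [h]
    rw [Finset.prod_congr rfl (fun i _ => h3 i), Finset.prod_mul_distrib, Finset.prod_ite_eq']
    simp [hμ]
  let D' : Matrix.SpecialLinearGroup (Fin n) F := ⟨D, hdet⟩
  have hD' : (D' : Matrix (Fin n) (Fin n) F) = D := rfl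
  obtain ⟨P, hP⟩ := H D' ⟨μ * μ, by
      rw [Matrix.SpecialLinearGroup.coe_pow, hD']
      rw [hD, sq, Matrix.diagonal_mul_diagonal, Matrix.smul_one_eq_diagonal]
      congr 1
      funext i
      by_cases h : i = i0 <;> simp [h]⟩ (by
      intro w hw
      have hw' : D = w • (1 : Matrix (Fin n) (Fin n) F) := hw
      have e1 := congrFun (congrFun hw' i0) i0
      have e2 := congrFun (congrFun hw' ⟨1, by omega⟩) ⟨1, by omega⟩
      simp [hD, hi0] at e1 e2
      rw [← e1] at e2
      apply h2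
      have h3 : (2 : F) * μ = 0 := by linear_combination e2
      rcases mul_eq_zero.1 h3 with h | h
      · exact h
      · exact absurd h hμ0)
  rw [Subgroup.mem_comap] at hP
  obtain ⟨c, hc⟩ := hP
  -- the transported form
  set Pm : Matrix (Fin n) (Fin n) F := (P : Matrix (Fin n) (Fin n) F) with hPm
  set Pv : Matrix (Fin n) (Fin n) F := ((P⁻¹ : Matrix.SpecialLinearGroup (Fin n) F) : Matrix (Fin n) (Fin n) F) with hPv
  have hPP : Pm * Pv = 1 := by
    have := congrArg (fun g : Matrix.SpecialLinearGroup (Fin n) F => (g : Matrix (Fin n) (Fin n) F)) (mul_inv_cancel P)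
    simpa only [Matrix.SpecialLinearGroup.coe_mul, Matrix.SpecialLinearGroup.coe_one] using this
  have hPP' : Pv * Pm = 1 := by
    have := congrArg (fun g : Matrix.SpecialLinearGroup (Fin n) F => (g : Matrix (Fin n) (Fin n) F)) (inv_mul_cancel P)
    simpa only [Matrix.SpecialLinearGroup.coe_mul, Matrix.SpecialLinearGroup.coe_one] using this
  have hc' : ∀ u v, f (Pv *ᵥ (D *ᵥ u)) (Pv *ᵥ (D *ᵥ v)) = (c : F) * f (Pv *ᵥ u) (Pv *ᵥ v) := by
    intro u v
    have h4 := hc (Pv *ᵥ u) (Pv *ᵥ v)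
    have h5 : ((Matrix.SpecialLinearGroup.toGL (P⁻¹ * D' * P) : GL (Fin n) F) :
        Matrix (Fin n) (Fin n) F) = Pv * D * Pm := rfl
    rw [h5] at h4
    simp only [Matrix.mulVec_mulVec] at h4 ⊢
    rw [Matrix.mul_assoc, hPP, Matrix.mul_one] at h4
    exact h4
  set g : (Fin n → F) → (Fin n → F) → F := fun u v => f (Pv *ᵥ u) (Pv *ᵥ v) with hg
  have hgb := hf.bilinear
  have hDe : D *ᵥ (Pi.single i0 1) = (-μ) • (Pi.single i0 1) := by
    rw [hD]; ext i
    rw [Matrix.mulVec_diagonal]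
    by_cases h : i = i0
    · subst h; simp
    · simp [h]
  have hDv : ∀ v : Fin n → F, v i0 = 0 → D *ᵥ v = μ • v := by
    intro v hv
    rw [hD]; ext i
    rw [Matrix.mulVec_diagonal]
    by_cases h : i = i0
    · subst h; simp [hv]
    · simp [h]
  have g1 : ∀ v : Fin n → F, v i0 = 0 → (-(μ * μ) - c) * g (Pi.single i0 1) v = 0 := by
    intro v hv
    have h6 := hc' (Pi.single i0 1) v
    rw [hDe, hDv v hv, Matrix.mulVec_smul, Matrix.mulVec_smul, hgb.smul_left, hgb.smul_right] at h6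
    simp only [hg]
    linear_combination h6
  have g2 : ∀ v w : Fin n → F, v i0 = 0 → w i0 = 0 → (μ * μ - c) * g v w = 0 := by
    intro v w hv hw
    have h6 := hc' v w
    rw [hDv v hv, hDv w hw, Matrix.mulVec_smul, Matrix.mulVec_smul, hgb.smul_left, hgb.smul_right] at h6
    simp only [hg]
    linear_combination h6
  have hgnd : ∀ v : Fin n → F, v ≠ 0 → ∃ w, g v w ≠ 0 := by
    intro v hv
    have : Pv *ᵥ v ≠ 0 := by
      intro h
      apply hv
      have := congrArg (fun w => Pm *ᵥ w) h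
      simpa [Matrix.mulVec_mulVec, hPP] using this
    obtain ⟨-, w, hw⟩ := hf.nondegenerate _ this
    refine ⟨Pm *ᵥ w, ?_⟩
    simp only [hg]
    rw [Matrix.mulVec_mulVec, hPP', Matrix.one_mulVec]
    exact hw
  have hgadd : ∀ u v w, g u (v + w) = g u v + g u w := by
    intro u v w; simp only [hg]; rw [Matrix.mulVec_add, hgb.add_right]
  have hgsmul : ∀ (a : F) u v, g u (a • v) = a * g u v := by
    intro a u v; simp only [hg]; rw [Matrix.mulVec_smul, hgb.smul_right]
  have hgadd' : ∀ u v w, g (v + w) u = g v u + g w u := by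
    intro u v w; simp only [hg]; rw [Matrix.mulVec_add, hgb.add_left]
  have hgsmul' : ∀ (a : F) u v, g (a • v) u = a * g v u := by
    intro a u v; simp only [hg]; rw [Matrix.mulVec_smul, hgb.smul_left]
  have hgalt : ∀ u, g u u = 0 := fun u => hf.alternating _
  have hdec : ∀ w : Fin n → F, ∃ v : Fin n → F, v i0 = 0 ∧ w = v + (w i0) • Pi.single i0 1 := by
    intro w
    refine ⟨w - (w i0) • Pi.single i0 1, by simp, by simp⟩
  have hcμ : (c : F) = -(μ * μ) := by
    obtain ⟨w, hw⟩ := hgnd (Pi.single i0 1) (by simp)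
    obtain ⟨v, hv, hwv⟩ := hdec w
    have h7 : g (Pi.single i0 1) v ≠ 0 := by
      intro h
      apply hw
      rw [hwv, hgadd, hgsmul, h, hgalt]; simp
    rcases mul_eq_zero.1 (g1 v hv) with h | h
    · linear_combination -h
    · exact absurd h h7
  have g3 : ∀ v w : Fin n → F, v i0 = 0 → w i0 = 0 → g v w = 0 := by
    intro v w hv hw
    rcases mul_eq_zero.1 (g2 v w hv hw) with h | h
    · exfalso
      rw [hcμ] at h
      have h8 : (2 : F) * (μ * μ) = 0 := by linear_combination h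
      rcases mul_eq_zero.1 h8 with h | h
      · exact h2 h
      · exact (mul_ne_zero hμ0 hμ0) h
    · exact h
  obtain ⟨v, hv0, hvi, hve⟩ : ∃ v : Fin n → F, v ≠ 0 ∧ v i0 = 0 ∧ g v (Pi.single i0 1) = 0 := by
    set i1 : Fin n := ⟨1, by omega⟩ with hi1
    set i2 : Fin n := ⟨2, by omega⟩ with hi2
    have h10 : i1 ≠ i0 := by simp [hi1, hi0]
    have h20 : i2 ≠ i0 := by simp [hi2, hi0]
    have h21 : i2 ≠ i1 := by simp [hi2, hi1]
    by_cases ha : g (Pi.single i1 1) (Pi.single i0 1) = 0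
    · exact ⟨Pi.single i1 1, by simp, by simp [h10.symm], ha⟩
    · refine ⟨g (Pi.single i2 1) (Pi.single i0 1) • Pi.single i1 1 + (- g (Pi.single i1 1) (Pi.single i0 1)) • Pi.single i2 1,
        ?_, by simp [h10.symm, h20.symm], ?_⟩
      · intro h
        have := congrFun h i2
        simp [h21] at this
        exact ha this
      · rw [hgadd', hgsmul', hgsmul']; ring
  obtain ⟨w, hw⟩ := hgnd v hv0
  apply hw
  obtain ⟨w', hw', hww'⟩ := hdec w
  rw [hww', hgadd, hgsmul, g3 v w' hvi hw', hve]; ring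

open Matrix in
theorem bwd {F : Type*} [Field F] [Fintype F] {q : ℕ} (hq : Fintype.card F = q)
    (n : ℕ) (hn : 4 ≤ n) (he : Even n) (f : (Fin n → F) → (Fin n → F) → F) (hf : Cfsg.Geo.IsSymplecticForm f)
    (hv : padicValNat 2 (q - 1) ≤ padicValNat 2 n)
    (x : Matrix.SpecialLinearGroup (Fin n) F)
    (hx1 : ∃ z : F, ((x ^ 2 : Matrix.SpecialLinearGroup (Fin n) F) : Matrix (Fin n) (Fin n) F) = z • (1 : Matrix (Fin n) (Fin n) F)) :
    ∃ P : Matrix.SpecialLinearGroup (Fin n) F, P⁻¹ * x * P ∈ ((Cfsg.Geo.similarityGroup f).comap (Matrix.SpecialLinearGroup.toGL : Matrix.SpecialLinearGroup (Fin n) F →* GL (Fin n) F)) := by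
  classical
  obtain ⟨z, hz⟩ := hx1
  set X : Matrix (Fin n) (Fin n) F := (x : Matrix (Fin n) (Fin n) F) with hXdef
  have hX : X * X = z • (1 : Matrix (Fin n) (Fin n) F) := by
    rw [Matrix.SpecialLinearGroup.coe_pow] at hz
    rw [← hz, sq]
  have hdX : X.det = 1 := x.2
  have hz0 : z ≠ 0 := by
    rintro rfl
    have h9 : Nonempty (Fin n) := ⟨⟨0, by omega⟩⟩
    have := congrArg Matrix.det hX
    rw [Matrix.det_mul, hdX, zero_smul, Matrix.det_zero] at this
    norm_num at this
  by_cases hstd : (Fintype.card F) % 2 = 0 ∨ ¬ IsSquare z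
  · obtain ⟨s, m, μ, h1, h2, h3, h4, h5⟩ := H99.SqScalar.exists_std_matrix X z hX
    rw [Fintype.card_fin] at h1
    obtain ⟨m', rfl⟩ : ∃ m', m = 2 * m' := by
      obtain ⟨k, hk⟩ := he
      exact ⟨k - s, by omega⟩
    have hμz : 0 < m' → μ * μ = -z := by
      intro hm'
      have h6 := h2 (by omega)
      rcases hstd with h | h
      · have h2c : ringChar F = 2 := FiniteField.even_card_iff_char_two.2 h
        have : CharP F 2 := by rw [← h2c]; exact ringChar.charP F
        rw [CharTwo.neg_eq, ← h6, sq]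
      · exact absurd ⟨μ, by rw [← h6, sq]⟩ h
    let e : (Fin 2 × (Fin s ⊕ Fin m')) ≃ Fin n := Fintype.equivFinOfCardEq (by
      simp; omega)
    obtain ⟨P, hP, hXP⟩ := h5 ((tau s m').trans e)
    refine close_block hn f hf x z hz0 hX e
      (Sum.elim (fun _ => !![0, z; 1, 0]) (fun _ => !![μ, 0; 0, μ])) (-z) (neg_ne_zero.2 hz0) ?_ P hP ?_
    · rintro (i | i)
      · simp [Matrix.det_fin_two]
      · have : 0 < m' := i.pos
        simp [Matrix.det_fin_two, hμz this]
    · rw [← tau_std]; exact hXP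
  · push Not at hstd
    obtain ⟨hodd', μ, hμ⟩ := hstd
    have hodd : Odd (Fintype.card F) := Nat.odd_iff.2 (by omega)
    have h2 : (2 : F) ≠ 0 := H99.PowNegOne.two_ne_zero_of_neg_one_ne_one (H99.PowNegOne.neg_one_ne_one hodd)
    have hμ0 : μ ≠ 0 := by rintro rfl; simp at hμ; exact hz0 hμ
    rw [hμ] at hX hz0
    obtain ⟨k, m, h1, -, -, h4, h5⟩ := H99.Diag.exists_diag_matrix h2 X μ hμ0 hX
    rw [Fintype.card_fin] at h1
    rw [hdX, h1] at h4
    have hk : Even k := by
      by_contra hk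
      rw [Nat.not_even_iff_odd] at hk
      rw [hk.neg_one_pow] at h4
      exact H99.PowNegOne.pow_ne_neg_one hodd n (by omega) (by rw [hq]; exact hv) μ (by linear_combination h4)
    obtain ⟨k', rfl⟩ : ∃ k', k = 2 * k' := by
      obtain ⟨a, ha⟩ := hk; exact ⟨a, by omega⟩
    obtain ⟨m', rfl⟩ : ∃ m', m = 2 * m' := by
      obtain ⟨k, hk⟩ := he
      exact ⟨k - k', by omega⟩
    let e : (Fin 2 × (Fin k' ⊕ Fin m')) ≃ Fin n := Fintype.equivFinOfCardEq (by
      simp; omega)
    obtain ⟨P, hP, hXP⟩ := h5 ((tau2 k' m').trans e)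
    refine close_block hn f hf x (μ * μ) hz0 hX e
      (Sum.elim (fun _ => !![-μ, 0; 0, -μ]) (fun _ => !![μ, 0; 0, μ])) (μ * μ) (mul_ne_zero hμ0 hμ0) ?_ P hP ?_
    · rintro (i | i) <;> simp [Matrix.det_fin_two]
    · rw [← tau2_dg]; exact hXP

/-- Involutions of PSL_n(q) and the symplectic-type subgroups. Here `T = PSL_n(F)` for a field `F` with `q` elements, `n ≥ 4` even, `f` is a nondegenerate alternating form on `F^n`, and `H` is the subgroup of matrices of determinant 1 preserving `f` up to a scalar — a maximal subgroup of type Sp_n(q); Ω is the set of `T`-conjugates of `H` (cosets of `H`), so an element of `T` of prime order `r` (a matrix `x` of determinant 1 with `x^r` scalar, `x` not scalar) fixes a point of Ω when some conjugate of `x` by a matrix of determinant 1 preserves `f` up to a scalar. Suppose the index of `H` is even. Then every involution of `T` is conjugate in `T` into `H` if and only if `(q − 1)_2 ≤ (n)_2`. -/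
theorem result {F : Type*} [Field F] [Fintype F] {p : ℕ} [Fact p.Prime] [CharP F p] {q : ℕ} (hq : Fintype.card F = q)
    (n : ℕ) (hn : 4 ≤ n) (he : Even n) (f : (Fin n → F) → (Fin n → F) → F) (hf : Cfsg.Geo.IsSymplecticForm f)
    (hΩ : 2 ∣ ((Cfsg.Geo.similarityGroup f).comap (Matrix.SpecialLinearGroup.toGL : Matrix.SpecialLinearGroup (Fin n) F →* GL (Fin n) F)).index) :
    (∀ x : Matrix.SpecialLinearGroup (Fin n) F,
      (∃ z : F, ((x ^ 2 : Matrix.SpecialLinearGroup (Fin n) F) : Matrix (Fin n) (Fin n) F) = z • (1 : Matrix (Fin n) (Fin n) F)) →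
      (∀ z : F, (x : Matrix (Fin n) (Fin n) F) ≠ z • (1 : Matrix (Fin n) (Fin n) F)) →
      ∃ P : Matrix.SpecialLinearGroup (Fin n) F, P⁻¹ * x * P ∈ ((Cfsg.Geo.similarityGroup f).comap (Matrix.SpecialLinearGroup.toGL : Matrix.SpecialLinearGroup (Fin n) F →* GL (Fin n) F))) ↔
    padicValNat 2 (q - 1) ≤ padicValNat 2 n := by
  exact ⟨fwd hq n hn he f hf, fun hv x hx1 _ => bwd hq n hn he f hf hv x hx1⟩

end Cfsg.Agent.S5967
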