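import Cfsg.Statements.S5968
import Cfsg.Agent.Lib.H99.Elts
import Cfsg.Agent.Lib.H99.Frame
import Cfsg.Agent.Lib.H99.Subfield
import Cfsg.Agent.Lib.H99.SpIdx

set_option autoImplicit false
set_option linter.unusedSimpArgs false
open scoped MatrixGroups
open Cfsg

namespace Cfsg.Agent.S5968


open Matrix in
/-- no alternating form is preserved up to scalars -/
def NoAlt {F : Type*} [Field F] {n : ℕ} (X : Matrix (Fin n) (Fin n) F) : Prop :=
  ∀ (g : (Fin n → F) → (Fin n → F) → F) (c : F), H99.Form.Ses (RingHom.id F) g → (∀ v, g v v = 0) →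
    (∀ u v, g (X *ᵥ u) (X *ᵥ v) = c * g u v) → False

open Matrix in
theorem finish {F : Type*} [Field F] {n : ℕ} (f : (Fin n → F) → (Fin n → F) → F) (hf : Cfsg.Geo.IsSymplecticForm f) (r : ℕ)
    (X : Matrix (Fin n) (Fin n) F) (hdet : X.det = 1) (hr : X ^ r = 1)
    (hns : ∀ z : F, X ≠ z • (1 : Matrix (Fin n) (Fin n) F)) (hno : NoAlt X) :
    ∃ x : Matrix.SpecialLinearGroup (Fin n) F,
      (∃ z : F, ((x ^ r : Matrix.SpecialLinearGroup (Fin n) F) : Matrix (Fin n) (Fin n) F) = z • (1 : Matrix (Fin n) (Fin n) F)) ∧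
      (∀ z : F, (x : Matrix (Fin n) (Fin n) F) ≠ z • (1 : Matrix (Fin n) (Fin n) F)) ∧
      ∀ P : Matrix.SpecialLinearGroup (Fin n) F, P⁻¹ * x * P ∉ ((Cfsg.Geo.similarityGroup f).comap (Matrix.SpecialLinearGroup.toGL : Matrix.SpecialLinearGroup (Fin n) F →* GL (Fin n) F)) := by
  let x' : Matrix.SpecialLinearGroup (Fin n) F := ⟨X, hdet⟩
  refine ⟨x', ⟨1, ?_⟩, hns, ?_⟩
  · rw [Matrix.SpecialLinearGroup.coe_pow, one_smul]
    exact hr
  · intro P hP
    rw [Subgroup.mem_comap] at hP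
    obtain ⟨c, hc⟩ := hP
    let P' : Matrix (Fin n) (Fin n) F := ((P⁻¹ : Matrix.SpecialLinearGroup (Fin n) F) : Matrix (Fin n) (Fin n) F)
    have e1 : (P : Matrix (Fin n) (Fin n) F) * P' = 1 := by
      have := congrArg (fun g : Matrix.SpecialLinearGroup (Fin n) F => (g : Matrix (Fin n) (Fin n) F)) (mul_inv_cancel P)
      simpa only [Matrix.SpecialLinearGroup.coe_mul, Matrix.SpecialLinearGroup.coe_one] using this
    have e2 : P' * (P : Matrix (Fin n) (Fin n) F) = 1 := by
      have := congrArg (fun g : Matrix.SpecialLinearGroup (Fin n) F => (g : Matrix (Fin n) (Fin n) F)) (inv_mul_cancel P)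
      simpa only [Matrix.SpecialLinearGroup.coe_mul, Matrix.SpecialLinearGroup.coe_one] using this
    refine hno (fun u v => f (P' *ᵥ u) (P' *ᵥ v)) c ((H99.Form.ses_of_symplectic hf).transport P' P e1 e2)
      (fun v => hf.alternating _) ?_
    intro u v
    have h1 := hc (P' *ᵥ u) (P' *ᵥ v)
    have e3 : ∀ w, ((Matrix.SpecialLinearGroup.toGL (P⁻¹ * x' * P) : GL (Fin n) F) : Matrix (Fin n) (Fin n) F) *ᵥ (P' *ᵥ w) =
        P' *ᵥ (X *ᵥ w) := by
      intro w
      have e4 : ((Matrix.SpecialLinearGroup.toGL (P⁻¹ * x' * P) : GL (Fin n) F) : Matrix (Fin n) (Fin n) F) =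
        P' * X * (P : Matrix (Fin n) (Fin n) F) := rfl
      rw [e4, Matrix.mulVec_mulVec, Matrix.mul_assoc, e1, Matrix.mul_one, Matrix.mulVec_mulVec]
    rw [e3, e3] at h1
    exact h1

open Matrix in
theorem no_unip {F : Type*} [Field F] {p : ℕ} [Fact p.Prime] [CharP F p] {n : ℕ} (hp : 3 ≤ p) (i0 i1 i2 : Fin n)
    (h01 : i0 ≠ i1) (h02 : i0 ≠ i2) (h12 : i1 ≠ i2) :
    NoAlt (1 + H99.Elts.N3 i0 i1 i2 : Matrix (Fin n) (Fin n) F) := by
  intro g c hg hA hx
  have : Nonempty (Fin n) := ⟨i0⟩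
  have hc : c = 1 := by
    apply H99.Elts.eq_one_of_pow_char (p := p)
    have := H99.Form.mult_pow hg _ c hx p 1 (by
      rw [one_smul]; exact H99.Elts.one_add_pow_char _ 3 (H99.Elts.N3_cube i0 i1 i2 h01 h02 h12) hp)
    simpa using this
  subst hc
  have x0 : (1 + H99.Elts.N3 i0 i1 i2 : Matrix (Fin n) (Fin n) F) *ᵥ Pi.single i0 1 = Pi.single i0 1 + Pi.single i1 1 := by
    rw [H99.Elts.one_add_mulVec, H99.Elts.N3_mulVec _ _ _ _ h01, if_pos rfl]
  have x1 : (1 + H99.Elts.N3 i0 i1 i2 : Matrix (Fin n) (Fin n) F) *ᵥ Pi.single i1 1 = Pi.single i1 1 + Pi.single i2 1 := by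
    rw [H99.Elts.one_add_mulVec, H99.Elts.N3_mulVec _ _ _ _ h01, if_neg (Ne.symm h01), if_pos rfl]
  have xk : ∀ k, k ≠ i0 → k ≠ i1 → (1 + H99.Elts.N3 i0 i1 i2 : Matrix (Fin n) (Fin n) F) *ᵥ Pi.single k 1 = Pi.single k 1 := by
    intro k h0 h1
    rw [H99.Elts.one_add_mulVec, H99.Elts.N3_mulVec _ _ _ _ h01, if_neg h0, if_neg h1, add_zero]
  have a1 : ∀ k, k ≠ i0 → k ≠ i1 → g (Pi.single k 1) (Pi.single i1 1) = 0 ∧ g (Pi.single k 1) (Pi.single i2 1) = 0 := by
    intro k h0 h1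
    have b0 := hx (Pi.single k 1) (Pi.single i0 1)
    have b1 := hx (Pi.single k 1) (Pi.single i1 1)
    rw [xk k h0 h1, x0, hg.add_right, one_mul] at b0
    rw [xk k h0 h1, x1, hg.add_right, one_mul] at b1
    exact ⟨by linear_combination b0, by linear_combination b1⟩
  have hsw : ∀ u v, g u v = - g v u := by
    intro u v
    have := hA (u + v)
    rw [hg.add_left, hg.add_right, hg.add_right, hA, hA] at this
    linear_combination this
  have b3 := hx (Pi.single i0 1) (Pi.single i1 1)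
  rw [x0, x1, hg.add_left, hg.add_right, hg.add_right, hA, one_mul] at b3
  have b4 := (a1 i2 (Ne.symm h02) (Ne.symm h12)).1
  have b5 : g (Pi.single i1 1) (Pi.single i2 1) = 0 := by rw [hsw, b4, neg_zero]
  refine hg.single_radical i2 fun b => ?_
  by_cases hb0 : b = i0
  · subst hb0
    rw [hsw]
    linear_combination b5 - b3
  · by_cases hb1 : b = i1
    · subst hb1
      exact b4
    · rw [hsw, (a1 b hb0 hb1).2, neg_zero]

open Matrix in
theorem exists_pair {F : Type*} [Field F] {n : ℕ} {D : Fin n → F} {g : (Fin n → F) → (Fin n → F) → F} {c : F}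
    (hg : H99.Form.Ses (RingHom.id F) g) (hx : ∀ u v, g (Matrix.diagonal D *ᵥ u) (Matrix.diagonal D *ᵥ v) = c * g u v) (a : Fin n) :
    ∃ b, D a * D b = c := by
  by_contra h
  push Not at h
  exact hg.single_radical a fun b => H99.Form.diag_eq_zero hg D c hx a b (h b)

open Matrix in
theorem even_fib {F : Type*} [Field F] {n : ℕ} {D : Fin n → F} {g : (Fin n → F) → (Fin n → F) → F} {c : F}
    (hg : H99.Form.Ses (RingHom.id F) g) (hA : ∀ v, g v v = 0)
    (hx : ∀ u v, g (Matrix.diagonal D *ᵥ u) (Matrix.diagonal D *ᵥ v) = c * g u v) (S : Finset (Fin n)) (μ : F) (hμ : μ ≠ 0)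
    (hc : c = μ * μ) (hS : ∀ j, j ∈ S ↔ D j = μ) : Even S.card := by
  apply hg.even_card hA
  intro a ha b hb
  apply H99.Form.diag_eq_zero hg D c hx
  rw [(hS a).1 ha, hc]
  intro h
  exact hb ((hS b).2 (mul_left_cancel₀ hμ h))

theorem card_ge (n : ℕ) (hn : 3 ≤ n) : (Finset.univ.filter fun j : Fin n => 3 ≤ (j : ℕ)).card = n - 3 := by
  have h2 : (Finset.univ.filter fun j : Fin n => 3 ≤ (j : ℕ)) = (Finset.univ.filter fun j : Fin n => (j : ℕ) < 3)ᶜ := by
    ext j; simp
  rw [h2, Finset.card_compl, Fintype.card_fin]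
  congr 1
  rw [Fin.card_filter_val_lt]
  omega

theorem card_lt (n : ℕ) (hn : 3 ≤ n) : (Finset.univ.filter fun j : Fin n => (j : ℕ) < 3).card = 3 := by
  rw [Fin.card_filter_val_lt]
  omega

open Matrix in
theorem no_five {F : Type*} [Field F] {n : ℕ} (hn : 4 ≤ n) (he : Even n) {r : ℕ} (hr : 5 ≤ r) (hrp : r.Prime) {ω : F}
    (hω : IsPrimitiveRoot ω r) : NoAlt (Matrix.diagonal (H99.Elts.d3 n ω ω (ω ^ 2)⁻¹)) := by
  intro g c hg hA hx
  have hω0 : ω ≠ 0 := hω.ne_zero (by omega)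
  have hne : ∀ k, 0 < k → k < r → ω ^ k ≠ 1 := fun k h1 h2 => hω.pow_ne_one_of_pos_of_lt h1.ne' h2
  have w1 : ω ≠ 1 := by have := hne 1 (by norm_num) (by omega); simpa using this
  have w2 := hne 2 (by norm_num) (by omega)
  have w3 := hne 3 (by norm_num) (by omega)
  have w4 := hne 4 (by norm_num) (by omega)
  have hvals : ∀ j : Fin n, ((j : ℕ) < 2 ∧ H99.Elts.d3 n ω ω (ω ^ 2)⁻¹ j = ω) ∨
      ((j : ℕ) = 2 ∧ H99.Elts.d3 n ω ω (ω ^ 2)⁻¹ j = (ω ^ 2)⁻¹) ∨ (3 ≤ (j : ℕ) ∧ H99.Elts.d3 n ω ω (ω ^ 2)⁻¹ j = 1) := by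
    intro j
    rw [H99.Elts.d3]
    by_cases h0 : (j : ℕ) = 0
    · left; exact ⟨by omega, by rw [if_pos h0]⟩
    · by_cases h1 : (j : ℕ) = 1
      · left; exact ⟨by omega, by rw [if_neg h0, if_pos h1]⟩
      · by_cases h2 : (j : ℕ) = 2
        · right; left; exact ⟨h2, by rw [if_neg h0, if_neg h1, if_pos h2]⟩
        · right; right; exact ⟨by omega, by rw [if_neg h0, if_neg h1, if_neg h2]⟩
  have k1 : (ω ^ 2)⁻¹ ≠ 1 := fun h => w2 (inv_eq_one.1 h)
  have kω : (ω ^ 2)⁻¹ ≠ ω := by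
    intro h
    apply w3
    rw [inv_eq_iff_eq_inv] at h
    rw [pow_succ, h, inv_mul_cancel₀ hω0]
  have c1 : c ≠ 1 := by
    intro h
    have := even_fib hg hA hx (Finset.univ.filter fun j : Fin n => 3 ≤ (j : ℕ)) 1 one_ne_zero (by rw [h, one_mul]) (by
      intro j
      simp only [Finset.mem_filter, Finset.mem_univ, true_and]
      rcases hvals j with ⟨h1, h2⟩ | ⟨h1, h2⟩ | ⟨h1, h2⟩
      · rw [h2]; exact ⟨fun h => by omega, fun h => absurd h w1⟩
      · rw [h2]; exact ⟨fun h => by omega, fun h => absurd h k1⟩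
      · rw [h2]; exact ⟨fun h => rfl, fun _ => h1⟩)
    rw [card_ge n (by omega)] at this
    obtain ⟨a, ha⟩ := this
    obtain ⟨b, hb⟩ := he
    omega
  have c2 : c ≠ (ω ^ 2)⁻¹ * (ω ^ 2)⁻¹ := by
    intro h
    have := even_fib hg hA hx {⟨2, by omega⟩} (ω ^ 2)⁻¹ (inv_ne_zero (pow_ne_zero _ hω0)) h (by
      intro j
      rw [Finset.mem_singleton]
      rcases hvals j with ⟨h1, h2⟩ | ⟨h1, h2⟩ | ⟨h1, h2⟩
      · rw [h2]; exact ⟨fun h => by rw [h] at h1; simp at h1, fun h => absurd h.symm kω⟩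
      · rw [h2]; exact ⟨fun h => rfl, fun _ => Fin.ext h1⟩
      · rw [h2]; exact ⟨fun h => by rw [h] at h1; simp at h1, fun h => absurd h.symm k1⟩)
    rw [Finset.card_singleton] at this
    exact absurd this (by decide)
  have d2 : H99.Elts.d3 n ω ω (ω ^ 2)⁻¹ ⟨2, by omega⟩ = (ω ^ 2)⁻¹ := rfl
  have d3 : H99.Elts.d3 n ω ω (ω ^ 2)⁻¹ ⟨3, by omega⟩ = 1 := rfl
  have d0 : H99.Elts.d3 n ω ω (ω ^ 2)⁻¹ ⟨0, by omega⟩ = ω := rfl
  have hck : c = (ω ^ 2)⁻¹ := by
    obtain ⟨b, hb⟩ := exists_pair hg hx ⟨3, by omega⟩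
    rw [d3, one_mul] at hb
    rcases hvals b with ⟨-, h2⟩ | ⟨-, h2⟩ | ⟨-, h2⟩
    · rw [h2] at hb
      obtain ⟨b', hb'⟩ := exists_pair hg hx ⟨2, by omega⟩
      rw [d2] at hb'
      rcases hvals b' with ⟨-, h3⟩ | ⟨-, h3⟩ | ⟨-, h3⟩
      · rw [h3, ← hb] at hb'
        exact absurd (mul_eq_right₀ hω0 |>.1 hb') k1
      · rw [h3] at hb'
        exact absurd hb'.symm c2
      · rw [h3, mul_one] at hb'
        exact hb'.symm
    · rw [← hb, h2]
    · rw [h2] at hb
      exact absurd hb.symm c1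
  obtain ⟨b, hb⟩ := exists_pair hg hx ⟨0, by omega⟩
  rw [d0, hck] at hb
  rcases hvals b with ⟨-, h2⟩ | ⟨-, h2⟩ | ⟨-, h2⟩
  · rw [h2] at hb
    apply w4
    have : ω ^ 2 * (ω * ω) = 1 := by rw [hb, mul_inv_cancel₀ (pow_ne_zero _ hω0)]
    linear_combination this
  · rw [h2] at hb
    exact w1 ((mul_eq_right₀ (inv_ne_zero (pow_ne_zero _ hω0))).1 hb)
  · rw [h2, mul_one] at hb
    exact kω hb.symm

open Matrix in
theorem no_three {F : Type*} [Field F] {n : ℕ} (hn : 4 ≤ n) (he : Even n) (h6 : n ≠ 6) {ω : F}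
    (hω : IsPrimitiveRoot ω 3) : NoAlt (Matrix.diagonal (H99.Elts.d3 n ω ω ω)) := by
  intro g c hg hA hx
  have hω0 : ω ≠ 0 := hω.ne_zero (by omega)
  have hne : ∀ k, 0 < k → k < 3 → ω ^ k ≠ 1 := fun k h1 h2 => hω.pow_ne_one_of_pos_of_lt h1.ne' h2
  have w1 : ω ≠ 1 := by have := hne 1 (by norm_num) (by omega); simpa using this
  have hvals : ∀ j : Fin n, ((j : ℕ) < 3 ∧ H99.Elts.d3 n ω ω ω j = ω) ∨
      (3 ≤ (j : ℕ) ∧ H99.Elts.d3 n ω ω ω j = 1) := by
    intro j
    rw [H99.Elts.d3]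
    by_cases h0 : (j : ℕ) = 0
    · left; exact ⟨by omega, by rw [if_pos h0]⟩
    · by_cases h1 : (j : ℕ) = 1
      · left; exact ⟨by omega, by rw [if_neg h0, if_pos h1]⟩
      · by_cases h2 : (j : ℕ) = 2
        · left; exact ⟨by omega, by rw [if_neg h0, if_neg h1, if_pos h2]⟩
        · right; exact ⟨by omega, by rw [if_neg h0, if_neg h1, if_neg h2]⟩
  have c1 : c ≠ 1 := by
    intro h
    have := even_fib hg hA hx (Finset.univ.filter fun j : Fin n => 3 ≤ (j : ℕ)) 1 one_ne_zero (by rw [h, one_mul]) (by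
      intro j
      simp only [Finset.mem_filter, Finset.mem_univ, true_and]
      rcases hvals j with ⟨h1, h2⟩ | ⟨h1, h2⟩
      · rw [h2]; exact ⟨fun h => by omega, fun h => absurd h w1⟩
      · rw [h2]; exact ⟨fun h => rfl, fun _ => h1⟩)
    rw [card_ge n (by omega)] at this
    obtain ⟨a, ha⟩ := this
    obtain ⟨b, hb⟩ := he
    omega
  have c2 : c ≠ ω * ω := by
    intro h
    have := even_fib hg hA hx (Finset.univ.filter fun j : Fin n => (j : ℕ) < 3) ω hω0 h (by
      intro j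
      simp only [Finset.mem_filter, Finset.mem_univ, true_and]
      rcases hvals j with ⟨h1, h2⟩ | ⟨h1, h2⟩
      · rw [h2]; exact ⟨fun h => rfl, fun h => h1⟩
      · rw [h2]; exact ⟨fun h => by omega, fun h => absurd h.symm w1⟩)
    rw [card_lt n (by omega)] at this
    exact absurd this (by decide)
  have z1 := hg.card_le_compl (Finset.univ.filter fun j : Fin n => (j : ℕ) < 3) (by
    intro a ha b hb
    apply H99.Form.diag_eq_zero hg _ c hx
    simp only [Finset.mem_filter, Finset.mem_univ, true_and] at ha hb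
    have e : ∀ a : Fin n, (a : ℕ) < 3 → H99.Elts.d3 n ω ω ω a = ω := by
      intro a ha
      rcases hvals a with ⟨h1, h2⟩ | ⟨h1, h2⟩
      · exact h2
      · omega
    rw [e a ha, e b hb]
    exact fun h => c2 h.symm)
  have z2 := hg.card_le_compl (Finset.univ.filter fun j : Fin n => 3 ≤ (j : ℕ)) (by
    intro a ha b hb
    apply H99.Form.diag_eq_zero hg _ c hx
    simp only [Finset.mem_filter, Finset.mem_univ, true_and] at ha hb
    have e : ∀ a : Fin n, 3 ≤ (a : ℕ) → H99.Elts.d3 n ω ω ω a = 1 := by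
      intro a ha
      rcases hvals a with ⟨h1, h2⟩ | ⟨h1, h2⟩
      · omega
      · exact h2
    rw [e a ha, e b hb, map_one, mul_one]
    exact fun h => c1 h.symm)
  rw [card_ge n (by omega), Fintype.card_fin] at z2
  rw [card_lt n (by omega), Fintype.card_fin] at z1
  omega

open Matrix Polynomial in
theorem no_odd {F : Type*} [Field F] [Fintype F] {n i : ℕ} (he : Even n) (hi : Odd i) (hin : i ≤ n) {r : ℕ} (hr : r.Prime)
    (hdvd : ¬ r ∣ Fintype.card F - 1) (C : Matrix (Fin i) (Fin i) F) (G : F[X]) (hG : Irreducible G) (hGd : G.natDegree = i)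
    (hi2 : 2 ≤ i) (hC : C.charpoly = G) (hCr : C ^ r = 1) (e : (Fin i ⊕ Fin (n - i)) ≃ Fin n) : NoAlt (H99.Blk.emb e C) := by
  intro g c hg hA hx
  have : Nonempty (Fin n) := ⟨⟨0, by omega⟩⟩
  have h1 := H99.Form.mult_pow hg _ c hx r 1 (by rw [one_smul, H99.Blk.emb_pow, hCr, H99.Blk.emb_one])
  rw [map_one, mul_one] at h1
  have hc : c = 1 := by
    have hc0 : c ≠ 0 := by rintro rfl; rw [zero_pow hr.ne_zero] at h1; exact zero_ne_one h1
    have h2 : c ^ (Fintype.card F - 1) = 1 := FiniteField.pow_card_sub_one_eq_one _ hc0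
    have h3 : c ^ (Nat.gcd r (Fintype.card F - 1)) = 1 := pow_gcd_eq_one.2 ⟨h1, h2⟩
    rwa [(Nat.Prime.coprime_iff_not_dvd hr).2 hdvd, pow_one] at h3
  subst hc
  have hC1 : (C - 1).det ≠ 0 := by
    intro h
    have h2 : C.charpoly.eval 1 = 0 := by
      rw [Matrix.eval_charpoly]
      have h3 : (Matrix.scalar (Fin i)) (1 : F) - C = -(C - 1) := by rw [map_one]; abel
      rw [h3, Matrix.det_neg, h, mul_zero]
    rw [hC] at h2
    have h4 := Polynomial.degree_eq_one_of_irreducible_of_root hG (x := 1) h2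
    have h5 : G.natDegree = 1 := Polynomial.natDegree_eq_of_degree_eq_some h4
    omega
  have key := H99.Form.emb_orth hg e C hC1 (fun u v => by rw [hx, one_mul])
  have := hg.even_card hA (Finset.univ.filter fun j => ∃ k, j = e (.inl k)) (by
    intro a ha b hb
    simp only [Finset.mem_filter, Finset.mem_univ, true_and] at ha hb
    obtain ⟨k, rfl⟩ := ha
    obtain ⟨b', rfl⟩ := e.surjective b
    rcases b' with b' | b'
    · exact absurd ⟨b', rfl⟩ hb
    · rw [← H99.Form.pr_single_inl, ← H99.Form.pr_single_inr]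
      exact (key _ _).2)
  have h6 : (Finset.univ.filter fun j => ∃ k, j = e (.inl k)) = Finset.univ.map ⟨fun k => e (.inl k), fun a b h => by simpa using h⟩ := by
    ext j
    rw [Finset.mem_filter, Finset.mem_map]
    constructor
    · rintro ⟨-, k, rfl⟩; exact ⟨k, Finset.mem_univ _, rfl⟩
    · rintro ⟨k, -, rfl⟩; exact ⟨Finset.mem_univ _, k, rfl⟩
  rw [h6, Finset.card_map, Finset.card_univ, Fintype.card_fin] at this
  exact (Nat.not_even_iff_odd.2 hi) this

/-- Derangements of odd prime order of PSL_n(q) on the cosets of a symplectic-type subgroup. Here `T = PSL_n(F)` for a field `F` with `q` elements, `n ≥ 4` even, `f` is a nondegenerate alternating form on `F^n`, and `H` is the subgroup of matrices of determinant 1 preserving `f` up to a scalar — a maximal subgroup of type Sp_n(q); Ω is the set of `T`-conjugates of `H` (cosets of `H`), so an element of `T` of prime order `r` (a matrix `x` of determinant 1 with `x^r` scalar, `x` not scalar) fixes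 a point of Ω when some conjugate of `x` by a matrix of determinant 1 preserves `f` up to a scalar. For every odd prime `r` dividing the index of `H`, with `(n, r) ≠ (6, 3)`, there is an element of `T` of order `r` with no conjugate in `H`. (For `n = 6`, `r = 3` this can fail: when `(q − 1)_3 = 3` every element of order 3 is conjugate into `H`.) -/
theorem result {F : Type*} [Field F] [Fintype F] {p : ℕ} [Fact p.Prime] [CharP F p] {q : ℕ} (hq : Fintype.card F = q)
    (n : ℕ) (hn : 4 ≤ n) (he : Even n) (f : (Fin n → F) → (Fin n → F) → F) (hf : Cfsg.Geo.IsSymplecticForm f)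
    (r : ℕ) [Fact r.Prime] (hr2 : r ≠ 2) (hgap : ¬ (n = 6 ∧ r = 3)) (hΩ : r ∣ ((Cfsg.Geo.similarityGroup f).comap (Matrix.SpecialLinearGroup.toGL : Matrix.SpecialLinearGroup (Fin n) F →* GL (Fin n) F)).index) :
    ∃ x : Matrix.SpecialLinearGroup (Fin n) F,
      (∃ z : F, ((x ^ r : Matrix.SpecialLinearGroup (Fin n) F) : Matrix (Fin n) (Fin n) F) = z • (1 : Matrix (Fin n) (Fin n) F)) ∧
      (∀ z : F, (x : Matrix (Fin n) (Fin n) F) ≠ z • (1 : Matrix (Fin n) (Fin n) F)) ∧
      ∀ P : Matrix.SpecialLinearGroup (Fin n) F, P⁻¹ * x * P ∉ ((Cfsg.Geo.similarityGroup f).comap (Matrix.SpecialLinearGroup.toGL : Matrix.SpecialLinearGroup (Fin n) F →* GL (Fin n) F)) := by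
  classical
  have hr : r.Prime := Fact.out
  have hp : p.Prime := Fact.out
  have hq1 : 1 < q := by rw [← hq]; exact Fintype.one_lt_card
  by_cases hrp : r = p
  · subst hrp
    have hr3 : 3 ≤ r := by have := hr.two_le; omega
    have h01 : (⟨0, by omega⟩ : Fin n) ≠ ⟨1, by omega⟩ := by simp
    have h02 : (⟨0, by omega⟩ : Fin n) ≠ ⟨2, by omega⟩ := by simp
    have h12 : (⟨1, by omega⟩ : Fin n) ≠ ⟨2, by omega⟩ := by simp
    have hpow := H99.Elts.one_add_pow_char (p := r) (F := F) _ 3 (H99.Elts.N3_cube _ _ _ h01 h02 h12) hr3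
    refine finish f hf r _ (H99.Elts.det_eq_one_of_pow_char _ hpow) hpow ?_ (no_unip hr3 _ _ _ h01 h02 h12)
    exact H99.Elts.one_add_ne_scalar _ ⟨1, by omega⟩ ⟨0, by omega⟩ (Ne.symm h01) (by simp [H99.Elts.N3])
  · by_cases hdvd : r ∣ q - 1
    · obtain ⟨ω, hω⟩ := H99.Elts.exists_root (F := F) r hr.pos (by rw [hq]; exact hdvd)
      have hω0 : ω ≠ 0 := hω.ne_zero hr.ne_zero
      have hωr : ω ^ r = 1 := hω.pow_eq_one
      have hω1 : ω ≠ 1 := by have := hω.pow_ne_one_of_pos_of_lt (l := 1) (by norm_num) hr.one_lt; simpa using this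
      by_cases hr3 : r = 3
      · subst hr3
        refine finish f hf 3 (Matrix.diagonal (H99.Elts.d3 n ω ω ω)) ?_ (H99.Elts.d3_pow _ _ _ _ hωr hωr hωr) ?_
          (no_three hn he (fun h => hgap ⟨h, rfl⟩) hω)
        · rw [H99.Elts.det_d3 (by omega)]; linear_combination hωr
        · exact H99.Elts.diagonal_ne_scalar _ ⟨0, by omega⟩ ⟨3, by omega⟩ (by simpa [H99.Elts.d3] using hω1)
      · have hr5 : 5 ≤ r := by
          have h1 := hr.two_le
          by_contra h
          have h4 : r = 4 := by omega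
          rw [h4] at hr
          exact absurd hr (by norm_num)
        refine finish f hf r (Matrix.diagonal (H99.Elts.d3 n ω ω (ω ^ 2)⁻¹)) ?_ (H99.Elts.d3_pow _ _ _ _ hωr hωr ?_) ?_
          (no_five hn he hr5 hr hω)
        · rw [H99.Elts.det_d3 (by omega)]
          field_simp
        · rw [inv_pow, ← pow_mul, mul_comm, pow_mul, hωr, one_pow, inv_one]
        · exact H99.Elts.diagonal_ne_scalar _ ⟨0, by omega⟩ ⟨3, by omega⟩ (by simpa [H99.Elts.d3] using hω1)
    · have hrq : ¬ r ∣ Fintype.card F := by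
        obtain ⟨k, -, hk⟩ := FiniteField.card F p
        rw [hk]
        intro h
        exact hrp ((Nat.prime_dvd_prime_iff_eq hr hp).1 (hr.dvd_of_dvd_pow h))
      obtain ⟨i, C, G, hi, hi2, hGirr, hGmon, hGdeg, hCG, hCr, hC1⟩ := H99.Blk.exists_comp_block (F := F) (p := p) hr hrp
        (by rw [hq]; exact hdvd)
      have hΩ' : r ∣ ((Cfsg.Geo.similarityGroup f).comap (Matrix.SpecialLinearGroup.toGL : Matrix.SpecialLinearGroup (Fin n) F →* GL (Fin n) F)).index := hΩ
      rw [Subgroup.index_comap] at hΩ'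
      have hN : (Matrix.SpecialLinearGroup.toGL : Matrix.SpecialLinearGroup (Fin n) F →* GL (Fin n) F).range.Normal := by
        have : (Matrix.SpecialLinearGroup.toGL : Matrix.SpecialLinearGroup (Fin n) F →* GL (Fin n) F).range =
            (Matrix.GeneralLinearGroup.det : GL (Fin n) F →* Fˣ).ker := by
          ext g
          rw [MonoidHom.mem_ker]
          constructor
          · rintro ⟨x, rfl⟩
            apply Units.ext
            exact x.2
          · intro hg
            refine ⟨⟨(g : Matrix (Fin n) (Fin n) F), ?_⟩, Units.ext rfl⟩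
            exact congrArg Units.val hg
        rw [this]; infer_instance
      have hidx := hΩ'.trans (H99.Subfield.relIndex_dvd_index _ _)
      rcases Nat.even_or_odd i with hie | hio
      · exfalso
        obtain ⟨m, hm⟩ := he
        exact H99.SpIdx.not_dvd_index hm f hf hr hrq (by rw [← hi]; exact hie) hidx
      · have hin : i ≤ n := by
          rw [hi]
          exact H99.Blk.orderOf_le_of_dvd_card hr hrq n (hidx.trans (Subgroup.index_dvd_card _))
        have hin' : i < n := by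
          rcases hin.lt_or_eq with h | h
          · exact h
          · exfalso; rw [h] at hio; exact (Nat.not_even_iff_odd.2 hio) he
        let e : (Fin i ⊕ Fin (n - i)) ≃ Fin n := finSumFinEquiv.trans (finCongr (by omega))
        refine finish f hf r (H99.Blk.emb e C) ?_ (by rw [H99.Blk.emb_pow, hCr, H99.Blk.emb_one])
          (H99.Blk.emb_ne_scalar e hin' C hC1) (no_odd he hio hin hr (by rw [hq]; exact hdvd) C G hGirr hGdeg hi2 hCG hCr e)
        rw [H99.Blk.emb_det]
        exact H99.Blk.det_eq_one_of_pow hr (by rw [hq]; exact hdvd) C hCr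

end Cfsg.Agent.S5968
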