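import Cfsg.Statements.S5969
import Cfsg.Agent.Lib.H99.Mat2
import Cfsg.Agent.Lib.H99.SqScalar
import Cfsg.Agent.Lib.H99.Diag
import Cfsg.Agent.Lib.H99.PowNegOne

set_option autoImplicit false
set_option linter.unusedSimpArgs false
open scoped MatrixGroups
open Cfsg

namespace Cfsg.Agent.S5969


open Matrix in
theorem closeK {F : Type*} [Field F] [Fintype F] {n : ℕ} (hn : 2 ≤ n) (K : Subalgebra F (Matrix (Fin n) (Fin n) F))
    (x : Matrix.SpecialLinearGroup (Fin n) F) (z : F) (hz : z ≠ 0)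
    (hX : (x : Matrix (Fin n) (Fin n) F) * (x : Matrix (Fin n) (Fin n) F) = z • (1 : Matrix (Fin n) (Fin n) F))
    (Y R : Matrix (Fin n) (Fin n) F) (hR : R.det ≠ 0)
    (h : (x : Matrix (Fin n) (Fin n) F) * R = R * Y) (hY : ∀ k ∈ K, Y * k * Y ∈ K) :
    ∃ P : Matrix.SpecialLinearGroup (Fin n) F, P⁻¹ * x * P ∈ ((Cfsg.Geo.subalgebraNormalizer K).comap
      (Matrix.SpecialLinearGroup.toGL : Matrix.SpecialLinearGroup (Fin n) F →* GL (Fin n) F)) := by
  have : Nonempty (Fin n) := ⟨⟨0, by omega⟩⟩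
  obtain ⟨R', hR', hxR'⟩ := H99.SqScalar.exists_det_one_conj _ _ R z hz hX hR h
  let R'' : Matrix.SpecialLinearGroup (Fin n) F := ⟨R', hR'⟩
  have hR'' : (R'' : Matrix (Fin n) (Fin n) F) = R' := rfl
  have hRu : IsUnit R'.det := by rw [hR']; exact isUnit_one
  have hYY : Y * Y = z • (1 : Matrix (Fin n) (Fin n) F) := by
    have h1 : R' * (Y * Y) = R' * (z • (1 : Matrix (Fin n) (Fin n) F)) := by
      rw [← Matrix.mul_assoc, ← hxR', Matrix.mul_assoc, ← hxR', ← Matrix.mul_assoc, hX, Matrix.smul_mul, Matrix.one_mul,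
        Matrix.mul_smul, Matrix.mul_one]
    have h2 := congrArg (fun M => R'⁻¹ * M) h1
    simp only [← Matrix.mul_assoc] at h2
    rw [Matrix.nonsing_inv_mul _ hRu, Matrix.one_mul, Matrix.one_mul] at h2
    exact h2
  refine ⟨R'', ?_⟩
  rw [Subgroup.mem_comap]
  set g : GL (Fin n) F := Matrix.SpecialLinearGroup.toGL (R''⁻¹ * x * R'') with hg
  have hgm : (g : Matrix (Fin n) (Fin n) F) = Y := by
    rw [hg, mul_assoc]
    show ((R''⁻¹ * (x * R'') : Matrix.SpecialLinearGroup (Fin n) F) : Matrix (Fin n) (Fin n) F) = Y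
    rw [Matrix.SpecialLinearGroup.coe_mul, Matrix.SpecialLinearGroup.coe_mul, hR'', hxR', ← Matrix.mul_assoc]
    have e3 : ((R''⁻¹ : Matrix.SpecialLinearGroup (Fin n) F) : Matrix (Fin n) (Fin n) F) * R' = 1 := by
      have := congrArg (fun g : Matrix.SpecialLinearGroup (Fin n) F => (g : Matrix (Fin n) (Fin n) F))
        (inv_mul_cancel R'')
      simpa only [Matrix.SpecialLinearGroup.coe_mul, Matrix.SpecialLinearGroup.coe_one] using this
    rw [e3, Matrix.one_mul]
  have hginv : ((g⁻¹ : GL (Fin n) F) : Matrix (Fin n) (Fin n) F) = z⁻¹ • Y := by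
    have h1 : (g : Matrix (Fin n) (Fin n) F) * (z⁻¹ • Y) = 1 := by
      rw [hgm, Matrix.mul_smul, hYY, smul_smul, inv_mul_cancel₀ hz, one_smul]
    have h2 : ((g⁻¹ : GL (Fin n) F) : Matrix (Fin n) (Fin n) F) * (g : Matrix (Fin n) (Fin n) F) = 1 := by
      rw [← Units.val_mul, inv_mul_cancel, Units.val_one]
    calc ((g⁻¹ : GL (Fin n) F) : Matrix (Fin n) (Fin n) F) = ((g⁻¹ : GL (Fin n) F) : Matrix (Fin n) (Fin n) F) *
          ((g : Matrix (Fin n) (Fin n) F) * (z⁻¹ • Y)) := by rw [h1, Matrix.mul_one]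
      _ = _ := by rw [← Matrix.mul_assoc, h2, Matrix.one_mul]
  show ∀ k : Matrix (Fin n) (Fin n) F, k ∈ K ↔ (g : Matrix (Fin n) (Fin n) F) * k * ((g⁻¹ : GL (Fin n) F) : Matrix (Fin n) (Fin n) F) ∈ K
  intro k
  rw [hgm, hginv, Matrix.mul_smul]
  constructor
  · intro hk
    exact K.smul_mem (hY k hk) _
  · intro hk
    have h1 := K.smul_mem (hY _ hk) (z⁻¹)
    have h2 : z⁻¹ • (Y * (z⁻¹ • (Y * k * Y)) * Y) = k := by
      calc z⁻¹ • (Y * (z⁻¹ • (Y * k * Y)) * Y) = z⁻¹ • z⁻¹ • ((Y * Y) * k * (Y * Y)) := by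
            rw [Matrix.mul_smul, Matrix.smul_mul]; simp only [Matrix.mul_assoc]
        _ = k := by
            rw [hYY, Matrix.smul_mul, Matrix.one_mul, Matrix.mul_smul, Matrix.mul_one, smul_smul, smul_smul, smul_smul]
            have : z⁻¹ * z⁻¹ * z * z = 1 := by field_simp
            rw [this, one_smul]
    rwa [h2] at h1

open Matrix in
theorem exists_gen {F : Type*} [Field F] {n : ℕ} (K : Subalgebra F (Matrix (Fin n) (Fin n) F))
    (hK : Cfsg.Geo.IsFieldSubalgebra 2 K) :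
    ∃ k0 ∈ K, (∀ c : F, k0 ≠ c • (1 : Matrix (Fin n) (Fin n) F)) ∧
      ∀ k ∈ K, ∃ α β : F, k = α • (1 : Matrix (Fin n) (Fin n) F) + β • k0 := by
  classical
  have hfin := hK.finrank_eq
  by_cases hex : ∃ k0 ∈ K, (∀ c : F, k0 ≠ c • (1 : Matrix (Fin n) (Fin n) F))
  · obtain ⟨k0, hk0, hne⟩ := hex
    refine ⟨k0, hk0, hne, ?_⟩
    intro k hk
    let v : Fin 2 → K := ![⟨1, K.one_mem⟩, ⟨k0, hk0⟩]
    have hli : LinearIndependent F v := by
      rw [LinearIndependent.pair_iff]
      intro s t hst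
      have h1 : s • (1 : Matrix (Fin n) (Fin n) F) + t • k0 = 0 := congrArg Subtype.val hst
      by_cases ht : t = 0
      · subst ht
        rw [zero_smul, add_zero] at h1
        refine ⟨?_, rfl⟩
        by_contra hs
        have h2 : (1 : Matrix (Fin n) (Fin n) F) = 0 := by
          have := congrArg (fun M => s⁻¹ • M) h1
          simpa [smul_smul, inv_mul_cancel₀ hs] using this
        exact hne 0 (by rw [zero_smul, ← Matrix.mul_one k0, h2, Matrix.mul_zero])
      · exfalso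
        apply hne (-(t⁻¹ * s))
        have h3 : t • k0 = -(s • (1 : Matrix (Fin n) (Fin n) F)) := eq_neg_of_add_eq_zero_right h1
        have := congrArg (fun M => t⁻¹ • M) h3
        simp only [smul_smul, inv_mul_cancel₀ ht, one_smul, smul_neg] at this
        rw [this, neg_smul]
    have hspan := hli.span_eq_top_of_card_eq_finrank' (by rw [Fintype.card_fin]; exact hfin.symm)
    have hk' : (⟨k, hk⟩ : K) ∈ Submodule.span F (Set.range v) := by rw [hspan]; trivial
    have hr : Set.range v = {⟨1, K.one_mem⟩, ⟨k0, hk0⟩} := by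
      simp [v, Matrix.range_cons, Matrix.range_empty, Set.pair_comm]
    rw [hr, Submodule.mem_span_pair] at hk'
    obtain ⟨α, β, h⟩ := hk'
    exact ⟨α, β, (congrArg Subtype.val h).symm⟩
  · exfalso
    push Not at hex
    have h1 : Module.finrank F K ≤ 1 := by
      apply finrank_le_one (⟨1, K.one_mem⟩ : K)
      intro w
      obtain ⟨c, hc⟩ := hex w.1 w.2
      exact ⟨c, Subtype.ext hc.symm⟩
    omega

open Matrix in
theorem inj_of_mem {F : Type*} [Field F] {n : ℕ} (K : Subalgebra F (Matrix (Fin n) (Fin n) F))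
    (hK : Cfsg.Geo.IsFieldSubalgebra 2 K) (k : Matrix (Fin n) (Fin n) F) (hk : k ∈ K) (hk0 : k ≠ 0)
    (v : Fin n → F) (hv : k *ᵥ v = 0) : v = 0 := by
  obtain ⟨y, hy, hky⟩ := hK.inv k hk hk0
  have h1 : y * k = 1 := by rw [hK.comm y hy k hk, hky]
  have := congrArg (fun w => y *ᵥ w) hv
  simpa [Matrix.mulVec_mulVec, h1] using this

open Matrix in
theorem no_reflection {F : Type*} [Field F] {n : ℕ} (hn : 3 ≤ n) (K : Subalgebra F (Matrix (Fin n) (Fin n) F))
    (hK : Cfsg.Geo.IsFieldSubalgebra 2 K) (g : GL (Fin n) F) (hg : g ∈ Cfsg.Geo.subalgebraNormalizer K)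
    (μ : F) (hμ : μ ≠ 0) (u φ : Fin n → F) (hu : u ≠ 0) (hφ : φ ≠ 0)
    (hgm : (g : Matrix (Fin n) (Fin n) F) = μ • (1 + Matrix.vecMulVec u φ)) : False := by
  classical
  obtain ⟨k0, hk0, hne, -⟩ := exists_gen K hK
  set N := Matrix.vecMulVec u φ with hN
  have hNv : ∀ v, N *ᵥ v = (φ ⬝ᵥ v) • u := by
    intro v
    rw [hN, Matrix.vecMulVec_mulVec]
    ext i
    simp [mul_comm]
  have hcomm : ∀ k ∈ K, N * k = k * N := by
    intro k hk
    obtain ⟨k', hk'K, h1⟩ : ∃ k' ∈ K, (g : Matrix (Fin n) (Fin n) F) * k = k' * (g : Matrix (Fin n) (Fin n) F) := by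
      refine ⟨_, (hg k).1 hk, ?_⟩
      rw [Matrix.mul_assoc _ _ (g : Matrix (Fin n) (Fin n) F), ← Units.val_mul, inv_mul_cancel, Units.val_one, Matrix.mul_one]
    rw [hgm, Matrix.smul_mul, Matrix.mul_smul] at h1
    have h2 : (1 + N) * k = k' * (1 + N) := by
      have := congrArg (fun M => μ⁻¹ • M) h1
      simpa [smul_smul, inv_mul_cancel₀ hμ] using this
    rw [Matrix.add_mul, Matrix.mul_add, Matrix.one_mul, Matrix.mul_one] at h2
    have h3 : k - k' = k' * N - N * k := by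
      rw [sub_eq_sub_iff_add_eq_add, h2, add_comm]
    have h4 : k - k' = 0 := by
      by_contra hne'
      -- find v
      let f : (Fin n → F) →ₗ[F] (Fin 2 → F) := Matrix.mulVecLin (Matrix.of ![φ, φ ᵥ* k])
      have hker : LinearMap.ker f ≠ ⊥ := by
        apply LinearMap.ker_ne_bot_of_finrank_lt
        simp; omega
      obtain ⟨v, hv, hv0⟩ := (Submodule.ne_bot_iff _).1 hker
      rw [LinearMap.mem_ker] at hv
      have e1 : φ ⬝ᵥ v = 0 := congrFun hv 0
      have e2 : (φ ᵥ* k) ⬝ᵥ v = 0 := congrFun hv 1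
      apply hv0
      apply inj_of_mem K hK (k - k') (K.sub_mem hk hk'K) hne'
      rw [h3, Matrix.sub_mulVec, ← Matrix.mulVec_mulVec, ← Matrix.mulVec_mulVec, hNv, hNv, e1, zero_smul, Matrix.mulVec_zero,
        Matrix.dotProduct_mulVec, e2, zero_smul, sub_zero]
    rw [sub_eq_zero] at h4
    rw [← h4] at h3
    have h5 : k * N - N * k = 0 := by rw [← h3, sub_self]
    exact (sub_eq_zero.1 h5).symm
  obtain ⟨w, hw⟩ : ∃ w, φ ⬝ᵥ w = 1 := by
    obtain ⟨i, hi⟩ := Function.ne_iff.1 hφ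
    refine ⟨Pi.single i (φ i)⁻¹, ?_⟩
    rw [dotProduct_single, mul_inv_cancel₀ hi]
  have h1 : k0 *ᵥ u = (φ ⬝ᵥ (k0 *ᵥ w)) • u := by
    have e1 := congrArg (fun M => M *ᵥ w) (hcomm k0 hk0)
    simp only [← Matrix.mulVec_mulVec] at e1
    rw [hNv, hNv, hw, one_smul] at e1
    exact e1.symm
  have h2 : k0 - (φ ⬝ᵥ (k0 *ᵥ w)) • (1 : Matrix (Fin n) (Fin n) F) = 0 := by
    by_contra hne'
    apply hu
    apply inj_of_mem K hK _ (K.sub_mem hk0 (K.smul_mem K.one_mem _)) hne'
    rw [Matrix.sub_mulVec, h1, Matrix.smul_mulVec, Matrix.one_mulVec, sub_self]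
  exact hne _ (sub_eq_zero.1 h2)

open Matrix in
theorem no_reflection' {F : Type*} [Field F] {n : ℕ} (hn : 3 ≤ n) (K : Subalgebra F (Matrix (Fin n) (Fin n) F))
    (hK : Cfsg.Geo.IsFieldSubalgebra 2 K) (x P : Matrix.SpecialLinearGroup (Fin n) F)
    (μ : F) (hμ : μ ≠ 0) (u φ : Fin n → F) (hu : u ≠ 0) (hφ : φ ≠ 0)
    (hx : (x : Matrix (Fin n) (Fin n) F) = μ • (1 + Matrix.vecMulVec u φ))
    (hP : P⁻¹ * x * P ∈ ((Cfsg.Geo.subalgebraNormalizer K).comap
      (Matrix.SpecialLinearGroup.toGL : Matrix.SpecialLinearGroup (Fin n) F →* GL (Fin n) F))) : False := by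
  set Pm := (P : Matrix (Fin n) (Fin n) F) with hPm
  set Pi' := ((P⁻¹ : Matrix.SpecialLinearGroup (Fin n) F) : Matrix (Fin n) (Fin n) F) with hPi'
  have hPP : Pm * Pi' = 1 := by
    rw [hPm, hPi', ← Matrix.SpecialLinearGroup.coe_mul, mul_inv_cancel, Matrix.SpecialLinearGroup.coe_one]
  have hPP' : Pi' * Pm = 1 := by
    rw [hPm, hPi', ← Matrix.SpecialLinearGroup.coe_mul, inv_mul_cancel, Matrix.SpecialLinearGroup.coe_one]
  refine no_reflection hn K hK _ (Subgroup.mem_comap.1 hP) μ hμ (Pi' *ᵥ u) (φ ᵥ* Pm) ?_ ?_ ?_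
  · intro h
    apply hu
    have := congrArg (fun w => Pm *ᵥ w) h
    simpa [Matrix.mulVec_mulVec, hPP] using this
  · intro h
    apply hφ
    have := congrArg (fun w => w ᵥ* Pi') h
    simpa [Matrix.vecMul_vecMul, hPP] using this
  · show ((P⁻¹ * x * P : Matrix.SpecialLinearGroup (Fin n) F) : Matrix (Fin n) (Fin n) F) = _
    rw [Matrix.SpecialLinearGroup.coe_mul, Matrix.SpecialLinearGroup.coe_mul, hx, Matrix.mul_smul, Matrix.smul_mul]
    rw [← hPm, ← hPi', Matrix.mul_add, Matrix.mul_one, Matrix.add_mul, hPP', Matrix.mul_vecMulVec, Matrix.vecMulVec_mul]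

open Matrix in
theorem fwd {F : Type*} [Field F] [Fintype F] (n : ℕ) (hn : 4 ≤ n)
    (K : Subalgebra F (Matrix (Fin n) (Fin n) F)) (hK : Cfsg.Geo.IsFieldSubalgebra 2 K)
    (hcon : ¬ (Odd (Fintype.card F) ∧ padicValNat 2 (Fintype.card F - 1) ≤ padicValNat 2 n)) :
    ∃ (x : Matrix.SpecialLinearGroup (Fin n) F) (z : F),
      ((x ^ 2 : Matrix.SpecialLinearGroup (Fin n) F) : Matrix (Fin n) (Fin n) F) = z • (1 : Matrix (Fin n) (Fin n) F) ∧
      (∀ z : F, (x : Matrix (Fin n) (Fin n) F) ≠ z • (1 : Matrix (Fin n) (Fin n) F)) ∧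
      ∀ P : Matrix.SpecialLinearGroup (Fin n) F, P⁻¹ * x * P ∉ ((Cfsg.Geo.subalgebraNormalizer K).comap
        (Matrix.SpecialLinearGroup.toGL : Matrix.SpecialLinearGroup (Fin n) F →* GL (Fin n) F)) := by
  classical
  set i0 : Fin n := ⟨0, by omega⟩ with hi0
  set i1 : Fin n := ⟨1, by omega⟩ with hi1
  have h01 : i0 ≠ i1 := by simp [hi0, hi1]
  by_cases hodd : Odd (Fintype.card F)
  · have hlt : padicValNat 2 n < padicValNat 2 (Fintype.card F - 1) := by
      by_contra h
      exact hcon ⟨hodd, not_lt.1 h⟩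
    have h2 : (2 : F) ≠ 0 := H99.PowNegOne.two_ne_zero_of_neg_one_ne_one (H99.PowNegOne.neg_one_ne_one hodd)
    obtain ⟨μ, hμ⟩ := H99.PowNegOne.exists_pow_eq_neg_one hodd n (by omega) hlt
    have hμ0 : μ ≠ 0 := by
      rintro rfl
      rw [zero_pow (by omega)] at hμ
      exact one_ne_zero (α := F) (by linear_combination hμ)
    set D : Matrix (Fin n) (Fin n) F := Matrix.diagonal (fun i => if i = i0 then -μ else μ) with hD
    have hdet : D.det = 1 := by
      rw [hD, Matrix.det_diagonal]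
      have h3 : ∀ i : Fin n, (if i = i0 then -μ else μ) = μ * (if i = i0 then -1 else 1) := by
        intro i; by_cases h : i = i0 <;> simp [h]
      rw [Finset.prod_congr rfl (fun i _ => h3 i), Finset.prod_mul_distrib, Finset.prod_ite_eq']
      simp [hμ]
    let D' : Matrix.SpecialLinearGroup (Fin n) F := ⟨D, hdet⟩
    have hD' : (D' : Matrix (Fin n) (Fin n) F) = D := rfl
    refine ⟨D', μ * μ, ?_, ?_, ?_⟩
    · rw [Matrix.SpecialLinearGroup.coe_pow, hD']
      rw [hD, sq, Matrix.diagonal_mul_diagonal, Matrix.smul_one_eq_diagonal]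
      congr 1
      funext i
      by_cases h : i = i0 <;> simp [h]
    · intro w hw
      have hw' : D = w • (1 : Matrix (Fin n) (Fin n) F) := hw
      have e1 := congrFun (congrFun hw' i0) i0
      have e2 := congrFun (congrFun hw' i1) i1
      simp [hD, h01.symm] at e1 e2
      rw [← e1] at e2
      apply h2
      have h3 : (2 : F) * μ = 0 := by linear_combination e2
      rcases mul_eq_zero.1 h3 with h | h
      · exact h
      · exact absurd h hμ0
    · intro P hP
      refine no_reflection' (by omega) K hK D' P μ hμ0 (Pi.single i0 1) (Pi.single i0 (-2)) ?_ ?_ ?_ hP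
      · intro h
        have := congrFun h i0
        simp at this
      · intro h
        have := congrFun h i0
        simp at this
        exact h2 this
      · rw [hD']
        ext i j
        rw [hD, Matrix.smul_apply, Matrix.add_apply, Matrix.vecMulVec_apply, Matrix.diagonal_apply, Matrix.one_apply]
        by_cases hij : i = j
        · subst hij
          by_cases h : i = i0
          · subst h; simp; ring
          · simp [h]
        · rw [if_neg hij, if_neg hij]
          by_cases h : i = i0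
          · subst h
            simp [Ne.symm hij, Pi.single_apply]
          · simp [h]
  · have hchar : (2 : F) = 0 := by
      have h1 : Fintype.card F % 2 = 0 := Nat.even_iff.1 (Nat.not_odd_iff_even.1 hodd)
      have h2 := FiniteField.even_card_iff_char_two.2 h1
      have := ringChar.spec F 2
      have h3 := (this.2 (by rw [h2]))
      exact_mod_cast h3
    set T : Matrix (Fin n) (Fin n) F := 1 + Matrix.vecMulVec (Pi.single i0 1) (Pi.single i1 1) with hT
    have hT' : T = Matrix.transvection i0 i1 (1 : F) := by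
      rw [hT, Matrix.transvection, Matrix.single_eq_single_vecMulVec_single]
    have hdet : T.det = 1 := by
      rw [hT']; exact Matrix.det_transvection_of_ne _ _ h01 _
    let D' : Matrix.SpecialLinearGroup (Fin n) F := ⟨T, hdet⟩
    have hD' : (D' : Matrix (Fin n) (Fin n) F) = T := rfl
    refine ⟨D', 1, ?_, ?_, ?_⟩
    · rw [Matrix.SpecialLinearGroup.coe_pow, hD', hT', sq, Matrix.transvection_mul_transvection_same _ _ h01]
      have : (1 : F) + 1 = 0 := by linear_combination hchar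
      rw [this, Matrix.transvection_zero, one_smul]
    · intro w hw
      have hw' : T = w • (1 : Matrix (Fin n) (Fin n) F) := hw
      have e1 := congrFun (congrFun hw' i0) i1
      rw [hT, Matrix.add_apply, Matrix.one_apply_ne h01, Matrix.smul_apply, Matrix.one_apply_ne h01, Matrix.vecMulVec_apply] at e1
      simp at e1
    · intro P hP
      refine no_reflection' (by omega) K hK D' P 1 one_ne_zero (Pi.single i0 1) (Pi.single i1 1) ?_ ?_ ?_ hP
      · intro h
        have := congrFun h i0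
        simp at this
      · intro h
        have := congrFun h i1
        simp at this
      · rw [hD', one_smul]

open Matrix in
def tau2 (k' m' : ℕ) : (Fin (2 * k') ⊕ Fin (2 * m')) ≃ (Fin 2 × (Fin k' ⊕ Fin m')) :=
  (Equiv.sumCongr finProdFinEquiv.symm finProdFinEquiv.symm).trans (Equiv.prodSumDistrib _ _ _).symm

open Matrix in
theorem tau2_dg {F : Type*} [Field F] (k' m' : ℕ) (μ : F) :
    Matrix.reindex (tau2 k' m') (tau2 k' m') (H99.Diag.dg (2 * k') (2 * m') μ) =
      Matrix.blockDiagonal (Sum.elim (fun _ => (-μ) • (1 : Matrix (Fin 2) (Fin 2) F)) (fun _ => μ • (1 : Matrix (Fin 2) (Fin 2) F))) := by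
  rw [← Equiv.eq_symm_apply]
  ext x y
  simp only [Matrix.reindex_symm, Matrix.reindex_apply, Equiv.symm_symm, Matrix.submatrix_apply, tau2, H99.Diag.dg,
    Matrix.blockDiagonal_apply, Matrix.diagonal_apply]
  rcases x with x | x <;> rcases y with y | y
  · simp only [Equiv.trans_apply, Equiv.sumCongr_apply, Sum.map_inl, Equiv.prodSumDistrib_symm_apply_left,
      Sum.inl.injEq, Sum.elim_inl]
    have h : x = y ↔ finProdFinEquiv.symm x = finProdFinEquiv.symm y := (Equiv.injective _).eq_iff.symm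
    rw [Prod.ext_iff] at h
    generalize finProdFinEquiv.symm x = p at *
    generalize finProdFinEquiv.symm y = p' at *
    obtain ⟨a, i⟩ := p
    obtain ⟨b, j⟩ := p'
    simp only at h
    by_cases hij : i = j
    · rw [if_pos hij]
      by_cases hab : a = b
      · rw [if_pos (h.2 ⟨hab, hij⟩), Matrix.smul_apply, hab, Matrix.one_apply_eq]; simp
      · rw [if_neg (fun h' => hab (h.1 h').1), Matrix.smul_apply, Matrix.one_apply_ne hab, smul_zero]
    · rw [if_neg hij, if_neg (fun h' => hij (h.1 h').2)]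
  · simp
  · simp
  · simp only [Equiv.trans_apply, Equiv.sumCongr_apply, Sum.map_inr, Equiv.prodSumDistrib_symm_apply_right,
      Sum.inr.injEq, Sum.elim_inr]
    have h : x = y ↔ finProdFinEquiv.symm x = finProdFinEquiv.symm y := (Equiv.injective _).eq_iff.symm
    rw [Prod.ext_iff] at h
    generalize finProdFinEquiv.symm x = p at *
    generalize finProdFinEquiv.symm y = p' at *
    obtain ⟨a, i⟩ := p
    obtain ⟨b, j⟩ := p'
    simp only at h
    by_cases hij : i = j
    · rw [if_pos hij]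
      by_cases hab : a = b
      · rw [if_pos (h.2 ⟨hab, hij⟩), Matrix.smul_apply, hab, Matrix.one_apply_eq]; simp
      · rw [if_neg (fun h' => hab (h.1 h').1), Matrix.smul_apply, Matrix.one_apply_ne hab, smul_zero]
    · rw [if_neg hij, if_neg (fun h' => hij (h.1 h').2)]

open Matrix in
theorem sq_zero {F : Type*} [Field F] {n : ℕ} (K : Subalgebra F (Matrix (Fin n) (Fin n) F))
    (hK : Cfsg.Geo.IsFieldSubalgebra 2 K) (a b : Matrix (Fin n) (Fin n) F) (ha : a ∈ K) (hb : b ∈ K) (hab : a * b = 0) :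
    a = 0 ∨ b = 0 := by
  by_cases h : a = 0
  · exact Or.inl h
  · right
    obtain ⟨y, hy, hky⟩ := hK.inv a ha h
    have h1 : y * a = 1 := by rw [hK.comm y hy a ha, hky]
    calc b = y * a * b := by rw [h1, Matrix.one_mul]
      _ = 0 := by rw [Matrix.mul_assoc, hab, Matrix.mul_zero]

open Matrix in
theorem conj_trans {F : Type*} [Field F] {n : ℕ} (x y S R1 R2 : Matrix (Fin n) (Fin n) F) (h1 : x * R1 = R1 * S)
    (h2 : y * R2 = R2 * S) (hR2 : R2.det ≠ 0) : x * (R1 * R2⁻¹) = (R1 * R2⁻¹) * y := by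
  have hu : IsUnit R2.det := isUnit_iff_ne_zero.2 hR2
  calc x * (R1 * R2⁻¹) = R1 * S * R2⁻¹ := by rw [← Matrix.mul_assoc, h1]
    _ = R1 * (R2⁻¹ * (R2 * S)) * R2⁻¹ := by rw [← Matrix.mul_assoc R2⁻¹, Matrix.nonsing_inv_mul _ hu, Matrix.one_mul]
    _ = R1 * (R2⁻¹ * (y * R2)) * R2⁻¹ := by rw [h2]
    _ = (R1 * R2⁻¹) * y * (R2 * R2⁻¹) := by simp only [Matrix.mul_assoc]
    _ = _ := by rw [Matrix.mul_nonsing_inv _ hu, Matrix.mul_one]

open Matrix in
theorem det_mul_inv_ne {F : Type*} [Field F] {n : ℕ} (R1 R2 : Matrix (Fin n) (Fin n) F) (h1 : R1.det ≠ 0) (h2 : R2.det ≠ 0) :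
    (R1 * R2⁻¹).det ≠ 0 := by
  rw [Matrix.det_mul, Matrix.det_nonsing_inv, Ring.inverse_eq_inv]
  exact mul_ne_zero h1 (inv_ne_zero h2)

open Matrix in
theorem bwd_two {F : Type*} [Field F] [Fintype F]
    (K : Subalgebra F (Matrix (Fin 2) (Fin 2) F)) (hK : Cfsg.Geo.IsFieldSubalgebra 2 K)
    (x : Matrix.SpecialLinearGroup (Fin 2) F) (z : F)
    (hx : ((x ^ 2 : Matrix.SpecialLinearGroup (Fin 2) F) : Matrix (Fin 2) (Fin 2) F) = z • (1 : Matrix (Fin 2) (Fin 2) F))
    (hns : ∀ z : F, (x : Matrix (Fin 2) (Fin 2) F) ≠ z • (1 : Matrix (Fin 2) (Fin 2) F)) :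
    ∃ P : Matrix.SpecialLinearGroup (Fin 2) F, P⁻¹ * x * P ∈ ((Cfsg.Geo.subalgebraNormalizer K).comap
      (Matrix.SpecialLinearGroup.toGL : Matrix.SpecialLinearGroup (Fin 2) F →* GL (Fin 2) F)) := by
  classical
  set X := (x : Matrix (Fin 2) (Fin 2) F) with hXdef
  have hX : X * X = z • (1 : Matrix (Fin 2) (Fin 2) F) := by
    rw [← hx, pow_two, Matrix.SpecialLinearGroup.coe_mul]
  have hdet : X.det = 1 := x.2
  have hc := H99.Mat2.cayley X
  rw [hX, hdet, one_smul] at hc
  have htr : X.trace = 0 := by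
    by_contra htr
    apply hns (X.trace⁻¹ * (z + 1))
    have h1 : X.trace • X = (z + 1) • (1 : Matrix (Fin 2) (Fin 2) F) := by
      rw [add_smul, one_smul, hc]; simp
    have := congrArg (fun M => (X.trace)⁻¹ • M) h1
    simpa [smul_smul, inv_mul_cancel₀ htr] using this
  rw [htr, zero_smul, zero_sub] at hc
  have hz1 : z = -1 := by
    have := congrFun (congrFun hc 0) 0
    simpa using this
  subst hz1
  obtain ⟨k0, hk0, hne, hgen⟩ := exists_gen K hK
  set t := k0.trace with ht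
  set m := k0.det with hm
  have hk0c := H99.Mat2.cayley k0
  rw [← ht, ← hm] at hk0c
  have hdisc : t ^ 2 - 4 * m ≠ 0 := by
    intro h0
    by_cases h2 : (2 : F) = 0
    · have h4 : (4 : F) = 0 := by
        have : (4 : F) = 2 * 2 := by norm_num
        rw [this, h2, zero_mul]
      rw [h4, zero_mul, sub_zero] at h0
      have ht0 : t = 0 := pow_eq_zero_iff (by norm_num) |>.1 h0
      rw [ht0, zero_smul, zero_sub] at hk0c
      have hch : ringChar F = 2 := by
        have h' : ((2 : ℕ) : F) = 0 := by exact_mod_cast h2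
        have := ringChar.dvd h'
        rcases (Nat.dvd_prime Nat.prime_two).1 this with h1 | h1
        · exfalso
          have h3 := ringChar.spec F 1
          rw [h1] at h3
          have := h3.2 dvd_rfl
          exact one_ne_zero (α := F) (by exact_mod_cast this)
        · exact h1
      obtain ⟨s, hs⟩ := FiniteField.isSquare_of_char_two hch m
      have h5 : (k0 - s • (1 : Matrix (Fin 2) (Fin 2) F)) * (k0 - s • (1 : Matrix (Fin 2) (Fin 2) F)) = 0 := by
        rw [Matrix.mul_sub, Matrix.sub_mul, Matrix.sub_mul, hk0c, Matrix.mul_smul, Matrix.mul_one, Matrix.smul_mul, Matrix.one_mul,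
          Matrix.mul_smul, Matrix.mul_one, smul_smul, hs]
        have h6 : ∀ c : F, c + c = 0 := fun c => by linear_combination c * h2
        ext i j
        simp only [Matrix.sub_apply, Matrix.neg_apply, Matrix.smul_apply, smul_eq_mul, Matrix.zero_apply]
        have e1 := h6 (s * s * (1 : Matrix (Fin 2) (Fin 2) F) i j)
        have e2 := h6 (s * k0 i j)
        linear_combination -e2 
      have h7 := K.sub_mem hk0 (K.smul_mem K.one_mem s)
      rcases sq_zero K hK _ _ h7 h7 h5 with h8 | h8 <;> exact hne s (sub_eq_zero.1 h8)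
    · have h5 : (k0 - (t / 2) • (1 : Matrix (Fin 2) (Fin 2) F)) * (k0 - (t / 2) • (1 : Matrix (Fin 2) (Fin 2) F)) = 0 := by
        rw [Matrix.mul_sub, Matrix.sub_mul, Matrix.sub_mul, hk0c, Matrix.mul_smul, Matrix.mul_one, Matrix.smul_mul, Matrix.one_mul,
          Matrix.mul_smul, Matrix.mul_one, smul_smul]
        ext i j
        simp only [Matrix.sub_apply, Matrix.neg_apply, Matrix.smul_apply, smul_eq_mul, Matrix.zero_apply]
        have e0 : t / 2 + t / 2 = t := by field_simp; ring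
        have e1 : t / 2 * (t / 2) = m := by
          have : t ^ 2 = 4 * m := by linear_combination h0
          field_simp
          linear_combination this
        linear_combination (1 : Matrix (Fin 2) (Fin 2) F) i j * e1 - k0 i j * e0
      have h7 := K.sub_mem hk0 (K.smul_mem K.one_mem (t / 2))
      rcases sq_zero K hK _ _ h7 h7 h5 with h8 | h8 <;> exact hne _ (sub_eq_zero.1 h8)
  -- solve the norm equation
  obtain ⟨a, c, hac, hns0⟩ : ∃ a c : F, a ^ 2 + t * a * c + m * c ^ 2 = -1 ∧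
      (c = 0 → a * t = 0 → (2 : F) * a = 0 → False) := by
    rcases Nat.mod_two_eq_zero_or_one (Fintype.card F) with h | h
    · have hch := FiniteField.even_card_iff_char_two.2 h
      have h2 : (2 : F) = 0 := by
        have := (ringChar.spec F 2).2 (by rw [hch])
        exact_mod_cast this
      refine ⟨1, 0, by linear_combination h2, fun _ h1 _ => ?_⟩
      apply hdisc
      have h4 : (4 : F) = 2 * 2 := by norm_num
      rw [h4, h2]
      rw [one_mul] at h1
      rw [h1]; ring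
    · obtain ⟨a, c, hac⟩ := H99.Mat2.exists_norm_eq h t m hdisc (-1)
      have h2 : (2 : F) ≠ 0 := by
        apply Ring.two_ne_zero
        intro h'
        have := FiniteField.even_card_iff_char_two.1 h'
        omega
      refine ⟨a, c, hac, fun hc _ h2a => ?_⟩
      have ha : a = 0 := by
        rcases mul_eq_zero.1 h2a with h3 | h3
        · exact absurd h3 h2
        · exact h3
      rw [hc, ha] at hac
      exact one_ne_zero (α := F) (by linear_combination hac)
  set Y0 : Matrix (Fin 2) (Fin 2) F := !![a, m * c + a * t; c, -a] with hY0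
  have hY0tr : Y0.trace = 0 := by rw [hY0, Matrix.trace_fin_two]; simp
  have hY0det : Y0.det = 1 := by
    rw [hY0, Matrix.det_fin_two]; simp; linear_combination -hac
  have hY0ns : ∀ z : F, Y0 ≠ z • (1 : Matrix (Fin 2) (Fin 2) F) := by
    intro w hw
    have e1 := congrFun (congrFun hw 0) 0
    have e2 := congrFun (congrFun hw 1) 1
    have e3 := congrFun (congrFun hw 0) 1
    have e4 := congrFun (congrFun hw 1) 0
    simp [hY0] at e1 e2 e3 e4
    apply hns0 e4
    · rw [e4] at e3; linear_combination e3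
    · linear_combination e1 - e2
  have hY0sq : Y0 * Y0 = (-1 : F) • (1 : Matrix (Fin 2) (Fin 2) F) := by
    have := H99.Mat2.cayley Y0
    rw [hY0tr, hY0det] at this
    rw [this]; simp
  obtain ⟨R1, hR1, hXR1⟩ := H99.Mat2.exists_cyclic X hns
  obtain ⟨R2, hR2, hYR2⟩ := H99.Mat2.exists_cyclic Y0 hY0ns
  obtain ⟨R3, hR3, hkR3⟩ := H99.Mat2.exists_cyclic k0 hne
  rw [htr, hdet] at hXR1
  rw [hY0tr, hY0det] at hYR2
  have h3 := conj_trans X Y0 _ R1 R2 hXR1 hYR2 hR2
  have hu3 : IsUnit R3.det := isUnit_iff_ne_zero.2 hR3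
  set Y := R3 * Y0 * R3⁻¹ with hY
  have hR33 : R3⁻¹ * R3 = 1 := Matrix.nonsing_inv_mul _ hu3
  have hR33' : R3 * R3⁻¹ = 1 := Matrix.mul_nonsing_inv _ hu3
  have hYY : Y * Y = (-1 : F) • (1 : Matrix (Fin 2) (Fin 2) F) := by
    calc Y * Y = R3 * Y0 * (R3⁻¹ * R3) * Y0 * R3⁻¹ := by rw [hY]; simp only [Matrix.mul_assoc]
      _ = R3 * (Y0 * Y0) * R3⁻¹ := by rw [hR33, Matrix.mul_one]; simp only [Matrix.mul_assoc]
      _ = _ := by rw [hY0sq, Matrix.mul_smul, Matrix.mul_one, Matrix.smul_mul, hR33']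
  have hk0eq : k0 = R3 * H99.Mat2.comp2 t m * R3⁻¹ := by
    rw [← hkR3, Matrix.mul_assoc, hR33', Matrix.mul_one]
  have hY0C : Y0 * H99.Mat2.comp2 t m * Y0 = H99.Mat2.comp2 t m - t • (1 : Matrix (Fin 2) (Fin 2) F) := by
    have e1 : Y0 * H99.Mat2.comp2 t m = (t • (1 : Matrix (Fin 2) (Fin 2) F) - H99.Mat2.comp2 t m) * Y0 := by
      rw [hY0, H99.Mat2.comp2]
      ext i j
      fin_cases i <;> fin_cases j <;> simp [Matrix.mul_apply, Fin.sum_univ_two, Matrix.sub_apply] <;> ring
    rw [e1, Matrix.mul_assoc, hY0sq, Matrix.mul_smul, Matrix.mul_one, neg_smul, one_smul, neg_sub]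
  have hYk : Y * k0 * Y = k0 - t • (1 : Matrix (Fin 2) (Fin 2) F) := by
    calc Y * k0 * Y = R3 * Y0 * (R3⁻¹ * R3) * H99.Mat2.comp2 t m * (R3⁻¹ * R3) * Y0 * R3⁻¹ := by
          rw [hY, hk0eq]; simp only [Matrix.mul_assoc]
      _ = R3 * (Y0 * H99.Mat2.comp2 t m * Y0) * R3⁻¹ := by rw [hR33, Matrix.mul_one, Matrix.mul_one]; simp only [Matrix.mul_assoc]
      _ = _ := by
          rw [hY0C, Matrix.mul_sub, Matrix.sub_mul, ← hk0eq, Matrix.mul_smul, Matrix.mul_one, Matrix.smul_mul, hR33']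
  refine closeK le_rfl K x (-1) (by simp) hX Y (R1 * R2⁻¹ * R3⁻¹) ?_ ?_ ?_
  · exact det_mul_inv_ne _ _ (det_mul_inv_ne _ _ hR1 hR2) hR3
  · rw [← Matrix.mul_assoc, ← hXdef, h3, hY]
    calc R1 * R2⁻¹ * Y0 * R3⁻¹ = R1 * R2⁻¹ * (R3⁻¹ * R3) * Y0 * R3⁻¹ := by rw [hR33, Matrix.mul_one]
      _ = _ := by simp only [Matrix.mul_assoc]
  · intro k hk
    obtain ⟨α, β, rfl⟩ := hgen k hk
    have h5 : Y * (α • (1 : Matrix (Fin 2) (Fin 2) F) + β • k0) * Y =
        (-α - β * t) • (1 : Matrix (Fin 2) (Fin 2) F) + β • k0 := by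
      rw [Matrix.mul_add, Matrix.add_mul, Matrix.mul_smul, Matrix.mul_one, Matrix.smul_mul, hYY, Matrix.mul_smul, Matrix.smul_mul,
        hYk, smul_sub, smul_smul, smul_smul, sub_smul]
      simp only [mul_neg, mul_one, neg_smul]
      abel
    rw [h5]
    exact K.add_mem (K.smul_mem K.one_mem _) (K.smul_mem hk0 _)

open Matrix in
theorem bwd_odd {F : Type*} [Field F] [Fintype F] {n : ℕ} (hn : 2 ≤ n) (h2n : 2 ∣ n)
    (K : Subalgebra F (Matrix (Fin n) (Fin n) F)) (hK : Cfsg.Geo.IsFieldSubalgebra 2 K)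
    (hodd : Odd (Fintype.card F)) (hv : padicValNat 2 (Fintype.card F - 1) ≤ padicValNat 2 n)
    (x : Matrix.SpecialLinearGroup (Fin n) F) (z : F)
    (hx : ((x ^ 2 : Matrix.SpecialLinearGroup (Fin n) F) : Matrix (Fin n) (Fin n) F) = z • (1 : Matrix (Fin n) (Fin n) F)) :
    ∃ P : Matrix.SpecialLinearGroup (Fin n) F, P⁻¹ * x * P ∈ ((Cfsg.Geo.subalgebraNormalizer K).comap
      (Matrix.SpecialLinearGroup.toGL : Matrix.SpecialLinearGroup (Fin n) F →* GL (Fin n) F)) := by
  classical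
  have : Nonempty (Fin n) := ⟨⟨0, by omega⟩⟩
  set X := (x : Matrix (Fin n) (Fin n) F) with hXdef
  have hX : X * X = z • (1 : Matrix (Fin n) (Fin n) F) := by
    rw [← hx, pow_two, Matrix.SpecialLinearGroup.coe_mul]
  have hdet : X.det = 1 := x.2
  have hz : z ≠ 0 := by
    rintro rfl
    have := congrArg Matrix.det hX
    rw [Matrix.det_mul, zero_smul, Matrix.det_zero, hdet] at this
    norm_num at this
  have h2 : (2 : F) ≠ 0 := H99.PowNegOne.two_ne_zero_of_neg_one_ne_one (H99.PowNegOne.neg_one_ne_one hodd)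
  have h2c : ringChar F ≠ 2 := by
    intro h'
    have := FiniteField.even_card_iff_char_two.1 h'
    rcases hodd with ⟨k, hk⟩
    omega
  obtain ⟨k0, hk0, hne, hgen⟩ := exists_gen K hK
  obtain ⟨α, β, hab⟩ := hgen (k0 * k0) (K.mul_mem hk0 hk0)
  set k1 := k0 - (β / 2) • (1 : Matrix (Fin n) (Fin n) F) with hk1
  have hk1K : k1 ∈ K := K.sub_mem hk0 (K.smul_mem K.one_mem _)
  set δ := α + β ^ 2 / 4 with hδ
  have h4 : (4 : F) ≠ 0 := by
    have : (4 : F) = 2 * 2 := by norm_num
    rw [this]; exact mul_ne_zero h2 h2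
  have hk1sq : k1 * k1 = δ • (1 : Matrix (Fin n) (Fin n) F) := by
    rw [hk1, Matrix.mul_sub, Matrix.sub_mul, Matrix.sub_mul, hab, Matrix.mul_smul, Matrix.mul_one, Matrix.smul_mul, Matrix.one_mul,
      Matrix.mul_smul, Matrix.mul_one, smul_smul]
    ext i j
    simp only [Matrix.sub_apply, Matrix.add_apply, Matrix.smul_apply, smul_eq_mul]
    have e0 : β / 2 + β / 2 = β := by field_simp; ring
    have e1 : β / 2 * (β / 2) = β ^ 2 / 4 := by field_simp; ring
    linear_combination (1 : Matrix (Fin n) (Fin n) F) i j * e1 - k0 i j * e0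
  have hk1ns : ∀ c : F, k1 ≠ c • (1 : Matrix (Fin n) (Fin n) F) := by
    intro c hc
    apply hne (c + β / 2)
    rw [add_smul, ← hc, hk1, sub_add_cancel]
  have hgen1 : ∀ k ∈ K, ∃ α β : F, k = α • (1 : Matrix (Fin n) (Fin n) F) + β • k1 := by
    intro k hk
    obtain ⟨a, b, rfl⟩ := hgen k hk
    refine ⟨a + b * (β / 2), b, ?_⟩
    rw [hk1, smul_sub, smul_smul, add_smul]
    abel
  have hδns : ¬ IsSquare δ := by
    rintro ⟨ε, hε⟩
    have h5 : (k1 - ε • (1 : Matrix (Fin n) (Fin n) F)) * (k1 + ε • (1 : Matrix (Fin n) (Fin n) F)) = 0 := by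
      rw [Matrix.sub_mul, Matrix.mul_add, Matrix.mul_add, hk1sq, hε, Matrix.mul_smul, Matrix.mul_one, Matrix.smul_mul, Matrix.one_mul,
        Matrix.mul_smul, Matrix.mul_one, smul_smul]
      abel
    rcases sq_zero K hK _ _ (K.sub_mem hk1K (K.smul_mem K.one_mem _)) (K.add_mem hk1K (K.smul_mem K.one_mem _)) h5 with h6 | h6
    · exact hk1ns ε (sub_eq_zero.1 h6)
    · exact hk1ns (-ε) (by rw [neg_smul]; exact eq_neg_of_add_eq_zero_left h6)
  have hδ0 : δ ≠ 0 := by intro h; exact hδns (by rw [h]; exact ⟨0, by simp⟩)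
  obtain ⟨s, m, μ', g1, g2, -, -, g5⟩ := H99.SqScalar.exists_std_matrix k1 δ hk1sq
  have hm : m = 0 := by
    by_contra hm
    exact hδns ⟨μ', by rw [← pow_two]; exact (g2 (Nat.pos_of_ne_zero hm)).symm⟩
  subst hm
  rw [Fintype.card_fin, add_zero] at g1
  by_cases hsq : IsSquare z
  · obtain ⟨μ, hμ⟩ := hsq
    have hμ0 : μ ≠ 0 := by rintro rfl; apply hz; rw [hμ]; ring
    rw [hμ] at hX
    obtain ⟨k, m, f1, -, -, f4, f5⟩ := H99.Diag.exists_diag_matrix h2 X μ hμ0 hX
    rw [Fintype.card_fin] at f1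
    rw [hdet, f1] at f4
    have hkev : Even k := by
      by_contra hk
      rw [Nat.not_even_iff_odd] at hk
      rw [hk.neg_one_pow] at f4
      exact H99.PowNegOne.pow_ne_neg_one hodd n (by omega) hv μ (by linear_combination f4)
    obtain ⟨k', rfl⟩ := even_iff_two_dvd.1 hkev
    obtain ⟨n', rfl⟩ := h2n
    obtain ⟨m', rfl⟩ : ∃ m', m = 2 * m' := ⟨n' - k', by omega⟩
    have hcard : Fintype.card (Fin 2 × (Fin k' ⊕ Fin m')) = Fintype.card (Fin (2 * n')) := by
      simp; omega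
    let e'' : (Fin 2 × (Fin k' ⊕ Fin m')) ≃ Fin (2 * n') := Fintype.equivOfCardEq hcard
    have hcard2 : Fintype.card (Fin s) = Fintype.card (Fin k' ⊕ Fin m') := by
      simp; omega
    let f : Fin s ≃ (Fin k' ⊕ Fin m') := Fintype.equivOfCardEq hcard2
    obtain ⟨R1, hR1, hXR1⟩ := f5 ((tau2 k' m').trans e'')
    obtain ⟨R2, hR2, hkR2⟩ := g5 ((Equiv.sumEmpty (Fin 2 × Fin s) (Fin 0)).trans ((Equiv.prodCongr (Equiv.refl _) f).trans e''))
    set D2 : (Fin k' ⊕ Fin m') → Matrix (Fin 2) (Fin 2) F :=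
      Sum.elim (fun _ => (-μ) • (1 : Matrix (Fin 2) (Fin 2) F)) (fun _ => μ • (1 : Matrix (Fin 2) (Fin 2) F)) with hD2
    have e1 : Matrix.reindex ((tau2 k' m').trans e'') ((tau2 k' m').trans e'') (H99.Diag.dg (2 * k') (2 * m') μ) =
        Matrix.reindex e'' e'' (Matrix.blockDiagonal D2) := by
      rw [hD2, ← tau2_dg]; rfl
    have e2 : Matrix.reindex ((Equiv.sumEmpty (Fin 2 × Fin s) (Fin 0)).trans ((Equiv.prodCongr (Equiv.refl _) f).trans e''))
        ((Equiv.sumEmpty (Fin 2 × Fin s) (Fin 0)).trans ((Equiv.prodCongr (Equiv.refl _) f).trans e'')) (H99.SqScalar.std s 0 δ μ') =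
        Matrix.reindex e'' e'' (Matrix.blockDiagonal (fun _ => !![0, δ; 1, 0])) := by
      ext i j
      simp only [Matrix.reindex_apply, Matrix.submatrix_apply, Equiv.symm_trans_apply]
      generalize e''.symm i = i'
      generalize e''.symm j = j'
      obtain ⟨a, i'⟩ := i'
      obtain ⟨b, j'⟩ := j'
      have e3 : ∀ a i', (Equiv.sumEmpty (Fin 2 × Fin s) (Fin 0)).symm ((Equiv.prodCongr (Equiv.refl (Fin 2)) f).symm (a, i')) =
        Sum.inl (a, f.symm i') := fun a i' => rfl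
      rw [e3, e3, H99.SqScalar.std, Matrix.fromBlocks_apply₁₁, Matrix.blockDiagonal_apply, Matrix.blockDiagonal_apply]
      simp only [EmbeddingLike.apply_eq_iff_eq]
    rw [e1] at hXR1
    rw [e2] at hkR2
    set Y1 := Matrix.reindex e'' e'' (Matrix.blockDiagonal D2) with hY1
    set Z1 := Matrix.reindex e'' e'' (Matrix.blockDiagonal (fun _ => !![0, δ; 1, 0])) with hZ1
    have hYZ : Y1 * Z1 = Z1 * Y1 := by
      rw [hY1, hZ1, Matrix.reindex_apply, Matrix.reindex_apply, Matrix.submatrix_mul_equiv, Matrix.submatrix_mul_equiv,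
        ← Matrix.blockDiagonal_mul, ← Matrix.blockDiagonal_mul]
      congr 2
      funext i
      rcases i with i | i <;> simp [hD2]
    have hu2 : IsUnit R2.det := isUnit_iff_ne_zero.2 hR2
    have hR22 : R2⁻¹ * R2 = 1 := Matrix.nonsing_inv_mul _ hu2
    have hR22' : R2 * R2⁻¹ = 1 := Matrix.mul_nonsing_inv _ hu2
    set Y := R2 * Y1 * R2⁻¹ with hY
    have hYR : Y * R2 = R2 * Y1 := by rw [hY, Matrix.mul_assoc, hR22, Matrix.mul_one]
    have hk1eq : k1 = R2 * Z1 * R2⁻¹ := by rw [← hkR2, Matrix.mul_assoc, hR22', Matrix.mul_one]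
    have hYk1 : Y * k1 = k1 * Y := by
      calc Y * k1 = R2 * Y1 * (R2⁻¹ * R2) * Z1 * R2⁻¹ := by rw [hY, hk1eq]; simp only [Matrix.mul_assoc]
        _ = R2 * (Y1 * Z1) * R2⁻¹ := by rw [hR22, Matrix.mul_one]; simp only [Matrix.mul_assoc]
        _ = R2 * Z1 * (R2⁻¹ * R2) * Y1 * R2⁻¹ := by rw [hYZ, hR22, Matrix.mul_one]; simp only [Matrix.mul_assoc]
        _ = _ := by rw [hY, hk1eq]; simp only [Matrix.mul_assoc]
    have hconj := conj_trans X Y Y1 R1 R2 hXR1 hYR hR2
    have hYY : Y * Y = (μ * μ) • (1 : Matrix (Fin (2 * n')) (Fin (2 * n')) F) := by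
      have h1 : Y1 * Y1 = (μ * μ) • (1 : Matrix (Fin (2 * n')) (Fin (2 * n')) F) := by
        rw [hY1, Matrix.reindex_apply, Matrix.submatrix_mul_equiv, ← Matrix.blockDiagonal_mul]
        have : (fun i => D2 i * D2 i) = fun _ => (μ * μ) • (1 : Matrix (Fin 2) (Fin 2) F) := by
          funext i
          rcases i with i | i <;> simp [hD2, smul_smul]
        rw [this]
        have h3 : Matrix.blockDiagonal (fun _ : (Fin k' ⊕ Fin m') => (μ * μ) • (1 : Matrix (Fin 2) (Fin 2) F)) =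
          (μ * μ) • (1 : Matrix (Fin 2 × (Fin k' ⊕ Fin m')) (Fin 2 × (Fin k' ⊕ Fin m')) F) := by
          rw [← Matrix.blockDiagonal_one, ← Matrix.blockDiagonal_smul]; rfl
        rw [h3, Matrix.submatrix_smul, Pi.smul_apply, Pi.smul_apply, Matrix.submatrix_one_equiv]
      calc Y * Y = R2 * Y1 * (R2⁻¹ * R2) * Y1 * R2⁻¹ := by rw [hY]; simp only [Matrix.mul_assoc]
        _ = R2 * (Y1 * Y1) * R2⁻¹ := by rw [hR22, Matrix.mul_one]; simp only [Matrix.mul_assoc]
        _ = _ := by rw [h1, Matrix.mul_smul, Matrix.mul_one, Matrix.smul_mul, hR22']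
    refine closeK hn K x z hz (by rw [hμ]; exact hX) Y (R1 * R2⁻¹) (det_mul_inv_ne _ _ hR1 hR2) hconj ?_
    intro k hk
    obtain ⟨a, b, rfl⟩ := hgen1 k hk
    have h6 : Y * (a • (1 : Matrix (Fin (2 * n')) (Fin (2 * n')) F) + b • k1) * Y =
        (μ * μ) • (a • (1 : Matrix (Fin (2 * n')) (Fin (2 * n')) F) + b • k1) := by
      have h7 : Y * (a • (1 : Matrix (Fin (2 * n')) (Fin (2 * n')) F) + b • k1) =
        (a • (1 : Matrix (Fin (2 * n')) (Fin (2 * n')) F) + b • k1) * Y := by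
        rw [Matrix.mul_add, Matrix.add_mul, Matrix.mul_smul, Matrix.mul_one, Matrix.smul_mul, Matrix.one_mul, Matrix.mul_smul,
          Matrix.smul_mul, hYk1]
      rw [h7, Matrix.mul_assoc, hYY, Matrix.mul_smul, Matrix.mul_one]
    rw [h6]
    exact K.smul_mem hk _
  · -- z is not a square
    have hzδ : IsSquare (z / δ) := by
      rw [FiniteField.isSquare_iff h2c (div_ne_zero hz hδ0), div_pow]
      have a1 : z ^ (Fintype.card F / 2) = -1 := by
        rcases FiniteField.pow_dichotomy h2c hz with h | h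
        · exact absurd ((FiniteField.isSquare_iff h2c hz).2 h) hsq
        · exact h
      have a2 : δ ^ (Fintype.card F / 2) = -1 := by
        rcases FiniteField.pow_dichotomy h2c hδ0 with h | h
        · exact absurd ((FiniteField.isSquare_iff h2c hδ0).2 h) hδns
        · exact h
      rw [a1, a2]; norm_num
    obtain ⟨c, hc⟩ := hzδ
    have hzc : c * c * δ = z := by rw [← hc, div_mul_cancel₀ _ hδ0]
    have hYY : (c • k1) * (c • k1) = z • (1 : Matrix (Fin n) (Fin n) F) := by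
      rw [Matrix.smul_mul, Matrix.mul_smul, hk1sq, smul_smul, smul_smul, hzc]
    obtain ⟨s1, m1, μ1, a1, a2, -, -, a5⟩ := H99.SqScalar.exists_std_matrix X z hX
    obtain ⟨s2, m2, μ2, b1, b2, -, -, b5⟩ := H99.SqScalar.exists_std_matrix (c • k1) z hYY
    have hm1 : m1 = 0 := by
      by_contra hm
      exact hsq ⟨μ1, by rw [← pow_two]; exact (a2 (Nat.pos_of_ne_zero hm)).symm⟩
    have hm2 : m2 = 0 := by
      by_contra hm
      exact hsq ⟨μ2, by rw [← pow_two]; exact (b2 (Nat.pos_of_ne_zero hm)).symm⟩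
    subst hm1 hm2
    have hss : s2 = s1 := by omega
    subst hss
    have hcard : Fintype.card ((Fin 2 × Fin s2) ⊕ Fin 0) = Fintype.card (Fin n) := by
      rw [← a1]; simp
    let e : ((Fin 2 × Fin s2) ⊕ Fin 0) ≃ Fin n := Fintype.equivOfCardEq hcard
    obtain ⟨R1, hR1, hXR1⟩ := a5 e
    obtain ⟨R2, hR2, hYR2⟩ := b5 e
    have hst : H99.SqScalar.std s2 0 z μ2 = H99.SqScalar.std s2 0 z μ1 := by
      rw [H99.SqScalar.std, H99.SqScalar.std]
      congr 1
      ext i
      exact i.elim0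
    rw [hst] at hYR2
    refine closeK hn K x z hz hX (c • k1) (R1 * R2⁻¹) (det_mul_inv_ne _ _ hR1 hR2) (conj_trans _ _ _ _ _ hXR1 hYR2 hR2) ?_
    intro k hk
    exact K.mul_mem (K.mul_mem (K.smul_mem hk1K _) hk) (K.smul_mem hk1K _)

/-- Involutions of PSL_n(q) and extension-field subgroups of degree 2. Here `T = PSL_n(F)` for a field `F` with `q = p^f` elements (`n ≥ 2`, `(n, q) ≠ (2, 2), (2, 3)`), `k` is a prime dividing `n`, `K` is a subalgebra of the `n × n` matrices that is a field of degree `k` over `F` (an extension-field structure F_{q^k} on `F^n`), and `H` is the subgroup of matrices of determinant 1 normalizing `K` — a subgroup of type GL_{n/k}(q^k) (maximal except in some small cases; maximality is not assumed); Ω is the set of cosets of `H` in `T`, so an element of `T` of prime order `r` (a matrix `x` of determinant 1 with `x^r` scalar, `x` not scalar) fixes a point of Ω when some conjugate of `x` by a matrix of determinant 1 normalizes `K`.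 Take `k = 2` and suppose the index of `H` is even. Then every involution of `T` is conjugate in `T` into `H` if and only if `n = 2`, or `q` is odd and `(q − 1)_2 ≤ (n)_2`. -/
theorem result {F : Type*} [Field F] [Fintype F] {p : ℕ} [Fact p.Prime] [CharP F p] {q : ℕ} (hq : Fintype.card F = q)
    (n : ℕ) (hn : 2 ≤ n) (hT : (n, q) ≠ (2, 2) ∧ (n, q) ≠ (2, 3))
    (k : ℕ) (hk : k.Prime) (hkn : k ∣ n) (K : Subalgebra F (Matrix (Fin n) (Fin n) F)) (hK : Cfsg.Geo.IsFieldSubalgebra k K) (hk2 : k = 2) (hΩ : 2 ∣ ((Cfsg.Geo.subalgebraNormalizer K).comap (Matrix.SpecialLinearGroup.toGL : Matrix.SpecialLinearGroup (Fin n) F →* GL (Fin n) F)).index) :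
    (∀ x : Matrix.SpecialLinearGroup (Fin n) F,
      (∃ z : F, ((x ^ 2 : Matrix.SpecialLinearGroup (Fin n) F) : Matrix (Fin n) (Fin n) F) = z • (1 : Matrix (Fin n) (Fin n) F)) →
      (∀ z : F, (x : Matrix (Fin n) (Fin n) F) ≠ z • (1 : Matrix (Fin n) (Fin n) F)) →
      ∃ P : Matrix.SpecialLinearGroup (Fin n) F, P⁻¹ * x * P ∈ ((Cfsg.Geo.subalgebraNormalizer K).comap (Matrix.SpecialLinearGroup.toGL : Matrix.SpecialLinearGroup (Fin n) F →* GL (Fin n) F))) ↔
    (n = 2 ∨ (Odd q ∧ padicValNat 2 (q - 1) ≤ padicValNat 2 n)) := by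
  subst hq
  subst hk2
  constructor
  · intro H
    by_contra hcon
    push Not at hcon
    obtain ⟨hn2, hcon⟩ := hcon
    have hn4 : 4 ≤ n := by omega
    obtain ⟨x, z, h1, h2, h3⟩ := fwd n hn4 K hK (by
      rintro ⟨ha, hb⟩
      exact absurd (hcon ha) (not_lt.2 hb))
    obtain ⟨P, hP⟩ := H x ⟨z, h1⟩ h2
    exact h3 P hP
  · rintro H x ⟨z, hz⟩ hns
    rcases H with rfl | ⟨hodd, hv⟩
    · exact bwd_two K hK x z hz hns
    · exact bwd_odd hn hkn K hK hodd hv x z hz

end Cfsg.Agent.S5969
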