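import Cfsg.Statements.S5970
import Mathlib
import Cfsg.Agent.Lib.H99.FieldSub
import Cfsg.Agent.Lib.H99.Cyclic2

set_option autoImplicit false
set_option linter.unusedSimpArgs false
open scoped MatrixGroups
open Cfsg

namespace Cfsg.Agent.S5970


open Polynomial in
theorem squarefree_X_pow {F : Type*} [Field F] (n : ℕ) (hn : (n : F) ≠ 0) : Squarefree (X ^ n - 1 : F[X]) := by
  have : (X ^ n - 1 : F[X]).Separable := by
    have := separable_X_pow_sub_C (1 : F) hn one_ne_zero
    simpa using this
  exact this.squarefree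

open Polynomial Classical in
theorem blocks {F : Type*} [Field F] {V : Type*} [AddCommGroup V] [Module F V] [FiniteDimensional F V] (n : ℕ) (hn : n.Prime) (hn3 : 3 ≤ n)
    (hnF : (n : F) ≠ 0) (hirr : Irreducible (cyclotomic n F)) (hV : Module.finrank F V = n) (T : V →ₗ[F] V) (hT : T ^ n = 1) (hT1 : T ≠ 1) :
    ∃ (m : ℕ) (f : Fin m → F[X]) (_ : H99.Cyclic.Data T f),
      (∀ g, Nat.card {i // f i = g} = if g = X - 1 then 1 else if g = cyclotomic n F then 1 else 0) := by
  classical
  obtain ⟨m, f, D, hf⟩ := H99.Cyclic.exists_cyclic_basis T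
  refine ⟨m, f, D, ?_⟩
  have hfact : (cyclotomic n F) * (X - 1) = X ^ n - 1 := by
    have : Fact n.Prime := ⟨hn⟩
    exact cyclotomic_prime_mul_X_sub_one F n
  have hdeg : (cyclotomic n F).natDegree = n - 1 := by
    rw [natDegree_cyclotomic, Nat.totient_prime hn]
  have hne : (X - 1 : F[X]) ≠ cyclotomic n F := by
    intro h
    have h1 := congrArg natDegree h
    rw [hdeg] at h1
    have : (X - 1 : F[X]).natDegree = 1 := by
      have := natDegree_X_sub_C (1 : F)
      simpa using this
    omega
  have hX1 : (X - 1 : F[X]).Monic := by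
    have := monic_X_sub_C (1 : F)
    simpa using this
  have hX1i : Irreducible (X - 1 : F[X]) := by
    have := irreducible_X_sub_C (1 : F)
    simpa using this
  have hX1d : (X - 1 : F[X]).natDegree = 1 := by
    have := natDegree_X_sub_C (1 : F)
    simpa using this
  have hfi : ∀ i, f i = X - 1 ∨ f i = cyclotomic n F := by
    intro i
    obtain ⟨p, e, hp, hpm, he, hpe⟩ := hf i
    have hdvd : f i ∣ X ^ n - 1 := by
      apply D.dvd_of_aeval
      rw [map_sub, map_pow, aeval_X, map_one, hT, sub_self]
    have he1 : e = 1 := by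
      by_contra hne1
      have h2 : 2 ≤ e := by omega
      have h3 : p * p ∣ X ^ n - 1 := by
        rw [← pow_two]
        exact (pow_dvd_pow p h2).trans (hpe ▸ hdvd)
      exact hp.not_isUnit (squarefree_X_pow n hnF p h3)
    rw [hpe, he1, pow_one]
    have h4 : p ∣ (cyclotomic n F) * (X - 1) := by
      rw [hfact]
      exact (dvd_pow_self p he.ne').trans (hpe ▸ hdvd)
    rcases hp.prime.dvd_or_dvd h4 with h5 | h5
    · right
      exact eq_of_monic_of_associated hpm (cyclotomic.monic n F) (hp.associated_of_dvd hirr h5)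
    · left
      exact eq_of_monic_of_associated hpm hX1 (hp.associated_of_dvd hX1i h5)
  have hsum : ∑ i, (f i).natDegree = n := by
    have := Module.finrank_eq_card_basis D.b
    rw [hV, Fintype.card_sigma] at this
    simpa using this.symm
  set A := (Finset.univ.filter (fun i => f i = X - 1)).card with hA
  set B := (Finset.univ.filter (fun i => f i = cyclotomic n F)).card with hB
  have hAB : A + (n - 1) * B = n := by
    have e1 : ∀ i, (f i).natDegree = (if f i = X - 1 then 1 else 0) + (n - 1) * (if f i = cyclotomic n F then 1 else 0) := by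
      intro i
      rcases hfi i with h | h
      · rw [if_pos h, if_neg (by rw [h]; exact hne), h, hX1d]; simp
      · rw [if_neg (by rw [h]; exact hne.symm), if_pos h, h, hdeg]; simp
    rw [Finset.sum_congr rfl (fun i _ => e1 i), Finset.sum_add_distrib, ← Finset.mul_sum] at hsum
    rw [hA, hB, Finset.card_filter, Finset.card_filter]
    exact hsum
  have hB0 : B ≠ 0 := by
    intro hB0
    apply hT1
    have hall : ∀ i, f i = X - 1 := by
      intro i
      rcases hfi i with h | h
      · exact h
      · exfalso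
        have : i ∈ Finset.univ.filter (fun i => f i = cyclotomic n F) := by simp [h]
        rw [Finset.card_eq_zero.1 (hB.symm.trans hB0)] at this
        simp at this
    apply D.b.ext
    rintro ⟨i, j⟩
    have hj : (j : ℕ) = 0 := by
      have := j.2
      have h2 := hall i
      have h3 : (f i).natDegree = 1 := by rw [h2, hX1d]
      omega
    rw [D.b_eq, hj, pow_zero]
    have h1 := D.ann i
    have h2 : aeval T (X - 1 : F[X]) (D.v i) = 0 := by
      have := hall i
      rw [D.ann_iff, this]
    rw [map_sub, aeval_X, map_one, LinearMap.sub_apply, sub_eq_zero] at h2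
    exact h2
  have hB1 : B = 1 := by
    have h2 : B < 2 := by
      by_contra h
      push Not at h
      have : (n - 1) * 2 ≤ (n - 1) * B := Nat.mul_le_mul_left _ h
      omega
    omega
  have hA1 : A = 1 := by
    rw [hB1] at hAB; omega
  intro g
  rw [Nat.card_eq_fintype_card, Fintype.card_subtype]
  split_ifs with h1 h2
  · rw [h1]; exact hA1
  · rw [h2]; exact hB1
  · rw [Finset.card_eq_zero, Finset.filter_eq_empty_iff]
    intro i _ hi
    rcases hfi i with h | h
    · exact h1 (hi ▸ h)
    · exact h2 (hi ▸ h)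

open Matrix Polynomial in
theorem bwd {F : Type*} [Field F] [Fintype F] {p : ℕ} [Fact p.Prime] [CharP F p] (n : ℕ) (hn : n.Prime) (hn3 : 3 ≤ n) (hnp : n ≠ p)
    (K : Subalgebra F (Matrix (Fin n) (Fin n) F)) (hK : Cfsg.Geo.IsFieldSubalgebra n K)
    (hord : orderOf ((Fintype.card F : ℕ) : ZMod n) = n - 1)
    (x : Matrix.SpecialLinearGroup (Fin n) F) (z : F)
    (hx : ((x ^ n : Matrix.SpecialLinearGroup (Fin n) F) : Matrix (Fin n) (Fin n) F) = z • (1 : Matrix (Fin n) (Fin n) F))
    (hns : ∀ z : F, (x : Matrix (Fin n) (Fin n) F) ≠ z • (1 : Matrix (Fin n) (Fin n) F)) :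
    ∃ P : Matrix.SpecialLinearGroup (Fin n) F, P⁻¹ * x * P ∈ ((Cfsg.Geo.subalgebraNormalizer K).comap
      (Matrix.SpecialLinearGroup.toGL : Matrix.SpecialLinearGroup (Fin n) F →* GL (Fin n) F)) := by
  classical
  have hnpos : 0 < n := hn.pos
  have : Nonempty (Fin n) := ⟨⟨0, hnpos⟩⟩
  have hp : p.Prime := Fact.out
  obtain ⟨E, _, _, ρ, hmem, hE⟩ := H99.FieldSub.exists_field hnpos K hK
  have hfd : FiniteDimensional F E := Module.finite_of_finrank_pos (by omega)
  set X := (x : Matrix (Fin n) (Fin n) F) with hXdef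
  have hXn : X ^ n = z • (1 : Matrix (Fin n) (Fin n) F) := by
    rw [← hx, hXdef, Matrix.SpecialLinearGroup.coe_pow]
  have hdet : X.det = 1 := x.2
  have hzn : z ^ n = 1 := by
    have := congrArg Matrix.det hXn
    rw [Matrix.det_pow, hdet, one_pow, Matrix.det_smul, Matrix.det_one, mul_one, Fintype.card_fin] at this
    exact this.symm
  have hz0 : z ≠ 0 := by
    rintro rfl
    rw [zero_pow hn.ne_zero] at hzn
    exact zero_ne_one hzn
  have hq1 : 1 < Fintype.card F := Fintype.one_lt_card
  have hndvd : ¬ n ∣ Fintype.card F - 1 := by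
    intro h
    have h1 : ((Fintype.card F : ℕ) : ZMod n) = 1 := by
      have h2 : ((Fintype.card F - 1 : ℕ) : ZMod n) = 0 := (ZMod.natCast_eq_zero_iff _ _).2 h
      have h3 : Fintype.card F = (Fintype.card F - 1) + 1 := by omega
      rw [h3, Nat.cast_add, h2]; simp
    rw [h1, orderOf_one] at hord
    omega
  have hz1 : z = 1 := by
    have h1 : z ^ (Fintype.card F - 1) = 1 := FiniteField.pow_card_sub_one_eq_one z hz0
    have h2 : z ^ (Nat.gcd n (Fintype.card F - 1)) = 1 := pow_gcd_eq_one.2 ⟨hzn, h1⟩
    rwa [(Nat.Prime.coprime_iff_not_dvd hn).2 hndvd, pow_one] at h2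
  rw [hz1, one_smul] at hXn
  have hX1 : X ≠ 1 := by
    intro h
    exact hns 1 (by rw [one_smul]; exact h)
  have hnF : (n : F) ≠ 0 := by
    intro h
    rw [CharP.cast_eq_zero_iff F p] at h
    exact hnp ((Nat.prime_dvd_prime_iff_eq hp hn).1 h).symm
  obtain ⟨f, hpf, hcardF⟩ := FiniteField.card F p
  have hcop : p.Coprime n := (Nat.coprime_primes hp hn).2 (Ne.symm hnp)
  have hirr : Irreducible (cyclotomic n F) := by
    apply Polynomial.irreducible_of_dvd_cyclotomic_of_natDegree hcardF hcop dvd_rfl
    rw [natDegree_cyclotomic, Nat.totient_prime hn, ← hord, ← orderOf_units, ZMod.coe_unitOfCoprime, hcardF]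
  obtain ⟨y, hyn, hyq, hyE⟩ := H99.FieldSub.exists_frob ρ (by omega) hE
  have hy1 : y ≠ 1 := fun h => hyE 1 (by rw [map_one, h])
  obtain ⟨m, f1, D1, hf1⟩ := blocks n hn hn3 hnF hirr (by simp) (Matrix.toLin' X) (by rw [← Matrix.toLin'_pow, hXn, Matrix.toLin'_one]; rfl)
    (by
      intro h
      apply hX1
      apply Matrix.toLin'.injective
      rw [h, Matrix.toLin'_one]; rfl)
  obtain ⟨m', f2, D2, hf2⟩ := blocks n hn hn3 hnF hirr (by simp) (Matrix.toLin' y) (by rw [← Matrix.toLin'_pow, hyn, Matrix.toLin'_one]; rfl)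
    (by
      intro h
      apply hy1
      apply Matrix.toLin'.injective
      rw [h, Matrix.toLin'_one]; rfl)
  obtain ⟨e, he⟩ := H99.Cyclic.Data.exists_equiv (f := f1) (f' := f2) (fun g => by
    rw [← Nat.card_eq_fintype_card, ← Nat.card_eq_fintype_card, hf1, hf2])
  obtain ⟨i0, hi0⟩ : ∃ i0, (f1 i0).natDegree = 1 := by
    have h1 := hf1 (Polynomial.X - 1)
    rw [if_pos rfl] at h1
    have h2 : 0 < Nat.card {i // f1 i = Polynomial.X - 1} := by rw [h1]; exact one_pos
    obtain ⟨⟨i, hi⟩⟩ := (Nat.card_pos_iff.1 h2).1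
    refine ⟨i, ?_⟩
    rw [hi]
    have := natDegree_X_sub_C (1 : F)
    simpa using this
  obtain ⟨R, hR, hxR⟩ := H99.Cyclic.conj_det_one D1 D2 e he i0 hi0
  let R'' : Matrix.SpecialLinearGroup (Fin n) F := ⟨R, hR⟩
  have hR'' : (R'' : Matrix (Fin n) (Fin n) F) = R := rfl
  refine ⟨R'', ?_⟩
  rw [Subgroup.mem_comap]
  apply H99.FieldSub.mem_norm ρ hmem
  have hgm : ((Matrix.SpecialLinearGroup.toGL (R''⁻¹ * x * R'') : GL (Fin n) F) : Matrix (Fin n) (Fin n) F) = y := by
    rw [mul_assoc]
    show ((R''⁻¹ * (x * R'') : Matrix.SpecialLinearGroup (Fin n) F) : Matrix (Fin n) (Fin n) F) = y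
    rw [Matrix.SpecialLinearGroup.coe_mul, Matrix.SpecialLinearGroup.coe_mul, hR'', hxR, ← Matrix.mul_assoc]
    have e3 : ((R''⁻¹ : Matrix.SpecialLinearGroup (Fin n) F) : Matrix (Fin n) (Fin n) F) * R = 1 := by
      have := congrArg (fun g : Matrix.SpecialLinearGroup (Fin n) F => (g : Matrix (Fin n) (Fin n) F))
        (inv_mul_cancel R'')
      simpa only [Matrix.SpecialLinearGroup.coe_mul, Matrix.SpecialLinearGroup.coe_one] using this
    rw [e3, Matrix.one_mul]
  intro e'
  rw [hgm, hyq]

open Matrix Polynomial in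
/-- the derangement -/
theorem exists_der {F : Type*} [Field F] [Fintype F] {p : ℕ} [Fact p.Prime] [CharP F p] (n : ℕ) (hn : n.Prime) (hn3 : 3 < n) (hnp : n ≠ p)
    (hord : orderOf ((Fintype.card F : ℕ) : ZMod n) ≠ n - 1) :
    ∃ (x : Matrix.SpecialLinearGroup (Fin n) F) (v w : Fin n → F),
      ((x ^ n : Matrix.SpecialLinearGroup (Fin n) F) : Matrix (Fin n) (Fin n) F) = (1 : Matrix (Fin n) (Fin n) F) ∧
      (∀ z : F, (x : Matrix (Fin n) (Fin n) F) ≠ z • (1 : Matrix (Fin n) (Fin n) F)) ∧
      v ≠ 0 ∧ (∀ c : F, w ≠ c • v) ∧ (x : Matrix (Fin n) (Fin n) F) *ᵥ v = v ∧ (x : Matrix (Fin n) (Fin n) F) *ᵥ w = w := by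
  classical
  have hnpos : 0 < n := hn.pos
  have hp : p.Prime := Fact.out
  have hq1 : 1 < Fintype.card F := Fintype.one_lt_card
  have hnF : (n : F) ≠ 0 := by
    intro h
    rw [CharP.cast_eq_zero_iff F p] at h
    exact hnp ((Nat.prime_dvd_prime_iff_eq hp hn).1 h).symm
  obtain ⟨f, hpf, hcardF⟩ := FiniteField.card F p
  have hcop : p.Coprime n := (Nat.coprime_primes hp hn).2 (Ne.symm hnp)
  by_cases hdvd : n ∣ Fintype.card F - 1
  · -- diagonal element
    obtain ⟨t, ht⟩ := hdvd
    obtain ⟨g, hg⟩ := IsCyclic.exists_generator (α := Fˣ)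
    have ho : orderOf g = Fintype.card F - 1 := by
      rw [orderOf_eq_card_of_forall_mem_zpowers hg, Nat.card_eq_fintype_card, Fintype.card_units]
    set ω : Fˣ := g ^ t with hω
    have hωn : ω ^ n = 1 := by
      rw [hω, ← pow_mul, mul_comm, ← ht, ← ho, pow_orderOf_eq_one]
    have hω1 : ω ≠ 1 := by
      intro h
      have h1 := orderOf_dvd_of_pow_eq_one h
      rw [ho] at h1
      have h2 : 0 < t := by
        rcases Nat.eq_zero_or_pos t with rfl | h
        · omega
        · exact h
      have h3 := Nat.le_of_dvd h2 h1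
      rw [ht] at h3
      nlinarith
    let i0 : Fin n := ⟨0, by omega⟩
    let i1 : Fin n := ⟨1, by omega⟩
    let i2 : Fin n := ⟨2, by omega⟩
    let i3 : Fin n := ⟨3, by omega⟩
    have h01 : i0 ≠ i1 := by simp [i0, i1]
    have h02 : i2 ≠ i0 := by simp [i0, i2]
    have h12 : i2 ≠ i1 := by simp [i1, i2]
    have h03 : i3 ≠ i0 := by simp [i0, i3]
    have h13 : i3 ≠ i1 := by simp [i1, i3]
    have h23 : i3 ≠ i2 := by simp [i2, i3]
    set D : Matrix (Fin n) (Fin n) F := Matrix.diagonal (fun i => if i = i0 then (ω : F) else if i = i1 then ((ω⁻¹ : Fˣ) : F) else 1) with hD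
    have hdet : D.det = 1 := by
      rw [hD, Matrix.det_diagonal]
      rw [← Finset.mul_prod_erase Finset.univ _ (Finset.mem_univ i0), ← Finset.mul_prod_erase _ _ (Finset.mem_erase.2 ⟨h01.symm, Finset.mem_univ i1⟩)]
      rw [Finset.prod_eq_one]
      · simp [h01.symm]
      · intro i hi
        rw [Finset.mem_erase, Finset.mem_erase] at hi
        rw [if_neg hi.2.1, if_neg hi.1]
    let D' : Matrix.SpecialLinearGroup (Fin n) F := ⟨D, hdet⟩
    have hD' : (D' : Matrix (Fin n) (Fin n) F) = D := rfl
    refine ⟨D', Pi.single i2 1, Pi.single i3 1, ?_, ?_, ?_, ?_, ?_, ?_⟩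
    · rw [Matrix.SpecialLinearGroup.coe_pow, hD', hD, Matrix.diagonal_pow, ← Matrix.diagonal_one]
      congr 1
      funext i
      have e1 : (ω : F) ^ n = 1 := by rw [← Units.val_pow_eq_pow_val, hωn, Units.val_one]
      have e2 : ((ω⁻¹ : Fˣ) : F) ^ n = 1 := by rw [← Units.val_pow_eq_pow_val, inv_pow, hωn, inv_one, Units.val_one]
      simp only [Pi.pow_apply]
      split_ifs
      · exact e1
      · exact e2
      · exact one_pow _
    · intro w hw
      have hw' : D = w • (1 : Matrix (Fin n) (Fin n) F) := hw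
      have e1 := congrFun (congrFun hw' i0) i0
      have e2 := congrFun (congrFun hw' i2) i2
      simp [hD, h02, h12] at e1 e2
      apply hω1
      apply Units.ext
      rw [Units.val_one, e2, e1]
    · intro h
      have := congrFun h i2
      simp at this
    · intro c h
      have := congrFun h i3
      simp [h23] at this
    · rw [hD', hD]
      ext i
      rw [Matrix.mulVec_diagonal]
      by_cases h : i = i2
      · subst h; simp [h02, h12]
      · simp [h]
    · rw [hD', hD]
      ext i
      rw [Matrix.mulVec_diagonal]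
      by_cases h : i = i3
      · subst h; simp [h03, h13]
      · simp [h]
  · -- companion block
    have hcne : (cyclotomic n F) ≠ 0 := cyclotomic_ne_zero n F
    have hcdeg : (cyclotomic n F).natDegree = n - 1 := by rw [natDegree_cyclotomic, Nat.totient_prime hn]
    have hcu : ¬ IsUnit (cyclotomic n F) := by
      apply not_isUnit_of_natDegree_pos
      omega
    obtain ⟨g, hgi, hgd⟩ := WfDvdMonoid.exists_irreducible_factor hcu hcne
    have hgdeg : g.natDegree = orderOf ((Fintype.card F : ℕ) : ZMod n) := by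
      rw [natDegree_of_dvd_cyclotomic_of_irreducible hcardF hcop hgd hgi, ← orderOf_units, ZMod.coe_unitOfCoprime, hcardF]
    set i := g.natDegree with hi
    have hile : i ≤ n - 1 := by
      rw [← hcdeg]
      exact natDegree_le_of_dvd hgd hcne
    have hilt : i + 2 ≤ n := by omega
    -- make it monic
    set G := normalize g with hG
    have hGmon : G.Monic := Polynomial.monic_normalize hgi.ne_zero
    have hGirr : Irreducible G := (normalize_associated g).symm.irreducible hgi
    have hGdeg : G.natDegree = i := natDegree_eq_of_degree_eq (degree_normalize)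
    have hGd : G ∣ cyclotomic n F := (normalize_associated g).dvd.trans hgd
    have : Fact (Irreducible G) := ⟨hGirr⟩
    let pb := AdjoinRoot.powerBasis' hGmon
    let C0 := Algebra.leftMulMatrix pb.basis (AdjoinRoot.root G)
    have hroot_n : (AdjoinRoot.root G) ^ n = 1 := by
      have h1 : G ∣ X ^ n - 1 := hGd.trans (cyclotomic.dvd_X_pow_sub_one n F)
      have h2 := AdjoinRoot.mk_eq_zero.2 h1
      rw [map_sub, map_pow, AdjoinRoot.mk_X, map_one, sub_eq_zero] at h2
      exact h2
    have hroot_1 : AdjoinRoot.root G ≠ 1 := by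
      intro h
      have h1 : AdjoinRoot.mk G (X - 1) = 0 := by rw [map_sub, AdjoinRoot.mk_X, h, map_one, sub_self]
      rw [AdjoinRoot.mk_eq_zero] at h1
      -- then G = X - 1 divides cyclotomic and X^n - 1 has a double root
      have h2 : G * G ∣ X ^ n - 1 := by
        have : Fact n.Prime := ⟨hn⟩
        rw [← cyclotomic_prime_mul_X_sub_one F n]
        exact mul_dvd_mul hGd h1
      exact hGirr.not_isUnit (squarefree_X_pow n hnF G h2)
    have hdim : pb.dim = i := by rw [← hGdeg]; rfl
    let eb : Fin i ≃ Fin pb.dim := finCongr hdim.symm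
    let C : Matrix (Fin i) (Fin i) F := Matrix.reindex eb.symm eb.symm C0
    have hCn : C ^ n = 1 := by
      have h1 : C0 ^ n = 1 := by
        show (Algebra.leftMulMatrix pb.basis (AdjoinRoot.root G)) ^ n = 1
        rw [← map_pow, hroot_n, map_one]
      show (Matrix.reindexAlgEquiv F F eb.symm C0) ^ n = 1
      rw [← map_pow, h1, map_one]
    have hC1 : C ≠ 1 := by
      intro h
      have h1 : C0 = 1 := by
        apply (Matrix.reindexAlgEquiv F F eb.symm).injective
        rw [map_one]; exact h
      apply hroot_1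
      apply Algebra.leftMulMatrix_injective pb.basis
      rw [map_one]; exact h1
    let e : (Fin i ⊕ Fin (n - i)) ≃ Fin n := finSumFinEquiv.trans (finCongr (by omega))
    set Y : Matrix (Fin i ⊕ Fin (n - i)) (Fin i ⊕ Fin (n - i)) F := Matrix.fromBlocks C 0 0 1 with hY
    have hYn : Y ^ n = 1 := by
      have : ∀ k : ℕ, Y ^ k = Matrix.fromBlocks (C ^ k) 0 0 1 := by
        intro k
        induction k with
        | zero => rw [pow_zero, pow_zero, Matrix.fromBlocks_one]
        | succ k ih => rw [pow_succ, ih, hY, Matrix.fromBlocks_multiply]; simp [pow_succ]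
      rw [this, hCn, Matrix.fromBlocks_one]
    set D : Matrix (Fin n) (Fin n) F := Matrix.reindex e e Y with hD
    have hDn : D ^ n = 1 := by
      show (Matrix.reindexAlgEquiv F F e Y) ^ n = 1
      rw [← map_pow, hYn, map_one]
    have hdet : D.det = 1 := by
      have h1 : D.det ^ n = 1 := by rw [← Matrix.det_pow, hDn, Matrix.det_one]
      have h0 : D.det ≠ 0 := by
        intro h; rw [h, zero_pow hn.ne_zero] at h1; exact zero_ne_one h1
      have h2 : D.det ^ (Fintype.card F - 1) = 1 := FiniteField.pow_card_sub_one_eq_one _ h0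
      have h3 : D.det ^ (Nat.gcd n (Fintype.card F - 1)) = 1 := pow_gcd_eq_one.2 ⟨h1, h2⟩
      rwa [(Nat.Prime.coprime_iff_not_dvd hn).2 hdvd, pow_one] at h3
    let D' : Matrix.SpecialLinearGroup (Fin n) F := ⟨D, hdet⟩
    have hD' : (D' : Matrix (Fin n) (Fin n) F) = D := rfl
    let k0 : Fin (n - i) := ⟨0, by omega⟩
    let k1 : Fin (n - i) := ⟨1, by omega⟩
    have hk01 : k1 ≠ k0 := by simp [k0, k1]
    have hfix : ∀ k : Fin (n - i), D *ᵥ (Pi.single (e (.inr k)) 1) = Pi.single (e (.inr k)) 1 := by
      intro k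
      rw [Matrix.mulVec_single_one]
      ext j
      rw [Matrix.col_apply, hD, Matrix.reindex_apply, Matrix.submatrix_apply, Equiv.symm_apply_apply]
      obtain ⟨j', rfl⟩ := e.surjective j
      rw [Equiv.symm_apply_apply, Pi.single_apply]
      rcases j' with j' | j'
      · simp [hY]
      · simp [hY, Matrix.one_apply]
    refine ⟨D', Pi.single (e (.inr k0)) 1, Pi.single (e (.inr k1)) 1, ?_, ?_, ?_, ?_, ?_, ?_⟩
    · rw [Matrix.SpecialLinearGroup.coe_pow, hD', hDn]
    · intro w hw
      have hw' : D = w • (1 : Matrix (Fin n) (Fin n) F) := hw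
      have h1 := hfix k0
      rw [hw', Matrix.smul_mulVec, Matrix.one_mulVec] at h1
      have h2 := congrFun h1 (e (.inr k0))
      simp at h2
      rw [h2, one_smul] at hw'
      apply hC1
      have h3 : Y = 1 := by
        apply (Matrix.reindexAlgEquiv F F e).injective
        rw [map_one]; exact hw'
      rw [hY, ← Matrix.fromBlocks_one] at h3
      exact (Matrix.fromBlocks_inj.1 h3).1
    · intro h
      have := congrFun h (e (.inr k0))
      simp at this
    · intro c h
      have := congrFun h (e (.inr k1))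
      simp [Pi.single_apply, hk01] at this
    · exact hfix k0
    · exact hfix k1

/-- Elements of order `n` of PSL_n(q), `n` prime, and the normalizer of a Singer cycle. Here `T = PSL_n(F)` for a field `F` with `q = p^f` elements (`n ≥ 2`, `(n, q) ≠ (2, 2), (2, 3)`), `k` is a prime dividing `n`, `K` is a subalgebra of the `n × n` matrices that is a field of degree `k` over `F` (an extension-field structure F_{q^k} on `F^n`), and `H` is the subgroup of matrices of determinant 1 normalizing `K` — a subgroup of type GL_{n/k}(q^k) (maximal except in some small cases; maximality is not assumed); Ω is the set of cosets of `H` in `T`, so an element of `T` of prime order `r` (a matrix `x` of determinant 1 with `x^r` scalar, `x` not scalar) fixes a point of Ω when some conjugate of `x` by a matrix of determinant 1 normalizes `K`. Take `k = n > 3` prime with `n ≠ p` (so `H` is the normalizer of a Singer cycle), and suppose `n` divides the index of `H`. Then every element of `T` of order `n` is conjugate in `T` into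 `H` if and only if the multiplicative order of `q` modulo `n` is `n − 1`. -/
theorem result {F : Type*} [Field F] [Fintype F] {p : ℕ} [Fact p.Prime] [CharP F p] {q : ℕ} (hq : Fintype.card F = q)
    (n : ℕ) (hn : 2 ≤ n) (hT : (n, q) ≠ (2, 2) ∧ (n, q) ≠ (2, 3))
    (k : ℕ) (hk : k.Prime) (hkn : k ∣ n) (K : Subalgebra F (Matrix (Fin n) (Fin n) F)) (hK : Cfsg.Geo.IsFieldSubalgebra k K) (hkn' : k = n) (hn3 : 3 < n) (hnp : n ≠ p) (hΩ : n ∣ ((Cfsg.Geo.subalgebraNormalizer K).comap (Matrix.SpecialLinearGroup.toGL : Matrix.SpecialLinearGroup (Fin n) F →* GL (Fin n) F)).index) :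
    (∀ x : Matrix.SpecialLinearGroup (Fin n) F,
      (∃ z : F, ((x ^ n : Matrix.SpecialLinearGroup (Fin n) F) : Matrix (Fin n) (Fin n) F) = z • (1 : Matrix (Fin n) (Fin n) F)) →
      (∀ z : F, (x : Matrix (Fin n) (Fin n) F) ≠ z • (1 : Matrix (Fin n) (Fin n) F)) →
      ∃ P : Matrix.SpecialLinearGroup (Fin n) F, P⁻¹ * x * P ∈ ((Cfsg.Geo.subalgebraNormalizer K).comap (Matrix.SpecialLinearGroup.toGL : Matrix.SpecialLinearGroup (Fin n) F →* GL (Fin n) F))) ↔
    orderOf (q : ZMod n) = n - 1 := by
  subst hq
  subst hkn'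
  constructor
  · intro H
    by_contra hcon
    obtain ⟨x, v, w, h1, h2, h3, h4, h5, h6⟩ := exists_der k hk hn3 hnp hcon
    obtain ⟨P, hP⟩ := H x ⟨1, by rw [h1, one_smul]⟩ h2
    obtain ⟨E, _, _, ρ, hmem, hE⟩ := H99.FieldSub.exists_field hk.pos K hK
    have hfd : FiniteDimensional F E := Module.finite_of_finrank_pos (by omega)
    exact H99.FieldSub.derange ρ hk hE hmem x P h2 one_ne_zero h3 (by rw [one_smul]; exact h5) (by rw [one_smul]; exact h6) h4 hP
  · rintro H x ⟨z, hz⟩ hns
    exact bwd k hk (by omega) hnp K hK H x z hz hns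

end Cfsg.Agent.S5970
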