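import Cfsg.Statements.S5971
import Mathlib
import Cfsg.Agent.Lib.H99.FieldSub
import Cfsg.Agent.Lib.H99.Cyclic2
import Cfsg.Agent.S5970

set_option autoImplicit false
set_option linter.unusedSimpArgs false
open scoped MatrixGroups
open Cfsg

namespace Cfsg.Agent.S5971


open Matrix Polynomial in
theorem exists_root {F : Type*} [Field F] [Fintype F] (d : ℕ) (hd : 0 < d) (h : d ∣ Fintype.card F - 1) : ∃ ζ : F, IsPrimitiveRoot ζ d := by
  classical
  obtain ⟨t, ht⟩ := h
  have hq1 : 1 < Fintype.card F := Fintype.one_lt_card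
  obtain ⟨g, hg⟩ := IsCyclic.exists_generator (α := Fˣ)
  have ho : orderOf g = Fintype.card F - 1 := by
    rw [orderOf_eq_card_of_forall_mem_zpowers hg, Nat.card_eq_fintype_card, Fintype.card_units]
  have ht0 : t ≠ 0 := by rintro rfl; omega
  refine ⟨((g ^ t : Fˣ) : F), ?_⟩
  rw [IsPrimitiveRoot.coe_units_iff]
  have h1 : IsPrimitiveRoot g (Fintype.card F - 1) := by rw [← ho]; exact IsPrimitiveRoot.orderOf g
  exact h1.pow (by omega) (by rw [ht, mul_comm])

open Matrix Polynomial in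
/-- eigenbasis for an element with cube one and a primitive cube root of unity in the field -/
theorem exists_eig {F : Type*} [Field F] {ω : F} (hω : IsPrimitiveRoot ω 3) (h3 : ((3 : ℕ) : F) ≠ 0)
    {V : Type*} [AddCommGroup V] [Module F V] [FiniteDimensional F V] (hV : Module.finrank F V = 3) (T : V →ₗ[F] V)
    (hT : T ^ 3 = 1) : ∃ (b : Module.Basis (Fin 3) F V) (l : Fin 3 → Fin 3), ∀ i, T (b i) = (ω ^ (l i : ℕ)) • b i := by
  classical
  obtain ⟨m, f, D, hf⟩ := H99.Cyclic.exists_cyclic_basis T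
  have hfi : ∀ i, ∃ j : Fin 3, f i = Polynomial.X - C (ω ^ (j : ℕ)) := by
    intro i
    obtain ⟨p, e, hp, hpm, he, hpe⟩ := hf i
    have hdvd : f i ∣ Polynomial.X ^ 3 - 1 := by
      apply D.dvd_of_aeval
      rw [map_sub, map_pow, aeval_X, map_one, hT, sub_self]
    have he1 : e = 1 := by
      by_contra hne1
      have h2 : 2 ≤ e := by omega
      have h3' : p * p ∣ Polynomial.X ^ 3 - 1 := by
        rw [← pow_two]
        exact (pow_dvd_pow p h2).trans (hpe ▸ hdvd)
      exact hp.not_isUnit (Cfsg.Agent.S5970.squarefree_X_pow 3 h3 p h3')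
    have hfac : (Polynomial.X ^ 3 - 1 : F[X]) = ∏ j : Fin 3, (Polynomial.X - C (ω ^ (j : ℕ))) := by
      have h1 : 1 + ω + ω ^ 2 = 0 := by
        have := hω.geom_sum_eq_zero (by norm_num)
        simpa [Finset.sum_range_succ] using this
      have h2 : ω ^ 3 = 1 := hω.pow_eq_one
      rw [Fin.prod_univ_three]
      simp only [Fin.val_zero, Fin.val_one, Fin.val_two, pow_zero, pow_one, map_one, map_pow]
      have h1' : (1 : F[X]) + C ω + C ω ^ 2 = 0 := by
        have := congrArg (C : F →+* F[X]) h1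
        simpa using this
      have h2' : (C ω : F[X]) ^ 3 = 1 := by
        have := congrArg (C : F →+* F[X]) h2
        simpa using this
      linear_combination (-(Polynomial.X ^ 2 : F[X]) * (-1) + (Polynomial.X : F[X]) * (-C ω)) * h1' + (1 : F[X]) * (h2')
    have hp' : p ∣ ∏ j : Fin 3, (Polynomial.X - C (ω ^ (j : ℕ))) := by
      rw [← hfac]
      exact (dvd_pow_self p he.ne').trans (hpe ▸ hdvd)
    obtain ⟨j, -, hj⟩ := (hp.prime.dvd_finsetProd_iff _).1 hp'
    refine ⟨j, ?_⟩
    rw [hpe, he1, pow_one]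
    exact eq_of_monic_of_associated hpm (monic_X_sub_C _) (hp.associated_of_dvd (irreducible_X_sub_C _) hj)
  choose l hl using hfi
  have hdeg : ∀ i, (f i).natDegree = 1 := fun i => by rw [hl, natDegree_X_sub_C]
  have hm : m = 3 := by
    have := Module.finrank_eq_card_basis D.b
    rw [hV, Fintype.card_sigma] at this
    simp only [Fintype.card_fin] at this
    rw [Finset.sum_congr rfl (fun i _ => hdeg i)] at this
    simpa using this.symm
  subst hm
  let e : (Σ i : Fin 3, Fin (f i).natDegree) ≃ Fin 3 :=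
    { toFun := fun x => x.1
      invFun := fun i => ⟨i, ⟨0, by rw [hdeg]; exact one_pos⟩⟩
      left_inv := by
        rintro ⟨i, j⟩
        have : j = ⟨0, by rw [hdeg]; exact one_pos⟩ := by
          apply Fin.ext
          have := j.2
          have h := hdeg i
          simp only; omega
        rw [this]
      right_inv := fun i => rfl }
  refine ⟨D.b.reindex e, l, ?_⟩
  intro i
  have h0 : (0 : ℕ) < (f i).natDegree := by rw [hdeg]; exact one_pos
  have h1 : D.b.reindex e i = D.v i := by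
    rw [Module.Basis.reindex_apply]
    have : D.b (e.symm i) = (T ^ 0) (D.v i) := D.b_eq i ⟨0, h0⟩
    rw [this]; rfl
  rw [h1]
  have h2 : aeval T (Polynomial.X - C (ω ^ (l i : ℕ)) : F[X]) (D.v i) = 0 := by
    rw [D.ann_iff, hl i]
  rw [map_sub, aeval_X, aeval_C, LinearMap.sub_apply, sub_eq_zero] at h2
  rw [h2]; rfl

open Matrix Polynomial in
theorem diag_conj {F : Type*} [Field F] {ω : F} (x : Matrix (Fin 3) (Fin 3) F)
    (b : Module.Basis (Fin 3) F (Fin 3 → F)) (l : Fin 3 → Fin 3) (hl : Function.Injective l)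
    (hb : ∀ i, Matrix.toLin' x (b i) = (ω ^ (l i : ℕ)) • b i) :
    ∃ P : Matrix (Fin 3) (Fin 3) F, P.det ≠ 0 ∧ x * P = P * Matrix.diagonal (fun i : Fin 3 => ω ^ (i : ℕ)) := by
  let e : Fin 3 ≃ Fin 3 := Equiv.ofBijective l (Finite.injective_iff_bijective.1 hl)
  obtain ⟨P, hP, h⟩ := H99.Cyclic.conj_of_basis x b e
  refine ⟨P, hP, ?_⟩
  rw [h]
  congr 1
  ext i j
  rw [Matrix.reindex_apply, Matrix.submatrix_apply, LinearMap.toMatrix_apply, hb, map_smul, Module.Basis.repr_self,
    Finsupp.smul_single, Finsupp.single_apply, Matrix.diagonal_apply]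
  have he : ∀ i, l (e.symm i) = i := fun i => e.apply_symm_apply i
  rw [he]
  by_cases h : i = j
  · subst h; simp
  · rw [if_neg h, if_neg (fun h' => h (e.symm.injective h').symm)]

open Matrix Polynomial in
theorem det_eig {F : Type*} [Field F] {ω : F} (x : Matrix (Fin 3) (Fin 3) F)
    (b : Module.Basis (Fin 3) F (Fin 3 → F)) (l : Fin 3 → Fin 3)
    (hb : ∀ i, Matrix.toLin' x (b i) = (ω ^ (l i : ℕ)) • b i) :
    x.det = ∏ i, ω ^ (l i : ℕ) := by
  rw [← LinearMap.det_toLin', ← LinearMap.det_toMatrix b]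
  have : LinearMap.toMatrix b b (Matrix.toLin' x) = Matrix.diagonal (fun i => ω ^ (l i : ℕ)) := by
    ext i j
    rw [LinearMap.toMatrix_apply, hb, map_smul, Module.Basis.repr_self, Finsupp.smul_single, Finsupp.single_apply,
      Matrix.diagonal_apply]
    by_cases h : i = j
    · subst h; simp
    · rw [if_neg h, if_neg (fun h' => h h'.symm)]
  rw [this, Matrix.det_diagonal]

open Matrix Polynomial in
theorem closeY {F : Type*} [Field F] {n : ℕ} (K : Subalgebra F (Matrix (Fin n) (Fin n) F))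
    (x : Matrix.SpecialLinearGroup (Fin n) F) (Y R : Matrix (Fin n) (Fin n) F) (hR : R.det = 1)
    (h : (x : Matrix (Fin n) (Fin n) F) * R = R * Y)
    (hY : ∀ g : GL (Fin n) F, (g : Matrix (Fin n) (Fin n) F) = Y → g ∈ Cfsg.Geo.subalgebraNormalizer K) :
    ∃ P : Matrix.SpecialLinearGroup (Fin n) F, P⁻¹ * x * P ∈ ((Cfsg.Geo.subalgebraNormalizer K).comap
      (Matrix.SpecialLinearGroup.toGL : Matrix.SpecialLinearGroup (Fin n) F →* GL (Fin n) F)) := by
  let R'' : Matrix.SpecialLinearGroup (Fin n) F := ⟨R, hR⟩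
  have hR'' : (R'' : Matrix (Fin n) (Fin n) F) = R := rfl
  refine ⟨R'', ?_⟩
  rw [Subgroup.mem_comap]
  apply hY
  rw [mul_assoc]
  show ((R''⁻¹ * (x * R'') : Matrix.SpecialLinearGroup (Fin n) F) : Matrix (Fin n) (Fin n) F) = Y
  rw [Matrix.SpecialLinearGroup.coe_mul, Matrix.SpecialLinearGroup.coe_mul, hR'', h, ← Matrix.mul_assoc]
  have e3 : ((R''⁻¹ : Matrix.SpecialLinearGroup (Fin n) F) : Matrix (Fin n) (Fin n) F) * R = 1 := by
    have := congrArg (fun g : Matrix.SpecialLinearGroup (Fin n) F => (g : Matrix (Fin n) (Fin n) F))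
      (inv_mul_cancel R'')
    simpa only [Matrix.SpecialLinearGroup.coe_mul, Matrix.SpecialLinearGroup.coe_one] using this
  rw [e3, Matrix.one_mul]

open Matrix Polynomial in
theorem bwd47 {F : Type*} [Field F] [Fintype F]
    (K : Subalgebra F (Matrix (Fin 3) (Fin 3) F)) (hK : Cfsg.Geo.IsFieldSubalgebra 3 K)
    (h47 : Fintype.card F % 9 = 4 ∨ Fintype.card F % 9 = 7) (h3F : ((3 : ℕ) : F) ≠ 0)
    (x : Matrix.SpecialLinearGroup (Fin 3) F) (z : F)
    (hx : ((x ^ 3 : Matrix.SpecialLinearGroup (Fin 3) F) : Matrix (Fin 3) (Fin 3) F) = z • (1 : Matrix (Fin 3) (Fin 3) F))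
    (hns : ∀ z : F, (x : Matrix (Fin 3) (Fin 3) F) ≠ z • (1 : Matrix (Fin 3) (Fin 3) F)) :
    ∃ P : Matrix.SpecialLinearGroup (Fin 3) F, P⁻¹ * x * P ∈ ((Cfsg.Geo.subalgebraNormalizer K).comap
      (Matrix.SpecialLinearGroup.toGL : Matrix.SpecialLinearGroup (Fin 3) F →* GL (Fin 3) F)) := by
  classical
  obtain ⟨E, _, _, ρ, hmem, hE⟩ := H99.FieldSub.exists_field (by norm_num) K hK
  have hfd : FiniteDimensional F E := Module.finite_of_finrank_pos (by omega)
  have hq1 : 1 < Fintype.card F := Fintype.one_lt_card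
  set X := (x : Matrix (Fin 3) (Fin 3) F) with hXdef
  have hXn : X ^ 3 = z • (1 : Matrix (Fin 3) (Fin 3) F) := by
    rw [← hx, hXdef, Matrix.SpecialLinearGroup.coe_pow]
  have hdet : X.det = 1 := x.2
  have hzn : z ^ 3 = 1 := by
    have := congrArg Matrix.det hXn
    rw [Matrix.det_pow, hdet, one_pow, Matrix.det_smul, Matrix.det_one, mul_one, Fintype.card_fin] at this
    exact this.symm
  obtain ⟨ω, hω⟩ := exists_root (F := F) 3 (by norm_num) (by omega)
  have hω3 : ω ^ 3 = 1 := hω.pow_eq_one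
  by_cases hz1 : z = 1
  · rw [hz1, one_smul] at hXn
    obtain ⟨b, l, hbl⟩ := exists_eig hω h3F (by simp) (Matrix.toLin' X) (by rw [← Matrix.toLin'_pow, hXn, Matrix.toLin'_one]; rfl)
    have hdetl := det_eig X b l hbl
    rw [hdet, Fin.prod_univ_three, ← pow_add, ← pow_add] at hdetl
    have hdvd : 3 ∣ ((l 0 : ℕ) + (l 1 : ℕ) + (l 2 : ℕ)) := hω.dvd_of_pow_eq_one _ hdetl.symm
    have hnc : ¬ (l 0 = l 1 ∧ l 1 = l 2) := by
      rintro ⟨h1, h2⟩
      apply hns (ω ^ (l 0 : ℕ))
      apply Matrix.toLin'.injective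
      apply b.ext
      intro i
      have hli : l i = l 0 := by
        fin_cases i
        · rfl
        · exact h1.symm
        · exact (h1.trans h2).symm
      rw [hbl, hli]
      simp
    have hinj : Function.Injective l := by
      have key : ∀ a b c : Fin 3, 3 ∣ ((a : ℕ) + b + c) → ¬ (a = b ∧ b = c) → a ≠ b ∧ b ≠ c ∧ a ≠ c := by decide
      obtain ⟨k1, k2, k3⟩ := key _ _ _ hdvd hnc
      intro i j hij
      fin_cases i <;> fin_cases j
      · rfl
      · exact absurd hij k1
      · exact absurd hij k3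
      · exact absurd hij.symm k1
      · rfl
      · exact absurd hij k2
      · exact absurd hij.symm k3
      · exact absurd hij.symm k2
      · rfl
    obtain ⟨R1, hR1, hXR1⟩ := diag_conj X b l hinj hbl
    obtain ⟨y, hyn, hyq, hyE⟩ := H99.FieldSub.exists_frob ρ (by omega) hE
    obtain ⟨b', l', hbl'⟩ := exists_eig hω h3F (by simp) (Matrix.toLin' y) (by rw [← Matrix.toLin'_pow, hyn, Matrix.toLin'_one]; rfl)
    have hinj' : Function.Injective l' := by
      intro i j hij
      by_contra hne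
      obtain ⟨c, hc⟩ := H99.FieldSub.eigen_unique ρ Nat.prime_three hE y (fun e => ⟨_, hyq e⟩) hyE (l := ω ^ (l' i : ℕ))
        (pow_ne_zero _ (hω.ne_zero (by norm_num))) (v := b' i) (w := b' j) (b'.ne_zero i)
        (by rw [← Matrix.toLin'_apply, hbl']) (by rw [← Matrix.toLin'_apply, hbl', hij])
      have h1 := congrArg (fun v => b'.repr v j) hc
      simp [Finsupp.single_apply, hne] at h1
    obtain ⟨R2, hR2, hyR2⟩ := diag_conj y b' l' hinj' hbl'
    set D0 : Matrix (Fin 3) (Fin 3) F := Matrix.diagonal (fun i : Fin 3 => ω ^ (i : ℕ)) with hD0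
    set c := (R1.det)⁻¹ * R2.det with hc
    set C : Matrix (Fin 3) (Fin 3) F := Matrix.diagonal (fun i : Fin 3 => if i = 0 then c else 1) with hC
    have hCdet : C.det = c := by
      rw [hC, Matrix.det_diagonal, Finset.prod_ite_eq' Finset.univ _ (fun _ => c)]
      simp
    have hCD : D0 * C = C * D0 := by
      rw [hC, hD0, Matrix.diagonal_mul_diagonal, Matrix.diagonal_mul_diagonal]
      congr 1; funext i; ring
    have hu2 : IsUnit R2.det := isUnit_iff_ne_zero.2 hR2
    refine closeY K x y (R1 * C * R2⁻¹) ?_ ?_ ?_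
    · rw [Matrix.det_mul, Matrix.det_mul, hCdet, Matrix.det_nonsing_inv, Ring.inverse_eq_inv, hc]
      field_simp
    · calc (x : Matrix (Fin 3) (Fin 3) F) * (R1 * C * R2⁻¹) = (X * R1) * C * R2⁻¹ := by simp only [Matrix.mul_assoc]; rfl
        _ = R1 * (D0 * C) * R2⁻¹ := by rw [hXR1]; simp only [Matrix.mul_assoc]
        _ = R1 * C * D0 * R2⁻¹ := by rw [hCD]; simp only [Matrix.mul_assoc]
        _ = R1 * C * (R2⁻¹ * (R2 * D0)) * R2⁻¹ := by rw [← Matrix.mul_assoc R2⁻¹, Matrix.nonsing_inv_mul _ hu2, Matrix.one_mul]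
        _ = R1 * C * (R2⁻¹ * (y * R2)) * R2⁻¹ := by rw [hyR2]
        _ = (R1 * C * R2⁻¹) * y * (R2 * R2⁻¹) := by simp only [Matrix.mul_assoc]
        _ = _ := by rw [Matrix.mul_nonsing_inv _ hu2, Matrix.mul_one]
    · intro g hg
      apply H99.FieldSub.mem_norm ρ hmem
      intro e
      rw [hg, hyq]
  · -- z is not a cube
    have hzc : ∀ b : F, b ^ 3 ≠ z := by
      intro b hb
      have hb9 : b ^ 9 = 1 := by
        calc b ^ 9 = (b ^ 3) ^ 3 := by ring
          _ = 1 := by rw [hb, hzn]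
      have hb0 : b ≠ 0 := by rintro rfl; norm_num at hb9
      have h1 : b ^ (Fintype.card F - 1) = 1 := FiniteField.pow_card_sub_one_eq_one b hb0
      have h2 : b ^ (Nat.gcd 9 (Fintype.card F - 1)) = 1 := pow_gcd_eq_one.2 ⟨hb9, h1⟩
      have h3 : Nat.gcd 9 (Fintype.card F - 1) = 3 := by
        have h4 : (Fintype.card F - 1) % 9 = 3 ∨ (Fintype.card F - 1) % 9 = 6 := by omega
        rw [Nat.gcd_rec]
        rcases h4 with h4 | h4 <;> rw [h4] <;> rfl
      rw [h3, hb] at h2
      exact hz1 h2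
    have hirr : Irreducible (Polynomial.X ^ 3 - C z : F[X]) := X_pow_sub_C_irreducible_of_prime Nat.prime_three hzc
    have hmon : (Polynomial.X ^ 3 - C z : F[X]).Monic := monic_X_pow_sub_C _ (by norm_num)
    have hblk : ∀ T : (Fin 3 → F) →ₗ[F] (Fin 3 → F), T ^ 3 = algebraMap F _ z →
        ∃ (f : Fin 1 → F[X]) (_ : H99.Cyclic.Data T f), ∀ i, f i = Polynomial.X ^ 3 - C z := by
      intro T hT
      obtain ⟨m, f, D, hf⟩ := H99.Cyclic.exists_cyclic_basis T
      have hfi : ∀ i, f i = Polynomial.X ^ 3 - C z := by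
        intro i
        obtain ⟨p, e, hp, hpm, he, hpe⟩ := hf i
        have hdvd : f i ∣ Polynomial.X ^ 3 - C z := by
          apply D.dvd_of_aeval
          rw [map_sub, map_pow, aeval_X, aeval_C, hT, sub_self]
        rcases (hirr.dvd_iff).1 hdvd with h | h
        · exfalso
          have := D.pos i
          rw [natDegree_eq_zero_of_isUnit h] at this
          omega
        · exact eq_of_monic_of_associated (D.monic i) hmon h.symm
      have hm : m = 1 := by
        have := Module.finrank_eq_card_basis D.b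
        rw [Fintype.card_sigma] at this
        simp only [Fintype.card_fin] at this
        rw [Finset.sum_congr rfl (fun i _ => by rw [hfi i, natDegree_X_pow_sub_C])] at this
        simp at this
        omega
      subst hm
      exact ⟨f, D, hfi⟩
    obtain ⟨κ, hκ⟩ : ∃ κ : E, κ ^ 3 = algebraMap F E z := by
      have hfin : Finite E := Module.finite_of_finite F
      have : Fintype E := Fintype.ofFinite E
      have hcardE : Fintype.card E = Fintype.card F ^ 3 := by
        rw [← hE]; exact Module.card_eq_pow_finrank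
      obtain ⟨g, hg⟩ := IsCyclic.exists_generator (α := Eˣ)
      have ho : orderOf g = Fintype.card E - 1 := by
        rw [orderOf_eq_card_of_forall_mem_zpowers hg, Nat.card_eq_fintype_card, Fintype.card_units]
      have h9 : 9 ∣ Fintype.card E - 1 := by
        have h0 : Fintype.card E % 9 = 1 := by
          rw [hcardE, Nat.pow_mod]
          rcases h47 with h | h <;> rw [h] <;> rfl
        omega
      obtain ⟨M, hM⟩ := h9
      have hz0 : z ≠ 0 := by rintro rfl; norm_num at hzn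
      let zE : Eˣ := Units.mk0 (algebraMap F E z) (by simpa using hz0)
      obtain ⟨j, hj⟩ := Subgroup.mem_zpowers_iff.1 (hg zE)
      have hz3 : zE ^ 3 = 1 := by
        apply Units.ext
        show (algebraMap F E z) ^ 3 = 1
        rw [← map_pow, hzn, map_one]
      have h5 : ((Fintype.card E - 1 : ℕ) : ℤ) ∣ 3 * j := by
        rw [← ho, orderOf_dvd_iff_zpow_eq_one, mul_comm, _root_.zpow_mul, hj]
        exact_mod_cast hz3
      rw [hM] at h5
      obtain ⟨t, ht⟩ := h5
      have hj3 : j = (M * t) * 3 := by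
        push_cast at ht
        linarith
      refine ⟨((g ^ (M * t : ℤ) : Eˣ) : E), ?_⟩
      have h6 : (g ^ (M * t : ℤ)) ^ 3 = zE := by
        rw [← hj, hj3, _root_.zpow_mul _ (M * t : ℤ) 3]; rfl
      rw [← Units.val_pow_eq_pow_val, h6]; rfl
    have hρκ : (ρ κ) ^ 3 = z • (1 : Matrix (Fin 3) (Fin 3) F) := by
      rw [← map_pow, hκ, AlgHom.commutes, Algebra.algebraMap_eq_smul_one]
    have htoLin : ∀ Y : Matrix (Fin 3) (Fin 3) F, Y ^ 3 = z • (1 : Matrix (Fin 3) (Fin 3) F) → (Matrix.toLin' Y) ^ 3 = algebraMap F _ z := by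
      intro Y hY
      rw [← Matrix.toLin'_pow, hY, map_smul, Matrix.toLin'_one, Algebra.algebraMap_eq_smul_one]; rfl
    obtain ⟨f1, D1, hf1⟩ := hblk _ (htoLin X hXn)
    obtain ⟨f2, D2, hf2⟩ := hblk _ (htoLin (ρ κ) hρκ)
    obtain ⟨R, hR, hXR⟩ := H99.Cyclic.conj_matrix D1 D2 (Equiv.refl _) (fun i => by rw [hf2, hf1])
    obtain ⟨e, he⟩ := H99.FieldSub.exists_det_eq ρ (by norm_num) hE (R.det)⁻¹
    refine closeY K x (ρ κ) (R * ρ e) ?_ ?_ ?_
    · rw [Matrix.det_mul, he, mul_inv_cancel₀ hR]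
    · rw [← Matrix.mul_assoc, ← hXdef, hXR, Matrix.mul_assoc, ← map_mul, mul_comm κ e, map_mul, Matrix.mul_assoc]
    · intro g hg
      have hκ0 : κ ≠ 0 := by
        rintro rfl
        have h1 := congrArg Matrix.det hρκ
        rw [map_zero, Matrix.det_pow, Matrix.det_zero, Matrix.det_smul, Matrix.det_one, mul_one, Fintype.card_fin, hzn] at h1
        norm_num at h1
      have hginv : ((g⁻¹ : GL (Fin 3) F) : Matrix (Fin 3) (Fin 3) F) = ρ κ⁻¹ := by
        have h1 : (g : Matrix (Fin 3) (Fin 3) F) * ρ κ⁻¹ = 1 := by rw [hg, ← map_mul, mul_inv_cancel₀ hκ0, map_one]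
        have h2 : ((g⁻¹ : GL (Fin 3) F) : Matrix (Fin 3) (Fin 3) F) * (g : Matrix (Fin 3) (Fin 3) F) = 1 := by
          rw [← Units.val_mul, inv_mul_cancel, Units.val_one]
        calc ((g⁻¹ : GL (Fin 3) F) : Matrix (Fin 3) (Fin 3) F) = ((g⁻¹ : GL (Fin 3) F) : Matrix (Fin 3) (Fin 3) F) *
              ((g : Matrix (Fin 3) (Fin 3) F) * ρ κ⁻¹) := by rw [h1, Matrix.mul_one]
          _ = _ := by rw [← Matrix.mul_assoc, h2, Matrix.one_mul]
      intro k
      rw [hginv, hg, hmem, hmem]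
      constructor
      · rintro ⟨e, rfl⟩
        exact ⟨κ * e * κ⁻¹, by rw [map_mul, map_mul]⟩
      · rintro ⟨e, he⟩
        refine ⟨κ⁻¹ * e * κ, ?_⟩
        rw [map_mul, map_mul, he]
        calc ρ κ⁻¹ * (ρ κ * k * ρ κ⁻¹) * ρ κ = (ρ κ⁻¹ * ρ κ) * k * (ρ κ⁻¹ * ρ κ) := by simp only [Matrix.mul_assoc]
          _ = k := by rw [← map_mul, inv_mul_cancel₀ hκ0, map_one, Matrix.one_mul, Matrix.mul_one]

open Matrix in
theorem der_three {F : Type*} [Field F] [CharP F 3] :
    ∃ (x : Matrix.SpecialLinearGroup (Fin 3) F) (z : F) (v w : Fin 3 → F),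
      ((x ^ 3 : Matrix.SpecialLinearGroup (Fin 3) F) : Matrix (Fin 3) (Fin 3) F) = z • (1 : Matrix (Fin 3) (Fin 3) F) ∧
      (∀ z : F, (x : Matrix (Fin 3) (Fin 3) F) ≠ z • (1 : Matrix (Fin 3) (Fin 3) F)) ∧
      v ≠ 0 ∧ (∀ c : F, w ≠ c • v) ∧ (x : Matrix (Fin 3) (Fin 3) F) *ᵥ v = v ∧ (x : Matrix (Fin 3) (Fin 3) F) *ᵥ w = w ∧ True := by
  classical
  let D' : Matrix.SpecialLinearGroup (Fin 3) F := ⟨Matrix.transvection 0 1 1, Matrix.det_transvection_of_ne _ _ (by decide) _⟩
  have hD' : (D' : Matrix (Fin 3) (Fin 3) F) = Matrix.transvection 0 1 1 := rfl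
  refine ⟨D', 1, Pi.single 0 1, Pi.single 2 1, ?_, ?_, ?_, ?_, ?_, ?_, trivial⟩
  · rw [Matrix.SpecialLinearGroup.coe_pow, hD', pow_succ, pow_two, Matrix.transvection_mul_transvection_same _ _ (by decide),
      Matrix.transvection_mul_transvection_same _ _ (by decide)]
    have : (1 : F) + 1 + 1 = 0 := by
      have := CharP.cast_eq_zero F 3
      push_cast at this
      linear_combination this
    rw [this, Matrix.transvection_zero, one_smul]
  · intro w hw
    have e1 := congrFun (congrFun hw 0) 1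
    rw [hD'] at e1
    simp [Matrix.transvection] at e1
  · intro h
    have := congrFun h 0
    simp at this
  · intro c h
    have := congrFun h 2
    simp [Pi.single_apply] at this
  · rw [hD', Matrix.mulVec_single_one]
    ext i
    fin_cases i <;> simp [Matrix.transvection, Matrix.one_apply, Matrix.single_apply]
  · rw [hD', Matrix.mulVec_single_one]
    ext i
    fin_cases i <;> simp [Matrix.transvection, Matrix.one_apply, Matrix.single_apply]

open Matrix in
theorem der_nine {F : Type*} [Field F] {ζ : F} (hζ : IsPrimitiveRoot ζ 9) :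
    ∃ (x : Matrix.SpecialLinearGroup (Fin 3) F) (z : F) (v w : Fin 3 → F),
      ((x ^ 3 : Matrix.SpecialLinearGroup (Fin 3) F) : Matrix (Fin 3) (Fin 3) F) = z • (1 : Matrix (Fin 3) (Fin 3) F) ∧
      (∀ z : F, (x : Matrix (Fin 3) (Fin 3) F) ≠ z • (1 : Matrix (Fin 3) (Fin 3) F)) ∧
      v ≠ 0 ∧ (∀ c : F, w ≠ c • v) ∧ (x : Matrix (Fin 3) (Fin 3) F) *ᵥ v = ζ • v ∧ (x : Matrix (Fin 3) (Fin 3) F) *ᵥ w = ζ • w := by
  classical
  have h9 : ζ ^ 9 = 1 := hζ.pow_eq_one
  have hdet : (Matrix.diagonal ![ζ, ζ, ζ ^ 7]).det = 1 := by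
    rw [Matrix.det_diagonal, Fin.prod_univ_three]
    simp
    linear_combination h9
  let D' : Matrix.SpecialLinearGroup (Fin 3) F := ⟨Matrix.diagonal ![ζ, ζ, ζ ^ 7], hdet⟩
  have hD' : (D' : Matrix (Fin 3) (Fin 3) F) = Matrix.diagonal ![ζ, ζ, ζ ^ 7] := rfl
  refine ⟨D', ζ ^ 3, Pi.single 0 1, Pi.single 1 1, ?_, ?_, ?_, ?_, ?_, ?_⟩
  · rw [Matrix.SpecialLinearGroup.coe_pow, hD', Matrix.diagonal_pow, Matrix.smul_one_eq_diagonal]
    congr 1
    funext i
    fin_cases i
    · simp
    · simp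
    · simp
      calc (ζ ^ 7) ^ 3 = (ζ ^ 9) ^ 2 * ζ ^ 3 := by ring
        _ = ζ ^ 3 := by rw [h9]; ring
  · intro w hw
    have e1 := congrFun (congrFun hw 0) 0
    have e2 := congrFun (congrFun hw 2) 2
    rw [hD'] at e1 e2
    simp at e1 e2
    rw [← e1] at e2
    have hζ0 : ζ ≠ 0 := hζ.ne_zero (by norm_num)
    have h6 : ζ ^ 6 = 1 := by
      apply mul_right_cancel₀ hζ0
      rw [one_mul, ← pow_succ]; exact e2
    have := hζ.dvd_of_pow_eq_one _ h6
    omega
  · intro h
    have := congrFun h 0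
    simp at this
  · intro c h
    have := congrFun h 1
    simp [Pi.single_apply] at this
  · rw [hD', Matrix.mulVec_single_one]
    ext i
    fin_cases i <;> simp [Matrix.diagonal_apply]
  · rw [hD', Matrix.mulVec_single_one]
    ext i
    fin_cases i <;> simp [Matrix.diagonal_apply]

open Matrix in
theorem no_idx {F : Type*} [Field F] [Fintype F]
    (K : Subalgebra F (Matrix (Fin 3) (Fin 3) F)) (hK : Cfsg.Geo.IsFieldSubalgebra 3 K)
    (h25 : Fintype.card F % 9 = 2 ∨ Fintype.card F % 9 = 5)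
    (hΩ : 3 ∣ ((Cfsg.Geo.subalgebraNormalizer K).comap (Matrix.SpecialLinearGroup.toGL : Matrix.SpecialLinearGroup (Fin 3) F →* GL (Fin 3) F)).index) : False := by
  classical
  obtain ⟨E, _, _, ρ, hmem, hE⟩ := H99.FieldSub.exists_field (by norm_num) K hK
  have hfd : FiniteDimensional F E := Module.finite_of_finrank_pos (by omega)
  have hq1 : 1 < Fintype.card F := Fintype.one_lt_card
  set H' := (Cfsg.Geo.subalgebraNormalizer K).comap (Matrix.SpecialLinearGroup.toGL : Matrix.SpecialLinearGroup (Fin 3) F →* GL (Fin 3) F) with hH'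
  obtain ⟨y, hyn, hyq, hyE⟩ := H99.FieldSub.exists_frob ρ (by omega) hE
  have hydet : y.det = 1 := by
    have h1 : y.det ^ 3 = 1 := by rw [← Matrix.det_pow, hyn, Matrix.det_one]
    have h0 : y.det ≠ 0 := by
      intro h; rw [h] at h1; norm_num at h1
    have h2 : y.det ^ (Fintype.card F - 1) = 1 := FiniteField.pow_card_sub_one_eq_one _ h0
    have h3 : y.det ^ (Nat.gcd 3 (Fintype.card F - 1)) = 1 := pow_gcd_eq_one.2 ⟨h1, h2⟩
    have h4 : Nat.gcd 3 (Fintype.card F - 1) = 1 := by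
      have h5 : (Fintype.card F - 1) % 3 = 1 := by omega
      rw [Nat.gcd_rec, h5]; rfl
    rwa [h4, pow_one] at h3
  let y' : Matrix.SpecialLinearGroup (Fin 3) F := ⟨y, hydet⟩
  have hy'H : y' ∈ H' := by
    rw [hH', Subgroup.mem_comap]
    apply H99.FieldSub.mem_norm ρ hmem
    intro e
    exact hyq e
  have hy3 : y' ^ 3 = 1 := by
    apply Subtype.ext
    rw [Matrix.SpecialLinearGroup.coe_pow]
    exact hyn
  have hy1 : y' ≠ 1 := by
    intro h
    apply hyE 1
    rw [map_one]
    exact congrArg (fun g : Matrix.SpecialLinearGroup (Fin 3) F => (g : Matrix (Fin 3) (Fin 3) F)) h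
  have hord : orderOf (⟨y', hy'H⟩ : H') = 3 := by
    have : Fact (Nat.Prime 3) := ⟨Nat.prime_three⟩
    apply orderOf_eq_prime
    · exact Subtype.ext hy3
    · intro h
      exact hy1 (congrArg Subtype.val h)
  have h3H : 3 ∣ Nat.card H' := by
    have := orderOf_dvd_natCard (⟨y', hy'H⟩ : H')
    rwa [hord] at this
  have h9 : 9 ∣ Nat.card (Matrix.SpecialLinearGroup (Fin 3) F) := by
    rw [← Subgroup.index_mul_card H']
    exact mul_dvd_mul hΩ h3H
  have hinj : Function.Injective (Matrix.SpecialLinearGroup.toGL : Matrix.SpecialLinearGroup (Fin 3) F →* GL (Fin 3) F) := by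
    intro a b h
    apply Subtype.ext
    exact congrArg Units.val h
  have hdvd : Nat.card (Matrix.SpecialLinearGroup (Fin 3) F) ∣ Nat.card (GL (Fin 3) F) := by
    rw [Nat.card_congr (MonoidHom.ofInjective hinj).toEquiv]
    exact Subgroup.card_subgroup_dvd_card _
  have h9' := h9.trans hdvd
  rw [Matrix.card_GL_field, Fin.prod_univ_three] at h9'
  simp only [Fin.val_zero, Fin.val_one, Fin.val_two, pow_zero, pow_one] at h9'
  set q := Fintype.card F with hq
  have hq3 : q ^ 3 % 9 = 8 := by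
    rw [Nat.pow_mod]
    rcases h25 with h | h <;> rw [h]
  have hle1 : 1 ≤ q ^ 3 := Nat.one_le_pow _ _ (by omega)
  have hle2 : q ≤ q ^ 3 := by nlinarith [Nat.one_le_pow 2 q (by omega)]
  have hle3 : q ^ 2 ≤ q ^ 3 := Nat.pow_le_pow_right (by omega) (by norm_num)
  have ha : (q ^ 3 - 1) % 9 = 7 := by omega
  rcases h25 with h | h
  · have hq2 : q ^ 2 % 9 = 4 := by rw [Nat.pow_mod, h]
    have hb : (q ^ 3 - q) % 9 = 6 := by omega
    have hc : (q ^ 3 - q ^ 2) % 9 = 4 := by omega
    have := Nat.mod_eq_zero_of_dvd h9'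
    rw [Nat.mul_mod, Nat.mul_mod (q ^ 3 - 1), ha, hb, hc] at this
    norm_num at this
  · have hq2 : q ^ 2 % 9 = 7 := by rw [Nat.pow_mod, h]
    have hb : (q ^ 3 - q) % 9 = 3 := by omega
    have hc : (q ^ 3 - q ^ 2) % 9 = 1 := by omega
    have := Nat.mod_eq_zero_of_dvd h9'
    rw [Nat.mul_mod, Nat.mul_mod (q ^ 3 - 1), ha, hb, hc] at this
    norm_num at this

/-- Elements of order 3 of PSL_3(q) and the normalizer of a Singer cycle. Here `T = PSL_n(F)` for a field `F` with `q = p^f` elements (`n ≥ 2`, `(n, q) ≠ (2, 2), (2, 3)`), `k` is a prime dividing `n`, `K` is a subalgebra of the `n × n` matrices that is a field of degree `k` over `F` (an extension-field structure F_{q^k} on `F^n`), and `H` is the subgroup of matrices of determinant 1 normalizing `K` — a subgroup of type GL_{n/k}(q^k) (maximal except in some small cases; maximality is not assumed); Ω is the set of cosets of `H` in `T`, so an element of `T` of prime order `r` (a matrix `x` of determinant 1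 with `x^r` scalar, `x` not scalar) fixes a point of Ω when some conjugate of `x` by a matrix of determinant 1 normalizes `K`. Take `n = k = 3` and suppose 3 divides the index of `H`. Then every element of `T` of order 3 is conjugate in `T` into `H` if and only if `q ≡ 4, 7` or `8 (mod 9)`. -/
theorem result {F : Type*} [Field F] [Fintype F] {p : ℕ} [Fact p.Prime] [CharP F p] {q : ℕ} (hq : Fintype.card F = q)
    (n : ℕ) (hn : n = 3) (k : ℕ) (hk : k.Prime) (hkn : k ∣ n) (K : Subalgebra F (Matrix (Fin n) (Fin n) F)) (hK : Cfsg.Geo.IsFieldSubalgebra k K) (hk3 : k = 3) (hΩ : 3 ∣ ((Cfsg.Geo.subalgebraNormalizer K).comap (Matrix.SpecialLinearGroup.toGL : Matrix.SpecialLinearGroup (Fin n) F →* GL (Fin n) F)).index) :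
    (∀ x : Matrix.SpecialLinearGroup (Fin n) F,
      (∃ z : F, ((x ^ 3 : Matrix.SpecialLinearGroup (Fin n) F) : Matrix (Fin n) (Fin n) F) = z • (1 : Matrix (Fin n) (Fin n) F)) →
      (∀ z : F, (x : Matrix (Fin n) (Fin n) F) ≠ z • (1 : Matrix (Fin n) (Fin n) F)) →
      ∃ P : Matrix.SpecialLinearGroup (Fin n) F, P⁻¹ * x * P ∈ ((Cfsg.Geo.subalgebraNormalizer K).comap (Matrix.SpecialLinearGroup.toGL : Matrix.SpecialLinearGroup (Fin n) F →* GL (Fin n) F))) ↔
    (q % 9 = 4 ∨ q % 9 = 7 ∨ q % 9 = 8) := by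
  subst hq
  subst hn
  subst hk3
  have hp : p.Prime := Fact.out
  have hq1 : 1 < Fintype.card F := Fintype.one_lt_card
  obtain ⟨f, hpf, hcardF⟩ := FiniteField.card F p
  constructor
  · intro H
    by_contra hcon
    push Not at hcon
    obtain ⟨E, _, _, ρ, hmem, hE⟩ := H99.FieldSub.exists_field (by norm_num) K hK
    have hfd : FiniteDimensional F E := Module.finite_of_finrank_pos (by omega)
    have h3 : Fintype.card F % 3 = 0 ∨ Fintype.card F % 9 = 1 ∨ Fintype.card F % 9 = 2 ∨ Fintype.card F % 9 = 5 := by omega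
    rcases h3 with h3 | h3 | h3
    · have hp3 : p = 3 := by
        have h4 : 3 ∣ p ^ (f : ℕ) := by rw [← hcardF]; omega
        exact ((Nat.prime_dvd_prime_iff_eq Nat.prime_three hp).1 (Nat.prime_three.dvd_of_dvd_pow h4)).symm
      subst hp3
      obtain ⟨x, z, v, w, g1, g2, g3, g4, g5, g6, g7⟩ := der_three (F := F)
      obtain ⟨P, hP⟩ := H x ⟨z, g1⟩ g2
      exact H99.FieldSub.derange ρ hk hE hmem x P g2 one_ne_zero g3 (by rw [one_smul]; exact g5) (by rw [one_smul]; exact g6) g4 hP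
    · obtain ⟨ζ, hζ⟩ := exists_root (F := F) 9 (by norm_num) (by omega)
      obtain ⟨x, z, v, w, g1, g2, g3, g4, g5, g6⟩ := der_nine hζ
      obtain ⟨P, hP⟩ := H x ⟨z, g1⟩ g2
      exact H99.FieldSub.derange ρ hk hE hmem x P g2 (hζ.ne_zero (by norm_num)) g3 g5 g6 g4 hP
    · exact no_idx K hK h3 hΩ
  · rintro H x ⟨z, hz⟩ hns
    have hp3 : p ≠ 3 := by
      rintro rfl
      have : 3 ∣ Fintype.card F := by rw [hcardF]; exact dvd_pow_self 3 f.ne_zero
      omega
    have h3F : ((3 : ℕ) : F) ≠ 0 := by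
      intro h
      rw [CharP.cast_eq_zero_iff F p] at h
      exact hp3 ((Nat.prime_dvd_prime_iff_eq hp Nat.prime_three).1 h)
    rcases H with h | h | h
    · exact bwd47 K hK (Or.inl h) h3F x z hz hns
    · exact bwd47 K hK (Or.inr h) h3F x z hz hns
    · refine Cfsg.Agent.S5970.bwd 3 Nat.prime_three le_rfl (Ne.symm hp3) K hK ?_ x z hz hns
      have h1 : ((Fintype.card F : ℕ) : ZMod 3) = 2 := by
        have h2 : Fintype.card F % 3 = 2 := by omega
        rw [← ZMod.natCast_mod, h2]; rfl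
      rw [h1]
      have h2 : orderOf (2 : ZMod 3) = 2 := orderOf_eq_prime (by decide) (by decide)
      rw [h2]

end Cfsg.Agent.S5971
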