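import Cfsg.Statements.S5972
import Cfsg.Agent.Lib.H99.OrthTsTwo
import Cfsg.Agent.Lib.H99.TsCount
import Cfsg.Agent.Lib.H99.OrthEvenDim3

set_option autoImplicit false
set_option linter.unusedSimpArgs false
open scoped MatrixGroups
open Cfsg

namespace Cfsg.Agent.S5972


open Module QuadraticMap H48.QuadSplit H48.QuadStd H96.OeType H99.OrthSS H99.OrthTi

/-- Elements of prime order of Ω_n(q), n = 2d+1 ≥ 7, q odd, with no fixed totally singular `m`-space. Here `T = Ω_n(q)` is realised as the commutator subgroup of the isometry group of the quadratic form `x₀² + Σ xᵢyᵢ` over the field `F` with `q` elements (it has trivial centre, so its elements of prime order `r` are used directly); let `1 ≤ m ≤ d` and let `r` be a prime dividing the number of totally singular `m`-spaces. For `r ≠ p` let `i` be the multiplicative order of `q` modulo `r`, `c = i` for `i` even and `c = 2i` for `i` odd, and write `k = n mod c`, `ℓ = m mod i`, `n' = ⌊n/i⌋`, `m' = ⌊m/i⌋`,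 `t = (r−1)/i`. Then every element of `T` of order `r` fixes some totally singular `m`-space if and only if either (i) `r = 2` and (`m < (n−1)/2` or `q ≡ 1 (mod 4)`); or (ii) `r ≠ p` is odd, `i ≤ m`, `k > 2ℓ`, and (`i` is odd or `n' − 2m' ≥ t`). -/
theorem result {F : Type*} [Field F] [Fintype F] {p : ℕ} [Fact p.Prime] [CharP F p] {q : ℕ} (hq : Fintype.card F = q) (hqodd : Odd q)
    (d m : ℕ) (hd : 3 ≤ d) (hm : 1 ≤ m) (hmd : m ≤ d)
    (r : ℕ) [Fact r.Prime]
    (hrΩ : r ∣ Nat.card {W : Submodule F (Unit ⊕ (Fin d ⊕ Fin d) → F) // Module.finrank F ↥W = m ∧ (∀ w ∈ W, Cfsg.quadFormOdd d F w = 0)})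
    (i c : ℕ) (hi : i = orderOf (q : ZMod r)) (hc : c = if Even i then i else 2 * i) :
    (∀ x : GL (Unit ⊕ (Fin d ⊕ Fin d)) F, x ∈ Cfsg.Geo.omegaGL (Cfsg.quadFormOdd d F) → orderOf x = r →
      ∃ W : Submodule F (Unit ⊕ (Fin d ⊕ Fin d) → F), Module.finrank F ↥W = m ∧ (∀ w ∈ W, Cfsg.quadFormOdd d F w = 0) ∧
        W.map (Matrix.toLin' (x : Matrix (Unit ⊕ (Fin d ⊕ Fin d)) (Unit ⊕ (Fin d ⊕ Fin d)) F)) ≤ W) ↔
    ((r = 2 ∧ (m < d ∨ q % 4 = 1)) ∨
     (r ≠ p ∧ 2 < r ∧ i ≤ m ∧ 2 * (m % i) < (2 * d + 1) % c ∧ (Odd i ∨ (r - 1) / i + 2 * (m / i) ≤ (2 * d + 1) / i))) := by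

  have hr := (Fact.out : r.Prime)
  rw [← coe_qOdd] at hrΩ ⊢
  have hqo : Odd (Fintype.card F) := by rw [hq]; exact hqodd
  have h2 : (2 : F) ≠ 0 := two_ne_of_odd hqo
  have hQ : ND (qOdd d F 1) := nd_qOdd d h2 one_ne_zero
  have hcι : Fintype.card (Unit ⊕ (Fin d ⊕ Fin d)) = 2 * d + 1 := by
    rw [Fintype.card_sum, Fintype.card_sum, Fintype.card_fin, Fintype.card_unit]; ring
  have hfr : finrank F (Unit ⊕ (Fin d ⊕ Fin d) → F) = 2 * d + 1 := by rw [finrank_fintype_fun_eq_card, hcι]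
  have hnPT : ¬ PT (qOdd d F 1) := by
    rintro ⟨U, -, hU⟩
    rw [hfr] at hU
    omega
  have hp2 : p ≠ 2 := by
    rintro rfl
    exact h2 (by exact_mod_cast CharP.cast_eq_zero F 2)
  have hTS : {W : Submodule F (Unit ⊕ (Fin d ⊕ Fin d) → F) // finrank F ↥W = m ∧ (∀ w ∈ W, (qOdd d F 1) w = 0)} = TS (qOdd d F 1) m := rfl
  rw [hTS] at hrΩ
  by_cases hrp : r = p
  · subst hrp
    exact absurd hrΩ (ts_not_p (p := r) hQ (by rw [hfr]; omega))
  have hLHS : (∀ x : GL (Unit ⊕ (Fin d ⊕ Fin d)) F, x ∈ Cfsg.Geo.omegaGL (⇑(qOdd d F 1)) → orderOf x = r →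
      ∃ W : Submodule F (Unit ⊕ (Fin d ⊕ Fin d) → F), Module.finrank F ↥W = m ∧ (∀ w ∈ W, (qOdd d F 1) w = 0) ∧
        W.map (Matrix.toLin' (x : Matrix (Unit ⊕ (Fin d ⊕ Fin d)) (Unit ⊕ (Fin d ⊕ Fin d)) F)) ≤ W) ↔
      (∀ x : GL (Unit ⊕ (Fin d ⊕ Fin d)) F, x ∈ Cfsg.Geo.omegaGL (⇑(qOdd d F 1)) → x ^ r = 1 → x ≠ 1 →
      ∃ W : Submodule F (Unit ⊕ (Fin d ⊕ Fin d) → F), (Module.finrank F ↥W = m ∧ (∀ w ∈ W, (qOdd d F 1) w = 0)) ∧
        W.map (Matrix.toLin' (x : Matrix (Unit ⊕ (Fin d ⊕ Fin d)) (Unit ⊕ (Fin d ⊕ Fin d)) F)) ≤ W) := by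
    constructor
    · intro H x hx h1 h3
      obtain ⟨W, w1, w2, w3⟩ := H x hx (orderOf_eq_prime h1 h3)
      exact ⟨W, ⟨w1, w2⟩, w3⟩
    · intro H x hx h1
      obtain ⟨W, ⟨w1, w2⟩, w3⟩ := H x hx (by rw [← h1, pow_orderOf_eq_one]) (by
        rintro rfl
        rw [orderOf_one] at h1
        exact hr.one_lt.ne h1)
      exact ⟨W, w1, w2, w3⟩
  rw [hLHS]
  by_cases hr2 : r = 2
  · subst hr2
    have hq4 : IsSquare (-1 : F) ↔ q % 4 = 1 := by
      rw [FiniteField.isSquare_neg_one_iff, hq]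
      rw [Nat.odd_iff] at hqodd
      omega
    constructor
    · intro H
      left
      refine ⟨rfl, ?_⟩
      by_contra hcon
      push Not at hcon
      obtain ⟨h5, h6⟩ := hcon
      obtain ⟨x, P, x1, x2, p1, p2, p3, p4, p5⟩ := exists_minus h2 (fun h => h6 (hq4.1 h)) hQ (by rw [hcι]; omega)
      obtain ⟨W, ⟨w1, w2⟩, w3⟩ := H x x1 x2 (by
        rintro rfl
        obtain ⟨v, hv, hv0⟩ := Submodule.exists_mem_ne_zero_of_ne_bot (p := P) (by
          rintro rfl
          rw [finrank_bot] at p2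
          omega)
        have h7 := p4 v hv
        rw [Units.val_one, Matrix.toLin'_one, LinearMap.id_apply] at h7
        have h8 : (2 : F) • v = 0 := by
          rw [two_smul]
          nth_rw 1 [h7]
          exact neg_add_cancel v
        exact hv0 ((smul_eq_zero.1 h8).resolve_left h2))
      obtain ⟨j, l, k1, k2, k3, k4, k5⟩ := inv_nec h2 hQ p1 p4 p5 (inv_map.1 w3) w2
      have h9 := finrank_orth hQ P
      rw [hfr] at h9
      rw [w1] at k1
      rw [p2] at k2 k3 h9
      have hj : j ≠ 1 := fun h => p3 (k3 (by omega))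
      omega
    · rintro (⟨-, h⟩ | ⟨-, h, -⟩)
      · intro x hx hxx hx1
        have hT := toLin_pow_one hxx
        have hiso := iso_of_omega hx
        set f := Matrix.toLin' (x : Matrix (Unit ⊕ (Fin d ⊕ Fin d)) (Unit ⊕ (Fin d ⊕ Fin d)) F) with hf
        have hC := fx_nd hQ (r := 2) (by exact_mod_cast h2) f hiso hT
        have hneg := neg_on hQ h2 f hiso hT
        have hA := nd_orth hQ hC
        have hoo : orth (qOdd d F 1) (orth (qOdd d F 1) (fx f)) = fx f := orth_orth hQ _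
        obtain ⟨a, ha⟩ : Even (finrank F (orth (qOdd d F 1) (fx f))) := inv_even h2 hQ (by rw [hcι]; omega) hx hiso hT
        have hod := finrank_orth hQ (orth (qOdd d F 1) (fx f))
        rw [hfr] at hod
        have hpt : m < d ∨ PT ((qOdd d F 1).restrict (orth (qOdd d F 1) (fx f))) := by
          rcases h with h | h
          · exact Or.inl h
          · exact Or.inr (inv_pt h2 (hq4.2 h) hQ (by rw [hcι]; omega) hx hT)
        obtain ⟨W, w1, w2, w3⟩ := inv_suf hQ hA hneg (fun v hv => by rw [hoo] at hv; exact mem_fx.1 hv) (j := m - min m (d - a)) (l := min m (d - a))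
          (by omega) (by
            intro h5
            rcases hpt with h6 | h6
            · exact pt_bot _ (by omega)
            · exact h6) (by omega) (by intro h5; omega)
        exact ⟨W, ⟨by omega, w2⟩, inv_map.2 w3⟩
      · exact absurd h (by norm_num)
  have hr3 : 2 < r := lt_of_le_of_ne hr.two_le (Ne.symm hr2)
  have hrq := H99.OrthSS.not_dvd_card (F := F) (p := p) hr hrp
  have hio : oi F r = i := by rw [hi, oi, hq]
  rw [crit hr hr2 hrq hQ (Or.inr (by rw [hcι]; omega)) hcι (by omega) (by omega) (fun h => by omega) hrΩ hio.symm hc]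
  have hi0 : 0 < i := by rw [← hio]; exact oi_pos (F := F) hr hrq
  have hk : (2 * d + 1) % c % 2 = 1 := by
    have h5 : 2 ∣ c := by
      rw [hc]
      split_ifs with he
      · exact he.two_dvd
      · exact Dvd.intro i rfl
    rw [Nat.mod_mod_of_dvd _ h5]; omega
  simp only [hnPT, hr2, hrp, hr3, false_and, and_false, false_or, true_and, not_false_eq_true, and_true, ne_eq, not_true_eq_false]
  generalize (2 * d + 1) % c = k at *
  generalize m % i = l
  generalize (r - 1) / i + 2 * (m / i) = X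
  generalize (2 * d + 1) / i = Y
  rcases Nat.even_or_odd i with he | ho
  · have hno : ¬ Odd i := Nat.not_odd_iff_even.2 he
    simp only [hno, he, false_and, true_and, false_or]
    constructor
    · rintro ⟨a1, a2, a3⟩
      refine ⟨a1, ?_, a2⟩
      rcases a3 with a3 | a3 | a3 <;> omega
    · rintro ⟨a1, a2, a3⟩
      refine ⟨a1, a3, ?_⟩
      by_cases hY : Even Y
      · exact Or.inr (Or.inr ⟨a2, fun h => h.2 hY⟩)
      · exact Or.inr (Or.inl ⟨by omega, iff_of_false (fun h => h) hY⟩)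
  · have hne : ¬ Even i := Nat.not_even_iff_odd.2 ho
    simp only [hne, ho, false_and, true_and, or_false, true_or, and_true]
    constructor
    · rintro ⟨a1, a2⟩
      exact ⟨a1, by omega⟩
    · rintro ⟨a1, a2⟩
      exact ⟨a1, Or.inr a2⟩

end Cfsg.Agent.S5972
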