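import Cfsg.Statements.S5973
import Cfsg.Agent.Lib.H99.OrthTsTwo
import Cfsg.Agent.Lib.H99.TsCount
import Cfsg.Agent.Lib.H99.OrthEvenDim3
import Cfsg.Agent.Lib.H99.OrthArith

set_option autoImplicit false
set_option linter.unusedSimpArgs false
open scoped MatrixGroups
open Cfsg

namespace Cfsg.Agent.S5973


open Module QuadraticMap H48.QuadSplit H48.QuadStd H96.OeType H99.OrthSS H99.OrthTi

/-- Elements of prime order of PΩ⁺_n(q), n = 2d ≥ 8, with no fixed totally singular `m`-space, `m < n/2`. Here `T = PΩ⁺_n(q)` is realised through `Ω⁺_n(q)`, the commutator subgroup of the isometry group of the quadratic form `Σ xᵢyᵢ` over the field `F` with `q` elements; an element of `T` of prime order `r` is an element `x` of `Ω⁺_n(q)` with `x^r` scalar and `x` not scalar. Let `1 ≤ m < d` and let `r` be a prime dividing the number of totally singular `m`-spaces. For `r ≠ p` let `i` be the multiplicative order of `q` modulo `r`, `c = i` for `i` even and `c = 2i` for `i` odd,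 and write `k = n mod c`, `ℓ = m mod i`, `n' = ⌊n/i⌋`, `m' = ⌊m/i⌋`, `t = (r−1)/i`. Then every element of `T` of order `r` fixes some totally singular `m`-space if and only if one of: (i) `r = 2 ≠ p` and either `q ≡ 1 (mod 4)`, or `q ≡ 3 (mod 4)`, `m ≤ n/2 − 2` and (`m` even or `n ≡ 2 (mod 4)`); (ii) `r ≠ p` odd, `i` odd, `i ≤ m` and `k ≥ 2ℓ`; (iii) `r ≠ p` odd, `i` even, `i ≤ m`, `n' − 2m' ≥ t`, and one of: `i ≥ 2ℓ`, `k = 0`, `n/i` odd and `n' − 2m' > t`; or `k ≥ 2ℓ` and `n'` even; or `k > 2ℓ` and `n'` odd. -/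
theorem result {F : Type*} [Field F] [Fintype F] {p : ℕ} [Fact p.Prime] [CharP F p] {q : ℕ} (hq : Fintype.card F = q)
    (d m : ℕ) (hd : 4 ≤ d) (hm : 1 ≤ m) (hmd : m < d)
    (r : ℕ) [Fact r.Prime]
    (hrΩ : r ∣ Nat.card {W : Submodule F (Fin d ⊕ Fin d → F) // Module.finrank F ↥W = m ∧ (∀ w ∈ W, Cfsg.quadFormPlus d F w = 0)})
    (i c : ℕ) (hi : i = orderOf (q : ZMod r)) (hc : c = if Even i then i else 2 * i) :
    (∀ x : GL (Fin d ⊕ Fin d) F, x ∈ Cfsg.Geo.omegaGL (Cfsg.quadFormPlus d F) →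
      (∃ z : F, ((x ^ r : GL (Fin d ⊕ Fin d) F) : Matrix (Fin d ⊕ Fin d) (Fin d ⊕ Fin d) F) = z • (1 : Matrix (Fin d ⊕ Fin d) (Fin d ⊕ Fin d) F)) →
      (∀ z : F, (x : Matrix (Fin d ⊕ Fin d) (Fin d ⊕ Fin d) F) ≠ z • (1 : Matrix (Fin d ⊕ Fin d) (Fin d ⊕ Fin d) F)) →
      ∃ W : Submodule F (Fin d ⊕ Fin d → F), Module.finrank F ↥W = m ∧ (∀ w ∈ W, Cfsg.quadFormPlus d F w = 0) ∧
        W.map (Matrix.toLin' (x : Matrix (Fin d ⊕ Fin d) (Fin d ⊕ Fin d) F)) ≤ W) ↔
    ((r = 2 ∧ p ≠ 2 ∧ (q % 4 = 1 ∨ (q % 4 = 3 ∧ m + 2 ≤ d ∧ (Even m ∨ (2 * d) % 4 = 2)))) ∨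
     (r ≠ p ∧ 2 < r ∧ Odd i ∧ i ≤ m ∧ 2 * (m % i) ≤ (2 * d) % c) ∨
     (r ≠ p ∧ 2 < r ∧ Even i ∧ i ≤ m ∧ (r - 1) / i + 2 * (m / i) ≤ (2 * d) / i ∧
       ((2 * (m % i) ≤ i ∧ (2 * d) % c = 0 ∧ Odd ((2 * d) / i) ∧ (r - 1) / i + 2 * (m / i) < (2 * d) / i) ∨
        (2 * (m % i) ≤ (2 * d) % c ∧ Even ((2 * d) / i)) ∨
        (2 * (m % i) < (2 * d) % c ∧ Odd ((2 * d) / i))))) := by

  have hr := (Fact.out : r.Prime)
  rw [← coe_qPlus] at hrΩ ⊢
  have hQ : ND (qPlus d F) := nd_qPlus d
  have hPT : PT (qPlus d F) := pt_qPlus d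
  have hcι : Fintype.card (Fin d ⊕ Fin d) = 2 * d := by rw [Fintype.card_sum, Fintype.card_fin]; ring
  have hfr : finrank F (Fin d ⊕ Fin d → F) = 2 * d := by rw [finrank_fintype_fun_eq_card, hcι]
  have hne : Nonempty (Fin d ⊕ Fin d) := ⟨Sum.inl ⟨0, by omega⟩⟩
  have hTS : {W : Submodule F (Fin d ⊕ Fin d → F) // finrank F ↥W = m ∧ (∀ w ∈ W, (qPlus d F) w = 0)} = TS (qPlus d F) m := rfl
  rw [hTS] at hrΩ
  by_cases hrp : r = p
  · subst hrp
    exact absurd hrΩ (ts_not_p (p := r) hQ (by rw [hfr]; omega))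
  have hLHS : (∀ x : GL (Fin d ⊕ Fin d) F, x ∈ Cfsg.Geo.omegaGL (⇑(qPlus d F)) →
      (∃ z : F, ((x ^ r : GL (Fin d ⊕ Fin d) F) : Matrix (Fin d ⊕ Fin d) (Fin d ⊕ Fin d) F) = z • (1 : Matrix (Fin d ⊕ Fin d) (Fin d ⊕ Fin d) F)) →
      (∀ z : F, (x : Matrix (Fin d ⊕ Fin d) (Fin d ⊕ Fin d) F) ≠ z • (1 : Matrix (Fin d ⊕ Fin d) (Fin d ⊕ Fin d) F)) →
      ∃ W : Submodule F (Fin d ⊕ Fin d → F), Module.finrank F ↥W = m ∧ (∀ w ∈ W, (qPlus d F) w = 0) ∧
        W.map (Matrix.toLin' (x : Matrix (Fin d ⊕ Fin d) (Fin d ⊕ Fin d) F)) ≤ W) ↔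
      (∀ x : GL (Fin d ⊕ Fin d) F, x ∈ Cfsg.Geo.omegaGL (⇑(qPlus d F)) →
      (∃ z : F, ((x ^ r : GL (Fin d ⊕ Fin d) F) : Matrix (Fin d ⊕ Fin d) (Fin d ⊕ Fin d) F) = z • (1 : Matrix (Fin d ⊕ Fin d) (Fin d ⊕ Fin d) F)) →
      (∀ z : F, (x : Matrix (Fin d ⊕ Fin d) (Fin d ⊕ Fin d) F) ≠ z • (1 : Matrix (Fin d ⊕ Fin d) (Fin d ⊕ Fin d) F)) →
      ∃ W : Submodule F (Fin d ⊕ Fin d → F), (Module.finrank F ↥W = m ∧ (∀ w ∈ W, (qPlus d F) w = 0)) ∧
        W.map (Matrix.toLin' (x : Matrix (Fin d ⊕ Fin d) (Fin d ⊕ Fin d) F)) ≤ W) := by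
    constructor
    · intro H x hx h1 h3
      obtain ⟨W, w1, w2, w3⟩ := H x hx h1 h3
      exact ⟨W, ⟨w1, w2⟩, w3⟩
    · intro H x hx h1 h3
      obtain ⟨W, ⟨w1, w2⟩, w3⟩ := H x hx h1 h3
      exact ⟨W, w1, w2, w3⟩
  rw [hLHS]
  by_cases hr2 : r = 2
  · subst hr2
    have hp2 : p ≠ 2 := fun h => hrp h.symm
    have hqo : Odd (Fintype.card F) := odd_card (p := p) hp2
    have h2 : (2 : F) ≠ 0 := two_ne_of_odd hqo
    have hqo' : q % 2 = 1 := by rw [← hq]; exact Nat.odd_iff.1 hqo
    have hq4 : IsSquare (-1 : F) ↔ q % 4 = 1 := by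
      rw [FiniteField.isSquare_neg_one_iff, hq]
      omega
    have hexJ := exJ_plus hPT hqo d
    rw [hq] at hexJ
    constructor
    · intro H
      left
      refine ⟨rfl, hp2, ?_⟩
      by_cases hq1 : q % 4 = 1
      · exact Or.inl hq1
      right
      have hns : ¬ IsSquare (-1 : F) := fun h => hq1 (hq4.1 h)
      refine ⟨by omega, ?_, ?_⟩
      · obtain ⟨x, P, x1, x2, p1, p2, p3, p4, p5⟩ := exists_minus h2 hns hQ (by rw [hcι]; omega)
        have h9 := finrank_orth hQ P
        rw [hfr, p2] at h9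
        obtain ⟨v, hv, hv0⟩ := Submodule.exists_mem_ne_zero_of_ne_bot (p := P) (by
            rintro rfl
            rw [finrank_bot] at p2
            omega)
        obtain ⟨u, hu, hu0⟩ := Submodule.exists_mem_ne_zero_of_ne_bot (p := orth (qPlus d F) P) (by
            intro h
            rw [h, finrank_bot] at h9
            omega)
        obtain ⟨W, ⟨w1, w2⟩, w3⟩ := H x x1 ⟨1, by rw [x2, one_smul, Units.val_one]⟩ (by
          intro z hz
          have h5 : ∀ w, Matrix.toLin' (x : Matrix (Fin d ⊕ Fin d) (Fin d ⊕ Fin d) F) w = z • w := by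
            intro w
            rw [hz, Matrix.toLin'_apply, Matrix.smul_mulVec, Matrix.one_mulVec]
          have h6 := (h5 v).symm.trans (p4 v hv)
          have h7 := (h5 u).symm.trans (p5 u hu)
          have h8 : (z - 1) • u = 0 := by rw [sub_smul, one_smul, h7, sub_self]
          have hz1 : z = 1 := sub_eq_zero.1 ((smul_eq_zero.1 h8).resolve_right hu0)
          rw [hz1, one_smul] at h6
          have h8 : (2 : F) • v = 0 := by
            rw [two_smul]
            nth_rw 1 [h6]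
            exact neg_add_cancel v
          exact hv0 ((smul_eq_zero.1 h8).resolve_left h2))
        obtain ⟨j, l, k1, k2, k3, k4, k5⟩ := inv_nec h2 hQ p1 p4 p5 (inv_map.1 w3) w2
        rw [w1] at k1
        rw [p2] at k2 k3
        have hj : j ≠ 1 := fun h => p3 (k3 (by omega))
        have hsp := pt_split_iff hQ p1 (m := 1) (m' := d) (by omega) hfr
        have hl : l ≠ d - 1 := fun h => p3 ((hsp.1 hPT).2 (k5 (by omega)))
        omega
      · by_contra hcon
        push Not at hcon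
        obtain ⟨h5, h6⟩ := hcon
        rw [Nat.not_even_iff_odd] at h5
        obtain ⟨x, x1, x2, x3, x4⟩ := exists_of_exJ h2 hQ d hcι (by omega) (hexJ.2 (Or.inl (by omega)))
        obtain ⟨W, ⟨w1, w2⟩, w3⟩ := H x x1 x3 x4
        have := J_even hns x2 (inv_map.1 w3)
        rw [w1] at this
        exact (Nat.not_odd_iff_even.2 this) h5
    · rintro (⟨-, -, h⟩ | ⟨-, h, -⟩ | ⟨-, h, -⟩)
      · intro x hx hx2 hns
        have hiso := iso_of_omega hx
        rcases sq_cases hQ hx hx2 with hT | hT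
        · set f := Matrix.toLin' (x : Matrix (Fin d ⊕ Fin d) (Fin d ⊕ Fin d) F) with hf
          have hC := fx_nd hQ (r := 2) (by exact_mod_cast h2) f hiso hT
          have hneg := neg_on hQ h2 f hiso hT
          have hA := nd_orth hQ hC
          have hoo : orth (qPlus d F) (orth (qPlus d F) (fx f)) = fx f := orth_orth hQ _
          obtain ⟨a, ha⟩ : Even (finrank F (orth (qPlus d F) (fx f))) := inv_even h2 hQ (by rw [hcι]; omega) hx hiso hT
          obtain ⟨A, A1, A2, A3, a', a1, a2, a3⟩ := inv_split h2 hQ d hcι (by omega) hx hT hns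
          have hAfx : A = fx f := by
            apply le_antisymm
            · intro v hv; exact mem_fx.2 (A2 v hv)
            · have h5 : orth (qPlus d F) A ≤ orth (qPlus d F) (fx f) := by
                intro v hv c hc
                have h6 := polar_inv hiso c v
                have h7 : Matrix.toLin' (x : Matrix (Fin d ⊕ Fin d) (Fin d ⊕ Fin d) F) v = -v := A3 v hv
                rw [← hf] at h7
                rw [mem_fx.1 hc, h7, polar_neg_right] at h6
                have h8 : 2 * polar (qPlus d F) c v = 0 := by linear_combination -h6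
                exact (mul_eq_zero.1 h8).resolve_left h2
              intro v hv
              rw [← orth_orth hQ A]
              intro c hc
              rw [polar_comm]
              exact h5 hc v hv
          rw [hAfx] at a1
          have hod := finrank_orth hQ (orth (qPlus d F) (fx f))
          rw [hfr] at hod
          have hod2 := finrank_orth hQ (fx f)
          rw [hfr] at hod2
          have hsp := pt_split_iff hQ hA (m := a) (m' := d) (by omega) hfr
          have hpt : m + 2 ≤ d ∨ PT ((qPlus d F).restrict (orth (qPlus d F) (fx f))) := by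
            rcases h with h | h
            · exact Or.inr (inv_pt h2 (hq4.2 h) hQ (by rw [hcι]; omega) hx hT)
            · exact Or.inl h.2.1
          have hpt2 : (PT ((qPlus d F).restrict (orth (qPlus d F) (fx f))) ∧ PT ((qPlus d F).restrict (orth (qPlus d F) (orth (qPlus d F) (fx f))))) ∨ m + 2 ≤ d := by
            rcases hpt with h6 | h6
            · exact Or.inr h6
            · exact Or.inl ⟨h6, (hsp.1 hPT).1 h6⟩
          rcases hpt2 with ⟨h6, h7⟩ | h6
          · obtain ⟨W, w1, w2, w3⟩ := inv_suf hQ hA hneg (fun v hv => by rw [hoo] at hv; exact mem_fx.1 hv) (j := m - min m a') (l := min m a')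
              (by omega) (fun _ => h6) (by omega) (fun _ => h7)
            exact ⟨W, ⟨by omega, w2⟩, inv_map.2 w3⟩
          · obtain ⟨W, w1, w2, w3⟩ := inv_suf hQ hA hneg (fun v hv => by rw [hoo] at hv; exact mem_fx.1 hv) (j := m - min m (a' - 1)) (l := min m (a' - 1))
              (by omega) (by intro h7; omega) (by omega) (by intro h7; omega)
            exact ⟨W, ⟨by omega, w2⟩, inv_map.2 w3⟩
        · by_cases hsq : IsSquare (-1 : F)
          · obtain ⟨W, w1, w2, w3⟩ := J_sq h2 hsq hQ hiso hT (j := m) (by rw [hfr]; omega)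
            exact ⟨W, ⟨w1, w2⟩, inv_map.2 w3⟩
          · have h5 := exJ_of h2 hQ d hcι (by omega) hx hT
            rw [hexJ] at h5
            have hq3 : q % 4 ≠ 1 := fun h' => hsq (hq4.2 h')
            have hme : Even m := by
              rcases h with h | ⟨-, -, h | h⟩
              · exact absurd h hq3
              · exact h
              · exfalso
                rcases h5 with h5 | h5 <;> omega
            obtain ⟨e, he⟩ := hme
            obtain ⟨W, w1, w2, w3⟩ := J_ts h2 hsq hQ hiso hT (j := e) (by rw [hfr]; omega)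
            exact ⟨W, ⟨by omega, w2⟩, inv_map.2 w3⟩
      · exact absurd h (by norm_num)
      · exact absurd h (by norm_num)
  have hr3 : 2 < r := lt_of_le_of_ne hr.two_le (Ne.symm hr2)
  have hrq := H99.OrthSS.not_dvd_card (F := F) (p := p) hr hrp
  have hio : oi F r = i := by rw [hi, oi, hq]
  have hcard : Fintype.card F ≠ 2 ∨ Fintype.card (Fin d ⊕ Fin d) ≠ 4 := Or.inr (by rw [hcι]; omega)
  rw [proj_iff hr hr2 hQ hcard (fun W => finrank F ↥W = m ∧ (∀ w ∈ W, (qPlus d F) w = 0)),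
    crit hr hr2 hrq hQ hcard hcι (by omega) (by omega) (fun _ => hPT) hrΩ hio.symm hc]
  simp only [hPT, hr2, hrp, hr3, false_and, false_or, true_and, not_true_eq_false, and_false, or_false, true_iff, and_true, ne_eq, not_false_eq_true]
  generalize (2 * d) % c = k at *
  generalize m % i = l
  generalize (r - 1) / i + 2 * (m / i) = X
  generalize (2 * d) / i = Y
  rcases Nat.even_or_odd i with he | ho
  · have hno : ¬ Odd i := Nat.not_odd_iff_even.2 he
    simp only [hno, he, false_and, true_and, false_or, Nat.not_even_iff_odd]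
  · have hne' : ¬ Even i := Nat.not_even_iff_odd.2 ho
    simp only [hne', ho, false_and, true_and, or_false]

end Cfsg.Agent.S5973
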