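import Cfsg.Statements.S5974
import Cfsg.Agent.Lib.H99.OrthC2
import Cfsg.Agent.Lib.H99.OrthSiegel

set_option autoImplicit false
set_option linter.unusedSimpArgs false
open scoped MatrixGroups
open Cfsg

namespace Cfsg.Agent.S5974


open Module QuadraticMap H48.QuadSplit H48.QuadStd H96.OeType H99.OrthSS

theorem hyp_iff {F : Type*} [Field F] {d m : ℕ} (W : Submodule F (Fin d ⊕ Fin d → F)) :
    (Module.finrank F ↥W = m ∧ (∀ u ∈ W, u ≠ 0 → ∃ v ∈ W, QuadraticMap.polar (⇑(qPlus d F)) u v ≠ 0) ∧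
          ∃ U : Submodule F (Fin d ⊕ Fin d → F), U ≤ W ∧ 2 * Module.finrank F ↥U = m ∧ ∀ u ∈ U, (qPlus d F) u = 0) ↔
      (finrank F W = m ∧ ND ((qPlus d F).restrict W) ∧ (PT ((qPlus d F).restrict W) ↔ True)) := by
  constructor
  · rintro ⟨h1, h2, U, U1, U2, U3⟩
    refine ⟨h1, ?_, iff_of_true ⟨U.comap W.subtype, fun u hu => U3 _ hu, ?_⟩ trivial⟩
    · intro x hx
      by_contra hx0
      obtain ⟨y, hy, hxy⟩ := h2 x x.2 (fun h0 => hx0 (Subtype.ext h0))
      exact hxy (hx ⟨y, hy⟩)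
    · rw [(Submodule.comapSubtypeEquivOfLe U1).finrank_eq, U2, h1]
  · rintro ⟨h1, h2, h3⟩
    obtain ⟨U, U1, U2⟩ := h3.2 trivial
    refine ⟨h1, ?_, U.map W.subtype, ?_, ?_, ?_⟩
    · intro u hu hu0
      by_contra hcon
      push Not at hcon
      apply hu0
      have := h2 ⟨u, hu⟩ (fun y => hcon y y.2)
      exact congrArg Subtype.val this
    · rintro _ ⟨u, _, rfl⟩; exact u.2
    · rw [Submodule.finrank_map_subtype_eq, U2, h1]
    · rintro _ ⟨u, hu, rfl⟩; exact U1 u hu


/-- Elements of prime order of PΩ⁺_n(q), n = 2d ≥ 8, with no fixed nondegenerate hyperbolic `m`-space. Here `T = PΩ⁺_n(q)` is realised through `Ω⁺_n(q)`, the commutator subgroup of the isometry group of `Q = Σ xᵢyᵢ` over the field `F` with `q` elements; an element of `T` of prime order `r` is an element `x` of `Ω⁺_n(q)` with `x^r` scalar and `x` not scalar. A hyperbolic `m`-space is a subspace `W` of even dimension `m` on which the polar form of `Q` is nondegenerate and which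 contains a totally singular subspace of dimension `m/2`. Let `m` be even with `2 ≤ m < n/2`, and let `r` be a prime dividing the number of hyperbolic `m`-spaces, with `r = 2` or `r ≠ p`. For `r ≠ p` let `i` be the multiplicative order of `q` modulo `r`, `c = i` for `i` even and `c = 2i` for `i` odd, and write `k = n mod c`, `ℓ' = m mod c`. Then every element of `T` of order `r` fixes some hyperbolic `m`-space if and only if one of: (i) `r = 2` and (`n ≡ 2 (mod 4)`, or `m ≡ 0 (mod 4)`, or `q ≡ 1 (mod 4)`); (ii) `r ≠ p` odd, `i` odd, `c ≤ m` and `k ≥ ℓ'`; (iii) `r ≠ p` odd, `i` even, and either `k = 0` and (`n/i` odd, or `ℓ' = 0` and `m/i` even), or `i ≤ m` and (`k > ℓ' > 0`, or `k = ℓ' > 0` and `(n + m − 2k)/i` even, or `k > ℓ' = 0` and `m/i` even). -/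
theorem result {F : Type*} [Field F] [Fintype F] {p : ℕ} [Fact p.Prime] [CharP F p] {q : ℕ} (hq : Fintype.card F = q)
    (d m : ℕ) (hd : 4 ≤ d) (hm : 2 ≤ m) (hme : Even m) (hmd : m < d)
    (r : ℕ) [Fact r.Prime] (hr : r = 2 ∨ r ≠ p)
    (hrΩ : r ∣ Nat.card {W : Submodule F (Fin d ⊕ Fin d → F) // (Module.finrank F ↥W = m ∧ (∀ u ∈ W, u ≠ 0 → ∃ v ∈ W, QuadraticMap.polar (Cfsg.quadFormPlus d F) u v ≠ 0) ∧
          ∃ U : Submodule F (Fin d ⊕ Fin d → F), U ≤ W ∧ 2 * Module.finrank F ↥U = m ∧ ∀ u ∈ U, Cfsg.quadFormPlus d F u = 0)})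
    (i c : ℕ) (hi : i = orderOf (q : ZMod r)) (hc : c = if Even i then i else 2 * i) :
    (∀ x : GL (Fin d ⊕ Fin d) F, x ∈ Cfsg.Geo.omegaGL (Cfsg.quadFormPlus d F) →
      (∃ z : F, ((x ^ r : GL (Fin d ⊕ Fin d) F) : Matrix (Fin d ⊕ Fin d) (Fin d ⊕ Fin d) F) = z • (1 : Matrix (Fin d ⊕ Fin d) (Fin d ⊕ Fin d) F)) →
      (∀ z : F, (x : Matrix (Fin d ⊕ Fin d) (Fin d ⊕ Fin d) F) ≠ z • (1 : Matrix (Fin d ⊕ Fin d) (Fin d ⊕ Fin d) F)) →
      ∃ W : Submodule F (Fin d ⊕ Fin d → F), (Module.finrank F ↥W = m ∧ (∀ u ∈ W, u ≠ 0 → ∃ v ∈ W, QuadraticMap.polar (Cfsg.quadFormPlus d F) u v ≠ 0) ∧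
          ∃ U : Submodule F (Fin d ⊕ Fin d → F), U ≤ W ∧ 2 * Module.finrank F ↥U = m ∧ ∀ u ∈ U, Cfsg.quadFormPlus d F u = 0) ∧
        W.map (Matrix.toLin' (x : Matrix (Fin d ⊕ Fin d) (Fin d ⊕ Fin d) F)) ≤ W) ↔
    ((r = 2 ∧ ((2 * d) % 4 = 2 ∨ m % 4 = 0 ∨ q % 4 = 1)) ∨
     (r ≠ p ∧ 2 < r ∧ Odd i ∧ c ≤ m ∧ m % c ≤ (2 * d) % c) ∨
     (r ≠ p ∧ 2 < r ∧ Even i ∧
       (((2 * d) % c = 0 ∧ (Odd ((2 * d) / i) ∨ (m % c = 0 ∧ Even (m / i)))) ∨
        (i ≤ m ∧ ((m % c < (2 * d) % c ∧ 0 < m % c) ∨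
                  ((2 * d) % c = m % c ∧ 0 < m % c ∧ Even ((2 * d + m - 2 * ((2 * d) % c)) / i)) ∨
                  (0 < (2 * d) % c ∧ m % c = 0 ∧ Even (m / i))))))) := by

  have hr1 := (Fact.out : r.Prime)
  rw [← coe_qPlus] at hrΩ ⊢
  have hQ : ND (qPlus d F) := nd_qPlus d
  have hPT : PT (qPlus d F) := pt_qPlus d
  have hcι : Fintype.card (Fin d ⊕ Fin d) = 2 * d := by rw [Fintype.card_sum, Fintype.card_fin]; ring
  have hP := fun W : Submodule F (Fin d ⊕ Fin d → F) => hyp_iff (m := m) W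
  by_cases hrp : r = p
  · -- r = p = 2
    have hr2 : r = 2 := hr.resolve_right (fun h => h hrp)
    have hp2 : p = 2 := by rw [← hrp, hr2]
    subst hr2
    subst hp2
    have hqe : q % 4 ≠ 1 := by
      obtain ⟨n, -, hn⟩ := FiniteField.card F 2
      rw [← hq, hn]
      obtain ⟨k, hk⟩ : ∃ k, (n : ℕ) = k + 1 := ⟨n - 1, (Nat.sub_add_cancel n.2).symm⟩
      rw [hk, pow_succ]
      omega
    have hne : Nonempty (Fin d ⊕ Fin d) := ⟨Sum.inl ⟨0, by omega⟩⟩
    obtain ⟨v0, hv0⟩ := H99.OrthTwo.exists_nonsing hQ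
    constructor
    · intro H
      left
      refine ⟨rfl, ?_⟩
      by_contra hcon
      push Not at hcon
      have hde : Even d := by rw [Nat.even_iff]; omega
      obtain ⟨x, x1, x2, x3, x4⟩ := H99.OrthSiegel.exists_sie (F := F) (d := d) 2 (by omega)
      obtain ⟨W, W1, W2⟩ := H x x1 ⟨1, by rw [x2, one_smul, Units.val_one]⟩ x3
      obtain ⟨a1, a2, a3⟩ := (hP W).1 W1
      rw [inv_map, x4] at W2
      obtain ⟨e, he⟩ := hme
      have h1 := H99.OrthTwo.invol_ts (Q := (qPlus d F).restrict W) a2 (m := e) (by rw [a1]; omega) ((H99.OrthSiegel.sie d F).restrict W2)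
        (fun v => H99.OrthSiegel.sie_iso _) (fun v => Subtype.ext (by
          have := H99.OrthSiegel.sie_pow (F := F) 2 (v : Fin d ⊕ Fin d → F)
          rw [CharP.cast_eq_zero, zero_smul, add_zero] at this
          exact this)) (by
        intro v hv
        have h1 : H99.OrthSiegel.sie d F (v : Fin d ⊕ Fin d → F) = v := congrArg Subtype.val hv
        rw [H99.OrthSiegel.sie_apply] at h1
        have h3 : H99.OrthSiegel.nil d F (v : Fin d ⊕ Fin d → F) = 0 := by
          have := congrArg (fun u => u - (v : Fin d ⊕ Fin d → F)) h1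
          simpa using this
        apply H99.OrthSiegel.Us_ts
        intro i
        have h4 := congrFun h3 (Sum.inl (Fin.rev i))
        rw [H99.OrthSiegel.nil_inl, Fin.rev_rev] at h4
        refine (mul_eq_zero.1 h4).resolve_left ?_
        unfold H99.OrthSiegel.sg
        rw [Fin.rev_rev]
        have hi : i ≠ Fin.rev i := by
          intro h
          have h5 := congrArg Fin.val h
          rw [Fin.val_rev] at h5
          obtain ⟨k, hk⟩ := hde
          have := i.2
          omega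
        rcases lt_or_gt_of_ne hi with h | h
        · rw [if_neg (not_lt.2 h.le), if_pos h]; exact neg_ne_zero.2 one_ne_zero
        · rw [if_pos h]; exact one_ne_zero)
      have h2 := h1.1
      rw [Nat.even_iff] at h2
      omega
    · rintro (⟨-, h⟩ | ⟨h, -⟩ | ⟨h, -⟩)
      · intro x hx hz hnz
        have hiso := H99.OrthTwo.mem_iso hx
        obtain ⟨z, hz⟩ := hz
        have hx2 := H99.OrthTwo.pow_one_of_scal hiso hv0 hz
        have hT := toLin_pow_one hx2
        obtain ⟨W, w1, w2, w3, w4⟩ := H99.OrthC2.invol_sub hQ (d := d) (by rw [finrank_fintype_fun_eq_card, hcι]) (f := Matrix.toLin' (x : Matrix (Fin d ⊕ Fin d) (Fin d ⊕ Fin d) F))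
          (iso_of_omega hx) (fun v => by
            rw [pow_two] at hT
            exact congrArg (fun φ : (Fin d ⊕ Fin d → F) →ₗ[F] (Fin d ⊕ Fin d → F) => φ v) hT) hme hm (by omega) True (Or.inl ⟨hPT, trivial, by
            rw [Nat.odd_iff]; omega⟩)
        exact ⟨W, (hP W).2 ⟨w1, w2, w3⟩, inv_map.2 w4⟩
      · exact absurd rfl h
      · exact absurd rfl h
  have hrq := H99.OrthSS.not_dvd_card (F := F) (p := p) hr1 hrp
  by_cases hr2 : r = 2
  · subst hr2
    have hp2 : p ≠ 2 := fun h => hrp h.symm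
    have hqo : Odd (Fintype.card F) := odd_card (p := p) hp2
    rw [crit_even_two (two_ne_of_odd hqo) hQ d m hcι (by omega) hm hme (by omega) True _ hP, exJ_plus hPT hqo d, FiniteField.isSquare_neg_one_iff, hq]
    rw [hq] at hqo
    rw [Nat.even_iff]
    rw [Nat.odd_iff] at hqo
    rw [Nat.even_iff] at hme
    simp only [true_iff]
    constructor
    · intro h
      left
      exact ⟨trivial, by omega⟩
    · rintro (⟨-, h⟩ | ⟨-, h, -⟩ | ⟨-, h, -⟩) <;> omega
  have hr3 : 2 < r := lt_of_le_of_ne hr1.two_le (Ne.symm hr2)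
  have hio : oi F r = i := by rw [hi, oi, hq]
  have hcci : cc i = c := hc.symm
  have hcrit := crit_even' hr1 hr2 hrq hQ d m hcι (by omega) hm hme (by omega) True _ hP hrΩ
  rw [hio, hcci] at hcrit
  rw [hcrit]
  have hc0 : 0 < c := by rw [← hcci, ← hio]; exact cc_pos hr1 hrq
  have hi0 : 0 < i := by rw [← hio]; exact oi_pos hr1 hrq
  change critE i c (2 * d) m (PT (qPlus d F)) True ↔ _
  have hE : PT (qPlus d F) ↔ True := iff_true_intro hPT
  have hcases : (critE i c (2 * d) m (PT (qPlus d F)) True) ↔ (critE i c (2 * d) m True True) := by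
    unfold critE
    rw [hE]
  rw [hcases]
  have h5 : m % c = 0 → c ≤ m := fun h => Nat.le_of_dvd (by omega) (Nat.dvd_of_mod_eq_zero h)
  rcases Nat.even_or_odd i with he | ho
  · have hci : c = i := by rw [hc, if_pos he]
    rw [hci] at h5 ⊢
    rw [critE_even he hi0]
    have hno : ¬ Odd i := Nat.not_odd_iff_even.2 he
    rw [Nat.even_iff] at hme
    simp only [true_iff]
    constructor
    · intro h
      right; right
      refine ⟨hrp, hr3, he, ?_⟩
      simp only [Nat.even_iff, Nat.odd_iff] at h ⊢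
      omega
    · rintro (⟨h, -⟩ | ⟨-, -, h, -⟩ | ⟨-, -, -, h⟩)
      · exact absurd h hr2
      · exact absurd h hno
      · simp only [Nat.even_iff, Nat.odd_iff] at h ⊢
        omega
  · rw [critE_odd ho]
    constructor
    · intro h
      right; left
      refine ⟨hrp, hr3, ho, ?_⟩
      rcases h with h | h | h
      · exact absurd trivial h.2
      · exact ⟨h5 h.2.1, by omega⟩
      · exact ⟨h.1, h.2.2.1⟩
    · rintro (⟨h, -⟩ | ⟨-, -, -, a1, a2⟩ | ⟨-, -, h, -⟩)
      · exact absurd h hr2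
      · by_cases h0 : (2 * d) % c = 0
        · exact Or.inr (Or.inl ⟨h0, by omega, trivial⟩)
        · exact Or.inr (Or.inr ⟨a1, by omega, a2, fun _ => trivial, fun _ => Iff.rfl⟩)
      · exact absurd ho (Nat.not_odd_iff_even.2 h)

end Cfsg.Agent.S5974
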