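import Cfsg.Statements.S5975
import Cfsg.Agent.Lib.H99.SelfAdj2

set_option autoImplicit false
set_option linter.unusedSimpArgs false
open scoped MatrixGroups
open scoped Matrix
open Cfsg

namespace Cfsg.Agent.S5975


/-- Elements of prime order of PSp_n(q) and the field-extension subgroups of type Sp_{n/k}(q^k). Here `T = PSp_{2d}(F)` for a field `F` with `q` elements (`d ≥ 2`, `(d, q) ≠ (2, 2)`), realised through the matrices preserving the standard alternating form `f`; `k` is a prime and `K` is a subalgebra of the `2d × 2d` matrices that is a field of degree `k` over `F` whose elements are self-adjoint for `f` and satisfy `f(a v, v) = 0` (so `F^{2d}` becomes a vector space over `K ≅ F_{q^k}` on which `f` is the trace of a `K`-bilinear alternating form); `H` is the subgroup of `T` normalizing `K` — the symplectic maps that are `K`-linear or `K`-semilinear, a subgroup of type Sp_{2d/k}(q^k) (maximality is not assumed). Ω is the set of cosets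 of `H` in `T`, so an element of `T` of prime order `r` (`x ∈ T` with `x^r` scalar, `x` not scalar) fixes a point of Ω exactly when some `T`-conjugate of `x` normalizes `K`. Let `r` be a prime dividing the index of `H`. Then every element of `T` of order `r` fixes a point of Ω if and only if `r = 2`, `d = 2`, `k = 2` and `q` is odd. -/
theorem result {F : Type*} [Field F] [Fintype F] {p : ℕ} [Fact p.Prime] [CharP F p] {q : ℕ} (hq : Fintype.card F = q)
    (d : ℕ) (hd : 2 ≤ d) (hT : (d, q) ≠ (2, 2)) (k : ℕ) (hk : k.Prime)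
    (K : Subalgebra F (Matrix (Fin d ⊕ Fin d) (Fin d ⊕ Fin d) F)) (hK : Cfsg.Geo.IsFieldSubalgebra k K)
    (hKf : Cfsg.Geo.IsSelfAdjointFor (Cfsg.sympForm d F) K) (hKalt : ∀ a ∈ K, ∀ v : Fin d ⊕ Fin d → F, Cfsg.sympForm d F (a *ᵥ v) v = 0)
    (r : ℕ) [Fact r.Prime]
    (hΩ : r ∣ (Cfsg.Geo.subalgebraNormalizer K).relIndex (Cfsg.spGL d F)) :
    (∀ x ∈ Cfsg.spGL d F, (∃ z : F, ((x ^ r : GL (Fin d ⊕ Fin d) F) : Matrix (Fin d ⊕ Fin d) (Fin d ⊕ Fin d) F) = z • (1 : Matrix (Fin d ⊕ Fin d) (Fin d ⊕ Fin d) F)) →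
      (∀ z : F, (x : Matrix (Fin d ⊕ Fin d) (Fin d ⊕ Fin d) F) ≠ z • (1 : Matrix (Fin d ⊕ Fin d) (Fin d ⊕ Fin d) F)) →
      ∃ g ∈ Cfsg.spGL d F, g⁻¹ * x * g ∈ Cfsg.Geo.subalgebraNormalizer K) ↔
    (r = 2 ∧ d = 2 ∧ k = 2 ∧ Odd q) := by
  subst hq
  have hr : r.Prime := Fact.out
  have hp : p.Prime := Fact.out
  obtain ⟨f, hpf, hcardF⟩ := FiniteField.card F p
  have hd0 : 0 < d := by omega
  have hne : Nonempty (Fin d ⊕ Fin d) := ⟨.inl ⟨0, hd0⟩⟩
  obtain ⟨E, fE, aE, ρ, hmem, hE⟩ := H99.FieldEmb.exists_field K hK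
  have hfd : FiniteDimensional F E := Module.finite_of_finrank_pos (by rw [hE]; exact hk.pos)
  have hself : ∀ e u v, H99.RElt.sympB d F (ρ e *ᵥ u) v = H99.RElt.sympB d F u (ρ e *ᵥ v) := fun e u v =>
    hKf (ρ e) ((hmem _).2 ⟨e, rfl⟩) u v
  have halt : ∀ e v, H99.RElt.sympB d F (ρ e *ᵥ v) v = 0 := fun e v => hKalt (ρ e) ((hmem _).2 ⟨e, rfl⟩) v
  obtain ⟨m, hdm, -⟩ := H99.SelfAdj.card_dvd hmem hE hself halt
  have hm0 : 0 < m := by
    rw [Nat.pos_iff_ne_zero]; rintro rfl; omega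
  have hkd : k ≤ d := by rw [hdm]; exact Nat.le_mul_of_pos_right _ hm0
  have hq1 : 1 < Fintype.card F := Fintype.one_lt_card
  constructor
  · intro H
    -- r = p is impossible
    by_cases hrp : r = p
    · exfalso
      subst hrp
      obtain ⟨x, hx, hxp, hxs, hxg⟩ := H99.SelfAdj.trans_case (p := r) hd hk hmem hE
      obtain ⟨g, hg, hN⟩ := H x hx ⟨1, by rw [hxp, one_smul]; rfl⟩ hxs
      exact hxg g hg hN
    · have hrq : ¬ r ∣ Fintype.card F := by
        intro h
        rw [hcardF] at h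
        exact hrp ((Nat.prime_dvd_prime_iff_eq hr hp).1 (hr.dvd_of_dvd_pow h))
      by_cases hr2 : r = 2
      · subst hr2
        have h2 : (2 : F) ≠ 0 := H99.Iso.natCast_ne_zero hr hrq
        have hodd : Odd (Fintype.card F) := by
          rw [← Nat.not_even_iff_odd, even_iff_two_dvd]; exact hrq
        by_cases hd2 : d = 2
        · subst hd2
          refine ⟨rfl, rfl, ?_, hodd⟩
          exact (Nat.prime_dvd_prime_iff_eq hk Nat.prime_two).1 ⟨m, hdm⟩
        · exfalso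
          obtain ⟨x, hx, hxp, hxs, hxg⟩ := H99.SelfAdj.plane_case h2 (by omega) hk hmem hE halt
          obtain ⟨g, hg, hN⟩ := H x hx ⟨1, by rw [hxp, one_smul]; rfl⟩ hxs
          exact hxg g hg hN
      · exfalso
        obtain ⟨i, hi⟩ : ∃ i, i = orderOf ((Fintype.card F : ℕ) : ZMod r) := ⟨_, rfl⟩
        have hi0 : 0 < i := by
          rw [hi, orderOf_pos_iff]
          rw [isOfFinOrder_iff_pow_eq_one]
          refine ⟨r - 1, by have := hr.two_le; omega, ?_⟩
          exact ZMod.pow_card_sub_one_eq_one (by rw [Ne, ZMod.natCast_eq_zero_iff]; exact hrq)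
        have hone : ∀ m : ℕ, r ∣ Fintype.card F ^ m - 1 ↔ i ∣ m := by
          intro m
          have h1 : 1 ≤ Fintype.card F ^ m := Nat.one_le_pow _ _ (by omega)
          rw [hi, orderOf_dvd_iff_pow_eq_one, ← Nat.cast_pow, ← ZMod.natCast_eq_zero_iff, Nat.cast_sub h1, Nat.cast_one, sub_eq_zero]
        obtain ⟨j, hj1, hjd, hkj, hj⟩ := H99.SelfAdj.index hk hmem hE hself halt hr hrq hΩ
        rw [hone] at hj
        have key : ∃ j', 1 ≤ j' ∧ j' ≤ d ∧ r ∣ Fintype.card F ^ (2 * j') - 1 ∧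
            ((Odd i ∧ ¬ k ∣ i ∧ j' = i) ∨ (Even i ∧ ¬ k ∣ i / 2 ∧ 2 * j' = i)) := by
          rcases Nat.even_or_odd i with hie | hio
          · obtain ⟨b, hb⟩ := hie
            have hb2 : i = 2 * b := by omega
            have hbj : b ∣ j := by
              rw [hb2] at hj
              exact Nat.dvd_of_mul_dvd_mul_left (by norm_num) hj
            have hble := Nat.le_of_dvd (by omega) hbj
            refine ⟨b, by omega, by omega, (hone _).2 (by rw [hb2]), Or.inr ⟨⟨b, hb⟩, ?_, hb2.symm⟩⟩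
            have : i / 2 = b := by omega
            rw [this]
            exact fun h => hkj (h.trans hbj)
          · have hij : i ∣ j := (Nat.Coprime.dvd_of_dvd_mul_left ((Nat.coprime_two_left).2 hio).symm hj)
            have hile := Nat.le_of_dvd (by omega) hij
            exact ⟨i, hi0, by omega, (hone _).2 (dvd_mul_left i 2), Or.inl ⟨hio, fun h => hkj (h.trans hij), rfl⟩⟩
        obtain ⟨j', hj1', hj2', hj3', hj4'⟩ := key
        obtain ⟨x, hx, hxp, hxs, hxg⟩ := H99.SelfAdj.odd_case hd0 hk hkd hmem hE hself halt hr hr2 hrq hi hi0 hj1' hj2' hj3' hj4'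
        obtain ⟨g, hg, hN⟩ := H x hx ⟨1, by rw [hxp, one_smul]; rfl⟩ hxs
        exact hxg g hg hN
  · rintro ⟨rfl, rfl, rfl, hodd⟩
    intro x hx ⟨z, hz⟩ hxs
    have h2 : (2 : F) ≠ 0 := H99.Iso.natCast_ne_zero hr (fun h => (Nat.not_even_iff_odd.2 hodd) (even_iff_two_dvd.2 h))
    obtain ⟨δ, c, hδ, hns, hspan⟩ := H99.SelfAdj.exists_quad h2 hE
    have hz2 : ∀ v, (x : Matrix (Fin 2 ⊕ Fin 2) (Fin 2 ⊕ Fin 2) F).mulVec ((x : Matrix (Fin 2 ⊕ Fin 2) (Fin 2 ⊕ Fin 2) F).mulVec v) = z • v := by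
      intro v
      rw [Matrix.mulVec_mulVec, ← pow_two, ← Units.val_pow_eq_pow_val, hz, Matrix.smul_mulVec, Matrix.one_mulVec]
    have hzz : z * z = 1 := by
      obtain ⟨a, ha⟩ := exists_ne (0 : Fin 2 ⊕ Fin 2 → F)
      obtain ⟨w, hw⟩ : ∃ w, H99.RElt.sympB 2 F a w ≠ 0 := by
        by_contra h
        push Not at h
        exact ha (H99.RElt.sympB_nd 2 _ h)
      have h1 := (H99.SpInv.gl_isom hx (Matrix.toLin' (x : Matrix (Fin 2 ⊕ Fin 2) (Fin 2 ⊕ Fin 2) F) a) (Matrix.toLin' (x : Matrix (Fin 2 ⊕ Fin 2) (Fin 2 ⊕ Fin 2) F) w)).trans (H99.SpInv.gl_isom hx a w)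
      have hv : ∀ v, Matrix.toLin' (x : Matrix (Fin 2 ⊕ Fin 2) (Fin 2 ⊕ Fin 2) F) (Matrix.toLin' (x : Matrix (Fin 2 ⊕ Fin 2) (Fin 2 ⊕ Fin 2) F) v) = z • v := hz2
      rw [hv, hv, map_smul, map_smul, LinearMap.smul_apply, smul_eq_mul, smul_eq_mul] at h1
      apply mul_right_cancel₀ hw
      linear_combination h1
    rcases mul_self_eq_one_iff.1 hzz with h | h
    · exact H99.SelfAdj.two_pos h2 hmem hself halt hns hδ hspan x hx (fun v => by rw [hz2, h, one_smul]) hxs
    · exact H99.SelfAdj.two_neg h2 hmem hself halt hns hδ hspan x hx (fun v => by rw [hz2, h, neg_smul, one_smul])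

end Cfsg.Agent.S5975
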