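import Cfsg.Statements.S5976
import Cfsg.Agent.Lib.H99.Skew

set_option autoImplicit false
set_option linter.unusedSimpArgs false
open scoped MatrixGroups
open Cfsg

namespace Cfsg.Agent.S5976


universe u

open Matrix Module H99.RElt H99.Skew H99.FieldEmb in
theorem caseP {F : Type u} [Field F] [Fintype F] {p : ℕ} [Fact p.Prime] [CharP F p] (h2 : (2 : F) ≠ 0) {d : ℕ} (hd : 0 < d)
    {E : Type u} [Field E] [Algebra F E]
    {ρ : E →ₐ[F] Matrix (Fin d ⊕ Fin d) (Fin d ⊕ Fin d) F} {δ : E} {c : F}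
    (hns : ¬ IsSquare c) (hδ : δ * δ = algebraMap F E c) :
    ∃ x ∈ Cfsg.spGL d F, x ^ p = 1 ∧ (∀ z : F, (x : Matrix (Fin d ⊕ Fin d) (Fin d ⊕ Fin d) F) ≠ z • (1 : Matrix (Fin d ⊕ Fin d) (Fin d ⊕ Fin d) F)) ∧
      ∀ g : GL (Fin d ⊕ Fin d) F, ((g⁻¹ * x * g : GL (Fin d ⊕ Fin d) F) : Matrix (Fin d ⊕ Fin d) (Fin d ⊕ Fin d) F) * ρ δ ≠
        ρ δ * ((g⁻¹ * x * g : GL (Fin d ⊕ Fin d) F) : Matrix (Fin d ⊕ Fin d) (Fin d ⊕ Fin d) F) := by
  obtain ⟨a, x0, T, ha, hx0, hT, hTB⟩ := H99.SpInv.exists_transvection (F := F) hd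
  obtain ⟨x, hx, hxv⟩ := H99.SpInv.exists_gl T hTB
  have hTa : T a = a := by
    rw [hT]
    have : sympB d F a a = 0 := sympB_alt d a
    rw [this, zero_smul, add_zero]
  refine ⟨x, hx, ?_, ?_, ?_⟩
  · apply Units.ext
    apply matrix_ext
    intro v
    rw [Units.val_pow_eq_pow_val, Units.val_one, Matrix.one_mulVec]
    have hk : ∀ k : ℕ, (x : Matrix (Fin d ⊕ Fin d) (Fin d ⊕ Fin d) F) ^ k *ᵥ v = v + (k : F) • (sympB d F v a • a) := by
      intro k
      induction k with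
      | zero => simp
      | succ k ih =>
        rw [pow_succ', ← Matrix.mulVec_mulVec, ih, hxv, map_add, map_smul, map_smul, hTa, hT]
        push_cast
        module
    rw [hk, CharP.cast_eq_zero, zero_smul, add_zero]
  · intro z hz
    have h1 : a = z • a := by
      have := hxv a
      rw [hTa, hz, Matrix.smul_mulVec, Matrix.one_mulVec] at this
      exact this.symm
    have hz1 : z = 1 := by
      have h3 : (1 - z) • a = 0 := by rw [sub_smul, one_smul, ← h1, sub_self]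
      rcases smul_eq_zero.1 h3 with h | h
      · exact (sub_eq_zero.1 h).symm
      · exact absurd h ha
    have h2 := hxv x0
    rw [hz, hz1, one_smul, Matrix.one_mulVec, hx0] at h2
    exact ha (left_eq_add.1 h2)
  · intro g hcomm
    set y := g⁻¹ * x * g with hy
    have hyv : ∀ v, (g : Matrix (Fin d ⊕ Fin d) (Fin d ⊕ Fin d) F) *ᵥ ((y : Matrix (Fin d ⊕ Fin d) (Fin d ⊕ Fin d) F) *ᵥ v) =
        T ((g : Matrix (Fin d ⊕ Fin d) (Fin d ⊕ Fin d) F) *ᵥ v) := by
      intro v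
      have : g * y = x * g := by rw [hy]; group
      rw [Matrix.mulVec_mulVec, ← Units.val_mul, this, Units.val_mul, ← Matrix.mulVec_mulVec, hxv]
    have hginj : ∀ u v : Fin d ⊕ Fin d → F, (g : Matrix (Fin d ⊕ Fin d) (Fin d ⊕ Fin d) F) *ᵥ u = (g : Matrix (Fin d ⊕ Fin d) (Fin d ⊕ Fin d) F) *ᵥ v → u = v := by
      intro u v h
      have h1 : ((g⁻¹ : GL (Fin d ⊕ Fin d) F) : Matrix (Fin d ⊕ Fin d) (Fin d ⊕ Fin d) F) * (g : Matrix (Fin d ⊕ Fin d) (Fin d ⊕ Fin d) F) = 1 := by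
        rw [← Units.val_mul, inv_mul_cancel, Units.val_one]
      have h3 := congrArg (fun w => ((g⁻¹ : GL (Fin d ⊕ Fin d) F) : Matrix (Fin d ⊕ Fin d) (Fin d ⊕ Fin d) F) *ᵥ w) h
      simp only [Matrix.mulVec_mulVec, h1, Matrix.one_mulVec] at h3
      exact h3
    have hgsurj : ∀ w : Fin d ⊕ Fin d → F, ∃ v, (g : Matrix (Fin d ⊕ Fin d) (Fin d ⊕ Fin d) F) *ᵥ v = w := by
      intro w
      refine ⟨((g⁻¹ : GL (Fin d ⊕ Fin d) F) : Matrix (Fin d ⊕ Fin d) (Fin d ⊕ Fin d) F) *ᵥ w, ?_⟩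
      rw [Matrix.mulVec_mulVec, ← Units.val_mul, mul_inv_cancel, Units.val_one, Matrix.one_mulVec]
    obtain ⟨a', ha'⟩ := hgsurj a
    obtain ⟨v, hv⟩ := hgsurj x0
    have h1 : (y : Matrix (Fin d ⊕ Fin d) (Fin d ⊕ Fin d) F) *ᵥ v = v + a' := by
      apply hginj
      rw [hyv, hv, hx0, Matrix.mulVec_add, hv, ha']
    have h3 : (y : Matrix (Fin d ⊕ Fin d) (Fin d ⊕ Fin d) F) *ᵥ (ρ δ *ᵥ v) = ρ δ *ᵥ v + ρ δ *ᵥ a' := by
      rw [Matrix.mulVec_mulVec, hcomm, ← Matrix.mulVec_mulVec, h1, Matrix.mulVec_add]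
    have h4 : ∃ l : F, (y : Matrix (Fin d ⊕ Fin d) (Fin d ⊕ Fin d) F) *ᵥ (ρ δ *ᵥ v) = ρ δ *ᵥ v + l • a' := by
      refine ⟨sympB d F ((g : Matrix (Fin d ⊕ Fin d) (Fin d ⊕ Fin d) F) *ᵥ (ρ δ *ᵥ v)) a, ?_⟩
      apply hginj
      rw [hyv, hT, Matrix.mulVec_add, Matrix.mulVec_smul, ha']
    obtain ⟨l, hl⟩ := h4
    have h5 : ρ δ *ᵥ a' = l • a' := add_left_cancel (h3.symm.trans hl)
    have ha'0 : a' ≠ 0 := by
      rintro rfl
      apply ha
      rw [← ha', Matrix.mulVec_zero]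
    have h6 : ρ (δ - algebraMap F E l) *ᵥ a' = 0 := by
      rw [map_sub, Matrix.sub_mulVec, h5, AlgHom.commutes, Algebra.algebraMap_eq_smul_one, Matrix.smul_mulVec, Matrix.one_mulVec, sub_self]
    have h7 := sub_eq_zero.1 (mulVec_eq_zero ρ ha'0 h6)
    apply hns
    refine ⟨l, ?_⟩
    rw [h7, ← map_mul] at hδ
    exact ((algebraMap F E).injective hδ).symm

open Matrix Module H99.RElt H99.Skew H99.FieldEmb in
theorem negR {F : Type u} [Field F] [Fintype F] (h2 : (2 : F) ≠ 0) {d : ℕ} (hd : 0 < d)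
    {E : Type u} [Field E] [Algebra F E]
    {ρ : E →ₐ[F] Matrix (Fin d ⊕ Fin d) (Fin d ⊕ Fin d) F} {δ : E} {c : F}
    {K : Subalgebra F (Matrix (Fin d ⊕ Fin d) (Fin d ⊕ Fin d) F)} (hmem : ∀ M, M ∈ K ↔ ∃ e, ρ e = M)
    (hE : finrank F E = 2) (hns : ¬ IsSquare c) (hδ : δ * δ = algebraMap F E c)
    (hskew : ∀ u v, sympB d F (ρ δ *ᵥ u) v = - sympB d F u (ρ δ *ᵥ v)) {r : ℕ} (hr : r.Prime) (hr2 : r ≠ 2) (hrq : ¬ r ∣ Fintype.card F)
    {i j : ℕ} (hi : i = orderOf ((Fintype.card F : ℕ) : ZMod r)) (hi0 : 0 < i) (hj0 : 1 ≤ j) (hjd : j ≤ d)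
    (hrd : r ∣ Fintype.card F ^ (2 * j) - 1) (hcase : (Odd i ∧ j = i) ∨ (4 ∣ i ∧ 2 * j = i)) :
    ∃ x ∈ Cfsg.spGL d F, x ^ r = 1 ∧ (∀ z : F, (x : Matrix (Fin d ⊕ Fin d) (Fin d ⊕ Fin d) F) ≠ z • (1 : Matrix (Fin d ⊕ Fin d) (Fin d ⊕ Fin d) F)) ∧
      ∀ g ∈ Cfsg.spGL d F, g⁻¹ * x * g ∉ Cfsg.Geo.subalgebraNormalizer K := by
  have : Fact r.Prime := ⟨hr⟩
  have hne : Nonempty (Fin d ⊕ Fin d) := ⟨.inl ⟨0, hd⟩⟩
  obtain ⟨A, hAr, hA1, hArk⟩ := exists_sp (F := F) hr hj0 hjd hrd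
  obtain ⟨x, hx, hxA⟩ := exists_spGL A
  have hxr : x ^ r = 1 := by
    apply Units.ext
    rw [Units.val_pow_eq_pow_val, hxA]
    exact congrArg Subtype.val hAr
  have hx1 : x ≠ 1 := by
    rintro rfl
    apply hA1
    apply Subtype.ext
    rw [← hxA]; rfl
  refine ⟨x, hx, hxr, not_scalar hd (hr.odd_of_ne_two hr2) x hx hxr hx1, ?_⟩
  intro g hg hN
  set y := g⁻¹ * x * g with hy
  have hyr : y ^ r = 1 := by
    have : y ^ r = g⁻¹ * x ^ r * g := by
      have := conj_pow (i := r) (a := g⁻¹) (b := x)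
      rw [inv_inv] at this
      exact this
    rw [this, hxr]; group
  have hy1 : y ≠ 1 := by
    intro h
    apply hx1
    have : x = g * y * g⁻¹ := by rw [hy]; group
    rw [this, h]; group
  have hyS : y ∈ Cfsg.spGL d F := Subgroup.mul_mem _ (Subgroup.mul_mem _ (Subgroup.inv_mem _ hg) hx) hg
  have hcomm := comm_of_pow ρ hmem hE y hN hyr ((Nat.coprime_primes hr Nat.prime_two).2 hr2) (by norm_num) δ
  have hfd : FiniteDimensional F E := Module.finite_of_finrank_pos (by omega)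
  have hfin : Finite E := Module.finite_of_finite F
  have hfinE : Fintype E := Fintype.ofFinite E
  have hcE : Fintype.card E = Fintype.card F ^ 2 := by
    rw [← hE]; exact Module.card_eq_pow_finrank
  apply neg_core h2 hns (Matrix.toLin' (ρ δ)) ?_ ?_ hskew hr hr2 hrq (Matrix.toLin' (y : Matrix (Fin d ⊕ Fin d) (Fin d ⊕ Fin d) F))
    (H99.SpInv.gl_isom hyS) ?_ ?_ ?_ hi hi0 ?_
  · intro v
    rw [Matrix.toLin'_apply, Matrix.toLin'_apply, Matrix.mulVec_mulVec, ← map_mul, hδ, AlgHom.commutes, Algebra.algebraMap_eq_smul_one,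
      Matrix.smul_mulVec, Matrix.one_mulVec]
  · intro v
    rw [← Matrix.toLin'_pow, ← map_pow]
    have : δ ^ (Fintype.card F ^ 2) = δ := by rw [← hcE]; exact FiniteField.pow_card δ
    rw [this]
  · rw [← Matrix.toLin'_pow]
    have : (y : Matrix (Fin d ⊕ Fin d) (Fin d ⊕ Fin d) F) ^ r = 1 := congrArg Units.val hyr
    rw [this, Matrix.toLin'_one]; rfl
  · intro h
    apply hy1
    apply Units.ext
    apply Matrix.toLin'.injective
    rw [h, Units.val_one, Matrix.toLin'_one]; rfl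
  · intro v
    rw [Matrix.toLin'_apply, Matrix.toLin'_apply, Matrix.toLin'_apply, Matrix.toLin'_apply, Matrix.mulVec_mulVec, Matrix.mulVec_mulVec, hcomm]
  · have h3 := rank_conj_le x g
    rw [hxA] at h3
    rcases hcase with ⟨h4, h5⟩ | ⟨h4, h5⟩
    · left
      exact ⟨h4, by rw [← h5]; exact h3.trans hArk⟩
    · right
      exact ⟨h4, by rw [← h5]; exact h3.trans hArk⟩

/-- Elements of prime order of PSp_n(q), q odd, and the subgroups of type GU_{n/2}(q). Here `T = PSp_{2d}(F)` for a field `F` with `q` elements, `q` odd, `d ≥ 2`, realised through the matrices preserving the standard alternating form `f`; `K` is a subalgebra of the `2d × 2d` matrices that is a field of degree 2 over `F`, closed under taking adjoints for `f` but not consisting of self-adjoint elements (so `F^{2d}` becomes a `d`-dimensional space over `K ≅ F_{q²}` on which `f` is the trace of a multiple of a non-degenerate hermitian form); `H` is the subgroup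 of `T` normalizing `K` — the symplectic maps that are `K`-linear or `K`-semilinear, a subgroup of type GU_d(q) (maximality is not assumed). Ω is the set of cosets of `H` in `T`, so an element of `T` of prime order `r` (`x ∈ T` with `x^r` scalar, `x` not scalar) fixes a point of Ω exactly when some `T`-conjugate of `x` normalizes `K`. Let `r` be a prime dividing the index of `H`. Then every element of `T` of order `r` fixes a point of Ω if and only if `r = 2`. -/
theorem result {F : Type*} [Field F] [Fintype F] {p : ℕ} [Fact p.Prime] [CharP F p] {q : ℕ} (hq : Fintype.card F = q)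
    (hodd : Odd q) (d : ℕ) (hd : 2 ≤ d)
    (K : Subalgebra F (Matrix (Fin d ⊕ Fin d) (Fin d ⊕ Fin d) F)) (hK : Cfsg.Geo.IsFieldSubalgebra 2 K)
    (hKf : Cfsg.Geo.IsAdjointClosedFor (Cfsg.sympForm d F) K) (hKns : ¬ Cfsg.Geo.IsSelfAdjointFor (Cfsg.sympForm d F) K)
    (r : ℕ) [Fact r.Prime]
    (hΩ : r ∣ (Cfsg.Geo.subalgebraNormalizer K).relIndex (Cfsg.spGL d F)) :
    (∀ x ∈ Cfsg.spGL d F, (∃ z : F, ((x ^ r : GL (Fin d ⊕ Fin d) F) : Matrix (Fin d ⊕ Fin d) (Fin d ⊕ Fin d) F) = z • (1 : Matrix (Fin d ⊕ Fin d) (Fin d ⊕ Fin d) F)) →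
      (∀ z : F, (x : Matrix (Fin d ⊕ Fin d) (Fin d ⊕ Fin d) F) ≠ z • (1 : Matrix (Fin d ⊕ Fin d) (Fin d ⊕ Fin d) F)) →
      ∃ g ∈ Cfsg.spGL d F, g⁻¹ * x * g ∈ Cfsg.Geo.subalgebraNormalizer K) ↔ r = 2 := by
  subst hq
  have hr : r.Prime := Fact.out
  have hp : p.Prime := Fact.out
  obtain ⟨f, hpf, hcardF⟩ := FiniteField.card F p
  have hp2 : p ≠ 2 := by
    rintro rfl
    rw [hcardF] at hodd
    exact (Nat.not_even_iff_odd.2 hodd) (Nat.even_pow.2 ⟨even_two, f.ne_zero⟩)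
  have h2 : (2 : F) ≠ 0 := by
    intro h
    have h' : ((2 : ℕ) : F) = 0 := by exact_mod_cast h
    rw [CharP.cast_eq_zero_iff F p] at h'
    exact hp2 ((Nat.prime_dvd_prime_iff_eq hp Nat.prime_two).1 h')
  have hd0 : 0 < d := by omega
  have hne : Nonempty (Fin d ⊕ Fin d) := ⟨.inl ⟨0, hd0⟩⟩
  obtain ⟨E, fE, aE, ρ, δ, c, hmem, hE, hδ, hns, hspan, hskew⟩ := H99.Skew.exists_data h2 hd0 K hK hKf hKns
  have hc0 : c ≠ 0 := by rintro rfl; exact hns ⟨0, by simp⟩
  have hq1 : 1 < Fintype.card F := Fintype.one_lt_card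
  constructor
  · intro H
    by_contra hr2
    by_cases hrp : r = p
    · subst hrp
      obtain ⟨x, hx, hxp, hxs, hxg⟩ := caseP (p := r) (ρ := ρ) h2 hd0 hns hδ
      obtain ⟨g, hg, hN⟩ := H x hx ⟨1, by rw [hxp, one_smul]; rfl⟩ hxs
      apply hxg g
      exact H99.FieldEmb.comm_of_pow ρ hmem hE _ hN (r := r) (by
        have : (g⁻¹ * x * g) ^ r = g⁻¹ * x ^ r * g := by
          have := conj_pow (i := r) (a := g⁻¹) (b := x)
          rw [inv_inv] at this
          exact this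
        rw [this, hxp]; group) ((Nat.coprime_primes hr Nat.prime_two).2 hr2) (by norm_num) δ
    · have hrq : ¬ r ∣ Fintype.card F := by
        intro h
        rw [hcardF] at h
        exact hrp ((Nat.prime_dvd_prime_iff_eq hr hp).1 (hr.dvd_of_dvd_pow h))
      obtain ⟨i, hi⟩ : ∃ i, i = orderOf ((Fintype.card F : ℕ) : ZMod r) := ⟨_, rfl⟩
      have hcop : Nat.Coprime (Fintype.card F) r := ((Nat.Prime.coprime_iff_not_dvd hr).2 hrq).symm
      have hi0 : 0 < i := by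
        rw [hi, orderOf_pos_iff]
        rw [isOfFinOrder_iff_pow_eq_one]
        refine ⟨r - 1, by have := hr.two_le; omega, ?_⟩
        exact ZMod.pow_card_sub_one_eq_one (by rw [Ne, ZMod.natCast_eq_zero_iff]; exact hrq)
      have hone : ∀ m : ℕ, r ∣ Fintype.card F ^ m - 1 ↔ i ∣ m := by
        intro m
        have h1 : 1 ≤ Fintype.card F ^ m := Nat.one_le_pow _ _ (by omega)
        rw [hi, orderOf_dvd_iff_pow_eq_one, ← Nat.cast_pow, ← ZMod.natCast_eq_zero_iff, Nat.cast_sub h1, Nat.cast_one, sub_eq_zero]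
      obtain ⟨j, hjd, hj⟩ := H99.Skew.index h2 hmem hE hspan hns hδ hskew hr hrq hΩ
      have key : ∃ j', 1 ≤ j' ∧ j' ≤ d ∧ r ∣ Fintype.card F ^ (2 * j') - 1 ∧ ((Odd i ∧ j' = i) ∨ (4 ∣ i ∧ 2 * j' = i)) := by
        rcases hj with ⟨hje, hj⟩ | ⟨hjo, hj⟩
        · rw [hone] at hj
          have hodd' : Odd (j + 1) := hje.add_one
          have hio : Odd i := Odd.of_dvd_nat hodd' hj
          have hile : i ≤ j + 1 := Nat.le_of_dvd (by omega) hj
          exact ⟨i, hi0, by omega, (hone _).2 (dvd_mul_left i 2), Or.inl ⟨hio, rfl⟩⟩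
        · have h3 : i ∣ 2 * (j + 1) := by
            rw [← hone]
            have : Fintype.card F ^ (2 * (j + 1)) - 1 = (Fintype.card F ^ (j + 1) + 1) * (Fintype.card F ^ (j + 1) - 1) := by
              rw [mul_comm 2, pow_mul, ← Nat.sq_sub_sq, one_pow]
            rw [this]
            exact hj.mul_right _
          have h4 : ¬ i ∣ j + 1 := by
            intro h
            rw [← hone] at h
            have h5 : r ∣ 2 := by
              have h1 : 1 ≤ Fintype.card F ^ (j + 1) := Nat.one_le_pow _ _ (by omega)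
              have := Nat.dvd_sub hj h
              have h6 : Fintype.card F ^ (j + 1) + 1 - (Fintype.card F ^ (j + 1) - 1) = 2 := by omega
              rwa [h6] at this
            exact hr2 ((Nat.prime_dvd_prime_iff_eq hr Nat.prime_two).1 h5)
          have hile : i ≤ 2 * (j + 1) := Nat.le_of_dvd (by omega) h3
          have h4i : 4 ∣ i := by
            obtain ⟨e, he⟩ := hjo.add_one
            have he2 : j + 1 = 2 * e := by omega
            by_contra h4n
            apply h4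
            rw [he2] at h3 ⊢
            -- i ∣ 4 e, 4 ∤ i → i ∣ 2 e
            obtain ⟨b, hb⟩ := h3
            rcases Nat.even_or_odd b with hb2 | hb2
            · obtain ⟨b', hb'⟩ := hb2
              refine ⟨b', ?_⟩
              have : 2 * (2 * e) = 2 * (i * b') := by rw [hb, hb']; ring
              omega
            · exfalso
              apply h4n
              have h5 : 4 ∣ i * b := ⟨e, by rw [← hb]; ring⟩
              have h6 : Nat.Coprime 4 b := by
                have : Nat.Coprime (2 ^ 2) b := Nat.Coprime.pow_left 2 ((Nat.coprime_two_left).2 hb2)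
                exact this
              exact h6.dvd_of_dvd_mul_right h5
          obtain ⟨e, he⟩ := h4i
          refine ⟨2 * e, by omega, by omega, (hone _).2 ⟨1, by rw [he]; ring⟩, Or.inr ⟨⟨e, he⟩, by omega⟩⟩
      obtain ⟨j', hj1, hj2, hj3, hj4⟩ := key
      obtain ⟨x, hx, hxp, hxs, hxg⟩ := negR h2 hd0 hmem hE hns hδ hskew hr hr2 hrq hi hi0 hj1 hj2 hj3 hj4
      obtain ⟨g, hg, hN⟩ := H x hx ⟨1, by rw [hxp, one_smul]; rfl⟩ hxs
      exact hxg g hg hN
  · rintro rfl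
    intro x hx ⟨z, hz⟩ hxs
    have hz2 : ∀ v, (x : Matrix (Fin d ⊕ Fin d) (Fin d ⊕ Fin d) F).mulVec ((x : Matrix (Fin d ⊕ Fin d) (Fin d ⊕ Fin d) F).mulVec v) = z • v := by
      intro v
      rw [Matrix.mulVec_mulVec, ← pow_two, ← Units.val_pow_eq_pow_val, hz, Matrix.smul_mulVec, Matrix.one_mulVec]
    have hzz : z * z = 1 := by
      obtain ⟨a, ha⟩ := exists_ne (0 : Fin d ⊕ Fin d → F)
      obtain ⟨w, hw⟩ : ∃ w, H99.RElt.sympB d F a w ≠ 0 := by
        by_contra h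
        push Not at h
        exact ha (H99.RElt.sympB_nd d _ h)
      have h1 := (H99.SpInv.gl_isom hx (Matrix.toLin' (x : Matrix (Fin d ⊕ Fin d) (Fin d ⊕ Fin d) F) a) (Matrix.toLin' (x : Matrix (Fin d ⊕ Fin d) (Fin d ⊕ Fin d) F) w)).trans (H99.SpInv.gl_isom hx a w)
      have hv : ∀ v, Matrix.toLin' (x : Matrix (Fin d ⊕ Fin d) (Fin d ⊕ Fin d) F) (Matrix.toLin' (x : Matrix (Fin d ⊕ Fin d) (Fin d ⊕ Fin d) F) v) = z • v := hz2
      rw [hv, hv, map_smul, map_smul, LinearMap.smul_apply, smul_eq_mul, smul_eq_mul] at h1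
      apply mul_right_cancel₀ hw
      linear_combination h1
    rcases mul_self_eq_one_iff.1 hzz with h | h
    · exact H99.Skew.two_pos h2 hmem hspan hc0 hδ hskew x hx (fun v => by rw [hz2, h, one_smul])
    · exact H99.Skew.two_neg h2 hmem hspan hc0 hδ hskew x hx (fun v => by rw [hz2, h, neg_smul, one_smul])

end Cfsg.Agent.S5976
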