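import Cfsg.Statements.S5979
import Mathlib
import Cfsg.Agent.Lib.H99.SqScalar
import Cfsg.Agent.Lib.H99.Diag
import Cfsg.Agent.Lib.H99.PowNegOne
import Cfsg.Agent.Lib.H99.Blk

set_option autoImplicit false
set_option linter.unusedSimpArgs false
open scoped MatrixGroups
open Cfsg

namespace Cfsg.Agent.S5979


open Matrix Kronecker in
theorem exists_fun {F : Type*} [Field F] {a : ℕ} (u : Matrix (Fin a) (Fin a) F)
    (hu : ∀ z : F, u ≠ z • (1 : Matrix (Fin a) (Fin a) F)) :
    ∃ c φ : Fin a → F, φ ⬝ᵥ c = 0 ∧ φ ⬝ᵥ (u *ᵥ c) = 1 := by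
  have : ∃ v, LinearIndependent F ![v, Matrix.toLin' u v] := by
    by_contra h
    push Not at h
    obtain ⟨z, hz⟩ := LinearMap.exists_eq_smul_id_of_forall_notLinearIndependent h
    apply hu z
    apply Matrix.toLin'.injective
    rw [hz, map_smul, Matrix.toLin'_one]; rfl
  obtain ⟨v, hli⟩ := this
  have hv : v ≠ 0 := by
    have := hli.ne_zero 0
    simpa using this
  have hTv : Matrix.toLin' u v ∉ Submodule.span F {v} := by
    rw [LinearIndependent.pair_iff' hv] at hli
    rw [Submodule.mem_span_singleton]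
    rintro ⟨a, ha⟩
    exact hli a ha
  obtain ⟨φ, hφ1, hφ2⟩ := Submodule.exists_dual_map_eq_bot_of_notMem hTv inferInstance
  have hφv : φ v = 0 := by
    have : φ v ∈ (Submodule.span F {v}).map φ := Submodule.mem_map_of_mem (Submodule.mem_span_singleton_self v)
    rw [hφ2] at this
    exact (Submodule.mem_bot F).1 this
  let ψ : Fin a → F := fun i => φ (Pi.single i 1)
  have hψ : ∀ w, ψ ⬝ᵥ w = φ w := by
    intro w
    have h1 : w = ∑ i, w i • Pi.single (M := fun _ => F) i 1 := by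
      ext j
      simp [Finset.sum_apply, Pi.single_apply]
    conv_rhs => rw [h1]
    rw [map_sum, dotProduct]
    refine Finset.sum_congr rfl fun i _ => ?_
    rw [map_smul, smul_eq_mul, mul_comm]
  refine ⟨v, (φ (Matrix.toLin' u v))⁻¹ • ψ, ?_, ?_⟩
  · rw [smul_dotProduct, hψ, hφv, smul_zero]
  · rw [smul_dotProduct, hψ, ← Matrix.toLin'_apply, smul_eq_mul, inv_mul_cancel₀ hφ1]

open Matrix Kronecker in
/-- rank bound when the first factor is not scalar -/
theorem rank_left {F : Type*} [Field F] {a b : ℕ} (u : Matrix (Fin a) (Fin a) F) (w : Matrix (Fin b) (Fin b) F) (hw : w.det ≠ 0)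
    (hu : ∀ z : F, u ≠ z • (1 : Matrix (Fin a) (Fin a) F)) (l : F) :
    b ≤ (u ⊗ₖ w - l • (1 : Matrix (Fin a × Fin b) (Fin a × Fin b) F)).rank := by
  obtain ⟨c, φ, h1, h2⟩ := exists_fun u hu
  let f : (Fin b → F) →ₗ[F] (Fin a × Fin b → F) :=
    { toFun := fun d x => c x.1 * d x.2
      map_add' := fun d d' => by ext x; simp [mul_add]
      map_smul' := fun t d => by ext x; simp; ring }
  let M := u ⊗ₖ w - l • (1 : Matrix (Fin a × Fin b) (Fin a × Fin b) F)
  have hM : ∀ d x, (M *ᵥ (f d)) x = (u *ᵥ c) x.1 * (w *ᵥ d) x.2 - l * (c x.1 * d x.2) := by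
    intro d x
    rw [Matrix.sub_mulVec, Matrix.smul_mulVec, Matrix.one_mulVec, Pi.sub_apply, Pi.smul_apply, smul_eq_mul]
    congr 1
    simp only [Matrix.mulVec, dotProduct, Fintype.sum_prod_type, Matrix.kroneckerMap_apply, f, LinearMap.coe_mk, AddHom.coe_mk]
    rw [Finset.sum_mul_sum]
    refine Finset.sum_congr rfl fun i _ => Finset.sum_congr rfl fun j _ => ?_
    ring
  have hinj : Function.Injective (M.mulVecLin ∘ₗ f) := by
    rw [← LinearMap.ker_eq_bot, eq_bot_iff]
    intro d hd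
    rw [LinearMap.mem_ker, LinearMap.comp_apply, Matrix.mulVecLin_apply] at hd
    have h3 : ∀ j, (w *ᵥ d) j = 0 := by
      intro j
      have h4 : ∑ i, φ i * (M *ᵥ (f d)) (i, j) = 0 := by
        rw [hd]; simp
      simp only [hM] at h4
      have h5 : ∑ i, φ i * ((u *ᵥ c) i * (w *ᵥ d) j - l * (c i * d j)) =
          (φ ⬝ᵥ (u *ᵥ c)) * (w *ᵥ d) j - l * (φ ⬝ᵥ c) * d j := by
        rw [dotProduct, dotProduct, Finset.mul_sum, Finset.sum_mul, Finset.sum_mul, ← Finset.sum_sub_distrib]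
        refine Finset.sum_congr rfl fun i _ => ?_
        ring
      rw [h5, h1, h2] at h4
      linear_combination h4
    have h6 : w *ᵥ d = 0 := funext h3
    rw [Submodule.mem_bot]
    exact Matrix.eq_zero_of_mulVec_eq_zero hw h6
  have h7 := LinearMap.finrank_range_of_inj hinj
  rw [Module.finrank_fintype_fun_eq_card, Fintype.card_fin] at h7
  refine h7.ge.trans ?_
  rw [Matrix.rank]
  apply Submodule.finrank_mono
  exact LinearMap.range_comp_le_range _ _

open Matrix Kronecker in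
/-- rank bound when the second factor is not scalar -/
theorem rank_right {F : Type*} [Field F] {a b : ℕ} (u : Matrix (Fin a) (Fin a) F) (w : Matrix (Fin b) (Fin b) F) (hu : u.det ≠ 0)
    (hw : ∀ z : F, w ≠ z • (1 : Matrix (Fin b) (Fin b) F)) (l : F) :
    a ≤ (u ⊗ₖ w - l • (1 : Matrix (Fin a × Fin b) (Fin a × Fin b) F)).rank := by
  have h := rank_left w u hu hw l
  have h1 : (w ⊗ₖ u - l • (1 : Matrix (Fin b × Fin a) (Fin b × Fin a) F)) =
      Matrix.reindex (Equiv.prodComm _ _) (Equiv.prodComm _ _) (u ⊗ₖ w - l • (1 : Matrix (Fin a × Fin b) (Fin a × Fin b) F)) := by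
    ext ⟨i, j⟩ ⟨i', j'⟩
    simp only [Matrix.reindex_apply, Matrix.submatrix_apply, Matrix.sub_apply, Matrix.kroneckerMap_apply, Equiv.prodComm_symm,
      Equiv.prodComm_apply, Prod.swap_prod_mk, Matrix.smul_apply, Matrix.one_apply, Prod.mk.injEq]
    congr 1
    · ring
    · simp only [and_comm]
  rw [h1, Matrix.rank_reindex] at h
  exact h

open Matrix Kronecker Polynomial in
theorem charpoly_kron {F : Type*} [Field F] {a b : ℕ} (w : Matrix (Fin b) (Fin b) F) :
    ((1 : Matrix (Fin a) (Fin a) F) ⊗ₖ w).charpoly = w.charpoly ^ a := by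
  have h1 : ((1 : Matrix (Fin a) (Fin a) F) ⊗ₖ w).charmatrix = (1 : Matrix (Fin a) (Fin a) F[X]) ⊗ₖ w.charmatrix := by
    apply Matrix.ext
    rintro ⟨i, j⟩ ⟨i', j'⟩
    rw [Matrix.charmatrix_apply, Matrix.kroneckerMap_apply, Matrix.kroneckerMap_apply, Matrix.charmatrix_apply]
    simp only [Matrix.one_apply, Matrix.diagonal_apply, Prod.mk.injEq]
    by_cases h : i = i' <;> by_cases h' : j = j' <;> simp [h, h']
  rw [Matrix.charpoly, h1, Matrix.det_kronecker, Matrix.det_one, one_pow, one_mul, Fintype.card_fin]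
  rfl

open Matrix Kronecker Polynomial in
/-- the shape of elements of conjugates of the tensor product subgroup -/
theorem shape {F : Type*} [Field F] {n a b : ℕ} (e : Fin n ≃ Fin a × Fin b) (P x g : GL (Fin n) F)
    (h : g⁻¹ * x * g ∈ Cfsg.Geo.tensorProductSubgroup a b e P) :
    ∃ (u : GL (Fin a) F) (w : GL (Fin b) F) (R : GL (Fin n) F),
      (x : Matrix (Fin n) (Fin n) F) = (R : Matrix (Fin n) (Fin n) F) *
        Matrix.reindex e.symm e.symm ((u : Matrix (Fin a) (Fin a) F) ⊗ₖ (w : Matrix (Fin b) (Fin b) F)) *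
        ((R⁻¹ : GL (Fin n) F) : Matrix (Fin n) (Fin n) F) := by
  obtain ⟨y, ⟨k, ⟨u, w, hk⟩, rfl⟩, hy⟩ := h
  refine ⟨u, w, g * P, ?_⟩
  have h1 : x = (g * P) * (Cfsg.Geo.glReindex e.symm k) * (g * P)⁻¹ := by
    have h2 : P * (Cfsg.Geo.glReindex e.symm k) * P⁻¹ = g⁻¹ * x * g := hy
    calc x = g * (g⁻¹ * x * g) * g⁻¹ := by group
      _ = g * (P * (Cfsg.Geo.glReindex e.symm k) * P⁻¹) * g⁻¹ := by rw [h2]
      _ = _ := by group
  rw [h1, Units.val_mul, Units.val_mul]
  congr 2
  show Matrix.reindex e.symm e.symm (k : Matrix (Fin a × Fin b) (Fin a × Fin b) F) = _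
  rw [hk]

open Matrix Kronecker Polynomial in
theorem rank_conj {F : Type*} [Field F] {n a b : ℕ} (e : Fin n ≃ Fin a × Fin b) (R : GL (Fin n) F)
    (x : Matrix (Fin n) (Fin n) F) (M : Matrix (Fin a × Fin b) (Fin a × Fin b) F)
    (hx : x = (R : Matrix (Fin n) (Fin n) F) * Matrix.reindex e.symm e.symm M *
        ((R⁻¹ : GL (Fin n) F) : Matrix (Fin n) (Fin n) F)) (l : F) :
    (x - l • (1 : Matrix (Fin n) (Fin n) F)).rank = (M - l • (1 : Matrix (Fin a × Fin b) (Fin a × Fin b) F)).rank := by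
  have hRR : (R : Matrix (Fin n) (Fin n) F) * ((R⁻¹ : GL (Fin n) F) : Matrix (Fin n) (Fin n) F) = 1 := by
    rw [← Units.val_mul, mul_inv_cancel, Units.val_one]
  have h1 : x - l • (1 : Matrix (Fin n) (Fin n) F) = (R : Matrix (Fin n) (Fin n) F) *
      Matrix.reindex e.symm e.symm (M - l • (1 : Matrix (Fin a × Fin b) (Fin a × Fin b) F)) *
        ((R⁻¹ : GL (Fin n) F) : Matrix (Fin n) (Fin n) F) := by
    have h2 : Matrix.reindex e.symm e.symm (M - l • (1 : Matrix (Fin a × Fin b) (Fin a × Fin b) F)) =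
        Matrix.reindex e.symm e.symm M - l • (1 : Matrix (Fin n) (Fin n) F) := by
      ext i j
      simp [Matrix.one_apply]
    rw [h2, Matrix.mul_sub, Matrix.sub_mul, ← hx, Matrix.mul_smul, Matrix.mul_one, Matrix.smul_mul, hRR]
  have hdR : IsUnit (R : Matrix (Fin n) (Fin n) F).det := (Matrix.isUnit_iff_isUnit_det _).1 R.isUnit
  have hdR' : IsUnit ((R⁻¹ : GL (Fin n) F) : Matrix (Fin n) (Fin n) F).det := (Matrix.isUnit_iff_isUnit_det _).1 (R⁻¹).isUnit
  rw [h1, Matrix.rank_mul_eq_left_of_isUnit_det _ _ hdR', Matrix.rank_mul_eq_right_of_isUnit_det _ _ hdR, Matrix.rank_reindex]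

open Matrix Kronecker Polynomial in
theorem charpoly_conj {F : Type*} [Field F] {n a b : ℕ} (e : Fin n ≃ Fin a × Fin b) (R : GL (Fin n) F)
    (x : Matrix (Fin n) (Fin n) F) (M : Matrix (Fin a × Fin b) (Fin a × Fin b) F)
    (hx : x = (R : Matrix (Fin n) (Fin n) F) * Matrix.reindex e.symm e.symm M *
        ((R⁻¹ : GL (Fin n) F) : Matrix (Fin n) (Fin n) F)) : x.charpoly = M.charpoly := by
  rw [hx]
  have h1 := Matrix.charpoly_units_conj R (Matrix.reindex e.symm e.symm M)
  rw [Matrix.coe_units_inv, h1, Matrix.charpoly_reindex]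

open Matrix Kronecker Polynomial in
theorem det_ne {F : Type*} [Field F] {n : ℕ} (u : GL (Fin n) F) : (u : Matrix (Fin n) (Fin n) F).det ≠ 0 :=
  ((Matrix.isUnit_iff_isUnit_det _).1 u.isUnit).ne_zero

open Matrix Kronecker Polynomial in
theorem sq_dvd {F : Type*} [Field F] {n a b : ℕ} (ha : 2 ≤ a) (e : Fin n ≃ Fin a × Fin b) (P x g : GL (Fin n) F)
    (u : GL (Fin a) F) (w : GL (Fin b) F) (R : GL (Fin n) F)
    (hx : (x : Matrix (Fin n) (Fin n) F) = (R : Matrix (Fin n) (Fin n) F) *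
        Matrix.reindex e.symm e.symm ((u : Matrix (Fin a) (Fin a) F) ⊗ₖ (w : Matrix (Fin b) (Fin b) F)) *
        ((R⁻¹ : GL (Fin n) F) : Matrix (Fin n) (Fin n) F))
    (z : F) (hu : (u : Matrix (Fin a) (Fin a) F) = z • (1 : Matrix (Fin a) (Fin a) F)) (G : F[X]) (hG : Irreducible G)
    (hd : G ∣ (x : Matrix (Fin n) (Fin n) F).charpoly) : G * G ∣ (x : Matrix (Fin n) (Fin n) F).charpoly := by
  have h1 := charpoly_conj e R _ _ hx
  have h2 : (u : Matrix (Fin a) (Fin a) F) ⊗ₖ (w : Matrix (Fin b) (Fin b) F) =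
      (1 : Matrix (Fin a) (Fin a) F) ⊗ₖ (z • (w : Matrix (Fin b) (Fin b) F)) := by
    rw [hu, Matrix.smul_kronecker, Matrix.kronecker_smul]
  rw [h2, charpoly_kron] at h1
  rw [h1] at hd ⊢
  have h3 := hG.prime.dvd_of_dvd_pow hd
  rw [← pow_two]
  exact (pow_dvd_pow_of_dvd h3 2).trans (pow_dvd_pow _ ha)

open Matrix Kronecker Polynomial in
/-- (A) an element with a small rank difference to a scalar is not conjugate into the subgroup -/
theorem caseA {F : Type*} [Field F] {n a b : ℕ} (hab : a ≤ b) (e : Fin n ≃ Fin a × Fin b) (P x g : GL (Fin n) F)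
    (h : g⁻¹ * x * g ∈ Cfsg.Geo.tensorProductSubgroup a b e P)
    (hns : ∀ z : F, (x : Matrix (Fin n) (Fin n) F) ≠ z • (1 : Matrix (Fin n) (Fin n) F)) (l : F)
    (hr : ((x : Matrix (Fin n) (Fin n) F) - l • (1 : Matrix (Fin n) (Fin n) F)).rank < a) : False := by
  obtain ⟨u, w, R, hx⟩ := shape e P x g h
  rw [rank_conj e R _ _ hx] at hr
  by_cases hu : ∀ z : F, (u : Matrix (Fin a) (Fin a) F) ≠ z • (1 : Matrix (Fin a) (Fin a) F)
  · have := rank_left _ _ (det_ne w) hu l
    omega
  · by_cases hw : ∀ z : F, (w : Matrix (Fin b) (Fin b) F) ≠ z • (1 : Matrix (Fin b) (Fin b) F)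
    · have := rank_right _ _ (det_ne u) hw l
      omega
    · push Not at hu hw
      obtain ⟨z, hz⟩ := hu
      obtain ⟨z', hz'⟩ := hw
      apply hns (z * z')
      have hRR : (R : Matrix (Fin n) (Fin n) F) * ((R⁻¹ : GL (Fin n) F) : Matrix (Fin n) (Fin n) F) = 1 := by
        rw [← Units.val_mul, mul_inv_cancel, Units.val_one]
      have h2 : Matrix.reindex e.symm e.symm ((z * z') • (1 : Matrix (Fin a × Fin b) (Fin a × Fin b) F)) =
          (z * z') • (1 : Matrix (Fin n) (Fin n) F) := by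
        ext i j
        simp [Matrix.one_apply]
      rw [hx, hz, hz', Matrix.smul_kronecker, Matrix.kronecker_smul, Matrix.one_kronecker_one, smul_smul, h2,
        Matrix.mul_smul, Matrix.mul_one, Matrix.smul_mul, hRR]

open Matrix Kronecker Polynomial in
/-- (B) an element with rank difference less than `b` and a simple irreducible factor -/
theorem caseB {F : Type*} [Field F] {n a b : ℕ} (ha : 2 ≤ a) (e : Fin n ≃ Fin a × Fin b) (P x g : GL (Fin n) F)
    (h : g⁻¹ * x * g ∈ Cfsg.Geo.tensorProductSubgroup a b e P) (l : F)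
    (hr : ((x : Matrix (Fin n) (Fin n) F) - l • (1 : Matrix (Fin n) (Fin n) F)).rank < b)
    (G : F[X]) (hG : Irreducible G) (hd : G ∣ (x : Matrix (Fin n) (Fin n) F).charpoly)
    (hdd : ¬ G * G ∣ (x : Matrix (Fin n) (Fin n) F).charpoly) : False := by
  obtain ⟨u, w, R, hx⟩ := shape e P x g h
  by_cases hu : ∀ z : F, (u : Matrix (Fin a) (Fin a) F) ≠ z • (1 : Matrix (Fin a) (Fin a) F)
  · rw [rank_conj e R _ _ hx] at hr
    have := rank_left _ _ (det_ne w) hu l
    omega
  · push Not at hu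
    obtain ⟨z, hz⟩ := hu
    exact hdd (sq_dvd ha e P x g u w R hx z hz G hG hd)

open Matrix Kronecker Polynomial in
/-- (C) an element of order r where GL_a has no elements of order r -/
theorem caseC {F : Type*} [Field F] [Fintype F] {n a b : ℕ} (ha : 2 ≤ a) (hb : 0 < b) (e : Fin n ≃ Fin a × Fin b) (P x g : GL (Fin n) F)
    (h : g⁻¹ * x * g ∈ Cfsg.Geo.tensorProductSubgroup a b e P) {r : ℕ} (hr : r.Prime)
    (hrdvd : ¬ r ∣ Fintype.card F - 1) (hcard : ¬ r ∣ Nat.card (GL (Fin a) F)) (hxr : x ^ r = 1)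
    (G : F[X]) (hG : Irreducible G) (hd : G ∣ (x : Matrix (Fin n) (Fin n) F).charpoly)
    (hdd : ¬ G * G ∣ (x : Matrix (Fin n) (Fin n) F).charpoly) : False := by
  classical
  obtain ⟨u, w, R, hx⟩ := shape e P x g h
  have hRR : (R : Matrix (Fin n) (Fin n) F) * ((R⁻¹ : GL (Fin n) F) : Matrix (Fin n) (Fin n) F) = 1 := by
    rw [← Units.val_mul, mul_inv_cancel, Units.val_one]
  have hRR' : ((R⁻¹ : GL (Fin n) F) : Matrix (Fin n) (Fin n) F) * (R : Matrix (Fin n) (Fin n) F) = 1 := by
    rw [← Units.val_mul, inv_mul_cancel, Units.val_one]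
  -- the r-th power
  have hpow : ∀ k : ℕ, (x : Matrix (Fin n) (Fin n) F) ^ k = (R : Matrix (Fin n) (Fin n) F) *
        Matrix.reindex e.symm e.symm (((u : Matrix (Fin a) (Fin a) F) ^ k) ⊗ₖ ((w : Matrix (Fin b) (Fin b) F) ^ k)) *
        ((R⁻¹ : GL (Fin n) F) : Matrix (Fin n) (Fin n) F) := by
    intro k
    induction k with
    | zero =>
      have : Matrix.reindex e.symm e.symm (1 : Matrix (Fin a × Fin b) (Fin a × Fin b) F) = 1 := by
        rw [Matrix.reindex_apply, Matrix.submatrix_one_equiv]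
      rw [pow_zero, pow_zero, pow_zero, Matrix.one_kronecker_one, this, Matrix.mul_one, hRR]
    | succ k ih =>
      rw [pow_succ, ih, hx, pow_succ, pow_succ, Matrix.mul_kronecker_mul]
      have : ∀ A B : Matrix (Fin a × Fin b) (Fin a × Fin b) F, Matrix.reindex e.symm e.symm (A * B) =
          Matrix.reindex e.symm e.symm A * Matrix.reindex e.symm e.symm B := by
        intro A B
        rw [Matrix.reindex_apply, Matrix.reindex_apply, Matrix.reindex_apply, Matrix.submatrix_mul_equiv]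
      rw [this]
      set A := Matrix.reindex e.symm e.symm (((u : Matrix (Fin a) (Fin a) F) ^ k) ⊗ₖ ((w : Matrix (Fin b) (Fin b) F) ^ k))
      set B := Matrix.reindex e.symm e.symm (((u : Matrix (Fin a) (Fin a) F)) ⊗ₖ ((w : Matrix (Fin b) (Fin b) F)))
      calc (R : Matrix (Fin n) (Fin n) F) * A * ((R⁻¹ : GL (Fin n) F) : Matrix (Fin n) (Fin n) F) *
            ((R : Matrix (Fin n) (Fin n) F) * B * ((R⁻¹ : GL (Fin n) F) : Matrix (Fin n) (Fin n) F))
          = (R : Matrix (Fin n) (Fin n) F) * A * (((R⁻¹ : GL (Fin n) F) : Matrix (Fin n) (Fin n) F) *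
            (R : Matrix (Fin n) (Fin n) F)) * B * ((R⁻¹ : GL (Fin n) F) : Matrix (Fin n) (Fin n) F) := by
            simp only [Matrix.mul_assoc]
        _ = _ := by rw [hRR', Matrix.mul_one]; simp only [Matrix.mul_assoc]
  have hk1 : (((u : Matrix (Fin a) (Fin a) F) ^ r) ⊗ₖ ((w : Matrix (Fin b) (Fin b) F) ^ r)) = 1 := by
    have h1 := hpow r
    have h2 : (x : Matrix (Fin n) (Fin n) F) ^ r = 1 := by rw [← Units.val_pow_eq_pow_val, hxr, Units.val_one]
    rw [h2] at h1
    have h3 : Matrix.reindex e.symm e.symm (((u : Matrix (Fin a) (Fin a) F) ^ r) ⊗ₖ ((w : Matrix (Fin b) (Fin b) F) ^ r)) = 1 := by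
      have h4 := congrArg (fun M => ((R⁻¹ : GL (Fin n) F) : Matrix (Fin n) (Fin n) F) * M * (R : Matrix (Fin n) (Fin n) F)) h1
      rw [Matrix.mul_one, hRR'] at h4
      set A := Matrix.reindex e.symm e.symm (((u : Matrix (Fin a) (Fin a) F) ^ r) ⊗ₖ ((w : Matrix (Fin b) (Fin b) F) ^ r))
      rw [h4]
      calc A = (((R⁻¹ : GL (Fin n) F) : Matrix (Fin n) (Fin n) F) * (R : Matrix (Fin n) (Fin n) F)) * A *
            (((R⁻¹ : GL (Fin n) F) : Matrix (Fin n) (Fin n) F) * (R : Matrix (Fin n) (Fin n) F)) := by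
            rw [hRR', Matrix.one_mul, Matrix.mul_one]
        _ = _ := by simp only [Matrix.mul_assoc]
    have h5 : (Matrix.reindexAlgEquiv F F e.symm) (((u : Matrix (Fin a) (Fin a) F) ^ r) ⊗ₖ ((w : Matrix (Fin b) (Fin b) F) ^ r)) = 1 := h3
    have := (Matrix.reindexAlgEquiv F F e.symm).injective (h5.trans (map_one _).symm)
    exact this
  -- u^r is scalar
  obtain ⟨c, hc0, hc⟩ : ∃ c : F, c ≠ 0 ∧ (u : Matrix (Fin a) (Fin a) F) ^ r = c • (1 : Matrix (Fin a) (Fin a) F) := by
    have hwr : ((w : Matrix (Fin b) (Fin b) F) ^ r) ≠ 0 := by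
      intro h
      have h1 := congrArg Matrix.det h
      have : Nonempty (Fin b) := ⟨⟨0, hb⟩⟩
      rw [Matrix.det_pow, Matrix.det_zero] at h1
      exact pow_ne_zero r (det_ne w) h1
    obtain ⟨j, hj⟩ := Function.ne_iff.1 hwr
    obtain ⟨j', hj'⟩ := Function.ne_iff.1 hj
    have hent : ∀ i i', ((u : Matrix (Fin a) (Fin a) F) ^ r) i i' * ((w : Matrix (Fin b) (Fin b) F) ^ r) j j' =
        (1 : Matrix (Fin a × Fin b) (Fin a × Fin b) F) (i, j) (i', j') := by
      intro i i'
      rw [← hk1, Matrix.kroneckerMap_apply]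
    have hj0 : ((w : Matrix (Fin b) (Fin b) F) ^ r) j j' ≠ 0 := hj'
    have hjj : j = j' := by
      by_contra hne
      have h1 := hent ⟨0, by omega⟩ ⟨0, by omega⟩
      -- u^r would vanish
      have hz : (u : Matrix (Fin a) (Fin a) F) ^ r = 0 := by
        ext i i'
        have h2 := hent i i'
        rw [Matrix.one_apply_ne (by simp [hne])] at h2
        rcases mul_eq_zero.1 h2 with h3 | h3
        · exact h3
        · exact absurd h3 hj0
      have h4 := congrArg Matrix.det hz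
      have : Nonempty (Fin a) := ⟨⟨0, by omega⟩⟩
      rw [Matrix.det_pow, Matrix.det_zero] at h4
      exact pow_ne_zero r (det_ne u) h4
    subst hjj
    refine ⟨(((w : Matrix (Fin b) (Fin b) F) ^ r) j j)⁻¹, inv_ne_zero hj0, ?_⟩
    ext i i'
    have h2 := hent i i'
    rw [Matrix.smul_apply, smul_eq_mul, eq_comm, inv_mul_eq_iff_eq_mul₀ hj0, mul_comm, h2]
    simp [Matrix.one_apply]
  -- c is an r-th power
  obtain ⟨d, hd0, hdc⟩ : ∃ d : F, d ≠ 0 ∧ d ^ r = c := by
    have hcop : Nat.Coprime (Fintype.card Fˣ) r := by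
      rw [Fintype.card_units]
      exact ((Nat.Prime.coprime_iff_not_dvd hr).2 hrdvd).symm
    have hcop' : (Nat.card Fˣ).Coprime r := by rw [Nat.card_eq_fintype_card]; exact hcop
    let E := powCoprime hcop'
    refine ⟨((E.symm (Units.mk0 c hc0) : Fˣ) : F), Units.ne_zero _, ?_⟩
    have h1 : E (E.symm (Units.mk0 c hc0)) = Units.mk0 c hc0 := E.apply_symm_apply _
    rw [powCoprime_apply] at h1
    have h2 := congrArg Units.val h1
    simpa using h2
  -- u' = d⁻¹ u has order dividing r, hence trivial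
  let u' : GL (Fin a) F := Matrix.GeneralLinearGroup.mkOfDetNeZero (d⁻¹ • (u : Matrix (Fin a) (Fin a) F)) (by
    rw [Matrix.det_smul]
    exact mul_ne_zero (pow_ne_zero _ (inv_ne_zero hd0)) (det_ne u))
  have hu'm : (u' : Matrix (Fin a) (Fin a) F) = d⁻¹ • (u : Matrix (Fin a) (Fin a) F) := rfl
  have hu'r : u' ^ r = 1 := by
    apply Units.ext
    rw [Units.val_pow_eq_pow_val, hu'm, _root_.smul_pow, hc, smul_smul, inv_pow, hdc, inv_mul_cancel₀ hc0, one_smul, Units.val_one]
  have hu'1 : u' = 1 := by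
    by_contra hne
    apply hcard
    have : Fact r.Prime := ⟨hr⟩
    rw [← orderOf_eq_prime hu'r hne]
    exact orderOf_dvd_natCard _
  have hus : (u : Matrix (Fin a) (Fin a) F) = d • (1 : Matrix (Fin a) (Fin a) F) := by
    have h1 : d⁻¹ • (u : Matrix (Fin a) (Fin a) F) = 1 := by rw [← hu'm, hu'1, Units.val_one]
    rw [← h1, smul_smul, mul_inv_cancel₀ hd0, one_smul]
  exact hdd (sq_dvd ha e P x g u w R hx d hus G hG hd)

open Matrix Polynomial in
def mkx {F : Type*} [Field F] {n : ℕ} (D : Matrix (Fin n) (Fin n) F) (hD : D.det = 1) : GL (Fin n) F :=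
  Matrix.GeneralLinearGroup.mkOfDetNeZero D (by rw [hD]; exact one_ne_zero)

open Matrix Polynomial in
theorem mkx_mem {F : Type*} [Field F] {n : ℕ} (D : Matrix (Fin n) (Fin n) F) (hD : D.det = 1) :
    mkx D hD ∈ Cfsg.Geo.specialLinear (Fin n) F := by
  rw [Cfsg.Geo.specialLinear, MonoidHom.mem_ker]
  apply Units.ext
  exact hD

open Matrix Polynomial in
theorem mkx_coe {F : Type*} [Field F] {n : ℕ} (D : Matrix (Fin n) (Fin n) F) (hD : D.det = 1) :
    (mkx D hD : Matrix (Fin n) (Fin n) F) = D := rfl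

open Matrix Polynomial in
theorem fwd {F : Type*} [Field F] [Fintype F] {p : ℕ} [Fact p.Prime] [CharP F p]
    (n a b : ℕ) (hab : n = a * b) (ha : 2 ≤ a) (hlt : a < b) (e : Fin n ≃ Fin a × Fin b) (P : GL (Fin n) F)
    (r : ℕ) (hr : r.Prime) (hcardn : r ∣ Nat.card (GL (Fin n) F))
    (hcon : ¬ (r = 2 ∧ a = 2 ∧ Odd (Fintype.card F) ∧ padicValNat 2 (Fintype.card F - 1) ≤ padicValNat 2 n)) :
    ∃ (x : GL (Fin n) F) (z : F), x ∈ Cfsg.Geo.specialLinear (Fin n) F ∧
      (((x ^ r : GL (Fin n) F) : Matrix (Fin n) (Fin n) F) = z • (1 : Matrix (Fin n) (Fin n) F)) ∧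
      (∀ z : F, (x : Matrix (Fin n) (Fin n) F) ≠ z • (1 : Matrix (Fin n) (Fin n) F)) ∧
      ∀ g : GL (Fin n) F, g⁻¹ * x * g ∉ Cfsg.Geo.tensorProductSubgroup a b e P := by
  classical
  have hp : p.Prime := Fact.out
  have hq1 : 1 < Fintype.card F := Fintype.one_lt_card
  have hn6 : 6 ≤ n := by rw [hab]; nlinarith
  have hbn : b ≤ n := by rw [hab]; nlinarith
  obtain ⟨f, hpf, hcardF⟩ := FiniteField.card F p
  let i0 : Fin n := ⟨0, by omega⟩
  let i1 : Fin n := ⟨1, by omega⟩
  have h01 : i0 ≠ i1 := by simp [i0, i1]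
  by_cases hrp : r = p
  · subst hrp
    -- transvection
    have hTdet : (Matrix.transvection i0 i1 (1 : F)).det = 1 := Matrix.det_transvection_of_ne _ _ h01 _
    have hT1 : Matrix.transvection i0 i1 (1 : F) - (1 : F) • (1 : Matrix (Fin n) (Fin n) F) = Matrix.single i0 i1 1 := by
      rw [one_smul, Matrix.transvection, add_sub_cancel_left]
    have hns : ∀ z : F, Matrix.transvection i0 i1 (1 : F) ≠ z • (1 : Matrix (Fin n) (Fin n) F) := by
      intro z hz
      have e1 := congrFun (congrFun hz i0) i1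
      simp [Matrix.transvection, Matrix.one_apply_ne h01] at e1
    refine ⟨mkx _ hTdet, 1, mkx_mem _ _, ?_, ?_, ?_⟩
    · rw [Units.val_pow_eq_pow_val, mkx_coe, one_smul]
      have hch : CharP (Matrix (Fin n) (Fin n) F) r := by
        have : Nonempty (Fin n) := ⟨i0⟩
        infer_instance
      rw [Matrix.transvection, add_pow_char_of_commute r (Commute.one_left _), one_pow]
      have h2 : Matrix.single i0 i1 (1 : F) ^ r = 0 := by
        obtain ⟨k, hk⟩ : ∃ k, r = k + 2 := ⟨r - 2, by have := hr.two_le; omega⟩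
        rw [hk, pow_add, pow_two, Matrix.single_mul_single_of_ne _ _ _ _ h01.symm, Matrix.mul_zero]
      rw [h2, add_zero]
    · exact hns
    · intro g hg
      refine caseA hlt.le e P _ g hg hns 1 ?_
      rw [mkx_coe, hT1, Matrix.single_eq_single_vecMulVec_single]
      exact lt_of_le_of_lt (Matrix.rank_vecMulVec_le _ _) (by omega)
  by_cases hr2 : r = 2
  · subst hr2
    have hodd : Odd (Fintype.card F) := by
      rw [← Nat.not_even_iff_odd, Nat.even_iff]
      intro h
      have h1 : 2 ∣ p ^ (f : ℕ) := by rw [← hcardF]; omega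
      exact hrp ((Nat.prime_dvd_prime_iff_eq Nat.prime_two hp).1 (Nat.prime_two.dvd_of_dvd_pow h1))
    have h2 : (2 : F) ≠ 0 := H99.PowNegOne.two_ne_zero_of_neg_one_ne_one (H99.PowNegOne.neg_one_ne_one hodd)
    by_cases hv : padicValNat 2 (Fintype.card F - 1) ≤ padicValNat 2 n
    · have ha3 : 3 ≤ a := by
        by_contra h
        exact hcon ⟨rfl, by omega, hodd, hv⟩
      -- diag(-1,-1,1,...)
      let eb : (Fin 2 ⊕ Fin (n - 2)) ≃ Fin n := finSumFinEquiv.trans (finCongr (by omega))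
      set D := H99.Blk.emb eb (-1 : Matrix (Fin 2) (Fin 2) F) with hD
      have hdet : D.det = 1 := by
        rw [hD, H99.Blk.emb_det, Matrix.det_neg, Matrix.det_one, Fintype.card_fin]; norm_num
      have hns : ∀ z : F, D ≠ z • (1 : Matrix (Fin n) (Fin n) F) := by
        apply H99.Blk.emb_ne_scalar eb (by omega)
        intro h
        have h3 := congrFun (congrFun h 0) 0
        simp at h3
        exact H99.PowNegOne.neg_one_ne_one hodd h3
      refine ⟨mkx D hdet, 1, mkx_mem _ _, ?_, hns, ?_⟩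
      · rw [Units.val_pow_eq_pow_val, mkx_coe, one_smul, hD, H99.Blk.emb_pow]
        have : (-1 : Matrix (Fin 2) (Fin 2) F) ^ 2 = 1 := by simp
        rw [this, H99.Blk.emb_one]
      · intro g hg
        refine caseA hlt.le e P _ g hg hns 1 ?_
        rw [mkx_coe, one_smul]
        exact lt_of_le_of_lt (H99.Blk.emb_rank _ _) (by omega)
    · push Not at hv
      obtain ⟨μ, hμ⟩ := H99.PowNegOne.exists_pow_eq_neg_one hodd n (by omega) hv
      have hμ0 : μ ≠ 0 := by
        rintro rfl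
        rw [zero_pow (by omega)] at hμ
        exact one_ne_zero (α := F) (by linear_combination hμ)
      set D : Matrix (Fin n) (Fin n) F := Matrix.diagonal (fun i => if i = i0 then -μ else μ) with hD
      have hdet : D.det = 1 := by
        rw [hD, Matrix.det_diagonal]
        have h3 : ∀ i : Fin n, (if i = i0 then -μ else μ) = μ * (if i = i0 then -1 else 1) := by
          intro i; by_cases h : i = i0 <;> simp [h]
        rw [Finset.prod_congr rfl (fun i _ => h3 i), Finset.prod_mul_distrib, Finset.prod_ite_eq']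
        simp [hμ]
      have hns : ∀ z : F, D ≠ z • (1 : Matrix (Fin n) (Fin n) F) := by
        intro w hw
        have e1 := congrFun (congrFun hw i0) i0
        have e2 := congrFun (congrFun hw i1) i1
        simp [hD, h01.symm] at e1 e2
        rw [← e1] at e2
        apply h2
        have h3 : (2 : F) * μ = 0 := by linear_combination e2
        rcases mul_eq_zero.1 h3 with h | h
        · exact h
        · exact absurd h hμ0
      refine ⟨mkx D hdet, μ * μ, mkx_mem _ _, ?_, hns, ?_⟩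
      · rw [Units.val_pow_eq_pow_val, mkx_coe]
        rw [hD, sq, Matrix.diagonal_mul_diagonal, Matrix.smul_one_eq_diagonal]
        congr 1
        funext i
        by_cases h : i = i0 <;> simp [h]
      · intro g hg
        refine caseA hlt.le e P _ g hg hns μ ?_
        rw [mkx_coe]
        have h3 : D - μ • (1 : Matrix (Fin n) (Fin n) F) = Matrix.vecMulVec (Pi.single i0 1) (Pi.single i0 (-2 * μ)) := by
          ext i j
          rw [hD, Matrix.sub_apply, Matrix.smul_apply, Matrix.vecMulVec_apply, Matrix.diagonal_apply, Matrix.one_apply]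
          by_cases hij : i = j
          · subst hij
            by_cases h : i = i0
            · subst h; simp; ring
            · simp [h]
          · rw [if_neg hij, if_neg hij]
            by_cases h : i = i0
            · subst h
              simp [Ne.symm hij, Pi.single_apply]
            · simp [h]
        rw [h3]
        exact lt_of_le_of_lt (Matrix.rank_vecMulVec_le _ _) (by omega)
  by_cases hdvd : r ∣ Fintype.card F - 1
  · -- diag(ω, ω⁻¹, 1, ...)
    obtain ⟨t, ht⟩ := hdvd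
    obtain ⟨g0, hg0⟩ := IsCyclic.exists_generator (α := Fˣ)
    have ho : orderOf g0 = Fintype.card F - 1 := by
      rw [orderOf_eq_card_of_forall_mem_zpowers hg0, Nat.card_eq_fintype_card, Fintype.card_units]
    have ht0 : t ≠ 0 := by rintro rfl; omega
    have hprim : IsPrimitiveRoot (g0 ^ t) r := by
      have h1 : IsPrimitiveRoot g0 (Fintype.card F - 1) := by rw [← ho]; exact IsPrimitiveRoot.orderOf g0
      exact h1.pow (by omega) (by rw [ht, mul_comm])
    set ωu := g0 ^ t with hωu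
    have hprim' : IsPrimitiveRoot (ωu : F) r := IsPrimitiveRoot.coe_units_iff.2 hprim
    set ω : F := (ωu : F) with hω
    have hω0 : ω ≠ 0 := Units.ne_zero _
    have hωr : ω ^ r = 1 := hprim'.pow_eq_one
    have hr3 : 3 ≤ r := by have := hr.two_le; omega
    have hω1 : ω ≠ 1 := hprim'.ne_one (by omega)
    have hωω : ω ≠ ω⁻¹ := by
      intro h
      have h1 : ω ^ 2 = 1 := by
        rw [pow_two]; nth_rewrite 2 [h]; exact mul_inv_cancel₀ hω0
      have := Nat.le_of_dvd (by norm_num) (hprim'.dvd_of_pow_eq_one 2 h1)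
      omega
    let eb : (Fin 2 ⊕ Fin (n - 2)) ≃ Fin n := finSumFinEquiv.trans (finCongr (by omega))
    set C : Matrix (Fin 2) (Fin 2) F := Matrix.diagonal ![ω, ω⁻¹] with hC
    set D := H99.Blk.emb eb C with hD
    have hdet : D.det = 1 := by
      rw [hD, H99.Blk.emb_det, hC, Matrix.det_diagonal, Fin.prod_univ_two]
      simp [hω0]
    have hCcp : C.charpoly = (Polynomial.X - Polynomial.C ω) * (Polynomial.X - Polynomial.C ω⁻¹) := by
      rw [hC, Matrix.charpoly_fin_two, Matrix.trace_fin_two, Matrix.det_fin_two]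
      have e1 : (Polynomial.C ω : F[X]) * Polynomial.C ω⁻¹ = 1 := by rw [← Polynomial.C_mul, mul_inv_cancel₀ hω0, Polynomial.C_1]
      simp [hω0]
      linear_combination -e1
    have hDcp : D.charpoly = (Polynomial.X - Polynomial.C ω) * (Polynomial.X - Polynomial.C ω⁻¹) * (Polynomial.X - 1) ^ (n - 2) := by
      rw [hD, H99.Blk.emb_charpoly, hCcp]
    have hns : ∀ z : F, D ≠ z • (1 : Matrix (Fin n) (Fin n) F) := by
      apply H99.Blk.emb_ne_scalar eb (by omega)
      intro h
      have h3 := congrFun (congrFun h 0) 0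
      simp [hC] at h3
      exact hω1 h3
    refine ⟨mkx D hdet, 1, mkx_mem _ _, ?_, hns, ?_⟩
    · rw [Units.val_pow_eq_pow_val, mkx_coe, one_smul, hD, H99.Blk.emb_pow]
      have : C ^ r = 1 := by
        rw [hC, Matrix.diagonal_pow, ← Matrix.diagonal_one]
        congr 1
        funext i
        fin_cases i
        · simp [hωr]
        · simp [hωr]
      rw [this, H99.Blk.emb_one]
    · intro g hg
      refine caseB ha e P _ g hg 1 ?_ (Polynomial.X - Polynomial.C ω) (irreducible_X_sub_C ω) ?_ ?_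
      · rw [mkx_coe, one_smul]
        exact lt_of_le_of_lt (H99.Blk.emb_rank _ _) (by omega)
      · rw [mkx_coe, hDcp, mul_assoc]
        exact dvd_mul_right _ _
      · rw [mkx_coe, hDcp, mul_assoc]
        intro h
        have h1 := (mul_dvd_mul_iff_left (Polynomial.X_sub_C_ne_zero ω)).1 h
        rw [Polynomial.dvd_iff_isRoot, Polynomial.IsRoot.def] at h1
        simp at h1
        rcases h1 with h2 | h2
        · exact hωω (sub_eq_zero.1 h2)
        · exact hω1 (sub_eq_zero.1 h2.1)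
  · -- companion block
    obtain ⟨i, C, G, hi, hi2, hGirr, hGmon, hGdeg, hCcp, hCr, hC1⟩ := H99.Blk.exists_comp_block (F := F) (p := p) hr hrp hdvd
    have hrq : ¬ r ∣ Fintype.card F := by
      rw [hcardF]
      intro h
      exact hrp ((Nat.prime_dvd_prime_iff_eq hr hp).1 (hr.dvd_of_dvd_pow h))
    have hin : i ≤ n := by
      rw [hi]; exact H99.Blk.orderOf_le_of_dvd_card hr hrq n hcardn
    let eb : (Fin i ⊕ Fin (n - i)) ≃ Fin n := finSumFinEquiv.trans (finCongr (by omega))
    set D := H99.Blk.emb eb C with hD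
    have hDr : D ^ r = 1 := by rw [hD, H99.Blk.emb_pow, hCr, H99.Blk.emb_one]
    have hdet : D.det = 1 := H99.Blk.det_eq_one_of_pow hr hdvd D hDr
    have hDcp : D.charpoly = G * (Polynomial.X - 1) ^ (n - i) := by
      rw [hD, H99.Blk.emb_charpoly, hCcp]
    have hGX : ∀ z : F, ¬ G ∣ (Polynomial.X - Polynomial.C z) := by
      intro z h
      have := Polynomial.natDegree_le_of_dvd h (Polynomial.X_sub_C_ne_zero z)
      rw [hGdeg, Polynomial.natDegree_X_sub_C] at this
      omega
    have hns : ∀ z : F, D ≠ z • (1 : Matrix (Fin n) (Fin n) F) := by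
      intro z hz
      have h1 : G ∣ D.charpoly := by rw [hDcp]; exact dvd_mul_right _ _
      rw [hz] at h1
      have h2 : (z • (1 : Matrix (Fin n) (Fin n) F)).charpoly = (Polynomial.X - Polynomial.C z) ^ n := by
        rw [Matrix.smul_one_eq_diagonal, Matrix.charpoly_diagonal]
        simp
      rw [h2] at h1
      exact hGX z (hGirr.prime.dvd_of_dvd_pow h1)
    refine ⟨mkx D hdet, 1, mkx_mem _ _, ?_, hns, ?_⟩
    · rw [Units.val_pow_eq_pow_val, mkx_coe, one_smul, hDr]
    · intro g hg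
      have hd1 : G ∣ ((mkx D hdet : GL (Fin n) F) : Matrix (Fin n) (Fin n) F).charpoly := by
        rw [mkx_coe, hDcp]; exact dvd_mul_right _ _
      have hd2 : ¬ G * G ∣ ((mkx D hdet : GL (Fin n) F) : Matrix (Fin n) (Fin n) F).charpoly := by
        rw [mkx_coe, hDcp]
        intro h
        have h1 := (mul_dvd_mul_iff_left hGirr.ne_zero).1 h
        apply hGX 1
        rw [Polynomial.C_1]
        exact hGirr.prime.dvd_of_dvd_pow h1
      by_cases hib : i < b
      · refine caseB ha e P _ g hg 1 ?_ G hGirr hd1 hd2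
        rw [mkx_coe, one_smul]
        exact lt_of_le_of_lt (H99.Blk.emb_rank _ _) hib
      · refine caseC ha (by omega) e P _ g hg hr hdvd ?_ ?_ G hGirr hd1 hd2
        · intro h
          have := H99.Blk.orderOf_le_of_dvd_card hr hrq a h
          omega
        · apply Units.ext
          rw [Units.val_pow_eq_pow_val, mkx_coe, hDr, Units.val_one]

open Matrix in
def tau2 (k' m' : ℕ) : (Fin (2 * k') ⊕ Fin (2 * m')) ≃ (Fin 2 × (Fin k' ⊕ Fin m')) :=
  (Equiv.sumCongr finProdFinEquiv.symm finProdFinEquiv.symm).trans (Equiv.prodSumDistrib _ _ _).symm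

open Matrix in
theorem tau2_dg {F : Type*} [Field F] (k' m' : ℕ) (μ : F) :
    Matrix.reindex (tau2 k' m') (tau2 k' m') (H99.Diag.dg (2 * k') (2 * m') μ) =
      Matrix.diagonal (fun x : Fin 2 × (Fin k' ⊕ Fin m') => Sum.elim (fun _ => -μ) (fun _ => μ) x.2) := by
  rw [H99.Diag.dg, Matrix.reindex_apply, Matrix.submatrix_diagonal_equiv]
  congr 1
  funext x
  obtain ⟨a, i | i⟩ := x
  · rfl
  · rfl

open Matrix Kronecker in
theorem closeT {F : Type*} [Field F] [Fintype F] {n a b : ℕ} (hn : 2 ≤ n) (e : Fin n ≃ Fin a × Fin b) (P : GL (Fin n) F)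
    (x : GL (Fin n) F) (z : F) (hz : z ≠ 0)
    (hX : (x : Matrix (Fin n) (Fin n) F) * (x : Matrix (Fin n) (Fin n) F) = z • (1 : Matrix (Fin n) (Fin n) F))
    (u : Matrix (Fin a) (Fin a) F) (w : Matrix (Fin b) (Fin b) F) (hu : u.det ≠ 0) (hw : w.det ≠ 0)
    (R : Matrix (Fin n) (Fin n) F) (hR : R.det ≠ 0)
    (h : (x : Matrix (Fin n) (Fin n) F) * R = R * Matrix.reindex e.symm e.symm (u ⊗ₖ w)) :
    ∃ g ∈ Cfsg.Geo.specialLinear (Fin n) F, g⁻¹ * x * g ∈ Cfsg.Geo.tensorProductSubgroup a b e P := by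
  have : Nonempty (Fin n) := ⟨⟨0, by omega⟩⟩
  set Pm := (P : Matrix (Fin n) (Fin n) F) with hPm
  set Pv := ((P⁻¹ : GL (Fin n) F) : Matrix (Fin n) (Fin n) F) with hPv
  have hPP : Pv * Pm = 1 := by rw [hPm, hPv, ← Units.val_mul, inv_mul_cancel, Units.val_one]
  have h1 : (x : Matrix (Fin n) (Fin n) F) * (R * Pv) = (R * Pv) * (Pm * Matrix.reindex e.symm e.symm (u ⊗ₖ w) * Pv) := by
    calc (x : Matrix (Fin n) (Fin n) F) * (R * Pv) = R * Matrix.reindex e.symm e.symm (u ⊗ₖ w) * Pv := by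
          rw [← Matrix.mul_assoc, h]
      _ = R * (Pv * Pm) * Matrix.reindex e.symm e.symm (u ⊗ₖ w) * Pv := by rw [hPP, Matrix.mul_one]
      _ = _ := by simp only [Matrix.mul_assoc]
  obtain ⟨R', hR', hxR'⟩ := H99.SqScalar.exists_det_one_conj _ _ (R * Pv) z hz hX (by
    rw [Matrix.det_mul]; exact mul_ne_zero hR (det_ne P⁻¹)) h1
  refine ⟨mkx R' hR', mkx_mem _ _, ?_⟩
  let k : GL (Fin a × Fin b) F := Matrix.GeneralLinearGroup.mkOfDetNeZero (u ⊗ₖ w) (by
    rw [Matrix.det_kronecker]; exact mul_ne_zero (pow_ne_zero _ hu) (pow_ne_zero _ hw))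
  have hk : k ∈ Cfsg.Geo.kroneckerSubgroup a b F :=
    ⟨Matrix.GeneralLinearGroup.mkOfDetNeZero u hu, Matrix.GeneralLinearGroup.mkOfDetNeZero w hw, rfl⟩
  refine ⟨Cfsg.Geo.glReindex e.symm k, ⟨k, hk, rfl⟩, ?_⟩
  show P * Cfsg.Geo.glReindex e.symm k * P⁻¹ = (mkx R' hR')⁻¹ * x * mkx R' hR'
  have h2 : x * mkx R' hR' = mkx R' hR' * (P * Cfsg.Geo.glReindex e.symm k * P⁻¹) := by
    apply Units.ext
    rw [Units.val_mul, Units.val_mul, Units.val_mul, Units.val_mul, mkx_coe]
    exact hxR'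
  rw [mul_assoc (mkx R' hR')⁻¹, h2, inv_mul_cancel_left]

open Matrix Kronecker in
theorem bwd {F : Type*} [Field F] [Fintype F] (n b : ℕ) (hn : n = 2 * b) (hb : 0 < b) (e : Fin n ≃ Fin 2 × Fin b) (P : GL (Fin n) F)
    (hodd : Odd (Fintype.card F)) (hv : padicValNat 2 (Fintype.card F - 1) ≤ padicValNat 2 n)
    (x : GL (Fin n) F) (hxs : x ∈ Cfsg.Geo.specialLinear (Fin n) F) (z : F)
    (hx : ((x ^ 2 : GL (Fin n) F) : Matrix (Fin n) (Fin n) F) = z • (1 : Matrix (Fin n) (Fin n) F)) :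
    ∃ g ∈ Cfsg.Geo.specialLinear (Fin n) F, g⁻¹ * x * g ∈ Cfsg.Geo.tensorProductSubgroup 2 b e P := by
  classical
  have : Nonempty (Fin n) := ⟨⟨0, by omega⟩⟩
  set X := (x : Matrix (Fin n) (Fin n) F) with hXdef
  have hX : X * X = z • (1 : Matrix (Fin n) (Fin n) F) := by
    rw [← hx, pow_two, Units.val_mul]
  have hdet : X.det = 1 := by
    rw [Cfsg.Geo.specialLinear, MonoidHom.mem_ker] at hxs
    have := congrArg Units.val hxs
    exact this
  have hz : z ≠ 0 := by
    rintro rfl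
    have := congrArg Matrix.det hX
    rw [Matrix.det_mul, zero_smul, Matrix.det_zero, hdet] at this
    norm_num at this
  have h2 : (2 : F) ≠ 0 := H99.PowNegOne.two_ne_zero_of_neg_one_ne_one (H99.PowNegOne.neg_one_ne_one hodd)
  by_cases hsq : IsSquare z
  · obtain ⟨μ, hμ⟩ := hsq
    have hμ0 : μ ≠ 0 := by rintro rfl; apply hz; rw [hμ]; ring
    rw [hμ] at hX
    obtain ⟨k, m, f1, -, -, f4, f5⟩ := H99.Diag.exists_diag_matrix h2 X μ hμ0 hX
    rw [Fintype.card_fin] at f1
    rw [hdet, f1] at f4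
    have hkev : Even k := by
      by_contra hk
      rw [Nat.not_even_iff_odd] at hk
      rw [hk.neg_one_pow] at f4
      exact H99.PowNegOne.pow_ne_neg_one hodd n (by omega) hv μ (by linear_combination f4)
    obtain ⟨k', rfl⟩ := even_iff_two_dvd.1 hkev
    obtain ⟨m', rfl⟩ : ∃ m', m = 2 * m' := ⟨b - k', by omega⟩
    let f : (Fin k' ⊕ Fin m') ≃ Fin b := finSumFinEquiv.trans (finCongr (by omega))
    obtain ⟨R1, hR1, hXR1⟩ := f5 ((tau2 k' m').trans ((Equiv.prodCongr (Equiv.refl _) f).trans e.symm))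
    have e1 : Matrix.reindex ((tau2 k' m').trans ((Equiv.prodCongr (Equiv.refl _) f).trans e.symm))
        ((tau2 k' m').trans ((Equiv.prodCongr (Equiv.refl _) f).trans e.symm)) (H99.Diag.dg (2 * k') (2 * m') μ) =
        Matrix.reindex e.symm e.symm ((1 : Matrix (Fin 2) (Fin 2) F) ⊗ₖ
          (Matrix.diagonal (fun j : Fin b => Sum.elim (fun _ : Fin k' => -μ) (fun _ : Fin m' => μ) (f.symm j)))) := by
      have h3 : Matrix.reindex ((tau2 k' m').trans ((Equiv.prodCongr (Equiv.refl _) f).trans e.symm))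
        ((tau2 k' m').trans ((Equiv.prodCongr (Equiv.refl _) f).trans e.symm)) (H99.Diag.dg (2 * k') (2 * m') μ) =
        Matrix.reindex ((Equiv.prodCongr (Equiv.refl _) f).trans e.symm) ((Equiv.prodCongr (Equiv.refl _) f).trans e.symm)
          (Matrix.reindex (tau2 k' m') (tau2 k' m') (H99.Diag.dg (2 * k') (2 * m') μ)) := rfl
      rw [h3, tau2_dg]
      ext i j
      simp only [Matrix.reindex_apply, Matrix.submatrix_apply, Equiv.symm_trans_apply, Equiv.symm_symm]
      generalize e i = i'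
      generalize e j = j'
      obtain ⟨a, i'⟩ := i'
      obtain ⟨a', j'⟩ := j'
      have e3 : ∀ (a : Fin 2) i', (Equiv.prodCongr (Equiv.refl (Fin 2)) f).symm (a, i') = (a, f.symm i') := fun a i' => rfl
      rw [e3, e3, Matrix.kroneckerMap_apply, Matrix.diagonal_apply, Matrix.diagonal_apply, Matrix.one_apply]
      simp only [Prod.mk.injEq, EmbeddingLike.apply_eq_iff_eq]
      by_cases h4 : a = a' <;> by_cases h5 : i' = j' <;> simp [h4, h5]
    rw [e1] at hXR1
    refine closeT (by omega) e P x z hz (by rw [hμ]; exact hX) 1 _ (by simp) ?_ R1 hR1 hXR1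
    rw [Matrix.det_diagonal, Finset.prod_ne_zero_iff]
    intro j _
    rcases f.symm j with i | i
    · simpa using hμ0
    · simpa using hμ0
  · obtain ⟨s1, m1, μ1, a1, a2, -, -, a5⟩ := H99.SqScalar.exists_std_matrix X z hX
    have hm1 : m1 = 0 := by
      by_contra hm
      exact hsq ⟨μ1, by rw [← pow_two]; exact (a2 (Nat.pos_of_ne_zero hm)).symm⟩
    subst hm1
    rw [Fintype.card_fin, add_zero] at a1
    have hsb : s1 = b := by omega
    subst hsb
    obtain ⟨R1, hR1, hXR1⟩ := a5 ((Equiv.sumEmpty (Fin 2 × Fin s1) (Fin 0)).trans e.symm)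
    have e1 : Matrix.reindex ((Equiv.sumEmpty (Fin 2 × Fin s1) (Fin 0)).trans e.symm) ((Equiv.sumEmpty (Fin 2 × Fin s1) (Fin 0)).trans e.symm)
        (H99.SqScalar.std s1 0 z μ1) = Matrix.reindex e.symm e.symm (!![0, z; 1, 0] ⊗ₖ (1 : Matrix (Fin s1) (Fin s1) F)) := by
      ext i j
      simp only [Matrix.reindex_apply, Matrix.submatrix_apply, Equiv.symm_trans_apply, Equiv.symm_symm]
      generalize e i = i'
      generalize e j = j'
      obtain ⟨a, i'⟩ := i'
      obtain ⟨a', j'⟩ := j'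
      have e3 : ∀ (x : Fin 2 × Fin s1), (Equiv.sumEmpty (Fin 2 × Fin s1) (Fin 0)).symm x = Sum.inl x := fun x => rfl
      rw [e3, e3, H99.SqScalar.std, Matrix.fromBlocks_apply₁₁, Matrix.blockDiagonal_apply, Matrix.kroneckerMap_apply, Matrix.one_apply]
      simp only
      by_cases h4 : i' = j' <;> simp [h4]
    rw [e1] at hXR1
    refine closeT (by omega) e P x z hz hX _ 1 ?_ (by simp) R1 hR1 hXR1
    rw [Matrix.det_fin_two]
    simpa using hz

/-- Elements of prime order of PSL_n(q) and the stabilizers of tensor decompositions with factors of different dimensions. Here `T = PSL_n(F)` for a field `F` with `q` elements and `n = a·b` with `2 ≤ a < b`; a tensor decomposition `F^n ≅ F^a ⊗ F^b` is given by a bijection `e` of index sets and a change of basis `P`, and `H` is the subgroup of matrices of determinant 1 in its stabilizer (the conjugate by `P` of the group of Kronecker products `g₁ ⊗ g₂`) — a subgroup of type GL_a(q) ⊗ GL_b(q) (maximality is not assumed);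 Ω is the set of cosets of `H` in `T`, so an element of `T` of prime order `r` (a matrix `x` of determinant 1 with `x^r` scalar, `x` not scalar) fixes a point of Ω exactly when some conjugate of `x` by a matrix of determinant 1 lies in `H`. Let `r` be a prime dividing the index of `H`. Then every element of `T` of order `r` fixes a point of Ω if and only if `r = 2`, `a = 2`, `q` is odd and `(q − 1)_2 ≤ (n)_2` (2-parts). -/
theorem result {F : Type*} [Field F] [Fintype F] {p : ℕ} [Fact p.Prime] [CharP F p] {q : ℕ} (hq : Fintype.card F = q)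
    (n a b : ℕ) (hab : n = a * b) (ha : 2 ≤ a) (hlt : a < b) (e : Fin n ≃ Fin a × Fin b) (P : GL (Fin n) F)
    (r : ℕ) [Fact r.Prime]
    (hΩ : r ∣ (Cfsg.Geo.tensorProductSubgroup a b e P).relIndex (Cfsg.Geo.specialLinear (Fin n) F)) :
    (∀ x ∈ Cfsg.Geo.specialLinear (Fin n) F, (∃ z : F, ((x ^ r : GL (Fin n) F) : Matrix (Fin n) (Fin n) F) = z • (1 : Matrix (Fin n) (Fin n) F)) →
      (∀ z : F, (x : Matrix (Fin n) (Fin n) F) ≠ z • (1 : Matrix (Fin n) (Fin n) F)) →
      ∃ g ∈ Cfsg.Geo.specialLinear (Fin n) F, g⁻¹ * x * g ∈ Cfsg.Geo.tensorProductSubgroup a b e P) ↔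
    (r = 2 ∧ a = 2 ∧ Odd q ∧ padicValNat 2 (q - 1) ≤ padicValNat 2 n) := by
  subst hq
  have hr : r.Prime := Fact.out
  constructor
  · intro H
    by_contra hcon
    have hcardn : r ∣ Nat.card (GL (Fin n) F) :=
      hΩ.trans ((Subgroup.relIndex_dvd_card _ _).trans (Subgroup.card_subgroup_dvd_card _))
    obtain ⟨x, z, h1, h2, h3, h4⟩ := fwd (p := p) n a b hab ha hlt e P r hr hcardn hcon
    obtain ⟨g, _, hg⟩ := H x h1 ⟨z, h2⟩ h3
    exact h4 g hg
  · rintro ⟨rfl, rfl, hodd, hv⟩ x hx ⟨z, hz⟩ _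
    exact bwd n b hab (by omega) e P hodd hv x hx z hz

end Cfsg.Agent.S5979
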