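import Cfsg.Statements.S5980
import Cfsg.Agent.Lib.H99.Tens2

set_option autoImplicit false
set_option linter.unusedSimpArgs false
open scoped MatrixGroups
open Cfsg

namespace Cfsg.Agent.S5980


universe u

open Matrix Module H99.RElt H99.Tens in
theorem trans_case {F : Type u} [Field F] [Fintype F] {p : ℕ} [Fact p.Prime] [CharP F p] {d a b : ℕ} (hd : 2 ≤ d) (ha2 : 2 ≤ a) (hb : 3 ≤ b)
    (e : (Fin d ⊕ Fin d) ≃ Fin a × Fin b) (P : GL (Fin d ⊕ Fin d) F) :
    ∃ x ∈ Cfsg.spGL d F, x ^ p = 1 ∧ (∀ z : F, (x : Matrix (Fin d ⊕ Fin d) (Fin d ⊕ Fin d) F) ≠ z • (1 : Matrix (Fin d ⊕ Fin d) (Fin d ⊕ Fin d) F)) ∧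
      ∀ g ∈ Cfsg.spGL d F, g⁻¹ * x * g ∉ Cfsg.Geo.tensorProductSubgroup a b e P := by
  obtain ⟨a', x0, T, ha, hx0, hT, hTB⟩ := H99.SpInv.exists_transvection (F := F) (d := d) (by omega)
  obtain ⟨x, hx, hxv⟩ := H99.SpInv.exists_gl T hTB
  have hTa : T a' = a' := by
    rw [hT]
    have : sympB d F a' a' = 0 := sympB_alt d a'
    rw [this, zero_smul, add_zero]
  have hrkx : finrank F (LinearMap.range (Matrix.toLin' (x : Matrix (Fin d ⊕ Fin d) (Fin d ⊕ Fin d) F) - 1)) ≤ 1 := by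
    have : LinearMap.range (Matrix.toLin' (x : Matrix (Fin d ⊕ Fin d) (Fin d ⊕ Fin d) F) - 1) ≤ Submodule.span F {a'} := by
      rintro _ ⟨v, rfl⟩
      have h1 : (Matrix.toLin' (x : Matrix (Fin d ⊕ Fin d) (Fin d ⊕ Fin d) F) - 1) v = sympB d F v a' • a' := by
        show (x : Matrix (Fin d ⊕ Fin d) (Fin d ⊕ Fin d) F) *ᵥ v - v = _
        rw [hxv, hT, add_sub_cancel_left]
      rw [h1]
      exact Submodule.smul_mem _ _ (Submodule.mem_span_singleton_self a')
    exact (Submodule.finrank_mono this).trans (finrank_span_singleton ha).le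
  have hx1 : x ≠ 1 := by
    rintro rfl
    have h3 := hxv x0
    rw [hx0, Units.val_one, Matrix.one_mulVec] at h3
    exact ha (left_eq_add.1 h3)
  refine ⟨x, hx, ?_, ?_, ?_⟩
  · apply Units.ext
    apply H99.Skew.matrix_ext
    intro v
    rw [Units.val_pow_eq_pow_val, Units.val_one, Matrix.one_mulVec]
    have hk : ∀ k : ℕ, (x : Matrix (Fin d ⊕ Fin d) (Fin d ⊕ Fin d) F) ^ k *ᵥ v = v + (k : F) • (sympB d F v a' • a') := by
      intro k
      induction k with
      | zero => simp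
      | succ k ih =>
        rw [pow_succ', ← Matrix.mulVec_mulVec, ih, hxv, map_add, map_smul, map_smul, hTa, hT]
        push_cast
        module
    rw [hk, CharP.cast_eq_zero, zero_smul, add_zero]
  · intro z hz
    have h1 : a' = z • a' := by
      have := hxv a'
      rw [hTa, hz, Matrix.smul_mulVec, Matrix.one_mulVec] at this
      exact this.symm
    have hz1 : z = 1 := by
      have h3 : (1 - z) • a' = 0 := by rw [sub_smul, one_smul, ← h1, sub_self]
      rcases smul_eq_zero.1 h3 with h | h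
      · exact (sub_eq_zero.1 h).symm
      · exact absurd h ha
    have h2 := hxv x0
    rw [hz, hz1, one_smul, Matrix.one_mulVec, hx0] at h2
    exact ha (left_eq_add.1 h2)
  · intro g hg hN
    have hy1 : g⁻¹ * x * g ≠ 1 := by
      intro h
      apply hx1
      have : x = g * (g⁻¹ * x * g) * g⁻¹ := by group
      rw [this, h]; group
    have hrk := (H99.Skew.rank_conj_le x g).trans hrkx
    have := small e P hN hy1 ha2 hb (by omega)
    omega

open Matrix Module H99.RElt H99.Tens in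
theorem plane_case {F : Type u} [Field F] [Fintype F] (h2 : (2 : F) ≠ 0) {d a b : ℕ} (hd : 2 ≤ d) (ha2 : 2 ≤ a) (hane : a ≠ 2) (hb : 3 ≤ b)
    (e : (Fin d ⊕ Fin d) ≃ Fin a × Fin b) (P : GL (Fin d ⊕ Fin d) F) :
    ∃ x ∈ Cfsg.spGL d F, x ^ 2 = 1 ∧ (∀ z : F, (x : Matrix (Fin d ⊕ Fin d) (Fin d ⊕ Fin d) F) ≠ z • (1 : Matrix (Fin d ⊕ Fin d) (Fin d ⊕ Fin d) F)) ∧
      ∀ g ∈ Cfsg.spGL d F, g⁻¹ * x * g ∉ Cfsg.Geo.tensorProductSubgroup a b e P := by
  obtain ⟨x, hx, hx2, hxs, hrk, hx1⟩ := H99.Tens.exists_plane_inv h2 hd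
  refine ⟨x, hx, hx2, hxs, ?_⟩
  intro g hg hN
  have hy1 : g⁻¹ * x * g ≠ 1 := by
    intro h
    apply hx1
    have : x = g * (g⁻¹ * x * g) * g⁻¹ := by group
    rw [this, h]; group
  have := small e P hN hy1 ha2 hb ((H99.Skew.rank_conj_le x g).trans hrk)
  omega

open Matrix Module H99.RElt H99.Tens in
theorem odd_case {F : Type u} [Field F] [Fintype F] (h2 : (2 : F) ≠ 0) {a b d : ℕ} (hd : 0 < d) (e : (Fin d ⊕ Fin d) ≃ Fin a × Fin b)
    (P : GL (Fin d ⊕ Fin d) F) (ha : Even a) (ha2 : 2 ≤ a) (hb : 3 ≤ b)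
    {r : ℕ} (hr : r.Prime) (hr2 : r ≠ 2) (hrq : ¬ r ∣ Fintype.card F)
    {i j : ℕ} (hi : i = orderOf ((Fintype.card F : ℕ) : ZMod r)) (hi0 : 0 < i) (hj0 : 1 ≤ j) (hjd : j ≤ d)
    (hrd : r ∣ Fintype.card F ^ (2 * j) - 1) (hj : 2 * j = if Even i then i else 2 * i)
    {f₁ : (Fin a → F) → (Fin a → F) → F} {B₂ : LinearMap.BilinForm F (Fin b → F)} {κ : F} (hκ : κ ≠ 0)
    (hform : ∀ u u' w w', sympB d F (tau e P u w) (tau e P u' w') = κ * f₁ u u' * B₂ w w')
    (hf₁ : ∃ u u', f₁ u u' ≠ 0) (hRef : B₂.IsRefl) (hN : ∀ u, (∀ v, B₂ u v = 0) → u = 0) :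
    ∃ x ∈ Cfsg.spGL d F, x ^ r = 1 ∧ (∀ z : F, (x : Matrix (Fin d ⊕ Fin d) (Fin d ⊕ Fin d) F) ≠ z • (1 : Matrix (Fin d ⊕ Fin d) (Fin d ⊕ Fin d) F)) ∧
      ∀ g ∈ Cfsg.spGL d F, g⁻¹ * x * g ∉ Cfsg.Geo.tensorProductSubgroup a b e P := by
  have : Fact r.Prime := ⟨hr⟩
  obtain ⟨A, hAr, hA1, hArk⟩ := exists_sp (F := F) hr hj0 hjd hrd
  obtain ⟨x, hx, hxA⟩ := H99.Skew.exists_spGL A
  have hxr : x ^ r = 1 := by
    apply Units.ext
    rw [Units.val_pow_eq_pow_val, hxA]
    exact congrArg Subtype.val hAr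
  have hx1 : x ≠ 1 := by
    rintro rfl
    apply hA1
    apply Subtype.ext
    rw [← hxA]; rfl
  refine ⟨x, hx, hxr, H99.Skew.not_scalar hd (hr.odd_of_ne_two hr2) x hx hxr hx1, ?_⟩
  intro g hg hN'
  have hyr : (g⁻¹ * x * g) ^ r = 1 := by
    have : (g⁻¹ * x * g) ^ r = g⁻¹ * x ^ r * g := by
      have := conj_pow (i := r) (a := g⁻¹) (b := x)
      rw [inv_inv] at this
      exact this
    rw [this, hxr]; group
  have hy1 : g⁻¹ * x * g ≠ 1 := by
    intro h
    apply hx1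
    have : x = g * (g⁻¹ * x * g) * g⁻¹ := by group
    rw [this, h]; group
  have hyS : g⁻¹ * x * g ∈ Cfsg.spGL d F := Subgroup.mul_mem _ (Subgroup.mul_mem _ (Subgroup.inv_mem _ hg) hx) hg
  have hrk := H99.Skew.rank_conj_le x g
  rw [hxA] at hrk
  exact odd_core h2 e P hN' hyS hy1 ha ha2 hb hr hr2 hrq hyr hi hi0 (by rw [← hj]; exact hrk.trans hArk) hκ hform hf₁ hRef hN

/-- Elements of prime order of PSp_n(q), q odd, and the stabilizers of tensor decompositions Sp_a(q) ⊗ O_b(q). Here `T = PSp_{2d}(F)` for a field `F` with `q` elements, `q` odd, `d ≥ 2`, realised through the matrices preserving the standard alternating form `f`; `2d = a·b` with `a` even, `b ≥ 3`, and the bijection `e` and change of basis `P` exhibit `f` as a non-zero scalar multiple of the tensor product of a non-degenerate alternating form `f₁` on `F^a` and a non-degenerate symmetric bilinear form `f₂` on `F^b`; `H` is the subgroup of `T` stabilizing this tensor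 decomposition (the elements of `T` in the conjugate by `P` of the group of Kronecker products) — a subgroup of type Sp_a(q) ⊗ O^ε_b(q) (maximality is not assumed). Ω is the set of cosets of `H` in `T`, so an element of `T` of prime order `r` (`x ∈ T` with `x^r` scalar, `x` not scalar) fixes a point of Ω exactly when some `T`-conjugate of `x` lies in `H`. Let `r` be a prime dividing the index of `H`. Then every element of `T` of order `r` fixes a point of Ω if and only if `r = 2` and `a = 2`. -/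
theorem result {F : Type*} [Field F] [Fintype F] {p : ℕ} [Fact p.Prime] [CharP F p] {q : ℕ} (hq : Fintype.card F = q)
    (hodd : Odd q) (d : ℕ) (hd : 2 ≤ d) (a b : ℕ) (hab : 2 * d = a * b) (ha : Even a) (ha2 : 2 ≤ a) (hb : 3 ≤ b)
    (e : (Fin d ⊕ Fin d) ≃ Fin a × Fin b) (P : GL (Fin d ⊕ Fin d) F)
    (f₁ : (Fin a → F) → (Fin a → F) → F) (f₂ : (Fin b → F) → (Fin b → F) → F)
    (hf₁ : Cfsg.Geo.IsSymplecticForm f₁) (hf₂ : Cfsg.Geo.IsSymmetricForm f₂)
    (hS : Cfsg.Geo.IsTensorFormStructure id (Cfsg.sympForm d F) f₁ f₂ e P)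
    (r : ℕ) [Fact r.Prime]
    (hΩ : r ∣ (Cfsg.Geo.tensorProductSubgroup a b e P).relIndex (Cfsg.spGL d F)) :
    (∀ x ∈ Cfsg.spGL d F, (∃ z : F, ((x ^ r : GL (Fin d ⊕ Fin d) F) : Matrix (Fin d ⊕ Fin d) (Fin d ⊕ Fin d) F) = z • (1 : Matrix (Fin d ⊕ Fin d) (Fin d ⊕ Fin d) F)) →
      (∀ z : F, (x : Matrix (Fin d ⊕ Fin d) (Fin d ⊕ Fin d) F) ≠ z • (1 : Matrix (Fin d ⊕ Fin d) (Fin d ⊕ Fin d) F)) →
      ∃ g ∈ Cfsg.spGL d F, g⁻¹ * x * g ∈ Cfsg.Geo.tensorProductSubgroup a b e P) ↔ (r = 2 ∧ a = 2) := by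
  subst hq
  have hr : r.Prime := Fact.out
  have hp : p.Prime := Fact.out
  obtain ⟨f, hpf, hcardF⟩ := FiniteField.card F p
  have hp2 : p ≠ 2 := by
    rintro rfl
    rw [hcardF] at hodd
    exact (Nat.not_even_iff_odd.2 hodd) (Nat.even_pow.2 ⟨even_two, f.ne_zero⟩)
  have h2 : (2 : F) ≠ 0 := by
    intro h
    have h' : ((2 : ℕ) : F) = 0 := by exact_mod_cast h
    rw [CharP.cast_eq_zero_iff F p] at h'
    exact hp2 ((Nat.prime_dvd_prime_iff_eq hp Nat.prime_two).1 h')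
  have hd0 : 0 < d := by omega
  have hq1 : 1 < Fintype.card F := Fintype.one_lt_card
  obtain ⟨κ, hκ, hκf⟩ := hS
  let B₂ : LinearMap.BilinForm F (Fin b → F) := LinearMap.mk₂ F f₂ hf₂.bilinear.add_left hf₂.bilinear.smul_left hf₂.bilinear.add_right hf₂.bilinear.smul_right
  have hB₂ : ∀ u v, B₂ u v = f₂ u v := fun u v => rfl
  have hform : ∀ u u' w w', H99.RElt.sympB d F (H99.Tens.tau e P u w) (H99.Tens.tau e P u' w') = κ * f₁ u u' * B₂ w w' := by
    intro u u' w w'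
    have := hκf (fun p => u p.1 * w p.2) (fun p => u' p.1 * w' p.2)
    rw [H99.Tens.formOfGram_pure hf₁.bilinear hf₂.bilinear] at this
    rw [hB₂, mul_assoc]
    exact this
  have hSy : ∀ u v, B₂ u v = B₂ v u := fun u v => hf₂.symm u v
  have hRef : B₂.IsRefl := fun u v h => by rw [hSy]; exact h
  have hN : ∀ u, (∀ v, B₂ u v = 0) → u = 0 := by
    intro u hu
    by_contra hu0
    obtain ⟨-, v, hv⟩ := hf₂.nondegenerate u hu0
    exact hv (hu v)
  have hf1 : ∃ u u', f₁ u u' ≠ 0 := by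
    have : Nonempty (Fin a) := ⟨⟨0, by omega⟩⟩
    obtain ⟨u, hu⟩ := exists_ne (0 : Fin a → F)
    obtain ⟨-, v, hv⟩ := hf₁.nondegenerate u hu
    exact ⟨u, v, hv⟩
  constructor
  · intro H
    by_cases hrp : r = p
    · exfalso
      subst hrp
      obtain ⟨x, hx, hxp, hxs, hxg⟩ := trans_case (p := r) hd ha2 hb e P
      obtain ⟨g, hg, hN⟩ := H x hx ⟨1, by rw [hxp, one_smul]; rfl⟩ hxs
      exact hxg g hg hN
    · have hrq : ¬ r ∣ Fintype.card F := by
        intro h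
        rw [hcardF] at h
        exact hrp ((Nat.prime_dvd_prime_iff_eq hr hp).1 (hr.dvd_of_dvd_pow h))
      by_cases hr2 : r = 2
      · refine ⟨hr2, ?_⟩
        subst hr2
        by_contra hane
        obtain ⟨x, hx, hxp, hxs, hxg⟩ := plane_case h2 hd ha2 hane hb e P
        obtain ⟨g, hg, hN⟩ := H x hx ⟨1, by rw [hxp, one_smul]; rfl⟩ hxs
        exact hxg g hg hN
      · exfalso
        obtain ⟨i, hi⟩ : ∃ i, i = orderOf ((Fintype.card F : ℕ) : ZMod r) := ⟨_, rfl⟩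
        have hi0 : 0 < i := by
          rw [hi, orderOf_pos_iff]
          rw [isOfFinOrder_iff_pow_eq_one]
          refine ⟨r - 1, by have := hr.two_le; omega, ?_⟩
          exact ZMod.pow_card_sub_one_eq_one (by rw [Ne, ZMod.natCast_eq_zero_iff]; exact hrq)
        have hone : ∀ m : ℕ, r ∣ Fintype.card F ^ m - 1 ↔ i ∣ m := by
          intro m
          have h1 : 1 ≤ Fintype.card F ^ m := Nat.one_le_pow _ _ (by omega)
          rw [hi, orderOf_dvd_iff_pow_eq_one, ← Nat.cast_pow, ← ZMod.natCast_eq_zero_iff, Nat.cast_sub h1, Nat.cast_one, sub_eq_zero]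
        have hdvd : r ∣ Nat.card (Cfsg.spGL d F) := hΩ.trans (Subgroup.relIndex_dvd_card _ _)
        rw [H99.Skew.card_sp] at hdvd
        obtain ⟨j, hj1, hjd, hj⟩ : ∃ j, 1 ≤ j ∧ j ≤ d ∧ r ∣ Fintype.card F ^ (2 * j) - 1 := by
          rcases hr.dvd_mul.1 hdvd with h4 | h4
          · exact absurd (hr.dvd_of_dvd_pow h4) hrq
          · obtain ⟨j, hj, hj2⟩ := (hr.prime.dvd_finsetProd_iff _).1 h4
            exact ⟨j + 1, by omega, by have := Finset.mem_range.1 hj; omega, hj2⟩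
        rw [hone] at hj
        have key : ∃ j', 1 ≤ j' ∧ j' ≤ d ∧ r ∣ Fintype.card F ^ (2 * j') - 1 ∧ 2 * j' = if Even i then i else 2 * i := by
          rcases Nat.even_or_odd i with hie | hio
          · rw [if_pos hie]
            obtain ⟨b', hb'⟩ := hie
            have hb2 : i = 2 * b' := by omega
            have hbj : b' ∣ j := by
              rw [hb2] at hj
              exact Nat.dvd_of_mul_dvd_mul_left (by norm_num) hj
            have hble := Nat.le_of_dvd (by omega) hbj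
            exact ⟨b', by omega, by omega, (hone _).2 (by rw [hb2]), hb2.symm⟩
          · rw [if_neg (Nat.not_even_iff_odd.2 hio)]
            have hij : i ∣ j := (Nat.Coprime.dvd_of_dvd_mul_left ((Nat.coprime_two_left).2 hio).symm hj)
            have hile := Nat.le_of_dvd (by omega) hij
            exact ⟨i, hi0, by omega, (hone _).2 (dvd_mul_left i 2), rfl⟩
        obtain ⟨j', hj1', hj2', hj3', hj4'⟩ := key
        obtain ⟨x, hx, hxp, hxs, hxg⟩ := odd_case h2 hd0 e P ha ha2 hb hr hr2 hrq hi hi0 hj1' hj2' hj3' hj4' hκ hform hf1 hRef hN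
        obtain ⟨g, hg, hN⟩ := H x hx ⟨1, by rw [hxp, one_smul]; rfl⟩ hxs
        exact hxg g hg hN
  · rintro ⟨rfl, rfl⟩
    obtain rfl : d = b := by omega
    intro x hx ⟨z, hz⟩ hxs
    have hne : Nonempty (Fin d ⊕ Fin d) := ⟨.inl ⟨0, hd0⟩⟩
    have hz2 : ∀ v, (x : Matrix (Fin d ⊕ Fin d) (Fin d ⊕ Fin d) F).mulVec ((x : Matrix (Fin d ⊕ Fin d) (Fin d ⊕ Fin d) F).mulVec v) = z • v := by
      intro v
      rw [Matrix.mulVec_mulVec, ← pow_two, ← Units.val_pow_eq_pow_val, hz, Matrix.smul_mulVec, Matrix.one_mulVec]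
    have hzz : z * z = 1 := by
      obtain ⟨a, ha⟩ := exists_ne (0 : Fin d ⊕ Fin d → F)
      obtain ⟨w, hw⟩ : ∃ w, H99.RElt.sympB d F a w ≠ 0 := by
        by_contra h
        push Not at h
        exact ha (H99.RElt.sympB_nd d _ h)
      have h1 := (H99.SpInv.gl_isom hx (Matrix.toLin' (x : Matrix (Fin d ⊕ Fin d) (Fin d ⊕ Fin d) F) a) (Matrix.toLin' (x : Matrix (Fin d ⊕ Fin d) (Fin d ⊕ Fin d) F) w)).trans (H99.SpInv.gl_isom hx a w)
      have hv : ∀ v, Matrix.toLin' (x : Matrix (Fin d ⊕ Fin d) (Fin d ⊕ Fin d) F) (Matrix.toLin' (x : Matrix (Fin d ⊕ Fin d) (Fin d ⊕ Fin d) F) v) = z • v := hz2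
      rw [hv, hv, map_smul, map_smul, LinearMap.smul_apply, smul_eq_mul, smul_eq_mul] at h1
      apply mul_right_cancel₀ hw
      linear_combination h1
    rcases mul_self_eq_one_iff.1 hzz with h | h
    · exact H99.Tens.two_pos h2 hd0 e P hκ hform hf₁ hSy hN x hx (fun v => by rw [hz2, h, one_smul])
    · exact H99.Tens.two_neg h2 hd0 e P hκ hform hf₁ hSy hN x hx (fun v => by rw [hz2, h, neg_smul, one_smul])

end Cfsg.Agent.S5980
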