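import Cfsg.Statements.S5981
import Cfsg.Agent.Lib.H99.Eig
import Cfsg.Agent.Lib.H99.QuadSq
import Cfsg.Agent.Lib.H99.Subfield
import Cfsg.Agent.Lib.H99.PowNegOne

set_option autoImplicit false
set_option linter.unusedSimpArgs false
open scoped MatrixGroups
open Cfsg

namespace Cfsg.Agent.S5981


open Matrix in
/-- the elusive property gives, for a matrix of order `r` modulo scalars, a conjugate form for which it is a similarity -/
theorem get {F : Type*} [Field F] {n : ℕ} {Q : (Fin n → F) → F} {r : ℕ}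
    (H : ∀ x ∈ Cfsg.Geo.specialLinear (Fin n) F, (∃ z : F, ((x ^ r : GL (Fin n) F) : Matrix (Fin n) (Fin n) F) = z • (1 : Matrix (Fin n) (Fin n) F)) →
      (∀ z : F, (x : Matrix (Fin n) (Fin n) F) ≠ z • (1 : Matrix (Fin n) (Fin n) F)) →
      ∃ g ∈ Cfsg.Geo.specialLinear (Fin n) F, g⁻¹ * x * g ∈ Cfsg.Geo.quadSimilarityGroup Q)
    (X : Matrix (Fin n) (Fin n) F) (hdet : X.det = 1) (z : F) (hz : X ^ r = z • (1 : Matrix (Fin n) (Fin n) F))
    (hns : ∀ z : F, X ≠ z • (1 : Matrix (Fin n) (Fin n) F)) :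
    ∃ P P' : Matrix (Fin n) (Fin n) F, P * P' = 1 ∧ P' * P = 1 ∧ ∃ c : F, ∀ v, Q (P' *ᵥ (X *ᵥ v)) = c * Q (P' *ᵥ v) := by
  let x : GL (Fin n) F := Matrix.GeneralLinearGroup.mkOfDetNeZero X (by rw [hdet]; exact one_ne_zero)
  have hx : (x : Matrix (Fin n) (Fin n) F) = X := rfl
  obtain ⟨g, -, c, hc⟩ := H x (by
    show x ∈ (Matrix.GeneralLinearGroup.det : GL (Fin n) F →* Fˣ).ker
    rw [MonoidHom.mem_ker]
    exact Units.ext hdet) ⟨z, by rw [Units.val_pow_eq_pow_val]; exact hz⟩ hns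
  refine ⟨(g : Matrix (Fin n) (Fin n) F), ((g⁻¹ : GL (Fin n) F) : Matrix (Fin n) (Fin n) F),
    by rw [← Units.val_mul, mul_inv_cancel, Units.val_one], by rw [← Units.val_mul, inv_mul_cancel, Units.val_one], c, fun v => ?_⟩
  have h1 := hc (((g⁻¹ : GL (Fin n) F) : Matrix (Fin n) (Fin n) F) *ᵥ v)
  rw [← h1]
  congr 1
  rw [Matrix.mulVec_mulVec, Matrix.mulVec_mulVec, Units.val_mul, Units.val_mul, hx, Matrix.mul_assoc, Matrix.mul_assoc, ← Units.val_mul,
    mul_inv_cancel, Units.val_one, Matrix.mul_one]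

open Matrix in
theorem nsym_false {F : Type*} [Field F] {n : ℕ} {Q : (Fin n → F) → F} (hQ : Cfsg.Geo.IsNondegenerateQuadraticForm Q) {r : ℕ}
    (H : ∀ x ∈ Cfsg.Geo.specialLinear (Fin n) F, (∃ z : F, ((x ^ r : GL (Fin n) F) : Matrix (Fin n) (Fin n) F) = z • (1 : Matrix (Fin n) (Fin n) F)) →
      (∀ z : F, (x : Matrix (Fin n) (Fin n) F) ≠ z • (1 : Matrix (Fin n) (Fin n) F)) →
      ∃ g ∈ Cfsg.Geo.specialLinear (Fin n) F, g⁻¹ * x * g ∈ Cfsg.Geo.quadSimilarityGroup Q)
    (X : Matrix (Fin n) (Fin n) F) (hdet : X.det = 1) (z : F) (hz : X ^ r = z • (1 : Matrix (Fin n) (Fin n) F))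
    (hns : ∀ z : F, X ≠ z • (1 : Matrix (Fin n) (Fin n) F)) (hno : H99.NoForm.NSym X) : False := by
  obtain ⟨P, P', h1, h2, c, hc⟩ := get H X hdet z hz hns
  refine hno (fun u v => QuadraticMap.polar Q (P' *ᵥ u) (P' *ᵥ v)) c ((H99.Quad.ses_polar hQ).transport P' P h1 h2)
    (fun u v => QuadraticMap.polar_comm _ _ _) (fun u v => ?_)
  simp only [QuadraticMap.polar]
  rw [← Matrix.mulVec_add, ← Matrix.mulVec_add, ← Matrix.mulVec_add, hc, hc, hc]
  ring

open Matrix H48.QuadStd in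
theorem rep_false {F : Type*} [Field F] [Fintype F] {p : ℕ} [Fact p.Prime] [CharP F p] {n : ℕ} {Q : (Fin n → F) → F}
    (hQ : Cfsg.Geo.IsNondegenerateQuadraticForm Q) {r : ℕ} [Fact r.Prime] (hr2 : r ≠ 2) (hrp : r ≠ p) (hdvd : ¬ r ∣ Fintype.card F - 1)
    (H : ∀ x ∈ Cfsg.Geo.specialLinear (Fin n) F, (∃ z : F, ((x ^ r : GL (Fin n) F) : Matrix (Fin n) (Fin n) F) = z • (1 : Matrix (Fin n) (Fin n) F)) →
      (∀ z : F, (x : Matrix (Fin n) (Fin n) F) ≠ z • (1 : Matrix (Fin n) (Fin n) F)) →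
      ∃ g ∈ Cfsg.Geo.specialLinear (Fin n) F, g⁻¹ * x * g ∈ Cfsg.Geo.quadSimilarityGroup Q)
    (hrq : ¬ r ∣ Fintype.card F)
    {i : ℕ} (hi2 : 2 ≤ i) (hi : i = orderOf ((Fintype.card F : ℕ) : ZMod r)) (C : Matrix (Fin i) (Fin i) F)
    (hC : ∀ t : F, (C - t • (1 : Matrix (Fin i) (Fin i) F)).det ≠ 0) (hCr : C ^ r = 1) {m : ℕ} (hm : n = 2 * (m + 1))
    (hcase : (((H99.Quad.toQF hQ).Equivalent (qPlus (m + 1) F) ∧ ((Fintype.card F : ℕ) : ZMod r) ^ (m + 1) = -1) ∨
      (∃ z : F, (∀ t : F, t ^ 2 + t + z ≠ 0) ∧ (H99.Quad.toQF hQ).Equivalent (qMinus m F 1 z) ∧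
        ((Fintype.card F : ℕ) : ZMod r) ^ (m + 1) = 1))) : False := by
  have hr : r.Prime := Fact.out
  have hsq : ((Fintype.card F : ℕ) : ZMod r) ^ n = 1 := by
    rw [hm, mul_comm, pow_mul]
    rcases hcase with ⟨-, h⟩ | ⟨z, -, -, h⟩
    · rw [h]; norm_num
    · rw [h, one_pow]
  obtain ⟨t, ht⟩ : i ∣ n := by rw [hi]; exact orderOf_dvd_of_pow_eq_one hsq
  let e : (Fin i × Fin t) ≃ Fin n := finProdFinEquiv.trans (finCongr ht.symm)
  set X := H99.Quad.rep e C with hX
  have hXr : X ^ r = 1 := H99.Quad.rep_pow e C hCr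
  have hdet : X.det = 1 := H99.Blk.det_eq_one_of_pow hr hdvd X hXr
  have hsub : ∀ z : F, (X - z • (1 : Matrix (Fin n) (Fin n) F)).det ≠ 0 := fun z => H99.Quad.rep_sub e C z (hC z)
  have hns : ∀ z : F, X ≠ z • (1 : Matrix (Fin n) (Fin n) F) := by
    intro z h
    apply hsub z
    rw [h, sub_self]
    have : Nonempty (Fin n) := ⟨⟨0, by omega⟩⟩
    exact Matrix.det_zero
  obtain ⟨P, P', h1, h2, c, hc⟩ := get H X hdet 1 (by rw [one_smul]; exact hXr) hns
  let Q' : QuadraticForm F (Fin n → F) := (H99.Quad.toQF hQ).comp (Matrix.toLin' P')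
  have hQ' : ∀ v, Q' v = Q (P' *ᵥ v) := fun v => rfl
  have hequiv : Q'.Equivalent (H99.Quad.toQF hQ) := by
    let E : (Fin n → F) ≃ₗ[F] (Fin n → F) := LinearEquiv.ofLinear (Matrix.toLin' P') (Matrix.toLin' P)
      (by rw [← Matrix.toLin'_mul, h2, Matrix.toLin'_one]) (by rw [← Matrix.toLin'_mul, h1, Matrix.toLin'_one])
    exact ⟨⟨E, fun v => rfl⟩⟩
  have hcnt := H99.Quad.cnt_modEq X hXr (by
    intro v hv
    have hu : IsUnit (X - 1) := by
      rw [Matrix.isUnit_iff_isUnit_det]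
      have := hsub 1
      rw [one_smul] at this
      exact isUnit_iff_ne_zero.2 this
    obtain ⟨D, hD⟩ := hu.exists_left_inv
    have h3 : (X - 1) *ᵥ v = 0 := by rw [Matrix.sub_mulVec, hv, Matrix.one_mulVec, sub_self]
    have h4 : D *ᵥ ((X - 1) *ᵥ v) = v := by rw [Matrix.mulVec_mulVec, hD, Matrix.one_mulVec]
    rw [← h4, h3, Matrix.mulVec_zero]) Q' (c := c) (fun v => by rw [hQ', hQ', hc])
  have hq0 : ((Fintype.card F : ℕ) : ZMod r) ≠ 0 := by
    intro h
    exact hrq ((ZMod.natCast_eq_zero_iff _ _).1 h)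
  have hq1 : ((Fintype.card F : ℕ) : ZMod r) ≠ 1 := by
    intro h
    rw [h, orderOf_one] at hi
    omega
  refine H99.Quad.neq_one_of_mod hr2 (m := m) hq0 hq1 _ hcnt ?_
  rcases hcase with ⟨h, hpow⟩ | ⟨z, hz, h, hpow⟩
  · left
    refine ⟨?_, hpow⟩
    have := H7.HypStd.cnt_plus (F := F) m
    rw [← H7.HypStd.cnt_congr (hequiv.trans h), Nat.card_eq_fintype_card] at this
    exact this
  · right
    refine ⟨?_, hpow⟩
    have hani : ∀ z₁ z₂ : F, z₁ ^ 2 + 1 * z₁ * z₂ + z * z₂ ^ 2 = 0 → z₁ = 0 ∧ z₂ = 0 := by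
      intro z1 z2 h12
      by_cases h2 : z2 = 0
      · subst h2
        refine ⟨?_, rfl⟩
        have : z1 ^ 2 = 0 := by linear_combination h12
        exact pow_eq_zero_iff (two_ne_zero) |>.1 this
      · exfalso
        apply hz (z1 / z2)
        field_simp
        linear_combination h12
    have := H7.HypStd.cnt_minus (F := F) m hani
    rw [← H7.HypStd.cnt_congr (hequiv.trans h), Nat.card_eq_fintype_card] at this
    exact this

open Matrix in
theorem back {F : Type*} [Field F] {n : ℕ} {Q : (Fin n → F) → F}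
    (x : GL (Fin n) F) (R Y : Matrix (Fin n) (Fin n) F) (hR : R.det = 1) (hRY : (x : Matrix (Fin n) (Fin n) F) * R = R * Y)
    (c : F) (hc : c ≠ 0) (hY : ∀ v, Q (Y *ᵥ v) = c * Q v) :
    ∃ g ∈ Cfsg.Geo.specialLinear (Fin n) F, g⁻¹ * x * g ∈ Cfsg.Geo.quadSimilarityGroup Q := by
  let g : GL (Fin n) F := Matrix.GeneralLinearGroup.mkOfDetNeZero R (by rw [hR]; exact one_ne_zero)
  have hg : (g : Matrix (Fin n) (Fin n) F) = R := rfl
  refine ⟨g, ?_, Units.mk0 c hc, fun v => ?_⟩
  · show g ∈ (Matrix.GeneralLinearGroup.det : GL (Fin n) F →* Fˣ).ker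
    rw [MonoidHom.mem_ker]
    exact Units.ext hR
  · have e : ((g⁻¹ * x * g : GL (Fin n) F) : Matrix (Fin n) (Fin n) F) = Y := by
      rw [mul_assoc, Units.val_mul, Units.val_mul, hg, hRY, ← hg, ← Matrix.mul_assoc, ← Units.val_mul, inv_mul_cancel, Units.val_one,
        Matrix.one_mul]
    rw [e]
    exact hY v

open Matrix H48.QuadStd in
/-- a diagonal matrix with paired eigenvalues is conjugate to a similarity of a form in odd dimension -/
theorem pair_sim {F : Type*} [Field F] [Fintype F] {n m : ℕ} (hn : n = 2 * m + 1) {Q : (Fin n → F) → F}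
    (hQ : Cfsg.Geo.IsNondegenerateQuadraticForm Q) (X P : Matrix (Fin n) (Fin n) F) (D : Fin n → F) (hP : P.det ≠ 0)
    (hXP : X * P = P * Matrix.diagonal D) (e : Fin n ≃ (Unit ⊕ (Fin m ⊕ Fin m)))
    (hD : ∀ i, D (e.symm (.inr (.inl i))) * D (e.symm (.inr (.inr i))) = D (e.symm (.inl ())) * D (e.symm (.inl ()))) :
    ∃ R Y : Matrix (Fin n) (Fin n) F, R.det ≠ 0 ∧ X * R = R * Y ∧
      ∀ v, Q (Y *ᵥ v) = (D (e.symm (.inl ())) * D (e.symm (.inl ()))) * Q v := by
  obtain ⟨h2, c, hc, h⟩ := classify_odd m (Fin n → F) (H99.Quad.toQF hQ) (H99.Quad.nd_toQF hQ)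
    (by rw [Module.finrank_fintype_fun_eq_card, Fintype.card_fin, hn])
  obtain ⟨L, hL⟩ := H99.QuadSq.exists_L X (Matrix.diagonal D) (Equiv.refl _) e P hP (by
    rw [hXP]; rfl)
  exact H99.QuadSq.close_equiv (H99.Quad.toQF hQ) _ h X (Matrix.reindex e e (Matrix.diagonal D)) _ (by
    intro v
    rw [Matrix.reindex_apply, Matrix.submatrix_diagonal_equiv, qOdd_apply, qOdd_apply]
    simp only [Matrix.mulVec_diagonal, Function.comp_apply]
    rw [mul_add, Finset.mul_sum]
    congr 1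
    · ring
    · refine Finset.sum_congr rfl fun i _ => ?_
      rw [← hD i]
      ring) L hL

/-- Elements of prime order of PSL_n(q), q odd, and the subgroups of orthogonal type. Here `T = PSL_n(F)` for a field `F` with `q` elements, `q` odd, `n ≥ 3`; `Q` is a non-degenerate quadratic form on `F^n` (of either type when `n` is even) and `H` is the subgroup of matrices of determinant 1 that preserve `Q` up to a scalar — a subgroup of type O^ε_n(q) (maximality is not assumed); Ω is the set of cosets of `H` in `T`, so an element of `T` of prime order `r` (a matrix `x` of determinant 1 with `x^r` scalar, `x` not scalar) fixes a point of Ω exactly when some conjugate of `x` by a matrix of determinant 1 preserves `Q` up to a scalar. Let `r` be a prime dividing the index of `H`, with `(n, r) ≠ (6, 3)`. Then every element of `T` of order `r` fixes a point of Ω if and only if `r = 2`, or `r ∈ {3, 5}`, `n = r` and `(q − 1)_r = r` (the `r`-part of `q − 1` is exactly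 `r`). The case `(n, r) = (6, 3)` is not covered by this statement. -/
theorem result {F : Type*} [Field F] [Fintype F] {p : ℕ} [Fact p.Prime] [CharP F p] {q : ℕ} (hq : Fintype.card F = q)
    (hodd : Odd q) (n : ℕ) (hn : 3 ≤ n) (Q : (Fin n → F) → F) (hQ : Cfsg.Geo.IsNondegenerateQuadraticForm Q)
    (r : ℕ) [Fact r.Prime] (hgap : ¬ (n = 6 ∧ r = 3))
    (hΩ : r ∣ (Cfsg.Geo.quadSimilarityGroup Q).relIndex (Cfsg.Geo.specialLinear (Fin n) F)) :
    (∀ x ∈ Cfsg.Geo.specialLinear (Fin n) F, (∃ z : F, ((x ^ r : GL (Fin n) F) : Matrix (Fin n) (Fin n) F) = z • (1 : Matrix (Fin n) (Fin n) F)) →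
      (∀ z : F, (x : Matrix (Fin n) (Fin n) F) ≠ z • (1 : Matrix (Fin n) (Fin n) F)) →
      ∃ g ∈ Cfsg.Geo.specialLinear (Fin n) F, g⁻¹ * x * g ∈ Cfsg.Geo.quadSimilarityGroup Q) ↔
    (r = 2 ∨ ((r = 3 ∨ r = 5) ∧ n = r ∧ padicValNat r (q - 1) = 1)) := by
  classical
  have hr : r.Prime := Fact.out
  have hp : p.Prime := Fact.out
  have hq1 : 1 < q := by rw [← hq]; exact Fintype.one_lt_card
  have h2F : (2 : F) ≠ 0 := H99.PowNegOne.two_ne_zero_of_neg_one_ne_one (H99.PowNegOne.neg_one_ne_one (by rw [hq]; exact hodd))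
  have hnpos : 0 < n := by omega
  have : Nonempty (Fin n) := ⟨⟨0, by omega⟩⟩
  constructor
  · intro H
    by_contra hcon
    push Not at hcon
    obtain ⟨hr2, hcon⟩ := hcon
    by_cases hrp : r = p
    · subst hrp
      have h01 : (⟨0, by omega⟩ : Fin n) ≠ ⟨1, by omega⟩ := by simp
      have hN : (Matrix.single (⟨1, by omega⟩ : Fin n) (⟨0, by omega⟩ : Fin n) (1 : F)) ^ 2 = 0 := by
        rw [pow_two, Matrix.single_mul_single_of_ne _ _ _ _ h01]
      have hpow := H99.Elts.one_add_pow_char (p := r) (F := F) _ 2 hN hr.two_le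
      refine nsym_false hQ H _ (H99.Elts.det_eq_one_of_pow_char _ hpow) 1 (by rw [one_smul]; exact hpow) ?_
        (H99.NoForm.nsym_transvection (p := r) h2F _ _ h01)
      exact H99.Elts.one_add_ne_scalar _ ⟨1, by omega⟩ ⟨0, by omega⟩ (Ne.symm h01) (by simp)
    · by_cases hdvd : r ∣ q - 1
      · obtain ⟨ω, hω⟩ := H99.Elts.exists_root (F := F) r hr.pos (by rw [hq]; exact hdvd)
        have hω0 : ω ≠ 0 := hω.ne_zero hr.ne_zero
        have hωr : ω ^ r = 1 := hω.pow_eq_one
        have hω1 : ω ≠ 1 := by have := hω.pow_ne_one_of_pos_of_lt (l := 1) (by norm_num) hr.one_lt; simpa using this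
        by_cases hr3 : r = 3
        · subst hr3
          by_cases hn3 : n = 3
          · subst hn3
            have h9 : 3 ^ 2 ∣ Fintype.card F - 1 := H99.Eig.sq_dvd_of_val (by rw [hq]; exact hdvd) (by
              rw [hq]; exact hcon (Or.inl rfl) rfl)
            obtain ⟨ζ, hζ⟩ := H99.Elts.exists_root (F := F) 9 (by norm_num) h9
            have hζ0 : ζ ≠ 0 := hζ.ne_zero (by norm_num)
            have hζ9 : ζ ^ 9 = 1 := hζ.pow_eq_one
            have hζ3 : ζ ^ 3 ≠ 1 := hζ.pow_ne_one_of_pos_of_lt (by norm_num) (by norm_num)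
            refine nsym_false hQ H (Matrix.diagonal (H99.Elts.d3 3 ζ ζ (ζ ^ 2)⁻¹)) ?_ (ζ ^ 3) ?_ ?_ (H99.NoForm.nf_nine _ hζ rfl).nsym
            · rw [H99.Elts.det_d3 (by omega)]; field_simp
            · rw [Matrix.diagonal_pow, Matrix.smul_one_eq_diagonal]
              congr 1
              funext j
              have e1 : ((ζ ^ 2)⁻¹) ^ 3 = ζ ^ 3 := by
                rw [inv_pow, inv_eq_iff_eq_inv]
                apply eq_inv_of_mul_eq_one_left
                calc (ζ ^ 2) ^ 3 * ζ ^ 3 = ζ ^ 9 := by ring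
                  _ = 1 := hζ9
              simp only [Pi.pow_apply]
              rcases H99.NoForm.vals3 ζ (ζ ^ 2)⁻¹ j with ⟨-, h⟩ | ⟨-, h⟩ | ⟨h, -⟩
              · rw [h]
              · rw [h, e1]
              · omega
            · refine H99.Elts.diagonal_ne_scalar _ ⟨0, by omega⟩ ⟨2, by omega⟩ ?_
              intro h
              have h' : ζ = (ζ ^ 2)⁻¹ := h
              apply hζ3
              calc ζ ^ 3 = ζ * ζ ^ 2 := by ring
                _ = (ζ ^ 2)⁻¹ * ζ ^ 2 := by rw [← h']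
                _ = 1 := inv_mul_cancel₀ (pow_ne_zero _ hζ0)
          · refine nsym_false hQ H (Matrix.diagonal (H99.Elts.d3 n ω ω ω)) ?_ 1
              (by rw [one_smul]; exact H99.Elts.d3_pow _ _ _ _ hωr hωr hωr) ?_
              (H99.NoForm.nf_three _ (by omega) (fun h => hgap ⟨h, rfl⟩) hω rfl).nsym
            · rw [H99.Elts.det_d3 (by omega)]; linear_combination hωr
            · exact H99.Elts.diagonal_ne_scalar _ ⟨0, by omega⟩ ⟨3, by omega⟩ (by simpa [H99.Elts.d3] using hω1)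
        · have hr5 : 5 ≤ r := by
            have h1 := hr.two_le
            by_contra h
            have h4 : r = 4 := by omega
            rw [h4] at hr
            exact absurd hr (by norm_num)
          by_cases hn5 : n = 5 ∧ r = 5
          · obtain ⟨rfl, rfl⟩ := hn5
            have h9 : 5 ^ 2 ∣ Fintype.card F - 1 := H99.Eig.sq_dvd_of_val (by rw [hq]; exact hdvd) (by
              rw [hq]; exact hcon (Or.inr rfl) rfl)
            obtain ⟨ζ, hζ⟩ := H99.Elts.exists_root (F := F) 25 (by norm_num) h9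
            have hζ0 : ζ ≠ 0 := hζ.ne_zero (by norm_num)
            have hζ9 : ζ ^ 25 = 1 := hζ.pow_eq_one
            have hζ3 : ζ ^ 5 ≠ 1 := hζ.pow_ne_one_of_pos_of_lt (by norm_num) (by norm_num)
            refine nsym_false hQ H (Matrix.diagonal (H99.NoForm.d5 ζ)) ?_ (ζ ^ 5) ?_ ?_ (H99.NoForm.nf_25 _ hζ rfl).nsym
            · rw [Matrix.det_diagonal, Fin.prod_univ_five]
              show ζ * (ζ ^ 5)⁻¹ * ζ * ζ * ζ * ζ = 1
              field_simp
            · rw [Matrix.diagonal_pow, Matrix.smul_one_eq_diagonal]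
              congr 1
              funext j
              simp only [Pi.pow_apply, H99.NoForm.d5]
              by_cases hj : j = 0
              · rw [if_pos hj, mul_pow, inv_pow, ← pow_mul, hζ9, inv_one, mul_one]
              · rw [if_neg hj]
            · refine H99.Elts.diagonal_ne_scalar _ 0 1 ?_
              intro h
              have h' : ζ * (ζ ^ 5)⁻¹ = ζ := h
              have h3 : (ζ ^ 5)⁻¹ = 1 := (mul_eq_left₀ hζ0).1 h'
              exact hζ3 (inv_eq_one.1 h3)
          · refine nsym_false hQ H (Matrix.diagonal (H99.Elts.d3 n ω ω (ω ^ 2)⁻¹)) ?_ 1 ?_ ?_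
              (H99.NoForm.nf_five _ hn hr5 hr hn5 hω rfl).nsym
            · rw [H99.Elts.det_d3 (by omega)]
              field_simp
            · rw [one_smul]
              exact H99.Elts.d3_pow _ _ _ _ hωr hωr (by rw [inv_pow, ← pow_mul, mul_comm, pow_mul, hωr, one_pow, inv_one])
            · refine H99.Elts.diagonal_ne_scalar _ ⟨0, by omega⟩ ⟨2, by omega⟩ ?_
              intro h
              have h' : ω = (ω ^ 2)⁻¹ := h
              have h3 : ω ^ 3 = 1 := by
                calc ω ^ 3 = ω * ω ^ 2 := by ring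
                  _ = (ω ^ 2)⁻¹ * ω ^ 2 := by rw [← h']
                  _ = 1 := inv_mul_cancel₀ (pow_ne_zero _ hω0)
              exact hω.pow_ne_one_of_pos_of_lt (by norm_num) (by omega) h3
      · have hrq : ¬ r ∣ Fintype.card F := by
          obtain ⟨k, -, hk⟩ := FiniteField.card F p
          rw [hk]
          intro h
          exact hrp ((Nat.prime_dvd_prime_iff_eq hr hp).1 (hr.dvd_of_dvd_pow h))
        have hdvd' : ¬ r ∣ Fintype.card F - 1 := by rw [hq]; exact hdvd
        obtain ⟨i, C, G, hi, hi2, hGirr, hGmon, hGdeg, hCG, hCr, hC1⟩ := H99.Blk.exists_comp_block (F := F) (p := p) hr hrp hdvd'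
        have hN : (Cfsg.Geo.specialLinear (Fin n) F).Normal := by
          show (Matrix.GeneralLinearGroup.det : GL (Fin n) F →* Fˣ).ker.Normal
          infer_instance
        have hidx := hΩ.trans (H99.Subfield.relIndex_dvd_index _ _)
        rcases Nat.even_or_odd i with hie | hio
        · obtain ⟨m, hm, hcase⟩ := H99.Quad.dvd_cases hQ hr hrq (by rw [← hi]; exact hie) hidx (by omega)
          exact rep_false (p := p) hQ hr2 hrp hdvd' H hrq hi2 hi C (H99.NoForm.det_sub_smul_ne hGirr hGdeg hi2 hCG) hCr hm hcase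
        · have hin : i ≤ n := by
            rw [hi]
            exact H99.Blk.orderOf_le_of_dvd_card hr hrq n (hidx.trans (Subgroup.index_dvd_card _))
          let e : (Fin i ⊕ Fin (n - i)) ≃ Fin n := finSumFinEquiv.trans (finCongr (by omega))
          refine nsym_false hQ H (H99.Blk.emb e C) ?_ 1 (by rw [one_smul, H99.Blk.emb_pow, hCr, H99.Blk.emb_one])
            (H99.NoForm.emb_ne_scalar' e hGirr hGdeg hi2 hCG)
            (H99.NoForm.nsym_odd hio hin hr hdvd' C G hGirr hGdeg hi2 hCG hCr e)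
          rw [H99.Blk.emb_det]
          exact H99.Blk.det_eq_one_of_pow hr hdvd' C hCr
  · intro hcond x hxS hxz hxns
    obtain ⟨z, hz⟩ := hxz
    rw [Units.val_pow_eq_pow_val] at hz
    set X := (x : Matrix (Fin n) (Fin n) F) with hXdef
    have hdet : X.det = 1 := by
      have : x ∈ (Matrix.GeneralLinearGroup.det : GL (Fin n) F →* Fˣ).ker := hxS
      rw [MonoidHom.mem_ker] at this
      exact congrArg Units.val this
    rcases hcond with hr2 | ⟨hr35, hnr, hv⟩
    · subst hr2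
      rw [pow_two] at hz
      have hz0 : z ≠ 0 := by
        rintro rfl
        have := congrArg Matrix.det hz
        rw [Matrix.det_mul, hdet, zero_smul, Matrix.det_zero] at this
        norm_num at this
      obtain ⟨R, Y, c, hc, hR, hRY, hY⟩ := H99.QuadSq.exists_sim_sq h2F hQ X z hz0 hz
      obtain ⟨R', hR', hRY'⟩ := H99.SqScalar.exists_det_one_conj X Y R z hz0 hz hR hRY
      exact back x R' Y hR' hRY' c hc hY
    · subst hnr
      have hrodd : Odd n := by rcases hr35 with h | h <;> rw [h] <;> decide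
      have hrF : ((n : ℕ) : F) ≠ 0 := by
        intro h
        rw [CharP.cast_eq_zero_iff F p] at h
        have hpn : p = n := (Nat.prime_dvd_prime_iff_eq hp hr).1 h
        have hd : n ∣ q - 1 := by
          by_contra h
          rw [padicValNat.eq_zero_of_not_dvd h] at hv
          exact zero_ne_one hv
        have hd2 : n ∣ q := by
          obtain ⟨k, hk0, hk⟩ := FiniteField.card F p
          rw [← hq, hk, hpn]
          exact dvd_pow_self n k.2.ne'
        have : n ∣ 1 := by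
          have := Nat.dvd_sub hd2 hd
          rwa [Nat.sub_sub_self hq1.le] at this
        exact hr.one_lt.ne' (Nat.dvd_one.1 this)
      obtain ⟨ω, hω, P, l, hP, hXP, hsum⟩ := H99.Eig.exists_diag_sl hrodd (by rw [hq]; exact hv) hrF X hdet z hz
      have hωn : ω ^ n = 1 := hω.pow_eq_one
      have key : ∃ m, n = 2 * m + 1 ∧ ∃ e : Fin n ≃ (Unit ⊕ (Fin m ⊕ Fin m)), ∀ i,
          ω ^ (l (e.symm (.inr (.inl i))) : ℕ) * ω ^ (l (e.symm (.inr (.inr i))) : ℕ) =
          ω ^ (l (e.symm (.inl ())) : ℕ) * ω ^ (l (e.symm (.inl ())) : ℕ) := by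
        obtain ⟨m, hm, e, he⟩ := H99.Eig.exists_pairing hr35 l hsum
        exact ⟨m, hm, e, fun i => H99.Eig.pow_mul_eq hω (he i)⟩
      obtain ⟨m, hm, e, he⟩ := key
      obtain ⟨R, Y, hR, hRY, hY⟩ := pair_sim hm hQ X P _ hP hXP e he
      obtain ⟨R', hR', hRY'⟩ := H99.Eig.det_one_of_diag hnpos X P _ hP hXP R Y hR hRY
      exact back x R' Y hR' hRY' _ (mul_ne_zero (pow_ne_zero _ (hω.ne_zero hr.ne_zero)) (pow_ne_zero _ (hω.ne_zero hr.ne_zero))) hY

end Cfsg.Agent.S5981
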