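import Cfsg.Statements.S5982
import Cfsg.Agent.Lib.H99.Eig
import Cfsg.Agent.Lib.H99.Herm
import Cfsg.Agent.Lib.H99.Subfield
import Cfsg.Agent.Lib.H99.PowNegOne

set_option autoImplicit false
set_option linter.unusedSimpArgs false
open scoped MatrixGroups
open Cfsg

namespace Cfsg.Agent.S5982


open Matrix in
/-- the elusive property gives, for a matrix of order `r` modulo scalars, a conjugate form for which it is a similarity -/
theorem get {F : Type*} [Field F] {n : ℕ} {f : (Fin n → F) → (Fin n → F) → F} {r : ℕ}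
    (H : ∀ x ∈ Cfsg.Geo.specialLinear (Fin n) F, (∃ z : F, ((x ^ r : GL (Fin n) F) : Matrix (Fin n) (Fin n) F) = z • (1 : Matrix (Fin n) (Fin n) F)) →
      (∀ z : F, (x : Matrix (Fin n) (Fin n) F) ≠ z • (1 : Matrix (Fin n) (Fin n) F)) →
      ∃ g ∈ Cfsg.Geo.specialLinear (Fin n) F, g⁻¹ * x * g ∈ Cfsg.Geo.similarityGroup f)
    (X : Matrix (Fin n) (Fin n) F) (hdet : X.det = 1) (z : F) (hz : X ^ r = z • (1 : Matrix (Fin n) (Fin n) F))
    (hns : ∀ z : F, X ≠ z • (1 : Matrix (Fin n) (Fin n) F)) :
    ∃ P P' : Matrix (Fin n) (Fin n) F, P * P' = 1 ∧ P' * P = 1 ∧ ∃ c : F, ∀ u v,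
      f (P' *ᵥ (X *ᵥ u)) (P' *ᵥ (X *ᵥ v)) = c * f (P' *ᵥ u) (P' *ᵥ v) := by
  let x : GL (Fin n) F := Matrix.GeneralLinearGroup.mkOfDetNeZero X (by rw [hdet]; exact one_ne_zero)
  have hx : (x : Matrix (Fin n) (Fin n) F) = X := rfl
  obtain ⟨g, -, c, hc⟩ := H x (by
    show x ∈ (Matrix.GeneralLinearGroup.det : GL (Fin n) F →* Fˣ).ker
    rw [MonoidHom.mem_ker]
    exact Units.ext hdet) ⟨z, by rw [Units.val_pow_eq_pow_val]; exact hz⟩ hns
  refine ⟨(g : Matrix (Fin n) (Fin n) F), ((g⁻¹ : GL (Fin n) F) : Matrix (Fin n) (Fin n) F),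
    by rw [← Units.val_mul, mul_inv_cancel, Units.val_one], by rw [← Units.val_mul, inv_mul_cancel, Units.val_one], c, fun u v => ?_⟩
  have h1 := hc (((g⁻¹ : GL (Fin n) F) : Matrix (Fin n) (Fin n) F) *ᵥ u) (((g⁻¹ : GL (Fin n) F) : Matrix (Fin n) (Fin n) F) *ᵥ v)
  rw [← h1]
  have h2 : ∀ v, ((g⁻¹ * x * g : GL (Fin n) F) : Matrix (Fin n) (Fin n) F) *ᵥ (((g⁻¹ : GL (Fin n) F) : Matrix (Fin n) (Fin n) F) *ᵥ v) =
      ((g⁻¹ : GL (Fin n) F) : Matrix (Fin n) (Fin n) F) *ᵥ (X *ᵥ v) := by
    intro v
    rw [Matrix.mulVec_mulVec, Matrix.mulVec_mulVec, Units.val_mul, Units.val_mul, hx, Matrix.mul_assoc, Matrix.mul_assoc, ← Units.val_mul,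
      mul_inv_cancel, Units.val_one, Matrix.mul_one]
  rw [h2, h2]

open Matrix in
theorem nf_false {F : Type*} [Field F] {n : ℕ} {f : (Fin n → F) → (Fin n → F) → F} {σ : F →+* F} (hs : H99.Form.Ses σ f) {r : ℕ}
    (H : ∀ x ∈ Cfsg.Geo.specialLinear (Fin n) F, (∃ z : F, ((x ^ r : GL (Fin n) F) : Matrix (Fin n) (Fin n) F) = z • (1 : Matrix (Fin n) (Fin n) F)) →
      (∀ z : F, (x : Matrix (Fin n) (Fin n) F) ≠ z • (1 : Matrix (Fin n) (Fin n) F)) →
      ∃ g ∈ Cfsg.Geo.specialLinear (Fin n) F, g⁻¹ * x * g ∈ Cfsg.Geo.similarityGroup f)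
    (X : Matrix (Fin n) (Fin n) F) (hdet : X.det = 1) (z : F) (hz : X ^ r = z • (1 : Matrix (Fin n) (Fin n) F))
    (hns : ∀ z : F, X ≠ z • (1 : Matrix (Fin n) (Fin n) F)) (hno : H99.NoForm.NF σ X) : False := by
  obtain ⟨P, P', h1, h2, c, hc⟩ := get H X hdet z hz hns
  exact hno (fun u v => f (P' *ᵥ u) (P' *ᵥ v)) c (hs.transport P' P h1 h2) hc

open Matrix H49.Unitary Polynomial in
theorem nf_even {F : Type*} [Field F] [Fintype F] {q₀ : ℕ} (hK : Nat.card F = q₀ ^ 2) {n i : ℕ} (hin : i ≤ n) {r : ℕ} (hr : r.Prime)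
    (hrq : ¬ r ∣ q₀) (hdvd : ¬ r ∣ Fintype.card F - 1) (C : Matrix (Fin i) (Fin i) F)
    (hCt : ∀ t : F, (C - t • (1 : Matrix (Fin i) (Fin i) F)).det ≠ 0) (hC1 : C ≠ 1)
    (hi2 : 2 ≤ i) (hlt : i < orderOf (-((q₀ : ℕ) : ZMod r))) (hCr : C ^ r = 1) (e : (Fin i ⊕ Fin (n - i)) ≃ Fin n) :
    H99.NoForm.NF (frob hK) (H99.Blk.emb e C) := by
  intro g c hg hx
  have : Fact r.Prime := ⟨hr⟩
  have : Nonempty (Fin n) := ⟨⟨0, by omega⟩⟩
  have h1 := H99.Form.mult_pow hg _ c hx r 1 (by rw [one_smul, H99.Blk.emb_pow, hCr, H99.Blk.emb_one])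
  rw [map_one, mul_one] at h1
  have hc : c = 1 := H99.NoForm.eq_one_of_pow_prime hr hdvd h1
  subst hc
  have hC1' : (C - 1).det ≠ 0 := by
    have := hCt 1
    rwa [one_smul] at this
  have hx1 : ∀ u v, g (H99.Blk.emb e C *ᵥ u) (H99.Blk.emb e C *ᵥ v) = g u v := fun u v => by rw [hx, one_mul]
  have key := H99.Form.emb_orth hg e C hC1' hx1
  have hh := H99.NoForm.ses_restrict hg e (fun a b => (key a b).2)
  set h : (Fin i → F) → (Fin i → F) → F := fun a b => g (H99.Form.pr e a 0) (H99.Form.pr e b 0) with hdef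
  have hCC : ∀ a b, h (C *ᵥ a) (C *ᵥ b) = 1 * h a b := by
    intro a b
    have := hx1 (H99.Form.pr e a 0) (H99.Form.pr e b 0)
    rw [H99.Form.pr_mulVec, H99.Form.pr_mulVec] at this
    rw [one_mul]
    exact this
  have h2 := (H99.Herm.sim_iff hK hh C 1).1 hCC
  rw [one_smul] at h2
  have hCdet : C.det ≠ 0 := by
    intro h0
    have := hCt 0
    rw [zero_smul, sub_zero] at this
    exact this h0
  let gC : GL (Fin i) F := Matrix.GeneralLinearGroup.mkOfDetNeZero C hCdet
  obtain ⟨y, hy⟩ := exists_conj_mem_GU hK gC _ (H99.Herm.isUnit_gram hK hh) h2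
  have hgr : gC ^ r = 1 := by
    apply Units.ext
    rw [Units.val_pow_eq_pow_val]
    exact hCr
  have hg1 : gC ≠ 1 := by
    intro h
    exact hC1 (congrArg Units.val h)
  let y' : Cfsg.GU i F q₀ := ⟨y * gC * y⁻¹, hy⟩
  have hy'r : y' ^ r = 1 := by
    apply Subtype.ext
    show (y * gC * y⁻¹) ^ r = 1
    rw [conj_pow, hgr, mul_one, mul_inv_cancel]
  have hy'1 : y' ≠ 1 := by
    intro h
    have h3 : y * gC * y⁻¹ = 1 := congrArg Subtype.val h
    apply hg1
    rwa [conj_eq_one_iff] at h3
  have hord : orderOf y' = r := orderOf_eq_prime hy'r hy'1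
  have hcard := orderOf_dvd_natCard y'
  have hK' : Fintype.card F = q₀ ^ 2 := by rw [← Nat.card_eq_fintype_card, hK]
  have hq₀ : 1 < q₀ := two_le hK
  rw [hord, H7.UnitOrd.card_GU hK'] at hcard
  rcases (Nat.Prime.dvd_mul hr).1 hcard with h6 | h6
  · exact hrq (hr.dvd_of_dvd_pow h6)
  · obtain ⟨j, hj1, hj⟩ := (hr.prime.dvd_finsetProd_iff _).1 h6
    rw [Finset.mem_range] at hj1
    have h7 : (-((q₀ : ℕ) : ZMod r)) ^ (j + 1) = 1 := by
      rcases Nat.even_or_odd j with he | ho
      · rw [if_pos he] at hj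
        have h8 : ((q₀ ^ (j + 1) + 1 : ℕ) : ZMod r) = 0 := (ZMod.natCast_eq_zero_iff _ _).2 hj
        push_cast at h8
        rw [(he.add_one).neg_pow, eq_neg_of_add_eq_zero_left h8, neg_neg]
      · rw [if_neg (Nat.not_even_iff_odd.2 ho)] at hj
        have h8 : ((q₀ ^ (j + 1) - 1 : ℕ) : ZMod r) = 0 := (ZMod.natCast_eq_zero_iff _ _).2 hj
        rw [Nat.cast_sub (Nat.one_le_pow _ _ (by omega)), sub_eq_zero] at h8
        push_cast at h8
        rw [(ho.add_one).neg_pow, h8]
    have h9 := orderOf_le_of_pow_eq_one (Nat.succ_pos j) h7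
    omega

open Matrix in
theorem back {F : Type*} [Field F] {n : ℕ} {f : (Fin n → F) → (Fin n → F) → F}
    (x : GL (Fin n) F) (R Y : Matrix (Fin n) (Fin n) F) (hR : R.det = 1) (hRY : (x : Matrix (Fin n) (Fin n) F) * R = R * Y)
    (c : F) (hc : c ≠ 0) (hY : ∀ u v, f (Y *ᵥ u) (Y *ᵥ v) = c * f u v) :
    ∃ g ∈ Cfsg.Geo.specialLinear (Fin n) F, g⁻¹ * x * g ∈ Cfsg.Geo.similarityGroup f := by
  let g : GL (Fin n) F := Matrix.GeneralLinearGroup.mkOfDetNeZero R (by rw [hR]; exact one_ne_zero)
  have hg : (g : Matrix (Fin n) (Fin n) F) = R := rfl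
  refine ⟨g, ?_, Units.mk0 c hc, fun u v => ?_⟩
  · show g ∈ (Matrix.GeneralLinearGroup.det : GL (Fin n) F →* Fˣ).ker
    rw [MonoidHom.mem_ker]
    exact Units.ext hR
  · have e : ((g⁻¹ * x * g : GL (Fin n) F) : Matrix (Fin n) (Fin n) F) = Y := by
      rw [mul_assoc, Units.val_mul, Units.val_mul, hg, hRY, ← hg, ← Matrix.mul_assoc, ← Units.val_mul, inv_mul_cancel, Units.val_one,
        Matrix.one_mul]
    rw [e]
    exact hY u v

open Matrix H49.Unitary in
theorem ct_reindex {F : Type*} [Field F] [Finite F] {q₀ : ℕ} (hK : Nat.card F = q₀ ^ 2) {α β : Type} [Fintype α] [DecidableEq α]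
    [Fintype β] [DecidableEq β] (e : α ≃ β) (M : Matrix α α F) : ct hK (Matrix.reindex e e M) = Matrix.reindex e e (ct hK M) := rfl

open Matrix H49.Unitary in
/-- the standard matrix with square `ν²` is a unitary similarity -/
theorem exists_std_herm {F : Type*} [Field F] [Finite F] {q₀ : ℕ} (hK : Nat.card F = q₀ ^ 2) (s m : ℕ) (ν : F) (hν : ν ≠ 0) :
    ∃ H0 : Matrix ((Fin 2 × Fin s) ⊕ Fin m) ((Fin 2 × Fin s) ⊕ Fin m) F, IsUnit H0 ∧ ct hK H0 = H0 ∧
      ct hK (H99.SqScalar.std s m (ν ^ 2) ν) * H0 * H99.SqScalar.std s m (ν ^ 2) ν = (ν ^ q₀ * ν) • H0 := by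
  have hq₀ := two_le hK
  have h0 : (0 : F) ^ q₀ = 0 := zero_pow (by omega)
  have hνν : (ν ^ q₀) ^ q₀ = ν := frob_frob hK ν
  refine ⟨Matrix.fromBlocks (Matrix.blockDiagonal fun _ => !![0, ν; ν ^ q₀, 0]) 0 0 1, ?_, ?_, ?_⟩
  · rw [Matrix.isUnit_iff_isUnit_det, Matrix.det_fromBlocks_zero₂₁, Matrix.det_blockDiagonal, Matrix.det_one, mul_one]
    simp only [Finset.prod_const, Matrix.det_fin_two_of]
    rw [isUnit_iff_ne_zero]
    apply pow_ne_zero
    rw [zero_mul, zero_sub]
    exact neg_ne_zero.2 (mul_ne_zero hν (pow_ne_zero _ hν))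
  · ext x y
    rw [ct_apply]
    rcases x with ⟨a, i⟩ | x <;> rcases y with ⟨b, j⟩ | y
    · simp only [Matrix.fromBlocks_apply₁₁, Matrix.blockDiagonal_apply]
      by_cases hij : i = j
      · subst hij
        rw [if_pos rfl, if_pos rfl]
        fin_cases a <;> fin_cases b <;> simp [h0, hνν]
      · rw [if_neg hij, if_neg (Ne.symm hij), h0]
    · simp [h0]
    · simp [h0]
    · simp only [Matrix.fromBlocks_apply₂₂, Matrix.one_apply]
      by_cases hxy : x = y
      · subst hxy; simp
      · rw [if_neg hxy, if_neg (Ne.symm hxy), h0]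
  · have h1 : ct hK (H99.SqScalar.std s m (ν ^ 2) ν) =
        Matrix.fromBlocks (Matrix.blockDiagonal fun _ => !![0, 1; (ν ^ 2) ^ q₀, 0]) 0 0 (Matrix.diagonal fun _ => ν ^ q₀) := by
      ext x y
      rw [ct_apply, H99.SqScalar.std]
      rcases x with ⟨a, i⟩ | x <;> rcases y with ⟨b, j⟩ | y
      · simp only [Matrix.fromBlocks_apply₁₁, Matrix.blockDiagonal_apply]
        by_cases hij : i = j
        · subst hij
          rw [if_pos rfl, if_pos rfl]
          fin_cases a <;> fin_cases b <;> simp [h0]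
        · rw [if_neg hij, if_neg (Ne.symm hij), h0]
      · simp [h0]
      · simp [h0]
      · simp only [Matrix.fromBlocks_apply₂₂, Matrix.diagonal_apply]
        by_cases hxy : x = y
        · subst hxy; simp
        · rw [if_neg hxy, if_neg (Ne.symm hxy), h0]
    rw [h1, H99.SqScalar.std, Matrix.fromBlocks_multiply, Matrix.fromBlocks_multiply, Matrix.fromBlocks_smul]
    simp only [Matrix.zero_mul, Matrix.mul_zero, add_zero, zero_add, Matrix.mul_one, smul_zero]
    rw [← Matrix.blockDiagonal_mul, ← Matrix.blockDiagonal_mul, ← Matrix.blockDiagonal_smul, Matrix.diagonal_mul_diagonal,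
      Matrix.smul_one_eq_diagonal]
    congr 1
    congr 1
    funext k
    rw [Pi.smul_apply]
    ext a b
    fin_cases a <;> fin_cases b
    · simp
    · simp
      ring
    · simp
      ring
    · simp

open Matrix H49.Unitary in
theorem exists_pair_herm {F : Type*} [Field F] [Finite F] {q₀ : ℕ} (hK : Nat.card F = q₀ ^ 2) {n : ℕ} (D : Fin n → F)
    (hD : ∀ i, D i ^ q₀ = D i) (c : F) (τ : Fin n → Fin n) (hτ : ∀ i, τ (τ i) = i) (hc : ∀ i, D i * D (τ i) = c) :
    ∃ H0 : Matrix (Fin n) (Fin n) F, IsUnit H0 ∧ ct hK H0 = H0 ∧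
      ct hK (Matrix.diagonal D) * H0 * Matrix.diagonal D = c • H0 := by
  have hq₀ := two_le hK
  have h0 : (0 : F) ^ q₀ = 0 := zero_pow (by omega)
  let H0 : Matrix (Fin n) (Fin n) F := fun a b => if b = τ a then 1 else 0
  have hH : ∀ a b, H0 a b = if b = τ a then 1 else 0 := fun _ _ => rfl
  refine ⟨H0, ?_, ?_, ?_⟩
  · have h1 : H0 * H0 = 1 := by
      ext a b
      rw [Matrix.mul_apply, Finset.sum_eq_single (τ a)]
      · rw [hH, hH, if_pos rfl, hτ, one_mul, Matrix.one_apply]
        by_cases h : a = b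
        · rw [if_pos h, if_pos h.symm]
        · rw [if_neg h, if_neg (Ne.symm h)]
      · intro k _ hk
        rw [hH, if_neg hk, zero_mul]
      · intro h; exact absurd (Finset.mem_univ _) h
    exact IsUnit.of_mul_eq_one _ h1
  · ext a b
    rw [ct_apply, hH, hH]
    by_cases h : b = τ a
    · rw [if_pos h, if_pos (by rw [h, hτ]), one_pow]
    · rw [if_neg h, if_neg (fun h' => h (by rw [h', hτ])), h0]
  · have h1 : ct hK (Matrix.diagonal D) = Matrix.diagonal D := by
      ext a b
      rw [ct_apply, Matrix.diagonal_apply, Matrix.diagonal_apply]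
      by_cases h : a = b
      · subst h; rw [if_pos rfl, hD]
      · rw [if_neg h, if_neg (Ne.symm h), h0]
    rw [h1]
    ext a b
    rw [Matrix.mul_diagonal, Matrix.diagonal_mul, Matrix.smul_apply, smul_eq_mul, hH]
    by_cases h : b = τ a
    · rw [if_pos h, mul_one, mul_one, h, hc]
    · rw [if_neg h]; ring

/-- Elements of prime order of PSL_n(q), q = q₀², and the subgroups of unitary type. Here `T = PSL_n(F)` for a field `F` with `q = q₀²` elements (`n ≥ 3`), `f` is a non-degenerate unitary form on `F^n` for the involutory automorphism `x ↦ x^{q₀}`, and `H` is the subgroup of matrices of determinant 1 that preserve `f` up to a scalar — a subgroup of type GU_n(q₀) (maximality is not assumed); Ω is the set of cosets of `H` in `T`, so an element of `T` of prime order `r` (a matrix `x` of determinant 1 with `x^r` scalar, `x` not scalar) fixes a point of Ω exactly when some conjugate of `x` by a matrix of determinant 1 preserves `f` up to a scalar. Let `r` be a prime dividing the index of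 `H`, with `r = 2` or `r` different from the characteristic `p`, and with `(n, r) ≠ (6, 3)`. Then every element of `T` of order `r` fixes a point of Ω if and only if either `r = 2` and (`p = 2` or `(n)_2 ≤ (q − 1)_2`), or `r ∈ {3, 5}`, `n = r` and `(q₀ − 1)_r = r`. (Odd `r = p` and the case `(n, r) = (6, 3)` are not covered by this statement.) -/
theorem result {F : Type*} [Field F] [Fintype F] {p : ℕ} [Fact p.Prime] [CharP F p] {q : ℕ} (hq : Fintype.card F = q)
    (q₀ : ℕ) (hq₀ : q = q₀ ^ 2) (n : ℕ) (hn : 3 ≤ n) (f : (Fin n → F) → (Fin n → F) → F) (hf : Cfsg.Geo.IsUnitaryFormPow q₀ f)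
    (r : ℕ) [Fact r.Prime] (hr : r = 2 ∨ r ≠ p) (hgap : ¬ (n = 6 ∧ r = 3))
    (hΩ : r ∣ (Cfsg.Geo.similarityGroup f).relIndex (Cfsg.Geo.specialLinear (Fin n) F)) :
    (∀ x ∈ Cfsg.Geo.specialLinear (Fin n) F, (∃ z : F, ((x ^ r : GL (Fin n) F) : Matrix (Fin n) (Fin n) F) = z • (1 : Matrix (Fin n) (Fin n) F)) →
      (∀ z : F, (x : Matrix (Fin n) (Fin n) F) ≠ z • (1 : Matrix (Fin n) (Fin n) F)) →
      ∃ g ∈ Cfsg.Geo.specialLinear (Fin n) F, g⁻¹ * x * g ∈ Cfsg.Geo.similarityGroup f) ↔
    ((r = 2 ∧ (p = 2 ∨ padicValNat 2 n ≤ padicValNat 2 (q - 1))) ∨ ((r = 3 ∨ r = 5) ∧ n = r ∧ padicValNat r (q₀ - 1) = 1)) := by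
  classical
  have hr' : r.Prime := Fact.out
  have hp : p.Prime := Fact.out
  have hq1 : 1 < q := by rw [← hq]; exact Fintype.one_lt_card
  have hK : Nat.card F = q₀ ^ 2 := by rw [Nat.card_eq_fintype_card, hq, hq₀]
  have hq₀1 : 2 ≤ q₀ := H49.Unitary.two_le hK
  have hs := H99.Herm.ses hK hf
  have hnpos : 0 < n := by omega
  have : Nonempty (Fin n) := ⟨⟨0, by omega⟩⟩
  have hqq : q - 1 = (q₀ - 1) * (q₀ + 1) := by
    obtain ⟨b, rfl⟩ : ∃ b, q₀ = b + 1 := ⟨q₀ - 1, by omega⟩
    rw [hq₀]
    simp only [Nat.add_sub_cancel]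
    have : (b + 1) ^ 2 = b * (b + 1 + 1) + 1 := by ring
    rw [this, Nat.add_sub_cancel]
  constructor
  · intro H
    by_contra hcon
    push Not at hcon
    obtain ⟨hcon1, hcon2⟩ := hcon
    by_cases hr2 : r = 2
    · subst hr2
      obtain ⟨hp2, hval⟩ := hcon1 rfl
      have hodd : Odd (Fintype.card F) := by
        obtain ⟨k, -, hk⟩ := FiniteField.card F p
        rw [hk]
        exact (hp.odd_of_ne_two hp2).pow
      have hq₀odd : Odd q₀ := by
        rw [hq, hq₀] at hodd
        exact (Nat.odd_pow_iff (by norm_num)).1 hodd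
      obtain ⟨w, hw, hw1⟩ := H99.PowNegOne.exists_nonsquare_pow hodd
      have hneven : padicValNat 2 n ≠ 0 := by omega
      have h2n : 2 ∣ n := by
        by_contra h
        exact hneven (padicValNat.eq_zero_of_not_dvd h)
      obtain ⟨s, rfl⟩ := h2n
      have hs0 : s ≠ 0 := by rintro rfl; omega
      have hvs : padicValNat 2 (q - 1) ≤ padicValNat 2 s := by
        rw [padicValNat.mul (by norm_num) hs0, padicValNat_self] at hval
        omega
      have hws : w ^ s = 1 := by
        obtain ⟨t, ht⟩ := H99.PowNegOne.dvd_of_val_le hvs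
        rw [ht, pow_mul, ← hq, hw1, one_pow]
      have hw0 : w ≠ 0 := by rintro rfl; exact hw ⟨0, by simp⟩
      have hm1 : IsSquare (-1 : F) := by
        rw [FiniteField.isSquare_neg_one_iff, hq, hq₀]
        obtain ⟨k, hk⟩ := hq₀odd
        rw [hk]
        have : (2 * k + 1) ^ 2 = 4 * (k * k + k) + 1 := by ring
        rw [this]; omega
      set z := -w with hz
      have hz0 : z ≠ 0 := neg_ne_zero.2 hw0
      have hzns : ¬ IsSquare z := by
        intro h
        apply hw
        have : w = z * (-1) := by rw [hz]; ring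
        rw [this]
        exact h.mul hm1
      let e : ((Fin 2 × Fin s) ⊕ Fin 0) ≃ Fin (2 * s) := (Equiv.sumEmpty _ _).trans finProdFinEquiv
      set X : Matrix (Fin (2 * s)) (Fin (2 * s)) F := Matrix.reindex e e (H99.SqScalar.std s 0 z 0) with hX
      have hXX : X ^ 2 = z • (1 : Matrix (Fin (2 * s)) (Fin (2 * s)) F) := by
        have h1 : H99.SqScalar.std s 0 z 0 * H99.SqScalar.std s 0 z (0 : F) = z • (1 : Matrix ((Fin 2 × Fin s) ⊕ Fin 0) ((Fin 2 × Fin s) ⊕ Fin 0) F) := by
          rw [H99.SqScalar.std, Matrix.fromBlocks_multiply]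
          have hone : (1 : Matrix ((Fin 2 × Fin s) ⊕ Fin 0) ((Fin 2 × Fin s) ⊕ Fin 0) F) = Matrix.fromBlocks 1 0 0 1 :=
            Matrix.fromBlocks_one.symm
          rw [hone, Matrix.fromBlocks_smul]
          simp only [Matrix.zero_mul, Matrix.mul_zero, add_zero, zero_add, smul_zero]
          rw [← Matrix.blockDiagonal_mul, ← Matrix.blockDiagonal_one, ← Matrix.blockDiagonal_smul]
          congr 1
          · congr 1
            funext k
            rw [Pi.smul_apply]
            ext a b
            fin_cases a <;> fin_cases b <;> simp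
          · ext a b
            exact a.elim0
        show (Matrix.reindexAlgEquiv F F e (H99.SqScalar.std s 0 z 0)) ^ 2 = _
        rw [← map_pow, pow_two, h1, map_smul, map_one]
      have hXdet : X.det = 1 := by
        rw [hX, Matrix.det_reindex_self, H99.SqScalar.det_std, pow_zero, mul_one, hz, neg_neg, hws]
      have hns : ∀ t : F, X ≠ t • (1 : Matrix (Fin (2 * s)) (Fin (2 * s)) F) := by
        intro t h
        apply hzns
        rw [h, _root_.smul_pow, one_pow] at hXX
        have h3 := congrFun (congrFun hXX ⟨0, by omega⟩) ⟨0, by omega⟩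
        simp at h3
        exact ⟨t, by rw [← h3, pow_two]⟩
      obtain ⟨P, P', h1, h2, c, hc⟩ := get H X hXdet z hXX hns
      have hg := hs.transport P' P h1 h2
      have hmul := H99.Form.mult_pow hg X c hc 2 z hXX
      rw [H49.Unitary.frob_apply] at hmul
      -- the multiplier is fixed
      have hcfix : c ^ q₀ = c := by
        by_contra hne
        apply hg.single_radical ⟨0, by omega⟩
        intro b
        set u : Fin (2 * s) → F := Pi.single ⟨0, by omega⟩ 1
        set v : Fin (2 * s) → F := Pi.single b 1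
        have k1 := hc u v
        have k2 := hc v u
        have k3 : (f (Matrix.mulVec P' (Matrix.mulVec X v)) (Matrix.mulVec P' (Matrix.mulVec X u))) ^ q₀ =
            c ^ q₀ * (f (Matrix.mulVec P' v) (Matrix.mulVec P' u)) ^ q₀ := by rw [k2, mul_pow]
        rw [← hf.herm, ← hf.herm, k1] at k3
        have k4 : (c - c ^ q₀) * f (Matrix.mulVec P' u) (Matrix.mulVec P' v) = 0 := by rw [sub_mul, k3, sub_self]
        rcases mul_eq_zero.1 k4 with k5 | k5
        · exact absurd (sub_eq_zero.1 k5).symm hne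
        · exact k5
      have hc0 : c ≠ 0 := by
        rintro rfl
        rw [zero_pow (by norm_num)] at hmul
        exact mul_ne_zero hz0 (pow_ne_zero _ hz0) hmul.symm
      apply hzns
      have h2F : ringChar F ≠ 2 := by
        intro h
        exact hp2 ((CharP.eq F (ringChar.charP F) ‹CharP F p›).symm.trans h)
      rw [FiniteField.isSquare_iff h2F hz0, hq]
      obtain ⟨k, hk⟩ := hq₀odd
      have hq2 : q / 2 = (q₀ + 1) * k := by
        have h3 : q₀ - 1 = 2 * k := by omega
        have h4 : q = 2 * ((q₀ + 1) * k) + 1 := by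
          have : q = (q - 1) + 1 := by omega
          rw [this, hqq, h3]; ring
        omega
      have hc1 : c ^ (2 * k) = 1 := by
        have h5 : c * c ^ (2 * k) = c * 1 := by
          rw [mul_one, ← pow_succ', ← hk]
          exact hcfix
        exact mul_left_cancel₀ hc0 h5
      rw [hq2, pow_mul, pow_succ', ← hmul, ← pow_mul, hc1]
    · have hrp : r ≠ p := by
        rcases hr with h | h
        · exact absurd h hr2
        · exact h
      have hrq₀ : ¬ r ∣ q₀ := by
        intro h
        have h1 : r ∣ Fintype.card F := by rw [hq, hq₀]; exact dvd_pow h (by norm_num)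
        obtain ⟨k, -, hk⟩ := FiniteField.card F p
        rw [hk] at h1
        exact hrp ((Nat.prime_dvd_prime_iff_eq hr' hp).1 (hr'.dvd_of_dvd_pow h1))
      have hN : (Cfsg.Geo.specialLinear (Fin n) F).Normal := by
        show (Matrix.GeneralLinearGroup.det : GL (Fin n) F →* Fˣ).ker.Normal
        infer_instance
      have hidx := hΩ.trans (H99.Subfield.relIndex_dvd_index _ _)
      have hidx2 := hidx.trans (H99.Herm.index_dvd hK hf)
      have hseven : Even (orderOf (-((q₀ : ℕ) : ZMod r))) := by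
        rw [← Nat.not_odd_iff_even]
        intro hodd
        exact H99.Herm.not_dvd_index hK hr' hr2 hrq₀ hodd hidx2
      by_cases hdvd : r ∣ q₀ - 1
      · have hσ : ∀ (k : ℕ) (ζ : F), k ∣ q₀ - 1 → ζ ^ k = 1 → H49.Unitary.frob hK ζ = ζ := by
          intro k ζ hk hζ
          rw [H49.Unitary.frob_apply]
          obtain ⟨t, ht⟩ := hk
          have : q₀ = k * t + 1 := by omega
          rw [this, pow_succ, pow_mul, hζ, one_pow, one_mul]
        have hvq : padicValNat r (q - 1) = padicValNat r (q₀ - 1) := by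
          rw [hqq, padicValNat.mul (by omega) (by omega)]
          have : ¬ r ∣ q₀ + 1 := by
            intro h
            have h3 : r ∣ 2 := by
              have := Nat.dvd_sub h hdvd
              have h4 : q₀ + 1 - (q₀ - 1) = 2 := by omega
              rwa [h4] at this
            exact hr2 ((Nat.prime_dvd_prime_iff_eq hr' Nat.prime_two).1 h3)
          rw [padicValNat.eq_zero_of_not_dvd this, add_zero]
        have hdvdq : r ∣ Fintype.card F - 1 := by rw [hq, hqq]; exact hdvd.mul_right _
        obtain ⟨ω, hω⟩ := H99.Elts.exists_root (F := F) r hr'.pos hdvdq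
        have hω0 : ω ≠ 0 := hω.ne_zero hr'.ne_zero
        have hωr : ω ^ r = 1 := hω.pow_eq_one
        have hσω := hσ r ω hdvd hωr
        have hω1 : ω ≠ 1 := by have := hω.pow_ne_one_of_pos_of_lt (l := 1) (by norm_num) hr'.one_lt; simpa using this
        have hsq : padicValNat r (q₀ - 1) ≠ 1 → r ^ 2 ∣ q₀ - 1 := by
          intro h
          rw [padicValNat_dvd_iff_le (by omega)]
          have : padicValNat r (q₀ - 1) ≠ 0 := by
            have := one_le_padicValNat_of_dvd (by omega) hdvd
            omega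
          omega
        by_cases hr3 : r = 3
        · subst hr3
          by_cases hn3 : n = 3
          · subst hn3
            have h9 : 3 ^ 2 ∣ q₀ - 1 := hsq (hcon2 (Or.inl rfl) rfl)
            have h9' : 9 ∣ Fintype.card F - 1 := by rw [hq, hqq]; exact h9.mul_right _
            obtain ⟨ζ, hζ⟩ := H99.Elts.exists_root (F := F) 9 (by norm_num) h9'
            have hζ0 : ζ ≠ 0 := hζ.ne_zero (by norm_num)
            have hζ9 : ζ ^ 9 = 1 := hζ.pow_eq_one
            have hζ3 : ζ ^ 3 ≠ 1 := hζ.pow_ne_one_of_pos_of_lt (by norm_num) (by norm_num)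
            refine nf_false hs H (Matrix.diagonal (H99.Elts.d3 3 ζ ζ (ζ ^ 2)⁻¹)) ?_ (ζ ^ 3) ?_ ?_ (H99.NoForm.nf_nine _ hζ (hσ 9 ζ h9 hζ9))
            · rw [H99.Elts.det_d3 (by omega)]; field_simp
            · rw [Matrix.diagonal_pow, Matrix.smul_one_eq_diagonal]
              congr 1
              funext j
              have e1 : ((ζ ^ 2)⁻¹) ^ 3 = ζ ^ 3 := by
                rw [inv_pow, inv_eq_iff_eq_inv]
                apply eq_inv_of_mul_eq_one_left
                calc (ζ ^ 2) ^ 3 * ζ ^ 3 = ζ ^ 9 := by ring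
                  _ = 1 := hζ9
              simp only [Pi.pow_apply]
              rcases H99.NoForm.vals3 ζ (ζ ^ 2)⁻¹ j with ⟨-, h⟩ | ⟨-, h⟩ | ⟨h, -⟩
              · rw [h]
              · rw [h, e1]
              · omega
            · refine H99.Elts.diagonal_ne_scalar _ ⟨0, by omega⟩ ⟨2, by omega⟩ ?_
              intro h
              have h' : ζ = (ζ ^ 2)⁻¹ := h
              apply hζ3
              calc ζ ^ 3 = ζ * ζ ^ 2 := by ring
                _ = (ζ ^ 2)⁻¹ * ζ ^ 2 := by rw [← h']
                _ = 1 := inv_mul_cancel₀ (pow_ne_zero _ hζ0)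
          · refine nf_false hs H (Matrix.diagonal (H99.Elts.d3 n ω ω ω)) ?_ 1
              (by rw [one_smul]; exact H99.Elts.d3_pow _ _ _ _ hωr hωr hωr) ?_
              (H99.NoForm.nf_three _ (by omega) (fun h => hgap ⟨h, rfl⟩) hω hσω)
            · rw [H99.Elts.det_d3 (by omega)]; linear_combination hωr
            · exact H99.Elts.diagonal_ne_scalar _ ⟨0, by omega⟩ ⟨3, by omega⟩ (by simpa [H99.Elts.d3] using hω1)
        · have hr5 : 5 ≤ r := by
            have h1 := hr'.two_le
            by_contra h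
            have h4 : r = 4 := by omega
            rw [h4] at hr'
            exact absurd hr' (by norm_num)
          by_cases hn5 : n = 5 ∧ r = 5
          · obtain ⟨rfl, rfl⟩ := hn5
            have h9 : 5 ^ 2 ∣ q₀ - 1 := hsq (hcon2 (Or.inr rfl) rfl)
            have h9' : 25 ∣ Fintype.card F - 1 := by rw [hq, hqq]; exact h9.mul_right _
            obtain ⟨ζ, hζ⟩ := H99.Elts.exists_root (F := F) 25 (by norm_num) h9'
            have hζ0 : ζ ≠ 0 := hζ.ne_zero (by norm_num)
            have hζ9 : ζ ^ 25 = 1 := hζ.pow_eq_one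
            have hζ3 : ζ ^ 5 ≠ 1 := hζ.pow_ne_one_of_pos_of_lt (by norm_num) (by norm_num)
            refine nf_false hs H (Matrix.diagonal (H99.NoForm.d5 ζ)) ?_ (ζ ^ 5) ?_ ?_ (H99.NoForm.nf_25 _ hζ (hσ 25 ζ h9 hζ9))
            · rw [Matrix.det_diagonal, Fin.prod_univ_five]
              show ζ * (ζ ^ 5)⁻¹ * ζ * ζ * ζ * ζ = 1
              field_simp
            · rw [Matrix.diagonal_pow, Matrix.smul_one_eq_diagonal]
              congr 1
              funext j
              simp only [Pi.pow_apply, H99.NoForm.d5]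
              by_cases hj : j = 0
              · rw [if_pos hj, mul_pow, inv_pow, ← pow_mul, hζ9, inv_one, mul_one]
              · rw [if_neg hj]
            · refine H99.Elts.diagonal_ne_scalar _ 0 1 ?_
              intro h
              have h' : ζ * (ζ ^ 5)⁻¹ = ζ := h
              have h3 : (ζ ^ 5)⁻¹ = 1 := (mul_eq_left₀ hζ0).1 h'
              exact hζ3 (inv_eq_one.1 h3)
          · refine nf_false hs H (Matrix.diagonal (H99.Elts.d3 n ω ω (ω ^ 2)⁻¹)) ?_ 1 ?_ ?_
              (H99.NoForm.nf_five _ hn hr5 hr' hn5 hω hσω)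
            · rw [H99.Elts.det_d3 (by omega)]
              field_simp
            · rw [one_smul]
              exact H99.Elts.d3_pow _ _ _ _ hωr hωr (by rw [inv_pow, ← pow_mul, mul_comm, pow_mul, hωr, one_pow, inv_one])
            · refine H99.Elts.diagonal_ne_scalar _ ⟨0, by omega⟩ ⟨2, by omega⟩ ?_
              intro h
              have h' : ω = (ω ^ 2)⁻¹ := h
              have h3 : ω ^ 3 = 1 := by
                calc ω ^ 3 = ω * ω ^ 2 := by ring
                  _ = (ω ^ 2)⁻¹ * ω ^ 2 := by rw [← h']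
                  _ = 1 := inv_mul_cancel₀ (pow_ne_zero _ hω0)
              exact hω.pow_ne_one_of_pos_of_lt (by norm_num) (by omega) h3
      · have hdvd' : ¬ r ∣ Fintype.card F - 1 := by
          rw [hq, hqq]
          intro h
          rcases (Nat.Prime.dvd_mul hr').1 h with h | h
          · exact hdvd h
          · have h3 : ((q₀ + 1 : ℕ) : ZMod r) = 0 := (ZMod.natCast_eq_zero_iff _ _).2 h
            push_cast at h3
            have h4 : -((q₀ : ℕ) : ZMod r) = 1 := by linear_combination -h3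
            rw [h4, orderOf_one] at hseven
            exact absurd hseven (by decide)
        have hrq : ¬ r ∣ Fintype.card F := by
          rw [hq, hq₀]
          intro h
          exact hrq₀ (hr'.dvd_of_dvd_pow h)
        obtain ⟨i, C, G, hi, hi2, hGirr, hGmon, hGdeg, hCG, hCr, hC1⟩ := H99.Blk.exists_comp_block (F := F) (p := p) hr' hrp hdvd'
        have hin : i ≤ n := by
          rw [hi]
          exact H99.Blk.orderOf_le_of_dvd_card hr' hrq n (hidx.trans (Subgroup.index_dvd_card _))
        have hlt : i < orderOf (-((q₀ : ℕ) : ZMod r)) := by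
          have h1 : ((Fintype.card F : ℕ) : ZMod r) = (-((q₀ : ℕ) : ZMod r)) ^ 2 := by
            rw [hq, hq₀, neg_sq, Nat.cast_pow]
          rw [hi, h1, orderOf_pow' _ (by norm_num), Nat.gcd_eq_right hseven.two_dvd]
          have h2 : 0 < orderOf (-((q₀ : ℕ) : ZMod r)) := by
            have h5 : IsUnit (-((q₀ : ℕ) : ZMod r)) := by
              rw [isUnit_iff_ne_zero, neg_ne_zero]
              intro h
              exact hrq₀ ((ZMod.natCast_eq_zero_iff _ _).1 h)
            obtain ⟨u, hu⟩ := h5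
            rw [← hu, orderOf_units]
            exact orderOf_pos u
          omega
        let e : (Fin i ⊕ Fin (n - i)) ≃ Fin n := finSumFinEquiv.trans (finCongr (by omega))
        refine nf_false hs H (H99.Blk.emb e C) ?_ 1 (by rw [one_smul, H99.Blk.emb_pow, hCr, H99.Blk.emb_one])
          (H99.NoForm.emb_ne_scalar' e hGirr hGdeg hi2 hCG)
          (nf_even hK hin hr' hrq₀ hdvd' C (H99.NoForm.det_sub_smul_ne hGirr hGdeg hi2 hCG) hC1 hi2 hlt hCr e)
        rw [H99.Blk.emb_det]
        exact H99.Blk.det_eq_one_of_pow hr' hdvd' C hCr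
  · intro hcond x hxS hxz hxns
    obtain ⟨z, hz⟩ := hxz
    rw [Units.val_pow_eq_pow_val] at hz
    set X := (x : Matrix (Fin n) (Fin n) F) with hXdef
    have hdet : X.det = 1 := by
      have : x ∈ (Matrix.GeneralLinearGroup.det : GL (Fin n) F →* Fˣ).ker := hxS
      rw [MonoidHom.mem_ker] at this
      exact congrArg Units.val this
    rcases hcond with ⟨hr2, hcase⟩ | ⟨hr35, hnr, hv⟩
    · subst hr2
      rw [pow_two] at hz
      have hz0 : z ≠ 0 := by
        rintro rfl
        have := congrArg Matrix.det hz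
        rw [Matrix.det_mul, hdet, zero_smul, Matrix.det_zero] at this
        norm_num at this
      obtain ⟨s, m, μ, h1, h2', -, hdets, hP⟩ := H99.SqScalar.exists_std_matrix X z hz
      rw [Fintype.card_fin] at h1
      obtain ⟨ν, hν, hstd⟩ : ∃ ν : F, ν ^ 2 = z ∧ H99.SqScalar.std s m z μ = H99.SqScalar.std s m (ν ^ 2) ν := by
        by_cases hm : 0 < m
        · exact ⟨μ, h2' hm, by rw [h2' hm]⟩
        · have hm0 : m = 0 := by omega
          subst hm0
          have hsq : IsSquare z := by
            by_cases hp2 : p = 2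
            · subst hp2
              exact FiniteField.isSquare_of_char_two (CharP.eq F (ringChar.charP F) ‹CharP F 2›) z
            · by_contra hzns
              have hodd : Odd (Fintype.card F) := by
                obtain ⟨k, -, hk⟩ := FiniteField.card F p
                rw [hk]
                exact (hp.odd_of_ne_two hp2).pow
              have hval : padicValNat 2 n ≤ padicValNat 2 (q - 1) := by
                rcases hcase with h | h
                · exact absurd h hp2
                · exact h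
              have hq₀odd : Odd q₀ := by
                rw [hq, hq₀] at hodd
                exact (Nat.odd_pow_iff (by norm_num)).1 hodd
              have hm1 : IsSquare (-1 : F) := by
                rw [FiniteField.isSquare_neg_one_iff, hq, hq₀]
                obtain ⟨k, hk⟩ := hq₀odd
                rw [hk]
                have : (2 * k + 1) ^ 2 = 4 * (k * k + k) + 1 := by ring
                rw [this]; omega
              have hwns : ¬ IsSquare (-z) := by
                intro h
                apply hzns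
                have : z = (-z) * (-1) := by ring
                rw [this]
                exact h.mul hm1
              have hs0 : s ≠ 0 := by rintro rfl; omega
              rw [hdet, pow_zero, mul_one] at hdets
              have h5 := H99.PowNegOne.val_le_of_nonsquare hodd (-z) hwns s hs0 hdets.symm
              have h6 : n = 2 * s := by omega
              rw [h6, padicValNat.mul (by norm_num) hs0, padicValNat_self] at hval
              rw [hq] at h5
              omega
          obtain ⟨ν, hν⟩ := hsq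
          refine ⟨ν, by rw [hν, pow_two], ?_⟩
          rw [pow_two, ← hν, H99.SqScalar.std, H99.SqScalar.std]
          congr 1
          ext i
          exact i.elim0
      have hν0 : ν ≠ 0 := by rintro rfl; rw [zero_pow (by norm_num)] at hν; exact hz0 hν.symm
      let e : ((Fin 2 × Fin s) ⊕ Fin m) ≃ Fin n := Fintype.equivOfCardEq (by simp [h1])
      obtain ⟨P, hP1, hP2⟩ := hP e
      rw [hstd] at hP2
      obtain ⟨H0, hH1, hH2, hH3⟩ := exists_std_herm hK s m ν hν0
      obtain ⟨R, Y, hR, hRY, hY⟩ := H99.Herm.transport hK hf X P _ (Matrix.reindexAlgEquiv F F e H0) hP1 hP2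
        (hH1.map (Matrix.reindexAlgEquiv F F e)) (by
          rw [Matrix.coe_reindexAlgEquiv, ct_reindex, hH2]) (ν ^ q₀ * ν) (by
          rw [ct_reindex]
          show Matrix.reindexAlgEquiv F F e _ * Matrix.reindexAlgEquiv F F e H0 * Matrix.reindexAlgEquiv F F e _ = _
          rw [← map_mul, ← map_mul, hH3, map_smul])
      obtain ⟨R', hR', hRY'⟩ := H99.SqScalar.exists_det_one_conj X Y R z hz0 hz hR hRY
      exact back x R' Y hR' hRY' _ (mul_ne_zero (pow_ne_zero _ hν0) hν0) ((H99.Herm.sim_iff hK hs _ _).2 hY)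
    · subst hnr
      have hrodd : Odd n := by rcases hr35 with h | h <;> rw [h] <;> decide
      have hn2 : n ≠ 2 := by omega
      have hdvd : n ∣ q₀ - 1 := by
        by_contra h
        rw [padicValNat.eq_zero_of_not_dvd h] at hv
        exact zero_ne_one hv
      have hvq : padicValNat n (q - 1) = 1 := by
        rw [hqq, padicValNat.mul (by omega) (by omega), hv]
        have : ¬ n ∣ q₀ + 1 := by
          intro h
          have h3 : n ∣ 2 := by
            have := Nat.dvd_sub h hdvd
            have h4 : q₀ + 1 - (q₀ - 1) = 2 := by omega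
            rwa [h4] at this
          exact hn2 ((Nat.prime_dvd_prime_iff_eq hr' Nat.prime_two).1 h3)
        rw [padicValNat.eq_zero_of_not_dvd this]
      have hrF : ((n : ℕ) : F) ≠ 0 := by
        intro h
        rw [CharP.cast_eq_zero_iff F p] at h
        have hpn : p = n := (Nat.prime_dvd_prime_iff_eq hp hr').1 h
        rcases hr with h | h
        · exact hn2 h
        · exact h hpn.symm
      obtain ⟨ω, hω, P, l, hP, hXP, hsum⟩ := H99.Eig.exists_diag_sl hrodd (by rw [hq]; exact hvq) hrF X hdet z hz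
      have hωn : ω ^ n = 1 := hω.pow_eq_one
      have hω0 : ω ≠ 0 := hω.ne_zero hr'.ne_zero
      obtain ⟨m, hm, e, he⟩ := H99.Eig.exists_pairing hr35 l hsum
      have he' : ∀ i, ω ^ (l (e.symm (.inr (.inl i))) : ℕ) * ω ^ (l (e.symm (.inr (.inr i))) : ℕ) =
          ω ^ (l (e.symm (.inl ())) : ℕ) * ω ^ (l (e.symm (.inl ())) : ℕ) := fun i => H99.Eig.pow_mul_eq hω (he i)
      let τ' : Unit ⊕ (Fin m ⊕ Fin m) → Unit ⊕ (Fin m ⊕ Fin m) := Sum.map id Sum.swap
      have hτ' : ∀ a, τ' (τ' a) = a := by
        rintro (a | a | a) <;> rfl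
      have hωq : ω ^ q₀ = ω := by
        obtain ⟨t, ht⟩ := hdvd
        have : q₀ = n * t + 1 := by omega
        rw [this, pow_succ, pow_mul, hωn, one_pow, one_mul]
      obtain ⟨H0, hH1, hH2, hH3⟩ := exists_pair_herm hK (fun i => ω ^ (l i : ℕ)) (fun i => by
          rw [← pow_mul, mul_comm, pow_mul, hωq])
        (ω ^ (l (e.symm (.inl ())) : ℕ) * ω ^ (l (e.symm (.inl ())) : ℕ)) (fun i => e.symm (τ' (e i)))
        (fun i => by rw [Equiv.apply_symm_apply, hτ', Equiv.symm_apply_apply]) (by
          intro i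
          obtain ⟨a, rfl⟩ := e.symm.surjective i
          rw [Equiv.apply_symm_apply]
          rcases a with a | a | a
          · rfl
          · exact he' a
          · show ω ^ (l (e.symm (.inr (.inr a))) : ℕ) * ω ^ (l (e.symm (.inr (.inl a))) : ℕ) = _
            rw [mul_comm]
            exact he' a)
      obtain ⟨R, Y, hR, hRY, hY⟩ := H99.Herm.transport hK hf X P _ H0 hP hXP hH1 hH2 _ hH3
      obtain ⟨R', hR', hRY'⟩ := H99.Eig.det_one_of_diag hnpos X P _ hP hXP R Y hR hRY
      exact back x R' Y hR' hRY' _ (mul_ne_zero (pow_ne_zero _ hω0) (pow_ne_zero _ hω0)) ((H99.Herm.sim_iff hK hs _ _).2 hY)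

end Cfsg.Agent.S5982
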