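import Cfsg.Statements.S5985
import Cfsg.Agent.Lib.H99.OrthTwo2

set_option autoImplicit false
set_option linter.unusedSimpArgs false
open scoped MatrixGroups
open Cfsg

namespace Cfsg.Agent.S5985


open Module QuadraticMap H48.QuadSplit H48.QuadStd H96.OeType H99.OrthTwo
open scoped Matrix

section

variable {F : Type*} [Field F]

def dg {d : ℕ} (A : GL (Fin d) F) : GL (Fin d ⊕ Fin d) F where
  val := Matrix.fromBlocks (A : Matrix (Fin d) (Fin d) F) 0 0 ((A⁻¹ : GL (Fin d) F) : Matrix (Fin d) (Fin d) F)ᵀ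
  inv := Matrix.fromBlocks ((A⁻¹ : GL (Fin d) F) : Matrix (Fin d) (Fin d) F) 0 0 (A : Matrix (Fin d) (Fin d) F)ᵀ
  val_inv := by
    rw [Matrix.fromBlocks_multiply]
    simp only [Matrix.mul_zero, Matrix.zero_mul, add_zero, zero_add]
    rw [← Matrix.transpose_mul, ← Units.val_mul, mul_inv_cancel, Units.val_one, Matrix.transpose_one, Matrix.fromBlocks_one]
  inv_val := by
    rw [Matrix.fromBlocks_multiply]
    simp only [Matrix.mul_zero, Matrix.zero_mul, add_zero, zero_add]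
    rw [← Matrix.transpose_mul, ← Units.val_mul, inv_mul_cancel, Units.val_one, Matrix.transpose_one, Matrix.fromBlocks_one]

theorem dg_one {d : ℕ} : dg (1 : GL (Fin d) F) = 1 := by
  apply Units.ext
  show Matrix.fromBlocks ((1 : GL (Fin d) F) : Matrix (Fin d) (Fin d) F) 0 0 (((1 : GL (Fin d) F)⁻¹ : GL (Fin d) F) : Matrix (Fin d) (Fin d) F)ᵀ = _
  rw [inv_one, Units.val_one, Matrix.transpose_one, Matrix.fromBlocks_one]; rfl

theorem dg_mul {d : ℕ} (A B : GL (Fin d) F) : dg (A * B) = dg A * dg B := by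
  apply Units.ext
  show Matrix.fromBlocks ((A * B : GL (Fin d) F) : Matrix (Fin d) (Fin d) F) 0 0 (((A * B)⁻¹ : GL (Fin d) F) : Matrix (Fin d) (Fin d) F)ᵀ =
    Matrix.fromBlocks _ 0 0 _ * Matrix.fromBlocks _ 0 0 _
  rw [Matrix.fromBlocks_multiply]
  simp only [Matrix.mul_zero, Matrix.zero_mul, add_zero, zero_add]
  rw [← Matrix.transpose_mul, ← Units.val_mul, ← Units.val_mul, mul_inv_rev]

theorem dg_pow {d : ℕ} (A : GL (Fin d) F) (r : ℕ) : dg A ^ r = dg (A ^ r) := by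
  induction r with
  | zero => rw [pow_zero, pow_zero, dg_one]
  | succ r ih => rw [pow_succ, pow_succ, dg_mul, ih]

theorem dg_mulVec {d : ℕ} (A : GL (Fin d) F) (v : Fin d ⊕ Fin d → F) :
    (dg A : Matrix (Fin d ⊕ Fin d) (Fin d ⊕ Fin d) F) *ᵥ v =
      Sum.elim ((A : Matrix (Fin d) (Fin d) F) *ᵥ (v ∘ Sum.inl)) (((A⁻¹ : GL (Fin d) F) : Matrix (Fin d) (Fin d) F)ᵀ *ᵥ (v ∘ Sum.inr)) := by
  show Matrix.fromBlocks _ 0 0 _ *ᵥ v = _
  rw [Matrix.fromBlocks_mulVec, Matrix.zero_mulVec, Matrix.zero_mulVec, add_zero, zero_add]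

theorem qp_dot {d : ℕ} (v : Fin d ⊕ Fin d → F) : qPlus d F v = (v ∘ Sum.inl) ⬝ᵥ (v ∘ Sum.inr) := by
  rw [qPlus_apply]; rfl

theorem dg_iso {d : ℕ} (A : GL (Fin d) F) (v : Fin d ⊕ Fin d → F) :
    qPlus d F ((dg A : Matrix (Fin d ⊕ Fin d) (Fin d ⊕ Fin d) F) *ᵥ v) = qPlus d F v := by
  rw [dg_mulVec, qp_dot, qp_dot, Sum.elim_comp_inl, Sum.elim_comp_inr, Matrix.mulVec_transpose, dotProduct_comm,
    ← Matrix.dotProduct_mulVec, Matrix.mulVec_mulVec, ← Units.val_mul, inv_mul_cancel, Units.val_one, Matrix.one_mulVec, dotProduct_comm]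

def inv2 [CharP F 2] (d : ℕ) : GL (Fin d ⊕ Fin d) F :=
  let M : Matrix (Fin d ⊕ Fin d) (Fin d ⊕ Fin d) F := Matrix.fromBlocks 1 ((1 : Matrix (Fin d) (Fin d) F).submatrix Fin.rev id) 0 1
  have hM : M * M = 1 := by
    show Matrix.fromBlocks _ _ _ _ * Matrix.fromBlocks _ _ _ _ = _
    rw [Matrix.fromBlocks_multiply]
    simp only [Matrix.mul_zero, Matrix.zero_mul, add_zero, zero_add, Matrix.one_mul, Matrix.mul_one]
    rw [show ((1 : Matrix (Fin d) (Fin d) F).submatrix Fin.rev id) + ((1 : Matrix (Fin d) (Fin d) F).submatrix Fin.rev id) = 0 from by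
      ext i j
      exact CharTwo.add_self_eq_zero _, Matrix.fromBlocks_one]
  ⟨M, M, hM, hM⟩

theorem inv2_sq [CharP F 2] (d : ℕ) : (inv2 d : GL (Fin d ⊕ Fin d) F) ^ 2 = 1 := by
  rw [pow_two]
  apply Units.ext
  exact (inv2 (F := F) d).val_inv

theorem inv2_mulVec [CharP F 2] {d : ℕ} (v : Fin d ⊕ Fin d → F) :
    ((inv2 d : GL (Fin d ⊕ Fin d) F) : Matrix (Fin d ⊕ Fin d) (Fin d ⊕ Fin d) F) *ᵥ v =
      Sum.elim (fun i => v (Sum.inl i) + v (Sum.inr (Fin.rev i))) (v ∘ Sum.inr) := by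
  show Matrix.fromBlocks _ _ 0 _ *ᵥ v = _
  rw [Matrix.fromBlocks_mulVec, Matrix.zero_mulVec, zero_add, Matrix.one_mulVec, Matrix.one_mulVec]
  congr 1
  funext i
  show v (Sum.inl i) + (fun j => (1 : Matrix (Fin d) (Fin d) F) (Fin.rev i) j) ⬝ᵥ (v ∘ Sum.inr) = _
  congr 1
  have := congrFun (Matrix.one_mulVec (v ∘ Sum.inr)) (Fin.rev i)
  exact this

theorem inv2_iso [CharP F 2] {d : ℕ} (hd : Even d) (v : Fin d ⊕ Fin d → F) :
    qPlus d F (((inv2 d : GL (Fin d ⊕ Fin d) F) : Matrix (Fin d ⊕ Fin d) (Fin d ⊕ Fin d) F) *ᵥ v) = qPlus d F v := by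
  rw [inv2_mulVec, qPlus_apply, qPlus_apply]
  have h0 : ∑ i : Fin d, v (Sum.inr (Fin.rev i)) * v (Sum.inr i) = 0 := by
    refine Finset.sum_involution (fun i _ => Fin.rev i) ?_ ?_ ?_ ?_
    · intro i _
      rw [Fin.rev_rev, mul_comm (v (Sum.inr i))]
      exact CharTwo.add_self_eq_zero _
    · intro i _ _ h
      have := congrArg Fin.val h
      rw [Fin.val_rev] at this
      obtain ⟨k, hk⟩ := hd
      have := i.2
      omega
    · intro i _; exact Finset.mem_univ _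
    · intro i _; exact Fin.rev_rev i
  have : ∀ i : Fin d, Sum.elim (fun i => v (Sum.inl i) + v (Sum.inr (Fin.rev i))) (v ∘ Sum.inr) (Sum.inl i) *
      Sum.elim (fun i => v (Sum.inl i) + v (Sum.inr (Fin.rev i))) (v ∘ Sum.inr) (Sum.inr i) =
      v (Sum.inl i) * v (Sum.inr i) + v (Sum.inr (Fin.rev i)) * v (Sum.inr i) := by
    intro i
    show (v (Sum.inl i) + v (Sum.inr (Fin.rev i))) * v (Sum.inr i) = _
    ring
  rw [Finset.sum_congr rfl (fun i _ => this i), Finset.sum_add_distrib, h0, add_zero]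

theorem inv2_fix [CharP F 2] {d : ℕ} (v : Fin d ⊕ Fin d → F) 
    (hv : ((inv2 d : GL (Fin d ⊕ Fin d) F) : Matrix (Fin d ⊕ Fin d) (Fin d ⊕ Fin d) F) *ᵥ v = v) : qPlus d F v = 0 := by
  rw [inv2_mulVec] at hv
  rw [qPlus_apply]
  refine Finset.sum_eq_zero fun i _ => ?_
  have h1 := congrFun hv (Sum.inl (Fin.rev i))
  have h2 : v (Sum.inl (Fin.rev i)) + v (Sum.inr (Fin.rev (Fin.rev i))) = v (Sum.inl (Fin.rev i)) := h1
  rw [Fin.rev_rev] at h2
  have h3 : v (Sum.inr i) = 0 := by linear_combination h2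
  rw [h3, mul_zero]

theorem inv2_mem [CharP F 2] [Fintype F] {d : ℕ} (hd : Even d) (hd4 : 4 ≤ d) : (inv2 d : GL (Fin d ⊕ Fin d) F) ∈ Cfsg.Geo.omegaGL (⇑(qPlus d F)) := by
  let φ : (Fin d → F) →ₗ[F] (Fin d ⊕ Fin d → F) :=
    { toFun := fun v => Sum.elim v (fun _ => 0)
      map_add' := fun v w => by ext i; rcases i with i | i <;> simp
      map_smul' := fun c v => by ext i; rcases i with i | i <;> simp }
  have hinj : Function.Injective φ := by
    intro v w h
    funext i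
    exact congrFun h (Sum.inl i)
  have hW : H48.MaxSing.MS (qPlus d F) d (LinearMap.range φ) := by
    constructor
    · rintro _ ⟨v, rfl⟩
      rw [qPlus_apply]
      exact Finset.sum_eq_zero (fun i _ => by
        change _ * (0 : F) = 0
        rw [mul_zero])
    · rw [LinearMap.finrank_range_of_inj hinj, finrank_fintype_fun_eq_card, Fintype.card_fin]
  have hg : (inv2 d : GL (Fin d ⊕ Fin d) F) ∈ Cfsg.isometryGroup F (⇑(qPlus d F)) := by
    rw [H17.OrthDet.mem_isometryGroup_iff]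
    exact fun v => inv2_iso hd v
  refine ⟨⟨_, hg⟩, ?_, rfl⟩
  show (⟨_, hg⟩ : ↥(Cfsg.isometryGroup F (⇑(qPlus d F)))) ∈ Cfsg.Omega F (⇑(qPlus d F))
  rw [H48.MaxSing.mem_Omega_iff_parity (nd_qPlus d) (m := d) (by rw [Fintype.card_sum, Fintype.card_fin]; ring)
    (Or.inr (by rw [Fintype.card_sum, Fintype.card_fin]; omega)) hW]
  have h1 : (LinearMap.range φ).map (Matrix.toLin' ((inv2 d : GL (Fin d ⊕ Fin d) F) : Matrix (Fin d ⊕ Fin d) (Fin d ⊕ Fin d) F)) = LinearMap.range φ := by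
    rw [← LinearMap.range_comp]
    congr 1
    apply LinearMap.ext
    intro v
    rw [LinearMap.comp_apply, Matrix.toLin'_apply, inv2_mulVec]
    ext i
    rcases i with i | i
    · show v i + (0 : F) = v i
      rw [add_zero]
    · rfl
  rw [h1, inf_idem, hW.d]

end


/-- Elements of prime order of Ω⁺_n(q), q even, with no fixed nonsingular 1-space. Here `T = PΩ⁺_n(F)`, `n = 2d ≥ 8`, realised through `Ω⁺_n(q)`, the commutator subgroup of the isometry group of `Q = Σ xᵢyᵢ` over the field `F` with `q` elements; an element of `T` of prime order `r` is an element `x` of `Ω⁺_n(q)` with `x^r` scalar and `x` not scalar; `q` is even (so the centre is trivial). Let Ω be the set of 1-dimensional subspaces spanned by a vector `v` with `Q(v) ≠ 0`, and let `r` be a prime dividing their number. Then every element of `T` of order `r` fixes some nonsingular 1-space if and only if `r = 2` and `n ≡ 2 (mod 4)` (that is, `d` is odd). -/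
theorem result {F : Type*} [Field F] [Fintype F] {p : ℕ} [Fact p.Prime] [CharP F p] {q : ℕ} (hq : Fintype.card F = q)
    (hp : p = 2) (d : ℕ) (hd : 4 ≤ d) (r : ℕ) [Fact r.Prime]
    (hrΩ : r ∣ Nat.card {W : Submodule F (Fin d ⊕ Fin d → F) // Module.finrank F ↥W = 1 ∧ ∃ v ∈ W, Cfsg.quadFormPlus d F v ≠ 0}) :
    (∀ x : GL (Fin d ⊕ Fin d) F, x ∈ Cfsg.Geo.omegaGL (Cfsg.quadFormPlus d F) →
      (∃ z : F, ((x ^ r : GL (Fin d ⊕ Fin d) F) : Matrix (Fin d ⊕ Fin d) (Fin d ⊕ Fin d) F) = z • (1 : Matrix (Fin d ⊕ Fin d) (Fin d ⊕ Fin d) F)) →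
      (∀ z : F, (x : Matrix (Fin d ⊕ Fin d) (Fin d ⊕ Fin d) F) ≠ z • (1 : Matrix (Fin d ⊕ Fin d) (Fin d ⊕ Fin d) F)) →
      ∃ W : Submodule F (Fin d ⊕ Fin d → F), (Module.finrank F ↥W = 1 ∧ ∃ v ∈ W, Cfsg.quadFormPlus d F v ≠ 0) ∧ W.map (Matrix.toLin' (x : Matrix (Fin d ⊕ Fin d) (Fin d ⊕ Fin d) F)) ≤ W) ↔ (r = 2 ∧ Odd d) := by

  subst hp
  have hr := (Fact.out : r.Prime)
  rw [← coe_qPlus] at hrΩ ⊢
  obtain ⟨m, rfl⟩ : ∃ m, d = m + 1 := ⟨d - 1, by omega⟩
  have hQ := nd_qPlus (F := F) (m + 1)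
  have : Nonempty (Fin (m + 1) ⊕ Fin (m + 1)) := ⟨Sum.inl 0⟩
  obtain ⟨v0, hv0⟩ := exists_nonsing hQ
  have hdim : finrank F (Fin (m + 1) ⊕ Fin (m + 1) → F) = 2 * (m + 1) := by
    rw [finrank_fintype_fun_eq_card, Fintype.card_sum, Fintype.card_fin]; ring
  have hcard : Fintype.card F ≠ 2 ∨ Fintype.card (Fin (m + 1) ⊕ Fin (m + 1)) ≠ 4 := Or.inr (by rw [Fintype.card_sum, Fintype.card_fin]; omega)
  constructor
  · intro H
    have H' : ∀ x : GL (Fin (m + 1) ⊕ Fin (m + 1)) F, x ∈ Cfsg.Geo.omegaGL (⇑(qPlus (m + 1) F)) → x ^ r = 1 → ¬ (∀ v, (x : Matrix _ _ F) *ᵥ v = v → qPlus (m + 1) F v = 0) := by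
      intro x hx hxr hfix
      obtain ⟨W, hW, hxW⟩ := H x hx ⟨1, by rw [hxr, one_smul, Units.val_one]⟩ (by
        intro z hz
        have h1 := scal_one (mem_iso hx) hv0 hz
        apply hv0
        apply hfix
        rw [hz, h1, one_smul, Matrix.one_mulVec])
      obtain ⟨v, h1, h2⟩ := fix_of_line (mem_iso hx) hW hxW
      exact h1 (hfix v h2)
    have hq1 : 1 < Fintype.card F := Fintype.one_lt_card
    by_cases hr2 : r = 2
    · refine ⟨hr2, ?_⟩
      subst hr2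
      rw [← Nat.not_even_iff_odd]
      intro he
      exact H' _ (inv2_mem he hd) (inv2_sq _) inv2_fix
    · exfalso
      have h1 : r ∣ Nat.card {v : Fin (m + 1) ⊕ Fin (m + 1) → F // qPlus (m + 1) F v ≠ 0} := by
        rw [← card_lines]
        exact Dvd.dvd.mul_left hrΩ _
      have h2 := ns_plus m F
      rw [← card_lines] at h2
      have h3 := Nat.eq_of_mul_eq_mul_left (by omega) h2
      rw [h3] at hrΩ
      have h4 : r ∣ Fintype.card F ^ (m + 1) - 1 := by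
        rcases (hr.dvd_mul).1 hrΩ with h | h
        · exfalso
          have h5 := hr.dvd_of_dvd_pow h
          obtain ⟨n, -, hn⟩ := FiniteField.card F 2
          rw [hn] at h5
          exact hr2 ((Nat.prime_dvd_prime_iff_eq hr Nat.prime_two).1 (hr.dvd_of_dvd_pow h5))
        · exact h
      obtain ⟨A, hA, hfix⟩ := exists_fpf_gl F 2 (Nat.succ_pos m) hr h4
      have hxr : dg A ^ r = 1 := by rw [dg_pow, hA, dg_one]
      refine H' (dg A) (H99.OrthUni3.mem_omega_of_odd _ (nd_iff.1 hQ) hcard ((H17.OrthDet.mem_isometryGroup_iff _ _).mpr (fun v => dg_iso A v))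
        (hr.odd_of_ne_two hr2) hxr) hxr ?_
      intro v hv
      have h6 : v ∘ Sum.inl = 0 := by
        apply hfix
        rw [dg_mulVec] at hv
        have := congrArg (fun w => w ∘ Sum.inl) hv
        simpa using this
      rw [qp_dot, h6, zero_dotProduct]
  · rintro ⟨rfl, hodd⟩ x hx ⟨z, hz⟩ -
    by_contra hcon
    have hx2 := pow_one_of_scal (mem_iso hx) hv0 hz
    have hQ' : ∀ v, (x : Matrix _ _ F) *ᵥ v = v → qPlus (m + 1) F v = 0 := by
      intro v hv
      by_contra h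
      exact hcon (line_of_fix h hv)
    have := (invol_ts hQ hdim (Matrix.toLin' (x : Matrix (Fin (m + 1) ⊕ Fin (m + 1)) (Fin (m + 1) ⊕ Fin (m + 1)) F)) (fun v => by rw [Matrix.toLin'_apply]; exact mem_iso hx v) (fun v => by
      rw [Matrix.toLin'_apply, Matrix.toLin'_apply, Matrix.mulVec_mulVec, ← Units.val_mul, ← pow_two, hx2, Units.val_one, Matrix.one_mulVec])
      (fun v hv => hQ' v (by rwa [Matrix.toLin'_apply] at hv))).1
    rw [← Nat.not_odd_iff_even] at this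
    exact this hodd

end Cfsg.Agent.S5985
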