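import Cfsg.Statements.S5983
import Cfsg.Agent.Lib.H99.OrthTwo3
import Cfsg.Agent.S5985

set_option autoImplicit false
set_option linter.unusedSimpArgs false
open scoped MatrixGroups
open Cfsg

namespace Cfsg.Agent.S5983


open Module QuadraticMap H48.QuadSplit H48.QuadStd H96.OeType H99.OrthTwo H48.CharTwoQ Cfsg.Agent.S5985
open scoped Matrix

universe u

theorem exists_gl {ι : Type} [Fintype ι] [DecidableEq ι] {F : Type u} [Field F] (f : (ι → F) →ₗ[F] (ι → F)) {r : ℕ} (hr : 0 < r) (hf : f ^ r = 1) :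
    ∃ x : GL ι F, (∀ v, (x : Matrix ι ι F) *ᵥ v = f v) ∧ x ^ r = 1 := by
  have h1 : f * f ^ (r - 1) = 1 := by rw [← pow_succ', Nat.sub_add_cancel hr, hf]
  have h2 : f ^ (r - 1) * f = 1 := by rw [← pow_succ, Nat.sub_add_cancel hr, hf]
  let x : GL ι F := ⟨LinearMap.toMatrix' f, LinearMap.toMatrix' (f ^ (r - 1)), by
    rw [← LinearMap.toMatrix'_mul, h1, LinearMap.toMatrix'_one], by
    rw [← LinearMap.toMatrix'_mul, h2, LinearMap.toMatrix'_one]⟩
  have hx : ∀ v, (x : Matrix ι ι F) *ᵥ v = f v := by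
    intro v
    show (LinearMap.toMatrix' f) *ᵥ v = _
    rw [← Matrix.toLin'_apply, Matrix.toLin'_toMatrix']
  refine ⟨x, hx, ?_⟩
  apply Units.ext
  apply Matrix.toLin'.injective
  rw [Units.val_pow_eq_pow_val, Matrix.toLin'_pow]
  have : Matrix.toLin' (x : Matrix ι ι F) = f := by
    apply LinearMap.ext; intro v; rw [Matrix.toLin'_apply, hx]
  rw [this, hf, Units.val_one, Matrix.toLin'_one]; rfl

section

variable {F : Type u} [Field F] [Fintype F] [CharP F 2]

/-- scalar symplectic matrices are trivial -/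
theorem sp_scal {d : ℕ} (hd : 0 < d) {A : Matrix (Fin d ⊕ Fin d) (Fin d ⊕ Fin d) F}
    (hA : ∀ u v, Cfsg.sympForm d F (A *ᵥ u) (A *ᵥ v) = Cfsg.sympForm d F u v) {z : F} (hz : A = z • 1) : z = 1 := by
  have hQ := nd_qPlus (F := F) d
  obtain ⟨u, v, huv⟩ : ∃ u v, polar (qPlus d F) u v ≠ 0 := by
    by_contra hcon
    push Not at hcon
    have h1 := hQ (fun _ => 1) (fun y => hcon _ y)
    exact one_ne_zero (congrFun h1 (Sum.inl ⟨0, hd⟩))
  have h1 := hA u v
  rw [hz, Matrix.smul_mulVec, Matrix.smul_mulVec, Matrix.one_mulVec, Matrix.one_mulVec, ← polar_plus, ← polar_plus,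
    polar_smul_left, polar_smul_right, smul_eq_mul, smul_eq_mul] at h1
  have h2 : (z - 1) ^ 2 * polar (qPlus d F) u v = 0 := by
    have h2 := CharTwo.two_eq_zero (R := F)
    linear_combination h1 + (1 - z) * polar (qPlus d F) u v * h2
  exact sub_eq_zero.1 (pow_eq_zero_iff (two_ne_zero) |>.1 ((mul_eq_zero.1 h2).resolve_right huv))

theorem sp_pow {d : ℕ} {x : GL (Fin d ⊕ Fin d) F} (hx : x ∈ Cfsg.spGL d F) {r : ℕ} {z : F} (hd : 0 < d)
    (hz : ((x ^ r : GL (Fin d ⊕ Fin d) F) : Matrix (Fin d ⊕ Fin d) (Fin d ⊕ Fin d) F) = z • (1 : Matrix (Fin d ⊕ Fin d) (Fin d ⊕ Fin d) F)) :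
    x ^ r = 1 := by
  have h1 := sp_scal hd (mem_sp.1 ((Cfsg.spGL d F).pow_mem hx r)) hz
  apply Units.ext
  rw [hz, h1, one_smul, Units.val_one]

/-- an element conjugate into the orthogonal group preserves a form of the same type -/
theorem inv_form {d : ℕ} (hd : 0 < d) {Q : (Fin d ⊕ Fin d → F) → F} (hQ : Cfsg.Geo.IsNondegenerateQuadraticForm Q)
    (hQf : ∀ u v, QuadraticMap.polar Q u v = Cfsg.sympForm d F u v) {x g : GL (Fin d ⊕ Fin d) F} (hx : x ∈ Cfsg.spGL d F)
    (hg : g ∈ Cfsg.spGL d F) (h : g⁻¹ * x * g ∈ Cfsg.Geo.quadSimilarityGroup Q) :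
    ∃ Q2 : QuadraticForm F (Fin d ⊕ Fin d → F), (∀ u v, polar Q2 u v = Cfsg.sympForm d F u v) ∧
      (∀ v, Q2 ((x : Matrix (Fin d ⊕ Fin d) (Fin d ⊕ Fin d) F) *ᵥ v) = Q2 v) ∧ (PT Q2 ↔ PT (H99.Quad.toQF hQ)) := by
  obtain ⟨c, hc⟩ := h
  have hm := (Cfsg.spGL d F).mul_mem ((Cfsg.spGL d F).mul_mem ((Cfsg.spGL d F).inv_mem hg) hx) hg
  rw [mem_sp] at hm
  obtain ⟨u, v, huv⟩ : ∃ u v, Cfsg.sympForm d F u v ≠ 0 := by
    by_contra hcon
    push Not at hcon
    have h1 := nd_qPlus (F := F) d (fun _ => 1) (fun y => by rw [polar_plus]; exact hcon _ y)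
    exact one_ne_zero (congrFun h1 (Sum.inl ⟨0, hd⟩))
  have hc1 : (c : F) = 1 := by
    have h1 := hm u v
    rw [← hQf, QuadraticMap.polar, ← Matrix.mulVec_add, hc, hc, hc] at h1
    have h2 : (c : F) * polar Q u v = Cfsg.sympForm d F u v := by
      rw [QuadraticMap.polar]; linear_combination h1
    rw [hQf] at h2
    exact mul_right_cancel₀ huv (by rw [h2, one_mul])
  let e : (Fin d ⊕ Fin d → F) ≃ₗ[F] (Fin d ⊕ Fin d → F) := H95.Bridge.toEq _ F g⁻¹
  have he : ∀ v, e v = ((g⁻¹ : GL (Fin d ⊕ Fin d) F) : Matrix (Fin d ⊕ Fin d) (Fin d ⊕ Fin d) F) *ᵥ v := by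
    intro v
    have := H95.Bridge.toEq_symm_mulVec e v
    rw [← this]
    simp only [e]
    rw [MulEquiv.symm_apply_apply]
  let Q2 : QuadraticForm F (Fin d ⊕ Fin d → F) := (H99.Quad.toQF hQ).comp e.toLinearMap
  have hQ2 : ∀ v, Q2 v = Q (((g⁻¹ : GL (Fin d ⊕ Fin d) F) : Matrix (Fin d ⊕ Fin d) (Fin d ⊕ Fin d) F) *ᵥ v) := by
    intro v
    rw [← he]; rfl
  refine ⟨Q2, ?_, ?_, ?_⟩
  · intro u v
    rw [QuadraticMap.polar, hQ2, hQ2, hQ2, Matrix.mulVec_add]
    have h1 := hQf (((g⁻¹ : GL (Fin d ⊕ Fin d) F) : Matrix (Fin d ⊕ Fin d) (Fin d ⊕ Fin d) F) *ᵥ u) (((g⁻¹ : GL (Fin d ⊕ Fin d) F) : Matrix (Fin d ⊕ Fin d) (Fin d ⊕ Fin d) F) *ᵥ v)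
    rw [QuadraticMap.polar] at h1
    rw [h1]
    exact mem_sp.1 ((Cfsg.spGL d F).inv_mem hg) u v
  · intro v
    rw [hQ2, hQ2]
    have h1 := hc (((g⁻¹ : GL (Fin d ⊕ Fin d) F) : Matrix (Fin d ⊕ Fin d) (Fin d ⊕ Fin d) F) *ᵥ v)
    rw [Matrix.mulVec_mulVec, ← Units.val_mul, hc1, one_mul] at h1
    rw [Matrix.mulVec_mulVec, ← Units.val_mul]
    have : g⁻¹ * x * g * g⁻¹ = g⁻¹ * x := by group
    rw [this] at h1
    exact h1
  · have : Q2.Equivalent (H99.Quad.toQF hQ) := ⟨⟨e, fun v => rfl⟩⟩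
    exact pt_iff_of_equiv this

/-- conversely -/
theorem conj_form {d : ℕ} {Q : (Fin d ⊕ Fin d → F) → F} (hQ : Cfsg.Geo.IsNondegenerateQuadraticForm Q)
    (hQf : ∀ u v, QuadraticMap.polar Q u v = Cfsg.sympForm d F u v) {x : GL (Fin d ⊕ Fin d) F} 
    {Q2 : QuadraticForm F (Fin d ⊕ Fin d → F)} (h1 : ∀ u v, polar Q2 u v = Cfsg.sympForm d F u v)
    (h2 : ∀ v, Q2 ((x : Matrix (Fin d ⊕ Fin d) (Fin d ⊕ Fin d) F) *ᵥ v) = Q2 v) (h3 : PT Q2 ↔ PT (H99.Quad.toQF hQ)) :
    ∃ g ∈ Cfsg.spGL d F, g⁻¹ * x * g ∈ Cfsg.Geo.quadSimilarityGroup Q := by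
  have hd : finrank F (Fin d ⊕ Fin d → F) = 2 * d := by
    rw [finrank_fintype_fun_eq_card, Fintype.card_sum, Fintype.card_fin]; ring
  have hND : ND Q2 := by
    intro y hy
    apply nd_qPlus d y
    intro w
    rw [polar_plus, ← h1]; exact hy w
  obtain ⟨e⟩ := equiv_of_same (H99.Quad.nd_toQF hQ) hND hd hd h3.symm
  let g : GL (Fin d ⊕ Fin d) F := (H95.Bridge.toEq _ F).symm e.toLinearEquiv
  have hg : ∀ v, (g : Matrix (Fin d ⊕ Fin d) (Fin d ⊕ Fin d) F) *ᵥ v = e v := fun v => H95.Bridge.toEq_symm_mulVec e.toLinearEquiv v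
  have hgQ : ∀ v, Q2 ((g : Matrix (Fin d ⊕ Fin d) (Fin d ⊕ Fin d) F) *ᵥ v) = Q v := by
    intro v
    rw [hg, e.map_app]; rfl
  refine ⟨g, ?_, 1, ?_⟩
  · rw [mem_sp]
    intro u v
    rw [← h1, ← hQf, QuadraticMap.polar, QuadraticMap.polar, ← Matrix.mulVec_add, hgQ, hgQ, hgQ]
  · intro v
    rw [Units.val_one, one_mul, ← hgQ, Matrix.mulVec_mulVec, ← Units.val_mul]
    have : g * (g⁻¹ * x * g) = x * g := by group
    rw [this, Units.val_mul, ← Matrix.mulVec_mulVec, h2, hgQ]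

/-- fixed-point-free elements preserve at most one form -/
theorem uniq {d : ℕ} {x : GL (Fin d ⊕ Fin d) F} (hfix : ∀ v, (x : Matrix (Fin d ⊕ Fin d) (Fin d ⊕ Fin d) F) *ᵥ v = v → v = 0)
    {Q1 Q2 : QuadraticForm F (Fin d ⊕ Fin d → F)} (h : ∀ u v, polar Q1 u v = polar Q2 u v)
    (h1 : ∀ v, Q1 ((x : Matrix (Fin d ⊕ Fin d) (Fin d ⊕ Fin d) F) *ᵥ v) = Q1 v) (h2 : ∀ v, Q2 ((x : Matrix (Fin d ⊕ Fin d) (Fin d ⊕ Fin d) F) *ᵥ v) = Q2 v) : Q1 = Q2 := by
  obtain ⟨l, hl⟩ := exists_diff h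
  have hl2 : ∀ v, l ((x : Matrix (Fin d ⊕ Fin d) (Fin d ⊕ Fin d) F) *ᵥ v) = l v := by
    intro v
    apply sq_inj
    have a1 := hl ((x : Matrix (Fin d ⊕ Fin d) (Fin d ⊕ Fin d) F) *ᵥ v)
    have a2 := hl v
    rw [h1, h2] at a1
    linear_combination a2 - a1
  let N : (Fin d ⊕ Fin d → F) →ₗ[F] (Fin d ⊕ Fin d → F) := Matrix.toLin' (x : Matrix (Fin d ⊕ Fin d) (Fin d ⊕ Fin d) F) - LinearMap.id
  have hN : ∀ v, N v = (x : Matrix (Fin d ⊕ Fin d) (Fin d ⊕ Fin d) F) *ᵥ v - v := fun v => by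
    show Matrix.toLin' (x : Matrix (Fin d ⊕ Fin d) (Fin d ⊕ Fin d) F) v - v = _
    rw [Matrix.toLin'_apply]
  have hinj : Function.Injective N := by
    rw [← LinearMap.ker_eq_bot, LinearMap.ker_eq_bot']
    intro v hv
    apply hfix
    rw [hN] at hv
    exact sub_eq_zero.1 hv
  have hsurj := LinearMap.injective_iff_surjective.1 hinj
  ext v
  obtain ⟨w, rfl⟩ := hsurj v
  rw [hl, hN, _root_.map_sub l, hl2, sub_self]
  ring

end


/-- Elements of prime order of PSp_n(q), q even, and the subgroups of orthogonal type. Here `T = Sp_{2d}(F)` for a field `F` of characteristic 2 with `q` elements (`d ≥ 2`, `(d, q) ≠ (2, 2)`), realised as the invertible matrices preserving the standard alternating form; `Q` is a non-degenerate quadratic form on `F^{2d}` whose polar form is that alternating form, and `H` is the subgroup of `T` preserving `Q` up to a scalar (equivalently preserving `Q`) — a subgroup of type O^±_{2d}(q) (maximality is not assumed);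 `Q` is of plus type when `F^{2d}` contains a `d`-dimensional subspace on which `Q` vanishes, of minus type otherwise. Ω is the set of cosets of `H` in `T`, so an element of `T` of prime order `r` (`x ∈ T` with `x^r` scalar, `x` not scalar) fixes a point of Ω exactly when some `T`-conjugate of `x` preserves `Q`. Let `r` be a prime dividing the index of `H`. Then every element of `T` of order `r` fixes a point of Ω if and only if `r = 2` and either `Q` is of plus type or `d` is odd. -/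
theorem result {F : Type*} [Field F] [Fintype F] {p : ℕ} [Fact p.Prime] [CharP F p] {q : ℕ} (hq : Fintype.card F = q)
    (hp : p = 2) (d : ℕ) (hd : 2 ≤ d) (hT : (d, q) ≠ (2, 2)) (Q : (Fin d ⊕ Fin d → F) → F) (hQ : Cfsg.Geo.IsNondegenerateQuadraticForm Q)
    (hQf : ∀ u v, QuadraticMap.polar Q u v = Cfsg.sympForm d F u v)
    (r : ℕ) [Fact r.Prime]
    (hΩ : r ∣ (Cfsg.Geo.quadSimilarityGroup Q).relIndex (Cfsg.spGL d F)) :
    (∀ x ∈ Cfsg.spGL d F, (∃ z : F, ((x ^ r : GL (Fin d ⊕ Fin d) F) : Matrix (Fin d ⊕ Fin d) (Fin d ⊕ Fin d) F) = z • (1 : Matrix (Fin d ⊕ Fin d) (Fin d ⊕ Fin d) F)) →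
      (∀ z : F, (x : Matrix (Fin d ⊕ Fin d) (Fin d ⊕ Fin d) F) ≠ z • (1 : Matrix (Fin d ⊕ Fin d) (Fin d ⊕ Fin d) F)) →
      ∃ g ∈ Cfsg.spGL d F, g⁻¹ * x * g ∈ Cfsg.Geo.quadSimilarityGroup Q) ↔
    (r = 2 ∧ (Cfsg.Geo.IsPlusTypeOn Q ⊤ ∨ Odd d)) := by

  subst hp
  have hr := (Fact.out : r.Prime)
  have hd0 : 0 < d := by omega
  have hdim : finrank F (Fin d ⊕ Fin d → F) = 2 * d := by
    rw [finrank_fintype_fun_eq_card, Fintype.card_sum, Fintype.card_fin]; ring
  have hpl : Cfsg.Geo.IsPlusTypeOn Q ⊤ ↔ PT (H99.Quad.toQF hQ) := by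
    constructor
    · rintro ⟨U, -, hU, hUd⟩
      refine ⟨U, fun u hu => hU u hu, ?_⟩
      rw [hUd, finrank_top]
    · rintro ⟨U, hU, hUd⟩
      exact ⟨U, le_top, fun u hu => hU u hu, by rw [hUd, finrank_top]⟩
  rw [hpl]
  constructor
  · intro H
    have H' : ∀ x ∈ Cfsg.spGL d F, x ^ r = 1 → x ≠ 1 → ∃ Q2 : QuadraticForm F (Fin d ⊕ Fin d → F), (∀ u v, polar Q2 u v = Cfsg.sympForm d F u v) ∧
      (∀ v, Q2 ((x : Matrix (Fin d ⊕ Fin d) (Fin d ⊕ Fin d) F) *ᵥ v) = Q2 v) ∧ (PT Q2 ↔ PT (H99.Quad.toQF hQ)) := by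
      intro x hx hxr hx1
      obtain ⟨g, hg, hg2⟩ := H x hx ⟨1, by rw [hxr, one_smul, Units.val_one]⟩ (by
        intro z hz
        have h1 := sp_scal hd0 (mem_sp.1 hx) hz
        apply hx1
        apply Units.ext
        rw [hz, h1, one_smul, Units.val_one])
      exact inv_form hd0 hQ hQf hx hg hg2
    have hone : ∀ {x : GL (Fin d ⊕ Fin d) F}, (∀ v, (x : Matrix (Fin d ⊕ Fin d) (Fin d ⊕ Fin d) F) *ᵥ v = v → v = 0) → x ≠ 1 := by
      rintro x hx rfl
      have := hx (fun _ => 1) (by rw [Units.val_one, Matrix.one_mulVec])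
      exact one_ne_zero (congrFun this (Sum.inl ⟨0, hd0⟩))
    by_cases hr2 : r = 2
    · subst hr2
      refine ⟨rfl, ?_⟩
      by_contra hcon
      rw [not_or, Nat.not_odd_iff_even] at hcon
      obtain ⟨hnp, he⟩ := hcon
      have hmem : (inv2 d : GL (Fin d ⊕ Fin d) F) ∈ Cfsg.spGL d F := by
        apply iso_le_sp (Q := qPlus d F) (fun u v => polar_plus d u v)
        rw [H17.OrthDet.mem_isometryGroup_iff]
        exact fun v => inv2_iso he v
      obtain ⟨Q2, q1, q2, q3⟩ := H' (inv2 d) hmem (inv2_sq d) (by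
        intro h
        have h1 := inv2_mulVec (F := F) (d := d) (fun _ => 1)
        rw [h, Units.val_one, Matrix.one_mulVec] at h1
        have h2 := congrFun h1 (Sum.inl ⟨0, hd0⟩)
        have h3 : (1 : F) = 1 + 1 := h2
        exact one_ne_zero (α := F) (by linear_combination -h3))
      apply hnp
      rw [← q3]
      let φ : (Fin d → F) →ₗ[F] (Fin d ⊕ Fin d → F) :=
        { toFun := fun v => Sum.elim v (fun _ => 0)
          map_add' := fun v w => by ext i; rcases i with i | i <;> simp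
          map_smul' := fun c v => by ext i; rcases i with i | i <;> simp }
      have hinj : Function.Injective φ := by
        intro v w h
        funext i
        exact congrFun h (Sum.inl i)
      refine ⟨LinearMap.range φ, ?_, by rw [LinearMap.finrank_range_of_inj hinj, finrank_fintype_fun_eq_card, Fintype.card_fin, hdim]⟩
      rintro _ ⟨u, rfl⟩
      let w : Fin d ⊕ Fin d → F := Sum.elim 0 (fun i => u (Fin.rev i))
      have hw : ((inv2 d : GL (Fin d ⊕ Fin d) F) : Matrix (Fin d ⊕ Fin d) (Fin d ⊕ Fin d) F) *ᵥ w = w + φ u := by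
        rw [inv2_mulVec]
        ext i
        rcases i with i | i
        · show (0 : F) + u (Fin.rev (Fin.rev i)) = 0 + u i
          rw [Fin.rev_rev]
        · show u (Fin.rev i) = u (Fin.rev i) + 0
          rw [add_zero]
      have a1 := q2 w
      rw [hw, QuadraticMap.map_add Q2] at a1
      have a2 := inv2_iso (F := F) he w
      rw [hw, QuadraticMap.map_add (qPlus d F)] at a2
      have a3 : qPlus d F (φ u) = 0 := by
        rw [qPlus_apply]
        exact Finset.sum_eq_zero (fun i _ => by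
          change _ * (0 : F) = 0
          rw [mul_zero])
      rw [a3, polar_plus] at a2
      rw [q1] at a1
      linear_combination a1 - a2
    · exfalso
      obtain ⟨m, rfl⟩ : ∃ m, d = m + 1 := ⟨d - 1, by omega⟩
      have hidx := idx hQ hQf
      have h1 : r ∣ (Cfsg.isometryGroup F Q).relIndex (Cfsg.spGL (m + 1) F) * 2 :=
        (hΩ.trans (Subgroup.relIndex_dvd_of_le_left _ (H99.Quad.isom_le Q))).mul_right 2
      have hrq : ¬ r ∣ Fintype.card F ^ (m + 1) := by
        intro h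
        have h5 := hr.dvd_of_dvd_pow h
        obtain ⟨n, -, hn⟩ := FiniteField.card F 2
        rw [hn] at h5
        exact hr2 ((Nat.prime_dvd_prime_iff_eq hr Nat.prime_two).1 (hr.dvd_of_dvd_pow h5))
      by_cases hp : PT (H99.Quad.toQF hQ)
      · rw [hidx.1 hp] at h1
        have h2 := ((hr.dvd_mul).1 h1).resolve_left hrq
        obtain ⟨f, f1, f2, f3⟩ := exists_fpf_polar (F := F) hd0 hr h2
        obtain ⟨l, hl⟩ := exists_invariant (qPlus (m + 1) F) f f1
        have hQ' : ND (addSq (qPlus (m + 1) F) l) := by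
          intro x hx
          apply nd_qPlus (m + 1) x
          intro y
          rw [← polar_addSq _ l]; exact hx y
        have hnp := not_plus_of_fpf hQ' hdim hr hr2 h2 f hl f2 f3
        obtain ⟨x, x1, x2⟩ := exists_gl f hr.pos f2
        have hx : x ∈ Cfsg.spGL (m + 1) F := by
          rw [mem_sp]
          intro u v
          rw [x1, x1, ← polar_plus, ← polar_plus, f1]
        have hfix : ∀ v, (x : Matrix (Fin (m + 1) ⊕ Fin (m + 1)) (Fin (m + 1) ⊕ Fin (m + 1)) F) *ᵥ v = v → v = 0 := fun v hv => f3 v (by rw [← x1]; exact hv)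
        obtain ⟨Q2, q1, q2, q3⟩ := H' x hx x2 (hone hfix)
        have := uniq hfix (Q1 := Q2) (Q2 := addSq (qPlus (m + 1) F) l) (fun u v => by rw [q1, polar_addSq, polar_plus]) q2 (fun v => by rw [x1, hl])
        rw [this] at q3
        exact hnp (q3.2 hp)
      · rw [hidx.2 hp] at h1
        have h2 := ((hr.dvd_mul).1 h1).resolve_left hrq
        obtain ⟨A, hA, hfixA⟩ := exists_fpf_gl F 2 hd0 hr h2
        have hxr : dg A ^ r = 1 := by rw [dg_pow, hA, dg_one]
        have hx : dg A ∈ Cfsg.spGL (m + 1) F := by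
          apply iso_le_sp (Q := qPlus (m + 1) F) (fun u v => polar_plus (m + 1) u v)
          rw [H17.OrthDet.mem_isometryGroup_iff]
          exact fun v => dg_iso A v
        have hfix : ∀ v, (dg A : Matrix (Fin (m + 1) ⊕ Fin (m + 1)) (Fin (m + 1) ⊕ Fin (m + 1)) F) *ᵥ v = v → v = 0 := by
          intro v hv
          rw [dg_mulVec] at hv
          have h6 : v ∘ Sum.inl = 0 := by
            apply hfixA
            have := congrArg (fun w => w ∘ Sum.inl) hv
            simpa using this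
          have h7 : v ∘ Sum.inr = 0 := by
            have h8 : ((A⁻¹ : GL (Fin (m + 1)) F) : Matrix (Fin (m + 1)) (Fin (m + 1)) F)ᵀ *ᵥ (v ∘ Sum.inr) = v ∘ Sum.inr := by
              have := congrArg (fun w => w ∘ Sum.inr) hv
              simpa using this
            by_contra hne
            have h9 : ((((A⁻¹ : GL (Fin (m + 1)) F) : Matrix (Fin (m + 1)) (Fin (m + 1)) F) - 1)ᵀ).det = 0 := by
              rw [← Matrix.exists_mulVec_eq_zero_iff]
              refine ⟨_, hne, ?_⟩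
              rw [Matrix.transpose_sub, Matrix.sub_mulVec, h8, Matrix.transpose_one, Matrix.one_mulVec, sub_self]
            rw [Matrix.det_transpose, ← Matrix.exists_mulVec_eq_zero_iff] at h9
            obtain ⟨w, hw0, hw⟩ := h9
            rw [Matrix.sub_mulVec, Matrix.one_mulVec, sub_eq_zero] at hw
            apply hw0
            apply hfixA
            have h10 := congrArg (fun y => (A : Matrix (Fin (m + 1)) (Fin (m + 1)) F) *ᵥ y) hw
            simp only [Matrix.mulVec_mulVec] at h10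
            rw [← Units.val_mul, mul_inv_cancel, Units.val_one, Matrix.one_mulVec] at h10
            exact h10.symm
          ext i
          rcases i with i | i
          · exact congrFun h6 i
          · exact congrFun h7 i
        obtain ⟨Q2, q1, q2, q3⟩ := H' _ hx hxr (hone hfix)
        have := uniq hfix (Q1 := Q2) (Q2 := qPlus (m + 1) F) (fun u v => by rw [q1, polar_plus]) q2 (fun v => dg_iso A v)
        rw [this] at q3
        exact hp (q3.1 (pt_qPlus _))
  · rintro ⟨rfl, hcase⟩ x hx ⟨z, hz⟩ -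
    have hx2 := sp_pow hx hd0 hz
    have hxx : ∀ v, (x : Matrix (Fin d ⊕ Fin d) (Fin d ⊕ Fin d) F) *ᵥ ((x : Matrix (Fin d ⊕ Fin d) (Fin d ⊕ Fin d) F) *ᵥ v) = v := by
      intro v
      rw [Matrix.mulVec_mulVec, ← Units.val_mul, ← pow_two, hx2, Units.val_one, Matrix.one_mulVec]
    let Q0 := H99.Quad.toQF hQ
    have hQ0f : ∀ u v, polar Q0 u v = Cfsg.sympForm d F u v := hQf
    have hfp : ∀ u v, polar Q0 (Matrix.toLin' (x : Matrix (Fin d ⊕ Fin d) (Fin d ⊕ Fin d) F) u) (Matrix.toLin' (x : Matrix (Fin d ⊕ Fin d) (Fin d ⊕ Fin d) F) v) = polar Q0 u v := by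
      intro u v
      rw [hQ0f, hQ0f, Matrix.toLin'_apply, Matrix.toLin'_apply]
      exact mem_sp.1 hx u v
    obtain ⟨l, hl⟩ := exists_invariant Q0 (Matrix.toLin' (x : Matrix (Fin d ⊕ Fin d) (Fin d ⊕ Fin d) F)) hfp
    have hQ1f : ∀ u v, polar (addSq Q0 l) u v = Cfsg.sympForm d F u v := fun u v => by rw [polar_addSq, hQ0f]
    have hND : ND (addSq Q0 l) := by
      intro y hy
      apply nd_qPlus d y
      intro w
      rw [polar_plus, ← hQ1f]; exact hy w
    have hl' : ∀ v, addSq Q0 l ((x : Matrix (Fin d ⊕ Fin d) (Fin d ⊕ Fin d) F) *ᵥ v) = addSq Q0 l v := fun v => by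
      rw [← hl v, Matrix.toLin'_apply]
    by_cases hs : PT (addSq Q0 l) ↔ PT Q0
    · exact conj_form hQ hQf hQ1f hl' hs
    by_cases hts : ∀ v, Matrix.toLin' (x : Matrix (Fin d ⊕ Fin d) (Fin d ⊕ Fin d) F) v = v → addSq Q0 l v = 0
    · exfalso
      obtain ⟨e1, e2⟩ := invol_ts hND hdim (Matrix.toLin' (x : Matrix (Fin d ⊕ Fin d) (Fin d ⊕ Fin d) F)) hl (fun v => by
        rw [Matrix.toLin'_apply, Matrix.toLin'_apply, hxx]) hts
      rcases hcase with h | h
      · exact hs (iff_of_true e2 h)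
      · exact (Nat.not_even_iff_odd.2 h) e1
    · push Not at hts
      obtain ⟨k, hk1, hk2⟩ := hts
      rw [Matrix.toLin'_apply] at hk1
      obtain ⟨c, hc⟩ := type_change hND hdim hk2
      refine conj_form hQ hQf (Q2 := addSq (addSq Q0 l) (c • polarBilin (addSq Q0 l) k)) (fun u v => by rw [polar_addSq, hQ1f]) ?_ ?_
      · intro v
        rw [addSq_apply, addSq_apply _ _ v, hl', LinearMap.smul_apply, LinearMap.smul_apply, polarBilin_apply_apply, polarBilin_apply_apply, hQ1f, hQ1f]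
        congr 3
        conv_lhs => rw [← hk1]
        exact mem_sp.1 hx k v
      · show _ ↔ PT Q0
        tauto

end Cfsg.Agent.S5983
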