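import Cfsg.Statements.S5984
import Cfsg.Agent.Lib.H99.HermPair
import Cfsg.Agent.Lib.H99.Eig
import Cfsg.Agent.Lib.H99.Elts

set_option autoImplicit false
set_option linter.unusedSimpArgs false
open scoped MatrixGroups
open Cfsg

namespace Cfsg.Agent.S5984


open Matrix Module H49.Unitary in
/-- reduction to pairs -/
theorem no {F : Type*} [Field F] [Finite F] {q : ℕ} {n m : ℕ} (D : Fin 2 → Submodule F (Fin n → F))
    (hdim : ∀ i, finrank F (D i) = m) (hc : IsCompl (D 0) (D 1))
    (hs : ∀ i, ∀ u ∈ D i, ∀ v ∈ D i, Cfsg.hermForm n F q u v = 0) (x : GL (Fin n) F)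
    (h : ∃ g ∈ Cfsg.GU n F q ⊓ Cfsg.Geo.specialLinear (Fin n) F, g⁻¹ * x * g ∈ Cfsg.Geo.decompositionStabilizer D)
    (hno : ∀ U W : Submodule F (Fin n → F), IsCompl U W → finrank F U = m →
      (∀ u ∈ U, ∀ v ∈ U, Cfsg.hermForm n F q u v = 0) → (∀ u ∈ W, ∀ v ∈ W, Cfsg.hermForm n F q u v = 0) →
      (((∀ v ∈ U, (x : Matrix (Fin n) (Fin n) F) *ᵥ v ∈ U) ∧ (∀ v ∈ W, (x : Matrix (Fin n) (Fin n) F) *ᵥ v ∈ W)) ∨
        (U.map (Matrix.toLin' (x : Matrix (Fin n) (Fin n) F)) = W ∧ W.map (Matrix.toLin' (x : Matrix (Fin n) (Fin n) F)) = U)) → False) :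
    False := by
  obtain ⟨g, ⟨hg, -⟩, hx⟩ := h
  obtain ⟨h1, h2, h3⟩ := H99.Pair.transport D hc hdim hs g hg
  refine hno _ _ h1 (h2 0) (h3 0) (h3 1) ?_
  rcases H99.Pair.get D x g hx with ⟨h4, h5⟩ | ⟨h4, h5⟩
  · left
    refine ⟨fun v hv => ?_, fun v hv => ?_⟩
    · have : Matrix.toLin' (x : Matrix (Fin n) (Fin n) F) v ∈ ((D 0).map (toLin' (g : Matrix (Fin n) (Fin n) F))).map (toLin' (x : Matrix (Fin n) (Fin n) F)) := ⟨v, hv, rfl⟩
      rw [h4] at this; exact this
    · have : Matrix.toLin' (x : Matrix (Fin n) (Fin n) F) v ∈ ((D 1).map (toLin' (g : Matrix (Fin n) (Fin n) F))).map (toLin' (x : Matrix (Fin n) (Fin n) F)) := ⟨v, hv, rfl⟩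
      rw [h5] at this; exact this
  · right; exact ⟨h4, h5⟩

open Matrix Module H49.Unitary in
theorem mem_sl {F : Type*} [Field F] {n : ℕ} (x : GL (Fin n) F) (h : (x : Matrix (Fin n) (Fin n) F).det = 1) :
    x ∈ Cfsg.Geo.specialLinear (Fin n) F := by
  show x ∈ (Matrix.GeneralLinearGroup.det : GL (Fin n) F →* Fˣ).ker
  rw [MonoidHom.mem_ker]
  exact Units.ext h

open Matrix Module H49.Unitary in
theorem exists_diag {F : Type*} [Field F] [Finite F] {q : ℕ} (hK : Nat.card F = q ^ 2) {n : ℕ} (δ : Fin n → F) (h1 : ∀ i, δ i ^ (q + 1) = 1)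
    (h2 : ∏ i, δ i = 1) : ∃ x ∈ Cfsg.GU n F q ⊓ Cfsg.Geo.specialLinear (Fin n) F, (x : Matrix (Fin n) (Fin n) F) = Matrix.diagonal δ := by
  have h3 : ct hK (Matrix.diagonal δ) * Matrix.diagonal δ = 1 := by
    have : ct hK (Matrix.diagonal δ) = Matrix.diagonal (fun i => δ i ^ q) := by
      ext i j
      rw [ct_apply, Matrix.diagonal_apply, Matrix.diagonal_apply]
      by_cases h : i = j
      · subst h; simp
      · rw [if_neg h, if_neg (Ne.symm h), ← frob_apply hK, map_zero]
    rw [this, Matrix.diagonal_mul_diagonal, ← Matrix.diagonal_one]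
    congr 1
    funext i
    rw [← pow_succ, h1]
  let x : GL (Fin n) F := ⟨Matrix.diagonal δ, ct hK (Matrix.diagonal δ), mul_eq_one_comm.1 h3, h3⟩
  refine ⟨x, ⟨(mem_GU hK x).2 h3, mem_sl x ?_⟩, rfl⟩
  show (Matrix.diagonal δ).det = 1
  rw [Matrix.det_diagonal, h2]

open Matrix Module H49.Unitary in
/-- diagonal elements with an eigenvalue of multiplicity one fix no pair -/
theorem diag_no_fix {F : Type*} [Field F] [Finite F] {q : ℕ} (hK : Nat.card F = q ^ 2) {n : ℕ} (δ : Fin n → F) (i0 : Fin n)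
    (hi : ∀ j, j ≠ i0 → δ j ≠ δ i0) (U W : Submodule F (Fin n → F)) (hUW : IsCompl U W)
    (hU : ∀ u ∈ U, ∀ v ∈ U, Cfsg.hermForm n F q u v = 0) (hW : ∀ u ∈ W, ∀ v ∈ W, Cfsg.hermForm n F q u v = 0)
    (h1 : ∀ v ∈ U, Matrix.diagonal δ *ᵥ v ∈ U) (h2 : ∀ v ∈ W, Matrix.diagonal δ *ᵥ v ∈ W) : False := by
  have hq := two_le hK
  apply H99.Pair.no_fix_simple (Cfsg.hermForm n F q) (Matrix.toLin' (Matrix.diagonal δ)) (δ i0) (Pi.single i0 1) ?_ ?_ ?_ U W hUW hU hW h1 h2
  · rw [Cfsg.hermForm, Finset.sum_eq_single i0]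
    · simp
    · intro j _ hj
      rw [Pi.single_eq_of_ne hj, zero_mul]
    · intro h; exact absurd (Finset.mem_univ _) h
  · rw [Matrix.toLin'_apply, Matrix.mulVec_single_one]
    ext j
    rw [Matrix.col_apply, Matrix.diagonal_apply, Pi.smul_apply, Pi.single_apply]
    by_cases h : j = i0
    · subst h; simp
    · simp [h]
  · intro v hv
    refine ⟨v i0, ?_⟩
    ext j
    by_cases h : j = i0
    · subst h; simp
    · have := congrFun hv j
      rw [Matrix.toLin'_apply, Matrix.mulVec_diagonal, Pi.smul_apply, smul_eq_mul] at this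
      have h3 : (δ j - δ i0) * v j = 0 := by rw [sub_mul, this, sub_self]
      rcases mul_eq_zero.1 h3 with h4 | h4
      · exact absurd (sub_eq_zero.1 h4) (hi j h)
      · rw [h4]; simp [h]

open Matrix Module H49.Unitary in
/-- unitary transvections -/
theorem exists_transvection {F : Type*} [Field F] [Finite F] {p : ℕ} [Fact p.Prime] [CharP F p] {q : ℕ} (hK : Nat.card F = q ^ 2) {n : ℕ}
    (u : Fin n → F) (huu : Cfsg.hermForm n F q u u = 0) :
    ∃ (a : F) (x : GL (Fin n) F), a ≠ 0 ∧ x ∈ Cfsg.GU n F q ⊓ Cfsg.Geo.specialLinear (Fin n) F ∧ x ^ p = 1 ∧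
      ∀ v, (x : Matrix (Fin n) (Fin n) F) *ᵥ v = v + (a * Cfsg.hermForm n F q v u) • u := by
  obtain ⟨θ, hθ⟩ := exists_theta hK
  set a := θ - frob hK θ with ha
  have haq : frob hK a + a = 0 := by
    rw [ha, map_sub, frob_frob]; ring
  let N : Matrix (Fin n) (Fin n) F := fun i j => u i * frob hK (u j)
  have hNc : ct hK N = N := by
    ext i j
    rw [ct_apply, ← frob_apply hK]
    show frob hK (u j * frob hK (u i)) = u i * frob hK (u j)
    rw [map_mul, frob_frob, mul_comm]
  have hNv : ∀ v, N *ᵥ v = (Cfsg.hermForm n F q v u) • u := by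
    intro v
    ext i
    simp only [Matrix.mulVec, dotProduct, N, Pi.smul_apply, smul_eq_mul, Cfsg.hermForm, Finset.sum_mul]
    refine Finset.sum_congr rfl fun j _ => ?_
    rw [frob_apply]; ring
  have hNN : N * N = 0 := by
    ext i j
    rw [Matrix.mul_apply, Matrix.zero_apply]
    have : ∑ k, N i k * N k j = (∑ k, u k * (u k) ^ q) * (u i * frob hK (u j)) := by
      rw [Finset.sum_mul]
      refine Finset.sum_congr rfl fun k _ => ?_
      show u i * frob hK (u k) * (u k * frob hK (u j)) = _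
      rw [frob_apply hK (u k)]; ring
    rw [this]
    have h0 : ∑ k, u k * (u k) ^ q = 0 := huu
    rw [h0, zero_mul]
  let X : Matrix (Fin n) (Fin n) F := 1 + a • N
  have hX : ct hK X * X = 1 := by
    show ct hK (1 + a • N) * (1 + a • N) = 1
    rw [ct_add, ct_one, ct_smul, hNc, Matrix.add_mul, Matrix.one_mul, Matrix.mul_add, Matrix.mul_one, Matrix.smul_mul, Matrix.mul_smul, hNN,
      smul_zero, smul_zero, add_zero, add_assoc, ← add_smul, add_comm a, haq, zero_smul, add_zero]
  let x : GL (Fin n) F := ⟨X, ct hK X, mul_eq_one_comm.1 hX, hX⟩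
  have hXp : X ^ p = 1 := by
    refine H99.Elts.one_add_pow_char (a • N) 2 ?_ (Fact.out : p.Prime).two_le
    rw [pow_two, Matrix.smul_mul, Matrix.mul_smul, hNN, smul_zero, smul_zero]
  refine ⟨a, x, hθ, ⟨(mem_GU hK x).2 hX, mem_sl x (H99.Elts.det_eq_one_of_pow_char X hXp)⟩, Units.ext hXp, fun v => ?_⟩
  show (1 + a • N) *ᵥ v = _
  rw [Matrix.add_mulVec, Matrix.one_mulVec, Matrix.smul_mulVec, hNv, smul_smul]

open Matrix Module H49.Unitary in
theorem exists_equiv {α β : Type} [Fintype α] [Fintype β] [DecidableEq α] [DecidableEq β] (f : α → Fin 2) (g : β → Fin 2)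
    (hc : Fintype.card α = Fintype.card β) (h : (Finset.univ.filter fun i => f i = 1).card = (Finset.univ.filter fun i => g i = 1).card) :
    ∃ e : α ≃ β, ∀ i, g (e i) = f i := by
  classical
  have h1 : Fintype.card {i // f i = 1} = Fintype.card {i // g i = 1} := by
    rw [Fintype.card_subtype, Fintype.card_subtype, h]
  have h2 : Fintype.card {i // ¬ f i = 1} = Fintype.card {i // ¬ g i = 1} := by
    rw [Fintype.card_subtype_compl, Fintype.card_subtype_compl, h1, hc]
  let e1 := Fintype.equivOfCardEq h1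
  let e2 := Fintype.equivOfCardEq h2
  let e : α ≃ β := (Equiv.sumCompl (fun i => f i = 1)).symm.trans ((Equiv.sumCongr e1 e2).trans (Equiv.sumCompl (fun i => g i = 1)))
  refine ⟨e, fun i => ?_⟩
  have key : ∀ a b : Fin 2, a ≠ 1 → b ≠ 1 → a = b := by decide
  by_cases hi : f i = 1
  · have : e i = (e1 ⟨i, hi⟩ : β) := by
      show (Equiv.sumCompl (fun i => g i = 1)) ((Equiv.sumCongr e1 e2) ((Equiv.sumCompl (fun i => f i = 1)).symm i)) = _
      rw [Equiv.sumCompl_symm_apply_of_pos (p := fun i => f i = 1) hi]; rfl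
    rw [this, hi]; exact (e1 ⟨i, hi⟩).2
  · have : e i = (e2 ⟨i, hi⟩ : β) := by
      show (Equiv.sumCompl (fun i => g i = 1)) ((Equiv.sumCongr e1 e2) ((Equiv.sumCompl (fun i => f i = 1)).symm i)) = _
      rw [Equiv.sumCompl_symm_apply_of_neg (p := fun i => f i = 1) hi]; rfl
    rw [this]; exact key _ _ (e2 ⟨i, hi⟩).2 hi

open Matrix Module H49.Unitary in
/-- `c ^ (q - 1) = d` is solvable for elements of norm one -/
theorem hilbert90 {F : Type*} [Field F] [Finite F] {q : ℕ} (hK : Nat.card F = q ^ 2) (d : F) (hd : d ^ (q + 1) = 1) :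
    ∃ c : F, c ≠ 0 ∧ c ^ q = d * c := by
  have : Fintype F := Fintype.ofFinite F
  have hq := two_le hK
  have hd0 : d ≠ 0 := by
    rintro rfl
    rw [zero_pow (by omega)] at hd
    exact zero_ne_one hd
  -- c = x^q * d^{-1}... use the additive trick
  obtain ⟨x, hx⟩ : ∃ x : F, x + frob hK x * d⁻¹ ≠ 0 := by
    by_contra hcon
    push Not at hcon
    have h1 := hcon 1
    rw [map_one, one_mul] at h1
    obtain ⟨θ, hθ⟩ := exists_theta hK
    have h2 := hcon θ
    apply hθ
    have h3 : d⁻¹ = -1 := by linear_combination h1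
    rw [h3] at h2
    linear_combination h2
  refine ⟨x + frob hK x * d⁻¹, hx, ?_⟩
  have hdq : frob hK d = d⁻¹ := by
    rw [frob_apply]
    exact eq_inv_of_mul_eq_one_left (by rw [← pow_succ, hd])
  rw [← frob_apply hK, map_add, map_mul, frob_frob, map_inv₀, hdq, inv_inv, mul_add]
  rw [show d * (frob hK x * d⁻¹) = frob hK x * (d * d⁻¹) by ring, mul_inv_cancel₀ hd0]
  ring

open Matrix Module H49.Unitary in
/-- the elusive direction, once the eigenvalues are arranged -/
theorem conj_of_eig {F : Type*} [Field F] [Finite F] {q : ℕ} (hK : Nat.card F = q ^ 2) {n m : ℕ} (hm : 0 < m) (e : (Fin m ⊕ Fin m) ≃ Fin n)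
    (D : Fin 2 → Submodule F (Fin n → F)) (hdim : ∀ i, finrank F (D i) = m) (hc : IsCompl (D 0) (D 1))
    (hs : ∀ i, ∀ u ∈ D i, ∀ v ∈ D i, Cfsg.hermForm n F q u v = 0)
    (x : GL (Fin n) F) (hxU : x ∈ Cfsg.GU n F q)
    (R : Matrix (Fin n) (Fin n) F) (hR : R.det ≠ 0) (δ : Fin m ⊕ Fin m → F)
    (hRx : (x : Matrix (Fin n) (Fin n) F) * R = R * Matrix.reindexAlgEquiv F F e (Matrix.diagonal δ))
    (hδ : ∀ i, δ (.inl i) ^ q * δ (.inr i) = 1) :
    ∃ g ∈ Cfsg.GU n F q ⊓ Cfsg.Geo.specialLinear (Fin n) F, g⁻¹ * x * g ∈ Cfsg.Geo.decompositionStabilizer D := by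
  classical
  obtain ⟨P, P', h1, h2, hJ, hD0, hD1⟩ := H99.HermPair.exists_frame hK e D hdim hc hs
  have hdiag : ∀ δ : Fin m ⊕ Fin m → F, Matrix.diagonal δ =
      Matrix.fromBlocks (Matrix.diagonal fun i => δ (.inl i)) 0 0 (Matrix.diagonal fun i => δ (.inr i)) := by
    intro δ
    ext i j
    rcases i with i | i <;> rcases j with j | j <;> simp [Matrix.diagonal_apply]
  have hUn : ∀ δ : Fin m ⊕ Fin m → F, (∀ i, δ (.inl i) ^ q * δ (.inr i) = 1) →
      ct hK (P * Matrix.reindexAlgEquiv F F e (Matrix.diagonal δ) * P') * (P * Matrix.reindexAlgEquiv F F e (Matrix.diagonal δ) * P') = 1 := by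
    intro δ hδ
    rw [hdiag]
    apply H99.HermPair.block_unitary hK e h1 h2 hJ
    have : ct hK (Matrix.diagonal fun i => δ (.inl i)) = Matrix.diagonal (fun i => δ (.inl i) ^ q) := by
      ext i j
      rw [ct_apply, Matrix.diagonal_apply, Matrix.diagonal_apply]
      by_cases h : i = j
      · subst h; simp
      · rw [if_neg h, if_neg (Ne.symm h), ← frob_apply hK, map_zero]
    rw [this, Matrix.diagonal_mul_diagonal, ← Matrix.diagonal_one]
    congr 1
    funext i
    exact hδ i
  -- the target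
  set Y : Matrix (Fin n) (Fin n) F := P * Matrix.reindexAlgEquiv F F e (Matrix.diagonal δ) * P' with hY
  have hYU := hUn δ hδ
  let y : GL (Fin n) F := ⟨Y, ct hK Y, mul_eq_one_comm.1 hYU, hYU⟩
  have hy : y ∈ Cfsg.GU n F q := (mem_GU hK y).2 hYU
  have hystab : y ∈ Cfsg.Geo.decompositionStabilizer D := by
    apply H99.HermPair.mem_stab
    intro i v hv
    show (P * Matrix.reindexAlgEquiv F F e (Matrix.diagonal δ) * P') *ᵥ v ∈ D i
    rw [hdiag]
    exact H99.HermPair.block_stab e h1 D hD0 hD1 _ _ i v hv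
  -- conjugate in GL
  have hdetP' : P'.det ≠ 0 := by
    intro h
    have := congrArg Matrix.det h1
    rw [Matrix.det_mul, h, zero_mul, Matrix.det_one] at this
    exact zero_ne_one this
  let g0 : GL (Fin n) F := Matrix.GeneralLinearGroup.mkOfDetNeZero (R * P') (by rw [Matrix.det_mul]; exact mul_ne_zero hR hdetP')
  have hg0 : g0 * y = x * g0 := by
    apply Units.ext
    show R * P' * (P * Matrix.reindexAlgEquiv F F e (Matrix.diagonal δ) * P') = (x : Matrix (Fin n) (Fin n) F) * (R * P')
    rw [← Matrix.mul_assoc (x : Matrix (Fin n) (Fin n) F), hRx]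
    calc _ = R * (P' * P) * Matrix.reindexAlgEquiv F F e (Matrix.diagonal δ) * P' := by simp only [Matrix.mul_assoc]
      _ = _ := by rw [h1, Matrix.mul_one]
  obtain ⟨g1, hg1⟩ := exists_conj_GU hK (⟨y, hy⟩ : Cfsg.GU n F q) ⟨x, hxU⟩ g0 hg0
  have hg1' : (g1 : GL (Fin n) F) * y = x * g1 := congrArg Subtype.val hg1
  -- fix the determinant
  have hG1 := (mem_GU hK (g1 : GL (Fin n) F)).1 g1.2
  set d := ((g1 : GL (Fin n) F) : Matrix (Fin n) (Fin n) F).det with hd
  have hct : ∀ M : Matrix (Fin n) (Fin n) F, (ct hK M).det = M.det ^ q := by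
    intro M
    rw [ct, Matrix.det_transpose, ← RingHom.mapMatrix_apply, ← RingHom.map_det, frob_apply]
  have hd1 : d ^ (q + 1) = 1 := by
    have := congrArg Matrix.det hG1
    rw [Matrix.det_mul, hct, Matrix.det_one, ← hd, ← pow_succ] at this
    exact this
  have hd0 : d ≠ 0 := by
    intro h
    rw [h, zero_pow (by omega)] at hd1
    exact zero_ne_one hd1
  obtain ⟨c, hc0, hcq⟩ := hilbert90 hK d hd1
  let i0 : Fin m := ⟨0, hm⟩
  let ε : Fin m ⊕ Fin m → F := Sum.elim (fun i => if i = i0 then c else 1) (fun i => if i = i0 then (c ^ q)⁻¹ else 1)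
  have hε : ∀ i, ε (.inl i) ^ q * ε (.inr i) = 1 := by
    intro i
    show (if i = i0 then c else 1) ^ q * (if i = i0 then (c ^ q)⁻¹ else 1) = 1
    by_cases h : i = i0
    · rw [if_pos h, if_pos h, mul_inv_cancel₀ (pow_ne_zero _ hc0)]
    · rw [if_neg h, if_neg h, one_pow, one_mul]
  have hHU := hUn ε hε
  set H : Matrix (Fin n) (Fin n) F := P * Matrix.reindexAlgEquiv F F e (Matrix.diagonal ε) * P' with hH
  let h : GL (Fin n) F := ⟨H, ct hK H, mul_eq_one_comm.1 hHU, hHU⟩
  have hhy : h * y = y * h := by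
    apply Units.ext
    show P * Matrix.reindexAlgEquiv F F e (Matrix.diagonal ε) * P' * (P * Matrix.reindexAlgEquiv F F e (Matrix.diagonal δ) * P') =
      P * Matrix.reindexAlgEquiv F F e (Matrix.diagonal δ) * P' * (P * Matrix.reindexAlgEquiv F F e (Matrix.diagonal ε) * P')
    calc _ = P * Matrix.reindexAlgEquiv F F e (Matrix.diagonal ε) * (P' * P) * Matrix.reindexAlgEquiv F F e (Matrix.diagonal δ) * P' := by
          simp only [Matrix.mul_assoc]
      _ = P * (Matrix.reindexAlgEquiv F F e (Matrix.diagonal δ * Matrix.diagonal ε)) * P' := by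
          rw [h1, Matrix.mul_one, Matrix.mul_assoc P, ← map_mul, Matrix.diagonal_mul_diagonal, Matrix.diagonal_mul_diagonal]
          congr 4
          funext i; ring
      _ = P * Matrix.reindexAlgEquiv F F e (Matrix.diagonal δ) * (P' * P) * Matrix.reindexAlgEquiv F F e (Matrix.diagonal ε) * P' := by
          rw [h1, Matrix.mul_one, map_mul]; simp only [Matrix.mul_assoc]
      _ = _ := by simp only [Matrix.mul_assoc]
  have hdetH : H.det = c * (c ^ q)⁻¹ := by
    rw [hH, Matrix.det_mul, Matrix.det_mul]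
    have h3 : P.det * P'.det = 1 := by rw [← Matrix.det_mul, h2, Matrix.det_one]
    have h4 : (Matrix.reindexAlgEquiv F F e (Matrix.diagonal ε)).det = c * (c ^ q)⁻¹ := by
      rw [Matrix.reindexAlgEquiv_apply, Matrix.det_reindex_self, Matrix.det_diagonal, Fintype.prod_sum_type]
      show (∏ i, if i = i0 then c else 1) * (∏ i, if i = i0 then (c ^ q)⁻¹ else 1) = _
      rw [Finset.prod_ite_eq' Finset.univ i0 (fun _ => c), Finset.prod_ite_eq' Finset.univ i0 (fun _ => (c ^ q)⁻¹)]
      simp
    rw [h4]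
    linear_combination (c * (c ^ q)⁻¹) * h3
  refine ⟨(g1 : GL (Fin n) F) * h, ⟨?_, mem_sl _ ?_⟩, ?_⟩
  · exact (Cfsg.GU n F q).mul_mem g1.2 ((mem_GU hK h).2 hHU)
  · rw [Units.val_mul, Matrix.det_mul]
    show d * H.det = 1
    rw [hdetH, hcq]
    field_simp
  · have : ((g1 : GL (Fin n) F) * h)⁻¹ * x * (g1 * h) = y := by
      have h3 : x * (g1 * h) = (g1 * h) * y := by
        rw [← mul_assoc, ← hg1', mul_assoc, ← hhy, mul_assoc]
      rw [mul_assoc, h3, inv_mul_cancel_left]
    rw [this]
    exact hystab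

/-- Elements of prime order of PSU_n(q) and the stabilizers of pairs of complementary totally singular subspaces. Here `T = PSU_n(q)` is realised through `SU_n(q)`, the matrices of determinant 1 over the field `F` with `q²` elements preserving the hermitian form `Σ uᵢ vᵢ^q`, with `n ≥ 4` even; `D` is a pair of complementary subspaces of dimension `n/2` on each of which the form vanishes identically, and `H` is the subgroup of `SU_n(q)` fixing or interchanging the two members — a subgroup of type GL_{n/2}(q²).2 (maximality is not assumed). Ω is the set of cosets of `H`, so an element of `T` of prime order `r` (`x ∈ SU_n(q)` with `x^r` scalar, `x` not scalar) fixes a point of Ω exactly when some `SU_n(q)`-conjugate of `x` lies in `H`. Let `r` be a prime dividing the index of `H`. Then every element of `T` of order `r` fixes a point of Ω if and only if `r = 2`, `q` is odd and `(q + 1)_2 ≤ (n)_2` (2-parts). -/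
theorem result {F : Type*} [Field F] [Fintype F] {p : ℕ} [Fact p.Prime] [CharP F p] {q : ℕ} (hq : Fintype.card F = q ^ 2)
    (n : ℕ) (hn : 4 ≤ n) (he : Even n) (D : Fin 2 → Submodule F (Fin n → F)) (hD : Cfsg.Geo.IsMDecomposition (n / 2) D)
    (hDs : ∀ i, Cfsg.Geo.IsTotallySingularFor (Cfsg.hermForm n F q) (D i))
    (r : ℕ) [Fact r.Prime]
    (hΩ : r ∣ (Cfsg.Geo.decompositionStabilizer D).relIndex (Cfsg.GU n F q ⊓ Cfsg.Geo.specialLinear (Fin n) F)) :
    (∀ x ∈ Cfsg.GU n F q ⊓ Cfsg.Geo.specialLinear (Fin n) F, (∃ z : F, ((x ^ r : GL (Fin n) F) : Matrix (Fin n) (Fin n) F) = z • (1 : Matrix (Fin n) (Fin n) F)) →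
      (∀ z : F, (x : Matrix (Fin n) (Fin n) F) ≠ z • (1 : Matrix (Fin n) (Fin n) F)) →
      ∃ g ∈ Cfsg.GU n F q ⊓ Cfsg.Geo.specialLinear (Fin n) F, g⁻¹ * x * g ∈ Cfsg.Geo.decompositionStabilizer D) ↔
    (r = 2 ∧ Odd q ∧ padicValNat 2 (q + 1) ≤ padicValNat 2 n) := by
  classical
  have hr : r.Prime := Fact.out
  have hp : p.Prime := Fact.out
  have hK : Nat.card F = q ^ 2 := by rw [Nat.card_eq_fintype_card, hq]
  have hq2 : 2 ≤ q := H49.Unitary.two_le hK
  obtain ⟨m, rfl⟩ : ∃ m, n = 2 * m := ⟨n / 2, by obtain ⟨k, hk⟩ := he; omega⟩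
  have hm2 : 2 ≤ m := by omega
  have hdim : ∀ i, Module.finrank F (D i) = m := by
    intro i
    rw [hD.finrank_eq i]; omega
  have hc : IsCompl (D 0) (D 1) := by
    have h1 := hD.indep
    have h2 := hD.iSup_eq_top
    refine ⟨(h1.pairwiseDisjoint (by decide : (0 : Fin 2) ≠ 1)), codisjoint_iff.2 ?_⟩
    rw [← h2]
    apply le_antisymm
    · exact sup_le (le_iSup D 0) (le_iSup D 1)
    · apply iSup_le
      intro i
      fin_cases i
      · exact le_sup_left
      · exact le_sup_right
  have hs : ∀ i, ∀ u ∈ D i, ∀ v ∈ D i, Cfsg.hermForm (2 * m) F q u v = 0 := hDs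
  have hindex := H99.HermPair.index hK hr D hdim hc hs hΩ
  have hcard1 : Fintype.card F - 1 = (q - 1) * (q + 1) := by
    rw [hq]
    obtain ⟨t, rfl⟩ : ∃ t, q = t + 1 := ⟨q - 1, by omega⟩
    simp only [Nat.add_sub_cancel]
    have : (t + 1) ^ 2 = t * (t + 1 + 1) + 1 := by ring
    rw [this, Nat.add_sub_cancel]
  let i0 : Fin (2 * m) := ⟨0, by omega⟩
  constructor
  · intro H
    by_contra hcon
    by_cases hrp : r = p
    · -- transvections
      subst hrp
      obtain ⟨u, hu, hu0⟩ : ∃ u ∈ D 0, u ≠ 0 := by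
        apply Submodule.exists_mem_ne_zero_of_ne_bot
        intro h
        have := hdim 0
        rw [h, finrank_bot] at this
        omega
      obtain ⟨a, x, ha, hxG, hxr, hxv⟩ := exists_transvection (p := r) hK u (hs 0 u hu u hu)
      have hns : ∀ z : F, (x : Matrix (Fin (2 * m)) (Fin (2 * m)) F) ≠ z • (1 : Matrix (Fin (2 * m)) (Fin (2 * m)) F) := by
        intro z hz
        have h1 : ∀ v, v + (a * Cfsg.hermForm (2 * m) F q v u) • u = z • v := by
          intro v
          rw [← hxv, hz, Matrix.smul_mulVec, Matrix.one_mulVec]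
        have h2 := h1 u
        rw [hs 0 u hu u hu, mul_zero, zero_smul, add_zero] at h2
        have hz1 : z = 1 := by
          have h3 : (z - 1) • u = 0 := by rw [sub_smul, one_smul, ← h2, sub_self]
          rcases smul_eq_zero.1 h3 with h4 | h4
          · exact sub_eq_zero.1 h4
          · exact absurd h4 hu0
        apply hu0
        apply (H99.HermPair.ses_std hK (2 * m)).nd
        intro v
        apply H99.HermPair.sym_std hK
        have h3 := h1 v
        rw [hz1, one_smul, add_eq_left] at h3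
        rcases smul_eq_zero.1 h3 with h4 | h4
        · exact (mul_eq_zero.1 h4).resolve_left ha
        · exact absurd h4 hu0
      refine no D hdim hc hs x (H x hxG ⟨1, by rw [hxr, one_smul]; rfl⟩ hns) ?_
      intro U W hUW hUm hU hW hcase
      rcases hcase with ⟨h1, h2⟩ | ⟨h1, h2⟩
      · exact H99.Pair.no_fix_transvection (Cfsg.hermForm (2 * m) F q) (Matrix.toLin' (x : Matrix (Fin (2 * m)) (Fin (2 * m)) F)) a ha u
          (H99.HermPair.ses_std hK (2 * m)).add_left hu0 (fun u v => H99.HermPair.sym_std hK u v) (H99.HermPair.ses_std hK (2 * m)).nd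
          hxv U W hUW hU hW h1 h2
      · let l : (Fin (2 * m) → F) →ₗ[F] F :=
          { toFun := fun v => Cfsg.hermForm (2 * m) F q v u
            map_add' := fun x y => (H99.HermPair.ses_std hK (2 * m)).add_left x y u
            map_smul' := fun c x => (H99.HermPair.ses_std hK (2 * m)).smul_left c x u }
        refine H99.Pair.no_swap_rank (Matrix.toLin' (x : Matrix (Fin (2 * m)) (Fin (2 * m)) F)) 0 1 l ?_ U W hUW.disjoint (by omega) h1 one_ne_zero
        intro v hv
        have hv' : Cfsg.hermForm (2 * m) F q v u = 0 := hv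
        rw [Matrix.toLin'_apply, hxv, hv', mul_zero, zero_smul, add_zero, one_smul]
    have hrF : ((r : ℕ) : F) ≠ 0 := H99.Blk.natCast_ne (p := p) hr hrp
    have hrq' : ¬ r ∣ q := by
      intro h
      apply hrF
      rw [CharP.cast_eq_zero_iff F p]
      obtain ⟨k, -, hk⟩ := FiniteField.card F p
      have h1 : r ∣ p ^ (k : ℕ) := by rw [← hk, hq]; exact h.mul_left _ |>.trans (by rw [pow_two])
      exact ((Nat.prime_dvd_prime_iff_eq hr hp).1 (hr.dvd_of_dvd_pow h1)) ▸ dvd_rfl
    have hrq : ¬ r ∣ Fintype.card F := by rw [hq]; exact fun h => hrq' (hr.dvd_of_dvd_pow h)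
    -- diagonal elements
    have hdiag : ∀ (δ : Fin (2 * m) → F) (z : F), (∀ i, δ i ^ (q + 1) = 1) → ∏ i, δ i = 1 → (∀ i, δ i ^ r = z) →
        (∀ j, j ≠ i0 → δ j ≠ δ i0) → ((Odd r ∧ z = 1) ∨ ∃ c : F, c ≠ 0 ∧ ∀ j, j ≠ i0 → δ j = c) → False := by
      intro δ z h1 h2 h3 h4 h5
      obtain ⟨x, hxG, hxδ⟩ := exists_diag hK δ h1 h2
      have hxr : ((x ^ r : GL (Fin (2 * m)) F) : Matrix (Fin (2 * m)) (Fin (2 * m)) F) = z • (1 : Matrix (Fin (2 * m)) (Fin (2 * m)) F) := by
        rw [Units.val_pow_eq_pow_val, hxδ, Matrix.diagonal_pow, Matrix.smul_one_eq_diagonal]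
        congr 1
        funext i
        exact h3 i
      have hns : ∀ z : F, (x : Matrix (Fin (2 * m)) (Fin (2 * m)) F) ≠ z • (1 : Matrix (Fin (2 * m)) (Fin (2 * m)) F) := by
        intro z
        rw [hxδ]
        exact H99.Elts.diagonal_ne_scalar δ ⟨1, by omega⟩ i0 (h4 _ (by intro h; have := congrArg Fin.val h; simp [i0] at this)) z
      refine no D hdim hc hs x (H x hxG ⟨z, hxr⟩ hns) ?_
      intro U W hUW hUm hU hW hcase
      rcases hcase with ⟨h6, h7⟩ | ⟨h6, h7⟩
      · rw [hxδ] at h6 h7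
        exact diag_no_fix hK δ i0 h4 U W hUW hU hW h6 h7
      · rcases h5 with ⟨hodd, hz⟩ | ⟨c, hc0, hc'⟩
        · have : Nontrivial (Fin (2 * m) → F) := ⟨0, Pi.single i0 1, fun h => by have := congrFun h i0; simp at this⟩
          refine H99.Pair.no_swap_odd (Matrix.toLin' (x : Matrix (Fin (2 * m)) (Fin (2 * m)) F)) r hodd ?_ U W hUW h6 h7
          rw [← Matrix.toLin'_pow, ← Units.val_pow_eq_pow_val, hxr, hz, one_smul, Matrix.toLin'_one]; rfl
        · refine H99.Pair.no_swap_rank (Matrix.toLin' (x : Matrix (Fin (2 * m)) (Fin (2 * m)) F)) 0 c (LinearMap.proj i0) ?_ U W hUW.disjoint (by omega) h6 hc0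
          intro v hv
          have hv' : v i0 = 0 := hv
          rw [Matrix.toLin'_apply, hxδ]
          ext j
          rw [Matrix.mulVec_diagonal, Pi.smul_apply, smul_eq_mul]
          by_cases hj : j = i0
          · rw [hj, hv', mul_zero, mul_zero]
          · rw [hc' j hj]
    by_cases hr2 : r = 2
    · -- r = 2
      subst hr2
      have hqodd : Odd q := by
        rw [← Nat.not_even_iff_odd, even_iff_two_dvd]
        exact hrq'
      have hv : padicValNat 2 (2 * m) < padicValNat 2 (q + 1) := by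
        by_contra h
        exact hcon ⟨rfl, hqodd, by omega⟩
      obtain ⟨w, s, hsodd, hws⟩ := Nat.exists_eq_two_pow_mul_odd (n := 2 * m) (by omega)
      have hvw : padicValNat 2 (2 * m) = w := by
        rw [hws, padicValNat.mul (by positivity) (by rintro rfl; simp at hsodd), padicValNat.prime_pow,
          padicValNat.eq_zero_of_not_dvd (by rw [← even_iff_two_dvd]; exact Nat.not_even_iff_odd.2 hsodd), add_zero]
      have hdvd : 2 ^ (w + 1) ∣ q + 1 := by
        rw [padicValNat_dvd_iff_le (by omega)]; omega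
      obtain ⟨μ, hμ⟩ := H99.Elts.exists_root (F := F) (2 ^ (w + 1)) (by positivity) (by rw [hcard1]; exact hdvd.mul_left _)
      have hμw : μ ^ (2 ^ w) = -1 := by
        have h1 : (μ ^ (2 ^ w)) ^ 2 = 1 := by rw [← pow_mul, ← pow_succ, hμ.pow_eq_one]
        rcases sq_eq_one_iff.1 h1 with h | h
        · exfalso
          have := hμ.dvd_of_pow_eq_one _ h
          have := Nat.le_of_dvd (by positivity) this
          rw [pow_succ] at this
          have : 0 < 2 ^ w := by positivity
          omega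
        · exact h
      have hμn : μ ^ (2 * m) = -1 := by
        rw [hws, pow_mul, hμw, hsodd.neg_one_pow]
      have hμq : μ ^ (q + 1) = 1 := by
        obtain ⟨t, ht⟩ := hdvd
        rw [ht, pow_mul, hμ.pow_eq_one, one_pow]
      have h2F : (2 : F) ≠ 0 := by exact_mod_cast hrF
      have hμ0 : μ ≠ 0 := by
        rintro rfl
        rw [zero_pow (by omega)] at hμq
        exact zero_ne_one hμq
      refine hdiag (fun i => if i = i0 then -μ else μ) (μ ^ 2) ?_ ?_ ?_ ?_ (Or.inr ⟨μ, hμ0, fun j hj => if_neg hj⟩)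
      · intro i
        by_cases h : i = i0
        · simp only [if_pos h]
          rw [neg_pow, hμq, mul_one, hqodd.add_one.neg_one_pow]
        · simp only [if_neg h]; exact hμq
      · have h1 : ∀ i, (if i = i0 then -μ else μ) = μ * (if i = i0 then -1 else 1) := by
          intro i; split_ifs <;> ring
        rw [Finset.prod_congr rfl (fun i _ => h1 i), Finset.prod_mul_distrib, Finset.prod_const, Finset.card_univ, Fintype.card_fin, hμn,
          Finset.prod_ite_eq' Finset.univ i0 (fun _ => (-1 : F))]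
        simp
      · intro i
        by_cases h : i = i0
        · simp only [if_pos h]; ring
        · simp only [if_neg h]
      · intro j hj h
        have h : (if j = i0 then -μ else μ) = (if i0 = i0 then -μ else μ) := h
        rw [if_neg hj, if_pos rfl] at h
        apply hμ0
        have h3 : (2 : F) * μ = 0 := by linear_combination h
        exact (mul_eq_zero.1 h3).resolve_left h2F
    have hrodd := hr.odd_of_ne_two hr2
    by_cases hrq1 : r ∣ q + 1
    · obtain ⟨ω, hω⟩ := H99.Elts.exists_root (F := F) r hr.pos (by rw [hcard1]; exact hrq1.mul_left _)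
      have hωq : ω ^ (q + 1) = 1 := by
        obtain ⟨t, ht⟩ := hrq1
        rw [ht, pow_mul, hω.pow_eq_one, one_pow]
      have hω0 : ω ≠ 0 := hω.ne_zero hr.ne_zero
      have hω1 : ω ≠ 1 := hω.ne_one hr.one_lt
      have hω2 : ω⁻¹ ≠ ω := by
        intro h
        have h1 : ω ^ 2 = 1 := by
          rw [pow_two]; nth_rewrite 1 [← h]; exact inv_mul_cancel₀ hω0
        have := Nat.le_of_dvd (by norm_num) (hω.dvd_of_pow_eq_one _ h1)
        have := hr.two_le
        omega
      refine hdiag (H99.Elts.d3 (2 * m) ω ω⁻¹ 1) 1 ?_ ?_ ?_ ?_ (Or.inl ⟨hrodd, rfl⟩)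
      · intro i
        simp only [H99.Elts.d3]
        split_ifs <;> simp [hωq]
      · rw [H99.Elts.prod_d3 (by omega), mul_one, mul_inv_cancel₀ hω0]
      · intro i
        simp only [H99.Elts.d3]
        split_ifs <;> simp [hω.pow_eq_one]
      · intro j hj
        have hj0 : (j : ℕ) ≠ 0 := fun h => hj (Fin.ext h)
        have hi0 : ((i0 : Fin (2 * m)) : ℕ) = 0 := rfl
        simp only [H99.Elts.d3, hj0, hi0, if_true, if_false]
        split_ifs
        · exact hω2
        · exact hω1.symm
        · exact hω1.symm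
    · rcases hindex with h | ⟨k, hkm, hk⟩
      · exact hrq' h
      have : Fact r.Prime := ⟨hr⟩
      set s := orderOf (-((q : ℕ) : ZMod r)) with hsdef
      have h7 : (-((q : ℕ) : ZMod r)) ^ (2 * k + 1) = 1 := by
        have h8 : ((q ^ (2 * k + 1) + 1 : ℕ) : ZMod r) = 0 := (ZMod.natCast_eq_zero_iff _ _).2 hk
        push_cast at h8
        rw [Odd.neg_pow ⟨k, rfl⟩, eq_neg_of_add_eq_zero_left h8, neg_neg]
      have hsdvd : s ∣ 2 * k + 1 := orderOf_dvd_of_pow_eq_one h7
      have hs0 : 0 < s := Nat.pos_of_dvd_of_pos hsdvd (by omega)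
      have hsodd : Odd s := Odd.of_dvd_nat ⟨k, rfl⟩ hsdvd
      have hsle : s ≤ 2 * k + 1 := Nat.le_of_dvd (by omega) hsdvd
      have hs1 : (-((q : ℕ) : ZMod r)) ^ s = 1 := pow_orderOf_eq_one _
      have hrs : r ∣ q ^ s + 1 := by
        rw [← ZMod.natCast_eq_zero_iff]
        push_cast
        rw [hsodd.neg_pow] at hs1
        linear_combination -hs1
      obtain ⟨x, hxU, hxr, hx1, hxdim⟩ := H99.HermPair.exists_elt hK hr (n := 2 * m) (s := s) (by omega) hsodd hrs
      have hle : s ≤ orderOf ((Fintype.card F : ℕ) : ZMod r) := by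
        have h8 : ((Fintype.card F : ℕ) : ZMod r) = (-((q : ℕ) : ZMod r)) ^ 2 := by
          rw [hq]; push_cast; ring
        have h9 : 0 < orderOf ((Fintype.card F : ℕ) : ZMod r) := by
          rw [orderOf_pos_iff, isOfFinOrder_iff_pow_eq_one]
          exact ⟨s, hs0, by rw [h8, ← pow_mul, mul_comm, pow_mul, hs1, one_pow]⟩
        apply Nat.le_of_dvd h9
        have h10 : s ∣ 2 * orderOf ((Fintype.card F : ℕ) : ZMod r) := by
          apply orderOf_dvd_of_pow_eq_one
          rw [pow_mul, ← h8, pow_orderOf_eq_one]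
        exact (Nat.Coprime.dvd_mul_left (Nat.coprime_two_right.2 hsodd)).1 h10
      have hct : ∀ M : Matrix (Fin (2 * m)) (Fin (2 * m)) F, (H49.Unitary.ct hK M).det = M.det ^ q := by
        intro M
        rw [H49.Unitary.ct, Matrix.det_transpose, ← RingHom.mapMatrix_apply, ← RingHom.map_det, H49.Unitary.frob_apply]
      have hdet : (x : Matrix (Fin (2 * m)) (Fin (2 * m)) F).det = 1 := by
        have h1 : (x : Matrix (Fin (2 * m)) (Fin (2 * m)) F).det ^ r = 1 := by
          rw [← Matrix.det_pow, ← Units.val_pow_eq_pow_val, hxr, Units.val_one, Matrix.det_one]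
        have h2 := congrArg Matrix.det ((H49.Unitary.mem_GU hK x).1 hxU)
        rw [Matrix.det_mul, hct, Matrix.det_one, ← pow_succ] at h2
        have h3 := orderOf_dvd_of_pow_eq_one h1
        have h4 := orderOf_dvd_of_pow_eq_one h2
        have h5 : orderOf (x : Matrix (Fin (2 * m)) (Fin (2 * m)) F).det = 1 := by
          rcases (Nat.dvd_prime hr).1 h3 with h | h
          · exact h
          · rw [h] at h4; exact absurd h4 hrq1
        exact orderOf_eq_one_iff.1 h5
      set T := Matrix.toLin' (x : Matrix (Fin (2 * m)) (Fin (2 * m)) F) with hT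
      have hTr : T ^ r = 1 := by
        rw [hT, ← Matrix.toLin'_pow, ← Units.val_pow_eq_pow_val, hxr, Units.val_one, Matrix.toLin'_one]; rfl
      have hT1 : T ≠ 1 := by
        intro h
        apply hx1
        apply Units.ext
        apply Matrix.toLin'.injective
        show T = Matrix.toLin' (1 : Matrix (Fin (2 * m)) (Fin (2 * m)) F)
        rw [Matrix.toLin'_one]; exact h
      have hns : ∀ z : F, (x : Matrix (Fin (2 * m)) (Fin (2 * m)) F) ≠ z • (1 : Matrix (Fin (2 * m)) (Fin (2 * m)) F) := by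
        intro z hz
        have hTz : ∀ v, T v = z • v := by
          intro v
          rw [hT, hz]; simp
        by_cases hz1 : z = 1
        · apply hT1
          apply LinearMap.ext
          intro v
          rw [hTz, hz1, one_smul]; rfl
        · have hrange : LinearMap.range (T - 1) = ⊤ := by
            rw [LinearMap.range_eq_top]
            intro v
            refine ⟨(z - 1)⁻¹ • v, ?_⟩
            show T ((z - 1)⁻¹ • v) - (z - 1)⁻¹ • v = v
            rw [hTz, smul_smul, ← sub_smul, show z * (z - 1)⁻¹ - (z - 1)⁻¹ = (z - 1) * (z - 1)⁻¹ by ring,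
              mul_inv_cancel₀ (sub_ne_zero.2 hz1), one_smul]
          rw [hrange, finrank_top, Module.finrank_fintype_fun_eq_card, Fintype.card_fin] at hxdim
          omega
      refine no D hdim hc hs x (H x ⟨hxU, mem_sl x hdet⟩ ⟨1, by rw [hxr, one_smul]; rfl⟩ hns) ?_
      intro U W hUW hUm hU hW hcase
      rcases hcase with ⟨h1, h2⟩ | ⟨h1, h2⟩
      · exact H99.Pair.no_pair hr hrq hrF (Cfsg.hermForm (2 * m) F q) (H99.HermPair.ses_std hK (2 * m)).add_right
          (H99.HermPair.ses_std hK (2 * m)).sub_left (H99.HermPair.ses_std hK (2 * m)).nd T hxU hTr hT1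
          (hxdim.trans hle) U W hUW hU hW h1 h2
      · have : Nontrivial (Fin (2 * m) → F) := ⟨0, Pi.single i0 1, fun h => by have := congrFun h i0; simp at this⟩
        exact H99.Pair.no_swap_odd T r hrodd hTr U W hUW h1 h2
  · rintro ⟨rfl, hqodd, hv⟩
    intro x hxG hz hns
    have h2F : (2 : F) ≠ 0 := by
      intro h
      have h1 : ringChar F = 2 := CharP.ringChar_of_prime_eq_zero Nat.prime_two (by exact_mod_cast h)
      have h2 := FiniteField.even_card_iff_char_two.1 h1
      rw [hq] at h2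
      have h3 := hqodd.pow (n := 2)
      rw [Nat.odd_iff] at h3
      omega
    obtain ⟨z, hz⟩ := hz
    have hxU := hxG.1
    have hxdet : (x : Matrix (Fin (2 * m)) (Fin (2 * m)) F).det = 1 := by
      have := hxG.2
      have h1 : x ∈ (Matrix.GeneralLinearGroup.det : GL (Fin (2 * m)) F →* Fˣ).ker := this
      rw [MonoidHom.mem_ker] at h1
      exact congrArg Units.val h1
    set X := (x : Matrix (Fin (2 * m)) (Fin (2 * m)) F) with hX
    have hXX : X * X = z • (1 : Matrix (Fin (2 * m)) (Fin (2 * m)) F) := by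
      rw [← pow_two, hX, ← Units.val_pow_eq_pow_val]; exact hz
    have hiso : ∀ u v, Cfsg.hermForm (2 * m) F q (Matrix.mulVec X u) (Matrix.mulVec X v) = Cfsg.hermForm (2 * m) F q u v := hxU
    have hses := H99.HermPair.ses_std hK (2 * m)
    -- z has norm one
    have hzq : z ^ (q + 1) = 1 := by
      have h1 : ∀ u v, z ^ (q + 1) * Cfsg.hermForm (2 * m) F q u v = Cfsg.hermForm (2 * m) F q u v := by
        intro u v
        have h2 : ∀ v, Matrix.mulVec X (Matrix.mulVec X v) = z • v := by
          intro v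
          rw [Matrix.mulVec_mulVec, hXX, Matrix.smul_mulVec, Matrix.one_mulVec]
        have h3 := hiso (Matrix.mulVec X u) (Matrix.mulVec X v)
        rw [hiso u v, h2, h2, hses.smul_left, hses.smul_right, H49.Unitary.frob_apply] at h3
        linear_combination h3
      by_contra hne
      have h2 : ∀ u v, Cfsg.hermForm (2 * m) F q u v = 0 := by
        intro u v
        have h3 : (z ^ (q + 1) - 1) * Cfsg.hermForm (2 * m) F q u v = 0 := by
          rw [sub_mul, h1, one_mul, sub_self]
        exact (mul_eq_zero.1 h3).resolve_left (sub_ne_zero.2 hne)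
      have h3 := hses.nd (Pi.single i0 1) (h2 _)
      have := congrFun h3 i0
      simp at this
    have hz0 : z ≠ 0 := by
      rintro rfl
      rw [zero_pow (by omega)] at hzq
      exact zero_ne_one hzq
    obtain ⟨μ, hμz⟩ : ∃ μ : F, μ ^ 2 = z := by
      have h1 : IsSquare z := by
        rw [FiniteField.isSquare_iff (by
          intro h
          have h2 := FiniteField.even_card_iff_char_two.1 h
          rw [hq] at h2
          have h3 := hqodd.pow (n := 2)
          rw [Nat.odd_iff] at h3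
          omega) hz0]
        obtain ⟨t, ht⟩ := hqodd
        have h2 : Fintype.card F / 2 = (q + 1) * t := by
          rw [hq, ht]
          have : (2 * t + 1) ^ 2 = 2 * ((2 * t + 1 + 1) * t) + 1 := by ring
          rw [this]; omega
        rw [h2, pow_mul, hzq, one_pow]
      obtain ⟨μ, hμ⟩ := h1
      exact ⟨μ, by rw [hμ, pow_two]⟩
    have hμ0 : μ ≠ 0 := by
      rintro rfl
      rw [zero_pow (by norm_num)] at hμz
      exact hz0 hμz.symm
    -- diagonalize
    have hω : IsPrimitiveRoot (-1 : F) 2 := by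
      refine IsPrimitiveRoot.mk_of_lt _ (by norm_num) (by norm_num) ?_
      intro l hl0 hl2 h
      have : l = 1 := by omega
      subst this
      rw [pow_one] at h
      apply h2F
      linear_combination -h
    let T : (Fin (2 * m) → F) →ₗ[F] (Fin (2 * m) → F) := Matrix.toLin' (μ⁻¹ • X)
    have hT : T ^ 2 = 1 := by
      show (Matrix.toLin' (μ⁻¹ • X)) ^ 2 = 1
      rw [← Matrix.toLin'_pow, pow_two, Matrix.smul_mul, Matrix.mul_smul, hXX, smul_smul, smul_smul, ← hμz,
        show μ⁻¹ * μ⁻¹ * μ ^ 2 = (μ⁻¹ * μ) ^ 2 by ring, inv_mul_cancel₀ hμ0, one_pow, one_smul, Matrix.toLin'_one]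
      rfl
    obtain ⟨b, l, hbl⟩ := H99.Eig.exists_eig (by norm_num) hω (by exact_mod_cast h2F) (n := 2 * m) (by simp) T hT
    have hbX : ∀ i, Matrix.toLin' X (b i) = (μ * (-1) ^ (l i : ℕ)) • b i := by
      intro i
      have h1 := hbl i
      have h2 : T (b i) = μ⁻¹ • Matrix.toLin' X (b i) := by
        show Matrix.toLin' (μ⁻¹ • X) (b i) = _
        rw [map_smul]; rfl
      rw [h2] at h1
      rw [mul_smul, ← h1, smul_smul, mul_inv_cancel₀ hμ0, one_smul]
    obtain ⟨R, hR, hRX⟩ := H99.Eig.diag_of_basis X b (fun i => μ * (-1) ^ (l i : ℕ)) hbX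
    have hdetX := H99.Eig.det_of_diag X R _ hR hRX
    rw [hxdet, Finset.prod_mul_distrib, Finset.prod_const, Finset.card_univ, Fintype.card_fin] at hdetX
    set k := (Finset.univ.filter fun i => l i = 1).card with hk
    have hl01 : ∀ i, l i = 0 ∨ l i = 1 := by
      intro i
      generalize l i = a
      revert a; decide
    have hprod : ∏ i, ((-1 : F)) ^ (l i : ℕ) = (-1) ^ k := by
      rw [Finset.prod_pow_eq_pow_sum]
      congr 1
      rw [hk, Finset.card_filter]
      refine Finset.sum_congr rfl fun i _ => ?_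
      rcases hl01 i with h | h
      · rw [h]; rfl
      · rw [h]; rfl
    rw [hprod] at hdetX
    have hkle : k ≤ 2 * m := by
      have := Finset.card_le_univ (Finset.univ.filter fun i => l i = 1)
      rwa [Fintype.card_fin] at this
    -- conclusion from an arrangement
    have hfin : ∀ l' : Fin m ⊕ Fin m → Fin 2, (Finset.univ.filter fun i => l' i = 1).card = k →
        (∀ i, (μ * (-1) ^ (l' (.inl i) : ℕ)) ^ q * (μ * (-1) ^ (l' (.inr i) : ℕ)) = 1) →
        ∃ g ∈ Cfsg.GU (2 * m) F q ⊓ Cfsg.Geo.specialLinear (Fin (2 * m)) F, g⁻¹ * x * g ∈ Cfsg.Geo.decompositionStabilizer D := by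
      intro l' hl' hδ
      obtain ⟨e, he⟩ := exists_equiv l' l (by rw [Fintype.card_sum, Fintype.card_fin, Fintype.card_fin]; ring) hl'
      refine conj_of_eig hK (by omega) e D hdim hc hs x hxU R hR (fun i => μ * (-1) ^ (l' i : ℕ)) ?_ hδ
      rw [hRX]
      congr 1
      ext a b
      rw [H99.HermPair.rx, Matrix.diagonal_apply, Matrix.diagonal_apply]
      by_cases hab : a = b
      · subst hab
        rw [if_pos rfl, if_pos rfl, ← he, Equiv.apply_symm_apply]
      · rw [if_neg hab, if_neg (fun h => hab (e.symm.injective h))]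
    have hq1 : Even (q + 1) := hqodd.add_one
    have hμ2 : (μ ^ (q + 1)) ^ 2 = 1 := by
      rw [← pow_mul, mul_comm, pow_mul, hμz, hzq]
    rcases sq_eq_one_iff.1 hμ2 with hμq | hμq
    · -- both eigenspaces nondegenerate
      have hkeven : Even k := by
        by_contra hodd
        rw [Nat.not_even_iff_odd] at hodd
        rw [hodd.neg_one_pow, mul_neg, mul_one] at hdetX
        obtain ⟨w, s, hsodd, hws⟩ := Nat.exists_eq_two_pow_mul_odd (n := q + 1) (by omega)
        have hvw : padicValNat 2 (q + 1) = w := by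
          rw [hws, padicValNat.mul (by positivity) (by rintro rfl; simp at hsodd), padicValNat.prime_pow,
            padicValNat.eq_zero_of_not_dvd (by rw [← even_iff_two_dvd]; exact Nat.not_even_iff_odd.2 hsodd), add_zero]
        have hdvd : 2 ^ w ∣ 2 * m := by
          rw [padicValNat_dvd_iff_le (by omega)]; omega
        obtain ⟨c, hc'⟩ := hdvd
        have h1 : (μ ^ (2 * m)) ^ s = 1 := by
          rw [← pow_mul, hc', show 2 ^ w * c * s = (2 ^ w * s) * c by ring, ← hws, pow_mul, hμq, one_pow]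
        have h2 : μ ^ (2 * m) = -1 := by linear_combination hdetX
        rw [h2, hsodd.neg_one_pow] at h1
        apply h2F
        linear_combination -h1
      obtain ⟨k', hk'⟩ := hkeven
      refine hfin (Sum.elim (fun i => if (i : ℕ) < k' then 1 else 0) (fun i => if (i : ℕ) < k' then 1 else 0)) ?_ ?_
      · have key : ∀ i : Fin m, ((if (i : ℕ) < k' then (1 : Fin 2) else 0) = 1) ↔ (i : ℕ) < k' := by
          intro i
          by_cases h : (i : ℕ) < k'
          · simp [h]
          · simp [h]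
        rw [Finset.card_filter, Fintype.sum_sum_type]
        simp only [Sum.elim_inl, Sum.elim_inr, key]
        rw [← Finset.card_filter, H99.NoForm.card_lt m k' (by omega), hk']
      · intro i
        simp only [Sum.elim_inl, Sum.elim_inr]
        rw [← pow_succ, mul_pow, hμq, one_mul, ← pow_mul, mul_comm, pow_mul, hq1.neg_one_pow, one_pow]
    · -- both eigenspaces totally singular
      obtain ⟨R', hRR', hR'R⟩ : ∃ R' : Matrix (Fin (2 * m)) (Fin (2 * m)) F, R * R' = 1 ∧ R' * R = 1 :=
        ⟨R⁻¹, Matrix.mul_nonsing_inv R hR.isUnit, Matrix.nonsing_inv_mul R hR.isUnit⟩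
      have hg := hses.transport R R' hR'R hRR'
      have hmul : ∀ a b, Cfsg.hermForm (2 * m) F q (Matrix.mulVec R (Pi.single a 1)) (Matrix.mulVec R (Pi.single b 1)) =
          (μ * (-1) ^ (l a : ℕ)) * (μ * (-1) ^ (l b : ℕ)) ^ q *
            Cfsg.hermForm (2 * m) F q (Matrix.mulVec R (Pi.single a 1)) (Matrix.mulVec R (Pi.single b 1)) := by
        intro a b
        have h1 : ∀ a, Matrix.mulVec X (Matrix.mulVec R (Pi.single a 1)) = (μ * (-1) ^ (l a : ℕ)) • Matrix.mulVec R (Pi.single a 1) := by
          intro a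
          rw [Matrix.mulVec_mulVec, hRX, ← Matrix.mulVec_mulVec, ← Matrix.mulVec_smul]
          congr 1
          ext j
          rw [Matrix.mulVec_diagonal, Pi.smul_apply, smul_eq_mul, Pi.single_apply]
          by_cases h : j = a
          · subst h; rfl
          · rw [if_neg h, mul_zero, mul_zero]
        have h2 := hiso (Matrix.mulVec R (Pi.single a 1)) (Matrix.mulVec R (Pi.single b 1))
        rw [h1, h1, hses.smul_left, hses.smul_right, H49.Unitary.frob_apply] at h2
        linear_combination -h2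
      have hzero : ∀ a b, l a = l b → Cfsg.hermForm (2 * m) F q (Matrix.mulVec R (Pi.single a 1)) (Matrix.mulVec R (Pi.single b 1)) = 0 := by
        intro a b hab
        have h1 := hmul a b
        rw [hab, mul_comm (μ * (-1) ^ (l b : ℕ)), ← pow_succ, mul_pow, hμq, ← pow_mul, mul_comm (l b : ℕ), pow_mul, hq1.neg_one_pow, one_pow,
          mul_one] at h1
        have h2 : (2 : F) * Cfsg.hermForm (2 * m) F q (Matrix.mulVec R (Pi.single a 1)) (Matrix.mulVec R (Pi.single b 1)) = 0 := by
          linear_combination h1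
        exact (mul_eq_zero.1 h2).resolve_left h2F
      have hk1 := hg.card_le_compl (Finset.univ.filter fun i => l i = 1) (by
        intro a ha b hb
        rw [Finset.mem_filter] at ha hb
        exact hzero a b (ha.2.trans hb.2.symm))
      have hk0 := hg.card_le_compl (Finset.univ.filter fun i => ¬ l i = 1) (by
        intro a ha b hb
        rw [Finset.mem_filter] at ha hb
        exact hzero a b (((hl01 a).resolve_right ha.2).trans ((hl01 b).resolve_right hb.2).symm))
      have hk2 := Finset.card_filter_add_card_filter_not (s := (Finset.univ : Finset (Fin (2 * m)))) (fun i => l i = 1)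
      rw [Finset.card_univ, Fintype.card_fin] at hk2
      rw [Fintype.card_fin] at hk1 hk0
      have hkm : k = m := by omega
      refine hfin (Sum.elim (fun _ => 0) (fun _ => 1)) ?_ ?_
      · rw [Finset.card_filter, Fintype.sum_sum_type, hkm]
        simp
      · intro i
        simp only [Sum.elim_inl, Sum.elim_inr]
        have : (((0 : Fin 2) : ℕ)) = 0 := rfl
        have h1 : (((1 : Fin 2) : ℕ)) = 1 := rfl
        rw [this, h1, pow_zero, mul_one, pow_one]
        rw [show μ ^ q * (μ * -1) = - μ ^ (q + 1) by ring, hμq, neg_neg]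

end Cfsg.Agent.S5984
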