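import Cfsg.Statements.S5986
import Cfsg.Agent.Lib.H99.OrthTwo2

set_option autoImplicit false
set_option linter.unusedSimpArgs false
open scoped MatrixGroups
open Cfsg

namespace Cfsg.Agent.S5986


open Module QuadraticMap H48.QuadSplit H48.QuadStd H96.OeType H99.OrthTwo
open scoped Matrix

universe u

theorem not_pt {F : Type u} [Field F] [Fintype F] (m : ℕ) {a b : F}
    (hab : ∀ z₁ z₂ : F, z₁ ^ 2 + a * z₁ * z₂ + b * z₂ ^ 2 = 0 → z₁ = 0 ∧ z₂ = 0) : ¬ PT (qMinus m F a b) := by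
  intro h
  have hd : finrank F ((Fin m ⊕ Fin m) ⊕ Fin 2 → F) = 2 * (m + 1) := by
    rw [finrank_fintype_fun_eq_card, Fintype.card_sum, Fintype.card_sum, Fintype.card_fin, Fintype.card_fin]; ring
  have h1 := ns_congr (equiv_of_pt (nd_qMinus m (disc_ne_zero hab)) hd h)
  rw [ns_plus, ns_minus m hab] at h1
  have hq1 : 1 < Fintype.card F := Fintype.one_lt_card
  have h2 := Nat.eq_of_mul_eq_mul_left (by omega) h1
  have h3 := Nat.eq_of_mul_eq_mul_left (by positivity) h2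
  omega

theorem exists_fpf_minus {F : Type u} [Field F] [Fintype F] [CharP F 2] (m : ℕ) {a b : F}
    (hab : ∀ z₁ z₂ : F, z₁ ^ 2 + a * z₁ * z₂ + b * z₂ ^ 2 = 0 → z₁ = 0 ∧ z₂ = 0) {r : ℕ} (hr : r.Prime) (hr2 : r ≠ 2)
    (h : r ∣ Fintype.card F ^ (m + 1) + 1) :
    ∃ x : GL ((Fin m ⊕ Fin m) ⊕ Fin 2) F, (∀ v, qMinus m F a b ((x : Matrix ((Fin m ⊕ Fin m) ⊕ Fin 2) ((Fin m ⊕ Fin m) ⊕ Fin 2) F) *ᵥ v) = qMinus m F a b v) ∧ x ^ r = 1 ∧
      ∀ v, (x : Matrix ((Fin m ⊕ Fin m) ⊕ Fin 2) ((Fin m ⊕ Fin m) ⊕ Fin 2) F) *ᵥ v = v → v = 0 := by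
  obtain ⟨f, f1, f2, f3⟩ := exists_fpf_polar (F := F) (Nat.succ_pos m) hr h
  obtain ⟨l, hl⟩ := H48.CharTwoQ.exists_invariant (qPlus (m + 1) F) f f1
  have hQ' : ND (H48.CharTwoQ.addSq (qPlus (m + 1) F) l) := by
    intro x hx
    apply nd_qPlus (m + 1) x
    intro y
    rw [← H48.CharTwoQ.polar_addSq _ l]; exact hx y
  have hdim : finrank F (Fin (m + 1) ⊕ Fin (m + 1) → F) = 2 * (m + 1) := by
    rw [finrank_fintype_fun_eq_card, Fintype.card_sum, Fintype.card_fin]; ring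
  have hd : finrank F ((Fin m ⊕ Fin m) ⊕ Fin 2 → F) = 2 * (m + 1) := by
    rw [finrank_fintype_fun_eq_card, Fintype.card_sum, Fintype.card_sum, Fintype.card_fin, Fintype.card_fin]; ring
  have hnp := not_plus_of_fpf hQ' hdim hr hr2 h f hl f2 f3
  obtain ⟨e⟩ := equiv_of_same hQ' (nd_qMinus m (disc_ne_zero hab)) hdim hd (iff_of_false hnp (not_pt m hab))
  have hinj : Function.Bijective f := by
    have : f.comp (f ^ (r - 1)) = 1 := by
      show f * f ^ (r - 1) = 1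
      rw [← pow_succ', Nat.sub_add_cancel hr.pos, f2]
    have h' : (f ^ (r - 1)).comp f = 1 := by
      show f ^ (r - 1) * f = 1
      rw [← pow_succ, Nat.sub_add_cancel hr.pos, f2]
    refine ⟨fun u v huv => ?_, fun v => ⟨(f ^ (r - 1)) v, congrArg (fun g : (Fin (m + 1) ⊕ Fin (m + 1) → F) →ₗ[F] (Fin (m + 1) ⊕ Fin (m + 1) → F) => g v) this⟩⟩
    have h1 : (f ^ (r - 1)) (f u) = u := congrArg (fun g : (Fin (m + 1) ⊕ Fin (m + 1) → F) →ₗ[F] (Fin (m + 1) ⊕ Fin (m + 1) → F) => g u) h'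
    have h2 : (f ^ (r - 1)) (f v) = v := congrArg (fun g : (Fin (m + 1) ⊕ Fin (m + 1) → F) →ₗ[F] (Fin (m + 1) ⊕ Fin (m + 1) → F) => g v) h'
    rw [← h1, huv, h2]
  let E : ((Fin m ⊕ Fin m) ⊕ Fin 2 → F) ≃ₗ[F] ((Fin m ⊕ Fin m) ⊕ Fin 2 → F) :=
    (e.toLinearEquiv.symm.trans (LinearEquiv.ofBijective f hinj)).trans e.toLinearEquiv
  let x : GL ((Fin m ⊕ Fin m) ⊕ Fin 2) F := (H95.Bridge.toEq _ F).symm E
  have hxv : ∀ v, (x : Matrix _ _ F) *ᵥ v = e (f (e.toLinearEquiv.symm v)) := fun v => H95.Bridge.toEq_symm_mulVec E v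
  have he1 : ∀ v, e (e.toLinearEquiv.symm v) = v := fun v => e.toLinearEquiv.apply_symm_apply v
  have he2 : ∀ v, e.toLinearEquiv.symm (e v) = v := fun v => e.toLinearEquiv.symm_apply_apply v
  have hxk : ∀ (k : ℕ) v, ((x ^ k : GL ((Fin m ⊕ Fin m) ⊕ Fin 2) F) : Matrix _ _ F) *ᵥ v = e ((f ^ k) (e.toLinearEquiv.symm v)) := by
    intro k
    induction k with
    | zero => intro v; rw [pow_zero, pow_zero, Units.val_one, Matrix.one_mulVec]; exact (he1 v).symm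
    | succ k ih =>
      intro v
      rw [pow_succ', Units.val_mul, ← Matrix.mulVec_mulVec, ih, hxv, he2, pow_succ']; rfl
  refine ⟨x, ?_, ?_, ?_⟩
  · intro v
    rw [hxv, e.map_app, hl, ← e.map_app, he1]
  · apply Units.ext
    apply Matrix.toLin'.injective
    apply LinearMap.ext
    intro v
    rw [Matrix.toLin'_apply, hxk, f2, Units.val_one, Matrix.toLin'_one]
    exact he1 v
  · intro v hv
    rw [hxv] at hv
    have h1 : f (e.toLinearEquiv.symm v) = e.toLinearEquiv.symm v := by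
      rw [← he2 (f (e.toLinearEquiv.symm v)), hv]
    rw [← he1 v, f3 _ h1]
    exact e.toLinearEquiv.map_zero

theorem core {F : Type u} [Field F] [Fintype F] [CharP F 2] (m : ℕ) (hd : 4 ≤ m + 1) (a b : F) (hab : ∀ x y : F, x ^ 2 + a * x * y + b * y ^ 2 = 0 → x = 0 ∧ y = 0) (r : ℕ) [Fact r.Prime]
    (hrΩ : r ∣ Nat.card {W : Submodule F ((Fin m ⊕ Fin m) ⊕ Fin 2 → F) // Module.finrank F ↥W = 1 ∧ ∃ v ∈ W, qMinus m F a b v ≠ 0}) :
    (∀ x : GL ((Fin m ⊕ Fin m) ⊕ Fin 2) F, x ∈ Cfsg.Geo.omegaGL (⇑(qMinus m F a b)) →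
      (∃ z : F, ((x ^ r : GL ((Fin m ⊕ Fin m) ⊕ Fin 2) F) : Matrix ((Fin m ⊕ Fin m) ⊕ Fin 2) ((Fin m ⊕ Fin m) ⊕ Fin 2) F) = z • (1 : Matrix ((Fin m ⊕ Fin m) ⊕ Fin 2) ((Fin m ⊕ Fin m) ⊕ Fin 2) F)) →
      (∀ z : F, (x : Matrix ((Fin m ⊕ Fin m) ⊕ Fin 2) ((Fin m ⊕ Fin m) ⊕ Fin 2) F) ≠ z • (1 : Matrix ((Fin m ⊕ Fin m) ⊕ Fin 2) ((Fin m ⊕ Fin m) ⊕ Fin 2) F)) →
      ∃ W : Submodule F ((Fin m ⊕ Fin m) ⊕ Fin 2 → F), (Module.finrank F ↥W = 1 ∧ ∃ v ∈ W, qMinus m F a b v ≠ 0) ∧ W.map (Matrix.toLin' (x : Matrix ((Fin m ⊕ Fin m) ⊕ Fin 2) ((Fin m ⊕ Fin m) ⊕ Fin 2) F)) ≤ W) ↔ r = 2 := by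
  have hr := (Fact.out : r.Prime)
  have hQ := nd_qMinus (F := F) m (disc_ne_zero hab)
  have : Nonempty ((Fin m ⊕ Fin m) ⊕ Fin 2) := ⟨Sum.inr 0⟩
  obtain ⟨v0, hv0⟩ := exists_nonsing hQ
  have hdim : finrank F ((Fin m ⊕ Fin m) ⊕ Fin 2 → F) = 2 * (m + 1) := by
    rw [finrank_fintype_fun_eq_card, Fintype.card_sum, Fintype.card_sum, Fintype.card_fin, Fintype.card_fin]; ring
  have hcard : Fintype.card F ≠ 2 ∨ Fintype.card ((Fin m ⊕ Fin m) ⊕ Fin 2) ≠ 4 := Or.inr (by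
    rw [Fintype.card_sum, Fintype.card_sum, Fintype.card_fin, Fintype.card_fin]; omega)
  constructor
  · intro H
    have H' : ∀ x : GL ((Fin m ⊕ Fin m) ⊕ Fin 2) F, x ∈ Cfsg.Geo.omegaGL (⇑(qMinus m F a b)) → x ^ r = 1 → ¬ (∀ v, (x : Matrix _ _ F) *ᵥ v = v → qMinus m F a b v = 0) := by
      intro x hx hxr hfix
      obtain ⟨W, hW, hxW⟩ := H x hx ⟨1, by rw [hxr, one_smul, Units.val_one]⟩ (by
        intro z hz
        have h1 := scal_one (mem_iso hx) hv0 hz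
        apply hv0
        apply hfix
        rw [hz, h1, one_smul, Matrix.one_mulVec])
      obtain ⟨v, h1, h2⟩ := fix_of_line (mem_iso hx) hW hxW
      exact h1 (hfix v h2)
    have hq1 : 1 < Fintype.card F := Fintype.one_lt_card
    by_contra hr2
    have h2 := ns_minus m hab
    rw [← card_lines] at h2
    have h3 := Nat.eq_of_mul_eq_mul_left (by omega) h2
    rw [h3] at hrΩ
    have h4 : r ∣ Fintype.card F ^ (m + 1) + 1 := by
      rcases (hr.dvd_mul).1 hrΩ with h | h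
      · exfalso
        have h5 := hr.dvd_of_dvd_pow h
        obtain ⟨n, -, hn⟩ := FiniteField.card F 2
        rw [hn] at h5
        exact hr2 ((Nat.prime_dvd_prime_iff_eq hr Nat.prime_two).1 (hr.dvd_of_dvd_pow h5))
      · exact h
    obtain ⟨x, x1, x2, x3⟩ := exists_fpf_minus m hab hr hr2 h4
    refine H' x (H99.OrthUni3.mem_omega_of_odd _ (nd_iff.1 hQ) hcard ((H17.OrthDet.mem_isometryGroup_iff _ _).mpr x1)
        (hr.odd_of_ne_two hr2) x2) x2 ?_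
    intro v hv
    rw [x3 v hv]
    exact QuadraticMap.map_zero _
  · rintro rfl x hx ⟨z, hz⟩ -
    by_contra hcon
    have hx2 := pow_one_of_scal (mem_iso hx) hv0 hz
    have hQ' : ∀ v, (x : Matrix _ _ F) *ᵥ v = v → qMinus m F a b v = 0 := by
      intro v hv
      by_contra h
      exact hcon (line_of_fix h hv)
    have := (invol_ts hQ hdim (Matrix.toLin' (x : Matrix ((Fin m ⊕ Fin m) ⊕ Fin 2) ((Fin m ⊕ Fin m) ⊕ Fin 2) F)) (fun v => by rw [Matrix.toLin'_apply]; exact mem_iso hx v) (fun v => by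
      rw [Matrix.toLin'_apply, Matrix.toLin'_apply, Matrix.mulVec_mulVec, ← Units.val_mul, ← pow_two, hx2, Units.val_one, Matrix.one_mulVec])
      (fun v hv => hQ' v (by rwa [Matrix.toLin'_apply] at hv))).2
    exact not_pt m hab this


/-- Elements of prime order of Ω⁻_n(q), q even, with no fixed nonsingular 1-space. Here `T = PΩ⁻_n(F)`, `n = 2d ≥ 8`, realised through `Ω⁻_n(q)`, the commutator subgroup of the isometry group of `Q = Σ_{i<d−1} xᵢyᵢ + z₁² + a z₁z₂ + b z₂²` with `z₁² + a z₁z₂ + b z₂²` anisotropic, over the field `F` with `q` elements; an element of `T` of prime order `r` is an element `x` of `Ω⁻_n(q)` with `x^r` scalar and `x` not scalar; `q` is even (so the centre is trivial). Let Ω be the set of 1-dimensional subspaces spanned by a vector `v` with `Q(v) ≠ 0`, and let `r` be a prime dividing their number. Then every element of `T` of order `r` fixes some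 nonsingular 1-space if and only if `r = 2`. -/
theorem result {F : Type*} [Field F] [Fintype F] {p : ℕ} [Fact p.Prime] [CharP F p] {q : ℕ} (hq : Fintype.card F = q)
    (hp : p = 2) (d : ℕ) (hd : 4 ≤ d) (a b : F) (hab : ∀ x y : F, x ^ 2 + a * x * y + b * y ^ 2 = 0 → x = 0 ∧ y = 0) (r : ℕ) [Fact r.Prime]
    (hrΩ : r ∣ Nat.card {W : Submodule F ((Fin (d - 1) ⊕ Fin (d - 1)) ⊕ Fin 2 → F) // Module.finrank F ↥W = 1 ∧ ∃ v ∈ W, Cfsg.quadFormMinus (d - 1) F a b v ≠ 0}) :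
    (∀ x : GL ((Fin (d - 1) ⊕ Fin (d - 1)) ⊕ Fin 2) F, x ∈ Cfsg.Geo.omegaGL (Cfsg.quadFormMinus (d - 1) F a b) →
      (∃ z : F, ((x ^ r : GL ((Fin (d - 1) ⊕ Fin (d - 1)) ⊕ Fin 2) F) : Matrix ((Fin (d - 1) ⊕ Fin (d - 1)) ⊕ Fin 2) ((Fin (d - 1) ⊕ Fin (d - 1)) ⊕ Fin 2) F) = z • (1 : Matrix ((Fin (d - 1) ⊕ Fin (d - 1)) ⊕ Fin 2) ((Fin (d - 1) ⊕ Fin (d - 1)) ⊕ Fin 2) F)) →
      (∀ z : F, (x : Matrix ((Fin (d - 1) ⊕ Fin (d - 1)) ⊕ Fin 2) ((Fin (d - 1) ⊕ Fin (d - 1)) ⊕ Fin 2) F) ≠ z • (1 : Matrix ((Fin (d - 1) ⊕ Fin (d - 1)) ⊕ Fin 2) ((Fin (d - 1) ⊕ Fin (d - 1)) ⊕ Fin 2) F)) →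
      ∃ W : Submodule F ((Fin (d - 1) ⊕ Fin (d - 1)) ⊕ Fin 2 → F), (Module.finrank F ↥W = 1 ∧ ∃ v ∈ W, Cfsg.quadFormMinus (d - 1) F a b v ≠ 0) ∧ W.map (Matrix.toLin' (x : Matrix ((Fin (d - 1) ⊕ Fin (d - 1)) ⊕ Fin 2) ((Fin (d - 1) ⊕ Fin (d - 1)) ⊕ Fin 2) F)) ≤ W) ↔ r = 2 := by

  subst hp
  obtain ⟨m, rfl⟩ : ∃ m, d = m + 1 := ⟨d - 1, by omega⟩
  rw [← coe_qMinus] at hrΩ ⊢
  exact core m hd a b hab r hrΩ

end Cfsg.Agent.S5986
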