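import Cfsg.Statements.S5987
import Cfsg.Agent.Lib.H99.OrthTsTwo
import Cfsg.Agent.Lib.H99.TsCount
import Cfsg.Agent.Lib.H99.OrthEvenDim3
import Cfsg.Agent.Lib.H99.OrthArith2

set_option autoImplicit false
set_option linter.unusedSimpArgs false
open scoped MatrixGroups
open Cfsg

namespace Cfsg.Agent.S5987


open Module QuadraticMap H48.QuadSplit H48.QuadStd H96.OeType H99.OrthSS H99.OrthTi

/-- Elements of prime order of PΩ⁻_n(q) with no fixed totally singular `m`-space. Here `T = PΩ⁻_n(F)`, `n = 2d ≥ 8`, realised through `Ω⁻_n(q)`, the commutator subgroup of the isometry group of `Q = Σ_{i<d−1} xᵢyᵢ + z₁² + a z₁z₂ + b z₂²` with `z₁² + a z₁z₂ + b z₂²` anisotropic, over the field `F` with `q` elements; an element of `T` of prime order `r` is an element `x` of `Ω⁻_n(q)` with `x^r` scalar and `x` not scalar. Let `1 ≤ m ≤ d − 1` and let `r` be a prime dividing the number of totally singular `m`-spaces (subspaces of dimension `m` on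 which `Q` vanishes); for `r ≠ p` let `i` be the multiplicative order of `q` modulo `r`, `c = i` for `i` even and `c = 2i` for `i` odd, and write `k = n mod c`, `ℓ = m mod i`, `n' = ⌊n/i⌋`, `m' = ⌊m/i⌋`, `t = (r−1)/i`. Then every element of `T` of order `r` fixes some totally singular `m`-space if and only if one of: (i) `r = 2 ≠ p` and (`n ≡ 0 (mod 4)`, or `m` is even, or `q ≢ 7 (mod 8)`); (ii) `r ≠ p` odd, `i` odd, `i ≤ m` and (`k = 0` or `k > 2ℓ`); (iii) `r ≠ p` odd, `i` even, `i ≤ m`, `n' − 2m' ≥ t`, and one of: (a) `i ≥ 2ℓ`, `k = 0`, `n/i` even and `n' − 2m' > t` (all four); (b) `k ≥ 2ℓ` and `n'` odd; (c) `k > 2ℓ` and `n'` even. -/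
theorem result {F : Type*} [Field F] [Fintype F] {p : ℕ} [Fact p.Prime] [CharP F p] {q : ℕ} (hq : Fintype.card F = q)
    (d m : ℕ) (hd : 4 ≤ d) (hm : 1 ≤ m) (hmd : m + 1 ≤ d) (a b : F) (hab : ∀ x y : F, x ^ 2 + a * x * y + b * y ^ 2 = 0 → x = 0 ∧ y = 0)
    (r : ℕ) [Fact r.Prime]
    (hrΩ : r ∣ Nat.card {W : Submodule F ((Fin (d - 1) ⊕ Fin (d - 1)) ⊕ Fin 2 → F) // Module.finrank F ↥W = m ∧ Cfsg.Geo.IsTotallySingularQuad (Cfsg.quadFormMinus (d - 1) F a b) W})
    (i c : ℕ) (hi : i = orderOf (q : ZMod r)) (hc : c = if Even i then i else 2 * i) :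
    (∀ x : GL ((Fin (d - 1) ⊕ Fin (d - 1)) ⊕ Fin 2) F, x ∈ Cfsg.Geo.omegaGL (Cfsg.quadFormMinus (d - 1) F a b) →
      (∃ z : F, ((x ^ r : GL ((Fin (d - 1) ⊕ Fin (d - 1)) ⊕ Fin 2) F) : Matrix ((Fin (d - 1) ⊕ Fin (d - 1)) ⊕ Fin 2) ((Fin (d - 1) ⊕ Fin (d - 1)) ⊕ Fin 2) F) = z • (1 : Matrix ((Fin (d - 1) ⊕ Fin (d - 1)) ⊕ Fin 2) ((Fin (d - 1) ⊕ Fin (d - 1)) ⊕ Fin 2) F)) →
      (∀ z : F, (x : Matrix ((Fin (d - 1) ⊕ Fin (d - 1)) ⊕ Fin 2) ((Fin (d - 1) ⊕ Fin (d - 1)) ⊕ Fin 2) F) ≠ z • (1 : Matrix ((Fin (d - 1) ⊕ Fin (d - 1)) ⊕ Fin 2) ((Fin (d - 1) ⊕ Fin (d - 1)) ⊕ Fin 2) F)) →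
      ∃ W : Submodule F ((Fin (d - 1) ⊕ Fin (d - 1)) ⊕ Fin 2 → F), (Module.finrank F ↥W = m ∧ Cfsg.Geo.IsTotallySingularQuad (Cfsg.quadFormMinus (d - 1) F a b) W) ∧ W.map (Matrix.toLin' (x : Matrix ((Fin (d - 1) ⊕ Fin (d - 1)) ⊕ Fin 2) ((Fin (d - 1) ⊕ Fin (d - 1)) ⊕ Fin 2) F)) ≤ W) ↔
    ((r = 2 ∧ p ≠ 2 ∧ (Even d ∨ Even m ∨ q % 8 ≠ 7)) ∨
     (r ≠ p ∧ 2 < r ∧ Odd i ∧ i ≤ m ∧ ((2 * d) % c = 0 ∨ 2 * (m % i) < (2 * d) % c)) ∨
     (r ≠ p ∧ 2 < r ∧ Even i ∧ i ≤ m ∧ (r - 1) / i + 2 * (m / i) ≤ (2 * d) / i ∧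
       ((2 * (m % i) ≤ i ∧ (2 * d) % c = 0 ∧ Even ((2 * d) / i) ∧ (r - 1) / i + 2 * (m / i) < (2 * d) / i) ∨
        (2 * (m % i) ≤ (2 * d) % c ∧ Odd ((2 * d) / i)) ∨
        (2 * (m % i) < (2 * d) % c ∧ Even ((2 * d) / i))))) := by

  have hr := (Fact.out : r.Prime)
  rw [← coe_qMinus] at hrΩ ⊢
  obtain ⟨Q, hQdef⟩ : ∃ Q, qMinus (d - 1) F a b = Q := ⟨_, rfl⟩
  have hQ : ND Q := by rw [← hQdef]; exact nd_qMinus (d - 1) (disc_ne_zero hab)
  have hPT : ¬ PT Q := by rw [← hQdef]; exact not_pt_minus (d - 1) hab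
  rw [hQdef] at hrΩ ⊢
  clear hQdef
  have hcι : Fintype.card ((Fin (d - 1) ⊕ Fin (d - 1)) ⊕ Fin 2) = 2 * d := by
    rw [Fintype.card_sum, Fintype.card_sum, Fintype.card_fin, Fintype.card_fin]; omega
  have hfr : finrank F ((Fin (d - 1) ⊕ Fin (d - 1)) ⊕ Fin 2 → F) = 2 * d := by rw [finrank_fintype_fun_eq_card, hcι]
  have hne : Nonempty ((Fin (d - 1) ⊕ Fin (d - 1)) ⊕ Fin 2) := ⟨Sum.inr 0⟩
  have hTS : {W : Submodule F ((Fin (d - 1) ⊕ Fin (d - 1)) ⊕ Fin 2 → F) // finrank F ↥W = m ∧ Cfsg.Geo.IsTotallySingularQuad (⇑Q) W} = TS Q m := rfl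
  rw [hTS] at hrΩ
  by_cases hrp : r = p
  · subst hrp
    exact absurd hrΩ (ts_not_p (p := r) hQ (by rw [hfr]; omega))
  by_cases hr2 : r = 2
  · subst hr2
    have hp2 : p ≠ 2 := fun h => hrp h.symm
    have hqo : Odd (Fintype.card F) := odd_card (p := p) hp2
    have h2 : (2 : F) ≠ 0 := two_ne_of_odd hqo
    have hqo' : q % 2 = 1 := by rw [← hq]; exact Nat.odd_iff.1 hqo
    have hq4 : IsSquare (-1 : F) ↔ q % 4 = 1 := by
      rw [FiniteField.isSquare_neg_one_iff, hq]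
      omega
    have hexJ := exJ_minus hPT hqo d
    rw [hq] at hexJ
    constructor
    · intro H
      left
      refine ⟨rfl, hp2, ?_⟩
      by_contra hcon
      push Not at hcon
      obtain ⟨h5, h6, h7⟩ := hcon
      rw [Nat.not_even_iff_odd] at h5 h6
      have hns : ¬ IsSquare (-1 : F) := fun h => by
        have := hq4.1 h
        omega
      obtain ⟨x, x1, x2, x3, x4⟩ := exists_of_exJ h2 hQ d hcι (by omega) (hexJ.2 ⟨Nat.odd_iff.1 h5, h7⟩)
      obtain ⟨W, ⟨w1, w2⟩, w3⟩ := H x x1 x3 x4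
      have := J_even hns x2 (inv_map.1 w3)
      rw [w1] at this
      exact (Nat.not_odd_iff_even.2 this) h6
    · rintro (⟨-, -, h⟩ | ⟨-, h, -⟩ | ⟨-, h, -⟩)
      · intro x hx hx2 hns
        have hiso := iso_of_omega hx
        rcases sq_cases hQ hx hx2 with hT | hT
        · set f := Matrix.toLin' (x : Matrix ((Fin (d - 1) ⊕ Fin (d - 1)) ⊕ Fin 2) ((Fin (d - 1) ⊕ Fin (d - 1)) ⊕ Fin 2) F) with hf
          have hC := fx_nd hQ (r := 2) (by exact_mod_cast h2) f hiso hT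
          have hneg := neg_on hQ h2 f hiso hT
          have hA := nd_orth hQ hC
          have hoo : orth Q (orth Q (fx f)) = fx f := orth_orth hQ _
          obtain ⟨a', ha⟩ : Even (finrank F (orth Q (fx f))) := inv_even h2 hQ (by rw [hcι]; omega) hx hiso hT
          have hod := finrank_orth hQ (orth Q (fx f))
          rw [hfr] at hod
          have hsp := pt_split_iff hQ hA (m := a') (m' := d) (by omega) hfr
          have key : ∀ j l, j + l = m → 2 * j ≤ finrank F (orth Q (fx f)) → (2 * j = finrank F (orth Q (fx f)) → PT (Q.restrict (orth Q (fx f)))) →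
              2 * l ≤ finrank F (orth Q (orth Q (fx f))) → (2 * l = finrank F (orth Q (orth Q (fx f))) → PT (Q.restrict (orth Q (orth Q (fx f))))) →
              ∃ W : Submodule F ((Fin (d - 1) ⊕ Fin (d - 1)) ⊕ Fin 2 → F), (finrank F ↥W = m ∧ Cfsg.Geo.IsTotallySingularQuad (⇑Q) W) ∧ Submodule.map f W ≤ W := by
            intro j l hjl b1 b2 b3 b4
            obtain ⟨W, w1, w2, w3⟩ := inv_suf hQ hA hneg (fun v hv => by rw [hoo] at hv; exact mem_fx.1 hv) b1 b2 b3 b4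
            exact ⟨W, ⟨by omega, w2⟩, inv_map.2 w3⟩
          by_cases h6 : PT (Q.restrict (orth Q (fx f)))
          · have h7 : ¬ PT (Q.restrict (orth Q (orth Q (fx f)))) := fun h7 => hPT (hsp.2 ⟨fun _ => h7, fun _ => h6⟩)
            -- the second part is not of plus type, hence nonzero
            have h8 : finrank F (orth Q (orth Q (fx f))) ≠ 0 := fun h8 => h7 (pt_bot _ h8)
            exact key (min m a') (m - min m a') (by omega) (by omega) (fun _ => h6) (by omega) (fun h9 => by omega)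
          · have h8 : finrank F (orth Q (fx f)) ≠ 0 := fun h8 => h6 (pt_bot _ h8)
            have h7 : PT (Q.restrict (orth Q (orth Q (fx f)))) := by
              by_contra h7
              exact hPT (hsp.2 ⟨fun h => absurd h h6, fun h => absurd h h7⟩)
            exact key (min m (a' - 1)) (m - min m (a' - 1)) (by omega) (by omega) (fun h9 => by omega) (by omega) (fun _ => h7)
        · have h5 := exJ_of h2 hQ d hcι (by omega) hx hT
          rw [hexJ] at h5
          have hsq : ¬ IsSquare (-1 : F) := fun h' => by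
            have := hq4.1 h'
            omega
          have hme : Even m := by
            rcases h with h | h | h
            · rw [Nat.even_iff] at h
              omega
            · exact h
            · exact absurd h5.2 h
          obtain ⟨e, he⟩ := hme
          obtain ⟨W, w1, w2, w3⟩ := J_ts h2 hsq hQ hiso hT (j := e) (by rw [hfr]; omega)
          exact ⟨W, ⟨by omega, w2⟩, inv_map.2 w3⟩
      · exact absurd h (by norm_num)
      · exact absurd h (by norm_num)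
  have hr3 : 2 < r := lt_of_le_of_ne hr.two_le (Ne.symm hr2)
  have hrq := H99.OrthSS.not_dvd_card (F := F) (p := p) hr hrp
  have hio : oi F r = i := by rw [hi, oi, hq]
  have hcard : Fintype.card F ≠ 2 ∨ Fintype.card ((Fin (d - 1) ⊕ Fin (d - 1)) ⊕ Fin 2) ≠ 4 := Or.inr (by rw [hcι]; omega)
  have hcr := crit hr hr2 hrq hQ hcard hcι (by omega) (m := m) (by omega) (fun h => by omega) hrΩ hio.symm hc
  rw [proj_iff hr hr2 hQ hcard (fun W => finrank F ↥W = m ∧ Cfsg.Geo.IsTotallySingularQuad (⇑Q) W)]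
  refine Iff.trans hcr ?_
  simp only [hPT, hr2, hrp, hr3, false_and, false_or, true_and, not_false_eq_true, and_false, or_false, false_iff, and_true, ne_eq, not_not]
  generalize (2 * d) % c = k at *
  generalize m % i = l
  generalize (r - 1) / i + 2 * (m / i) = X
  generalize (2 * d) / i = Y
  rcases Nat.even_or_odd i with he | ho
  · have hno : ¬ Odd i := Nat.not_odd_iff_even.2 he
    simp only [hno, he, false_and, true_and, false_or, Nat.not_even_iff_odd]
  · have hne' : ¬ Even i := Nat.not_even_iff_odd.2 ho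
    simp only [hne', ho, false_and, true_and, or_false]

end Cfsg.Agent.S5987
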