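import Cfsg.Statements.S5988
import Cfsg.Agent.Lib.H99.OrthArith
import Cfsg.Agent.Lib.H99.OrthSiegel

set_option autoImplicit false
set_option linter.unusedSimpArgs false
open scoped MatrixGroups
open Cfsg

namespace Cfsg.Agent.S5988


open Module QuadraticMap H48.QuadSplit H48.QuadStd H96.OeType H99.OrthSS


/-- Elements of prime order of PΩ⁺_n(q) with no fixed elliptic `m`-space. Here `T = PΩ⁺_n(F)`, `n = 2d ≥ 8`, realised through `Ω⁺_n(q)`, the commutator subgroup of the isometry group of `Q = Σ xᵢyᵢ` over the field `F` with `q` elements; an element of `T` of prime order `r` is an element `x` of `Ω⁺_n(q)` with `x^r` scalar and `x` not scalar; a nondegenerate `m`-space (even `m`) is a subspace on which the polar form of `Q` is nondegenerate; it is hyperbolic if it contains an `m/2`-dimensional subspace on which `Q` vanishes, elliptic otherwise. Let `m` be even with `2 ≤ m < n/2` and let `r` be a prime dividing the number of elliptic `m`-spaces;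 for `r ≠ p` let `i` be the multiplicative order of `q` modulo `r`, `c = i` for `i` even and `c = 2i` for `i` odd, and write `k = n mod c`, `ℓ = m mod i`, `ℓ' = m mod c`, `n' = ⌊n/i⌋`, `m' = ⌊m/i⌋`, `t = (r−1)/i`. Then every element of `T` of order `r` fixes some elliptic `m`-space if and only if one of: (i) `r = 2 ≠ p` and either `n ≡ 0 (mod 4)`, `q ≡ 3 (mod 4)` and `m ≡ 2 (mod 4)`, or `n ≡ 2 (mod 4)` and `q ≢ 1 (mod 8)`; (ii) `r ≠ p` odd, `i` odd, `c ≤ m` and `k > ℓ' > 0`; (iii) `r ≠ p` odd, `i` even, and either `k = 0` and (`n/i` odd, or `ℓ' = 0` and `m/i` odd), or `i ≤ m` and (`k > ℓ' > 0`, or `k = ℓ' > 0` and `(n + m − 2k)/i` odd, or `k > ℓ' = 0` and `m/i` odd). (For `r = p` there is always an element of order `p` fixing no elliptic `m`-space.) -/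
theorem result {F : Type*} [Field F] [Fintype F] {p : ℕ} [Fact p.Prime] [CharP F p] {q : ℕ} (hq : Fintype.card F = q)
    (d m : ℕ) (hd : 4 ≤ d) (hm : 2 ≤ m) (hme : Even m) (hmd : m < d)
    (r : ℕ) [Fact r.Prime]
    (hrΩ : r ∣ Nat.card {W : Submodule F (Fin d ⊕ Fin d → F) // Module.finrank F ↥W = m ∧ Cfsg.Geo.IsNondegenerateOn (QuadraticMap.polar (Cfsg.quadFormPlus d F)) W ∧ ¬ Cfsg.Geo.IsPlusTypeOn (Cfsg.quadFormPlus d F) W})
    (i c : ℕ) (hi : i = orderOf (q : ZMod r)) (hc : c = if Even i then i else 2 * i) :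
    (∀ x : GL (Fin d ⊕ Fin d) F, x ∈ Cfsg.Geo.omegaGL (Cfsg.quadFormPlus d F) →
      (∃ z : F, ((x ^ r : GL (Fin d ⊕ Fin d) F) : Matrix (Fin d ⊕ Fin d) (Fin d ⊕ Fin d) F) = z • (1 : Matrix (Fin d ⊕ Fin d) (Fin d ⊕ Fin d) F)) →
      (∀ z : F, (x : Matrix (Fin d ⊕ Fin d) (Fin d ⊕ Fin d) F) ≠ z • (1 : Matrix (Fin d ⊕ Fin d) (Fin d ⊕ Fin d) F)) →
      ∃ W : Submodule F (Fin d ⊕ Fin d → F), (Module.finrank F ↥W = m ∧ Cfsg.Geo.IsNondegenerateOn (QuadraticMap.polar (Cfsg.quadFormPlus d F)) W ∧ ¬ Cfsg.Geo.IsPlusTypeOn (Cfsg.quadFormPlus d F) W) ∧ W.map (Matrix.toLin' (x : Matrix (Fin d ⊕ Fin d) (Fin d ⊕ Fin d) F)) ≤ W) ↔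
    ((r = 2 ∧ p ≠ 2 ∧ ((Even d ∧ q % 4 = 3 ∧ m % 4 = 2) ∨ (Odd d ∧ q % 8 ≠ 1))) ∨
     (r ≠ p ∧ 2 < r ∧ Odd i ∧ c ≤ m ∧ 0 < m % c ∧ m % c < (2 * d) % c) ∨
     (r ≠ p ∧ 2 < r ∧ Even i ∧
       (((2 * d) % c = 0 ∧ (Odd ((2 * d) / i) ∨ (m % c = 0 ∧ Odd (m / i)))) ∨
        (i ≤ m ∧ ((0 < m % c ∧ m % c < (2 * d) % c) ∨
                  (0 < m % c ∧ m % c = (2 * d) % c ∧ Odd ((2 * d + m - 2 * ((2 * d) % c)) / i)) ∨
                  (m % c = 0 ∧ 0 < (2 * d) % c ∧ Odd (m / i))))))) := by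

  have hr := (Fact.out : r.Prime)
  rw [← coe_qPlus] at hrΩ ⊢
  have hQ : ND (qPlus d F) := nd_qPlus d
  have hPT : PT (qPlus d F) := pt_qPlus d
  have hcι : Fintype.card (Fin d ⊕ Fin d) = 2 * d := by rw [Fintype.card_sum, Fintype.card_fin]; ring
  have hP : ∀ W : Submodule F (Fin d ⊕ Fin d → F), (Module.finrank F ↥W = m ∧ Cfsg.Geo.IsNondegenerateOn (QuadraticMap.polar (⇑(qPlus d F))) W ∧ ¬ Cfsg.Geo.IsPlusTypeOn (⇑(qPlus d F)) W) ↔
      (finrank F W = m ∧ ND ((qPlus d F).restrict W) ∧ (PT ((qPlus d F).restrict W) ↔ False)) := by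
    intro W
    rw [H96.OeTyp2.nd_on_iff, H96.OeTyp2.plus_iff, iff_false]
  by_cases hrp : r = p
  · subst hrp
    constructor
    · intro H
      exfalso
      obtain ⟨x, x1, x2, x3, x4⟩ := H99.OrthSiegel.exists_sie (F := F) (d := d) r (by omega)
      obtain ⟨W, W1, W2⟩ := H x x1 ⟨1, by rw [x2, one_smul, Units.val_one]⟩ x3
      obtain ⟨a1, a2, a3⟩ := (hP W).1 W1
      rw [inv_map, x4] at W2
      exact a3.1 ((H99.OrthSiegel.sie_plus a2 W2).1 (by rw [a1]; exact hme))
    · rintro (⟨h1, h2, -⟩ | ⟨h1, -⟩ | ⟨h1, -⟩)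
      · exact absurd h1 h2
      · exact absurd rfl h1
      · exact absurd rfl h1
  have hrq := H99.OrthSS.not_dvd_card (F := F) (p := p) hr hrp
  by_cases hr2 : r = 2
  · subst hr2
    have hp2 : p ≠ 2 := fun h => hrp h.symm
    have hqo : Odd (Fintype.card F) := odd_card (p := p) hp2
    rw [crit_even_two (two_ne_of_odd hqo) hQ d m hcι (by omega) hm hme (by omega) False _ hP, exJ_plus hPT hqo d, FiniteField.isSquare_neg_one_iff, hq]
    rw [hq] at hqo
    rw [Nat.even_iff, Nat.even_iff, Nat.odd_iff]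
    rw [Nat.odd_iff] at hqo
    rw [Nat.even_iff] at hme
    simp only [false_iff]
    constructor
    · intro h
      left
      exact ⟨trivial, hp2, by omega⟩
    · rintro (⟨-, -, h⟩ | ⟨-, h, -⟩ | ⟨-, h, -⟩) <;> omega
  have hr3 : 2 < r := lt_of_le_of_ne hr.two_le (Ne.symm hr2)
  have hio : oi F r = i := by rw [hi, oi, hq]
  have hcci : cc i = c := hc.symm
  have hcrit := crit_even' hr hr2 hrq hQ d m hcι (by omega) hm hme (by omega) False _ hP hrΩ
  rw [hio, hcci] at hcrit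
  rw [hcrit]
  have hc0 : 0 < c := by rw [← hcci, ← hio]; exact cc_pos hr hrq
  have hi0 : 0 < i := by rw [← hio]; exact oi_pos hr hrq
  change critE i c (2 * d) m (PT (qPlus d F)) False ↔ _
  have hE : PT (qPlus d F) ↔ True := iff_true_intro hPT
  have hcases : (critE i c (2 * d) m (PT (qPlus d F)) False) ↔ (critE i c (2 * d) m True False) := by
    unfold critE
    rw [hE]
  rw [hcases]
  rcases Nat.even_or_odd i with he | ho
  · have hci : c = i := by rw [hc, if_pos he]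
    rw [hci, critE_even he hi0]
    have hno : ¬ Odd i := Nat.not_odd_iff_even.2 he
    rw [Nat.even_iff] at hme
    have h5 : m % i = 0 → i ≤ m := fun h => Nat.le_of_dvd (by omega) (Nat.dvd_of_mod_eq_zero h)
    simp only [false_iff, true_iff, false_iff_true, not_true_eq_false]
    constructor
    · intro h
      right; right
      refine ⟨hrp, hr3, he, ?_⟩
      simp only [Nat.even_iff, Nat.odd_iff] at h ⊢
      omega
    · rintro (⟨h, -⟩ | ⟨-, -, h, -⟩ | ⟨-, -, -, h⟩)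
      · exact absurd h hr2
      · exact absurd h hno
      · simp only [Nat.even_iff, Nat.odd_iff] at h ⊢
        omega
  · have hci : c = 2 * i := by rw [hc, if_neg (Nat.not_even_iff_odd.2 ho)]
    rw [critE_odd ho]
    constructor
    · intro h
      right; left
      have h6 : m % c = 0 → ¬ (2 * d) % c < m % c := by omega
      refine ⟨hrp, hr3, ho, ?_⟩
      rcases h with h | h | h
      · exact absurd trivial h.2
      · exact h.2.2.elim
      · obtain ⟨a1, a2, a3, a4, a5⟩ := h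
        have b1 : m % c ≠ 0 := a4
        have b2 : m % c ≠ (2 * d) % c := fun h => (a5 h).2 trivial
        omega
    · rintro (⟨h, -⟩ | ⟨-, -, -, a1, a2, a3⟩ | ⟨-, -, h, -⟩)
      · exact absurd h hr2
      · exact Or.inr (Or.inr ⟨a1, by omega, by omega, fun h => by omega, fun h => by omega⟩)
      · exact absurd ho (Nat.not_odd_iff_even.2 h)

end Cfsg.Agent.S5988
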