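import Cfsg.Statements.S5989
import Cfsg.Agent.Lib.H99.OrthUni5

set_option autoImplicit false
set_option linter.unusedSimpArgs false
open scoped MatrixGroups
open Cfsg

namespace Cfsg.Agent.S5989


open Module QuadraticMap H48.QuadSplit H48.QuadStd H96.OeType H99.OrthSS

theorem isom_iff {F : Type*} [Field F] [Fintype F] {ι : Type} [Fintype ι] [DecidableEq ι] {Q : QuadraticForm F (ι → F)} {m : ℕ} {W₀ : Submodule F (ι → F)}
    (h0 : finrank F W₀ = m) (h1 : ND (Q.restrict W₀)) (W : Submodule F (ι → F)) :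
    (finrank F W = m ∧ Cfsg.Geo.IsNondegenerateOn (polar (⇑Q)) W ∧ Cfsg.Geo.AreIsometricFor (⇑Q) W W₀) ↔
      W ∈ Cl Q (⟨W₀, Q.restrict W₀, h1⟩ : Fm F) := by
  constructor
  · rintro ⟨-, -, e, he⟩
    exact Equivalent.symm ⟨⟨e, he⟩⟩
  · intro h
    have hd := Cl.dim h
    refine ⟨by rw [hd]; exact h0, H96.OeTyp2.nd_on_iff.2 (Cl.nd h), ?_⟩
    obtain ⟨e⟩ := Equivalent.symm h
    exact ⟨e.toLinearEquiv, fun w => e.map_app w⟩


/-- Elements of prime order of PΩ⁺_n(q), q odd, with no fixed nondegenerate `m`-space of odd dimension. Here `T = PΩ⁺_n(F)`, `n = 2d ≥ 8`, realised through `Ω⁺_n(q)`, the commutator subgroup of the isometry group of `Q = Σ xᵢyᵢ` over the field `F` with `q` elements; an element of `T` of prime order `r` is an element `x` of `Ω⁺_n(q)` with `x^r` scalar and `x` not scalar; `q` and `m` are odd, `1 ≤ m < n/2`. The nondegenerate `m`-spaces (subspaces on which the polar form is nondegenerate) fall into two isometry classes,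 each an orbit of `T`, and the two actions are equivalent; fix one such space `W₀` and let Ω be the set of nondegenerate `m`-spaces isometric to `W₀` (some linear isomorphism preserves `Q`). Let `r` be a prime dividing the size of Ω; for `r ≠ p` let `i` be the multiplicative order of `q` modulo `r`, `c = i` for `i` even and `c = 2i` for `i` odd, and write `k = n mod c`, `ℓ = m mod i`, `ℓ' = m mod c`, `n' = ⌊n/i⌋`, `m' = ⌊m/i⌋`, `t = (r−1)/i`. Then every element of `T` of order `r` fixes a member of Ω if and only if one of: (i) `r = 2`, `n ≡ 2 (mod 4)` and `q ≢ 1 (mod 8)`; (ii) `r ≠ p` odd, `i` odd, `c ≤ m` and `k > ℓ' > 0`; (iii) `r ≠ p` odd, `i` even, and either `k = 0` and `n/i` odd, or `i ≤ m` and `k > ℓ' > 0`. (For `r = p` there is always an element of order `p` fixing no member of Ω.) -/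
theorem result {F : Type*} [Field F] [Fintype F] {p : ℕ} [Fact p.Prime] [CharP F p] {q : ℕ} (hq : Fintype.card F = q)
    (hodd : Odd q) (d m : ℕ) (hd : 4 ≤ d) (hm : Odd m) (hmd : m < d)
    (W₀ : Submodule F (Fin d ⊕ Fin d → F)) (hW₀ : Module.finrank F ↥W₀ = m ∧ Cfsg.Geo.IsNondegenerateOn (QuadraticMap.polar (Cfsg.quadFormPlus d F)) W₀)
    (r : ℕ) [Fact r.Prime]
    (hrΩ : r ∣ Nat.card {W : Submodule F (Fin d ⊕ Fin d → F) // Module.finrank F ↥W = m ∧ Cfsg.Geo.IsNondegenerateOn (QuadraticMap.polar (Cfsg.quadFormPlus d F)) W ∧ Cfsg.Geo.AreIsometricFor (Cfsg.quadFormPlus d F) W W₀})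
    (i c : ℕ) (hi : i = orderOf (q : ZMod r)) (hc : c = if Even i then i else 2 * i) :
    (∀ x : GL (Fin d ⊕ Fin d) F, x ∈ Cfsg.Geo.omegaGL (Cfsg.quadFormPlus d F) →
      (∃ z : F, ((x ^ r : GL (Fin d ⊕ Fin d) F) : Matrix (Fin d ⊕ Fin d) (Fin d ⊕ Fin d) F) = z • (1 : Matrix (Fin d ⊕ Fin d) (Fin d ⊕ Fin d) F)) →
      (∀ z : F, (x : Matrix (Fin d ⊕ Fin d) (Fin d ⊕ Fin d) F) ≠ z • (1 : Matrix (Fin d ⊕ Fin d) (Fin d ⊕ Fin d) F)) →
      ∃ W : Submodule F (Fin d ⊕ Fin d → F), (Module.finrank F ↥W = m ∧ Cfsg.Geo.IsNondegenerateOn (QuadraticMap.polar (Cfsg.quadFormPlus d F)) W ∧ Cfsg.Geo.AreIsometricFor (Cfsg.quadFormPlus d F) W W₀) ∧ W.map (Matrix.toLin' (x : Matrix (Fin d ⊕ Fin d) (Fin d ⊕ Fin d) F)) ≤ W) ↔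
    ((r = 2 ∧ Odd d ∧ q % 8 ≠ 1) ∨
     (r ≠ p ∧ 2 < r ∧ Odd i ∧ c ≤ m ∧ 0 < m % c ∧ m % c < (2 * d) % c) ∨
     (r ≠ p ∧ 2 < r ∧ Even i ∧ (((2 * d) % c = 0 ∧ Odd ((2 * d) / i)) ∨ (i ≤ m ∧ 0 < m % c ∧ m % c < (2 * d) % c)))) := by

  have hr := (Fact.out : r.Prime)
  rw [← coe_qPlus] at hrΩ hW₀ ⊢
  have hQ : ND (qPlus d F) := nd_qPlus d
  have hPT : PT (qPlus d F) := pt_qPlus d
  have hcι : Fintype.card (Fin d ⊕ Fin d) = 2 * d := by rw [Fintype.card_sum, Fintype.card_fin]; ring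
  have hqo : Odd (Fintype.card F) := by rw [hq]; exact hodd
  have h2 : (2 : F) ≠ 0 := two_ne_of_odd hqo
  have hp2 : p ≠ 2 := H99.OrthUni3.p_ne_two p hqo
  have hnd : ND ((qPlus d F).restrict W₀) := H96.OeTyp2.nd_on_iff.1 hW₀.2
  have hP := isom_iff (Q := qPlus d F) hW₀.1 hnd
  have hne : (Cl (qPlus d F) (⟨W₀, (qPlus d F).restrict W₀, hnd⟩ : Fm F)).Nonempty := ⟨W₀, Equivalent.refl _⟩
  have hR : finrank F (⟨W₀, (qPlus d F).restrict W₀, hnd⟩ : Fm F).V = m := hW₀.1
  by_cases hrp : r = p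
  · subst hrp
    constructor
    · intro H
      exfalso
      rcases Nat.even_or_odd d with hde | hdo
      · obtain ⟨x, x1, x2, x3, x4⟩ := H99.OrthSiegel.exists_sie (F := F) (d := d) r (by omega)
        obtain ⟨W, W1, W2⟩ := H x x1 ⟨1, by rw [x2, one_smul, Units.val_one]⟩ x3
        rw [inv_map, x4] at W2
        have h3 := (H99.OrthSiegel.sie_plus (H96.OeTyp2.nd_on_iff.1 W1.2.1) W2).2 hde
        rw [W1.1] at h3
        exact (Nat.not_odd_iff_even.2 h3) hm
      · refine H99.OrthUni3.no_odd r hp2 (qPlus d F) hQ d m (by omega) hdo hm (by omega) (fun μ h1 h3 _ => H99.OrthUni2.plus_nil h2 μ h1 d h3) ?_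
        intro x x1 x2 x3
        obtain ⟨W, W1, W2⟩ := H x x1 ⟨1, by rw [x2, one_smul, Units.val_one]⟩ x3
        exact ⟨W, W1.1, W1.2.1, W2⟩
    · rintro (⟨h1, -⟩ | ⟨h1, -⟩ | ⟨h1, -⟩)
      · exact absurd h1 hp2
      · exact absurd rfl h1
      · exact absurd rfl h1
  have hrq := H99.OrthSS.not_dvd_card (F := F) (p := p) hr hrp
  by_cases hr2 : r = 2
  · subst hr2
    rw [crit_oddm_two h2 hQ d m hcι (by omega) hm (by omega) _ hR _ hP, exJ_plus hPT hqo d, hq]
    rw [Nat.odd_iff]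
    constructor
    · intro h
      left
      exact ⟨rfl, by omega, by omega⟩
    · rintro (⟨-, h⟩ | ⟨-, h, -⟩ | ⟨-, h, -⟩) <;> omega
  have hr3 : 2 < r := lt_of_le_of_ne hr.two_le (Ne.symm hr2)
  have hio : oi F r = i := by rw [hi, oi, hq]
  have hcci : cc i = c := hc.symm
  have hcrit := crit_oddm' hr hr2 hrq hQ d m hcι (by omega) hm (by omega) _ hR _ hP hne hrΩ
  rw [hio, hcci] at hcrit
  rw [hcrit]
  have hc0 : 0 < c := by rw [← hcci, ← hio]; exact cc_pos hr hrq
  have hi0 : 0 < i := by rw [← hio]; exact oi_pos hr hrq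
  change critO i c (2 * d) m (PT (qPlus d F)) ↔ _
  have hE : PT (qPlus d F) ↔ True := iff_true_intro hPT
  have hcases : (critO i c (2 * d) m (PT (qPlus d F))) ↔ (critO i c (2 * d) m True) := by
    unfold critO
    rw [hE]
  rw [hcases]
  have hmc : 0 < m % c := by
    by_contra h0
    obtain ⟨e, he⟩ := (by rw [← hcci]; exact even_cc i : Even c)
    have h1 := Nat.div_add_mod m c
    have h3 : c * (m / c) = 2 * (e * (m / c)) := by
      generalize m / c = y
      rw [he]; ring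
    obtain ⟨l, hl⟩ := hm
    omega
  rcases Nat.even_or_odd i with he | ho
  · have hci : c = i := by rw [hc, if_pos he]
    rw [hci] at hmc ⊢
    rw [critO_even he]
    have hno : ¬ Odd i := Nat.not_odd_iff_even.2 he
    simp only [true_iff]
    constructor
    · intro h
      right; right
      refine ⟨hrp, hr3, he, ?_⟩
      simp only [Nat.even_iff, Nat.odd_iff] at h ⊢
      omega
    · rintro (⟨h, -⟩ | ⟨-, -, h, -⟩ | ⟨-, -, -, h⟩)
      · exact absurd h hr2
      · exact absurd h hno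
      · simp only [Nat.even_iff, Nat.odd_iff] at h ⊢
        omega
  · rw [critO_odd ho]
    constructor
    · intro h
      right; left
      refine ⟨hrp, hr3, ho, ?_⟩
      rcases h with h | h
      · exact absurd trivial h.2
      · exact ⟨h.1, hmc, h.2.2⟩
    · rintro (⟨h, -⟩ | ⟨-, -, -, a1, a2, a3⟩ | ⟨-, -, h, -⟩)
      · exact absurd h hr2
      · exact Or.inr ⟨a1, by omega, a3⟩
      · exact absurd ho (Nat.not_odd_iff_even.2 h)

end Cfsg.Agent.S5989
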