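import Cfsg.Statements.S5990
import Cfsg.Agent.Lib.H99.OrthC3

set_option autoImplicit false
set_option linter.unusedSimpArgs false
open scoped MatrixGroups
open Cfsg

namespace Cfsg.Agent.S5990


open Module QuadraticMap H48.QuadSplit H48.QuadStd H96.OeType H99.OrthSS


/-- Elements of prime order of PΩ⁻_n(q) with no fixed elliptic `m`-space. Here `T = PΩ⁻_n(F)`, `n = 2d ≥ 8`, realised through `Ω⁻_n(q)`, the commutator subgroup of the isometry group of `Q = Σ_{i<d−1} xᵢyᵢ + z₁² + a z₁z₂ + b z₂²` with `z₁² + a z₁z₂ + b z₂²` anisotropic, over the field `F` with `q` elements; an element of `T` of prime order `r` is an element `x` of `Ω⁻_n(q)` with `x^r` scalar and `x` not scalar; a nondegenerate `m`-space (even `m`) is a subspace on which the polar form of `Q` is nondegenerate; it is hyperbolic if it contains an `m/2`-dimensional subspace on which `Q` vanishes, elliptic otherwise. Let `m` be even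 with `2 ≤ m ≤ n − 2` (no restriction `m < n/2`: fixing an elliptic `m`-space is the same as fixing its hyperbolic orthogonal complement) and let `r` be a prime dividing the number of elliptic `m`-spaces, with `r = 2` or `r ≠ p`; for `r ≠ p` let `i` be the multiplicative order of `q` modulo `r`, `c = i` for `i` even and `c = 2i` for `i` odd, and write `k = n mod c`, `ℓ = m mod i`, `ℓ' = m mod c`, `n' = ⌊n/i⌋`, `m' = ⌊m/i⌋`, `t = (r−1)/i`. Then every element of `T` of order `r` fixes some elliptic `m`-space if and only if one of: (i) `r = p = 2` and (`n ≡ 0 (mod 4)` or `m ≡ 2 (mod 4)`); (ii) `r = 2 ≠ p` and (`n ≡ 0 (mod 4)`, or `q ≢ 7 (mod 8)`, or `m ≡ 2 (mod 4)`); (iii) `r ≠ p` odd, `i` odd, and `k = 0` or (`c ≤ m` and `k ≥ ℓ' > 0`); (iv) `r ≠ p` odd, `i` even, and either `k = 0` and (`n/i` even, or `ℓ' = 0` and `m/i` odd), or `k > 0`, `i ≤ m` and (`k > ℓ' > 0`, or `ℓ' = 0` and `m/i` odd, or `k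 = ℓ'` and `(n + m − 2k)/i` even). (Odd `r = p` is not covered by this statement.) -/
theorem result {F : Type*} [Field F] [Fintype F] {p : ℕ} [Fact p.Prime] [CharP F p] {q : ℕ} (hq : Fintype.card F = q)
    (d m : ℕ) (hd : 4 ≤ d) (hm : 2 ≤ m) (hme : Even m) (hmn : m + 2 ≤ 2 * d) (a b : F) (hab : ∀ x y : F, x ^ 2 + a * x * y + b * y ^ 2 = 0 → x = 0 ∧ y = 0)
    (r : ℕ) [Fact r.Prime] (hr : r = 2 ∨ r ≠ p)
    (hrΩ : r ∣ Nat.card {W : Submodule F ((Fin (d - 1) ⊕ Fin (d - 1)) ⊕ Fin 2 → F) // Module.finrank F ↥W = m ∧ Cfsg.Geo.IsNondegenerateOn (QuadraticMap.polar (Cfsg.quadFormMinus (d - 1) F a b)) W ∧ ¬ Cfsg.Geo.IsPlusTypeOn (Cfsg.quadFormMinus (d - 1) F a b) W})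
    (i c : ℕ) (hi : i = orderOf (q : ZMod r)) (hc : c = if Even i then i else 2 * i) :
    (∀ x : GL ((Fin (d - 1) ⊕ Fin (d - 1)) ⊕ Fin 2) F, x ∈ Cfsg.Geo.omegaGL (Cfsg.quadFormMinus (d - 1) F a b) →
      (∃ z : F, ((x ^ r : GL ((Fin (d - 1) ⊕ Fin (d - 1)) ⊕ Fin 2) F) : Matrix ((Fin (d - 1) ⊕ Fin (d - 1)) ⊕ Fin 2) ((Fin (d - 1) ⊕ Fin (d - 1)) ⊕ Fin 2) F) = z • (1 : Matrix ((Fin (d - 1) ⊕ Fin (d - 1)) ⊕ Fin 2) ((Fin (d - 1) ⊕ Fin (d - 1)) ⊕ Fin 2) F)) →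
      (∀ z : F, (x : Matrix ((Fin (d - 1) ⊕ Fin (d - 1)) ⊕ Fin 2) ((Fin (d - 1) ⊕ Fin (d - 1)) ⊕ Fin 2) F) ≠ z • (1 : Matrix ((Fin (d - 1) ⊕ Fin (d - 1)) ⊕ Fin 2) ((Fin (d - 1) ⊕ Fin (d - 1)) ⊕ Fin 2) F)) →
      ∃ W : Submodule F ((Fin (d - 1) ⊕ Fin (d - 1)) ⊕ Fin 2 → F), (Module.finrank F ↥W = m ∧ Cfsg.Geo.IsNondegenerateOn (QuadraticMap.polar (Cfsg.quadFormMinus (d - 1) F a b)) W ∧ ¬ Cfsg.Geo.IsPlusTypeOn (Cfsg.quadFormMinus (d - 1) F a b) W) ∧ W.map (Matrix.toLin' (x : Matrix ((Fin (d - 1) ⊕ Fin (d - 1)) ⊕ Fin 2) ((Fin (d - 1) ⊕ Fin (d - 1)) ⊕ Fin 2) F)) ≤ W) ↔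
    ((r = 2 ∧ p = 2 ∧ (Even d ∨ m % 4 = 2)) ∨
     (r = 2 ∧ p ≠ 2 ∧ (Even d ∨ q % 8 ≠ 7 ∨ m % 4 = 2)) ∨
     (r ≠ p ∧ 2 < r ∧ Odd i ∧ ((2 * d) % c = 0 ∨ (c ≤ m ∧ 0 < m % c ∧ m % c ≤ (2 * d) % c))) ∨
     (r ≠ p ∧ 2 < r ∧ Even i ∧
       (((2 * d) % c = 0 ∧ (Even ((2 * d) / i) ∨ (m % c = 0 ∧ Odd (m / i)))) ∨
        (0 < (2 * d) % c ∧ i ≤ m ∧ ((0 < m % c ∧ m % c < (2 * d) % c) ∨ (m % c = 0 ∧ Odd (m / i)) ∨
                                    (m % c = (2 * d) % c ∧ Even ((2 * d + m - 2 * ((2 * d) % c)) / i))))))) := by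

  have hr1 := (Fact.out : r.Prime)
  rw [← coe_qMinus] at hrΩ ⊢
  have hab' : ∀ z₁ z₂ : F, z₁ ^ 2 + a * z₁ * z₂ + b * z₂ ^ 2 = 0 → z₁ = 0 ∧ z₂ = 0 := hab
  have hdisc : 4 * b - a ^ 2 ≠ 0 := H48.QuadStd.disc_ne_zero hab'
  have hQ : ND (qMinus (d - 1) F a b) := nd_qMinus _ hdisc
  have hPT : ¬ PT (qMinus (d - 1) F a b) := not_pt_minus _ hab'
  have hcι : Fintype.card ((Fin (d - 1) ⊕ Fin (d - 1)) ⊕ Fin 2) = 2 * d := by
    rw [Fintype.card_sum, Fintype.card_sum, Fintype.card_fin, Fintype.card_fin]; omega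
  have hP : ∀ W : Submodule F ((Fin (d - 1) ⊕ Fin (d - 1)) ⊕ Fin 2 → F), (Module.finrank F ↥W = m ∧ Cfsg.Geo.IsNondegenerateOn (QuadraticMap.polar (⇑(qMinus (d - 1) F a b))) W ∧ ¬ Cfsg.Geo.IsPlusTypeOn (⇑(qMinus (d - 1) F a b)) W) ↔
      (finrank F W = m ∧ ND ((qMinus (d - 1) F a b).restrict W) ∧ (PT ((qMinus (d - 1) F a b).restrict W) ↔ False)) := by
    intro W
    rw [H96.OeTyp2.nd_on_iff, H96.OeTyp2.plus_iff, iff_false]
  by_cases hrp : r = p
  · -- r = p = 2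
    have hr2 : r = 2 := hr.resolve_right (fun h => h hrp)
    have hp2 : p = 2 := by rw [← hrp, hr2]
    subst hr2
    subst hp2
    have hne : Nonempty ((Fin (d - 1) ⊕ Fin (d - 1)) ⊕ Fin 2) := ⟨Sum.inr 0⟩
    obtain ⟨v0, hv0⟩ := H99.OrthTwo.exists_nonsing hQ
    constructor
    · intro H
      left
      refine ⟨rfl, rfl, ?_⟩
      by_contra hcon
      rw [not_or, Nat.not_even_iff_odd] at hcon
      obtain ⟨k, hk⟩ := hcon.1
      obtain ⟨x, x1, x2, x3, x4⟩ := H99.OrthC2.exists_bad (F := F) (d - 1) ⟨k, by omega⟩ (by omega) a b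
      obtain ⟨W, W1, W2⟩ := H x x1 ⟨1, by rw [x2, one_smul, Units.val_one]⟩ x3
      obtain ⟨a1, a2, a3⟩ := (hP W).1 W1
      rw [inv_map] at W2
      rw [Nat.even_iff] at hme
      exact a3.1 (x4 W a2 (by rw [a1]; omega) W2)
    · rintro (⟨-, -, h⟩ | ⟨-, h, -⟩ | ⟨h, -⟩ | ⟨h, -⟩)
      · intro x hx hz hnz
        have hiso := H99.OrthTwo.mem_iso hx
        obtain ⟨z, hz⟩ := hz
        have hx2 := H99.OrthTwo.pow_one_of_scal hiso hv0 hz
        have hT := toLin_pow_one hx2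
        obtain ⟨W, w1, w2, w3, w4⟩ := H99.OrthC2.invol_sub hQ (d := d) (by rw [finrank_fintype_fun_eq_card, hcι]) (f := Matrix.toLin' (x : Matrix ((Fin (d - 1) ⊕ Fin (d - 1)) ⊕ Fin 2) ((Fin (d - 1) ⊕ Fin (d - 1)) ⊕ Fin 2) F))
          (iso_of_omega hx) (fun v => by
            rw [pow_two] at hT
            exact congrArg (fun φ : ((Fin (d - 1) ⊕ Fin (d - 1)) ⊕ Fin 2 → F) →ₗ[F] ((Fin (d - 1) ⊕ Fin (d - 1)) ⊕ Fin 2 → F) => φ v) hT) hme hm (by omega) False (Or.inr ⟨hPT, fun h => h, h⟩)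
        exact ⟨W, (hP W).2 ⟨w1, w2, w3⟩, inv_map.2 w4⟩
      · exact absurd rfl h
      · exact absurd rfl h
      · exact absurd rfl h
  have hrq := H99.OrthSS.not_dvd_card (F := F) (p := p) hr1 hrp
  by_cases hr2 : r = 2
  · subst hr2
    have hp2 : p ≠ 2 := fun h => hrp h.symm
    have hqo : Odd (Fintype.card F) := odd_card (p := p) hp2
    rw [crit_even_two (two_ne_of_odd hqo) hQ d m hcι (by omega) hm hme (by omega) False _ hP, exJ_minus hPT hqo d, FiniteField.isSquare_neg_one_iff, hq]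
    rw [hq] at hqo
    rw [Nat.even_iff, Nat.even_iff]
    rw [Nat.odd_iff] at hqo
    rw [Nat.even_iff] at hme
    simp only [false_iff]
    constructor
    · intro h
      right; left
      exact ⟨trivial, hp2, by omega⟩
    · rintro (⟨-, h, -⟩ | ⟨-, -, h⟩ | ⟨-, h, -⟩ | ⟨-, h, -⟩) <;> omega
  have hr3 : 2 < r := lt_of_le_of_ne hr1.two_le (Ne.symm hr2)
  have hio : oi F r = i := by rw [hi, oi, hq]
  have hcci : cc i = c := hc.symm
  have hcrit := crit_even' hr1 hr2 hrq hQ d m hcι (by omega) hm hme (by omega) False _ hP hrΩ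
  rw [hio, hcci] at hcrit
  rw [hcrit]
  have hc0 : 0 < c := by rw [← hcci, ← hio]; exact cc_pos hr1 hrq
  have hi0 : 0 < i := by rw [← hio]; exact oi_pos hr1 hrq
  change critE i c (2 * d) m (PT (qMinus (d - 1) F a b)) False ↔ _
  have hE : PT (qMinus (d - 1) F a b) ↔ False := iff_false_intro hPT
  have hcases : (critE i c (2 * d) m (PT (qMinus (d - 1) F a b)) False) ↔ (critE i c (2 * d) m False False) := by
    unfold critE
    rw [hE]
  rw [hcases]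
  have h5 : m % c = 0 → c ≤ m := fun h => Nat.le_of_dvd (by omega) (Nat.dvd_of_mod_eq_zero h)
  rcases Nat.even_or_odd i with he | ho
  · have hci : c = i := by rw [hc, if_pos he]
    rw [hci] at h5 ⊢
    rw [critE_even he hi0]
    have hno : ¬ Odd i := Nat.not_odd_iff_even.2 he
    rw [Nat.even_iff] at hme
    simp only [false_iff, not_not, not_true_eq_false, not_false_eq_true, iff_true, true_iff]
    constructor
    · intro h
      right; right; right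
      refine ⟨hrp, hr3, he, ?_⟩
      simp only [Nat.even_iff, Nat.odd_iff] at h ⊢
      omega
    · rintro (⟨h, -⟩ | ⟨h, -⟩ | ⟨-, -, h, -⟩ | ⟨-, -, -, h⟩)
      · exact absurd h hr2
      · exact absurd h hr2
      · exact absurd h hno
      · simp only [Nat.even_iff, Nat.odd_iff] at h ⊢
        omega
  · rw [critE_odd ho]
    constructor
    · intro h
      right; right; left
      refine ⟨hrp, hr3, ho, ?_⟩
      rcases h with h | h | h
      · exact Or.inl h.1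
      · exact h.2.2.elim
      · obtain ⟨a1, a2, a3, a4, a5⟩ := h
        have b1 : m % c ≠ 0 := a4
        exact Or.inr ⟨a1, by omega, a3⟩
    · rintro (⟨h, -⟩ | ⟨h, -⟩ | ⟨-, -, -, h | ⟨a1, a2, a3⟩⟩ | ⟨-, -, h, -⟩)
      · exact absurd h hr2
      · exact absurd h hr2
      · exact Or.inl ⟨h, fun h => h⟩
      · exact Or.inr (Or.inr ⟨a1, by omega, a3, fun h => by omega, fun _ => Iff.rfl⟩)
      · exact absurd ho (Nat.not_odd_iff_even.2 h)

end Cfsg.Agent.S5990
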