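import Cfsg.Statements.S5991
import Cfsg.Agent.Lib.H99.OrthUni6
import Cfsg.Agent.Lib.H99.OrthArith2

set_option autoImplicit false
set_option linter.unusedSimpArgs false
open scoped MatrixGroups
open Cfsg

namespace Cfsg.Agent.S5991


open Module QuadraticMap H48.QuadSplit H48.QuadStd H96.OeType H99.OrthSS


/-- Elements of prime order of PΩ⁻_n(q), q odd, with no fixed nondegenerate `m`-space of odd dimension. Here `T = PΩ⁻_n(F)`, `n = 2d ≥ 8`, realised through `Ω⁻_n(q)`, the commutator subgroup of the isometry group of `Q = Σ_{i<d−1} xᵢyᵢ + z₁² + a z₁z₂ + b z₂²` with `z₁² + a z₁z₂ + b z₂²` anisotropic, over the field `F` with `q` elements; an element of `T` of prime order `r` is an element `x` of `Ω⁻_n(q)` with `x^r` scalar and `x` not scalar; `q` and `m` are odd, `1 ≤ m < n/2`. The nondegenerate `m`-spaces fall into two isometry classes, each an orbit of `T`, with equivalent actions; fix one such space `W₀` and let Ω be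 the set of nondegenerate `m`-spaces isometric to `W₀`. Let `r` be a prime dividing the size of Ω; for `r ≠ p` let `i` be the multiplicative order of `q` modulo `r`, `c = i` for `i` even and `c = 2i` for `i` odd, and write `k = n mod c`, `ℓ = m mod i`, `ℓ' = m mod c`, `n' = ⌊n/i⌋`, `m' = ⌊m/i⌋`, `t = (r−1)/i`. Then every element of `T` of order `r` fixes a member of Ω if and only if one of: (i) `r = 2` and (`n ≡ 0 (mod 4)` or `q ≢ 7 (mod 8)`); (ii) `r ≠ p` odd, `i` odd, and `k = 0` or (`c ≤ m` and `k > ℓ' > 0`); (iii) `r ≠ p` odd, `i` even, and either `k = 0` and `n/i` even, or `k > 0`, `i ≤ m` and `k > ℓ' > 0`. (For `r = p` there is always an element of order `p` fixing no member of Ω.) -/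
theorem result {F : Type*} [Field F] [Fintype F] {p : ℕ} [Fact p.Prime] [CharP F p] {q : ℕ} (hq : Fintype.card F = q)
    (hodd : Odd q) (d m : ℕ) (hd : 4 ≤ d) (hm : Odd m) (hmd : m < d) (a b : F) (hab : ∀ x y : F, x ^ 2 + a * x * y + b * y ^ 2 = 0 → x = 0 ∧ y = 0)
    (W₀ : Submodule F ((Fin (d - 1) ⊕ Fin (d - 1)) ⊕ Fin 2 → F)) (hW₀ : Module.finrank F ↥W₀ = m ∧ Cfsg.Geo.IsNondegenerateOn (QuadraticMap.polar (Cfsg.quadFormMinus (d - 1) F a b)) W₀)
    (r : ℕ) [Fact r.Prime]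
    (hrΩ : r ∣ Nat.card {W : Submodule F ((Fin (d - 1) ⊕ Fin (d - 1)) ⊕ Fin 2 → F) // Module.finrank F ↥W = m ∧ Cfsg.Geo.IsNondegenerateOn (QuadraticMap.polar (Cfsg.quadFormMinus (d - 1) F a b)) W ∧ Cfsg.Geo.AreIsometricFor (Cfsg.quadFormMinus (d - 1) F a b) W W₀})
    (i c : ℕ) (hi : i = orderOf (q : ZMod r)) (hc : c = if Even i then i else 2 * i) :
    (∀ x : GL ((Fin (d - 1) ⊕ Fin (d - 1)) ⊕ Fin 2) F, x ∈ Cfsg.Geo.omegaGL (Cfsg.quadFormMinus (d - 1) F a b) →
      (∃ z : F, ((x ^ r : GL ((Fin (d - 1) ⊕ Fin (d - 1)) ⊕ Fin 2) F) : Matrix ((Fin (d - 1) ⊕ Fin (d - 1)) ⊕ Fin 2) ((Fin (d - 1) ⊕ Fin (d - 1)) ⊕ Fin 2) F) = z • (1 : Matrix ((Fin (d - 1) ⊕ Fin (d - 1)) ⊕ Fin 2) ((Fin (d - 1) ⊕ Fin (d - 1)) ⊕ Fin 2) F)) →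
      (∀ z : F, (x : Matrix ((Fin (d - 1) ⊕ Fin (d - 1)) ⊕ Fin 2) ((Fin (d - 1) ⊕ Fin (d - 1)) ⊕ Fin 2) F) ≠ z • (1 : Matrix ((Fin (d - 1) ⊕ Fin (d - 1)) ⊕ Fin 2) ((Fin (d - 1) ⊕ Fin (d - 1)) ⊕ Fin 2) F)) →
      ∃ W : Submodule F ((Fin (d - 1) ⊕ Fin (d - 1)) ⊕ Fin 2 → F), (Module.finrank F ↥W = m ∧ Cfsg.Geo.IsNondegenerateOn (QuadraticMap.polar (Cfsg.quadFormMinus (d - 1) F a b)) W ∧ Cfsg.Geo.AreIsometricFor (Cfsg.quadFormMinus (d - 1) F a b) W W₀) ∧ W.map (Matrix.toLin' (x : Matrix ((Fin (d - 1) ⊕ Fin (d - 1)) ⊕ Fin 2) ((Fin (d - 1) ⊕ Fin (d - 1)) ⊕ Fin 2) F)) ≤ W) ↔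
    ((r = 2 ∧ (Even d ∨ q % 8 ≠ 7)) ∨
     (r ≠ p ∧ 2 < r ∧ Odd i ∧ ((2 * d) % c = 0 ∨ (c ≤ m ∧ 0 < m % c ∧ m % c < (2 * d) % c))) ∨
     (r ≠ p ∧ 2 < r ∧ Even i ∧ (((2 * d) % c = 0 ∧ Even ((2 * d) / i)) ∨ (0 < (2 * d) % c ∧ i ≤ m ∧ 0 < m % c ∧ m % c < (2 * d) % c)))) := by

  have hr := (Fact.out : r.Prime)
  rw [← coe_qMinus] at hrΩ hW₀ ⊢
  have hab' : ∀ z₁ z₂ : F, z₁ ^ 2 + a * z₁ * z₂ + b * z₂ ^ 2 = 0 → z₁ = 0 ∧ z₂ = 0 := hab
  have hdisc : 4 * b - a ^ 2 ≠ 0 := H48.QuadStd.disc_ne_zero hab'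
  have hQ : ND (qMinus (d - 1) F a b) := nd_qMinus _ hdisc
  have hPT : ¬ PT (qMinus (d - 1) F a b) := not_pt_minus _ hab'
  have hcι : Fintype.card ((Fin (d - 1) ⊕ Fin (d - 1)) ⊕ Fin 2) = 2 * d := by
    rw [Fintype.card_sum, Fintype.card_sum, Fintype.card_fin, Fintype.card_fin]; omega
  have hqo : Odd (Fintype.card F) := by rw [hq]; exact hodd
  have h2 : (2 : F) ≠ 0 := two_ne_of_odd hqo
  have hp2 : p ≠ 2 := H99.OrthUni3.p_ne_two p hqo
  have hnd : ND ((qMinus (d - 1) F a b).restrict W₀) := H96.OeTyp2.nd_on_iff.1 hW₀.2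
  have hP := isom_iff (Q := qMinus (d - 1) F a b) hW₀.1 hnd
  have hne : (Cl (qMinus (d - 1) F a b) (⟨W₀, (qMinus (d - 1) F a b).restrict W₀, hnd⟩ : Fm F)).Nonempty := ⟨W₀, Equivalent.refl _⟩
  have hR : finrank F (⟨W₀, (qMinus (d - 1) F a b).restrict W₀, hnd⟩ : Fm F).V = m := hW₀.1
  have hnil : ∀ μ : Multiset ℕ, (∀ e, Even e → Even (μ.count e)) → μ.sum = 2 * d → (∃ e ∈ μ, Odd e) → H99.OrthUni2.HasNil (qMinus (d - 1) F a b) μ :=
    fun μ h1 h3 h4 => H99.OrthUni2.minus_nil h2 μ h1 (d - 1) (by rw [h3]; omega) h4 hdisc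
  by_cases hrp : r = p
  · subst hrp
    constructor
    · intro H
      exfalso
      rcases Nat.even_or_odd d with hde | hdo
      · refine H99.OrthUni3.no_class r hp2 (qMinus (d - 1) F a b) hQ d m hcι (by omega) hde hm (hnil _ ?_ ?_ ⟨3, by simp, by decide⟩) _ hR ?_
        · intro e he
          rw [Multiset.count_add, Multiset.count_replicate]
          have : ({3, 1} : Multiset ℕ).count e = 0 := by
            apply Multiset.count_eq_zero_of_notMem
            intro h'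
            have : e = 3 ∨ e = 1 := by simpa using h'
            rcases this with rfl | rfl
            · exact absurd he (by decide)
            · exact absurd he (by decide)
          rw [this, add_zero]
          split_ifs
          · obtain ⟨k, hk⟩ := hde
            exact ⟨k - 1, by omega⟩
          · exact Even.zero
        · rw [Multiset.sum_add, Multiset.sum_replicate]
          simp
          omega
        · intro x x1 x2 x3
          obtain ⟨W, W1, W2⟩ := H x x1 ⟨1, by rw [x2, one_smul, Units.val_one]⟩ x3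
          exact ⟨W, (hP W).1 W1, W2⟩
      · refine H99.OrthUni3.no_odd r hp2 (qMinus (d - 1) F a b) hQ d m (by omega) hdo hm (by omega) hnil ?_
        intro x x1 x2 x3
        obtain ⟨W, W1, W2⟩ := H x x1 ⟨1, by rw [x2, one_smul, Units.val_one]⟩ x3
        exact ⟨W, W1.1, W1.2.1, W2⟩
    · rintro (⟨h1, -⟩ | ⟨h1, -⟩ | ⟨h1, -⟩)
      · exact absurd h1 hp2
      · exact absurd rfl h1
      · exact absurd rfl h1
  have hrq := H99.OrthSS.not_dvd_card (F := F) (p := p) hr hrp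
  by_cases hr2 : r = 2
  · subst hr2
    rw [crit_oddm_two h2 hQ d m hcι (by omega) hm (by omega) _ hR _ hP, exJ_minus hPT hqo d, hq]
    rw [Nat.even_iff]
    constructor
    · intro h
      left
      exact ⟨rfl, by omega⟩
    · rintro (⟨-, h⟩ | ⟨-, h, -⟩ | ⟨-, h, -⟩) <;> omega
  have hr3 : 2 < r := lt_of_le_of_ne hr.two_le (Ne.symm hr2)
  have hio : oi F r = i := by rw [hi, oi, hq]
  have hcci : cc i = c := hc.symm
  have hcrit := crit_oddm' hr hr2 hrq hQ d m hcι (by omega) hm (by omega) _ hR _ hP hne hrΩ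
  rw [hio, hcci] at hcrit
  rw [hcrit]
  have hc0 : 0 < c := by rw [← hcci, ← hio]; exact cc_pos hr hrq
  have hi0 : 0 < i := by rw [← hio]; exact oi_pos hr hrq
  change critO i c (2 * d) m (PT (qMinus (d - 1) F a b)) ↔ _
  have hE : PT (qMinus (d - 1) F a b) ↔ False := iff_false_intro hPT
  have hcases : (critO i c (2 * d) m (PT (qMinus (d - 1) F a b))) ↔ (critO i c (2 * d) m False) := by
    unfold critO
    rw [hE]
  rw [hcases]
  have hmc : 0 < m % c := by
    by_contra h0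
    obtain ⟨e, he⟩ := (by rw [← hcci]; exact even_cc i : Even c)
    have h1 := Nat.div_add_mod m c
    have h3 : c * (m / c) = 2 * (e * (m / c)) := by
      generalize m / c = y
      rw [he]; ring
    obtain ⟨l, hl⟩ := hm
    omega
  rcases Nat.even_or_odd i with he | ho
  · have hci : c = i := by rw [hc, if_pos he]
    rw [hci] at hmc ⊢
    rw [critO_even he]
    have hno : ¬ Odd i := Nat.not_odd_iff_even.2 he
    simp only [false_iff, not_not]
    constructor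
    · intro h
      right; right
      refine ⟨hrp, hr3, he, ?_⟩
      simp only [Nat.even_iff, Nat.odd_iff] at h ⊢
      omega
    · rintro (⟨h, -⟩ | ⟨-, -, h, -⟩ | ⟨-, -, -, h⟩)
      · exact absurd h hr2
      · exact absurd h hno
      · simp only [Nat.even_iff, Nat.odd_iff] at h ⊢
        omega
  · rw [critO_odd ho]
    constructor
    · intro h
      right; left
      refine ⟨hrp, hr3, ho, ?_⟩
      rcases h with h | h
      · exact Or.inl h.1
      · exact Or.inr ⟨h.1, hmc, h.2.2⟩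
    · rintro (⟨h, -⟩ | ⟨-, -, -, h | ⟨a1, a2, a3⟩⟩ | ⟨-, -, h, -⟩)
      · exact absurd h hr2
      · exact Or.inl ⟨h, fun h => h⟩
      · exact Or.inr ⟨a1, by omega, a3⟩
      · exact absurd ho (Nat.not_odd_iff_even.2 h)

end Cfsg.Agent.S5991
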