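import Cfsg.Statements.S5992
import Cfsg.Agent.Lib.H99.OrthOddDim

set_option autoImplicit false
set_option linter.unusedSimpArgs false
open scoped MatrixGroups
open Cfsg

namespace Cfsg.Agent.S5992


open Module QuadraticMap H48.QuadSplit H48.QuadStd H96.OeType H99.OrthSS

theorem not_dvd_card {F : Type*} [Field F] [Fintype F] {p : ℕ} [Fact p.Prime] [CharP F p] {r : ℕ} (hr : r.Prime) (hrp : r ≠ p) : ¬ r ∣ Fintype.card F := by
  obtain ⟨n, -, hn⟩ := FiniteField.card F p
  rw [hn]
  intro h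
  exact hrp ((Nat.prime_dvd_prime_iff_eq hr Fact.out).1 (hr.dvd_of_dvd_pow h))


/-- Elements of prime order r ≠ p of Ω_n(q), nq odd, with no fixed hyperbolic `m`-space. Here `T = Ω_n(F)`, `n = 2d+1 ≥ 7`, `q` odd, realised as the commutator subgroup of the isometry group of `Q = x₀² + Σ xᵢyᵢ` over the field `F` with `q` elements (trivial centre, so its elements of prime order `r` are used directly); a nondegenerate `m`-space (even `m`) is a subspace on which the polar form of `Q` is nondegenerate; it is hyperbolic if it contains an `m/2`-dimensional subspace on which `Q` vanishes, elliptic otherwise. Let `m` be even with `2 ≤ m ≤ n − 1` (no restriction `m < n/2`) and let `r ≠ p` be a prime dividing the number of hyperbolic `m`-spaces; for `r ≠ p` let `i` be the multiplicative order of `q` modulo `r`, `c = i` for `i` even and `c = 2i` for `i` odd, and write `k = n mod c`, `ℓ' = m mod c`. Then every element of `T` of order `r` fixes some hyperbolic `m`-space if and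 only if `r = 2`, or `r` is odd and one of: (i) `i` odd, `c ≤ m` and either `k > ℓ' > 0` or `ℓ' = 0`; (ii) `i` even, `i ≤ m`, `k > ℓ'`, and `m/i` even whenever `ℓ' = 0`. (`r = p` is not covered by this statement.) -/
theorem result {F : Type*} [Field F] [Fintype F] {p : ℕ} [Fact p.Prime] [CharP F p] {q : ℕ} (hq : Fintype.card F = q) (hqodd : Odd q)
    (d m : ℕ) (hd : 3 ≤ d) (hm : 2 ≤ m) (hme : Even m) (hmn : m ≤ 2 * d)
    (r : ℕ) [Fact r.Prime] (hrp : r ≠ p)
    (hrΩ : r ∣ Nat.card {W : Submodule F (Unit ⊕ (Fin d ⊕ Fin d) → F) // Module.finrank F ↥W = m ∧ Cfsg.Geo.IsNondegenerateOn (QuadraticMap.polar (Cfsg.quadFormOdd d F)) W ∧ Cfsg.Geo.IsPlusTypeOn (Cfsg.quadFormOdd d F) W})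
    (i c : ℕ) (hi : i = orderOf (q : ZMod r)) (hc : c = if Even i then i else 2 * i) :
    (∀ x : GL (Unit ⊕ (Fin d ⊕ Fin d)) F, x ∈ Cfsg.Geo.omegaGL (Cfsg.quadFormOdd d F) → orderOf x = r →
      ∃ W : Submodule F (Unit ⊕ (Fin d ⊕ Fin d) → F), (Module.finrank F ↥W = m ∧ Cfsg.Geo.IsNondegenerateOn (QuadraticMap.polar (Cfsg.quadFormOdd d F)) W ∧ Cfsg.Geo.IsPlusTypeOn (Cfsg.quadFormOdd d F) W) ∧ W.map (Matrix.toLin' (x : Matrix (Unit ⊕ (Fin d ⊕ Fin d)) (Unit ⊕ (Fin d ⊕ Fin d)) F)) ≤ W) ↔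
    (r = 2 ∨
     (2 < r ∧ Odd i ∧ c ≤ m ∧ (m % c = 0 ∨ (0 < m % c ∧ m % c < (2 * d + 1) % c))) ∨
     (2 < r ∧ Even i ∧ i ≤ m ∧ m % c < (2 * d + 1) % c ∧ (0 < m % c ∨ Even (m / i)))) := by

  have hr := (Fact.out : r.Prime)
  rw [← coe_qOdd] at hrΩ ⊢
  have hP : ∀ W : Submodule F (Unit ⊕ (Fin d ⊕ Fin d) → F), (Module.finrank F ↥W = m ∧ Cfsg.Geo.IsNondegenerateOn (QuadraticMap.polar (⇑(qOdd d F 1))) W ∧ Cfsg.Geo.IsPlusTypeOn (⇑(qOdd d F 1)) W) ↔
      (finrank F W = m ∧ ND ((qOdd d F 1).restrict W) ∧ (PT ((qOdd d F 1).restrict W) ↔ True)) := by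
    intro W
    rw [H96.OeTyp2.nd_on_iff, H96.OeTyp2.plus_iff, iff_true]
  have hqo : Odd (Fintype.card F) := by rw [hq]; exact hqodd
  by_cases hr2 : r = 2
  · subst hr2
    exact iff_of_true (crit_two hqo d m hd hm hme hmn True _ hP) (Or.inl rfl)
  have hr3 : 2 < r := lt_of_le_of_ne hr.two_le (Ne.symm hr2)
  have hrq := not_dvd_card (F := F) (p := p) hr hrp
  have hio : oi F r = i := by rw [hi, oi, hq]
  have hcci : cc i = c := hc.symm
  have hcrit := crit_odd hr hr2 hrq hqo d m hd hm hme hmn True _ hP hrΩ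
  rw [hio, hcci] at hcrit
  rw [hcrit]
  have hc0 : 0 < c := by rw [← hcci, ← hio]; exact cc_pos hr hrq
  have hceven : Even c := by rw [← hcci]; exact even_cc i
  constructor
  · rintro ⟨h1, h2, h3⟩
    rcases Nat.even_or_odd i with he | ho
    · right; right
      have hci : c = i := by rw [hc, if_pos he]
      rw [hci] at h1 h2 h3 ⊢
      refine ⟨hr3, he, h1, h2, ?_⟩
      by_cases h0 : m % i = 0
      · right
        exact ((h3 h0).1 trivial).resolve_left (Nat.not_odd_iff_even.2 he)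
      · left; omega
    · right; left
      refine ⟨hr3, ho, h1, ?_⟩
      by_cases h0 : m % c = 0
      · left; exact h0
      · right; exact ⟨by omega, h2⟩
  · rintro (h | ⟨-, ho, h1, h2⟩ | ⟨-, he, h1, h2, h3⟩)
    · exact absurd h hr2
    · refine ⟨h1, ?_, fun _ => iff_of_true trivial (Or.inl ho)⟩
      rcases h2 with h2 | h2
      · rw [h2]
        have h5 := Nat.div_add_mod (2 * d + 1) c
        obtain ⟨e, he⟩ := hceven
        have h6 : c * ((2 * d + 1) / c) = 2 * (e * ((2 * d + 1) / c)) := by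
          generalize (2 * d + 1) / c = y
          rw [he]; ring
        omega
      · exact h2.2
    · have hci : c = i := by rw [hc, if_pos he]
      rw [hci] at h2 h3 ⊢
      refine ⟨h1, h2, fun h => ?_⟩
      rcases h3 with h3 | h3
      · omega
      · exact iff_of_true trivial (Or.inr h3)

end Cfsg.Agent.S5992
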