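import Cfsg.Statements.S5994
import Cfsg.Agent.Lib.H99.OrthUni3

set_option autoImplicit false
set_option linter.unusedSimpArgs false
open scoped MatrixGroups
open Cfsg

namespace Cfsg.Agent.S5994


theorem trick (p d m : ℕ) (hp2 : Odd p) (hm : Even m)
    (key : ∀ μ : Multiset ℕ, (∀ e ∈ μ, 0 < e ∧ e ≤ p) → (∀ e : ℕ, Even e → Even (μ.count e)) → μ.sum = 2 * d → (∃ e ∈ μ, Odd e) →
        ∃ ν : Multiset ℕ, ν ≤ μ ∧ ν.sum = m ∧ ∀ e : ℕ, Even e → Even (ν.count e))
    (hd : 0 < d) (μ : Multiset ℕ) (hμ1 : ∀ e ∈ μ, 0 < e ∧ e ≤ p) (hμ2 : ∀ e : ℕ, Even e → Even (μ.count e)) (hμ3 : μ.sum = 2 * d) :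
    ∃ ν : Multiset ℕ, ν ≤ μ ∧ ν.sum = m ∧ ∀ e : ℕ, Even e → Even (ν.count e) := by
  classical
  by_cases hodd : ∃ e ∈ μ, Odd e
  · exact key μ hμ1 hμ2 hμ3 hodd
  push Not at hodd
  have hev : ∀ e ∈ μ, Even e := fun e he => Nat.not_odd_iff_even.1 (hodd e he)
  obtain ⟨e, he⟩ : ∃ e, e ∈ μ := by
    apply Multiset.exists_mem_of_ne_zero
    rintro rfl
    rw [Multiset.sum_zero] at hμ3; omega
  have hee := hev e he
  obtain ⟨e1, e2⟩ := hμ1 e he
  obtain ⟨μ0, hμ0⟩ := Multiset.exists_cons_of_mem he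
  have he0 : e ∈ μ0 := by
    by_contra hcon
    have h1 := hμ2 e hee
    rw [hμ0, Multiset.count_cons_self, Multiset.count_eq_zero_of_notMem hcon] at h1
    exact absurd h1 (by decide)
  obtain ⟨μ1, hμ01⟩ := Multiset.exists_cons_of_mem he0
  rw [hμ01] at hμ0
  have hep : e + 1 ≤ p := by
    obtain ⟨k, hk⟩ := hee
    obtain ⟨l, hl⟩ := hp2
    omega
  have ho1 : ¬ Even (e - 1) := by
    rw [Nat.not_even_iff_odd]
    obtain ⟨k, hk⟩ := hee
    exact ⟨k - 1, by omega⟩
  have ho2 : ¬ Even (e + 1) := by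
    rw [Nat.not_even_iff_odd]
    exact hee.add_one
  have hμ1e : ∀ f ∈ μ1, Even f := fun f hf => hev f (by rw [hμ0]; exact Multiset.mem_cons_of_mem (Multiset.mem_cons_of_mem hf))
  obtain ⟨ν', n1, n2, n3⟩ := key ((e - 1) ::ₘ (e + 1) ::ₘ μ1) (by
    intro f hf
    rw [Multiset.mem_cons, Multiset.mem_cons] at hf
    rcases hf with rfl | rfl | hf
    · obtain ⟨k, hk⟩ := hee
      omega
    · omega
    · exact hμ1 f (by rw [hμ0]; exact Multiset.mem_cons_of_mem (Multiset.mem_cons_of_mem hf))) (by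
    intro f hf
    have h1 := hμ2 f hf
    have hf1 : f ≠ e - 1 := by rintro rfl; exact ho1 hf
    have hf2 : f ≠ e + 1 := by rintro rfl; exact ho2 hf
    rw [Multiset.count_cons_of_ne hf1, Multiset.count_cons_of_ne hf2]
    rw [hμ0, Multiset.count_cons, Multiset.count_cons] at h1
    split_ifs at h1 with h
    · obtain ⟨k, hk⟩ := h1
      exact ⟨k - 1, by omega⟩
    · exact h1) (by
    rw [← hμ3, hμ0]
    simp only [Multiset.sum_cons]
    omega) ⟨e + 1, by simp, Nat.not_even_iff_odd.1 ho2⟩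
  -- even part
  have f1 : ν'.filter (fun f => Even f) ≤ μ1 := by
    refine (Multiset.filter_le_filter _ n1).trans ?_
    rw [Multiset.filter_cons_of_neg _ ho1, Multiset.filter_cons_of_neg _ ho2]
    exact Multiset.filter_le _ _
  have f2 : ν'.filter (fun f => ¬ Even f) ≤ {e - 1, e + 1} := by
    refine (Multiset.filter_le_filter _ n1).trans ?_
    rw [Multiset.filter_cons_of_pos (p := fun f => ¬ Even f) _ ho1, Multiset.filter_cons_of_pos (p := fun f => ¬ Even f) _ ho2]
    have : μ1.filter (fun f => ¬ Even f) = 0 := by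
      rw [Multiset.filter_eq_nil]
      intro f hf
      exact not_not.2 (hμ1e f hf)
    rw [this]
    exact le_rfl
  have f3 := Multiset.filter_add_not (fun f => Even f) ν'
  set ν1 := ν'.filter (fun f => Even f) with hν1
  set ω := ν'.filter (fun f => ¬ Even f) with hω
  have f4 : ν1.sum + ω.sum = m := by rw [← n2, ← f3, Multiset.sum_add]
  have f5 : 2 ∣ ν1.sum := Multiset.dvd_sum (fun f hf => (Multiset.mem_filter.1 hf).2.two_dvd)
  have f6 : ∀ f, Even f → Even (ν1.count f) := by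
    intro f hf
    rw [hν1, Multiset.count_filter, if_pos hf]
    exact n3 f hf
  have f7 : Multiset.card ω ≤ 2 := by
    have := Multiset.card_le_card f2
    simpa using this
  rcases Nat.lt_or_ge (Multiset.card ω) 1 with hc | hc
  · have hω0 : ω = 0 := Multiset.card_eq_zero.1 (by omega)
    refine ⟨ν1, ?_, by rw [← f4, hω0]; simp, f6⟩
    rw [hμ0]
    exact f1.trans ((Multiset.le_cons_self _ _).trans (Multiset.le_cons_self _ _))
  · rcases Nat.lt_or_ge (Multiset.card ω) 2 with hc2 | hc2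
    · exfalso
      obtain ⟨f, hf⟩ := Multiset.card_eq_one.1 (show Multiset.card ω = 1 by omega)
      have hfo : ¬ Even f := (Multiset.mem_filter.1 (show f ∈ ω by rw [hf]; exact Multiset.mem_singleton_self f)).2
      rw [hf, Multiset.sum_singleton] at f4
      rw [Nat.not_even_iff_odd] at hfo
      obtain ⟨k, hk⟩ := hfo
      obtain ⟨l, hl⟩ := hm
      obtain ⟨c, hc⟩ := f5
      omega
    · have hω2 : ω = {e - 1, e + 1} := Multiset.eq_of_le_of_card_le f2 (by simpa using hc2)
      have hs : ω.sum = 2 * e := by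
        rw [hω2]
        simp only [Multiset.insert_eq_cons, Multiset.sum_cons, Multiset.sum_singleton]
        omega
      refine ⟨e ::ₘ e ::ₘ ν1, ?_, ?_, ?_⟩
      · rw [hμ0, Multiset.cons_le_cons_iff, Multiset.cons_le_cons_iff]; exact f1
      · simp only [Multiset.sum_cons]; omega
      · intro f hf
        have := f6 f hf
        rw [Multiset.count_cons, Multiset.count_cons]
        split_ifs
        · obtain ⟨k, hk⟩ := this
          exact ⟨k + 1, by omega⟩
        · simpa using this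

open Module QuadraticMap H99.OrthUni in
/-- an elliptic space of pure type `2^{2j}` does not exist -/
theorem plus_of_two {ι : Type} [Fintype ι] [DecidableEq ι] {F : Type*} [Field F] (h2 : (2 : F) ≠ 0) (Q : QuadraticForm F (ι → F))
    (x : GL ι F) (hiso : ∀ u, Q ((x : Matrix ι ι F).mulVec u) = Q u) (hN : (Matrix.toLin' (x : Matrix ι ι F) - 1) ^ 2 = 0)
    (W : Submodule F (ι → F)) (hxW : W.map (Matrix.toLin' (x : Matrix ι ι F)) ≤ W)
    (hg : 2 * gk (Matrix.toLin' (x : Matrix ι ι F) - 1) W 0 = finrank F W) : Cfsg.Geo.IsPlusTypeOn (⇑Q) W := by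
  refine ⟨W.map (Matrix.toLin' (x : Matrix ι ι F) - 1), ?_, ?_, ?_⟩
  · rintro _ ⟨w, hw, rfl⟩
    exact W.sub_mem (hxW ⟨w, hw, rfl⟩) hw
  · rintro _ ⟨w, hw, rfl⟩
    set n := (Matrix.toLin' (x : Matrix ι ι F) - 1) w with hn
    have e1 : (x : Matrix ι ι F).mulVec w = w + n := by
      have : n = (x : Matrix ι ι F).mulVec w - w := rfl
      rw [this]; abel
    have e0 : (x : Matrix ι ι F).mulVec n = n := by
      have h3 : (Matrix.toLin' (x : Matrix ι ι F) - 1) n = 0 := by
        have := congrArg (fun f : (ι → F) →ₗ[F] (ι → F) => f w) hN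
        simp only [pow_two, Module.End.mul_apply] at this
        exact this
      have h4 : (Matrix.toLin' (x : Matrix ι ι F) - 1) n = (x : Matrix ι ι F).mulVec n - n := rfl
      rw [h4] at h3
      exact sub_eq_zero.1 h3
    have e2 : (x : Matrix ι ι F).mulVec ((x : Matrix ι ι F).mulVec w) = w + (2 : F) • n := by
      rw [e1, Matrix.mulVec_add, e0, e1, two_smul]; abel
    have q1 := hiso w
    rw [e1, QuadraticMap.map_add Q] at q1
    have q2 : Q ((x : Matrix ι ι F).mulVec ((x : Matrix ι ι F).mulVec w)) = Q w := by rw [hiso, hiso]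
    rw [e2, QuadraticMap.map_add Q, QuadraticMap.map_smul, polar_smul_right, smul_eq_mul, smul_eq_mul] at q2
    have q3 : 2 * Q n = 0 := by linear_combination q2 - 2 * q1
    exact (mul_eq_zero.1 q3).resolve_left h2
  · have h3 := rank_map (Matrix.toLin' (x : Matrix ι ι F) - 1) W
    have h4 : gk (Matrix.toLin' (x : Matrix ι ι F) - 1) W 0 = finrank F (LinearMap.ker (Matrix.toLin' (x : Matrix ι ι F) - 1) ⊓ W : Submodule F (ι → F)) := by
      have h5 : W.map ((Matrix.toLin' (x : Matrix ι ι F) - 1) ^ 0) = W := by rw [pow_zero]; exact Submodule.map_id W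
      show finrank F (LinearMap.ker (Matrix.toLin' (x : Matrix ι ι F) - 1) ⊓ W.map ((Matrix.toLin' (x : Matrix ι ι F) - 1) ^ 0) : Submodule F (ι → F)) = _
      rw [h5]
    omega

theorem count_le_sub (ν μ : Multiset ℕ) (S : Finset ℕ) (hν : ν ≤ μ) (hμ : ∀ e ∈ μ, e ∈ S) :
    ν.sum = ∑ e ∈ S, ν.count e * e ∧ Multiset.card ν = ∑ e ∈ S, ν.count e := by
  have h1 : ν.toFinset ⊆ S := by
    intro e he
    rw [Multiset.mem_toFinset] at he
    exact hμ e (Multiset.mem_of_le hν he)
  constructor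
  · rw [Finset.sum_multiset_count_of_subset ν _ h1]; rfl
  · exact (Multiset.sum_count_eq_card (fun e he => hμ e (Multiset.mem_of_le hν he))).symm

/-- A necessary condition for every element of order p of PΩ⁻_n(q), q odd, to fix an elliptic `m`-space. Here `T = PΩ⁻_n(F)`, `n = 2d ≥ 8`, realised through `Ω⁻_n(q)`, the commutator subgroup of the isometry group of `Q = Σ_{i<d−1} xᵢyᵢ + z₁² + a z₁z₂ + b z₂²` with `z₁² + a z₁z₂ + b z₂²` anisotropic, over the field `F` with `q` elements; an element of `T` of prime order `r` is an element `x` of `Ω⁻_n(q)` with `x^r` scalar and `x` not scalar; `q` is odd; a nondegenerate `m`-space (even `m`) is a subspace on which the polar form of `Q` is nondegenerate; it is hyperbolic if it contains an `m/2`-dimensional subspace on which `Q` vanishes, elliptic otherwise. Let `m` be even with `2 ≤ m ≤ n − 2` and suppose `p` divides the number of elliptic `m`-spaces. If every element of `T` of order `p` fixes some elliptic `m`-space,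 then `n ≡ m (mod 4)` and every partition of `n` into parts of size at most `p` in which every even part has even multiplicity contains (as a sub-multiset) a partition of `m` in which every even part has even multiplicity. -/
theorem result {F : Type*} [Field F] [Fintype F] {p : ℕ} [Fact p.Prime] [CharP F p] {q : ℕ} (hq : Fintype.card F = q) (hqodd : Odd q)
    (d m : ℕ) (hd : 4 ≤ d) (hm : 2 ≤ m) (hme : Even m) (hmn : m + 2 ≤ 2 * d) (a b : F) (hab : ∀ x y : F, x ^ 2 + a * x * y + b * y ^ 2 = 0 → x = 0 ∧ y = 0)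
    (hpΩ : p ∣ Nat.card {W : Submodule F ((Fin (d - 1) ⊕ Fin (d - 1)) ⊕ Fin 2 → F) // Module.finrank F ↥W = m ∧ Cfsg.Geo.IsNondegenerateOn (QuadraticMap.polar (Cfsg.quadFormMinus (d - 1) F a b)) W ∧ ¬ Cfsg.Geo.IsPlusTypeOn (Cfsg.quadFormMinus (d - 1) F a b) W}) :
    (∀ x : GL ((Fin (d - 1) ⊕ Fin (d - 1)) ⊕ Fin 2) F, x ∈ Cfsg.Geo.omegaGL (Cfsg.quadFormMinus (d - 1) F a b) →
      (∃ z : F, ((x ^ p : GL ((Fin (d - 1) ⊕ Fin (d - 1)) ⊕ Fin 2) F) : Matrix ((Fin (d - 1) ⊕ Fin (d - 1)) ⊕ Fin 2) ((Fin (d - 1) ⊕ Fin (d - 1)) ⊕ Fin 2) F) = z • (1 : Matrix ((Fin (d - 1) ⊕ Fin (d - 1)) ⊕ Fin 2) ((Fin (d - 1) ⊕ Fin (d - 1)) ⊕ Fin 2) F)) →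
      (∀ z : F, (x : Matrix ((Fin (d - 1) ⊕ Fin (d - 1)) ⊕ Fin 2) ((Fin (d - 1) ⊕ Fin (d - 1)) ⊕ Fin 2) F) ≠ z • (1 : Matrix ((Fin (d - 1) ⊕ Fin (d - 1)) ⊕ Fin 2) ((Fin (d - 1) ⊕ Fin (d - 1)) ⊕ Fin 2) F)) →
      ∃ W : Submodule F ((Fin (d - 1) ⊕ Fin (d - 1)) ⊕ Fin 2 → F), (Module.finrank F ↥W = m ∧ Cfsg.Geo.IsNondegenerateOn (QuadraticMap.polar (Cfsg.quadFormMinus (d - 1) F a b)) W ∧ ¬ Cfsg.Geo.IsPlusTypeOn (Cfsg.quadFormMinus (d - 1) F a b) W) ∧ W.map (Matrix.toLin' (x : Matrix ((Fin (d - 1) ⊕ Fin (d - 1)) ⊕ Fin 2) ((Fin (d - 1) ⊕ Fin (d - 1)) ⊕ Fin 2) F)) ≤ W) →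
    ((2 * d) % 4 = m % 4 ∧ (∀ μ : Multiset ℕ, (∀ e ∈ μ, 0 < e ∧ e ≤ p) → (∀ e : ℕ, Even e → Even (μ.count e)) → μ.sum = 2 * d →
        ∃ ν : Multiset ℕ, ν ≤ μ ∧ ν.sum = m ∧ ∀ e : ℕ, Even e → Even (ν.count e))) := by
  intro h
  have hp2 : p ≠ 2 := H99.OrthUni3.p_ne_two (F := F) p (by rw [hq]; exact hqodd)
  have h2 : (2 : F) ≠ 0 := H99.OrthUni3.two_ne' p hp2
  have hp := (Fact.out : p.Prime)
  have hp3 : 3 ≤ p := by
    have := hp.two_le
    omega
  have hdisc : 4 * b - a ^ 2 ≠ 0 := H48.QuadStd.disc_ne_zero hab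
  have key : ∀ μ : Multiset ℕ, (∀ e ∈ μ, 0 < e ∧ e ≤ p) → (∀ e : ℕ, Even e → Even (μ.count e)) → μ.sum = 2 * d → (∃ e ∈ μ, Odd e) →
        ∃ ν : Multiset ℕ, ν ≤ μ ∧ ν.sum = m ∧ ∀ e : ℕ, Even e → Even (ν.count e) := by
    intro μ hμ1 hμ2 hμ3 hμ4
    refine H99.OrthUni3.final p hp2 (H48.QuadStd.qMinus (d - 1) F a b) (H48.QuadStd.nd_qMinus (d - 1) hdisc) m ?_ μ hμ1 (by omega)
      (H99.OrthUni2.minus_nil h2 μ hμ2 (d - 1) (by rw [hμ3]; omega) hμ4 hdisc)
    intro x hx hxp hxz
    rw [H48.QuadStd.coe_qMinus] at hx ⊢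
    obtain ⟨W, ⟨w1, w2, w3⟩, w4⟩ := h x hx ⟨1, by rw [hxp, one_smul]; rfl⟩ hxz
    exact ⟨W, w1, w2, w4⟩
  refine ⟨?_, trick p d m (hp.odd_of_ne_two hp2) hme key (by omega)⟩
  rcases Nat.even_or_odd' d with ⟨k, hk | hk⟩
  · obtain ⟨ν, n1, n2, n3⟩ := key (Multiset.replicate (d - 2) 2 + {3, 1}) (by
      intro e he
      rw [Multiset.mem_add] at he
      rcases he with he | he
      · rw [Multiset.eq_of_mem_replicate he]; omega
      · simp at he
        omega) (by
      intro e he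
      rw [Multiset.count_add, Multiset.count_replicate]
      have h1 : e ≠ 1 := by rintro rfl; exact absurd he (by decide)
      have h3 : e ≠ 3 := by rintro rfl; exact absurd he (by decide)
      have h4 : Multiset.count e ({3, 1} : Multiset ℕ) = 0 := by
        rw [Multiset.count_eq_zero]
        simp
        omega
      rw [h4, add_zero]
      split_ifs
      · exact ⟨k - 1, by omega⟩
      · exact Even.zero) (by
      rw [Multiset.sum_add, Multiset.sum_replicate, smul_eq_mul]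
      simp only [Multiset.insert_eq_cons, Multiset.sum_cons, Multiset.sum_singleton]
      omega) ⟨3, by simp, by decide⟩
    obtain ⟨s1, s2⟩ := count_le_sub ν _ {1, 2, 3} n1 (by
      intro e he
      rw [Multiset.mem_add] at he
      rcases he with he | he
      · rw [Multiset.eq_of_mem_replicate he]; decide
      · simp at he
        rcases he with rfl | rfl <;> decide)
    obtain ⟨j, hj⟩ := n3 2 (by decide)
    obtain ⟨l, hl⟩ := hme
    have c1 := Multiset.count_le_of_le 1 n1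
    have c3 := Multiset.count_le_of_le 3 n1
    rw [Multiset.count_add, Multiset.count_replicate, if_neg (by decide)] at c1 c3
    have c1' : Multiset.count 1 ({3, 1} : Multiset ℕ) = 1 := by decide
    have c3' : Multiset.count 3 ({3, 1} : Multiset ℕ) = 1 := by decide
    rw [c1'] at c1
    rw [c3'] at c3
    have s3 : ∑ e ∈ ({1, 2, 3} : Finset ℕ), ν.count e * e = ν.count 1 * 1 + (ν.count 2 * 2 + ν.count 3 * 3) := by
      rw [Finset.sum_insert (by decide), Finset.sum_insert (by decide), Finset.sum_singleton]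
    rw [s3, n2] at s1
    have hc3 : ν.count 3 = 0 ∨ ν.count 3 = 1 := by omega
    have hc1 : ν.count 1 = 0 ∨ ν.count 1 = 1 := by omega
    rcases hc3 with hc3 | hc3 <;> rcases hc1 with hc1 | hc1 <;> omega
  · by_contra hcon
    have hm0 : m % 4 = 0 := by obtain ⟨l, hl⟩ := hme; omega
    have hμ1 : ∀ e ∈ (Multiset.replicate (d - 1) 2 + {1, 1} : Multiset ℕ), 0 < e ∧ e ≤ 2 := by
      intro e he
      rw [Multiset.mem_add] at he
      rcases he with he | he
      · rw [Multiset.eq_of_mem_replicate he]; omega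
      · simp at he
        omega
    have hnil := H99.OrthUni2.minus_nil h2 (Multiset.replicate (d - 1) 2 + {1, 1}) (by
      intro e he
      rw [Multiset.count_add, Multiset.count_replicate]
      have h1 : e ≠ 1 := by rintro rfl; exact absurd he (by decide)
      have h4 : Multiset.count e ({1, 1} : Multiset ℕ) = 0 := by
        rw [Multiset.count_eq_zero]
        simp
        omega
      rw [h4, add_zero]
      split_ifs
      · exact ⟨k, by omega⟩
      · exact Even.zero) (d - 1) (by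
      rw [Multiset.sum_add, Multiset.sum_replicate, smul_eq_mul]
      simp only [Multiset.insert_eq_cons, Multiset.sum_cons, Multiset.sum_singleton]
      omega) ⟨1, by simp, by decide⟩ hdisc
    obtain ⟨x, h1, h2', h3, h4, h5, h6⟩ := H99.OrthUni3.exists_elt p hp2 _ (H48.QuadStd.nd_qMinus (d - 1) hdisc) _
      (fun e he => ⟨(hμ1 e he).1, by have := (hμ1 e he).2; omega⟩) ⟨2, by
        rw [Multiset.mem_add, Multiset.mem_replicate]; left; exact ⟨by omega, rfl⟩, by decide⟩ hnil
    have h1' := h1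
    rw [H48.QuadStd.coe_qMinus] at h1'
    obtain ⟨W, ⟨w1, w2, w3⟩, w4⟩ := h x h1' ⟨1, by rw [h2', one_smul]; rfl⟩ h3
    rw [← H48.QuadStd.coe_qMinus] at w2 w3
    obtain ⟨ν, n1, n2, n3, n4⟩ := H99.OrthUni3.sub_type p h2 _ _ (fun e he => ⟨(hμ1 e he).1, by have := (hμ1 e he).2; omega⟩) x h2' h4 h5 h6 W w2 w4
    apply w3
    have hN2 : (Matrix.toLin' x.val - 1) ^ 2 = 0 := by
      have e1 := h6 2
      have e2 : (Multiset.map (fun e => e - 2) (Multiset.replicate (d - 1) 2 + {1, 1})).sum = 0 := by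
        rw [Multiset.sum_eq_zero_iff]
        intro y hy
        obtain ⟨e, he, rfl⟩ := Multiset.mem_map.1 hy
        have := (hμ1 e he).2
        omega
      rw [e2] at e1
      exact LinearMap.range_eq_bot.1 (Submodule.finrank_eq_zero.1 e1)
    apply plus_of_two h2 _ x h4 hN2 W w4
    obtain ⟨s1, s2⟩ := count_le_sub ν _ {1, 2} n1 (by
      intro e he
      have := hμ1 e he
      simp only [Finset.mem_insert, Finset.mem_singleton]
      omega)
    obtain ⟨j, hj⟩ := n3 2 (by decide)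
    have c1 := Multiset.count_le_of_le 1 n1
    rw [Multiset.count_add, Multiset.count_replicate, if_neg (by decide)] at c1
    have c1' : Multiset.count 1 ({1, 1} : Multiset ℕ) = 2 := by decide
    rw [c1'] at c1
    rw [Finset.sum_pair (by decide)] at s1 s2
    rw [← n4, s2]
    rw [n2, w1] at s1
    rw [w1]
    omega

end Cfsg.Agent.S5994
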