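import Cfsg.Statements.S5995
import Cfsg.Agent.Lib.H99.OrthUni3

set_option autoImplicit false
set_option linter.unusedSimpArgs false
open scoped MatrixGroups
open Cfsg

namespace Cfsg.Agent.S5995


theorem sum_two (ν : Multiset ℕ) (a b : ℕ) (hb : b ≠ 2) (hν : ν ≤ Multiset.replicate a 2 + {b}) :
    ν.sum = 2 * ν.count 2 + b * ν.count b ∧ ν.count b ≤ 1 := by
  constructor
  · have h1 : ν.toFinset ⊆ ({2, b} : Finset ℕ) := by
      intro e he
      rw [Multiset.mem_toFinset] at he
      have := Multiset.mem_of_le hν he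
      rw [Multiset.mem_add, Multiset.mem_singleton] at this
      rw [Finset.mem_insert, Finset.mem_singleton]
      rcases this with h | h
      · left; exact Multiset.eq_of_mem_replicate h
      · right; exact h
    rw [Finset.sum_multiset_count_of_subset ν _ h1, Finset.sum_pair hb.symm, smul_eq_mul, smul_eq_mul]
    ring
  · have h1 := Multiset.count_le_of_le b hν
    rw [Multiset.count_add, Multiset.count_replicate, if_neg (Ne.symm hb), Multiset.count_singleton_self] at h1
    omega

/-- A necessary condition for every element of order p of Ω_n(q), nq odd, to fix a hyperbolic `m`-space. Here `T = Ω_n(F)`, `n = 2d+1 ≥ 7`, `q` odd, realised as the commutator subgroup of the isometry group of `Q = x₀² + Σ xᵢyᵢ` over the field `F` with `q` elements (trivial centre, so its elements of prime order `r` are used directly); a nondegenerate `m`-space (even `m`) is a subspace on which the polar form of `Q` is nondegenerate; it is hyperbolic if it contains an `m/2`-dimensional subspace on which `Q` vanishes,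 elliptic otherwise. Let `m` be even with `2 ≤ m ≤ n − 1` and suppose `p` divides the number of hyperbolic `m`-spaces. If every element of `T` of order `p` fixes some hyperbolic `m`-space, then `m ≡ 0 (mod 4)` and every partition of `n` into parts of size at most `p` in which every even part has even multiplicity contains (as a sub-multiset) a partition of `m` in which every even part has even multiplicity. -/
theorem result {F : Type*} [Field F] [Fintype F] {p : ℕ} [Fact p.Prime] [CharP F p] {q : ℕ} (hq : Fintype.card F = q) (hqodd : Odd q)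
    (d m : ℕ) (hd : 3 ≤ d) (hm : 2 ≤ m) (hme : Even m) (hmn : m ≤ 2 * d)
    (hpΩ : p ∣ Nat.card {W : Submodule F (Unit ⊕ (Fin d ⊕ Fin d) → F) // Module.finrank F ↥W = m ∧ Cfsg.Geo.IsNondegenerateOn (QuadraticMap.polar (Cfsg.quadFormOdd d F)) W ∧ Cfsg.Geo.IsPlusTypeOn (Cfsg.quadFormOdd d F) W}) :
    (∀ x : GL (Unit ⊕ (Fin d ⊕ Fin d)) F, x ∈ Cfsg.Geo.omegaGL (Cfsg.quadFormOdd d F) → orderOf x = p →
      ∃ W : Submodule F (Unit ⊕ (Fin d ⊕ Fin d) → F), (Module.finrank F ↥W = m ∧ Cfsg.Geo.IsNondegenerateOn (QuadraticMap.polar (Cfsg.quadFormOdd d F)) W ∧ Cfsg.Geo.IsPlusTypeOn (Cfsg.quadFormOdd d F) W) ∧ W.map (Matrix.toLin' (x : Matrix (Unit ⊕ (Fin d ⊕ Fin d)) (Unit ⊕ (Fin d ⊕ Fin d)) F)) ≤ W) →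
    (m % 4 = 0 ∧ (∀ μ : Multiset ℕ, (∀ e ∈ μ, 0 < e ∧ e ≤ p) → (∀ e : ℕ, Even e → Even (μ.count e)) → μ.sum = 2 * d + 1 →
        ∃ ν : Multiset ℕ, ν ≤ μ ∧ ν.sum = m ∧ ∀ e : ℕ, Even e → Even (ν.count e))) := by
  intro h
  have hp2 : p ≠ 2 := H99.OrthUni3.p_ne_two (F := F) p (by rw [hq]; exact hqodd)
  have h2 : (2 : F) ≠ 0 := H99.OrthUni3.two_ne' p hp2
  have hp := (Fact.out : p.Prime)
  have hp3 : 3 ≤ p := by
    have := hp.two_le
    omega
  have key : (∀ μ : Multiset ℕ, (∀ e ∈ μ, 0 < e ∧ e ≤ p) → (∀ e : ℕ, Even e → Even (μ.count e)) → μ.sum = 2 * d + 1 →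
        ∃ ν : Multiset ℕ, ν ≤ μ ∧ ν.sum = m ∧ ∀ e : ℕ, Even e → Even (ν.count e)) := by
    intro μ hμ1 hμ2 hμ3
    refine H99.OrthUni3.final p hp2 (H48.QuadStd.qOdd d F 1) (H48.QuadStd.nd_qOdd d h2 one_ne_zero) m ?_ μ hμ1 (by omega)
      (H99.OrthUni2.odd_nil h2 μ hμ2 d hμ3 one_ne_zero)
    intro x hx hxp hxz
    rw [H48.QuadStd.coe_qOdd] at hx ⊢
    obtain ⟨W, ⟨w1, w2, w3⟩, w4⟩ := h x hx (orderOf_eq_prime hxp (fun h1 => hxz 1 (by rw [h1, one_smul]; rfl)))
    exact ⟨W, w1, w2, w4⟩
  refine ⟨?_, key⟩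
  rcases Nat.even_or_odd' d with ⟨k, hk | hk⟩
  · obtain ⟨ν, n1, n2, n3⟩ := key (Multiset.replicate d 2 + {1}) (by
      intro e he
      rw [Multiset.mem_add, Multiset.mem_singleton] at he
      rcases he with he | he
      · rw [Multiset.eq_of_mem_replicate he]; omega
      · rw [he]; omega) (by
      intro e he
      rw [Multiset.count_add, Multiset.count_replicate, Multiset.count_singleton]
      have h1 : e ≠ 1 := by rintro rfl; exact absurd he (by decide)
      rw [if_neg h1, add_zero]
      split_ifs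
      · exact ⟨k, by omega⟩
      · exact Even.zero) (by
      rw [Multiset.sum_add, Multiset.sum_replicate, Multiset.sum_singleton, smul_eq_mul]; ring)
    obtain ⟨s1, s2⟩ := sum_two ν d 1 (by decide) n1
    obtain ⟨j, hj⟩ := n3 2 (by decide)
    obtain ⟨l, hl⟩ := hme
    omega
  · obtain ⟨ν, n1, n2, n3⟩ := key (Multiset.replicate (d - 1) 2 + {3}) (by
      intro e he
      rw [Multiset.mem_add, Multiset.mem_singleton] at he
      rcases he with he | he
      · rw [Multiset.eq_of_mem_replicate he]; omega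
      · rw [he]; omega) (by
      intro e he
      rw [Multiset.count_add, Multiset.count_replicate, Multiset.count_singleton]
      have h1 : e ≠ 3 := by rintro rfl; exact absurd he (by decide)
      rw [if_neg h1, add_zero]
      split_ifs
      · exact ⟨k, by omega⟩
      · exact Even.zero) (by
      rw [Multiset.sum_add, Multiset.sum_replicate, Multiset.sum_singleton, smul_eq_mul]; omega)
    obtain ⟨s1, s2⟩ := sum_two ν (d - 1) 3 (by decide) n1
    obtain ⟨j, hj⟩ := n3 2 (by decide)
    obtain ⟨l, hl⟩ := hme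
    omega

end Cfsg.Agent.S5995
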