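import Cfsg.Statements.S5997
import Cfsg.Agent.Lib.H99.Mat2
import Cfsg.Agent.Lib.H99.NormFix

set_option autoImplicit false
set_option linter.unusedSimpArgs false
open scoped MatrixGroups
open Cfsg

namespace Cfsg.Agent.S5997


open Matrix in
theorem gens {G : Type*} [Group G] (R : Subgroup G) (e : R ≃* QuaternionGroup 2) :
    ∃ I J : G, I ∈ R ∧ J ∈ R ∧ J * I = I ^ 2 * I * J ∧ I ^ 4 = 1 ∧ I ^ 2 ≠ 1 ∧ J ^ 2 = I ^ 2 ∧
      ∀ g ∈ R, ∃ k : ℕ, g = I ^ k ∨ g = J * I ^ k := by
  set i : R := e.symm (QuaternionGroup.a 1) with hi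
  set j : R := e.symm (QuaternionGroup.xa 0) with hj
  have ei : e i = QuaternionGroup.a 1 := by rw [hi]; simp
  have ej : e j = QuaternionGroup.xa 0 := by rw [hj]; simp
  have h1 : j * i = i ^ 2 * i * j := by
    apply e.injective
    simp only [map_mul, map_pow, ei, ej]
    decide
  have h2 : i ^ 4 = 1 := by
    apply e.injective
    simp only [map_mul, map_pow, map_one, ei, ej]
    decide
  have h3 : i ^ 2 ≠ 1 := by
    intro h
    have := congrArg e h
    simp only [map_mul, map_pow, map_one, ei, ej] at this
    revert this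
    decide
  have h4 : j ^ 2 = i ^ 2 := by
    apply e.injective
    simp only [map_mul, map_pow, map_one, ei, ej]
    decide
  have h5 : ∀ g : R, ∃ k : ℕ, g = i ^ k ∨ g = j * i ^ k := by
    intro g
    have : ∀ x : QuaternionGroup 2, ∃ k : Fin 4, x = (QuaternionGroup.a 1) ^ (k : ℕ) ∨
        x = QuaternionGroup.xa 0 * (QuaternionGroup.a 1) ^ (k : ℕ) := by decide
    obtain ⟨k, hk⟩ := this (e g)
    refine ⟨k, ?_⟩
    rcases hk with hk | hk
    · left; apply e.injective
      simp only [map_mul, map_pow, ei, ej]; exact hk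
    · right; apply e.injective
      simp only [map_mul, map_pow, ei, ej]; exact hk
  refine ⟨i, j, i.2, j.2, ?_, ?_, ?_, ?_, ?_⟩
  · exact_mod_cast congrArg Subtype.val h1
  · exact_mod_cast congrArg Subtype.val h2
  · intro h; apply h3; apply Subtype.ext; exact_mod_cast h
  · exact_mod_cast congrArg Subtype.val h4
  · intro g hg
    obtain ⟨k, hk⟩ := h5 ⟨g, hg⟩
    refine ⟨k, ?_⟩
    rcases hk with hk | hk
    · left; have := congrArg Subtype.val hk; simpa using this
    · right; have := congrArg Subtype.val hk; simpa using this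

open Matrix in
theorem mat_facts {F : Type*} [Field F] (h2 : (2 : F) ≠ 0) (R : Subgroup (GL (Fin 2) F))
    (e : R ≃* QuaternionGroup 2) :
    ∃ I J : GL (Fin 2) F, I ∈ R ∧ J ∈ R ∧
      (I : Matrix (Fin 2) (Fin 2) F) * (I : Matrix (Fin 2) (Fin 2) F) = -1 ∧
      (J : Matrix (Fin 2) (Fin 2) F) * (J : Matrix (Fin 2) (Fin 2) F) = -1 ∧
      (J : Matrix (Fin 2) (Fin 2) F) * (I : Matrix (Fin 2) (Fin 2) F) =
        - ((I : Matrix (Fin 2) (Fin 2) F) * (J : Matrix (Fin 2) (Fin 2) F)) ∧
      ∀ g ∈ R, ∃ k : ℕ, g = I ^ k ∨ g = J * I ^ k := by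
  obtain ⟨I, J, hI, hJ, h1, hI4, hI2, hJ2, hgen⟩ := gens R e
  set i : Matrix (Fin 2) (Fin 2) F := (I : Matrix (Fin 2) (Fin 2) F) with hi
  set j : Matrix (Fin 2) (Fin 2) F := (J : Matrix (Fin 2) (Fin 2) F) with hj
  have e1 : j * i = i ^ 2 * i * j := by
    have := congrArg (fun g : GL (Fin 2) F => (g : Matrix (Fin 2) (Fin 2) F)) h1
    simpa using this
  have e2 : i ^ 4 = 1 := by
    have := congrArg (fun g : GL (Fin 2) F => (g : Matrix (Fin 2) (Fin 2) F)) hI4
    simpa using this
  have e3 : i ^ 2 ≠ 1 := by
    intro h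
    apply hI2
    apply Units.ext
    simpa using h
  have e4 : j ^ 2 = i ^ 2 := by
    have := congrArg (fun g : GL (Fin 2) F => (g : Matrix (Fin 2) (Fin 2) F)) hJ2
    simpa using this
  have di : i.det ≠ 0 := by
    intro h
    have := congrArg Matrix.det e2
    rw [Matrix.det_pow, h, Matrix.det_one] at this
    norm_num at this
  have dj : j.det ≠ 0 := by
    intro h
    have := congrArg Matrix.det e4
    rw [Matrix.det_pow, Matrix.det_pow, h] at this
    apply di
    have h0 : i.det ^ 2 = 0 := by rw [← this]; norm_num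
    exact pow_eq_zero_iff (two_ne_zero) |>.1 h0
  set c := i ^ 2 with hc
  have hcd : c.det = 1 := by
    have := congrArg Matrix.det e1
    rw [Matrix.det_mul, Matrix.det_mul, Matrix.det_mul] at this
    have h3 : (c.det - 1) * (i.det * j.det) = 0 := by linear_combination -this
    rcases mul_eq_zero.1 h3 with h | h
    · exact sub_eq_zero.1 h
    · rcases mul_eq_zero.1 h with h | h
      · exact absurd h di
      · exact absurd h dj
  have hcc : c * c = 1 := by rw [hc, ← pow_add]; exact e2
  have hcay := H99.Mat2.cayley c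
  rw [hcc, hcd] at hcay
  have htr : c.trace • c = (2 : F) • (1 : Matrix (Fin 2) (Fin 2) F) := by
    have : c.trace • c = 1 + (1 : Matrix (Fin 2) (Fin 2) F) := by
      rw [one_smul] at hcay
      exact sub_eq_iff_eq_add.1 hcay.symm
    rw [this, two_smul]
  have htr0 : c.trace ≠ 0 := by
    intro h
    rw [h, zero_smul] at htr
    have := congrFun (congrFun htr 0) 0
    simp at this
    exact h2 this.symm
  have hcs : c = (2 / c.trace) • (1 : Matrix (Fin 2) (Fin 2) F) := by
    have : (c.trace)⁻¹ • (c.trace • c) = (c.trace)⁻¹ • ((2 : F) • (1 : Matrix (Fin 2) (Fin 2) F)) := by rw [htr]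
    rw [smul_smul, inv_mul_cancel₀ htr0, one_smul, smul_smul] at this
    rw [div_eq_inv_mul]; exact this
  have hcm : c = -1 := by
    set z := 2 / c.trace with hz
    have hz2 : z * z = 1 := by
      have h := hcc
      rw [hcs] at h
      have := congrFun (congrFun h 0) 0
      simpa using this
    have : z = 1 ∨ z = -1 := by
      have : (z - 1) * (z + 1) = 0 := by linear_combination hz2
      rcases mul_eq_zero.1 this with h | h
      · left; linear_combination h
      · right; linear_combination h
    rcases this with h | h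
    · exfalso; apply e3; rw [hcs, h, one_smul]
    · rw [hcs, h]; simp
  refine ⟨I, J, hI, hJ, ?_, ?_, ?_, hgen⟩
  · rw [← sq]; exact hcm
  · rw [← sq, e4]; exact hcm
  · rw [e1, hcm]; simp [hi, hj]

/-- Elements of prime order of PSL_2(p) and the normalizer of a quaternion subgroup. Here `T = PSL_2(F)` for the field `F` with `p` elements, `p ≥ 5` prime; `R` is a subgroup of GL_2(F) isomorphic to the quaternion group of order 8 (an absolutely irreducible 2-group of symplectic type), and `H` is the subgroup of matrices of determinant 1 normalizing `R` — a subgroup of type 2^{1+2}.O₂⁻(2), isomorphic modulo scalars to A₄ or S₄ (maximality is not assumed). Ω is the set of cosets of `H` in `T`, so an element of `T` of prime order `r` (a matrix `x` of determinant 1 with `x^r` scalar, `x` not scalar) fixes a point of Ω exactly when some conjugate of `x` by a matrix of determinant 1 normalizes `R`. Let `r` be a prime dividing the index of `H`. Then every element of `T` of order `r` fixes a point of Ω if and only if `r = 2` or `r = 3`. -/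
theorem result {F : Type*} [Field F] [Fintype F] {p : ℕ} [Fact p.Prime] [CharP F p] (hF : Fintype.card F = p) (hp : 5 ≤ p)
    (R : Subgroup (GL (Fin 2) F)) (hR : Nonempty (↥R ≃* QuaternionGroup 2))
    (r : ℕ) [Fact r.Prime]
    (hΩ : r ∣ (Cfsg.Geo.subgroupNormalizer R).relIndex (Cfsg.Geo.specialLinear (Fin 2) F)) :
    (∀ x ∈ Cfsg.Geo.specialLinear (Fin 2) F, (∃ z : F, ((x ^ r : GL (Fin 2) F) : Matrix (Fin 2) (Fin 2) F) = z • (1 : Matrix (Fin 2) (Fin 2) F)) →
      (∀ z : F, (x : Matrix (Fin 2) (Fin 2) F) ≠ z • (1 : Matrix (Fin 2) (Fin 2) F)) →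
      ∃ g ∈ Cfsg.Geo.specialLinear (Fin 2) F, g⁻¹ * x * g ∈ Cfsg.Geo.subgroupNormalizer R) ↔ (r = 2 ∨ r = 3) := by
  classical
  have h2 : (2 : F) ≠ 0 := by
    intro h
    have h' : ((2 : ℕ) : F) = 0 := by exact_mod_cast h
    have := (CharP.cast_eq_zero_iff F p 2).1 h'
    have := Nat.le_of_dvd (by norm_num) this
    omega
  have h3 : (3 : F) ≠ 0 := by
    intro h
    have h' : ((3 : ℕ) : F) = 0 := by exact_mod_cast h
    have := (CharP.cast_eq_zero_iff F p 3).1 h'
    have := Nat.le_of_dvd (by norm_num) this
    omega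
  have hodd : Fintype.card F % 2 = 1 := by
    rw [hF]
    rcases (Fact.out : p.Prime).eq_two_or_odd with h | h
    · omega
    · exact h
  obtain ⟨e⟩ := hR
  obtain ⟨I, J, hI, hJ, hii, hjj, hji, hgen⟩ := mat_facts h2 R e
  set i : Matrix (Fin 2) (Fin 2) F := (I : Matrix (Fin 2) (Fin 2) F) with hi
  set j : Matrix (Fin 2) (Fin 2) F := (J : Matrix (Fin 2) (Fin 2) F) with hj
  have hns : ∀ z : F, i ≠ z • (1 : Matrix (Fin 2) (Fin 2) F) := by
    intro z hz
    have h5 : i * j = 0 := by
      have h6 : j * i = i * j := by rw [hz]; simp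
      rw [hji] at h6
      have h7 : (2 : F) • (i * j) = 0 := by
        rw [two_smul]
        nth_rewrite 1 [← h6]
        simp
      rcases smul_eq_zero.1 h7 with h | h
      · exact absurd h h2
      · exact h
    have h8 : i * i * j = 0 := by rw [Matrix.mul_assoc, h5, Matrix.mul_zero]
    rw [hii] at h8
    have h9 : j = 0 := by simpa using h8
    rw [h9] at hjj
    have := congrFun (congrFun hjj 0) 0
    simp at this
  have hnsj : ∀ z : F, j ≠ z • (1 : Matrix (Fin 2) (Fin 2) F) := by
    intro z hz
    have h5 : i * j = 0 := by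
      have h6 : j * i = i * j := by rw [hz]; simp
      rw [hji] at h6
      have h7 : (2 : F) • (i * j) = 0 := by
        rw [two_smul]
        nth_rewrite 1 [← h6]
        simp
      rcases smul_eq_zero.1 h7 with h | h
      · exact absurd h h2
      · exact h
    have h8 : i * i * j = 0 := by rw [Matrix.mul_assoc, h5, Matrix.mul_zero]
    rw [hii] at h8
    have h9 : j = 0 := by simpa using h8
    rw [h9] at hjj
    have := congrFun (congrFun hjj 0) 0
    simp at this
  -- trace and determinant of a non-scalar matrix squaring to a scalar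
  have trz : ∀ (A : Matrix (Fin 2) (Fin 2) F) (z : F), (∀ w : F, A ≠ w • (1 : Matrix (Fin 2) (Fin 2) F)) →
      A * A = z • (1 : Matrix (Fin 2) (Fin 2) F) → A.trace = 0 ∧ A.det = -z := by
    intro A z hA hz
    have hc := H99.Mat2.cayley A
    rw [hz] at hc
    have h5 : A.trace = 0 := by
      by_contra h
      apply hA ((z + A.det) / A.trace)
      have h6 : A.trace • A = (z + A.det) • (1 : Matrix (Fin 2) (Fin 2) F) := by
        rw [add_smul, hc]; simp
      have h7 : (A.trace)⁻¹ • (A.trace • A) = (A.trace)⁻¹ • ((z + A.det) • (1 : Matrix (Fin 2) (Fin 2) F)) := by rw [h6]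
      rw [smul_smul, inv_mul_cancel₀ h, one_smul, smul_smul] at h7
      rw [div_eq_inv_mul]; exact h7
    refine ⟨h5, ?_⟩
    rw [h5] at hc
    have := congrFun (congrFun hc 0) 0
    simp at this
    rw [this]; simp
  have hii' : i * i = (-1 : F) • (1 : Matrix (Fin 2) (Fin 2) F) := by rw [hii]; simp
  have hjj' : j * j = (-1 : F) • (1 : Matrix (Fin 2) (Fin 2) F) := by rw [hjj]; simp
  obtain ⟨hti, hdi⟩ := trz i (-1) hns hii'
  obtain ⟨htj, hdj⟩ := trz j (-1) hnsj hjj'
  rw [neg_neg] at hdi hdj
  -- the general conjugation tool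
  have conj : ∀ (x y : GL (Fin 2) F), (∀ z : F, (x : Matrix (Fin 2) (Fin 2) F) ≠ z • (1 : Matrix (Fin 2) (Fin 2) F)) →
      (∀ z : F, (y : Matrix (Fin 2) (Fin 2) F) ≠ z • (1 : Matrix (Fin 2) (Fin 2) F)) →
      (x : Matrix (Fin 2) (Fin 2) F).trace = (y : Matrix (Fin 2) (Fin 2) F).trace →
      (x : Matrix (Fin 2) (Fin 2) F).det = (y : Matrix (Fin 2) (Fin 2) F).det →
      (x : Matrix (Fin 2) (Fin 2) F).trace ^ 2 - 4 * (x : Matrix (Fin 2) (Fin 2) F).det ≠ 0 →
      ∃ g ∈ Cfsg.Geo.specialLinear (Fin 2) F, g⁻¹ * x * g = y := by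
    intro x y hx hy ht hd hdisc
    obtain ⟨P, hP1, hP2⟩ := H99.Mat2.exists_SL_conj hodd _ _ hx hy ht hd hdisc
    refine ⟨P, ?_, ?_⟩
    · rw [Cfsg.Geo.specialLinear, MonoidHom.mem_ker]
      apply Units.ext
      simpa using hP1
    · have : x * P = P * y := by
        apply Units.ext
        simpa using hP2
      rw [mul_assoc, this]; group
  have hRn : R ≤ Cfsg.Geo.subgroupNormalizer R := Subgroup.le_normalizer
  have h4 : (4 : F) ≠ 0 := by
    have : (4 : F) = 2 * 2 := by norm_num
    rw [this]; exact mul_ne_zero h2 h2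
  have hcardR : Nat.card R = 8 := by
    rw [Nat.card_congr e.toEquiv]
    rw [Nat.card_eq_fintype_card, QuaternionGroup.card]
  have hfinR : Finite R := by
    apply Nat.finite_of_card_ne_zero
    rw [hcardR]; norm_num
  constructor
  · intro H
    by_contra hr
    push Not at hr
    have hrp : r.Prime := Fact.out
    have hr5 : 5 ≤ r := by
      have h1 := hrp.two_le
      rcases Nat.lt_or_ge r 5 with h | h
      · interval_cases r
        · exact absurd rfl hr.1
        · exact absurd rfl hr.2
        · exact absurd hrp (by norm_num)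
      · exact h
    have hdvd : r ∣ Nat.card (Cfsg.Geo.specialLinear (Fin 2) F) :=
      hΩ.trans (Subgroup.relIndex_dvd_card _ _)
    obtain ⟨⟨x, hx⟩, hxo⟩ := exists_prime_orderOf_dvd_card' r hdvd
    have hxo' : orderOf x = r := by
      rw [← hxo]; simp
    have hxr : x ^ r = 1 := by rw [← hxo']; exact pow_orderOf_eq_one x
    have hdet : (x : Matrix (Fin 2) (Fin 2) F).det = 1 := by
      rw [Cfsg.Geo.specialLinear, MonoidHom.mem_ker] at hx
      have := congrArg Units.val hx
      simpa using this
    have hxns : ∀ z : F, (x : Matrix (Fin 2) (Fin 2) F) ≠ z • (1 : Matrix (Fin 2) (Fin 2) F) := by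
      intro z hz
      rw [hz, Matrix.det_smul, Matrix.det_one] at hdet
      have hdet' : z ^ 2 = 1 := by simpa using hdet
      have : x ^ 2 = 1 := by
        apply Units.ext
        rw [Units.val_pow_eq_pow_val, hz, smul_pow, hdet']; simp
      have := orderOf_dvd_of_pow_eq_one this
      rw [hxo'] at this
      have := Nat.le_of_dvd (by norm_num) this
      omega
    obtain ⟨g, hg, hgx⟩ := H x hx ⟨1, by rw [hxr]; simp⟩ hxns
    set y := g⁻¹ * x * g with hy
    have hyr : y ^ r = 1 := by
      have h := conj_pow (i := r) (a := g⁻¹) (b := x)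
      rw [inv_inv] at h
      rw [hy, h, hxr]; group
    have hmod := H99.NormFix.card_modEq R y hgx r hyr
    rw [hcardR] at hmod
    set C := R ⊓ Subgroup.centralizer {y} with hC
    have hCd : Nat.card C ∣ 8 := by
      rw [← hcardR]
      exact Subgroup.card_dvd_of_le inf_le_left
    have hI2 : (I ^ 2 : GL (Fin 2) F) ∈ C := by
      refine Subgroup.mem_inf.2 ⟨R.pow_mem hI 2, ?_⟩
      rw [Subgroup.mem_centralizer_iff]
      intro h hh
      rw [Set.mem_singleton_iff] at hh
      subst hh
      have hI2m : I ^ 2 = -1 := by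
        apply Units.ext
        rw [Units.val_pow_eq_pow_val, sq, ← hi, hii]
        simp
      rw [hI2m]
      simp
    have hC1 : Nat.card C ≠ 1 := by
      intro h
      rw [Subgroup.card_eq_one] at h
      rw [h, Subgroup.mem_bot] at hI2
      have := congrArg (fun g : GL (Fin 2) F => (g : Matrix (Fin 2) (Fin 2) F)) hI2
      simp only [Units.val_pow_eq_pow_val, Units.val_one] at this
      rw [sq, ← hi, hii] at this
      have := congrFun (congrFun this 0) 0
      simp at this
      apply h2
      linear_combination -this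
    have hC8 : Nat.card C = 8 := by
      have hle : Nat.card C ≤ 8 := Nat.le_of_dvd (by norm_num) hCd
      have hd := (Nat.modEq_iff_dvd' hle).1 hmod.symm
      interval_cases hh : Nat.card C
      · omega
      · omega
      · have := (Nat.Prime.dvd_mul hrp (m := 2) (n := 3)).1 hd
        rcases this with h | h
        · have := Nat.le_of_dvd (by norm_num) h; omega
        · have := Nat.le_of_dvd (by norm_num) h; omega
      · omega
      · have := Nat.le_of_dvd (by norm_num) hd; omega
      · omega
      · omega
      · omega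
      · rfl
    have hCR : C = R := by
      apply Subgroup.eq_of_le_of_card_ge inf_le_left
      rw [hC8, hcardR]
    have hcI : y * I = I * y := by
      have : I ∈ C := by rw [hCR]; exact hI
      have := (Subgroup.mem_inf.1 this).2
      rw [Subgroup.mem_centralizer_iff] at this
      exact this y rfl
    have hcJ : y * J = J * y := by
      have : J ∈ C := by rw [hCR]; exact hJ
      have := (Subgroup.mem_inf.1 this).2
      rw [Subgroup.mem_centralizer_iff] at this
      exact this y rfl
    have hcI' : i * (y : Matrix (Fin 2) (Fin 2) F) = (y : Matrix (Fin 2) (Fin 2) F) * i := by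
      have := congrArg (fun g : GL (Fin 2) F => (g : Matrix (Fin 2) (Fin 2) F)) hcI
      simp only [Units.val_mul] at this
      exact this.symm
    have hcJ' : j * (y : Matrix (Fin 2) (Fin 2) F) = (y : Matrix (Fin 2) (Fin 2) F) * j := by
      have := congrArg (fun g : GL (Fin 2) F => (g : Matrix (Fin 2) (Fin 2) F)) hcJ
      simp only [Units.val_mul] at this
      exact this.symm
    obtain ⟨a, b, hab⟩ := H99.Mat2.comm_nonscalar i _ hns hcI'
    have hb : b = 0 := by
      rw [hab, Matrix.mul_add, Matrix.add_mul, Matrix.mul_smul, Matrix.mul_smul, Matrix.smul_mul, Matrix.smul_mul,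
        Matrix.mul_one, Matrix.one_mul, hji] at hcJ'
      have h5 : b • (i * j) = - (b • (i * j)) := by
        have := add_left_cancel hcJ'
        rw [smul_neg] at this
        exact this.symm
      have h6 : (2 * b) • (i * j) = 0 := by
        rw [mul_smul, two_smul]
        nth_rewrite 1 [h5]
        simp
      rcases smul_eq_zero.1 h6 with h | h
      · rcases mul_eq_zero.1 h with h | h
        · exact absurd h h2
        · exact h
      · exfalso
        have h8 : i * i * j = 0 := by rw [Matrix.mul_assoc, h, Matrix.mul_zero]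
        rw [hii] at h8
        have h9 : j = 0 := by simpa using h8
        rw [h9] at hjj
        have := congrFun (congrFun hjj 0) 0
        simp at this
    rw [hb, zero_smul, add_zero] at hab
    apply hxns a
    have : x = g * y * g⁻¹ := by rw [hy]; group
    rw [this, Units.val_mul, Units.val_mul, hab]
    simp
  · rintro hr x hx ⟨z, hz⟩ hxns
    have hdet : (x : Matrix (Fin 2) (Fin 2) F).det = 1 := by
      rw [Cfsg.Geo.specialLinear, MonoidHom.mem_ker] at hx
      have := congrArg Units.val hx
      simpa using this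
    rcases hr with hr | hr
    · subst hr
      rw [Units.val_pow_eq_pow_val, sq] at hz
      obtain ⟨ht, hd⟩ := trz _ z hxns hz
      obtain ⟨g, hg, hgx⟩ := conj x I hxns hns (by rw [ht, ← hi, hti]) (by rw [hdet, ← hi, hdi])
        (by rw [ht, hdet]; simpa using h4)
      exact ⟨g, hg, by rw [hgx]; exact hRn hI⟩
    · subst hr
      set X : Matrix (Fin 2) (Fin 2) F := (x : Matrix (Fin 2) (Fin 2) F) with hX
      set t := X.trace with ht
      have hXX : X * X = t • X - (1 : Matrix (Fin 2) (Fin 2) F) := by
        have := H99.Mat2.cayley X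
        rw [hdet, one_smul] at this
        exact this
      have hX3 : (t ^ 2 - 1) • X = (z + t) • (1 : Matrix (Fin 2) (Fin 2) F) := by
        rw [Units.val_pow_eq_pow_val, ← hX, pow_succ, sq, hXX, Matrix.sub_mul, Matrix.smul_mul, hXX, Matrix.one_mul] at hz
        rw [add_smul, ← hz, sub_smul, sq, mul_smul, smul_sub, one_smul]
        abel
      have ht2 : t ^ 2 = 1 := by
        by_contra h
        have h5 : t ^ 2 - 1 ≠ 0 := sub_ne_zero.2 h
        apply hxns ((z + t) / (t ^ 2 - 1))
        have h7 : (t ^ 2 - 1)⁻¹ • ((t ^ 2 - 1) • X) = (t ^ 2 - 1)⁻¹ • ((z + t) • (1 : Matrix (Fin 2) (Fin 2) F)) := by rw [hX3]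
        rw [smul_smul, inv_mul_cancel₀ h5, one_smul, smul_smul] at h7
        rw [div_eq_inv_mul]; exact h7
      set k := i * j with hk
      have hjk : j * i = -k := hji
      set S : Matrix (Fin 2) (Fin 2) F := 1 + i + j + k with hS
      have hki : k * i = j := by
        rw [hk, Matrix.mul_assoc, hji, Matrix.mul_neg, ← Matrix.mul_assoc, hii]; simp
      have hkj : k * j = -i := by
        rw [hk, Matrix.mul_assoc, hjj]; simp
      have hjk' : j * k = i := by
        rw [hk, ← Matrix.mul_assoc, hji, Matrix.neg_mul, Matrix.mul_assoc, hjj]; simp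
      have hik : i * k = -j := by
        rw [hk, ← Matrix.mul_assoc, hii]; simp
      have hkk : k * k = -1 := by
        nth_rewrite 1 [hk]
        rw [Matrix.mul_assoc, hjk', hii]
      have hSi : S * i = j * S := by
        rw [hS]
        simp only [Matrix.add_mul, Matrix.mul_add, Matrix.one_mul, Matrix.mul_one, hii, hji, hki, hjj, hjk', ← hk]
        abel
      have hSj : S * j = (i * j) * S := by
        rw [hS, ← hk]
        simp only [Matrix.add_mul, Matrix.mul_add, Matrix.one_mul, Matrix.mul_one, hii, hji, hki, hjj, hjk', hkj, hkk, ← hk]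
        abel
      have hSS : S * S = (2 : F) • S - (4 : F) • (1 : Matrix (Fin 2) (Fin 2) F) := by
        have h22 : (2 : F) • S = S + S := two_smul _ _
        have h44 : (4 : F) • (1 : Matrix (Fin 2) (Fin 2) F) = 1 + 1 + 1 + 1 := by
          have : (4 : F) = 1 + 1 + 1 + 1 := by norm_num
          rw [this]; simp only [add_smul, one_smul]
        rw [h22, h44, hS]
        simp only [Matrix.add_mul, Matrix.mul_add, Matrix.one_mul, Matrix.mul_one, hii, hji, hki, hjj, hjk', hkj, hkk, hik, ← hk]
        abel
      have htrk : k.trace = 0 := by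
        have h5 : k.trace = - k.trace := by
          conv_lhs => rw [hk, Matrix.trace_mul_comm, hji, Matrix.trace_neg]
        have : 2 * k.trace = 0 := by linear_combination h5
        rcases mul_eq_zero.1 this with h | h
        · exact absurd h h2
        · exact h
      have htrS : S.trace = 2 := by
        rw [hS, Matrix.trace_add, Matrix.trace_add, Matrix.trace_add, hti, htj, htrk, Matrix.trace_one]
        simp
      have hdS : S.det = 4 := by
        have := H99.Mat2.cayley S
        rw [htrS, hSS] at this
        have h5 := sub_right_injective this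
        have := congrFun (congrFun h5 0) 0
        simp at this
        exact this.symm
      have hSns : ∀ z : F, S ≠ z • (1 : Matrix (Fin 2) (Fin 2) F) := by
        intro w hw
        rw [hw] at hSi
        rw [Matrix.smul_mul, Matrix.one_mul, Matrix.mul_smul, Matrix.mul_one] at hSi
        have hw0 : w ≠ 0 := by
          intro h
          rw [h] at hw
          rw [hw] at htrS
          simp at htrS
          exact h2 htrS.symm
        have hij : i = j := smul_right_injective _ hw0 hSi
        have h5 : i * i = - (i * i) := by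
          have h55 := hji
          rw [hk, ← hij] at h55
          exact h55
        rw [hii] at h5
        have := congrFun (congrFun h5 0) 0
        simp at this
        apply h2
        linear_combination -this
      set hm : Matrix (Fin 2) (Fin 2) F := (t / 2) • S with hhm
      have ht0 : t ≠ 0 := by
        intro h; rw [h] at ht2; simp at ht2
      have htrh : hm.trace = t := by
        rw [hhm, Matrix.trace_smul, htrS, smul_eq_mul]; field_simp
      have hdh : hm.det = 1 := by
        rw [hhm, Matrix.det_smul, hdS]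
        simp
        field_simp
        rw [ht2]; norm_num
      have hmns : ∀ z : F, hm ≠ z • (1 : Matrix (Fin 2) (Fin 2) F) := by
        intro w hw
        have ht02 : t / 2 ≠ 0 := div_ne_zero ht0 h2
        apply hSns ((t / 2)⁻¹ * w)
        rw [mul_smul, ← hw, hhm, smul_smul, inv_mul_cancel₀ ht02, one_smul]
      let h : GL (Fin 2) F := Matrix.GeneralLinearGroup.mkOfDetNeZero hm (by rw [hdh]; exact one_ne_zero)
      have hh : (h : Matrix (Fin 2) (Fin 2) F) = hm := rfl
      obtain ⟨g, hg, hgx⟩ := conj x h hxns (by rw [hh]; exact hmns) (by rw [hh, htrh]) (by rw [hh, hdh, hdet])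
        (by
          rw [← hX, ← ht, hdet, ht2]
          intro h5
          apply h3
          linear_combination -h5)
      refine ⟨g, hg, ?_⟩
      rw [hgx]
      have c1 : h * I * h⁻¹ = J := by
        rw [mul_inv_eq_iff_eq_mul]
        apply Units.ext
        rw [Units.val_mul, Units.val_mul, hh, ← hi, ← hj, hhm, Matrix.smul_mul, Matrix.mul_smul, hSi]
      have c2 : h * J * h⁻¹ = I * J := by
        rw [mul_inv_eq_iff_eq_mul]
        apply Units.ext
        rw [Units.val_mul, Units.val_mul, Units.val_mul, hh, ← hi, ← hj, hhm, Matrix.smul_mul, Matrix.mul_smul, hSj]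
      show h ∈ Subgroup.normalizer (R : Set (GL (Fin 2) F))
      apply Subgroup.mem_normalizer_fintype
      intro n hn
      obtain ⟨k, hk⟩ := hgen n hn
      have c3 : ∀ k : ℕ, h * I ^ k * h⁻¹ = J ^ k := by
        intro k
        rw [← c1, conj_pow]
      rcases hk with hk | hk
      · rw [hk, c3]; exact R.pow_mem hJ k
      · have : h * (J * I ^ k) * h⁻¹ = (h * J * h⁻¹) * (h * I ^ k * h⁻¹) := by group
        rw [hk, this, c2, c3]
        exact R.mul_mem (R.mul_mem hI hJ) (R.pow_mem hJ k)

end Cfsg.Agent.S5997
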