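import Cfsg.Statements.S5998
import Cfsg.Agent.Lib.H99.Ext27
import Cfsg.Agent.Lib.H99.Elts

set_option autoImplicit false
set_option linter.unusedSimpArgs false
open scoped MatrixGroups
open Cfsg

namespace Cfsg.Agent.S5998


open Matrix H99.Ext27 in
theorem amb {F : Type*} [Field F] : Amb (⊤ : Subgroup (GL (Fin 3) F)) (Set.univ) where
  t2U := fun _ _ => Subgroup.mem_top _
  diagU := fun _ _ _ _ => Subgroup.mem_top _
  cubes := fun _ _ => ⟨Set.mem_univ _, Set.mem_univ _⟩
  star := by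
    intro x _ D _ Q hQ hx
    obtain ⟨R', hR', hxR'⟩ := H99.Eig.det_one_of_diag (by norm_num) (x : Matrix (Fin 3) (Fin 3) F) Q D hQ hx Q _ hQ hx
    obtain ⟨g, hg⟩ := exists_unit R' (by rw [hR']; exact one_ne_zero)
    refine ⟨g, ⟨Subgroup.mem_top _, ?_⟩, ?_⟩
    · apply Units.ext
      show (g : Matrix (Fin 3) (Fin 3) F).det = 1
      rw [hg, hR']
    · rw [mul_assoc, Units.val_mul, Units.val_mul, hg, hxR', ← hg, ← Matrix.mul_assoc, ← Units.val_mul, inv_mul_cancel]
      rw [Units.val_one, Matrix.one_mul]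

/-- Elements of prime order of PSL_3(p), p ≡ 1 (mod 3), and the normalizer of an extraspecial subgroup of order 27. Here `T = PSL_3(F)` for the field `F` with `p` elements, `p` a prime with `p ≡ 1 (mod 3)`; `R` is a non-abelian subgroup of GL_3(F) of order 27 and exponent 3 (an extraspecial group 3^{1+2}, acting absolutely irreducibly), and `H` is the subgroup of matrices of determinant 1 normalizing `R` — a subgroup of type 3^{1+2}.Sp₂(3) (maximality is not assumed). Ω is the set of cosets of `H` in `T`, so an element of `T` of prime order `r` (a matrix `x` of determinant 1 with `x^r` scalar, `x` not scalar) fixes a point of Ω exactly when some conjugate of `x` by a matrix of determinant 1 normalizes `R`. Let `r` be a prime dividing the index of `H`. Then every element of `T` of order `r` fixes a point of Ω if and only if `r = 2`, or `r = 3` and `p ≡ 1 (mod 9)`. -/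
theorem result {F : Type*} [Field F] [Fintype F] {p : ℕ} [Fact p.Prime] [CharP F p] (hF : Fintype.card F = p) (hp3 : p % 3 = 1)
    (R : Subgroup (GL (Fin 3) F)) (hR : Nat.card R = 27) (hRe : Monoid.exponent R = 3) (hRna : ¬ IsMulCommutative R)
    (r : ℕ) [Fact r.Prime]
    (hΩ : r ∣ (Cfsg.Geo.subgroupNormalizer R).relIndex (Cfsg.Geo.specialLinear (Fin 3) F)) :
    (∀ x ∈ Cfsg.Geo.specialLinear (Fin 3) F, (∃ z : F, ((x ^ r : GL (Fin 3) F) : Matrix (Fin 3) (Fin 3) F) = z • (1 : Matrix (Fin 3) (Fin 3) F)) →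
      (∀ z : F, (x : Matrix (Fin 3) (Fin 3) F) ≠ z • (1 : Matrix (Fin 3) (Fin 3) F)) →
      ∃ g ∈ Cfsg.Geo.specialLinear (Fin 3) F, g⁻¹ * x * g ∈ Cfsg.Geo.subgroupNormalizer R) ↔ (r = 2 ∨ (r = 3 ∧ p % 9 = 1)) := by
  have hp7 : 2 < p := by
    have := (Fact.out : p.Prime).two_le
    omega
  have h2F : (2 : F) ≠ 0 := by
    intro h
    have h' : ((2 : ℕ) : F) = 0 := by exact_mod_cast h
    rw [CharP.cast_eq_zero_iff F p] at h'
    have := Nat.le_of_dvd (by norm_num) h'
    omega
  have hp1 : 3 ∣ Fintype.card F - 1 := by rw [hF]; omega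
  obtain ⟨ω, hω⟩ := H99.Elts.exists_root (F := F) 3 (by norm_num) hp1
  obtain ⟨l, a, b, z, P, hS, -, -, -⟩ := H99.Ext27.exists_std hω R hR hRe hRna
  have hr : r.Prime := Fact.out
  constructor
  · intro H
    by_contra hcon
    push Not at hcon
    obtain ⟨hr2, hr3⟩ := hcon
    by_cases h3 : r = 3
    · subst h3
      have h9 := hr3 rfl
      have h81 := H99.Ext27.dvd_of_index R (Cfsg.Geo.subgroupNormalizer R) (Cfsg.Geo.specialLinear (Fin 3) F)
        Subgroup.le_normalizer (fun x hx => hS.det x hx) hR hΩ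
      have hc := H99.Ext27.card_sl (F := F)
      rw [Matrix.card_GL_field, Fin.prod_univ_three, hF] at hc
      have hc' : (Nat.card (Cfsg.Geo.specialLinear (Fin 3) F) : ℤ) * ((p : ℤ) - 1) =
          ((p : ℤ) ^ 3 - 1) * ((p : ℤ) ^ 3 - p) * ((p : ℤ) ^ 3 - p ^ 2) := by
        have e1 : (((p - 1 : ℕ)) : ℤ) = (p : ℤ) - 1 := by
          rw [Nat.cast_sub (by omega)]; simp
        have e2 : (((p ^ 3 - p ^ 0 : ℕ)) : ℤ) = (p : ℤ) ^ 3 - 1 := by
          rw [Nat.cast_sub (Nat.pow_le_pow_right (by omega) (by omega))]; simp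
        have e3 : (((p ^ 3 - p ^ 1 : ℕ)) : ℤ) = (p : ℤ) ^ 3 - p := by
          rw [Nat.cast_sub (Nat.pow_le_pow_right (by omega) (by omega))]; simp
        have e4 : (((p ^ 3 - p ^ 2 : ℕ)) : ℤ) = (p : ℤ) ^ 3 - p ^ 2 := by
          rw [Nat.cast_sub (Nat.pow_le_pow_right (by omega) (by omega))]; simp
        rw [← e1, ← e2, ← e3, ← e4]
        exact_mod_cast hc
      exact H99.Ext27.not_dvd_int (p : ℤ) _ (by omega) (by omega) hc' (by exact_mod_cast h81)
    · have h5 : 5 ≤ r := by
        have := hr.two_le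
        by_contra h
        have : r = 4 := by omega
        subst this
        exact absurd hr (by norm_num)
      exact hS.neg hR _ le_rfl h5 hΩ H
  · rintro (rfl | ⟨rfl, h9⟩)
    · intro x hx ⟨ζ, hζ⟩ hns
      obtain ⟨g, hg, hgN⟩ := hS.two h2F amb (fun _ _ => Subgroup.mem_top _) x ⟨Subgroup.mem_top _, hx⟩ ζ hζ hns
      exact ⟨g, hg.2, hgN⟩
    · intro x hx ⟨ζ, hζ⟩ hns
      have hdx : (x : Matrix (Fin 3) (Fin 3) F).det = 1 := congrArg Units.val hx
      have hζ3 : ζ ^ 3 = 1 := by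
        have := congrArg Matrix.det hζ
        rw [Units.val_pow_eq_pow_val, Matrix.det_pow, hdx, Matrix.det_smul, Matrix.det_one, one_pow, mul_one, Fintype.card_fin] at this
        exact this.symm
      have hζ0 : ζ ≠ 0 := by intro h0; rw [h0] at hζ3; norm_num at hζ3
      obtain ⟨η, hη⟩ := H99.Elts.exists_root (F := F) 9 (by norm_num) (by rw [hF]; omega)
      have hη3 : IsPrimitiveRoot (η ^ 3) 3 := hη.pow (by norm_num) (by norm_num)
      obtain ⟨i, hi, hηi⟩ := hη3.eq_pow_of_pow_eq_one hζ3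
      set w := η ^ i with hw
      have hw3 : w ^ 3 = ζ := by rw [hw, ← hηi, ← pow_mul, ← pow_mul, mul_comm]
      have hw0 : w ≠ 0 := by intro h0; rw [h0] at hw3; apply hζ0; rw [← hw3]; norm_num
      have h3F : ((3 : ℕ) : F) ≠ 0 := by
        intro h
        rw [CharP.cast_eq_zero_iff F p] at h
        have := (Nat.prime_dvd_prime_iff_eq Fact.out Nat.prime_three).1 h
        omega
      have hT : (Matrix.toLin' (w⁻¹ • (x : Matrix (Fin 3) (Fin 3) F))) ^ 3 = 1 := by
        rw [← Matrix.toLin'_pow, _root_.smul_pow]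
        have : (x : Matrix (Fin 3) (Fin 3) F) ^ 3 = ζ • 1 := hζ
        rw [this, smul_smul, ← hw3, ← mul_pow, inv_mul_cancel₀ hw0, one_pow, one_smul, Matrix.toLin'_one]; rfl
      obtain ⟨B, lx, hB⟩ := H99.Eig.exists_eig (n := 3) (by norm_num) hω h3F (by simp) _ hT
      obtain ⟨Q, hQ, hxQ⟩ := H99.Eig.diag_of_basis (x : Matrix (Fin 3) (Fin 3) F) B (fun i => w * ω ^ (lx i : ℕ)) (by
        intro i
        have := hB i
        rw [map_smul, LinearMap.smul_apply] at this
        have h4 : w • (w⁻¹ • (Matrix.toLin' (x : Matrix (Fin 3) (Fin 3) F)) (B i)) = w • (ω ^ (lx i : ℕ) • B i) := by rw [this]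
        rw [smul_smul, mul_inv_cancel₀ hw0, one_smul, smul_smul] at h4
        exact h4)
      obtain ⟨g, hg, hgN⟩ := hS.three amb (fun _ _ => Subgroup.mem_top _) x (Subgroup.mem_top _) ζ hζ0 _ (fun _ => Set.mem_univ _)
        (by
          intro i
          rw [mul_pow, hw3, ← pow_mul, mul_comm _ 3, pow_mul, hω.pow_eq_one, one_pow, mul_one]) Q hQ hxQ
      exact ⟨g, hg.2, hgN⟩

end Cfsg.Agent.S5998
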