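import Cfsg.Statements.S5999
import Cfsg.Agent.Lib.H99.Ext27
import Cfsg.Agent.Lib.H99.Elts
import Cfsg.Agent.Lib.H49.Unitary
import Cfsg.Agent.Lib.H7.UnitSU
import Cfsg.Agent.Lib.H7.QuadExt

set_option autoImplicit false
set_option linter.unusedSimpArgs false
open scoped MatrixGroups
open Cfsg

namespace Cfsg.Agent.S5999


open Matrix H49.Unitary H99.Ext27 in
theorem mem_gu_diag {F : Type*} [Field F] [Finite F] {q : ℕ} (hK : Nat.card F = q ^ 2) {n : ℕ} (t : GL (Fin n) F) (D : Fin n → F)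
    (hD : ∀ i, D i ^ (q + 1) = 1) (ht : (t : Matrix (Fin n) (Fin n) F) = Matrix.diagonal D) : t ∈ Cfsg.GU n F q := by
  rw [mem_GU hK, ht]
  ext i j
  rw [Matrix.mul_diagonal, ct_apply, Matrix.diagonal_apply]
  by_cases h : i = j
  · subst h
    rw [if_pos rfl, Matrix.one_apply_eq, ← pow_succ, hD]
  · rw [if_neg (Ne.symm h), Matrix.one_apply_ne h, ← frob_apply hK, map_zero, zero_mul]

open Matrix H49.Unitary H99.Ext27 in
theorem amb {F : Type*} [Field F] [Finite F] {q : ℕ} (hK : Nat.card F = q ^ 2) (hq3 : 3 ∣ q + 1) (hqo : Odd q) :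
    Amb (Cfsg.GU 3 F q) {d : F | d ^ (q + 1) = 1} where
  t2U := by
    intro t ht
    rw [mem_GU hK, ht]
    have h1 : frob hK (-1) = -1 := by rw [map_neg, map_one]
    have e : ct hK (t2 : Matrix (Fin 3) (Fin 3) F) = t2 := by
      ext i j
      rw [ct_apply, ← frob_apply hK]
      fin_cases i <;> fin_cases j <;> simp [t2]
    rw [e, t2_sq]
  diagU := fun t D hD ht => mem_gu_diag hK t D hD ht
  cubes := by
    intro w hw
    obtain ⟨k, hk⟩ := hq3
    have h1 : w ^ (q + 1) = 1 := by rw [hk, pow_mul, hw, one_pow]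
    refine ⟨h1, ?_⟩
    show (-w) ^ (q + 1) = 1
    rw [Even.neg_pow hqo.add_one, h1]
  star := by
    intro x hx D hD Q hQ hxQ
    have hD0 : ∀ i, D i ≠ 0 := by
      intro i h0
      have := hD i
      rw [Set.mem_ofPred_eq, h0, zero_pow (by omega)] at this
      exact zero_ne_one this
    obtain ⟨d, hd⟩ := exists_unit (Matrix.diagonal D) (by
      rw [Matrix.det_diagonal]; exact Finset.prod_ne_zero_iff.2 (fun i _ => hD0 i))
    have hdU := mem_gu_diag hK d D hD hd
    obtain ⟨Q', hQ'⟩ := exists_unit Q hQ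
    obtain ⟨y, hy⟩ := exists_conj_GU hK ⟨d, hdU⟩ ⟨x, hx⟩ Q' (by
      apply Units.ext
      rw [Units.val_mul, Units.val_mul, hQ', hd]
      exact hxQ.symm)
    have hy' : (y : GL (Fin 3) F) * d = x * y := congrArg Subtype.val hy
    have hyU := y.2
    set v : F := ((y : GL (Fin 3) F) : Matrix (Fin 3) (Fin 3) F).det with hv
    have hvn : v ^ (q + 1) = 1 := by
      have h1 := (mem_GU hK _).1 hyU
      have hct : ∀ M : Matrix (Fin 3) (Fin 3) F, (ct hK M).det = M.det ^ q := by
        intro M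
        rw [ct, Matrix.det_transpose, ← RingHom.mapMatrix_apply, ← RingHom.map_det, frob_apply]
      have := congrArg Matrix.det h1
      rw [Matrix.det_mul, hct, Matrix.det_one, ← hv, ← pow_succ] at this
      exact this
    have hv0 : v ≠ 0 := by
      intro h0
      rw [h0, zero_pow (by omega)] at hvn
      exact zero_ne_one hvn
    let E : Fin 3 → F := ![v⁻¹, 1, 1]
    have hE : ∀ i, E i ^ (q + 1) = 1 := by
      intro i
      fin_cases i
      · show (v⁻¹) ^ (q + 1) = 1
        rw [inv_pow, hvn, inv_one]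
      · exact one_pow _
      · exact one_pow _
    have hEd : (Matrix.diagonal E).det = v⁻¹ := by
      rw [Matrix.det_diagonal, Fin.prod_univ_three]
      show v⁻¹ * 1 * 1 = v⁻¹
      ring
    obtain ⟨e, he⟩ := exists_unit (Matrix.diagonal E) (by rw [hEd]; exact inv_ne_zero hv0)
    have heU := mem_gu_diag hK e E hE he
    have hed : e⁻¹ * d * e = d := by
      have : d * e = e * d := by
        apply Units.ext
        rw [Units.val_mul, Units.val_mul, hd, he, Matrix.diagonal_mul_diagonal, Matrix.diagonal_mul_diagonal]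
        congr 1
        funext i
        exact mul_comm _ _
      rw [mul_assoc, this, ← mul_assoc, inv_mul_cancel, one_mul]
    refine ⟨(y : GL (Fin 3) F) * e, ⟨Subgroup.mul_mem _ hyU heU, ?_⟩, ?_⟩
    · apply Units.ext
      show (((y : GL (Fin 3) F) * e : GL (Fin 3) F) : Matrix (Fin 3) (Fin 3) F).det = 1
      rw [Units.val_mul, Matrix.det_mul, he, hEd, ← hv, mul_inv_cancel₀ hv0]
    · have : ((y : GL (Fin 3) F) * e)⁻¹ * x * ((y : GL (Fin 3) F) * e) = d := by
        have e1 : ((y : GL (Fin 3) F) * e)⁻¹ * x * ((y : GL (Fin 3) F) * e) = e⁻¹ * ((y : GL (Fin 3) F)⁻¹ * (x * y)) * e := by group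
        rw [e1, ← hy', inv_mul_cancel_left, hed]
      rw [this, hd]

open Matrix H49.Unitary H99.Ext27 in
/-- the standard basis can be chosen orthonormal -/
theorem exists_unitary {F : Type*} [Field F] [Finite F] {q : ℕ} (hK : Nat.card F = q ^ 2) (hq3 : 3 ∣ q + 1)
    {R : Subgroup (GL (Fin 3) F)} (hRU : R ≤ Cfsg.GU 3 F q) {l : F} {a b z : GL (Fin 3) F} {P : Matrix (Fin 3) (Fin 3) F}
    (h : Std R l a b z P) : ∃ P', Std R l a b z P' ∧ ∀ p : GL (Fin 3) F, (p : Matrix (Fin 3) (Fin 3) F) = P' → p ∈ Cfsg.GU 3 F q := by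
  have hlq : l ^ q * l = 1 := by
    rw [← pow_succ]
    obtain ⟨k, hk⟩ := hq3
    rw [hk, pow_mul, h.hl.pow_eq_one, one_pow]
  have haU := (mem_GU hK _).1 (hRU h.ha)
  have hbU := (mem_GU hK _).1 (hRU h.hb)
  have hu : IsUnit P := (Matrix.isUnit_iff_isUnit_det _).2 (isUnit_iff_ne_zero.2 h.hP)
  set G := ct hK P * P with hG
  have key : ∀ (g : GL (Fin 3) F) (M : Matrix (Fin 3) (Fin 3) F), ct hK (g : Matrix (Fin 3) (Fin 3) F) * g = 1 →
      (g : Matrix (Fin 3) (Fin 3) F) * P = P * M → M * ct hK M = 1 → G * M = M * G := by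
    intro g M hg hgP hM
    have h1 : ct hK M * G * M = G := by
      calc ct hK M * G * M = ct hK (P * M) * (P * M) := by
            rw [hG, ct_mul]; simp only [Matrix.mul_assoc]
        _ = ct hK ((g : Matrix (Fin 3) (Fin 3) F) * P) * ((g : Matrix (Fin 3) (Fin 3) F) * P) := by rw [hgP]
        _ = ct hK P * (ct hK (g : Matrix (Fin 3) (Fin 3) F) * g) * P := by rw [ct_mul]; simp only [Matrix.mul_assoc]
        _ = G := by rw [hg, Matrix.mul_one]
    calc G * M = (M * ct hK M) * (G * M) := by rw [hM, Matrix.one_mul]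
      _ = M * (ct hK M * G * M) := by simp only [Matrix.mul_assoc]
      _ = M * G := by rw [h1]
  have c1 := key a _ haU h.haP (by
    rw [dg]
    ext i j
    rw [Matrix.diagonal_mul, ct_apply, Matrix.diagonal_apply]
    by_cases hij : i = j
    · subst hij
      rw [if_pos rfl, Matrix.one_apply_eq]
      fin_cases i
      · show (1 : F) * 1 ^ q = 1; rw [one_pow, one_mul]
      · show l * l ^ q = 1; rw [mul_comm, hlq]
      · show l ^ 2 * (l ^ 2) ^ q = 1
        rw [← pow_mul, mul_comm 2 q, pow_mul, ← mul_pow, mul_comm l, hlq, one_pow]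
    · rw [if_neg (Ne.symm hij), Matrix.one_apply_ne hij, ← frob_apply hK, map_zero, mul_zero])
  have c2 := key b _ hbU h.hbP (by
    ext i j
    rw [Matrix.mul_apply, Fin.sum_univ_three]
    simp only [ct_apply, ← frob_apply hK]
    fin_cases i <;> fin_cases j <;> simp [cyc])
  have hGs := scalar_of_comm_std h.hl G c1 c2
  set c := G 0 0 with hc
  have hctG : ct hK G = G := by rw [hG, ct_mul, ct_ct]
  have hcq : c ^ q = c := by
    have := congrFun (congrFun hctG 0) 0
    rw [ct_apply] at this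
    exact this
  have : Fintype F := Fintype.ofFinite F
  have hKf : Fintype.card F = q ^ 2 := by rw [← Nat.card_eq_fintype_card]; exact hK
  obtain ⟨y, hy⟩ := H7.QuadExt.exists_norm_eq hKf hcq
  have hc0 : c ≠ 0 := by
    intro h0
    rw [h0, zero_smul] at hGs
    have h1 := congrArg Matrix.det hGs
    have hct : (ct hK P).det = P.det ^ q := by
      rw [ct, Matrix.det_transpose, ← RingHom.mapMatrix_apply, ← RingHom.map_det, frob_apply]
    rw [hG, Matrix.det_mul, hct, Matrix.det_zero] at h1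
    exact mul_ne_zero (pow_ne_zero _ h.hP) h.hP h1
  have hy0 : y ≠ 0 := by
    intro h0
    rw [h0, zero_pow (by omega)] at hy
    exact hc0 hy.symm
  have hPdet : (y⁻¹ • P).det ≠ 0 := by
    rw [Matrix.det_smul]
    exact mul_ne_zero (pow_ne_zero _ (inv_ne_zero hy0)) h.hP
  refine ⟨y⁻¹ • P, ⟨h.hl, h.fin, h.ha, h.hb, h.hz, h.hcl, hPdet, ?_, ?_, h.hzl⟩, ?_⟩
  · rw [Matrix.mul_smul, h.haP, Matrix.smul_mul]
  · rw [Matrix.mul_smul, h.hbP, Matrix.smul_mul]
  · intro p hp
    rw [mem_GU hK, hp, ct_smul, Matrix.smul_mul, Matrix.mul_smul, smul_smul, ← hG, hGs, smul_smul, frob_apply]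
    have : (y⁻¹) ^ q * y⁻¹ * c = 1 := by
      rw [← pow_succ, inv_pow, hy, inv_mul_cancel₀ hc0]
    rw [this, one_smul]

open Matrix H7.UnitSU in
theorem card_su {F : Type*} [Field F] [Fintype F] {q : ℕ} : Nat.card (Cfsg.GU 3 F q ⊓ Cfsg.Geo.specialLinear (Fin 3) F : Subgroup (GL (Fin 3) F)) =
    Nat.card (Cfsg.SU 3 F q) := by
  refine Nat.card_congr
      { toFun := fun g => ⟨⟨((g : GL (Fin 3) F) : Matrix (Fin 3) (Fin 3) F), by
          have := (Subgroup.mem_inf.1 g.2).2
          exact congrArg Units.val this⟩, fun u v => (Subgroup.mem_inf.1 g.2).1 u v⟩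
        invFun := fun g => ⟨Matrix.SpecialLinearGroup.toGL (g : Matrix.SpecialLinearGroup (Fin 3) F), Subgroup.mem_inf.2 ⟨fun u v => g.2 u v, by
          show _ ∈ (Matrix.GeneralLinearGroup.det : GL (Fin 3) F →* Fˣ).ker
          rw [MonoidHom.mem_ker]
          apply Units.ext
          change ((g : Matrix.SpecialLinearGroup (Fin 3) F) : Matrix (Fin 3) (Fin 3) F).det = 1
          exact (g : Matrix.SpecialLinearGroup (Fin 3) F).2⟩⟩
        left_inv := fun g => by
          apply Subtype.ext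
          apply Units.ext
          rfl
        right_inv := fun g => by
          apply Subtype.ext
          apply Subtype.ext
          rfl }

/-- Elements of prime order of PSU_3(p), p ≡ 2 (mod 3), and the normalizer of an extraspecial subgroup of order 27. Here `T = PSU_3(p)` for a prime `p ≥ 5` with `p ≡ 2 (mod 3)`, realised through `SU_3(p)`, the matrices of determinant 1 over the field `F` with `p²` elements preserving the hermitian form `Σ uᵢvᵢ^p`; `R` is a non-abelian subgroup of order 27 and exponent 3 of the full unitary group of that form (an extraspecial group 3^{1+2}, acting absolutely irreducibly), and `H` is the subgroup of `SU_3(p)` normalizing `R` — a subgroup of type 3^{1+2}.Sp₂(3) (maximality is not assumed). Ω is the set of cosets of `H`, so an element of `T` of prime order `r` (`x ∈ SU_3(p)` with `x^r` scalar, `x` not scalar) fixes a point of Ω exactly when some `SU_3(p)`-conjugate of `x` normalizes `R`. Let `r` be a prime dividing the index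 of `H`. Then every element of `T` of order `r` fixes a point of Ω if and only if `r = 2`, or `r = 3` and `p ≡ 8 (mod 9)`. -/
theorem result {F : Type*} [Field F] [Fintype F] {p : ℕ} [Fact p.Prime] [CharP F p] (hF : Fintype.card F = p ^ 2) (hp : 5 ≤ p) (hp3 : p % 3 = 2)
    (R : Subgroup (GL (Fin 3) F)) (hRU : R ≤ Cfsg.GU 3 F p) (hR : Nat.card R = 27) (hRe : Monoid.exponent R = 3) (hRna : ¬ IsMulCommutative R)
    (r : ℕ) [Fact r.Prime]
    (hΩ : r ∣ (Cfsg.Geo.subgroupNormalizer R).relIndex (Cfsg.GU 3 F p ⊓ Cfsg.Geo.specialLinear (Fin 3) F)) :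
    (∀ x ∈ Cfsg.GU 3 F p ⊓ Cfsg.Geo.specialLinear (Fin 3) F, (∃ z : F, ((x ^ r : GL (Fin 3) F) : Matrix (Fin 3) (Fin 3) F) = z • (1 : Matrix (Fin 3) (Fin 3) F)) →
      (∀ z : F, (x : Matrix (Fin 3) (Fin 3) F) ≠ z • (1 : Matrix (Fin 3) (Fin 3) F)) →
      ∃ g ∈ Cfsg.GU 3 F p ⊓ Cfsg.Geo.specialLinear (Fin 3) F, g⁻¹ * x * g ∈ Cfsg.Geo.subgroupNormalizer R) ↔ (r = 2 ∨ (r = 3 ∧ p % 9 = 8)) := by
  have hK : Nat.card F = p ^ 2 := by rw [Nat.card_eq_fintype_card]; exact hF
  have hpp : p.Prime := Fact.out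
  have hpo : Odd p := hpp.odd_of_ne_two (by omega)
  have h2F : (2 : F) ≠ 0 := by
    intro h
    have h' : ((2 : ℕ) : F) = 0 := by exact_mod_cast h
    rw [CharP.cast_eq_zero_iff F p] at h'
    have := Nat.le_of_dvd (by norm_num) h'
    omega
  have hq1 : p ^ 2 - 1 = (p - 1) * (p + 1) := by
    obtain ⟨k, rfl⟩ : ∃ k, p = k + 1 := ⟨p - 1, by omega⟩
    simp
    rw [pow_two]
    have : (k + 1) * (k + 1) = k * (k + 1 + 1) + 1 := by ring
    omega
  have hp3' : 3 ∣ p + 1 := by omega
  have hp1 : 3 ∣ Fintype.card F - 1 := by rw [hF, hq1]; exact Dvd.dvd.mul_left hp3' _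
  obtain ⟨ω, hω⟩ := H99.Elts.exists_root (F := F) 3 (by norm_num) hp1
  obtain ⟨l, a, b, z, P₀, hS₀, -, -, -⟩ := H99.Ext27.exists_std hω R hR hRe hRna
  obtain ⟨P, hS, hPU⟩ := exists_unitary hK hp3' hRU hS₀
  have hA := amb hK hp3' hpo
  have hr : r.Prime := Fact.out
  constructor
  · intro H
    by_contra hcon
    push Not at hcon
    obtain ⟨hr2, hr3⟩ := hcon
    by_cases h3 : r = 3
    · subst h3
      have h9 := hr3 rfl
      have h81 := H99.Ext27.dvd_of_index R (Cfsg.Geo.subgroupNormalizer R) (Cfsg.GU 3 F p ⊓ Cfsg.Geo.specialLinear (Fin 3) F)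
        Subgroup.le_normalizer (le_inf hRU (fun x hx => hS.det x hx)) hR hΩ
      rw [card_su] at h81
      have hc := H7.UnitSU.card_SU hF 3 (by norm_num)
      rw [Finset.prod_range_succ, Finset.prod_range_succ, Finset.prod_range_one] at hc
      rw [if_pos (by decide), if_neg (by decide), if_pos (by decide)] at hc
      have e3 : 3 * (3 - 1) / 2 = 3 := by norm_num
      rw [e3] at hc
      have hc' : (Nat.card (Cfsg.SU 3 F p) : ℤ) * ((p : ℤ) + 1) =
          (p : ℤ) ^ 3 * (((p : ℤ) + 1) * ((p : ℤ) ^ 2 - 1) * ((p : ℤ) ^ 3 + 1)) := by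
        have e1 : (((p ^ 2 - 1 : ℕ)) : ℤ) = (p : ℤ) ^ 2 - 1 := by
          rw [Nat.cast_sub (Nat.one_le_pow _ _ (by omega))]; simp
        rw [← e1]
        have hc2 : Nat.card (Cfsg.SU 3 F p) * (p + 1) = p ^ 3 * ((p + 1) * (p ^ 2 - 1) * (p ^ 3 + 1)) := by
          rw [mul_comm, hc]; norm_num
        exact_mod_cast hc2
      exact H99.Ext27.not_dvd_int' (p : ℤ) _ (by omega) (by omega) hc' (by exact_mod_cast h81)
    · have h5 : 5 ≤ r := by
        have := hr.two_le
        by_contra h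
        have : r = 4 := by omega
        subst this
        exact absurd hr (by norm_num)
      exact hS.neg hR _ inf_le_right h5 hΩ H
  · rintro (rfl | ⟨rfl, h9⟩)
    · intro x hx ⟨ζ, hζ⟩ hns
      exact hS.two h2F hA hPU x hx ζ hζ hns
    · intro x hx ⟨ζ, hζ⟩ hns
      have hdx : (x : Matrix (Fin 3) (Fin 3) F).det = 1 := congrArg Units.val hx.2
      have hζ3 : ζ ^ 3 = 1 := by
        have := congrArg Matrix.det hζ
        rw [Units.val_pow_eq_pow_val, Matrix.det_pow, hdx, Matrix.det_smul, Matrix.det_one, one_pow, mul_one, Fintype.card_fin] at this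
        exact this.symm
      have hζ0 : ζ ≠ 0 := by intro h0; rw [h0] at hζ3; norm_num at hζ3
      have h9' : 9 ∣ p + 1 := by omega
      obtain ⟨η, hη⟩ := H99.Elts.exists_root (F := F) 9 (by norm_num) (by rw [hF, hq1]; exact Dvd.dvd.mul_left h9' _)
      have hη3 : IsPrimitiveRoot (η ^ 3) 3 := hη.pow (by norm_num) (by norm_num)
      obtain ⟨i, hi, hηi⟩ := hη3.eq_pow_of_pow_eq_one hζ3
      set w := η ^ i with hw
      have hw3 : w ^ 3 = ζ := by rw [hw, ← hηi, ← pow_mul, ← pow_mul, mul_comm]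
      have hw0 : w ≠ 0 := by intro h0; rw [h0] at hw3; apply hζ0; rw [← hw3]; norm_num
      have h3F : ((3 : ℕ) : F) ≠ 0 := by
        intro h
        rw [CharP.cast_eq_zero_iff F p] at h
        have := (Nat.prime_dvd_prime_iff_eq Fact.out Nat.prime_three).1 h
        omega
      have hT : (Matrix.toLin' (w⁻¹ • (x : Matrix (Fin 3) (Fin 3) F))) ^ 3 = 1 := by
        rw [← Matrix.toLin'_pow, _root_.smul_pow]
        have : (x : Matrix (Fin 3) (Fin 3) F) ^ 3 = ζ • 1 := hζ
        rw [this, smul_smul, ← hw3, ← mul_pow, inv_mul_cancel₀ hw0, one_pow, one_smul, Matrix.toLin'_one]; rfl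
      obtain ⟨B, lx, hB⟩ := H99.Eig.exists_eig (n := 3) (by norm_num) hω h3F (by simp) _ hT
      obtain ⟨Q, hQ, hxQ⟩ := H99.Eig.diag_of_basis (x : Matrix (Fin 3) (Fin 3) F) B (fun i => w * ω ^ (lx i : ℕ)) (by
        intro i
        have := hB i
        rw [map_smul, LinearMap.smul_apply] at this
        have h4 : w • (w⁻¹ • (Matrix.toLin' (x : Matrix (Fin 3) (Fin 3) F)) (B i)) = w • (ω ^ (lx i : ℕ) • B i) := by rw [this]
        rw [smul_smul, mul_inv_cancel₀ hw0, one_smul, smul_smul] at h4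
        exact h4)
      refine hS.three hA hPU x hx.1 ζ hζ0 _ ?_ ?_ Q hQ hxQ
      · intro i
        show (w * ω ^ (lx i : ℕ)) ^ (p + 1) = 1
        obtain ⟨k, hk⟩ := h9'
        rw [mul_pow, hw, ← pow_mul, hk, mul_comm _ (9 * k), mul_assoc, pow_mul, hη.pow_eq_one, one_pow, one_mul, ← pow_mul,
          mul_comm _ (9 * k), show 9 * k * (lx i : ℕ) = 3 * (3 * k * (lx i : ℕ)) by ring, pow_mul, hω.pow_eq_one, one_pow]
      · intro i
        rw [mul_pow, hw3, ← pow_mul, mul_comm _ 3, pow_mul, hω.pow_eq_one, one_pow, mul_one]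

end Cfsg.Agent.S5999
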