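import Cfsg.Statements.S6000
import Cfsg.Agent.Lib.H99.ST5
import Cfsg.Agent.Lib.H99.PrimeConj
import Cfsg.Agent.Lib.H99.Lin4
import Cfsg.Agent.Lib.H99.SL4

set_option autoImplicit false
set_option linter.unusedSimpArgs false
open scoped MatrixGroups
open Cfsg

namespace Cfsg.Agent.S6000


universe u

theorem zmod5 : ∀ t : ZMod 5, t ≠ 0 → t ^ 4 = 1 := by decide
theorem zmod5b : ∀ t : ZMod 5, t ≠ 0 → t ^ 2 ≠ 1 → t ≠ 1 := by decide
theorem ord0 : orderOf (0 : ZMod 5) = 0 := by
  rw [orderOf_eq_zero_iff']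
  intro n hn
  rw [zero_pow hn.ne']
  decide

theorem exists_root {G : Type*} [CommGroup G] [Finite G] {n : ℕ} (h : (Nat.card G).Coprime n) (z : G) : ∃ v : G, v ^ n = z :=
  ⟨(powCoprime h).symm z, (powCoprime h).apply_symm_apply z⟩

theorem eq_one_of_pow {G : Type*} [CommGroup G] [Finite G] {n : ℕ} (h : (Nat.card G).Coprime n) {z : G} (hz : z ^ n = 1) : z = 1 := by
  have h1 : orderOf z ∣ Nat.card G := orderOf_dvd_natCard z
  have h2 : orderOf z ∣ n := orderOf_dvd_of_pow_eq_one hz
  have h3 := Nat.dvd_gcd h1 h2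
  rw [h] at h3
  exact orderOf_eq_one_iff.1 (Nat.dvd_one.1 h3)

open Matrix Module H99.ST Cfsg.Geo H96.AschSympType1 H99.SL4 in
theorem core {F : Type u} [Field F] [Fintype F] {p : ℕ} [Fact p.Prime] [CharP F p] (hF : Fintype.card F = p) (hp4 : p % 4 = 1)
    (R : Subgroup (GL (Fin 4) F)) (hRs : Cfsg.Geo.IsSymplecticTypeGroup 2 R) (hRi : Cfsg.Geo.ActsAbsolutelyIrreducibly (Cfsg.Geo.matrixSet R))
    (hR6 : Nat.card R = 2 ^ 6)
    (r : ℕ) [Fact r.Prime]
    (hΩ : r ∣ (Cfsg.Geo.subgroupNormalizer R).relIndex (Cfsg.Geo.specialLinear (Fin 4) F)) :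
    (∀ x ∈ Cfsg.Geo.specialLinear (Fin 4) F, (∃ z : F, ((x ^ r : GL (Fin 4) F) : Matrix (Fin 4) (Fin 4) F) = z • (1 : Matrix (Fin 4) (Fin 4) F)) →
      (∀ z : F, (x : Matrix (Fin 4) (Fin 4) F) ≠ z • (1 : Matrix (Fin 4) (Fin 4) F)) →
      ∃ g ∈ Cfsg.Geo.specialLinear (Fin 4) F, g⁻¹ * x * g ∈ Cfsg.Geo.subgroupNormalizer R) ↔ (r = 2 ∨ (r = 3 ∧ p % 3 = 2) ∨ (r = 5 ∧ orderOf (p : ZMod 5) = 4)) := by
  classical
  have hp := (Fact.out : p.Prime)
  have hr := (Fact.out : r.Prime)
  have hp2 : p ≠ 2 := by rintro rfl; omega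
  have hp3 : p ≠ 3 := by rintro rfl; omega
  have hFp : ∀ n : ℕ, ((n : ℕ) : F) = 0 ↔ p ∣ n := fun n => CharP.cast_eq_zero_iff F p n
  have h2 : (2 : F) ≠ 0 := by
    intro h
    have : ((2 : ℕ) : F) = 0 := by exact_mod_cast h
    rw [hFp] at this
    exact hp2 ((Nat.prime_dvd_prime_iff_eq hp Nat.prime_two).1 this)
  have h3 : (3 : F) ≠ 0 := by
    intro h
    have : ((3 : ℕ) : F) = 0 := by exact_mod_cast h
    rw [hFp] at this
    exact hp3 ((Nat.prime_dvd_prime_iff_eq hp Nat.prime_three).1 this)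
  have hfinM : Finite (Matrix (Fin 4) (Fin 4) F) := by unfold Matrix; infer_instance
  have hfinG : Finite (GL (Fin 4) F) := inferInstance
  have hcardU : Nat.card Fˣ = p - 1 := by rw [Nat.card_eq_fintype_card, Fintype.card_units, hF]
  have D : Dat R := H99.ST.mk hRs hRi h2 (by simp)
  have hmem : ∀ {x : GL (Fin 4) F}, x ∈ scalars (Fin 4) F ↔ ∃ c : F, (x : Matrix (Fin 4) (Fin 4) F) = c • (1 : Matrix (Fin 4) (Fin 4) F) :=
    fun {x} => H99.ST.mem_scalars_iff
  -- scalars normalize
  have hscN : ∀ s ∈ scalars (Fin 4) F, s ∈ Cfsg.Geo.subgroupNormalizer R := by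
    intro s hs
    apply Subgroup.mem_normalizer_iff.2
    intro h
    rw [scalars_comm hs h, mul_inv_cancel_right]
  have hRN : ∀ y ∈ R, y ∈ Cfsg.Geo.subgroupNormalizer R := fun y hy => Subgroup.le_normalizer hy
  -- a scalar of order four
  obtain ⟨i₀, hi₀R, hi₀s, hi₀2⟩ : ∃ z ∈ R, z ∈ scalars (Fin 4) F ∧ z * z = -1 := by
    by_contra hcon
    push Not at hcon
    have h1 := D.card_R
    rw [hR6] at h1
    have h4 : Nat.card ((scalars (Fin 4) F).subgroupOf R) = 4 := by omega
    have h5 : ∀ s : (scalars (Fin 4) F).subgroupOf R, ((s : R) : GL (Fin 4) F) = 1 ∨ ((s : R) : GL (Fin 4) F) = -1 := by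
      intro s
      have hsR := (s : R).2
      have hss : ((s : R) : GL (Fin 4) F) ∈ scalars (Fin 4) F := s.2
      have h6 := hcon _ hsR hss
      have h7 := (D.sq' hsR).resolve_right h6
      obtain ⟨c, hc⟩ := hmem.1 hss
      have h8 : c * c = 1 := by
        have := congrArg Units.val h7
        rw [Units.val_mul, hc, Matrix.smul_mul, Matrix.mul_smul, one_mul, smul_smul, Units.val_one] at this
        have := congrFun (congrFun this 0) 0
        simpa using this
      rcases mul_self_eq_one_iff.1 h8 with rfl | rfl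
      · left; exact Units.ext (by rw [hc, one_smul, Units.val_one])
      · right; exact Units.ext (by rw [hc, neg_smul, one_smul, Units.val_neg, Units.val_one])
    let φ : (scalars (Fin 4) F).subgroupOf R → Bool := fun s => decide (((s : R) : GL (Fin 4) F) = 1)
    have hφ : Function.Injective φ := by
      intro s t hst
      apply Subtype.ext
      apply Subtype.ext
      rcases h5 s with hs | hs <;> rcases h5 t with ht | ht
      · rw [hs, ht]
      · exfalso
        have : φ s = true := decide_eq_true hs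
        rw [hst] at this
        have h9 : ((t : R) : GL (Fin 4) F) = 1 := of_decide_eq_true this
        rw [ht] at h9
        exact D.ne_neg 1 h9.symm
      · exfalso
        have : φ t = true := decide_eq_true ht
        rw [← hst] at this
        have h9 : ((s : R) : GL (Fin 4) F) = 1 := of_decide_eq_true this
        rw [hs] at h9
        exact D.ne_neg 1 h9.symm
      · rw [hs, ht]
    have := Nat.card_le_card_of_injective φ hφ
    rw [h4] at this
    simp at this
  constructor
  · -- only if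
    intro hall
    by_cases hr2 : r = 2
    · exact Or.inl hr2
    right
    have hrodd : Odd r := hr.odd_of_ne_two hr2
    have key : ∀ x ∈ Cfsg.Geo.specialLinear (Fin 4) F, x ^ r = 1 → (∀ z : F, (x : Matrix (Fin 4) (Fin 4) F) ≠ z • (1 : Matrix (Fin 4) (Fin 4) F)) →
        ∃ g y : GL (Fin 4) F, y = g⁻¹ * x * g ∧ y ∈ Cfsg.Geo.subgroupNormalizer R ∧ y ^ r = 1 ∧ y ∉ scalars (Fin 4) F := by
      intro x hx hxr hxs
      obtain ⟨g, hg, hN⟩ := hall x hx ⟨1, by rw [hxr, Units.val_one, one_smul]⟩ hxs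
      refine ⟨g, _, rfl, hN, ?_, ?_⟩
      · have := conj_pow (i := r) (a := g⁻¹) (b := x)
        rw [inv_inv] at this
        rw [this, hxr]; simp
      · intro hs
        have h1 : g⁻¹ * x * g = x := by
          have h3 : g * (g⁻¹ * x * g) = x * g := by group
          exact mul_right_cancel ((scalars_comm hs g).trans h3)
        rw [h1] at hs
        obtain ⟨z, hz⟩ := hmem.1 hs
        exact hxs z hz
    by_cases hrp : r = p
    · exfalso
      obtain ⟨x, hx, hxp, hxs, hrk⟩ := exists_trans4 (F := F) (p := p)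
      obtain ⟨g, y, hy, hN, hyr, hys⟩ := key x hx (by rw [hrp]; exact hxp) hxs
      apply hys
      apply D.trans hN hrodd hyr
      rw [hy]
      exact (H99.Skew.rank_conj_le x g).trans hrk
    have hrq : ¬ r ∣ Fintype.card F := by
      rw [hF]
      intro h
      exact hrp ((Nat.prime_dvd_prime_iff_eq hr hp).1 h)
    have hr0 : ((r : ℕ) : F) ≠ 0 := by
      rw [Ne, hFp]
      intro h
      exact hrp ((Nat.prime_dvd_prime_iff_eq hp hr).1 h).symm
    by_cases hr5 : r = 5
    · right
      refine ⟨hr5, ?_⟩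
      by_contra hord
      subst hr5
      have hp5 : (p : ZMod 5) ≠ 0 := by
        rw [Ne, ZMod.natCast_eq_zero_iff]
        rw [hF] at hrq; exact hrq
      have h4 : (p : ZMod 5) ^ 4 = 1 := zmod5 _ hp5
      have hp2' : (p : ZMod 5) ^ 2 = 1 := by
        have h5 : orderOf (p : ZMod 5) ∣ 4 := orderOf_dvd_of_pow_eq_one h4
        have h6 : orderOf (p : ZMod 5) ∣ 2 := by
          have h7 : orderOf (p : ZMod 5) ≤ 4 := Nat.le_of_dvd (by norm_num) h5
          revert h5 hord h7
          generalize orderOf (p : ZMod 5) = k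
          intro h5 h7 h8
          interval_cases k <;> simp_all
        exact orderOf_dvd_iff_pow_eq_one.1 h6
      have hdvd : 5 ∣ Fintype.card F ^ 2 - 1 := by
        rw [hF, ← ZMod.natCast_eq_zero_iff, Nat.cast_sub (Nat.one_le_pow _ _ hp.pos)]
        push_cast
        rw [hp2', sub_self]
      obtain ⟨w, hw, hw1⟩ := H99.BlockW.exists_w hr hrq hdvd
      obtain ⟨x, hx, hxr, hxs, -, ht1, ht2⟩ := exists_block4 hw hw1
      obtain ⟨g, y, hy, hN, hyr, hys⟩ := key x hx hxr hxs
      have hy' : y⁻¹ = g⁻¹ * x⁻¹ * g := by rw [hy]; group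
      have e1 : (y : Matrix (Fin 4) (Fin 4) F).trace = (w : Matrix (Fin 2) (Fin 2) F).trace + 2 := by
        rw [hy, H99.SL4.trace_conj, ht1]
      have e2 : ((y⁻¹ : GL (Fin 4) F) : Matrix (Fin 4) (Fin 4) F).trace = (w : Matrix (Fin 2) (Fin 2) F).trace + 2 := by
        rw [hy', H99.SL4.trace_conj, ht2]
      have hwm : (w : Matrix (Fin 2) (Fin 2) F) ^ 5 = 1 := by
        rw [← Matrix.SpecialLinearGroup.coe_pow, hw, Matrix.SpecialLinearGroup.coe_one]
      have hwm1 : (w : Matrix (Fin 2) (Fin 2) F) ≠ 1 := fun h => hw1 (Subtype.ext h)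
      have hτ := H99.BlockW.tr_five w.2 hwm hwm1
      rcases D.main hN (by norm_num) hyr with h | ⟨h, -⟩ | ⟨-, h, -⟩
      · exact hys h
      · rw [e1, e2] at h
        set τ := (w : Matrix (Fin 2) (Fin 2) F).trace
        apply hr0
        push_cast
        linear_combination (3 * τ - 1) * h - (3 * τ - 1) * hτ - 9 * hτ
      · omega
    by_cases hr3 : r = 3
    · left
      refine ⟨hr3, ?_⟩
      by_contra hp32
      subst hr3
      have hp31 : 3 ∣ p - 1 := by
        have h4 : p % 3 ≠ 0 := by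
          intro h
          have h5 : 3 ∣ p := Nat.dvd_of_mod_eq_zero h
          rw [hF] at hrq
          exact hrq h5
        have := hp.two_le
        omega
      have h5 : 3 ∣ Nat.card Fˣ := by rw [hcardU]; exact hp31
      obtain ⟨ω, hω⟩ := exists_prime_orderOf_dvd_card' 3 h5
      have hω3 : (ω : F) ^ 3 = 1 := by
        have := pow_orderOf_eq_one ω
        rw [hω] at this
        rw [← Units.val_pow_eq_pow_val, this, Units.val_one]
      have hω1 : (ω : F) ≠ 1 := by
        intro h
        have : ω = 1 := Units.ext h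
        rw [this, orderOf_one] at hω
        omega
      obtain ⟨x, hx, hxr, hxs, -, htr⟩ := exists_diag hω3 hω1
      obtain ⟨g, y, hy, hN, hyr, hys⟩ := key x hx hxr hxs
      have hy' : y⁻¹ = g⁻¹ * x⁻¹ * g := by rw [hy]; group
      have e1 : (y : Matrix (Fin 4) (Fin 4) F).trace * ((y⁻¹ : GL (Fin 4) F) : Matrix (Fin 4) (Fin 4) F).trace = 7 := by
        rw [hy', hy, H99.SL4.trace_conj, H99.SL4.trace_conj]; exact htr
      rcases D.main hN (by norm_num) hyr with h | ⟨h, -, -⟩ | ⟨h, -, -⟩
      · exact hys h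
      · rw [e1] at h
        have : (2 : F) * 3 = 0 := by linear_combination h
        rcases mul_eq_zero.1 this with h | h
        · exact h2 h
        · exact h3 h
      · rw [e1] at h
        apply h3
        linear_combination h
    · -- r ≥ 7
      exfalso
      have hdvd : r ∣ Nat.card (Cfsg.Geo.specialLinear (Fin 4) F) := hΩ.trans (Subgroup.relIndex_dvd_card _ _)
      obtain ⟨x, hx⟩ := exists_prime_orderOf_dvd_card' r hdvd
      have hxr : (x : GL (Fin 4) F) ^ r = 1 := by
        have h1 := pow_orderOf_eq_one x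
        rw [hx] at h1
        exact congrArg Subtype.val h1
      have hx1 : (x : GL (Fin 4) F) ≠ 1 := by
        intro h
        have h1 : x = 1 := Subtype.ext h
        rw [h1, orderOf_one] at hx
        exact hr.one_lt.ne hx
      have hxs : ∀ z : F, ((x : GL (Fin 4) F) : Matrix (Fin 4) (Fin 4) F) ≠ z • (1 : Matrix (Fin 4) (Fin 4) F) := by
        intro z hz
        apply hx1
        have h4 : z ^ 4 = 1 := by
          have := mem_sl.1 x.2
          rw [hz, Matrix.det_smul, Matrix.det_one, Fintype.card_fin, mul_one] at this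
          exact this
        have h5 : z ^ r = 1 := by
          have := congrArg Units.val hxr
          rw [Units.val_pow_eq_pow_val, hz, _root_.smul_pow, one_pow, Units.val_one] at this
          have := congrFun (congrFun this 0) 0
          simpa using this
        have h6 : z = 1 := by
          have h7 : orderOf z ∣ 4 := orderOf_dvd_of_pow_eq_one h4
          have h8 : orderOf z ∣ r := orderOf_dvd_of_pow_eq_one h5
          have h9 : Nat.Coprime 4 r := by
            have : Nat.Coprime (2 ^ 2) r := Nat.Coprime.pow_left 2 ((Nat.coprime_two_left).2 hrodd)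
            exact this
          have := Nat.dvd_gcd h7 h8
          rw [h9] at this
          exact orderOf_eq_one_iff.1 (Nat.dvd_one.1 this)
        apply Units.ext
        rw [hz, h6, one_smul, Units.val_one]
      obtain ⟨g, y, hy, hN, hyr, hys⟩ := key x x.2 hxr hxs
      rcases D.main hN hr2 hyr with h | ⟨-, h, -⟩ | ⟨-, h, -⟩
      · exact hys h
      · rcases h with h | h
        · exact hr3 h
        · exact hr5 h
      · exact hr3 h
  · -- if
    have transfer : ∀ x y s : GL (Fin 4) F, s ∈ scalars (Fin 4) F → y ∈ Cfsg.Geo.subgroupNormalizer R →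
        ∀ P : Matrix (Fin 4) (Fin 4) F, P.det = 1 → ((s * x : GL (Fin 4) F) : Matrix (Fin 4) (Fin 4) F) * P = P * y →
        ∃ g ∈ Cfsg.Geo.specialLinear (Fin 4) F, g⁻¹ * x * g ∈ Cfsg.Geo.subgroupNormalizer R := by
      intro x y s hs hy P hP h
      obtain ⟨g, hg, hgy⟩ := conj_of_P hP h
      refine ⟨g, hg, ?_⟩
      have h1 : g⁻¹ * x * g = s⁻¹ * y := by
        rw [← hgy, ← mul_assoc g⁻¹ s x, ← scalars_comm hs]
        group
      rw [h1]
      exact Subgroup.mul_mem _ (Subgroup.inv_mem _ (hscN s hs)) hy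
    -- root extraction
    have hroot : ∀ n : ℕ, (Nat.card Fˣ).Coprime n → ∀ x : GL (Fin 4) F, x ^ n ∈ scalars (Fin 4) F →
        ∃ s ∈ scalars (Fin 4) F, (s * x) ^ n = 1 := by
      intro n hn x hx
      obtain ⟨c, hc⟩ := mem_scalars_sc.1 hx
      obtain ⟨v, hv⟩ := exists_root hn c⁻¹
      refine ⟨sc (Fin 4) v, mem_scalars_sc.2 ⟨v, rfl⟩, ?_⟩
      have hcm : Commute (sc (Fin 4) v) x := scalars_comm (mem_scalars_sc.2 ⟨v, rfl⟩) x
      rw [hcm.mul_pow, ← map_pow, hv, ← hc, ← map_mul, inv_mul_cancel, map_one]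
    have hdet1 : ∀ n : ℕ, (Nat.card Fˣ).Coprime n → ∀ y : GL (Fin 4) F, y ^ n = 1 → y ∈ Cfsg.Geo.specialLinear (Fin 4) F := by
      intro n hn y hy
      unfold Cfsg.Geo.specialLinear
      rw [MonoidHom.mem_ker]
      apply eq_one_of_pow hn
      rw [← map_pow, hy, map_one]
    rintro (rfl | ⟨rfl, hp32⟩ | ⟨rfl, hord⟩)
    · -- r = 2
      intro x hx ⟨z, hz⟩ hxs
      have hx2 : (x : Matrix (Fin 4) (Fin 4) F) * x = z • (1 : Matrix (Fin 4) (Fin 4) F) := by
        rw [← hz, pow_two, Units.val_mul]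
      have hdet := mem_sl.1 hx
      have hz0 : z ≠ 0 := by
        rintro rfl
        have := congrArg Matrix.det hx2
        rw [Matrix.det_mul, hdet, zero_smul, Matrix.det_zero] at this
        simp at this
      obtain ⟨s, m, μ, k1, k2, k3, k4, -⟩ := H99.Lin4.types h2 hz0 hx2 hxs
      have hns : ∀ u v : GL (Fin 4) F, u * v = -(v * u) → ∀ z : F, (u : Matrix (Fin 4) (Fin 4) F) ≠ z • (1 : Matrix (Fin 4) (Fin 4) F) := by
        intro u v huv z hz
        exact D.not_scalar_of_anti huv (hmem.2 ⟨z, hz⟩)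
      rcases k4 with ⟨rfl, rfl, k5⟩ | ⟨rfl, rfl, k5⟩
      · -- z = ± 1
        have hzz : z * z = 1 := by rw [hdet] at k5; rw [k5]; ring
        have key2 : ∀ u v : GL (Fin 4) F, u ∈ R → u * v = -(v * u) → (u : Matrix (Fin 4) (Fin 4) F) * u = z • (1 : Matrix (Fin 4) (Fin 4) F) →
            ∃ g ∈ Cfsg.Geo.specialLinear (Fin 4) F, g⁻¹ * x * g ∈ Cfsg.Geo.subgroupNormalizer R := by
          intro u v huR huv hu2
          have hus := hns u v huv
          have htru : (u : Matrix (Fin 4) (Fin 4) F).trace = 0 := D.tr_zero huR (D.not_scalar_of_anti huv)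
          obtain ⟨s', m', μ', l1, l2, l3, l4, -⟩ := H99.Lin4.types h2 hz0 hu2 hus
          have hdetu : (u : Matrix (Fin 4) (Fin 4) F).det = 1 := by
            rcases l4 with ⟨rfl, rfl, l5⟩ | ⟨rfl, rfl, l5⟩
            · rw [l5, pow_two, hzz]
            · exfalso
              rw [htru] at l3
              push_cast at l3
              have h6 : μ' = 0 := (mul_eq_zero.1 l3.symm).resolve_left h2
              apply hz0
              rw [← l2 (by norm_num), h6]; ring
          obtain ⟨P, hP, hxP⟩ := H99.Lin4.conj_sq h2 hz0 hx2 hu2 hxs hus (by rw [k3, htru]; simp) (by rw [hdet, hdetu])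
          exact transfer x u 1 (Subgroup.one_mem _) (hRN u huR) P hP (by rw [one_mul]; exact hxP)
        rcases mul_self_eq_one_iff.1 hzz with rfl | rfl
        · obtain ⟨a, b, c, d, f, haa, hbb, hcc, hdd⟩ := D.full_frame_gen hi₀R hi₀s hi₀2 1 1 (-1) (-1) (Or.inl rfl) (Or.inl rfl) (Or.inr rfl) (Or.inr rfl)
          exact key2 a b f.ha f.ab (by rw [← Units.val_mul, haa, Units.val_one, one_smul])
        · obtain ⟨a, b, c, d, f, haa, hbb, hcc, hdd⟩ := D.full_frame_gen hi₀R hi₀s hi₀2 1 1 (-1) (-1) (Or.inl rfl) (Or.inl rfl) (Or.inr rfl) (Or.inr rfl)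
          exact key2 c d f.hc f.cd (by rw [← Units.val_mul, hcc, Units.val_neg, Units.val_one, neg_smul, one_smul])
      · -- the reflection class
        have hμ2 : μ ^ 2 = z := k2 (by norm_num)
        have hμ0 : μ ≠ 0 := by rintro rfl; apply hz0; rw [← hμ2]; ring
        obtain ⟨a, b, c, d, f, haa, hbb, hcc, hdd⟩ := D.full_frame_gen hi₀R hi₀s hi₀2 1 1 1 1 (Or.inl rfl) (Or.inl rfl) (Or.inl rfl) (Or.inl rfl)
        obtain ⟨w, hwN, hww, hwt, -⟩ := D.exists_refl f haa hcc
        have hww' : (w : Matrix (Fin 4) (Fin 4) F) * w = 1 := congrArg Units.val hww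
        have hws : ∀ c : F, (w : Matrix (Fin 4) (Fin 4) F) ≠ c • (1 : Matrix (Fin 4) (Fin 4) F) := by
          intro c hc
          rw [hc] at hww' hwt
          have e1 : c * c = 1 := by
            rw [Matrix.smul_mul, Matrix.mul_smul, one_mul, smul_smul] at hww'
            have := congrFun (congrFun hww' 0) 0
            simpa using this
          have e2 : c * 4 = 2 := by
            rw [Matrix.trace_smul, Matrix.trace_one, Fintype.card_fin, smul_eq_mul] at hwt
            push_cast at hwt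
            exact hwt
          have e3 : (2 : F) * (2 * 3) = 0 := by linear_combination (c * 4 + 2) * e2 - 16 * e1
          rcases mul_eq_zero.1 e3 with h | h
          · exact h2 h
          · rcases mul_eq_zero.1 h with h | h
            · exact h2 h
            · exact h3 h
        let S : GL (Fin 4) F := sc (Fin 4) (Units.mk0 μ hμ0)
        have hSs : S ∈ scalars (Fin 4) F := mem_scalars_sc.2 ⟨_, rfl⟩
        have hSv : (S : Matrix (Fin 4) (Fin 4) F) = μ • 1 := sc_val _
        set y := S * w with hy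
        have hyv : (y : Matrix (Fin 4) (Fin 4) F) = μ • (w : Matrix (Fin 4) (Fin 4) F) := by
          rw [hy, Units.val_mul, hSv, Matrix.smul_mul, one_mul]
        have hy2 : (y : Matrix (Fin 4) (Fin 4) F) * y = z • (1 : Matrix (Fin 4) (Fin 4) F) := by
          rw [hyv, Matrix.smul_mul, Matrix.mul_smul, hww', smul_smul, ← hμ2, pow_two]
        have hys : ∀ c : F, (y : Matrix (Fin 4) (Fin 4) F) ≠ c • (1 : Matrix (Fin 4) (Fin 4) F) := by
          intro c hc
          apply hws (μ⁻¹ * c)
          rw [← smul_smul, ← hc, hyv, smul_smul, inv_mul_cancel₀ hμ0, one_smul]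
        have hyt : (y : Matrix (Fin 4) (Fin 4) F).trace = μ * 2 := by
          rw [hyv, Matrix.trace_smul, hwt, smul_eq_mul]
        obtain ⟨s', m', μ', l1, l2, l3, l4, -⟩ := H99.Lin4.types h2 hz0 hy2 hys
        have hdety : (y : Matrix (Fin 4) (Fin 4) F).det = -z ^ 2 := by
          rcases l4 with ⟨rfl, rfl, l5⟩ | ⟨rfl, rfl, l5⟩
          · exfalso
            rw [hyt] at l3
            push_cast at l3
            rw [zero_mul] at l3
            rcases mul_eq_zero.1 l3 with h | h
            · exact hμ0 h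
            · exact h2 h
          · exact l5
        obtain ⟨P, hP, hxP⟩ := H99.Lin4.conj_sq h2 hz0 hx2 hy2 hxs hys (by rw [k3, hyt]; push_cast; ring) (by rw [k5, hdety])
        exact transfer x y 1 (Subgroup.one_mem _) (Subgroup.mul_mem _ (hscN S hSs) hwN) P hP (by rw [one_mul]; exact hxP)
    · -- r = 3
      have hcop : (Nat.card Fˣ).Coprime 3 := by
        rw [hcardU, Nat.coprime_comm, Nat.Prime.coprime_iff_not_dvd Nat.prime_three]
        have := hp.two_le
        omega
      have hω : ∀ t : F, t ^ 2 + t + 1 ≠ 0 := by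
        intro t ht
        have ht0 : t ≠ 0 := by rintro rfl; simp at ht
        have ht3 : t ^ 3 = 1 := by linear_combination (t - 1) * ht
        have h1 : Units.mk0 t ht0 = 1 := eq_one_of_pow hcop (Units.ext (by simpa using ht3))
        have h4 : t = 1 := congrArg Units.val h1
        rw [h4] at ht
        apply h3
        linear_combination ht
      intro x hx ⟨z, hz⟩ hxs
      obtain ⟨s, hs, hsx⟩ := hroot 3 hcop x (hmem.2 ⟨z, hz⟩)
      obtain ⟨a, b, c, d, f, haa, hbb, hcc, hdd⟩ := D.full_frame_gen hi₀R hi₀s hi₀2 (-1) (-1) (-1) (-1) (Or.inr rfl) (Or.inr rfl) (Or.inr rfl) (Or.inr rfl)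
      set x' := s * x with hx'
      have hx'3 : (x' : Matrix (Fin 4) (Fin 4) F) ^ 3 = 1 := congrArg Units.val hsx
      have hx's : ∀ c : F, (x' : Matrix (Fin 4) (Fin 4) F) ≠ c • (1 : Matrix (Fin 4) (Fin 4) F) := by
        intro c hc
        have h1 : x' ∈ scalars (Fin 4) F := hmem.2 ⟨c, hc⟩
        have h4 : x = s⁻¹ * x' := by rw [hx']; group
        have h5 : x ∈ scalars (Fin 4) F := by rw [h4]; exact Subgroup.mul_mem _ (Subgroup.inv_mem _ hs) h1
        obtain ⟨e, he⟩ := hmem.1 h5
        exact hxs e he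
      by_cases htype : (x' : Matrix (Fin 4) (Fin 4) F) * x' + x' + 1 = 0
      · -- no fixed vectors
        obtain ⟨h, hN, hh, hp', -, -, -⟩ := D.exists_hurwitz f haa hbb
        have hh3 : h ^ 3 = 1 := by rw [pow_succ, pow_two]; exact hh
        have hhdet := mem_sl.1 (hdet1 3 hcop h hh3)
        have hh1 : ∀ c : F, (h : Matrix (Fin 4) (Fin 4) F) ≠ c • (1 : Matrix (Fin 4) (Fin 4) F) := by
          intro c hc
          rw [hc] at hp'
          apply hω c
          have := congrFun (congrFun hp' 0) 0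
          simp at this
          linear_combination this
        -- pass to square -3
        have tosq : ∀ X : Matrix (Fin 4) (Fin 4) F, X * X + X + 1 = 0 → ((2 : F) • X + 1) * ((2 : F) • X + 1) = (-3 : F) • (1 : Matrix (Fin 4) (Fin 4) F) := by
          intro X hX
          have e : X * X = -X - 1 := by
            rw [eq_sub_iff_add_eq, eq_neg_iff_add_eq_zero]
            rw [← hX]; abel
          simp only [add_mul, mul_add, Matrix.smul_mul, Matrix.mul_smul, one_mul, mul_one, e]
          module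
        have tons : ∀ X : Matrix (Fin 4) (Fin 4) F, (∀ c : F, X ≠ c • (1 : Matrix (Fin 4) (Fin 4) F)) → ∀ c : F, (2 : F) • X + 1 ≠ c • (1 : Matrix (Fin 4) (Fin 4) F) := by
          intro X hX c hc
          apply hX ((2 : F)⁻¹ * (c - 1))
          rw [← smul_smul, sub_smul, ← hc, one_smul, add_sub_cancel_right, smul_smul, inv_mul_cancel₀ h2, one_smul]
        have h30 : (-3 : F) ≠ 0 := neg_ne_zero.2 h3
        have hμ : ∀ μ : F, μ ^ 2 ≠ -3 := by
          intro μ hμ
          apply hω ((-1 + μ) / 2)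
          field_simp
          linear_combination hμ
        have inv : ∀ X : Matrix (Fin 4) (Fin 4) F, X * X + X + 1 = 0 → (∀ c : F, X ≠ c • (1 : Matrix (Fin 4) (Fin 4) F)) →
            ((2 : F) • X + 1).trace = 0 ∧ ((2 : F) • X + 1).det = 9 := by
          intro X hX hXs
          obtain ⟨s', m', μ', l1, l2, l3, l4, -⟩ := H99.Lin4.types h2 h30 (tosq X hX) (tons X hXs)
          rcases l4 with ⟨rfl, rfl, l5⟩ | ⟨rfl, rfl, l5⟩
          · refine ⟨by rw [l3]; simp, by rw [l5]; norm_num⟩
          · exact absurd (l2 (by norm_num)) (hμ _)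
        obtain ⟨i1, i2⟩ := inv _ htype hx's
        obtain ⟨j1, j2⟩ := inv _ hp' hh1
        obtain ⟨P, hP, hxP⟩ := H99.Lin4.conj_sq h2 h30 (tosq _ htype) (tosq _ hp') (tons _ hx's) (tons _ hh1) (by rw [i1, j1]) (by rw [i2, j2])
        refine transfer x h s hs hN P hP ?_
        rw [← hx']
        rw [add_mul, mul_add, Matrix.smul_mul, Matrix.mul_smul, one_mul, mul_one] at hxP
        have h5 := add_right_cancel hxP
        have h6 := congrArg (fun M => (2 : F)⁻¹ • M) h5
        simp only [smul_smul, inv_mul_cancel₀ h2, one_smul] at h6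
        exact h6
      · obtain ⟨y, hN, hy3, hy1, hy2⟩ := D.exists_hurwitz2 f haa hbb hcc hdd h3
        have hy3' : (y : Matrix (Fin 4) (Fin 4) F) ^ 3 = 1 := by
          rw [pow_succ, pow_two]; exact congrArg Units.val hy3
        obtain ⟨P, hP, hxP⟩ := H99.Lin4.conj_three h3 h2 hω hx'3 hy3' (fun h => hx's 1 (by rw [h, one_smul])) (fun h => hy1 (Units.ext h)) htype hy2
        exact transfer x y s hs hN P hP hxP
    · -- r = 5
      have hrq : ¬ 5 ∣ Fintype.card F := by
        intro h
        rw [hF, ← ZMod.natCast_eq_zero_iff] at h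
        rw [h] at hord
        have := ord0
        omega
      have hord' : orderOf ((Fintype.card F : ℕ) : ZMod 5) = Fintype.card (Fin 4) := by
        rw [hF, hord]; simp
      have hcop : (Nat.card Fˣ).Coprime 5 := by
        rw [hcardU, Nat.coprime_comm, Nat.Prime.coprime_iff_not_dvd hr]
        intro h
        have h1 : (p : ZMod 5) = 1 := by
          have h4 : ((p - 1 : ℕ) : ZMod 5) = 0 := (ZMod.natCast_eq_zero_iff _ _).2 h
          rw [Nat.cast_sub hp.one_lt.le] at h4
          push_cast at h4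
          exact sub_eq_zero.1 h4
        rw [h1, orderOf_one] at hord
        omega
      obtain ⟨a, b, c, d, f, haa, hbb, hcc, hdd⟩ := D.full_frame_gen hi₀R hi₀s hi₀2 1 1 (-1) (-1) (Or.inl rfl) (Or.inl rfl) (Or.inr rfl) (Or.inr rfl)
      obtain ⟨m, hmN, hm5, hms, -⟩ := D.exists_five f haa hbb hcc hdd
      obtain ⟨ε, hε, hy5⟩ := hroot 5 hcop m hm5
      set y := ε * m with hy
      have hysp : y ∈ Cfsg.Geo.specialLinear (Fin 4) F := hdet1 5 hcop y hy5
      have hyN : y ∈ Cfsg.Geo.subgroupNormalizer R := Subgroup.mul_mem _ (hscN _ hε) hmN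
      have hy1 : y ≠ 1 := by
        intro h
        apply hms
        have h1 : m = ε⁻¹ := by rw [← mul_right_inj ε, ← hy, h, mul_inv_cancel]
        rw [h1]
        exact Subgroup.inv_mem _ hε
      intro x hx ⟨z, hz⟩ hxs
      obtain ⟨δ, hδ, hx5⟩ := hroot 5 hcop x (hmem.2 ⟨z, hz⟩)
      have hdsp : δ * x ∈ Cfsg.Geo.specialLinear (Fin 4) F := hdet1 5 hcop _ hx5
      obtain ⟨g, hg⟩ := H99.PrimeConj.sylow_conj (G := Cfsg.Geo.specialLinear (Fin 4) F) (r := 5) (x := ⟨δ * x, hdsp⟩) (y := ⟨y, hysp⟩) (by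
        intro z x hz hx hzx
        have h1 := H99.PrimeConj.comm_irred hr hrq hord' (z : GL (Fin 4) F) (x : GL (Fin 4) F) (by
          have h1 := pow_orderOf_eq_one z
          rw [hz] at h1
          exact congrArg Subtype.val h1) (by
          intro h
          have h1 : z = 1 := Subtype.ext h
          rw [h1, orderOf_one] at hz
          omega) (congrArg Subtype.val hx) (congrArg Subtype.val hzx)
        obtain ⟨k, hk⟩ := Subgroup.mem_zpowers_iff.1 h1
        refine Subgroup.mem_zpowers_iff.2 ⟨k, ?_⟩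
        apply Subtype.ext
        rw [Subgroup.coe_zpow]
        exact hk) (Subtype.ext hx5) (orderOf_eq_prime (Subtype.ext hy5) (fun h => hy1 (congrArg Subtype.val h)))
      obtain ⟨k, hk⟩ := Subgroup.mem_zpowers_iff.1 hg
      have hk' := congrArg Subtype.val hk
      rw [Subgroup.coe_zpow] at hk'
      have hk2 : y ^ k = (g : GL (Fin 4) F)⁻¹ * (δ * x) * g := hk'
      refine ⟨g, g.2, ?_⟩
      have hδc : ∀ h : GL (Fin 4) F, δ * h = h * δ := scalars_comm hδ
      have h3 : (g : GL (Fin 4) F)⁻¹ * x * g = δ⁻¹ * y ^ k := by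
        rw [hk2, ← mul_assoc _ δ x, ← hδc]
        group
      rw [h3]
      exact Subgroup.mul_mem _ (Subgroup.inv_mem _ (hscN δ hδ)) (Subgroup.zpow_mem _ hyN k)

/-- Elements of prime order of PSL_4(p), p ≡ 1 (mod 4), and the normalizer of a 2-group of symplectic type of order 2⁶. Here `T = PSL_4(F)` for the field `F` with `p` elements, `p` a prime with `p ≡ 1 (mod 4)`; `R` is an absolutely irreducible subgroup of GL_4(F) of order 2⁶ that is a 2-group of symplectic type of exponent 4 with centre of order 4 (the central product of the scalars of order 4 with an extraspecial group 2^{1+4}), and `H` is the subgroup of matrices of determinant 1 normalizing `R` — a subgroup of type 2⁴.Sp₄(2) (maximality is not assumed). Ω is the set of cosets of `H` in `T`, so an element of `T` of prime order `r` (a matrix `x` of determinant 1 with `x^r` scalar, `x` not scalar) fixes a point of Ω exactly when some conjugate of `x` by a matrix of determinant 1 normalizes `R`. Let `r` be a prime dividing the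 index of `H`. Then every element of `T` of order `r` fixes a point of Ω if and only if `r = 2`, or `r = 3` and `p ≡ 2 (mod 3)`, or `r = 5` and `p ≡ ±2 (mod 5)` (`p` has multiplicative order 4 modulo 5). -/
theorem result {F : Type*} [Field F] [Fintype F] {p : ℕ} [Fact p.Prime] [CharP F p] (hF : Fintype.card F = p) (hp4 : p % 4 = 1)
    (R : Subgroup (GL (Fin 4) F)) (hR : Cfsg.Geo.IsLinearSymplecticTypeData 2 R) (hR6 : Nat.card R = 2 ^ 6)
    (r : ℕ) [Fact r.Prime]
    (hΩ : r ∣ (Cfsg.Geo.subgroupNormalizer R).relIndex (Cfsg.Geo.specialLinear (Fin 4) F)) :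
    (∀ x ∈ Cfsg.Geo.specialLinear (Fin 4) F, (∃ z : F, ((x ^ r : GL (Fin 4) F) : Matrix (Fin 4) (Fin 4) F) = z • (1 : Matrix (Fin 4) (Fin 4) F)) →
      (∀ z : F, (x : Matrix (Fin 4) (Fin 4) F) ≠ z • (1 : Matrix (Fin 4) (Fin 4) F)) →
      ∃ g ∈ Cfsg.Geo.specialLinear (Fin 4) F, g⁻¹ * x * g ∈ Cfsg.Geo.subgroupNormalizer R) ↔ (r = 2 ∨ (r = 3 ∧ p % 3 = 2) ∨ (r = 5 ∧ orderOf (p : ZMod 5) = 4)) := by

  exact core hF hp4 R hR.symplecticType hR.absIrred hR6 r hΩ

end Cfsg.Agent.S6000
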