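import Cfsg.Statements.S6001
import Cfsg.Agent.Lib.H99.ST6
import Cfsg.Agent.Lib.H99.PrimeConj
import Cfsg.Agent.Lib.H99.U7

set_option autoImplicit false
set_option linter.unusedSimpArgs false
open scoped MatrixGroups
open Cfsg

namespace Cfsg.Agent.S6001


universe u

theorem zmod5 : ∀ t : ZMod 5, t ≠ 0 → t ^ 4 = 1 := by decide
theorem ord0 : orderOf (0 : ZMod 5) = 0 := by
  rw [orderOf_eq_zero_iff']
  intro n hn
  rw [zero_pow hn.ne']
  decide
theorem zmod5c : ∀ t : ZMod 5, t ≠ 0 → t ^ 2 ≠ 1 → (t * t * t * ((t + 1) * (t ^ 2 - 1) * (t ^ 3 + 1))) ≠ 0 := by decide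

set_option maxHeartbeats 2000000 in
open Matrix Module H99.ST Cfsg.Geo H96.AschSympType1 H99.SL4 H99.U4 H99.U6 H99.U7 H49.Unitary in
theorem core {F : Type u} [Field F] [Fintype F] {p : ℕ} [Fact p.Prime] [CharP F p] (hF : Fintype.card F = p ^ 2) (hp4 : p % 4 = 3)
    (R : Subgroup (GL (Fin 4) F)) (hRs : Cfsg.Geo.IsSymplecticTypeGroup 2 R) (hRi : Cfsg.Geo.ActsAbsolutelyIrreducibly (Cfsg.Geo.matrixSet R))
    (hRU : R ≤ Cfsg.GU 4 F p) (hR6 : Nat.card R = 2 ^ 6)
    (r : ℕ) [Fact r.Prime]
    (hΩ : r ∣ (Cfsg.Geo.subgroupNormalizer R).relIndex (Cfsg.GU 4 F p ⊓ Cfsg.Geo.specialLinear (Fin 4) F)) :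
    (∀ x ∈ Cfsg.GU 4 F p ⊓ Cfsg.Geo.specialLinear (Fin 4) F, (∃ z : F, ((x ^ r : GL (Fin 4) F) : Matrix (Fin 4) (Fin 4) F) = z • (1 : Matrix (Fin 4) (Fin 4) F)) →
      (∀ z : F, (x : Matrix (Fin 4) (Fin 4) F) ≠ z • (1 : Matrix (Fin 4) (Fin 4) F)) →
      ∃ g ∈ Cfsg.GU 4 F p ⊓ Cfsg.Geo.specialLinear (Fin 4) F, g⁻¹ * x * g ∈ Cfsg.Geo.subgroupNormalizer R) ↔ (r = 2 ∨ (r = 3 ∧ p % 3 = 1) ∨ (r = 5 ∧ orderOf (p : ZMod 5) = 4)) := by
  classical
  have hp := (Fact.out : p.Prime)
  have hr := (Fact.out : r.Prime)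
  have hp2 : p ≠ 2 := by rintro rfl; omega
  have hFp : ∀ n : ℕ, ((n : ℕ) : F) = 0 ↔ p ∣ n := fun n => CharP.cast_eq_zero_iff F p n
  have h2 : (2 : F) ≠ 0 := by
    intro h
    have : ((2 : ℕ) : F) = 0 := by exact_mod_cast h
    rw [hFp] at this
    exact hp2 ((Nat.prime_dvd_prime_iff_eq hp Nat.prime_two).1 this)
  have hK : Nat.card F = p ^ 2 := by rw [Nat.card_eq_fintype_card]; exact hF
  have hfinM : Finite (Matrix (Fin 4) (Fin 4) F) := by unfold Matrix; infer_instance
  have hfinG : Finite (GL (Fin 4) F) := inferInstance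
  have ses := H99.HermPair.ses_std (F := F) hK 4
  have D : Dat R := H99.ST.mk hRs hRi h2 (by simp)
  have hmem : ∀ {x : GL (Fin 4) F}, x ∈ scalars (Fin 4) F ↔ ∃ c : F, (x : Matrix (Fin 4) (Fin 4) F) = c • (1 : Matrix (Fin 4) (Fin 4) F) :=
    fun {x} => H99.ST.mem_scalars_iff
  have hscN : ∀ s ∈ scalars (Fin 4) F, s ∈ Cfsg.Geo.subgroupNormalizer R := by
    intro s hs
    apply Subgroup.mem_normalizer_iff.2
    intro h
    rw [scalars_comm hs h, mul_inv_cancel_right]
  have hRN : ∀ y ∈ R, y ∈ Cfsg.Geo.subgroupNormalizer R := fun y hy => Subgroup.le_normalizer hy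
  have hRct : ∀ y ∈ R, ct hK (y : Matrix (Fin 4) (Fin 4) F) * y = 1 := fun y hy => (mem_GU hK y).1 (hRU hy)
  -- norms
  have hfrob : ∀ c : F, frob hK c * c = 1 ↔ c ^ (p + 1) = 1 := by
    intro c
    rw [frob_apply, pow_succ]
  have hct1 : ∀ c : F, ct hK (c • (1 : Matrix (Fin 4) (Fin 4) F)) * (c • (1 : Matrix (Fin 4) (Fin 4) F)) = 1 ↔ frob hK c * c = 1 := by
    intro c
    rw [ct_scalar, Matrix.smul_mul, Matrix.mul_smul, one_mul, smul_smul]
    constructor
    · intro h
      have := congrFun (congrFun h 0) 0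
      simpa using this
    · intro h
      rw [h, one_smul]
  have hscalarU : ∀ x : GL (Fin 4) F, x ∈ Cfsg.GU 4 F p → ∀ c : F, (x : Matrix (Fin 4) (Fin 4) F) = c • (1 : Matrix (Fin 4) (Fin 4) F) → frob hK c * c = 1 := by
    intro x hx c hc
    have := (mem_GU hK x).1 hx
    rw [hc] at this
    exact (hct1 c).1 this
  -- a scalar of order four
  obtain ⟨i₀, hi₀R, hi₀s, hi₀2⟩ : ∃ z ∈ R, z ∈ scalars (Fin 4) F ∧ z * z = -1 := by
    by_contra hcon
    push Not at hcon
    have h1 := D.card_R
    rw [hR6] at h1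
    have h4 : Nat.card ((scalars (Fin 4) F).subgroupOf R) = 4 := by omega
    have h5 : ∀ s : (scalars (Fin 4) F).subgroupOf R, ((s : R) : GL (Fin 4) F) = 1 ∨ ((s : R) : GL (Fin 4) F) = -1 := by
      intro s
      have hsR := (s : R).2
      have hss : ((s : R) : GL (Fin 4) F) ∈ scalars (Fin 4) F := s.2
      have h6 := hcon _ hsR hss
      have h7 := (D.sq' hsR).resolve_right h6
      obtain ⟨c, hc⟩ := hmem.1 hss
      have h8 : c * c = 1 := by
        have := congrArg Units.val h7
        rw [Units.val_mul, hc, Matrix.smul_mul, Matrix.mul_smul, one_mul, smul_smul, Units.val_one] at this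
        have := congrFun (congrFun this 0) 0
        simpa using this
      rcases mul_self_eq_one_iff.1 h8 with rfl | rfl
      · left; exact Units.ext (by rw [hc, one_smul, Units.val_one])
      · right; exact Units.ext (by rw [hc, neg_smul, one_smul, Units.val_neg, Units.val_one])
    let φ : (scalars (Fin 4) F).subgroupOf R → Bool := fun s => decide (((s : R) : GL (Fin 4) F) = 1)
    have hφ : Function.Injective φ := by
      intro s t hst
      apply Subtype.ext
      apply Subtype.ext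
      rcases h5 s with hs | hs <;> rcases h5 t with ht | ht
      · rw [hs, ht]
      · exfalso
        have : φ s = true := decide_eq_true hs
        rw [hst] at this
        have h9 : ((t : R) : GL (Fin 4) F) = 1 := of_decide_eq_true this
        rw [ht] at h9
        exact D.ne_neg 1 h9.symm
      · exfalso
        have : φ t = true := decide_eq_true ht
        rw [← hst] at this
        have h9 : ((s : R) : GL (Fin 4) F) = 1 := of_decide_eq_true this
        rw [hs] at h9
        exact D.ne_neg 1 h9.symm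
      · rw [hs, ht]
    have := Nat.card_le_card_of_injective φ hφ
    rw [h4] at this
    simp at this
  constructor
  · -- only if
    intro hall
    by_cases hr2 : r = 2
    · exact Or.inl hr2
    right
    have hrodd : Odd r := hr.odd_of_ne_two hr2
    have key : ∀ x ∈ Cfsg.GU 4 F p ⊓ Cfsg.Geo.specialLinear (Fin 4) F, x ^ r = 1 → (∀ z : F, (x : Matrix (Fin 4) (Fin 4) F) ≠ z • (1 : Matrix (Fin 4) (Fin 4) F)) →
        ∃ g y : GL (Fin 4) F, y = g⁻¹ * x * g ∧ y ∈ Cfsg.Geo.subgroupNormalizer R ∧ y ^ r = 1 ∧ y ∉ scalars (Fin 4) F := by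
      intro x hx hxr hxs
      obtain ⟨g, hg, hN⟩ := hall x hx ⟨1, by rw [hxr, Units.val_one, one_smul]⟩ hxs
      refine ⟨g, _, rfl, hN, ?_, ?_⟩
      · have := conj_pow (i := r) (a := g⁻¹) (b := x)
        rw [inv_inv] at this
        rw [this, hxr]; simp
      · intro hs
        have h1 : g⁻¹ * x * g = x := by
          have h3 : g * (g⁻¹ * x * g) = x * g := by group
          exact mul_right_cancel ((scalars_comm hs g).trans h3)
        rw [h1] at hs
        obtain ⟨z, hz⟩ := hmem.1 hs
        exact hxs z hz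
    by_cases hrp : r = p
    · exfalso
      obtain ⟨x, hx, hxp, hxs, hrk⟩ := exists_utrans (F := F) hF (p := p)
      obtain ⟨g, y, hy, hN, hyr, hys⟩ := key x hx (by rw [hrp]; exact hxp) hxs
      apply hys
      apply D.trans hN hrodd hyr
      rw [hy]
      exact (H99.Skew.rank_conj_le x g).trans hrk
    have hrp' : ¬ r ∣ p := by
      intro h
      exact hrp ((Nat.prime_dvd_prime_iff_eq hr hp).1 h)
    have hr0 : ((r : ℕ) : F) ≠ 0 := by
      rw [Ne, hFp]
      intro h
      exact hrp ((Nat.prime_dvd_prime_iff_eq hp hr).1 h).symm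
    by_cases hr5 : r = 5
    · right
      refine ⟨hr5, ?_⟩
      by_contra hord
      subst hr5
      have hp5 : (p : ZMod 5) ≠ 0 := by
        rw [Ne, ZMod.natCast_eq_zero_iff]; exact hrp'
      have h4 : (p : ZMod 5) ^ 4 = 1 := zmod5 _ hp5
      have hp2' : (p : ZMod 5) ^ 2 = 1 := by
        have h5 : orderOf (p : ZMod 5) ∣ 4 := orderOf_dvd_of_pow_eq_one h4
        have h6 : orderOf (p : ZMod 5) ∣ 2 := by
          have h7 : orderOf (p : ZMod 5) ≤ 4 := Nat.le_of_dvd (by norm_num) h5
          revert h5 hord h7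
          generalize orderOf (p : ZMod 5) = k
          intro h5 h7 h8
          interval_cases k <;> simp_all
        exact orderOf_dvd_iff_pow_eq_one.1 h6
      have hdvd : 5 ∣ p ^ 2 - 1 := by
        rw [← ZMod.natCast_eq_zero_iff, Nat.cast_sub (Nat.one_le_pow _ _ hp.pos)]
        push_cast
        rw [hp2', sub_self]
      obtain ⟨w, hw, hw1, hwU⟩ := H99.U6.exists_w hF hr (by norm_num) hdvd
      obtain ⟨x, hx, hxr, hxs, hxw, ht1, ht2⟩ := exists_block4 hw hw1
      have hxU : x ∈ Cfsg.GU 4 F p ⊓ Cfsg.Geo.specialLinear (Fin 4) F := by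
        rw [mem_su4 hK]
        refine ⟨?_, mem_sl.1 hx⟩
        rw [hxw]
        exact emb4_unitary hK (su2_ct hF hK hwU)
      obtain ⟨g, y, hy, hN, hyr, hys⟩ := key x hxU hxr hxs
      have hy' : y⁻¹ = g⁻¹ * x⁻¹ * g := by rw [hy]; group
      have e1 : (y : Matrix (Fin 4) (Fin 4) F).trace = (w : Matrix (Fin 2) (Fin 2) F).trace + 2 := by
        rw [hy, H99.SL4.trace_conj, ht1]
      have e2 : ((y⁻¹ : GL (Fin 4) F) : Matrix (Fin 4) (Fin 4) F).trace = (w : Matrix (Fin 2) (Fin 2) F).trace + 2 := by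
        rw [hy', H99.SL4.trace_conj, ht2]
      have hwm : (w : Matrix (Fin 2) (Fin 2) F) ^ 5 = 1 := by
        rw [← Matrix.SpecialLinearGroup.coe_pow, hw, Matrix.SpecialLinearGroup.coe_one]
      have hwm1 : (w : Matrix (Fin 2) (Fin 2) F) ≠ 1 := fun h => hw1 (Subtype.ext h)
      have hτ := H99.BlockW.tr_five w.2 hwm hwm1
      rcases D.main hN (by norm_num) hyr with h | ⟨h, -⟩ | ⟨-, h, -⟩
      · exact hys h
      · rw [e1, e2] at h
        set τ := (w : Matrix (Fin 2) (Fin 2) F).trace
        apply hr0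
        push_cast
        linear_combination (3 * τ - 1) * h - (3 * τ - 1) * hτ - 9 * hτ
      · omega
    by_cases hr3 : r = 3
    · left
      refine ⟨hr3, ?_⟩
      by_contra hp31
      subst hr3
      have h3 : (3 : F) ≠ 0 := by
        intro h
        apply hr0
        push_cast
        exact h
      have hp1 : 3 ∣ p + 1 := by
        have h4 : p % 3 ≠ 0 := by
          intro h
          exact hrp' (Nat.dvd_of_mod_eq_zero h)
        omega
      have h5 : 3 ∣ Nat.card Fˣ := by
        rw [Nat.card_eq_fintype_card, Fintype.card_units, hF]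
        have e : p ^ 2 - 1 = (p + 1) * (p - 1) := by
          have := Nat.sq_sub_sq p 1
          simpa using this
        rw [e]
        exact hp1.mul_right _
      obtain ⟨ω, hω⟩ := exists_prime_orderOf_dvd_card' 3 h5
      have hω3 : (ω : F) ^ 3 = 1 := by
        have := pow_orderOf_eq_one ω
        rw [hω] at this
        rw [← Units.val_pow_eq_pow_val, this, Units.val_one]
      have hω1 : (ω : F) ≠ 1 := by
        intro h
        have : ω = 1 := Units.ext h
        rw [this, orderOf_one] at hω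
        omega
      obtain ⟨x, hx, hxr, hxs, hxd, htr⟩ := exists_diag hω3 hω1
      have hxU : x ∈ Cfsg.GU 4 F p ⊓ Cfsg.Geo.specialLinear (Fin 4) F := by
        rw [mem_su4 hK]
        refine ⟨?_, mem_sl.1 hx⟩
        rw [hxd]
        apply diag_unitary hK
        obtain ⟨k, hk⟩ := hp1
        rw [hk, pow_mul, hω3, one_pow]
      obtain ⟨g, y, hy, hN, hyr, hys⟩ := key x hxU hxr hxs
      have hy' : y⁻¹ = g⁻¹ * x⁻¹ * g := by rw [hy]; group
      have e1 : (y : Matrix (Fin 4) (Fin 4) F).trace * ((y⁻¹ : GL (Fin 4) F) : Matrix (Fin 4) (Fin 4) F).trace = 7 := by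
        rw [hy', hy, H99.SL4.trace_conj, H99.SL4.trace_conj]; exact htr
      rcases D.main hN (by norm_num) hyr with h | ⟨h, -, -⟩ | ⟨h, -, -⟩
      · exact hys h
      · rw [e1] at h
        have : (2 : F) * 3 = 0 := by linear_combination h
        rcases mul_eq_zero.1 this with h | h
        · exact h2 h
        · exact h3 h
      · rw [e1] at h
        apply h3
        linear_combination h
    · -- r ≥ 7
      exfalso
      have hdvd : r ∣ Nat.card (Cfsg.GU 4 F p ⊓ Cfsg.Geo.specialLinear (Fin 4) F : Subgroup (GL (Fin 4) F)) := hΩ.trans (Subgroup.relIndex_dvd_card _ _)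
      obtain ⟨x, hx⟩ := exists_prime_orderOf_dvd_card' r hdvd
      have hxr : (x : GL (Fin 4) F) ^ r = 1 := by
        have h1 := pow_orderOf_eq_one x
        rw [hx] at h1
        exact congrArg Subtype.val h1
      have hx1 : (x : GL (Fin 4) F) ≠ 1 := by
        intro h
        have h1 : x = 1 := Subtype.ext h
        rw [h1, orderOf_one] at hx
        exact hr.one_lt.ne hx
      have hxs : ∀ z : F, ((x : GL (Fin 4) F) : Matrix (Fin 4) (Fin 4) F) ≠ z • (1 : Matrix (Fin 4) (Fin 4) F) := by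
        intro z hz
        apply hx1
        have h4 : z ^ 4 = 1 := by
          have := ((mem_su4 hK).1 x.2).2
          rw [hz, Matrix.det_smul, Matrix.det_one, Fintype.card_fin, mul_one] at this
          exact this
        have h5 : z ^ r = 1 := by
          have := congrArg Units.val hxr
          rw [Units.val_pow_eq_pow_val, hz, _root_.smul_pow, one_pow, Units.val_one] at this
          have := congrFun (congrFun this 0) 0
          simpa using this
        have h6 : z = 1 := by
          have h9 : Nat.Coprime 4 r := by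
            have : Nat.Coprime (2 ^ 2) r := Nat.Coprime.pow_left 2 ((Nat.coprime_two_left).2 hrodd)
            exact this
          exact one_of_coprime h9 h4 h5
        apply Units.ext
        rw [hz, h6, one_smul, Units.val_one]
      obtain ⟨g, y, hy, hN, hyr, hys⟩ := key x x.2 hxr hxs
      rcases D.main hN hr2 hyr with h | ⟨-, h, -⟩ | ⟨-, h, -⟩
      · exact hys h
      · rcases h with h | h
        · exact hr3 h
        · exact hr5 h
      · exact hr3 h
  · -- if
    have transfer : ∀ x y s : GL (Fin 4) F, s ∈ scalars (Fin 4) F → y ∈ Cfsg.Geo.subgroupNormalizer R →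
        (s * x) ∈ Cfsg.GU 4 F p → y ∈ Cfsg.GU 4 F p → ∀ X : Matrix (Fin 4) (Fin 4) F, X.det ≠ 0 →
        X * ((s * x : GL (Fin 4) F) : Matrix (Fin 4) (Fin 4) F) = y * X →
        (∀ δ : F, frob hK δ * δ = 1 → ∃ c : Matrix (Fin 4) (Fin 4) F, ct hK c * c = 1 ∧
          c * ((s * x : GL (Fin 4) F) : Matrix (Fin 4) (Fin 4) F) = ((s * x : GL (Fin 4) F) : Matrix (Fin 4) (Fin 4) F) * c ∧ c.det = δ) →
        ∃ g ∈ Cfsg.GU 4 F p ⊓ Cfsg.Geo.specialLinear (Fin 4) F, g⁻¹ * x * g ∈ Cfsg.Geo.subgroupNormalizer R := by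
      intro x y s hs hy hxU hyU X hX h hc
      obtain ⟨g, hg, hgy⟩ := exists_SU_conj hK hxU hyU hX h hc
      refine ⟨g, hg, ?_⟩
      have h1 : g⁻¹ * x * g = s⁻¹ * y := by
        rw [← hgy, ← mul_assoc g⁻¹ s x, ← scalars_comm hs]
        group
      rw [h1]
      exact Subgroup.mul_mem _ (Subgroup.inv_mem _ (hscN s hs)) hy
    -- inverting an intertwiner
    have flip : ∀ (a b P : Matrix (Fin 4) (Fin 4) F), P.det = 1 → a * P = P * b → ∃ X : Matrix (Fin 4) (Fin 4) F, X.det ≠ 0 ∧ X * a = b * X := by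
      intro a b P hP h
      have hu : IsUnit P.det := by rw [hP]; exact isUnit_one
      refine ⟨P⁻¹, ?_, ?_⟩
      · rw [Matrix.det_nonsing_inv, hP, Ring.inverse_one]; exact one_ne_zero
      · calc P⁻¹ * a = P⁻¹ * (a * P) * P⁻¹ := by rw [Matrix.mul_assoc, Matrix.mul_assoc a, Matrix.mul_nonsing_inv P hu, Matrix.mul_one]
          _ = b * P⁻¹ := by rw [h, ← Matrix.mul_assoc, Matrix.nonsing_inv_mul P hu, Matrix.one_mul]
    -- root extraction
    have hroot : ∀ n : ℕ, Nat.Coprime n (p + 1) → ∀ x : GL (Fin 4) F, x ∈ Cfsg.GU 4 F p → x ^ n ∈ scalars (Fin 4) F →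
        ∃ s ∈ scalars (Fin 4) F, (s * x) ^ n = 1 ∧ s ∈ Cfsg.GU 4 F p := by
      intro n hn x hxU hx
      obtain ⟨c, hc⟩ := mem_scalars_sc.1 hx
      have hcv : ((x ^ n : GL (Fin 4) F) : Matrix (Fin 4) (Fin 4) F) = (c : F) • (1 : Matrix (Fin 4) (Fin 4) F) := by rw [← hc, sc_val]
      have hcn := (hfrob _).1 (hscalarU _ (Subgroup.pow_mem _ hxU n) _ hcv)
      have hcn' : ((c⁻¹ : Fˣ) : F) ^ (p + 1) = 1 := by
        rw [← Units.val_pow_eq_pow_val, inv_pow]
        have : c ^ (p + 1) = 1 := Units.ext hcn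
        rw [this, inv_one, Units.val_one]
      obtain ⟨v, hv1, hv2⟩ := root_norm hn hcn'
      have hv0 : v ≠ 0 := by
        rintro rfl
        rw [zero_pow (by omega)] at hv1
        exact zero_ne_one hv1
      set v' : Fˣ := Units.mk0 v hv0 with hv'
      have hv'n : v' ^ n = c⁻¹ := Units.ext (by rw [Units.val_pow_eq_pow_val]; exact hv2)
      refine ⟨sc (Fin 4) v', mem_scalars_sc.2 ⟨v', rfl⟩, ?_, ?_⟩
      · have hcm : Commute (sc (Fin 4) v') x := scalars_comm (mem_scalars_sc.2 ⟨v', rfl⟩) x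
        rw [hcm.mul_pow, ← map_pow, hv'n, ← hc, ← map_mul, inv_mul_cancel, map_one]
      · rw [mem_GU hK, sc_val]
        exact (hct1 _).2 ((hfrob _).2 hv1)
    have hdet1 : ∀ n : ℕ, Nat.Coprime n (p + 1) → ∀ y : GL (Fin 4) F, y ∈ Cfsg.GU 4 F p → y ^ n = 1 → y ∈ Cfsg.Geo.specialLinear (Fin 4) F := by
      intro n hn y hyU hy
      rw [mem_sl]
      have h1 := (mem_GU hK y).1 hyU
      have hdct : (ct hK (y : Matrix (Fin 4) (Fin 4) F)).det = frob hK (y : Matrix (Fin 4) (Fin 4) F).det := by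
        rw [ct, Matrix.det_transpose]
        exact (RingHom.map_det (frob hK) _).symm
      have h2 := congrArg Matrix.det h1
      rw [Matrix.det_mul, hdct, Matrix.det_one] at h2
      have h3 : (y : Matrix (Fin 4) (Fin 4) F).det ^ n = 1 := by
        rw [← Matrix.det_pow, ← Units.val_pow_eq_pow_val, hy, Units.val_one, Matrix.det_one]
      exact one_of_coprime hn h3 ((hfrob _).1 h2)
    have hns : ∀ u v : GL (Fin 4) F, u * v = -(v * u) → ∀ z : F, (u : Matrix (Fin 4) (Fin 4) F) ≠ z • (1 : Matrix (Fin 4) (Fin 4) F) := by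
      intro u v huv z hz
      exact D.not_scalar_of_anti huv (hmem.2 ⟨z, hz⟩)
    rintro (rfl | ⟨rfl, hp31⟩ | ⟨rfl, hord⟩)
    · -- r = 2
      intro x hx ⟨z, hz⟩ hxs
      obtain ⟨hxU, hxS⟩ := Subgroup.mem_inf.1 hx
      have hxct := (mem_GU hK x).1 hxU
      have hx2 : (x : Matrix (Fin 4) (Fin 4) F) * x = z • (1 : Matrix (Fin 4) (Fin 4) F) := by
        rw [← hz, pow_two, Units.val_mul]
      have hdet := mem_sl.1 hxS
      have hz0 : z ≠ 0 := by
        rintro rfl
        have := congrArg Matrix.det hx2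
        rw [Matrix.det_mul, hdet, zero_smul, Matrix.det_zero] at this
        simp at this
      have hzn : frob hK z * z = 1 := hscalarU _ (Subgroup.pow_mem _ hxU 2) _ hz
      have hctx : ct hK (x : Matrix (Fin 4) (Fin 4) F) = z⁻¹ • (x : Matrix (Fin 4) (Fin 4) F) := by
        have h1 : (x : Matrix (Fin 4) (Fin 4) F) * (z⁻¹ • (x : Matrix (Fin 4) (Fin 4) F)) = 1 := by
          rw [Matrix.mul_smul, hx2, smul_smul, inv_mul_cancel₀ hz0, one_smul]
        calc ct hK (x : Matrix (Fin 4) (Fin 4) F) = ct hK (x : Matrix (Fin 4) (Fin 4) F) * ((x : Matrix (Fin 4) (Fin 4) F) * (z⁻¹ • (x : Matrix (Fin 4) (Fin 4) F))) := by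
              rw [h1, mul_one]
          _ = _ := by rw [← mul_assoc, hxct, one_mul]
      -- quasi-reflections commuting with x
      have hquasi : ∀ μ : F, μ * μ = z → frob hK μ * μ = 1 → ∀ δ : F, frob hK δ * δ = 1 → ∃ c : Matrix (Fin 4) (Fin 4) F, ct hK c * c = 1 ∧
          c * (x : Matrix (Fin 4) (Fin 4) F) = (x : Matrix (Fin 4) (Fin 4) F) * c ∧ c.det = δ := by
        intro μ hμ hμn δ hδ
        have hμ0 : μ ≠ 0 := by rintro rfl; apply hz0; rw [← hμ]; ring
        have hfμ : frob hK μ = μ⁻¹ := eq_inv_of_mul_eq_one_left hμn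
        set P := (2 : F)⁻¹ • (1 + μ⁻¹ • (x : Matrix (Fin 4) (Fin 4) F)) with hP
        have hctP : ct hK P = P := by
          rw [hP, ct_smul, frob_half, ct_add, ct_one, ct_smul, hctx, map_inv₀, hfμ, inv_inv, smul_smul]
          congr 3
          rw [← hμ]
          field_simp
        have hxx : (μ⁻¹ • (x : Matrix (Fin 4) (Fin 4) F)) * (μ⁻¹ • (x : Matrix (Fin 4) (Fin 4) F)) = 1 := by
          rw [Matrix.smul_mul, Matrix.mul_smul, hx2, smul_smul, smul_smul, ← hμ]
          have : μ⁻¹ * μ⁻¹ * (μ * μ) = 1 := by field_simp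
          rw [this, one_smul]
        have hPP : P * P = P := by
          rw [hP, Matrix.smul_mul, Matrix.mul_smul, add_mul, mul_add, mul_add, hxx, one_mul, one_mul, mul_one]
          have h4 : (2 : F)⁻¹ * 2 = 1 := inv_mul_cancel₀ h2
          have : (2 : F)⁻¹ • (2 : F)⁻¹ • (1 + μ⁻¹ • (x : Matrix (Fin 4) (Fin 4) F) + (μ⁻¹ • (x : Matrix (Fin 4) (Fin 4) F) + 1)) =
              ((2 : F)⁻¹ * 2) • ((2 : F)⁻¹ • (1 + μ⁻¹ • (x : Matrix (Fin 4) (Fin 4) F))) := by module
          rw [this, h4, one_smul]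
        have hP0 : P ≠ 0 := by
          intro h
          have h1 := (smul_eq_zero.1 (hP ▸ h : (2 : F)⁻¹ • (1 + μ⁻¹ • (x : Matrix (Fin 4) (Fin 4) F)) = 0)).resolve_left (inv_ne_zero h2)
          apply hxs (-μ)
          have h4 : μ⁻¹ • (x : Matrix (Fin 4) (Fin 4) F) = -1 := eq_neg_of_add_eq_zero_right h1
          have h5 := congrArg (fun M => μ • M) h4
          simp only [smul_smul, mul_inv_cancel₀ hμ0, one_smul] at h5
          rw [h5, smul_neg, neg_smul]
        obtain ⟨v, hv, hPv⟩ := exists_aniso hK hctP hPP hP0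
        have hxP : (x : Matrix (Fin 4) (Fin 4) F) * P = μ • P := by
          rw [hP, Matrix.mul_smul, mul_add, mul_one, Matrix.mul_smul, hx2, smul_smul μ⁻¹ z, smul_comm μ]
          congr 1
          rw [smul_add, smul_smul, mul_inv_cancel₀ hμ0, one_smul, ← hμ, inv_mul_cancel_left₀ hμ0, add_comm]
        refine exists_quasi hK hxct (v := v) (α := μ) ?_ hv hδ
        rw [← hPv, Matrix.mulVec_mulVec, hxP, Matrix.smul_mulVec]
      obtain ⟨s, m, μ, k1, k2, k3, k4, -⟩ := H99.Lin4.types h2 hz0 hx2 hxs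
      rcases k4 with ⟨rfl, rfl, k5⟩ | ⟨rfl, rfl, k5⟩
      · -- z = ± 1
        have hzz : z * z = 1 := by rw [hdet] at k5; rw [k5]; ring
        have key2 : ∀ u v : GL (Fin 4) F, u ∈ R → u * v = -(v * u) → (u : Matrix (Fin 4) (Fin 4) F) * u = z • (1 : Matrix (Fin 4) (Fin 4) F) →
            ∀ μ : F, μ * μ = z → frob hK μ * μ = 1 →
            ∃ g ∈ Cfsg.GU 4 F p ⊓ Cfsg.Geo.specialLinear (Fin 4) F, g⁻¹ * x * g ∈ Cfsg.Geo.subgroupNormalizer R := by
          intro u v huR huv hu2 μ hμ hμn
          have hus := hns u v huv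
          have htru : (u : Matrix (Fin 4) (Fin 4) F).trace = 0 := D.tr_zero huR (D.not_scalar_of_anti huv)
          obtain ⟨s', m', μ', l1, l2, l3, l4, -⟩ := H99.Lin4.types h2 hz0 hu2 hus
          have hdetu : (u : Matrix (Fin 4) (Fin 4) F).det = 1 := by
            rcases l4 with ⟨rfl, rfl, l5⟩ | ⟨rfl, rfl, l5⟩
            · rw [l5, pow_two, hzz]
            · exfalso
              rw [htru] at l3
              push_cast at l3
              have h6 : μ' = 0 := (mul_eq_zero.1 l3.symm).resolve_left h2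
              apply hz0
              rw [← l2 (by norm_num), h6]; ring
          obtain ⟨P, hP, hxP⟩ := H99.Lin4.conj_sq h2 hz0 hx2 hu2 hxs hus (by rw [k3, htru]; simp) (by rw [hdet, hdetu])
          obtain ⟨X, hX, hXx⟩ := flip _ _ P hP hxP
          exact transfer x u 1 (Subgroup.one_mem _) (hRN u huR) (by rw [one_mul]; exact hxU) (hRU huR) X hX (by rw [one_mul]; exact hXx)
            (by rw [one_mul]; exact hquasi μ hμ hμn)
        obtain ⟨a, b, c, d, f, haa, hbb, hcc, hdd⟩ := D.full_frame_gen hi₀R hi₀s hi₀2 1 1 (-1) (-1) (Or.inl rfl) (Or.inl rfl) (Or.inr rfl) (Or.inr rfl)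
        rcases mul_self_eq_one_iff.1 hzz with rfl | rfl
        · exact key2 a b f.ha f.ab (by rw [← Units.val_mul, haa, Units.val_one, one_smul]) 1 (by ring) (by rw [map_one, one_mul])
        · obtain ⟨ι, hι⟩ := hmem.1 hi₀s
          have hι2 : ι * ι = -1 := by
            have := congrArg Units.val hi₀2
            rw [Units.val_mul, hι, Matrix.smul_mul, Matrix.mul_smul, one_mul, smul_smul, Units.val_neg, Units.val_one] at this
            have := congrFun (congrFun this 0) 0
            simpa using this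
          exact key2 c d f.hc f.cd (by rw [← Units.val_mul, hcc, Units.val_neg, Units.val_one, neg_smul, one_smul]) ι hι2 (hscalarU i₀ (hRU hi₀R) ι hι)
      · -- the reflection class
        have hμ2 : μ ^ 2 = z := k2 (by norm_num)
        have hμ0 : μ ≠ 0 := by rintro rfl; apply hz0; rw [← hμ2]; ring
        have hμn : frob hK μ * μ = 1 := by
          have h1 := trace_ct hK (x : Matrix (Fin 4) (Fin 4) F)
          rw [hctx, Matrix.trace_smul, k3, smul_eq_mul, map_mul, map_natCast] at h1
          push_cast at h1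
          have h4 : z⁻¹ * μ = frob hK μ := by
            apply mul_left_cancel₀ h2
            linear_combination h1
          rw [← h4, ← hμ2]
          field_simp
        obtain ⟨a, b, c, d, f, haa, hbb, hcc, hdd⟩ := D.full_frame_gen hi₀R hi₀s hi₀2 1 1 1 1 (Or.inl rfl) (Or.inl rfl) (Or.inl rfl) (Or.inl rfl)
        obtain ⟨w, hwN, hww, hwt, hwf⟩ := D.exists_refl f haa hcc
        have hww' : (w : Matrix (Fin 4) (Fin 4) F) * w = 1 := congrArg Units.val hww
        have haa' : (a : Matrix (Fin 4) (Fin 4) F) * a = 1 := congrArg Units.val haa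
        have hcc' : (c : Matrix (Fin 4) (Fin 4) F) * c = 1 := congrArg Units.val hcc
        have hac' : (a : Matrix (Fin 4) (Fin 4) F) * c = c * a := congrArg Units.val f.ac
        have hwU := refl_unitary hK (hRct a f.ha) (hRct c f.hc) haa' hcc' hac' hwf hww'
        let S : GL (Fin 4) F := sc (Fin 4) (Units.mk0 μ hμ0)
        have hSs : S ∈ scalars (Fin 4) F := mem_scalars_sc.2 ⟨_, rfl⟩
        have hSv : (S : Matrix (Fin 4) (Fin 4) F) = μ • 1 := sc_val _
        set y := S * w with hy
        have hyv : (y : Matrix (Fin 4) (Fin 4) F) = μ • (w : Matrix (Fin 4) (Fin 4) F) := by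
          rw [hy, Units.val_mul, hSv, Matrix.smul_mul, one_mul]
        have hyU : y ∈ Cfsg.GU 4 F p := by
          apply Subgroup.mul_mem
          · rw [mem_GU hK, hSv]; exact (hct1 μ).2 hμn
          · rw [mem_GU hK]; exact hwU
        have hy2 : (y : Matrix (Fin 4) (Fin 4) F) * y = z • (1 : Matrix (Fin 4) (Fin 4) F) := by
          rw [hyv, Matrix.smul_mul, Matrix.mul_smul, hww', smul_smul, ← hμ2, pow_two]
        have hyt : (y : Matrix (Fin 4) (Fin 4) F).trace = μ * 2 := by
          rw [hyv, Matrix.trace_smul, hwt, smul_eq_mul]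
        have hws : ∀ e : F, (w : Matrix (Fin 4) (Fin 4) F) ≠ e • (1 : Matrix (Fin 4) (Fin 4) F) := by
          intro e he
          -- then 1 + a + c - ac is scalar, so it commutes with b
          have hb : (w : Matrix (Fin 4) (Fin 4) F) * b = b * w := by rw [he, Matrix.smul_mul, Matrix.mul_smul, one_mul, mul_one]
          have f1 : (b : Matrix (Fin 4) (Fin 4) F) * a = -((a : Matrix (Fin 4) (Fin 4) F) * b) := by
            have := congrArg Units.val (show b * a = -(a * b) by rw [f.ab, neg_neg])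
            rw [Units.val_neg] at this
            exact this
          have f2 : (b : Matrix (Fin 4) (Fin 4) F) * c = c * b := congrArg Units.val f.bc
          have g1 : (a : Matrix (Fin 4) (Fin 4) F) * (b : Matrix (Fin 4) (Fin 4) F) = (a : Matrix (Fin 4) (Fin 4) F) * c * b := by
            rw [hwf, Matrix.smul_mul, Matrix.mul_smul] at hb
            have hb' := congrArg (fun M => (2 : F) • M) hb
            simp only [smul_smul, mul_inv_cancel₀ h2, one_smul] at hb'
            simp only [add_mul, mul_add, sub_mul, mul_sub, one_mul, mul_one, f1, f2] at hb'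
            have f3 : (b : Matrix (Fin 4) (Fin 4) F) * ((a : Matrix (Fin 4) (Fin 4) F) * c) = -((a : Matrix (Fin 4) (Fin 4) F) * c * b) := by
              rw [← mul_assoc, f1, neg_mul, mul_assoc, f2, ← mul_assoc]
            rw [f3] at hb'
            have h4 : (2 : F) • ((a : Matrix (Fin 4) (Fin 4) F) * b) = (2 : F) • ((a : Matrix (Fin 4) (Fin 4) F) * c * b) := by
              rw [two_smul, two_smul]
              have h5 := sub_eq_zero.2 hb'
              rw [← sub_eq_zero, ← h5]
              abel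
            have h6 := congrArg (fun M => (2 : F)⁻¹ • M) h4
            simp only [smul_smul, inv_mul_cancel₀ h2, one_smul] at h6
            exact h6
          have g2 : a * b = a * c * b := Units.ext (by rw [Units.val_mul, Units.val_mul, Units.val_mul]; exact g1)
          have g3 : a = a * c := mul_right_cancel g2
          have g4 : c = 1 := mul_eq_left.1 g3.symm
          have g5 := f.cd
          rw [g4, one_mul, mul_one] at g5
          exact D.ne_neg _ g5
        have hys : ∀ c : F, (y : Matrix (Fin 4) (Fin 4) F) ≠ c • (1 : Matrix (Fin 4) (Fin 4) F) := by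
          intro c hc
          apply hws (μ⁻¹ * c)
          rw [← smul_smul, ← hc, hyv, smul_smul, inv_mul_cancel₀ hμ0, one_smul]
        obtain ⟨s', m', μ', l1, l2, l3, l4, -⟩ := H99.Lin4.types h2 hz0 hy2 hys
        have hdety : (y : Matrix (Fin 4) (Fin 4) F).det = -z ^ 2 := by
          rcases l4 with ⟨rfl, rfl, l5⟩ | ⟨rfl, rfl, l5⟩
          · exfalso
            rw [hyt] at l3
            push_cast at l3
            rw [zero_mul] at l3
            rcases mul_eq_zero.1 l3 with h | h
            · exact hμ0 h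
            · exact h2 h
          · exact l5
        obtain ⟨P, hP, hxP⟩ := H99.Lin4.conj_sq h2 hz0 hx2 hy2 hxs hys (by rw [k3, hyt]; push_cast; ring) (by rw [k5, hdety])
        obtain ⟨X, hX, hXx⟩ := flip _ _ P hP hxP
        exact transfer x y 1 (Subgroup.one_mem _) (Subgroup.mul_mem _ (hscN S hSs) hwN) (by rw [one_mul]; exact hxU) hyU X hX (by rw [one_mul]; exact hXx)
          (by rw [one_mul]; exact hquasi μ (by rw [← pow_two]; exact hμ2) hμn)
    · -- r = 3
      have h3 : (3 : F) ≠ 0 := by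
        intro h
        have : ((3 : ℕ) : F) = 0 := by exact_mod_cast h
        rw [hFp] at this
        have := (Nat.prime_dvd_prime_iff_eq hp Nat.prime_three).1 this
        omega
      have hcop : Nat.Coprime 3 (p + 1) := by
        rw [Nat.Prime.coprime_iff_not_dvd Nat.prime_three]
        omega
      have hfω : ∀ ω : F, ω ^ 2 + ω + 1 = 0 → frob hK ω = ω := by
        intro ω hω
        have hω3 : ω ^ 3 = 1 := by linear_combination (ω - 1) * hω
        rw [frob_apply]
        have hp' : p = 3 * (p / 3) + 1 := by omega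
        rw [hp', pow_succ, pow_mul, hω3, one_pow, one_mul]
      obtain ⟨ω, hω⟩ : ∃ ω : F, ω ^ 2 + ω + 1 = 0 := by
        have h5 : 3 ∣ Nat.card Fˣ := by
          rw [Nat.card_eq_fintype_card, Fintype.card_units, hF]
          have e : p ^ 2 - 1 = (p + 1) * (p - 1) := by
            have := Nat.sq_sub_sq p 1
            simpa using this
          rw [e]
          have : 3 ∣ p - 1 := by have := hp.two_le; omega
          exact this.mul_left _
        obtain ⟨ω, hω⟩ := exists_prime_orderOf_dvd_card' 3 h5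
        refine ⟨(ω : F), ?_⟩
        have hω3 : (ω : F) ^ 3 = 1 := by
          have := pow_orderOf_eq_one ω
          rw [hω] at this
          rw [← Units.val_pow_eq_pow_val, this, Units.val_one]
        have hω1 : (ω : F) ≠ 1 := by
          intro h
          have : ω = 1 := Units.ext h
          rw [this, orderOf_one] at hω
          omega
        have : ((ω : F) - 1) * ((ω : F) ^ 2 + ω + 1) = 0 := by linear_combination hω3
        exact (mul_eq_zero.1 this).resolve_left (sub_ne_zero.2 hω1)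
      intro x hx ⟨z, hz⟩ hxs
      obtain ⟨hxU, hxS⟩ := Subgroup.mem_inf.1 hx
      obtain ⟨s, hs, hsx, hsU⟩ := hroot 3 hcop x hxU (hmem.2 ⟨z, hz⟩)
      obtain ⟨a, b, c, d, f, haa, hbb, hcc, hdd⟩ := D.full_frame_gen hi₀R hi₀s hi₀2 (-1) (-1) (-1) (-1) (Or.inr rfl) (Or.inr rfl) (Or.inr rfl) (Or.inr rfl)
      have toneg : ∀ a : GL (Fin 4) F, a * a = -1 → (a : Matrix (Fin 4) (Fin 4) F) * a = -1 := by
        intro a ha
        have := congrArg Units.val ha
        rw [Units.val_neg, Units.val_one] at this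
        exact this
      have toanti : ∀ a b : GL (Fin 4) F, a * b = -(b * a) → (a : Matrix (Fin 4) (Fin 4) F) * b = -((b : Matrix (Fin 4) (Fin 4) F) * a) := by
        intro a b ha
        have := congrArg Units.val ha
        rw [Units.val_neg] at this
        exact this
      have hsxU : s * x ∈ Cfsg.GU 4 F p := Subgroup.mul_mem _ hsU hxU
      have hx't := (mem_GU hK _).1 hsxU
      set x' := s * x with hx'
      have hx'3 : (x' : Matrix (Fin 4) (Fin 4) F) * ((x' : Matrix (Fin 4) (Fin 4) F) * x') = 1 := by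
        have : x' * (x' * x') = 1 := by rw [← pow_two, ← pow_succ']; exact hsx
        exact congrArg Units.val this
      have hx's : ∀ c : F, (x' : Matrix (Fin 4) (Fin 4) F) ≠ c • (1 : Matrix (Fin 4) (Fin 4) F) := by
        intro c hc
        have h1 : x' ∈ scalars (Fin 4) F := hmem.2 ⟨c, hc⟩
        have h4 : x = s⁻¹ * x' := by rw [hx']; group
        have h5 : x ∈ scalars (Fin 4) F := by rw [h4]; exact Subgroup.mul_mem _ (Subgroup.inv_mem _ hs) h1
        obtain ⟨e, he⟩ := hmem.1 h5
        exact hxs e he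
      by_cases htype : (x' : Matrix (Fin 4) (Fin 4) F) * x' + x' + 1 = 0
      · obtain ⟨h, hN, hh, hp', hha, -, -, hform⟩ := D.exists_hurwitz' f haa hbb
        have hhU := hurwitz_unitary hK h2 (hRct a f.ha) (hRct b f.hb) (toneg a haa) (toneg b hbb) (toanti a b f.ab) hform hp'
        have hh1 : ∀ c : F, (h : Matrix (Fin 4) (Fin 4) F) ≠ c • (1 : Matrix (Fin 4) (Fin 4) F) := by
          intro e he
          have hsc : h ∈ scalars (Fin 4) F := hmem.2 ⟨e, he⟩
          rw [scalars_comm hsc a] at hha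
          have g1 : a * b * h = a * h := hha.symm
          have g2 : a * b = a := mul_right_cancel g1
          have g3 : b = 1 := mul_eq_left.1 g2
          have g4 := f.ab
          rw [g3, mul_one, one_mul] at g4
          exact D.ne_neg _ g4
        obtain ⟨P, hP, hxP⟩ := typeA_conj hK h2 h3 hx't hhU htype hp' hfω hx's hh1
        obtain ⟨X, hX, hXx⟩ := flip _ _ P hP hxP
        exact transfer x h s hs hN hsxU ((mem_GU hK _).2 hhU) X hX hXx (fun δ hδ => pair_case hK h3 hx't htype hω (hfω ω hω) hx's hδ)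
      · obtain ⟨y, hN, hy3, hy1, hy2, h, k, hyhk, hph, hpk, hformh, hformk⟩ := D.exists_hurwitz2' f haa hbb hcc hdd h3
        have hhU := hurwitz_unitary hK h2 (hRct a f.ha) (hRct b f.hb) (toneg a haa) (toneg b hbb) (toanti a b f.ab) hformh hph
        have hkU := hurwitz_unitary hK h2 (hRct c f.hc) (hRct d f.hd) (toneg c hcc) (toneg d hdd) (toanti c d f.cd) hformk hpk
        have hyU : y ∈ Cfsg.GU 4 F p := by
          rw [hyhk]
          exact Subgroup.mul_mem _ ((mem_GU hK _).2 hhU) ((mem_GU hK _).2 hkU)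
        have hyt := (mem_GU hK _).1 hyU
        have hy3' : (y : Matrix (Fin 4) (Fin 4) F) * ((y : Matrix (Fin 4) (Fin 4) F) * y) = 1 := by
          rw [← mul_assoc]; exact congrArg Units.val hy3
        have hx'1 : (x' : Matrix (Fin 4) (Fin 4) F) ≠ 1 := fun h => hx's 1 (by rw [h, one_smul])
        have hy1' : (y : Matrix (Fin 4) (Fin 4) F) ≠ 1 := fun h => hy1 (Units.ext h)
        obtain ⟨X, hX, hXx⟩ := typeB_conj hK h3 hω (hfω ω hω) hx't hyt hx'3 hy3' hx'1 hy1' htype hy2
        obtain ⟨e0, e1, -⟩ := ranks hK h3 hω (hfω ω hω) hx't hx'3 hx'1 htype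
        have hE := Ei_orth h3 hω hx'3 0 0
        rw [if_pos rfl] at hE
        obtain ⟨v, hv, hPv⟩ := exists_aniso hK e0 hE e1
        have hxE := Ei_eig h3 hω hx'3 0
        refine transfer x y s hs hN hsxU hyU X hX hXx (fun δ hδ => exists_quasi hK hx't (v := v) (α := ω ^ ((0 : Fin 3) : ℕ)) ?_ hv hδ)
        show (x' : Matrix (Fin 4) (Fin 4) F) *ᵥ v = ω ^ ((0 : Fin 3) : ℕ) • v
        nth_rewrite 1 [← hPv]
        rw [Matrix.mulVec_mulVec, hxE, Matrix.smul_mulVec, hPv]
    · -- r = 5
      have hp5 : (p : ZMod 5) ≠ 0 := by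
        intro h
        rw [h] at hord
        have := ord0
        omega
      have hp52 : (p : ZMod 5) ^ 2 ≠ 1 := by
        intro h
        have := orderOf_dvd_of_pow_eq_one h
        rw [hord] at this
        omega
      have h50 : ((5 : ℕ) : F) ≠ 0 := by
        rw [Ne, hFp]
        intro h
        have := (Nat.prime_dvd_prime_iff_eq hp hr).1 h
        apply hp5
        rw [this]
        rfl
      have hcop : Nat.Coprime 5 (p + 1) := by
        rw [Nat.Prime.coprime_iff_not_dvd hr]
        intro h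
        have h1 : ((p + 1 : ℕ) : ZMod 5) = 0 := (ZMod.natCast_eq_zero_iff _ _).2 h
        push_cast at h1
        apply hp52
        linear_combination ((p : ZMod 5) - 1) * h1
      have hGU3 : ¬ 5 ∣ Nat.card (Cfsg.GU 3 F p) := by
        rw [H7.UnitOrd.card_GU hF 3]
        simp only [Finset.prod_range_succ, Finset.prod_range_zero]
        norm_num
        intro h
        have h1 := (ZMod.natCast_eq_zero_iff _ _).2 h
        have hle : 1 ≤ p ^ 2 := Nat.one_le_pow _ _ hp.pos
        have e2 : ((if Even 2 then p ^ 3 + 1 else p ^ 3 - 1 : ℕ)) = p ^ 3 + 1 := by simp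
        simp only [Nat.cast_mul, Nat.cast_pow, Nat.cast_add, Nat.cast_one, Nat.cast_sub hle] at h1
        apply zmod5c (p : ZMod 5) hp5 hp52
        rw [← h1]
        ring
      obtain ⟨a, b, c, d, f, haa, hbb, hcc, hdd⟩ := D.full_frame_gen hi₀R hi₀s hi₀2 1 1 (-1) (-1) (Or.inl rfl) (Or.inl rfl) (Or.inr rfl) (Or.inr rfl)
      obtain ⟨m, hmN, hm5, hms, hΦ⟩ := D.exists_five f haa hbb hcc hdd
      have hmU : m ∈ Cfsg.GU 4 F p := by
        intro u v
        have h1 := hΦ (AddMonoidHom.mk' (fun u => AddMonoidHom.mk' (fun v => Cfsg.hermForm 4 F p u v) (ses.add_right u))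
          (fun a b => AddMonoidHom.ext fun v => ses.add_left a b v)) (by
          intro g hg u v
          exact hRU hg u v) u v
        exact h1
      obtain ⟨ε, hε, hy5, hεU⟩ := hroot 5 hcop m hmU hm5
      set y := ε * m with hy
      have hyU : y ∈ Cfsg.GU 4 F p := Subgroup.mul_mem _ hεU hmU
      have hysp : y ∈ Cfsg.GU 4 F p ⊓ Cfsg.Geo.specialLinear (Fin 4) F := Subgroup.mem_inf.2 ⟨hyU, hdet1 5 hcop y hyU hy5⟩
      have hyN : y ∈ Cfsg.Geo.subgroupNormalizer R := Subgroup.mul_mem _ (hscN _ hε) hmN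
      have hy1 : y ≠ 1 := by
        intro h
        apply hms
        have h1 : m = ε⁻¹ := by rw [← mul_right_inj ε, ← hy, h, mul_inv_cancel]
        rw [h1]
        exact Subgroup.inv_mem _ hε
      intro x hx ⟨z, hz⟩ hxs
      obtain ⟨hxU, hxS⟩ := Subgroup.mem_inf.1 hx
      obtain ⟨δ, hδ, hx5, hδU⟩ := hroot 5 hcop x hxU (hmem.2 ⟨z, hz⟩)
      have hdU : δ * x ∈ Cfsg.GU 4 F p := Subgroup.mul_mem _ hδU hxU
      have hdsp : δ * x ∈ Cfsg.GU 4 F p ⊓ Cfsg.Geo.specialLinear (Fin 4) F := Subgroup.mem_inf.2 ⟨hdU, hdet1 5 hcop _ hdU hx5⟩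
      have hG : ∀ y ∈ Cfsg.GU 4 F p ⊓ Cfsg.Geo.specialLinear (Fin 4) F, y ^ 5 = 1 → y ≠ 1 →
          ∑ k ∈ Finset.range 5, (y : Matrix (Fin 4) (Fin 4) F) ^ k = 0 :=
        fun y hy hy5 hy1 => H99.U5.fpf (n := 3) hF hr h50 hGU3 (Subgroup.mem_inf.1 hy).1 hy5 hy1
      obtain ⟨g, hg⟩ := H99.PrimeConj.sylow_conj (G := (Cfsg.GU 4 F p ⊓ Cfsg.Geo.specialLinear (Fin 4) F : Subgroup (GL (Fin 4) F))) (r := 5) (x := ⟨δ * x, hdsp⟩) (y := ⟨y, hysp⟩) (by
        intro z x hz hx hzx
        have hz5 : (z : GL (Fin 4) F) ^ 5 = 1 := by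
          have h1 := pow_orderOf_eq_one z
          rw [hz] at h1
          exact congrArg Subtype.val h1
        have h1 := H99.U5.comm_cyclic hr h50 _ hG z.2 x.2 hz5 (by
          intro h
          have h1 : z = 1 := Subtype.ext h
          rw [h1, orderOf_one] at hz
          omega) (congrArg Subtype.val hx) (congrArg Subtype.val hzx)
        obtain ⟨k, hk⟩ := Subgroup.mem_zpowers_iff.1 h1
        refine Subgroup.mem_zpowers_iff.2 ⟨k, ?_⟩
        apply Subtype.ext
        rw [Subgroup.coe_zpow]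
        exact hk) (Subtype.ext hx5) (orderOf_eq_prime (Subtype.ext hy5) (fun h => hy1 (congrArg Subtype.val h)))
      obtain ⟨k, hk⟩ := Subgroup.mem_zpowers_iff.1 hg
      have hk' := congrArg Subtype.val hk
      rw [Subgroup.coe_zpow] at hk'
      have hk2 : y ^ k = (g : GL (Fin 4) F)⁻¹ * (δ * x) * g := hk'
      refine ⟨g, g.2, ?_⟩
      have hδc : ∀ h : GL (Fin 4) F, δ * h = h * δ := scalars_comm hδ
      have h3 : (g : GL (Fin 4) F)⁻¹ * x * g = δ⁻¹ * y ^ k := by
        rw [hk2, ← mul_assoc _ δ x, ← hδc]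
        group
      rw [h3]
      exact Subgroup.mul_mem _ (Subgroup.inv_mem _ (hscN δ hδ)) (Subgroup.zpow_mem _ hyN k)

/-- Elements of prime order of PSU_4(p), p ≡ 3 (mod 4), and the normalizer of a 2-group of symplectic type of order 2⁶. Here `T = PSU_4(p)` for a prime `p ≡ 3 (mod 4)`, realised through `SU_4(p)`, the matrices of determinant 1 over the field `F` with `p²` elements preserving the hermitian form `f = Σ uᵢvᵢ^p`; `R` is an absolutely irreducible subgroup of the full unitary group of `f` of order 2⁶ that is a 2-group of symplectic type of exponent 4 with centre of order 4, and `H` is the subgroup of `SU_4(p)` normalizing `R` — a subgroup of type 2⁴.Sp₄(2) (maximality is not assumed). Ω is the set of cosets of `H`, so an element of `T` of prime order `r` (`x ∈ SU_4(p)` with `x^r` scalar, `x` not scalar) fixes a point of Ω exactly when some `SU_4(p)`-conjugate of `x` normalizes `R`. Let `r` be a prime dividing the index of `H`. Then every element of `T` of order `r`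 fixes a point of Ω if and only if `r = 2`, or `r = 3` and `p ≡ 1 (mod 3)`, or `r = 5` and `p ≡ ±2 (mod 5)` (`p` has multiplicative order 4 modulo 5). -/
theorem result {F : Type*} [Field F] [Fintype F] {p : ℕ} [Fact p.Prime] [CharP F p] (hF : Fintype.card F = p ^ 2) (hp4 : p % 4 = 3)
    (R : Subgroup (GL (Fin 4) F)) (hRs : Cfsg.Geo.IsSymplecticTypeGroup 2 R) (hRi : Cfsg.Geo.ActsAbsolutelyIrreducibly (Cfsg.Geo.matrixSet R))
    (hRU : R ≤ Cfsg.GU 4 F p) (hR6 : Nat.card R = 2 ^ 6) (hRZ : Nat.card (Subgroup.center R) = 4)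
    (r : ℕ) [Fact r.Prime]
    (hΩ : r ∣ (Cfsg.Geo.subgroupNormalizer R).relIndex (Cfsg.GU 4 F p ⊓ Cfsg.Geo.specialLinear (Fin 4) F)) :
    (∀ x ∈ Cfsg.GU 4 F p ⊓ Cfsg.Geo.specialLinear (Fin 4) F, (∃ z : F, ((x ^ r : GL (Fin 4) F) : Matrix (Fin 4) (Fin 4) F) = z • (1 : Matrix (Fin 4) (Fin 4) F)) →
      (∀ z : F, (x : Matrix (Fin 4) (Fin 4) F) ≠ z • (1 : Matrix (Fin 4) (Fin 4) F)) →
      ∃ g ∈ Cfsg.GU 4 F p ⊓ Cfsg.Geo.specialLinear (Fin 4) F, g⁻¹ * x * g ∈ Cfsg.Geo.subgroupNormalizer R) ↔ (r = 2 ∨ (r = 3 ∧ p % 3 = 1) ∨ (r = 5 ∧ orderOf (p : ZMod 5) = 4)) := by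

  exact core hF hp4 R hRs hRi hRU hR6 r hΩ

end Cfsg.Agent.S6001
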