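import Cfsg.Statements.S6002
import Cfsg.Agent.Lib.H99.ST4
import Cfsg.Agent.Lib.H99.PrimeConj
import Cfsg.Agent.Lib.H99.Sp4
import Cfsg.Agent.Lib.H99.BlockW

set_option autoImplicit false
set_option linter.unusedSimpArgs false
open scoped MatrixGroups
open Cfsg

namespace Cfsg.Agent.S6002


universe u

theorem zmod5 : ∀ t : ZMod 5, t ≠ 0 → t ^ 4 = 1 := by decide
theorem zmod3 : ∀ t : ZMod 3, t ≠ 0 → t ^ 2 = 1 := by decide
theorem ord0 : orderOf (0 : ZMod 5) = 0 := by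
  rw [orderOf_eq_zero_iff']
  intro n hn
  rw [zero_pow hn.ne']
  decide

open Matrix Module H99.RElt H99.ST Cfsg.Geo H96.AschSympType1 in
theorem scalar_pm {F : Type u} [Field F] {x : GL (Fin 2 ⊕ Fin 2) F} (hx : x ∈ Cfsg.spGL 2 F) {z : F}
    (hz : (x : Matrix (Fin 2 ⊕ Fin 2) (Fin 2 ⊕ Fin 2) F) = z • (1 : Matrix (Fin 2 ⊕ Fin 2) (Fin 2 ⊕ Fin 2) F)) : z = 1 ∨ z = -1 := by
  have : Nonempty (Fin 2 ⊕ Fin 2) := ⟨.inl 0⟩
  obtain ⟨a, ha⟩ := exists_ne (0 : Fin 2 ⊕ Fin 2 → F)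
  obtain ⟨w, hw⟩ : ∃ w, sympB 2 F a w ≠ 0 := by
    by_contra h
    push Not at h
    exact ha (sympB_nd 2 _ h)
  have h1 := H99.SpInv.gl_isom hx a w
  have hv : ∀ v, Matrix.toLin' (x : Matrix (Fin 2 ⊕ Fin 2) (Fin 2 ⊕ Fin 2) F) v = z • v := by
    intro v
    rw [Matrix.toLin'_apply, hz, Matrix.smul_mulVec, Matrix.one_mulVec]
  rw [hv, hv, map_smul, map_smul, LinearMap.smul_apply, smul_eq_mul, smul_eq_mul] at h1
  have hz2 : z * z = 1 := by
    apply mul_right_cancel₀ hw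
    linear_combination h1
  exact mul_self_eq_one_iff.1 hz2

open Matrix Module H99.RElt H99.ST Cfsg.Geo H96.AschSympType1 in
theorem trace_conj {F : Type u} [Field F] {ι : Type} [Fintype ι] [DecidableEq ι] (g x : GL ι F) :
    ((g⁻¹ * x * g : GL ι F) : Matrix ι ι F).trace = (x : Matrix ι ι F).trace := by
  rw [Units.val_mul, Units.val_mul, Matrix.trace_mul_comm, ← Matrix.mul_assoc, ← Units.val_mul, mul_inv_cancel, Units.val_one, Matrix.one_mul]

open Matrix Module H99.RElt H99.ST Cfsg.Geo H96.AschSympType1 in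
theorem trans_elt {F : Type u} [Field F] [Fintype F] {p : ℕ} [Fact p.Prime] [CharP F p] {d : ℕ} (hd : 0 < d) :
    ∃ x ∈ Cfsg.spGL d F, x ^ p = 1 ∧ x ≠ 1 ∧ finrank F (LinearMap.range (Matrix.toLin' (x : Matrix (Fin d ⊕ Fin d) (Fin d ⊕ Fin d) F) - 1)) ≤ 1 := by
  obtain ⟨a', x0, T, ha, hx0, hT, hTB⟩ := H99.SpInv.exists_transvection (F := F) (d := d) hd
  obtain ⟨x, hx, hxv⟩ := H99.SpInv.exists_gl T hTB
  have hTa : T a' = a' := by
    rw [hT]
    have : sympB d F a' a' = 0 := sympB_alt d a'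
    rw [this, zero_smul, add_zero]
  refine ⟨x, hx, ?_, ?_, ?_⟩
  · apply Units.ext
    apply H99.Skew.matrix_ext
    intro v
    rw [Units.val_pow_eq_pow_val, Units.val_one, Matrix.one_mulVec]
    have hk : ∀ k : ℕ, (x : Matrix (Fin d ⊕ Fin d) (Fin d ⊕ Fin d) F) ^ k *ᵥ v = v + (k : F) • (sympB d F v a' • a') := by
      intro k
      induction k with
      | zero => simp
      | succ k ih =>
        rw [pow_succ', ← Matrix.mulVec_mulVec, ih, hxv, map_add, map_smul, map_smul, hTa, hT]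
        push_cast
        module
    rw [hk, CharP.cast_eq_zero, zero_smul, add_zero]
  · rintro rfl
    have h3 := hxv x0
    rw [hx0, Units.val_one, Matrix.one_mulVec] at h3
    exact ha (left_eq_add.1 h3)
  · have : LinearMap.range (Matrix.toLin' (x : Matrix (Fin d ⊕ Fin d) (Fin d ⊕ Fin d) F) - 1) ≤ Submodule.span F {a'} := by
      rintro _ ⟨v, rfl⟩
      have h1 : (Matrix.toLin' (x : Matrix (Fin d ⊕ Fin d) (Fin d ⊕ Fin d) F) - 1) v = sympB d F v a' • a' := by
        show (x : Matrix (Fin d ⊕ Fin d) (Fin d ⊕ Fin d) F) *ᵥ v - v = _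
        rw [hxv, hT, add_sub_cancel_left]
      rw [h1]
      exact Submodule.smul_mem _ _ (Submodule.mem_span_singleton_self a')
    exact (Submodule.finrank_mono this).trans (finrank_span_singleton ha).le

open Matrix Module H99.RElt H99.ST Cfsg.Geo H96.AschSympType1 in
theorem core {F : Type u} [Field F] [Fintype F] {p : ℕ} [Fact p.Prime] [CharP F p] (hF : Fintype.card F = p) (hodd : Odd p)
    (R : Subgroup (GL (Fin 2 ⊕ Fin 2) F)) (hRs : Cfsg.Geo.IsSymplecticTypeGroup 2 R) (hRi : Cfsg.Geo.ActsAbsolutelyIrreducibly (Cfsg.Geo.matrixSet R))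
    (hRf : R ≤ Cfsg.spGL 2 F) (hRm : Cfsg.Geo.IsOfMinusType 2 R)
    (r : ℕ) [Fact r.Prime]
    (hΩ : r ∣ (Cfsg.Geo.subgroupNormalizer R).relIndex (Cfsg.spGL 2 F)) :
    (∀ x ∈ Cfsg.spGL 2 F, (∃ z : F, ((x ^ r : GL (Fin 2 ⊕ Fin 2) F) : Matrix (Fin 2 ⊕ Fin 2) (Fin 2 ⊕ Fin 2) F) = z • (1 : Matrix (Fin 2 ⊕ Fin 2) (Fin 2 ⊕ Fin 2) F)) →
      (∀ z : F, (x : Matrix (Fin 2 ⊕ Fin 2) (Fin 2 ⊕ Fin 2) F) ≠ z • (1 : Matrix (Fin 2 ⊕ Fin 2) (Fin 2 ⊕ Fin 2) F)) →
      ∃ g ∈ Cfsg.spGL 2 F, g⁻¹ * x * g ∈ Cfsg.Geo.subgroupNormalizer R) ↔ (r = 2 ∨ (r = 5 ∧ orderOf (p : ZMod 5) = 4)) := by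
  classical
  have hp := (Fact.out : p.Prime)
  have hr := (Fact.out : r.Prime)
  have hp2 : p ≠ 2 := by rintro rfl; exact absurd hodd (by decide)
  have hFp : ∀ n : ℕ, ((n : ℕ) : F) = 0 ↔ p ∣ n := fun n => CharP.cast_eq_zero_iff F p n
  have h2 : (2 : F) ≠ 0 := by
    intro h
    have : ((2 : ℕ) : F) = 0 := by exact_mod_cast h
    rw [hFp] at this
    exact hp2 ((Nat.prime_dvd_prime_iff_eq hp Nat.prime_two).1 this)
  have hne : Nonempty (Fin 2 ⊕ Fin 2) := ⟨.inl 0⟩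
  have hfinM : Finite (Matrix (Fin 2 ⊕ Fin 2) (Fin 2 ⊕ Fin 2) F) := by unfold Matrix; infer_instance
  have hfinG : Finite (GL (Fin 2 ⊕ Fin 2) F) := inferInstance
  have D : Dat R := H99.ST.mk hRs hRi h2 (by simp)
  have hmem : ∀ {x : GL (Fin 2 ⊕ Fin 2) F}, x ∈ scalars (Fin 2 ⊕ Fin 2) F ↔ ∃ c : F, (x : Matrix (Fin 2 ⊕ Fin 2) (Fin 2 ⊕ Fin 2) F) = c • (1 : Matrix (Fin 2 ⊕ Fin 2) (Fin 2 ⊕ Fin 2) F) :=
    fun {x} => H99.ST.mem_scalars_iff
  have hsc : ∀ s ∈ R, s ∈ scalars (Fin 2 ⊕ Fin 2) F → s = 1 ∨ s = -1 := by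
    intro s hs hss
    obtain ⟨c, hc⟩ := hmem.1 hss
    rcases scalar_pm (hRf hs) hc with rfl | rfl
    · left; exact Units.ext (by rw [hc, one_smul, Units.val_one])
    · right; exact Units.ext (by rw [hc, neg_smul, one_smul, Units.val_neg, Units.val_one])
  obtain ⟨a, b, c, d, f, haa, hbb, hcc, hdd⟩ := D.minus_frame hRm hsc
  have hRN : ∀ y ∈ R, y ∈ Cfsg.Geo.subgroupNormalizer R := fun y hy => Subgroup.le_normalizer hy
  constructor
  · -- only if
    intro hall
    by_cases hr2 : r = 2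
    · exact Or.inl hr2
    have hrodd : Odd r := hr.odd_of_ne_two hr2
    -- elements of order r are conjugate into the normalizer
    have key : ∀ x ∈ Cfsg.spGL 2 F, x ^ r = 1 → x ≠ 1 → ∃ g y : GL (Fin 2 ⊕ Fin 2) F, y = g⁻¹ * x * g ∧ y ∈ Cfsg.Geo.subgroupNormalizer R ∧ y ^ r = 1 ∧
        y ∉ scalars (Fin 2 ⊕ Fin 2) F := by
      intro x hx hxr hx1
      obtain ⟨g, hg, hN⟩ := hall x hx ⟨1, by rw [hxr, Units.val_one, one_smul]⟩ (H99.Skew.not_scalar (by norm_num) hrodd x hx hxr hx1)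
      refine ⟨g, _, rfl, hN, ?_, ?_⟩
      · have := conj_pow (i := r) (a := g⁻¹) (b := x)
        rw [inv_inv] at this
        rw [this, hxr]; simp
      · intro hs
        have h1 : g⁻¹ * x * g = x := by
          have h3 : g * (g⁻¹ * x * g) = x * g := by group
          exact mul_right_cancel ((scalars_comm hs g).trans h3)
        rw [h1] at hs
        obtain ⟨z, hz⟩ := hmem.1 hs
        exact H99.Skew.not_scalar (by norm_num) hrodd x hx hxr hx1 z hz
    by_cases hrp : r = p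
    · exfalso
      obtain ⟨x, hx, hxp, hx1, hrk⟩ := trans_elt (F := F) (p := p) (d := 2) (by norm_num)
      obtain ⟨g, y, hy, hN, hyr, hys⟩ := key x hx (by rw [hrp]; exact hxp) hx1
      apply hys
      apply D.trans hN hrodd hyr
      rw [hy]
      exact (H99.Skew.rank_conj_le x g).trans hrk
    have hrq : ¬ r ∣ Fintype.card F := by
      rw [hF]
      intro h
      exact hrp ((Nat.prime_dvd_prime_iff_eq hr hp).1 h)
    have hr0 : ((r : ℕ) : F) ≠ 0 := by
      rw [Ne, hFp]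
      intro h
      exact hrp ((Nat.prime_dvd_prime_iff_eq hp hr).1 h).symm
    by_cases hr5 : r = 5
    · right
      refine ⟨hr5, ?_⟩
      by_contra hord
      subst hr5
      have hp5 : (p : ZMod 5) ≠ 0 := by
        rw [Ne, ZMod.natCast_eq_zero_iff]
        rw [hF] at hrq; exact hrq
      have h4 : (p : ZMod 5) ^ 4 = 1 := by
        exact zmod5 _ hp5
      have hp2' : (p : ZMod 5) ^ 2 = 1 := by
        have h5 : orderOf (p : ZMod 5) ∣ 4 := orderOf_dvd_of_pow_eq_one h4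
        have h6 : orderOf (p : ZMod 5) ∣ 2 := by
          have h7 : orderOf (p : ZMod 5) ≤ 4 := Nat.le_of_dvd (by norm_num) h5
          revert h5 hord h7
          generalize orderOf (p : ZMod 5) = k
          intro h5 h7 h8
          interval_cases k <;> simp_all
        exact orderOf_dvd_iff_pow_eq_one.1 h6
      have hdvd : 5 ∣ Fintype.card F ^ 2 - 1 := by
        rw [hF, ← ZMod.natCast_eq_zero_iff, Nat.cast_sub (Nat.one_le_pow _ _ hp.pos)]
        push_cast
        rw [hp2', sub_self]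
      obtain ⟨w, hw, hw1⟩ := H99.BlockW.exists_w hr hrq hdvd
      obtain ⟨x, hx, hxr, hx1, ht1, ht2⟩ := H99.BlockW.exists_block hw hw1
      obtain ⟨g, y, hy, hN, hyr, hys⟩ := key x hx hxr hx1
      have hy' : y⁻¹ = g⁻¹ * x⁻¹ * g := by rw [hy]; group
      have e1 : (y : Matrix (Fin 2 ⊕ Fin 2) (Fin 2 ⊕ Fin 2) F).trace = (w : Matrix (Fin 2) (Fin 2) F).trace + 2 := by
        rw [hy, trace_conj, ht1]
      have e2 : ((y⁻¹ : GL (Fin 2 ⊕ Fin 2) F) : Matrix (Fin 2 ⊕ Fin 2) (Fin 2 ⊕ Fin 2) F).trace = (w : Matrix (Fin 2) (Fin 2) F).trace + 2 := by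
        rw [hy', trace_conj, ht2]
      have hwm : (w : Matrix (Fin 2) (Fin 2) F) ^ 5 = 1 := by
        rw [← Matrix.SpecialLinearGroup.coe_pow, hw, Matrix.SpecialLinearGroup.coe_one]
      have hwm1 : (w : Matrix (Fin 2) (Fin 2) F) ≠ 1 := fun h => hw1 (Subtype.ext h)
      have hτ := H99.BlockW.tr_five w.2 hwm hwm1
      rcases D.main hN (by norm_num) hyr with h | ⟨h, -⟩ | ⟨-, h, -⟩
      · exact hys h
      · rw [e1, e2] at h
        set τ := (w : Matrix (Fin 2) (Fin 2) F).trace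
        apply hr0
        push_cast
        linear_combination (3 * τ - 1) * h - (3 * τ - 1) * hτ - 9 * hτ
      · omega
    by_cases hr3 : r = 3
    · exfalso
      subst hr3
      have hp3 : (p : ZMod 3) ≠ 0 := by
        rw [Ne, ZMod.natCast_eq_zero_iff]
        rw [hF] at hrq; exact hrq
      have hp2' : (p : ZMod 3) ^ 2 = 1 := by
        exact zmod3 _ hp3
      have hdvd : 3 ∣ Fintype.card F ^ 2 - 1 := by
        rw [hF, ← ZMod.natCast_eq_zero_iff, Nat.cast_sub (Nat.one_le_pow _ _ hp.pos)]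
        push_cast
        rw [hp2', sub_self]
      obtain ⟨w, hw, hw1⟩ := H99.BlockW.exists_w hr hrq hdvd
      obtain ⟨x, hx, hxr, hx1, ht1, ht2⟩ := H99.BlockW.exists_block hw hw1
      obtain ⟨g, y, hy, hN, hyr, hys⟩ := key x hx hxr hx1
      have hy' : y⁻¹ = g⁻¹ * x⁻¹ * g := by rw [hy]; group
      have hwm : (w : Matrix (Fin 2) (Fin 2) F) ^ 3 = 1 := by
        rw [← Matrix.SpecialLinearGroup.coe_pow, hw, Matrix.SpecialLinearGroup.coe_one]
      have hwm1 : (w : Matrix (Fin 2) (Fin 2) F) ≠ 1 := fun h => hw1 (Subtype.ext h)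
      have hτ := H99.BlockW.tr_three w.2 hwm hwm1
      have e1 : (y : Matrix (Fin 2 ⊕ Fin 2) (Fin 2 ⊕ Fin 2) F).trace = 1 := by
        rw [hy, trace_conj, ht1, hτ]; norm_num
      have e2 : ((y⁻¹ : GL (Fin 2 ⊕ Fin 2) F) : Matrix (Fin 2 ⊕ Fin 2) (Fin 2 ⊕ Fin 2) F).trace = 1 := by
        rw [hy', trace_conj, ht2, hτ]; norm_num
      rcases D.main hN (by norm_num) hyr with h | ⟨-, -, h⟩ | ⟨h, -, -⟩
      · exact hys h
      · obtain ⟨t, ht, hyt, hts⟩ := D.minus_three hRm hsc hN hyr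
        exact hts (h t ht hyt)
      · rw [e1, e2] at h
        apply hr0
        push_cast
        linear_combination -h
    · -- r ≥ 7
      exfalso
      have hdvd : r ∣ Nat.card (Cfsg.spGL 2 F) := hΩ.trans (Subgroup.relIndex_dvd_card _ _)
      obtain ⟨x, hx⟩ := exists_prime_orderOf_dvd_card' r hdvd
      have hxr : (x : GL (Fin 2 ⊕ Fin 2) F) ^ r = 1 := by
        have h1 := pow_orderOf_eq_one x
        rw [hx] at h1
        exact congrArg Subtype.val h1
      have hx1 : (x : GL (Fin 2 ⊕ Fin 2) F) ≠ 1 := by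
        intro h
        have h1 : x = 1 := Subtype.ext h
        rw [h1, orderOf_one] at hx
        exact hr.one_lt.ne hx
      obtain ⟨g, y, hy, hN, hyr, hys⟩ := key x x.2 hxr hx1
      rcases D.main hN hr2 hyr with h | ⟨-, h, -⟩ | ⟨-, h, -⟩
      · exact hys h
      · rcases h with h | h
        · exact hr3 h
        · exact hr5 h
      · exact hr3 h
  · rintro (rfl | ⟨rfl, hord⟩)
    · -- r = 2
      intro x hx ⟨z, hz⟩ hxs
      have hx2 : (x : Matrix (Fin 2 ⊕ Fin 2) (Fin 2 ⊕ Fin 2) F) * x = z • (1 : Matrix (Fin 2 ⊕ Fin 2) (Fin 2 ⊕ Fin 2) F) := by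
        rw [← hz, pow_two, Units.val_mul]
      have hns : ∀ u v : GL (Fin 2 ⊕ Fin 2) F, u * v = -(v * u) → ∀ z : F, (u : Matrix (Fin 2 ⊕ Fin 2) (Fin 2 ⊕ Fin 2) F) ≠ z • (1 : Matrix (Fin 2 ⊕ Fin 2) (Fin 2 ⊕ Fin 2) F) := by
        intro u v huv z hz
        have hs : u ∈ scalars (Fin 2 ⊕ Fin 2) F := hmem.2 ⟨z, hz⟩
        rw [scalars_comm hs v] at huv
        exact D.ne_neg _ huv
      rcases scalar_pm (Subgroup.pow_mem _ hx 2) hz with rfl | rfl
      · obtain ⟨g, hg, hgy⟩ := H99.Sp4.conj_pos h2 x a hx (hRf f.ha) (by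
          intro v
          rw [Matrix.mulVec_mulVec, hx2, one_smul, Matrix.one_mulVec]) (by
          intro v
          rw [Matrix.mulVec_mulVec, ← Units.val_mul, haa, Units.val_one, Matrix.one_mulVec]) hxs (hns a b f.ab)
        exact ⟨g, hg, by rw [hgy]; exact hRN a f.ha⟩
      · obtain ⟨g, hg, hgy⟩ := H99.Sp4.conj_neg h2 x c hx (hRf f.hc) (by
          intro v
          rw [Matrix.mulVec_mulVec, hx2, neg_smul, one_smul, Matrix.neg_mulVec, Matrix.one_mulVec]) (by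
          intro v
          rw [Matrix.mulVec_mulVec, ← Units.val_mul, hcc, Units.val_neg, Units.val_one, Matrix.neg_mulVec, Matrix.one_mulVec])
        exact ⟨g, hg, by rw [hgy]; exact hRN c f.hc⟩
    · -- r = 5
      have hrq : ¬ 5 ∣ Fintype.card F := by
        intro h
        rw [hF, ← ZMod.natCast_eq_zero_iff] at h
        rw [h] at hord
        have := ord0
        omega
      have hord' : orderOf ((Fintype.card F : ℕ) : ZMod 5) = Fintype.card (Fin 2 ⊕ Fin 2) := by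
        rw [hF, hord]; simp
      -- sign normalization
      have hneg : (-1 : GL (Fin 2 ⊕ Fin 2) F) ∈ Cfsg.spGL 2 F := hRf D.neg
      have hnorm : ∀ x ∈ Cfsg.spGL 2 F, x ^ 5 ∈ scalars (Fin 2 ⊕ Fin 2) F → ∃ ε : GL (Fin 2 ⊕ Fin 2) F, (ε = 1 ∨ ε = -1) ∧ (ε * x) ^ 5 = 1 := by
        intro x hx hs
        obtain ⟨z, hz⟩ := hmem.1 hs
        rcases scalar_pm (Subgroup.pow_mem _ hx 5) hz with rfl | rfl
        · refine ⟨1, Or.inl rfl, ?_⟩
          rw [one_mul]
          exact Units.ext (by rw [hz, one_smul, Units.val_one])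
        · refine ⟨-1, Or.inr rfl, ?_⟩
          rw [neg_one_mul, Odd.neg_pow (by decide)]
          apply Units.ext
          rw [Units.val_neg, hz, neg_smul, one_smul, neg_neg, Units.val_one]
      have hεN : ∀ ε : GL (Fin 2 ⊕ Fin 2) F, (ε = 1 ∨ ε = -1) → ε ∈ R := by
        rintro ε (rfl | rfl)
        · exact R.one_mem
        · exact D.neg
      obtain ⟨m, hmN, hm5, hms, hΦ⟩ := D.exists_five f haa hbb hcc hdd
      have hmsp : m ∈ Cfsg.spGL 2 F := by
        intro u v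
        have h1 := hΦ (AddMonoidHom.mk' (fun u => (sympB 2 F u).toAddMonoidHom) (by intro a b; ext; simp)) (by
          intro g hg u v
          exact hRf hg u v) u v
        exact h1
      obtain ⟨ε, hε, hy5⟩ := hnorm m hmsp hm5
      set y := ε * m with hy
      have hysp : y ∈ Cfsg.spGL 2 F := Subgroup.mul_mem _ (hRf (hεN ε hε)) hmsp
      have hyN : y ∈ Cfsg.Geo.subgroupNormalizer R := Subgroup.mul_mem _ (hRN _ (hεN ε hε)) hmN
      have hy1 : y ≠ 1 := by
        intro h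
        apply hms
        have h1 : m = ε⁻¹ := by rw [← mul_right_inj ε, ← hy, h, mul_inv_cancel]
        rw [h1]
        apply Subgroup.inv_mem
        rcases hε with rfl | rfl
        · exact Subgroup.one_mem _
        · exact hmem.2 ⟨-1, by rw [Units.val_neg, Units.val_one, neg_smul, one_smul]⟩
      intro x hx ⟨z, hz⟩ hxs
      obtain ⟨δ, hδ, hx5⟩ := hnorm x hx (hmem.2 ⟨z, hz⟩)
      have hdsp : δ * x ∈ Cfsg.spGL 2 F := Subgroup.mul_mem _ (hRf (hεN δ hδ)) hx
      obtain ⟨g, hg⟩ := H99.PrimeConj.sylow_conj (G := Cfsg.spGL 2 F) (r := 5) (x := ⟨δ * x, hdsp⟩) (y := ⟨y, hysp⟩) (by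
        intro z x hz hx hzx
        have h1 := H99.PrimeConj.comm_irred hr hrq hord' (z : GL (Fin 2 ⊕ Fin 2) F) (x : GL (Fin 2 ⊕ Fin 2) F) (by
          have h1 := pow_orderOf_eq_one z
          rw [hz] at h1
          exact congrArg Subtype.val h1) (by
          intro h
          have h1 : z = 1 := Subtype.ext h
          rw [h1, orderOf_one] at hz
          omega) (congrArg Subtype.val hx) (congrArg Subtype.val hzx)
        obtain ⟨k, hk⟩ := Subgroup.mem_zpowers_iff.1 h1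
        refine Subgroup.mem_zpowers_iff.2 ⟨k, ?_⟩
        apply Subtype.ext
        rw [Subgroup.coe_zpow]
        exact hk) (Subtype.ext hx5) (orderOf_eq_prime (Subtype.ext hy5) (fun h => hy1 (congrArg Subtype.val h)))
      obtain ⟨k, hk⟩ := Subgroup.mem_zpowers_iff.1 hg
      have hk' := congrArg Subtype.val hk
      rw [Subgroup.coe_zpow] at hk'
      have hk2 : y ^ k = (g : GL (Fin 2 ⊕ Fin 2) F)⁻¹ * (δ * x) * g := hk'
      refine ⟨g, g.2, ?_⟩
      have hδc : ∀ h : GL (Fin 2 ⊕ Fin 2) F, δ * h = h * δ := by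
        intro h
        rcases hδ with rfl | rfl <;> simp
      have h3 : (g : GL (Fin 2 ⊕ Fin 2) F)⁻¹ * x * g = δ⁻¹ * y ^ k := by
        rw [hk2, ← mul_assoc _ δ x, ← hδc]
        group
      rw [h3]
      exact Subgroup.mul_mem _ (Subgroup.inv_mem _ (hRN _ (hεN δ hδ))) (Subgroup.zpow_mem _ hyN k)

/-- Elements of prime order of PSp_4(p), p odd, and the normalizer of an extraspecial 2-group of order 2⁵ of minus type. Here `T = PSp_4(F)` for the field `F` with `p` elements, `p` an odd prime, realised through the matrices preserving the standard alternating form `f`; `R` is an absolutely irreducible subgroup of `T` (it preserves `f`) that is a 2-group of symplectic type of exponent 4, order 2⁵ and centre of order 2, of minus type (no elementary abelian subgroup of order 2³), and `H` is the subgroup of `T` normalizing `R` — a subgroup of type 2^{1+4}.O₄⁻(2) (maximality is not assumed). Ω is the set of cosets of `H` in `T`, so an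 element of `T` of prime order `r` (`x ∈ T` with `x^r` scalar, `x` not scalar) fixes a point of Ω exactly when some `T`-conjugate of `x` normalizes `R`. Let `r` be a prime dividing the index of `H`. Then every element of `T` of order `r` fixes a point of Ω if and only if `r = 2`, or `r = 5` and `p` has multiplicative order 4 modulo 5. -/
theorem result {F : Type*} [Field F] [Fintype F] {p : ℕ} [Fact p.Prime] [CharP F p] (hF : Fintype.card F = p) (hodd : Odd p)
    (R : Subgroup (GL (Fin 2 ⊕ Fin 2) F)) (hRs : Cfsg.Geo.IsSymplecticTypeGroup 2 R) (hRi : Cfsg.Geo.ActsAbsolutelyIrreducibly (Cfsg.Geo.matrixSet R))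
    (hRf : R ≤ Cfsg.spGL 2 F) (hR5 : Nat.card R = 2 ^ 5) (hRZ : Nat.card (Subgroup.center R) = 2) (hRm : Cfsg.Geo.IsOfMinusType 2 R)
    (r : ℕ) [Fact r.Prime]
    (hΩ : r ∣ (Cfsg.Geo.subgroupNormalizer R).relIndex (Cfsg.spGL 2 F)) :
    (∀ x ∈ Cfsg.spGL 2 F, (∃ z : F, ((x ^ r : GL (Fin 2 ⊕ Fin 2) F) : Matrix (Fin 2 ⊕ Fin 2) (Fin 2 ⊕ Fin 2) F) = z • (1 : Matrix (Fin 2 ⊕ Fin 2) (Fin 2 ⊕ Fin 2) F)) →
      (∀ z : F, (x : Matrix (Fin 2 ⊕ Fin 2) (Fin 2 ⊕ Fin 2) F) ≠ z • (1 : Matrix (Fin 2 ⊕ Fin 2) (Fin 2 ⊕ Fin 2) F)) →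
      ∃ g ∈ Cfsg.spGL 2 F, g⁻¹ * x * g ∈ Cfsg.Geo.subgroupNormalizer R) ↔ (r = 2 ∨ (r = 5 ∧ orderOf (p : ZMod 5) = 4)) := by

  exact core hF hodd R hRs hRi hRf hRm r hΩ

end Cfsg.Agent.S6002
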